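import Cfsg.Statements.S0381
import Cfsg.Agent.H8.GE
-- import your own Cfsg.Agent.* helpers here

set_option autoImplicit false
set_option maxRecDepth 200000
open Cfsg

namespace Cfsg.Agent.S0381

/-- The pointwise stabiliser of an octad in the group of the length-24 code has order 16 and every element of it squares to the identity. -/
theorem result (o : Finset Cfsg.GolayPt) (ho : o ∈ Cfsg.octads) : Nat.card ↥(Cfsg.M24 ⊓ fixingSubgroup (Equiv.Perm Cfsg.GolayPt) (o : Set Cfsg.GolayPt)) = 16 ∧ ∀ g ∈ Cfsg.M24 ⊓ fixingSubgroup (Equiv.Perm Cfsg.GolayPt) (o : Set Cfsg.GolayPt), g * g = 1 := by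
  obtain ⟨C, hC, rfl⟩ := H8.wO ho
  have e : (M24 ⊓ fixingSubgroup (Equiv.Perm GolayPt) (C.fs 5279 : Set GolayPt)).subgroupOf M24 = H8.SM M24 C [0, 1, 2, 3, 4, 7, 10, 12] [] [] :=
    Subgroup.ext fun g => (and_iff_right g.2).trans ((mem_fixingSubgroup_iff _).trans (H8.fixS_iff hC.n (by decide)))
  refine ⟨(H8.card_up inf_le_left e).trans (H8.GE.focard hC), fun g hg => ?_⟩
  have := (H8.GE.foch hC).expo H8.GE.foe2 ⟨⟨g, hg.1⟩, e ▸ hg⟩
  rw [← pow_two]; exact congrArg (fun x => x.1.1) this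

end Cfsg.Agent.S0381
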