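import Cfsg.Statements.S5433
import Cfsg.Agent.H2.XS2
import Cfsg.Agent.H1.SylowIn

set_option autoImplicit false
open Cfsg

namespace Cfsg.Agent.S5433

open H2 H9 Subgroup in

/-- Let Q be a large extraspecial 2-subgroup of the finite group G (extraspecial; centralizer equal to its centre; normal in the centralizer of its centre; normalizing no non-trivial subgroup of odd order), and L a normal subgroup of G containing Q. Then G is the product of L and the normalizer of Q. -/
theorem result {G : Type*} [Group G] [Finite G] (Q : Subgroup G) (hQ : Cfsg.IsLargeExtraspecial Q) (L : Subgroup G) [L.Normal] (hQL : Q ≤ L) : L ⊔ Subgroup.normalizer (Q : Set G) = ⊤ := by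
  haveI := Fact.mk Nat.prime_two
  obtain ⟨z, h⟩ := lx_of' hQ.1 hQ.2.1 hQ.2.2.1
  obtain ⟨S, hS, h1⟩ := H1.exists_isSylowIn_ge h.p hQL
  rw [eq_top_iff, ← hS.frattini_top]
  refine sup_le_sup_left (fun g hg => h.norm ?_) _
  obtain ⟨⟨w, hw⟩, h2⟩ := ne_bot_iff_exists_ne_one.1 (inf_centralizer_ne_bot_of_p hS.2 hS.2 le_normalizer
    fun e => h.z1 (mem_bot.1 (e ▸ h1 h.zQ)))
  have key : ∀ w ∈ S ⊓ centralizer (S : Set G), w ≠ 1 → w = z := fun w hw e =>
    ((mem_zp2 h.z2).1 (h.centralizer_eq ▸ centralizer_anti h1 hw.2)).resolve_left e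
  obtain rfl := key w hw fun e => h2 (Subtype.ext e)
  exact conj_eq_iff_comm.1 (key _ (H1.conj_mem_of_mem_normalizer (normalizer_inf le_rfl (normalizer_centralizer le_rfl) hg) hw)
    (by simpa using h.z1))

end Cfsg.Agent.S5433
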