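import Cfsg.Statements.S4721
import Cfsg.Agent.H4.Frob3

set_option autoImplicit false
open Cfsg

namespace Cfsg.Agent.S4721

open H4 H1 MonoidAlgebra
open scoped Pointwise ComplexConjugate

theorem arith_ten {d δ a r : ℤ} (hδ : δ = 1 ∨ δ = -1) (hr : 2 ≤ r) (h1 : 1 ≤ (d - δ) ^ 2 + (r - 1) * d ^ 2) (h2 : 1 ≤ a ^ 2)
    (h : (d - δ) ^ 2 + (r - 1) * d ^ 2 + (1 + a ^ 2) = 4) : r = 3 := by
  have h3 : a ^ 2 = 1 := by
    have : a < 2 := by nlinarith
    have : -2 < a := by nlinarith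
    obtain rfl | rfl | rfl : a = 1 ∨ a = -1 ∨ a = 0 := by omega
    all_goals simp at h2 ⊢
  have h4 : d ^ 2 ≤ 2 := by nlinarith [sq_nonneg (d - δ), sq_nonneg d]
  have : d < 2 := by nlinarith
  have : -2 < d := by nlinarith
  obtain rfl | rfl | rfl : d = 1 ∨ d = -1 ∨ d = 0 := by omega
  all_goals rcases hδ with rfl | rfl <;> norm_num [h3] at h <;> omega


/-- Let p be a prime, M a maximal ideal of the algebraic integers containing p, and G a finite group with a nontrivial abelian Sylow p-subgroup P, N = N_G(P), C = C_G(P), such that N/C is cyclic of order 3, #P > 4, and C_G(y) ∩ N = C for every non-identity y ∈ P. Then the principal p-block is the disjoint union of a set X of exactly 3 characters containing the principal character and a set Y of (#P − 1)/3 characters, with signs a_χ = ±1 (χ ∈ X, a = 1 at the principal character) and δ = ±1 such that every χ ∈ X takes the value a_χ at every element whose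 p-part is a non-identity element of P, and there is a map ζ from the non-principal linear characters of P onto Y, constant on N-conjugacy classes, with ζ_ψ(z) = δ·Σ ψ'(y) over the N-orbit of ψ, for z with p-part y ≠ 1 in P. If moreover G has an involution lying in no proper normal subgroup of G, then exactly two of the three numbers −δ and a_χ (χ ∈ X non-principal) equal −1, and the product of the degrees of the two non-principal members of X and of any member of Y is a perfect square. -/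
theorem result {G : Type*} [Group G] [Finite G] (p : ℕ) [Fact p.Prime] (M : Ideal Cfsg.AlgInt) (hM : Cfsg.IsPModular p M) (P : Sylow p G) (hab : IsMulCommutative P) (hP1 : Nat.card P ≠ 1) (hCN : (Subgroup.centralizer ((P : Subgroup G) : Set G)).relIndex (Subgroup.normalizer ((P : Subgroup G) : Set G)) = 3) (hcyc : ∃ g : G, g ∈ Subgroup.normalizer ((P : Subgroup G) : Set G) ∧ Subgroup.centralizer ((P : Subgroup G) : Set G) ⊔ Subgroup.zpowers g = Subgroup.normalizer ((P : Subgroup G) : Set G)) (hm2 : 3 + 1 < Nat.card P) (hfrob : ∀ y : G, y ∈ (P : Subgroup G) → y ≠ 1 → Subgroup.centralizer ({y} : Set G) ⊓ Subgroup.normalizer ((P : Subgroup G) : Set G) = Subgroup.centralizer ((P : Subgroup G) : Set G)) : ∃ (X Y : Set (Cfsg.IrrCharacter G)), Cfsg.principalBlock M G = X ∪ Y ∧ Disjoint X Y ∧ Nat.card X = 3 ∧ Nat.card Y = (Nat.card P - 1) / 3 ∧ (∃ χ₁ ∈ X, (χ₁ : G → ℂ) = fun _ => 1) ∧ ∃ (a : Cfsg.IrrCharacter G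 → ℤ) (δ : ℤ) (ζ : (↥(P : Subgroup G) →* ℂˣ) → Cfsg.IrrCharacter G), (δ = 1 ∨ δ = -1) ∧ (∀ χ ∈ X, (a χ = 1 ∨ a χ = -1) ∧ ∀ z y : G, Cfsg.IsPPart p z y → y ∈ (P : Subgroup G) → y ≠ 1 → (χ : G → ℂ) z = (a χ : ℂ)) ∧ (∀ ψ : ↥(P : Subgroup G) →* ℂˣ, ψ ≠ 1 → ζ ψ ∈ Y) ∧ (∀ η ∈ Y, ∃ ψ : ↥(P : Subgroup G) →* ℂˣ, ψ ≠ 1 ∧ ζ ψ = η) ∧ (∀ ψ ψ' : ↥(P : Subgroup G) →* ℂˣ, ψ ≠ 1 → (∃ n : G, n ∈ Subgroup.normalizer ((P : Subgroup G) : Set G) ∧ ∀ w w' : ↥(P : Subgroup G), (w' : G) = n * w * n⁻¹ → ψ' w' = ψ w) → ζ ψ' = ζ ψ) ∧ (∀ ψ : ↥(P : Subgroup G) →* ℂˣ, ψ ≠ 1 → ∀ (z : G) (y : ↥(P : Subgroup G)), Cfsg.IsPPart p z (y : G) → (y : G) ≠ 1 → (ζ ψ : G → ℂ) z = (δ : ℂ) * ∑ᶠ ψ' ∈ {ψ' : ↥(P : Subgroup G) →* ℂˣ | ∃ n : G, n ∈ Subgroup.normalizer ((P : Subgroup G) : Set G) ∧ ∀ w w' : ↥(P : Subgroup G), (w' : G) = n * w * n⁻¹ → ψ' w' = ψ w}, ((ψ' y : ℂˣ) : ℂ)) ∧ ((∃ t : G, orderOf t = 2 ∧ ∀ K : Subgroup G, K.Normal → t ∈ K → K = ⊤)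 → Nat.card {χ : Cfsg.IrrCharacter G // χ ∈ X ∧ (χ : G → ℂ) ≠ (fun _ => 1) ∧ a χ = -1} + (if δ = 1 then 1 else 0) = 2 ∧ ∀ η ∈ Y, IsSquare (Cfsg.charDegree (η : G → ℂ) * ∏ᶠ χ ∈ {χ : Cfsg.IrrCharacter G | χ ∈ X ∧ (χ : G → ℂ) ≠ fun _ => 1}, Cfsg.charDegree (χ : G → ℂ))) := by
  classical
  have := Fintype.ofFinite G
  have := Fintype.ofFinite P
  have := Finite.one_lt_card_iff_nontrivial.1 (show 1 < Nat.card P by omega)
  obtain ⟨Θ, x, h1, h2, h3⟩ := frob_exc hM hab hfrob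
  have hF := fb_frob hM hab hfrob
  have h0 := (card_ga le_rfl).trans hCN
  have h5 := h1.toFr.card_OS
  rw [h0] at h5
  have hr : (OS (ga (P : Subgroup G) (NS P))).card ≠ 1 := fun e => by rw [e] at h5; omega
  obtain ⟨ζ, a, δ, h4, h6, h7⟩ := h1.dade (by
    obtain ⟨ζ, a, d, δ, h4⟩ := h1.exc ⟨_, triv_mem_principal hM⟩
    have k1 := hF.free.count hM hF.hB hF.hm hF.ab
    have k2 := h4.card
    have k3 := rank_pos (p := p) ⟨_, triv_mem_principal (G := G) hM⟩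
    have k4 : blockRank p (principalBlock M G) ≠ 1 := fun e => by
      have := ((isNilpotentBlock_iff_top hM).1 ((Cfsg.Agent.S4646.result p M hM).2 e)).2.stab_le hM P.isPGroup' hF.hm.be
        hF.hm.mul (hF.hm.ADG_stab hM)
      rw [stab_e0 hM, sup_eq_right.2 hF.ab] at this
      exact absurd (hCN.symm.trans (Subgroup.relIndex_eq_one.2 this)) (by decide)
    rw [stab_e0 hM, hCN] at k1
    rw [h0]
    by_contra k5
    obtain ⟨k6, k7⟩ := h3 ζ a d δ h4 hr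
    obtain ⟨χ, k8⟩ := Finset.card_eq_one.1 (show ((fs (principalBlock M G \ ζ '' OS (ga (P : Subgroup G) (NS P)))).erase
      (triv G)).card = 1 by rw [Finset.card_erase_of_mem (mem_fs.2 k6), card_fs]; omega)
    have k9 := h4.norm
    have k10 := h4.pos
    have k11 := h4.le_sum χ (Finset.mem_of_mem_erase (k8.ge (Finset.mem_singleton_self χ)))
    rw [← Finset.add_sum_erase _ _ (mem_fs.2 k6), k8, Finset.sum_singleton, k7, h0] at k9
    have k13 : Nat.card P = 10 := by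
      have := arith_ten h4.sign (by omega) k10 k11 (by simpa using k9)
      omega
    obtain ⟨n, hn⟩ := P.isPGroup'.exists_card_eq
    have k15 := fun q (hq : q.Prime) (h : q ∣ 10) => (Nat.prime_dvd_prime_iff_eq hq hM.1).1 (hq.dvd_of_dvd_pow (hn ▸ k13 ▸ h))
    exact absurd ((k15 2 Nat.prime_two (by decide)).trans (k15 5 Nat.prime_five (by decide)).symm) (by decide))
  rw [h0] at h6
  obtain ⟨k6, k7⟩ := h3 ζ a 0 δ h4 hr
  have h8 : (Nat.card P - 1) / 3 = (OS (ga (P : Subgroup G) (NS P))).card := by omega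
  have hv : ∀ o ∈ OS (ga (P : Subgroup G) (NS P)), ∀ y : P, y ≠ 1 → ∀ g : G, pp p g = y → (ζ o).1 g = δ * o y :=
    fun o ho y hy g hg => by rw [h2 _ (h4.mem _ ho) _ hy g hg, h4.val _ ho _ hy]; simp
  have hv' : ∀ χ ∈ principalBlock M G \ ζ '' OS (ga (P : Subgroup G) (NS P)), ∀ y : P, y ≠ 1 → ∀ g : G, pp p g = y →
    χ.1 g = a χ := fun χ hχ y hy g hg => (h2 χ hχ.1 _ hy g hg).trans ((h4.val' χ hχ).2 _ hy)
  refine ⟨_, _, h4.union, Set.disjoint_sdiff_left, h6, h8 ▸ h4.card_image, ⟨_, k6, rfl⟩, a, δ, fun ψ => ζ (os _ ψ), h4.sign,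
    fun χ hχ => ⟨h7 χ hχ, fun z y hz hy h => hv' χ hχ ⟨y, hy⟩ (fun e => h (congrArg Subtype.val e)) z
      (eq_pp_of_isPPart hM.1 hz).symm⟩, fun ψ hψ => ⟨_, mem_OS.2 ⟨ψ, hψ, rfl⟩, rfl⟩, ?_,
    fun ψ ψ' _ h => congrArg ζ (os_conj h), fun ψ hψ z y hz hy => ?_, fun ⟨t, ht, hK⟩ => ?_⟩
  · rintro _ ⟨_, ho, rfl⟩
    obtain ⟨l, hl, rfl⟩ := mem_OS.1 ho
    exact ⟨l, hl, rfl⟩
  · rw [hv _ (mem_OS.2 ⟨ψ, hψ, rfl⟩) y (fun e => hy (congrArg Subtype.val e)) z (eq_pp_of_isPPart hM.1 hz).symm,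
      os_finsum h1.toFr hψ]
  obtain ⟨χ₁, χ₂, k1, k2⟩ := Finset.card_eq_two.1 (show ((fs (principalBlock M G \ ζ '' OS (ga (P : Subgroup G)
    (NS P)))).erase (triv G)).card = 2 by rw [Finset.card_erase_of_mem (mem_fs.2 k6), card_fs, h6])
  have k3 : ∀ χ, (χ ∈ principalBlock M G \ ζ '' OS (ga (P : Subgroup G) (NS P)) ∧ χ.1 ≠ fun _ => 1) ↔ χ = χ₁ ∨ χ = χ₂ :=
    fun χ => by
      rw [← Finset.mem_singleton (b := χ) (a := χ₂), ← Finset.mem_insert, ← k2, Finset.mem_erase, mem_fs, and_comm]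
      exact and_congr_left' ⟨fun h e => h (e ▸ rfl), fun h e => h (Subtype.ext e)⟩
  have k4 : ∀ f : IrrCharacter G → ℂ, ∑ χ ∈ fs (principalBlock M G \ ζ '' OS (ga (P : Subgroup G) (NS P))), f χ =
      f (triv G) + (f χ₁ + f χ₂) := fun f => by rw [← Finset.add_sum_erase _ _ (mem_fs.2 k6), k2, Finset.sum_pair k1]
  have k5 := fun f : IrrCharacter G → ℂ => (sum_split h4.mem h4.inj f).trans (congrArg _ (k4 f))
  have m1 := (k3 χ₁).2 (.inl rfl)
  have m2 := (k3 χ₂).2 (.inr rfl)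
  have hδ : (δ : ℂ) * δ = 1 := by rcases h4.sign with rfl | rfl <;> simp
  have hy0 : ∀ y : P, pp p (y : G) = y := fun y => pp_of_isPElt hM.1 (isPElt_of_mem hM.1 P.isPGroup' y.2)
  have hd : ∀ o ∈ OS (ga (P : Subgroup G) (NS P)), ∀ o' ∈ OS (ga (P : Subgroup G) (NS P)), (ζ o).1 1 = (ζ o').1 1 :=
    fun o ho o' ho' => h4.reg o ho o' ho' 1 (not_dvd_orderOf_one hM.1)
  have hz : ∀ y : P, y ≠ 1 → (p = 2 → ¬ IsConj (y : G) t) →
      ∑ χ ∈ fs (principalBlock M G), conj (χ.1 y) * (χ.1 t * χ.1 t / χ.1 1) = 0 := fun y hy h => by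
    have : ∑ i, KB (principalBlock M G) (i * t * i⁻¹ * t) y = 0 := Finset.sum_eq_zero fun i _ =>
      KB_eq_zero hM isPBlock_principal fun e => by
        rw [hy0] at e
        rcases frob_pp hab h1.toFr h0 ((H4.orderOf_conj t i).trans ht) ht (isConj_iff.2 ⟨i, rfl⟩).symm with e' | ⟨e', e''⟩
        · exact hy (Subtype.ext (by simpa [e'] using e.symm))
        · exact h e' (e.symm.trans e'')
    simp only [KB] at this
    rw [Finset.sum_comm] at this
    apply mul_left_cancel₀ (H3.card_ne_zero' G)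
    rw [mul_zero, ← this, Finset.mul_sum]
    refine Finset.sum_congr rfl fun χ _ => ?_
    have h1 := sum_conj_mul χ.2 t t
    have h2 := H3.irr_one_ne_zero χ.2
    rw [← Finset.sum_mul]
    field_simp
    linear_combination -conj (χ.1 y) * h1
  have hs : ∀ y : P, y ≠ 1 → ∑ o ∈ OS (ga (P : Subgroup G) (NS P)), conj ((ζ o).1 y) = -δ := fun y hy => by
    rw [← map_sum, Finset.sum_congr rfl fun o ho => hv o ho y hy y (hy0 y), ← Finset.mul_sum, h1.toFr.sum_OS_apply hy]; simp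
  obtain ⟨o, ho, r2, r3⟩ : ∃ o ∈ OS (ga (P : Subgroup G) (NS P)), 1 + a χ₁ * χ₁.1 t + a χ₂ * χ₂.1 t + -δ * (ζ o).1 t = 0 ∧
      1 + a χ₁ * (χ₁.1 t ^ 2 / χ₁.1 1) + a χ₂ * (χ₂.1 t ^ 2 / χ₂.1 1) + -δ * ((ζ o).1 t ^ 2 / (ζ o).1 1) = 0 := by
    by_cases hp : p = 2
    · subst hp
      obtain ⟨g, hg⟩ := exists_conj_mem_sylow P (isPElt_two ht)
      have n1 : (⟨_, hg⟩ : P) ≠ 1 := fun e => ne_one_of_two ht (by simpa using congrArg Subtype.val e)
      have n2 : ∀ χ : IrrCharacter G, χ.1 t = χ.1 (⟨_, hg⟩ : P) := fun χ => (H3.irr_class χ.2 t g).symm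
      have n3 := fun o ho => h1.toFr.os_sq h0 (o := o) ho (t := ⟨_, hg⟩) (Subtype.ext (conj_mul_self (mul_self_of_two ht) g))
      obtain ⟨o, ho, n4⟩ : ∃ o ∈ OS (ga (P : Subgroup G) (NS P)), o ⟨_, hg⟩ = 3 := by
        by_contra! h
        have := h1.toFr.sum_OS_apply n1
        rw [Finset.sum_congr rfl fun o ho => (n3 o ho).resolve_left (h o ho)] at this
        exact hr (by simpa using this)
      obtain ⟨y, hy, n5⟩ : ∃ y : P, y ≠ 1 ∧ ¬ IsConj (y : G) t := by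
        by_contra! h
        exact hr (h1.toFr.not_const ho (c := 3) fun y hy => by
          obtain ⟨γ, h3, rfl⟩ := sylow_fus hab (a := ⟨_, hg⟩) ((isConj_iff.2 ⟨g, rfl⟩).symm.trans (h y hy).symm)
          obtain ⟨l, -, rfl⟩ := mem_OS.1 ho
          rw [ai_os l γ h3, n4])
      have n6 := hz y hy fun _ => n5
      have n7 := KB_eq_zero hM isPBlock_principal (g := t) (h := y) (by
        rw [hy0, pp_of_isPElt hM.1 (isPElt_two ht)]; exact fun e => n5 e.symm)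
      rw [k5, Finset.sum_congr rfl (g := fun o' => (3 * conj ((ζ o').1 y) + 2 * δ * ((ζ o').1 t * conj ((ζ o').1 y))) /
        (ζ o).1 1) fun o' ho' => by
          rw [hd o' ho' o ho, n2, hv o' ho' _ n1 _ (hy0 _)]
          rcases n3 o' ho' with e | e <;> rw [e] <;> rcases h4.sign with rfl | rfl <;> ring, ← Finset.sum_div,
        Finset.sum_add_distrib, ← Finset.mul_sum, ← Finset.mul_sum, hs y hy] at n6
      rw [KB, k5, ← eq_neg_iff_add_eq_zero] at n7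
      rw [n7] at n6
      refine ⟨o, ho, ?_⟩
      simp only [n2, hv o ho _ n1 _ (hy0 _), n4, hv' _ m1.1 _ n1 _ (hy0 _), hv' _ m2.1 _ n1 _ (hy0 _),
        hv' _ m1.1 _ hy _ (hy0 _), hv' _ m2.1 _ hy _ (hy0 _), map_intCast, triv_apply] at n6 ⊢
      rcases h7 _ m1.1 with e1 | e1 <;> rcases h7 _ m2.1 with e2 | e2 <;> rcases h4.sign with rfl | rfl <;>
        simp only [e1, e2] at n6 ⊢ <;> push_cast at n6 ⊢ <;> exact ⟨by ring, by simp at n6 ⊢; linear_combination n6⟩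
    · obtain ⟨o, ho⟩ := h1.toFr.nonempty
      obtain ⟨y, hy⟩ := exists_ne (1 : P)
      have n1 : ¬ p ∣ orderOf t := fun e => hp ((Nat.prime_dvd_prime_iff_eq hM.1 Nat.prime_two).1 (ht ▸ e))
      have n2 := h4.rel o ho t n1
      have n3 := hz y hy fun e => (hp e).elim
      rw [k5, Finset.sum_congr rfl fun o' ho' => by rw [hd o' ho' o ho, h4.reg o' ho' o ho t n1], ← Finset.sum_mul, hs y hy,
        hv' _ m1.1 _ hy _ (hy0 _), hv' _ m2.1 _ hy _ (hy0 _)] at n3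
      rw [k4, k7] at n2
      simp at n2 n3
      exact ⟨o, ho, by linear_combination n2, by linear_combination n3⟩
  have r1 := h4.rel o ho 1 (not_dvd_orderOf_one hM.1)
  rw [k4, k7] at r1
  have hi := fun χ : IrrCharacter G => char_int_of_sq (H3.char_gen (H3.irr_char χ.2)) (orderOf_dvd_iff_pow_eq_one.1 ht.dvd)
  choose u hu using hi
  have hne : ∀ χ : IrrCharacter G, χ.1 ≠ (fun _ => 1) → u χ ≠ charDegree χ.1 := fun χ h e => h (H3.irr_eq_one_of_const χ.2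
    fun g => (H3.mem_charKer (H3.irr_char χ.2) g).1 ((hK (H3.charKer χ.1) (H3.charKer_normal (H3.irr_class χ.2)) ((H3.mem_charKer (H3.irr_char χ.2) t).2
      (by rw [hu, e, irr_one_eq]; simp))).ge (Subgroup.mem_top g)))
  simp only [hu, irr_one_eq χ₁, irr_one_eq χ₂, irr_one_eq (ζ o), triv_apply] at r1 r2 r3
  obtain ⟨q1, q2⟩ := arith_sq (c := -δ) (h7 _ m1.1) (h7 _ m2.1) (by rcases h4.sign with rfl | rfl <;> simp)
    (charDegree_ne_zero χ₁.2) (charDegree_ne_zero χ₂.2) (charDegree_ne_zero (ζ o).2) (hne _ m1.2) (hne _ m2.2)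
    (hne _ fun e => k6.2 ⟨o, ho, Subtype.ext e⟩) (Int.cast_injective (α := ℂ) (by push_cast at r1 ⊢; linear_combination r1))
    (by exact_mod_cast r2) (by exact_mod_cast r3)
  refine ⟨?_, ?_⟩
  · rw [← q1, Nat.card_eq_fintype_card, Fintype.card_subtype, show Finset.univ.filter _ = ({χ₁, χ₂} : Finset _).filter
      (a · = -1) from Finset.ext fun χ => by simp [← and_assoc, ← k3], Finset.card_filter, Finset.sum_pair k1]
    simp only [neg_inj]
  · rintro _ ⟨o', ho', rfl⟩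
    rw [show {χ | _} = {χ₁, χ₂} from Set.ext k3, finprod_mem_pair k1, charDegree, hd o' ho' o ho]
    exact q2

end Cfsg.Agent.S4721
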