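import Cfsg.Statements.S0264
import Cfsg.Agent.H5.SL

set_option autoImplicit false
open Cfsg

namespace Cfsg.Agent.S0264

open H5 Matrix

/-- GL_n(F)' = SL_n(F) (as the kernel of det), for every field F and every n, except n = 2 over the field of two elements. -/
theorem result {F : Type*} [Field F] (n : ℕ) (h : n = 2 → ∃ a : F, a ≠ 0 ∧ a ≠ 1) : commutator (Matrix.GeneralLinearGroup (Fin n) F) = (Matrix.GeneralLinearGroup.det : Matrix.GeneralLinearGroup (Fin n) F →* Fˣ).ker := by
  refine le_antisymm (Abelianization.commutator_subset_ker _) ?_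
  rw [← range_toGL, MonoidHom.range_eq_map, Subgroup.map_le_iff_le_comap]
  refine (eq_top_of_transvection_mem _ fun i j hij c => ?_).ge
  rcases eq_or_ne n 2 with rfl | h2
  · obtain ⟨a, a0, a1⟩ := h rfl
    let d : GL (Fin 2) F := GeneralLinearGroup.mkOfDetNeZero (diagonal (Function.update 1 i a)) (by simp [Finset.prod_update_of_mem, a0])
    have := Subgroup.commutator_mem_commutator (Subgroup.mem_top d) (Subgroup.mem_top (SpecialLinearGroup.toGL
      (SpecialLinearGroup.transvection hij (c / (a - 1)))))
    rw [Subgroup.mem_comap, commutator_def]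
    convert this using 1
    rw [commutatorElement_def, eq_mul_inv_iff_mul_eq, eq_mul_inv_iff_mul_eq]
    refine Units.ext ?_
    have := sub_ne_zero.2 a1
    simp only [Units.val_mul, SpecialLinearGroup.coe_GL_coe_matrix, SpecialLinearGroup.transvection_coe]
    ext k l
    fin_cases i <;> fin_cases j <;> (try exact absurd rfl hij) <;> fin_cases k <;> fin_cases l <;>
      simp [d, transvection, mul_apply, Fin.sum_univ_two] <;> field_simp <;> ring
  · have : Nontrivial (Fin n) := ⟨i, j, hij⟩
    obtain ⟨k, h1, h3⟩ := exists_third (ι := Fin n) (by have := Fin.nontrivial_iff_two_le.1 this; simp; omega) i j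
    rw [Subgroup.mem_comap, ← mul_one c, ← commutator_transvection h1.symm h3 hij, map_commutatorElement]
    exact Subgroup.commutator_mem_commutator trivial trivial


end Cfsg.Agent.S0264
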