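import Cfsg.Statements.S0304
import Cfsg.Agent.H5.Iso2

set_option autoImplicit false
open Cfsg

namespace Cfsg.Agent.S0304

open H5 H5.Form Matrix

/-- In characteristic 2, O_{2m+1}(q) is isomorphic to Sp_{2m}(q). -/
theorem result {F : Type*} [Field F] [Fintype F] [CharP F 2] (m : ℕ) : Nonempty (Cfsg.isometryGroup F (Cfsg.quadFormOdd m F) ≃* Matrix.symplecticGroup (Fin m) F) := by
  have c2 : (2 : F) = 0 := CharTwo.two_eq_zero
  let π : (Unit ⊕ (Fin m ⊕ Fin m) → F) →ₗ[F] (Fin m ⊕ Fin m → F) := LinearMap.funLeft F F Sum.inr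
  let i : (Fin m ⊕ Fin m → F) →ₗ[F] (Unit ⊕ (Fin m ⊕ Fin m) → F) := LinearMap.pi (Sum.elim (fun _ => 0) LinearMap.proj)
  let e : Unit ⊕ (Fin m ⊕ Fin m) → F := Pi.single (.inl ()) 1
  have πi : ∀ x, π (i x) = x := fun _ => rfl
  have dec : ∀ x, x = x (.inl ()) • e + i (π x) := fun x => by ext (j | j) <;> simp [e, i, π]
  have hB : ∀ x y, (oddF F m).B x y = (sympF F m).B (π x) (π y) := fun x y => by
    simp [oddF_B, sympForm_eq, c2, π, CharTwo.sub_eq_add, add_comm]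
  have hQ : ∀ a x, (oddF F m).Q (a • e + x) = a * a + (oddF F m).Q x := fun a x => by
    rw [orth_add, orth_smul, hB]; simp [Cfsg.quadFormOdd, e, show π (Pi.single (.inl ()) 1) = 0 by ext; simp [π], -sympF_B]
  have sq : ∀ a b : F, a * a = b * b → a = b := fun a b h => by simpa [CharTwo.neg_eq] using mul_self_eq_mul_self_iff.1 h
  have fix : ∀ g : (oddF F m).isom, g.1 e = e := fun g => by
    have h1 : π (g.1 e) = 0 := sympF_nondeg m _ fun x => by
      rw [← πi x, ← hB, isom_B_symm' g.2, hB, show π e = 0 by ext; simp [π, e], map_zero]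
    have h2 := isom_Q g.2 e
    rw [dec (g.1 e), h1, map_zero] at h2 ⊢
    rw [hQ, ← add_zero e, ← one_smul F e, hQ, add_left_inj] at h2
    rw [one_smul, add_zero] at h2; rw [sq _ _ h2]; simp
  have hπ : ∀ (g : (oddF F m).isom) x, π (g.1 (i (π x))) = π (g.1 x) := fun g x => by
    conv_rhs => rw [dec x]
    simp [fix, show π e = 0 by ext; simp [π, e]]
  let φ : (oddF F m).isom →* (sympF F m).isom := ⟨⟨fun g => ⟨LinearEquiv.ofLinearMap (π ∘ₗ g.1 ∘ₗ i) (π ∘ₗ (g⁻¹).1 ∘ₗ i)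
    (LinearMap.ext fun x => by simp [hπ, πi]) (LinearMap.ext fun x => (hπ g⁻¹ _).trans (by simp [πi])),
    (mem_isom_symp _).2 fun x y => (hB _ _).symm.trans ((isom_B g.2 _ _).trans (hB _ _))⟩, by ext x : 2; simp [πi]⟩,
    fun a b => by ext x : 2; simp [hπ]⟩
  refine ⟨(oEquiv (oddF F m)).trans ((MulEquiv.ofBijective φ ⟨(injective_iff_map_eq_one _).2 fun g h => ?_, fun g => ?_⟩).trans (spEquiv m).symm)⟩
  · ext x : 2
    have h1 : π (g.1 x) = π x := (hπ g x).symm.trans (congrArg (·.1 (π x)) h)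
    have h2 := isom_Q g.2 x
    rw [dec (g.1 x), dec x, hQ, hQ, ← dec, h1, add_left_inj] at h2
    rw [dec (g.1 x), sq _ _ h2, h1, ← dec]; rfl
  · suffices (sympF F m).TG ≤ φ.range.map (Subgroup.subtype _) by
      obtain ⟨_, ⟨a, rfl⟩, h⟩ := this ((sympF_nondeg m).symp_TG.ge g.2)
      exact ⟨a, Subtype.ext h⟩
    refine TG_le fun u a hu hv ha => ?_
    obtain ⟨b, hb⟩ := FiniteField.isSquare_of_char_two (ringChar_eq_two c2) (a⁻¹ - (oddF F m).Q (i u))
    refine ⟨_, ⟨⟨_, (oddF F m).r_mem (b • e + i u)⟩, rfl⟩, LinearEquiv.ext fun x => ?_⟩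
    change π ((oddF F m).r _ (i x)) = _
    rw [r_apply, eich_apply, hQ, ← hb, hB]
    simp [πi, show π e = 0 by ext; simp [π, e], -sympF_B, CharTwo.neg_eq]


end Cfsg.Agent.S0304
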