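import Cfsg.Statements.S0298
import Cfsg.Agent.H5.Iso2

set_option autoImplicit false
open Cfsg

namespace Cfsg.Agent.S0298

open H5 H5.Form Matrix

/-- PΩ_3(q) is isomorphic to PSL_2(q) for q odd. -/
theorem result {F : Type*} [Field F] [Fintype F] (hodd : Odd (Fintype.card F)) : Nonempty (Cfsg.POmega F (Cfsg.quadFormOdd 1 F) ≃* Matrix.ProjectiveSpecialLinearGroup (Fin 2) F) := by
  have h2 := two_ne_zero_of_odd hodd
  let ψ : GL2 F →* (detF F).isom := act2 (Units.coeHom _) ((Units.coeHom _).comp invT.toMonoidHom) fun g => by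
    simp [invT_coe, g.det_ne_zero]
  have h1 : ∀ g, (ψ g).1 1 = 1 := fun g => by simp [ψ, act2_apply, invT_coe]
  have b : (detF F).B 1 1 ≠ 0 := by simp [orth_self, detF_Q, h2]
  have n := detF_nondeg.perp_nondeg (res_line_nondeg b)
  have d : Module.finrank F ((detF F).perp (F ∙ 1)) = 2 * 1 + 1 := by
    have := detF_nondeg.finrank_perp_singleton (F := F) one_ne_zero; simp [Module.finrank_matrix] at this; omega
  obtain ⟨e, c, c0, he⟩ := odd_sim n (oddF_nondeg h2 1) d (by simp)
  exact n.pomega_iso (by omega) ((perpHom ψ h1).comp toG)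
    (by rintro _ ⟨s, rfl⟩; exact act2_mem_commutator (exists_ne_of_two_ne h2) (perpHom ψ h1) s)
    (by rw [card_isom_odd rfl n d, card_SL2]; simp [spOrd, show Fintype.card F ^ 2 - 1 = _ from Nat.sq_sub_sq _ 1]; ring)
    (z := -1) (fun h => (h2 h).elim)
    (fun g h => (ker2 g.2 fun X => congrArg (·.1 X) (detF_nondeg.perpHom_ker h1 b h)).imp (fun h => Subtype.ext h.1) fun h => Subtype.ext h.1)
    (mem_center_SL2.2 (Or.inr rfl)) center_quot_SL2 (simCongr c0 he)


end Cfsg.Agent.S0298
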