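import Cfsg.Statements.S0301
import Cfsg.Agent.H5.Iso2

set_option autoImplicit false
open Cfsg

namespace Cfsg.Agent.S0301

open H5 H5.Form Matrix

/-- PΩ_5(q) is isomorphic to PSp_4(q) for q odd. -/
theorem result {F : Type*} [Field F] [Fintype F] (hodd : Odd (Fintype.card F)) : Nonempty (Cfsg.POmega F (Cfsg.quadFormOdd 2 F) ≃* Cfsg.PSp 2 F) := by
  have h2 := two_ne_zero_of_odd hodd
  let α : symplecticGroup (Fin 2) F →* Matrix (Fin 4) (Fin 4) F :=
    (reindexAlgEquiv F F (finSumFinEquiv : Fin 2 ⊕ Fin 2 ≃ Fin 4)).toRingEquiv.toMonoidHom.comp (Submonoid.subtype _)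
  let ψ := act6 α fun g => by simp [α, SymplecticGroup.det_eq_one g.2]
  let j : Fin 3 ⊕ Fin 3 → F := Sum.elim ![0, 1, 0] ![0, -1, 0]
  have hj : A6 j = reindex (finSumFinEquiv : Fin 2 ⊕ Fin 2 ≃ Fin 4) finSumFinEquiv (J (Fin 2) F) := by
    ext i k; fin_cases i <;> fin_cases k <;> simp [A6, j, J, finSumFinEquiv, Fin.addCases]
  have h1 : ∀ g, (ψ g).1 j = j := fun g => by
    change c6 (α g * (A6 j * (α g)ᵀ)) = j
    conv_rhs => rw [← c6_A6 j, hj, ← SymplecticGroup.mem_iff.1 g.2]
    simp [hj, α, submatrix_mul_equiv, mul_assoc]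
  have b : (plusF F 3).B j j ≠ 0 := by simp [orth_self, Cfsg.quadFormPlus, j, Fin.sum_univ_three, h2]
  have n := (plusF_nondeg 3).perp_nondeg (res_line_nondeg b)
  have d : Module.finrank F ((plusF F 3).perp (F ∙ j)) = 2 * 2 + 1 := by
    have := (plusF_nondeg 3).finrank_perp_singleton (v := j) (by rintro h; simp [h] at b); simp at this; omega
  obtain ⟨e, c, c0, he⟩ := odd_sim n (oddF_nondeg h2 2) d (by simp)
  have p : commutator (symplecticGroup (Fin 2) F) = ⊤ := (Subgroup.eq_top_iff' _).2 fun g => (mem_commutator_congr (spEquiv 2) g).2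
    (((sympF_nondeg 2).symp_perfect (Or.inr (Or.inr ⟨by simp, h2⟩))).ge trivial)
  haveI : Group.IsPerfect (symplecticGroup (Fin 2) F) := ⟨p⟩
  have inj : Function.Injective α := (reindexAlgEquiv F F _).injective.comp Subtype.val_injective
  exact n.pomega_iso (by omega) (perpHom ψ h1) (range_le_commutator _ p)
    (by rw [card_isom_odd rfl n d, Nat.card_congr (spEquiv 2).toEquiv, card_isom_symp rfl (sympF_nondeg 2) (m := 2) (by simp)])
    (z := ⟨-1, SymplecticGroup.neg_mem (one_mem _)⟩) (fun h => (h2 h).elim)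
    (fun g h => (ker6 (by simp [α, SymplecticGroup.det_eq_one g.2]) fun X => congrArg (·.1 X) ((plusF_nondeg 3).perpHom_ker h1 b h)).imp
      (fun h => inj (h.trans (map_one α).symm)) fun h => inj (h.trans (by simp [α, submatrix_neg])))
    (Subgroup.mem_center_iff.2 fun g => Subtype.ext (by simp)) (Group.IsPerfect.center_quotient_center_eq_bot _) (simCongr c0 he)


end Cfsg.Agent.S0301
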