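import Cfsg.Statements.S0299
import Cfsg.Agent.H5.Iso2

set_option autoImplicit false
open Cfsg

namespace Cfsg.Agent.S0299

open H5 H5.Form Matrix

/-- PΩ^+_4(q) is isomorphic to PSL_2(q) x PSL_2(q) for q at least 3. -/
theorem result {F : Type*} [Field F] [Fintype F] (hF : 3 ≤ Fintype.card F) : Nonempty (Cfsg.POmega F (Cfsg.quadFormPlus 2 F) ≃* Matrix.ProjectiveSpecialLinearGroup (Fin 2) F × Matrix.ProjectiveSpecialLinearGroup (Fin 2) F) := by
  let c : SL2 F →* Matrix (Fin 2) (Fin 2) F := (Units.coeHom _).comp toG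
  let ρ := act2 (c.comp (MonoidHom.fst _ (SL2 F))) (c.comp (MonoidHom.snd _ _)) (by simp [c])
  have hK := exists_ne_zero_one (F := F) (by omega)
  obtain ⟨e⟩ := detF_nondeg.pomega_iso (by simp [Module.finrank_matrix]) ρ (by
      rintro _ ⟨⟨s, t⟩, rfl⟩
      convert mul_mem (act2_mem_commutator hK (act2 (Units.coeHom _) dgInv dgInv_det) s)
        (act2_mem_commutator hK (act2 dgInv (Units.coeHom _) fun g => (mul_comm _ _).trans (dgInv_det g)) t) using 1
      ext X : 2; rw [Subgroup.coe_mul, LinearEquiv.mul_apply, act2_apply, act2_apply]; erw [act2_apply]; simp [c, dgInv_toG])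
    (by
      rw [Nat.card_congr detF_iso.isomCongr.toEquiv, card_isom_plus rfl (plusF_nondeg 2) (m := 1) (by simp) (plusF_hasTS 2), Nat.card_prod, card_SL2]
      simp [show Fintype.card F ^ 2 - 1 = _ from Nat.sq_sub_sq _ 1]; ring)
    (z := (-1, -1)) (fun h => by rw [neg_one_eq_one_iff.2 h]; rfl)
    (fun g h => (ker2 g.1.2 fun X => congrArg (·.1 X) h).imp (fun h => Prod.ext (Subtype.ext h.1) (Subtype.ext h.2))
      fun h => Prod.ext (Subtype.ext h.1) (Subtype.ext h.2))
    (by rw [Subgroup.center_prod]; exact ⟨mem_center_SL2.2 (Or.inr rfl), mem_center_SL2.2 (Or.inr rfl)⟩)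
    (eq_bot_iff.2 fun g h => quotCenterProd.map_eq_one_iff.1 (by
      simpa [Subgroup.center_prod, center_quot_SL2] using (mem_center_congr quotCenterProd g).1 h))
    detF_iso.isomCongr
  exact ⟨e.trans quotCenterProd⟩


end Cfsg.Agent.S0299
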