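import Cfsg.Statements.S0302
import Cfsg.Agent.H5.Iso2

set_option autoImplicit false
open Cfsg

namespace Cfsg.Agent.S0302

open H5 H5.Form Matrix

/-- PΩ^+_6(q) is isomorphic to PSL_4(q). -/
theorem result {F : Type*} [Field F] [Fintype F] : Nonempty (Cfsg.POmega F (Cfsg.quadFormPlus 3 F) ≃* Matrix.ProjectiveSpecialLinearGroup (Fin 4) F) := by
  haveI : Fact (Even (Fintype.card (Fin 4))) := ⟨by decide⟩
  haveI : Group.IsPerfect (SpecialLinearGroup (Fin 4) F) := ⟨commutator_SL_eq_top (by simp)⟩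
  refine (plusF_nondeg 3).pomega_iso (by simp) (act6 (Cfsg.slToMat 4 F) fun g => g.2) (range_le_commutator _ (commutator_SL_eq_top (by simp))) ?_
    (z := -1) (fun h => Subtype.ext (neg_eq_iff_add_eq_zero.2 (by rw [← two_smul F, h, zero_smul])))
    (fun g h => (ker6 g.2 fun v => congrArg (·.1 v) h).imp Subtype.ext Subtype.ext) (Subgroup.mem_center_iff.2 (by simp))
    (Group.IsPerfect.center_quotient_center_eq_bot _) (MulEquiv.refl _)
  have := card_SL_mul (ι := Fin 4) (F := F)
  rw [card_isom_plus rfl (plusF_nondeg 3) (m := 2) (by simp) (plusF_hasTS 3)]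
  obtain ⟨r, hr⟩ : ∃ r, Fintype.card F = r + 2 := ⟨Fintype.card F - 2, by have := Fintype.one_lt_card (α := F); omega⟩
  simp only [hr, Fintype.card_fin, Finset.prod_range_succ, Finset.range_zero, Finset.prod_empty] at this ⊢
  erw [Fin.prod_univ_four] at this
  simp only [Fin.val_zero, Fin.val_one, Fin.val_two, show ((3 : Fin 4) : ℕ) = 3 from rfl, pow_zero] at this
  have l : ∀ k, k ≤ 4 → (r + 2) ^ k ≤ (r + 2) ^ 4 := fun k => Nat.pow_le_pow_right (by omega)
  zify [Nat.one_le_pow, l 1 (by omega), l 2 (by omega), l 3 (by omega), show 0 < r + 2 by omega, show 1 ≤ r + 2 by omega] at this ⊢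
  refine mul_left_cancel₀ (a := (r + 1 : ℤ)) (by positivity) ?_
  linear_combination -2 * this


end Cfsg.Agent.S0302
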