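import Cfsg.Statements.S0305
import Cfsg.Agent.H5.Orders

set_option autoImplicit false
open Cfsg

namespace Cfsg.Agent.S0305

open H5 H5.Form Matrix

/-- GO^+_2(q) is dihedral of order 2(q-1). -/
theorem result {F : Type*} [Field F] [Fintype F] {q : ℕ} (hF : Fintype.card F = q) : Nonempty (Cfsg.isometryGroup F (Cfsg.quadFormPlus 1 F) ≃* DihedralGroup (q - 1)) := by
  have q2 : 2 ≤ q := hF ▸ Fintype.one_lt_card
  let d : Fˣ →* Cfsg.isometryGroup F (Cfsg.quadFormPlus 1 F) := ⟨⟨fun c => ⟨GeneralLinearGroup.mkOfDetNeZero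
    (diagonal (Sum.elim (fun _ => (c : F)) fun _ => (c⁻¹ : F))) (by simp), (mem_isometryGroup_iff _ _).2 fun v => by
      simp [Cfsg.quadFormPlus, mulVec_diagonal]; field_simp⟩, by ext i j; rcases i with i | i <;> simp [diagonal_apply, one_apply]⟩,
    fun a b => by ext (i | i) (j | j) <;> simp [Subsingleton.elim i 0, Subsingleton.elim j 0, mul_comm]⟩
  have hd : Function.Injective d := fun a b e => Units.ext <| by simpa [d] using congrArg (fun g => g.1.1 (Sum.inl 0) (Sum.inl 0)) e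
  let s : Cfsg.isometryGroup F (Cfsg.quadFormPlus 1 F) := ⟨⟨fromBlocks 0 1 1 0, fromBlocks 0 1 1 0, by simp [fromBlocks_multiply],
    by simp [fromBlocks_multiply]⟩, (mem_isometryGroup_iff _ _).2 fun v => by simp [Cfsg.quadFormPlus, fromBlocks_mulVec, mul_comm]⟩
  obtain ⟨z, hz⟩ := IsCyclic.exists_ofOrder_eq_natCard (α := Fˣ)
  refine dih_equiv_of_card (by omega) (d z) s (by rw [orderOf_injective d hd, hz, card_units_eq, hF]) (by ext1; ext1; simp [s, fromBlocks_multiply])
    ?_ ?_ ?_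
  · rw [mul_inv_eq_iff_eq_mul, ← map_inv]
    ext (i | i) (j | j) <;> simp [s, d, Subsingleton.elim i 0, Subsingleton.elim j 0]
  · rintro ⟨k, e⟩
    simp only [← map_zpow] at e
    exact (z ^ k).ne_zero (by simpa [d, s, -map_zpow] using congrArg (fun g => g.1.1 (Sum.inl 0) (Sum.inl 0)) e)
  · rw [← plusF_Q, Nat.card_congr (oEquiv _).toEquiv, card_isom_plus hF (plusF_nondeg 1) (m := 0) (by simp) (plusF_hasTS 1)]; simp


end Cfsg.Agent.S0305
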