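import Cfsg.Statements.S0270
import Cfsg.Agent.H5.OmIndex

set_option autoImplicit false
open Cfsg

namespace Cfsg.Agent.S0270

open H5

/-- PSp_{2m}(q) is simple for m at least 2 and (m, q) other than (2, 2). -/
theorem result {F : Type*} [Field F] [Fintype F] (m : ℕ) (hm : 2 ≤ m) (h : m = 2 → 3 ≤ Fintype.card F) : IsSimpleGroup (Cfsg.PSp m F) := by
  have h1 := sympF_nondeg (F := F) m
  have k := h1.symp_simple (by simp; omega) (by
    by_cases h3 : m = 2
    · subst h3
      by_cases h4 : 4 ≤ Fintype.card F
      · exact Or.inl (exists_sq_ne_one h4)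
      · refine Or.inr (Or.inr ⟨by simp, two_ne_zero_of_odd ?_⟩)
        rw [show Fintype.card F = 3 by have := h rfl; omega]; decide
    · right; left; simp; omega)
  exact (quotCenterCongr (spEquiv m)).isSimpleGroup


end Cfsg.Agent.S0270
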