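import Cfsg.Statements.S3960
import Cfsg.Agent.L.Schur2

set_option autoImplicit false
universe u
open Cfsg

namespace Cfsg.Agent.S3960

/-- A finite perfect group `Q` has a universal central extension: a finite perfect group `G` in the universe of `Q` and a surjective homomorphism `π : G →* Q` with central kernel such that for every group `X` in that universe and every surjective homomorphism `ξ : X →* Q` with central kernel there is exactly one homomorphism `η : G →* X` with `ξ ∘ η = π`. -/
theorem result {Q : Type u} [Group Q] [Finite Q] (hQ : Group.IsPerfect Q) : ∃ (G : Type u) (_ : Group G) (_ : Finite G) (π : G →* Q), Group.IsPerfect G ∧ Function.Surjective π ∧ π.ker ≤ Subgroup.center G ∧ ∀ (X : Type u) [Group X] (ξ : X →* Q), Function.Surjective ξ → ξ.ker ≤ Subgroup.center X → ∃! η : G →* X, ξ.comp η = π := by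
  let E := L.UE Q
  let π : commutator E →* Q := (L.uπ Q).comp (commutator E).subtype
  have hce := L.uπ_isCE Q
  have hs : ∀ q, ∃ x : commutator E, π x = q := by
    intro g
    have : (commutator E).map (L.uπ Q) = commutator Q := by
      rw [map_commutator_eq, MonoidHom.range_eq_top.2 hce.surj]; rfl
    have h2 : g ∈ commutator Q := Group.IsPerfect.mem_commutator
    rw [← this] at h2
    obtain ⟨x, hx, rfl⟩ := h2
    exact ⟨⟨x, hx⟩, rfl⟩
  have hp : Group.IsPerfect (commutator E) := by
    have := L.map_commutator_of_CE hce.cent (commutator E).subtype (fun x => hs _)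
    rw [Subgroup.isPerfect_iff, ← Subgroup.map_subtype_commutator, this]
  refine ⟨commutator E, inferInstance, L.finite_commutator_of_CE hce.cent, π, hp, hs, ?_, ?_⟩
  · intro x hx
    rw [Subgroup.mem_center_iff]
    intro y
    exact Subtype.ext (Subgroup.mem_center_iff.1 (hce.cent hx) y)
  · intro X _ ξ h1 h2
    obtain ⟨η, hη⟩ := L.exists_lift (L.canP Q) ⟨h1, h2⟩ (MonoidHom.id Q)
    have h3 : ξ.comp (η.comp (commutator E).subtype) = π :=
      MonoidHom.ext fun x => DFunLike.congr_fun hη (x : E)
    refine ⟨η.comp (commutator E).subtype, h3, fun η' h' => MonoidHom.ext fun x => ?_⟩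
    exact L.lifts_agree h2 _ _ (h'.trans h3.symm) Group.IsPerfect.mem_commutator

end Cfsg.Agent.S3960
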