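import Cfsg.Statements.S0018
import Cfsg.Agent.H1.Frattini

set_option autoImplicit false
open Cfsg

namespace Cfsg.Agent.S0018

/-- A finite solvable group whose Sylow p-subgroups are abelian has p-length one: a Sylow p-subgroup together with the largest normal subgroup of order prime to p generates a normal subgroup. -/
theorem result {G : Type*} [Group G] [Finite G] [Group.IsSolvable G]
    (p : ℕ) [Fact p.Prime] (P : Sylow p G) (hP : IsMulCommutative P) :
    ((P : Subgroup G) ⊔ Cfsg.pPrimeCore p G).Normal := by
  set B := Cfsg.pPrimeCore p G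
  have h1 : H1.IsSylowIn p ((P : Subgroup G).map (QuotientGroup.mk' B)) ⊤ := by
    have := (H1.isSylowIn_top P).map (QuotientGroup.mk' B)
    rwa [Subgroup.map_top_of_surjective _ (QuotientGroup.mk'_surjective B)] at this
  have h2 : IsMulCommutative ((P : Subgroup G).map (QuotientGroup.mk' B)) := inferInstance
  have h3 : Cfsg.pCore p (G ⧸ B) ≤ (P : Subgroup G).map (QuotientGroup.mk' B) :=
    h1.ge_of_normal H1.pCore_isPGroup le_top Subgroup.le_normalizer_of_normal
  have h4 : (P : Subgroup G).map (QuotientGroup.mk' B) ≤ Cfsg.pCore p (G ⧸ B) := by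
    refine le_trans ?_ (H1.centralizer_pCore_le H1.pPrimeCore_quotient_pPrimeCore)
    intro x hx y hy
    exact H1.comm_of_mem h2 (h3 hy) hx
  have h5 : ((P : Subgroup G).map (QuotientGroup.mk' B)).Normal := by
    rw [le_antisymm h4 h3]; infer_instance
  rw [sup_comm]
  exact H1.normal_sup_of_normal_map h5

end Cfsg.Agent.S0018
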