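import Cfsg.Statements.S0020
import Cfsg.Agent.H1.System

set_option autoImplicit false
open Pointwise
open Cfsg

namespace Cfsg.Agent.S0020

/-- A finite solvable group admits a Sylow system: Sylow subgroups, one for each prime, that pairwise permute as sets. -/
theorem result {G : Type*} [Group G] [Finite G] [Group.IsSolvable G] :
    ∃ S : (p : Nat.Primes) → Sylow (p : ℕ) G,
      ∀ p q : Nat.Primes, (S p : Set G) * (S q : Set G) = (S q : Set G) * (S p : Set G) := by
  obtain ⟨K, hK⟩ := H1.exists_complementSystem (G := G)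
  have h : ∀ p : Nat.Primes, ∃ Q : Sylow (p : ℕ) G, (Q : Subgroup G) = H1.hallOf K {(p : ℕ)} :=
    fun p => have := Fact.mk p.2; (H1.isSylowIn_hallOf hK p).exists_sylow_top
  choose S hS using h
  refine ⟨S, fun p q => ?_⟩
  by_cases e : p = q
  · subst e; rfl
  have hp := H1.isPiHallOf_top.2 (H1.isPiHall_hallOf hK {(p : ℕ)})
  have hq := H1.isPiHallOf_top.2 (H1.isPiHall_hallOf hK {(q : ℕ)})
  have hpq := H1.isPiHall_hallOf hK {(p : ℕ), (q : ℕ)}
  have l1 := H1.hallOf_mono K (π := {(p : ℕ)}) (σ := {(p : ℕ), (q : ℕ)}) (by simp)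
  have l2 := H1.hallOf_mono K (π := {(q : ℕ)}) (σ := {(p : ℕ), (q : ℕ)}) (by simp)
  have h3 := H1.fac_of_coprime_relIndex l1 l2 (Nat.coprime_of_dvd fun r hr h1 h2 => by
    rcases hpq.1 r hr (h1.trans (Subgroup.relIndex_dvd_card _ _)) with h | h
    · exact (H1.piHallOf_of_le hp l1 le_top).2.2 r hr h h1
    · exact (H1.piHallOf_of_le hq l2 le_top).2.2 r hr h h2)
  have := H1.fac_sup_iff_comm.1 h3.sup
  rwa [← hS, ← hS] at this

end Cfsg.Agent.S0020
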