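import Cfsg.Statements.S0031
import Cfsg.Agent.H1.Frob

set_option autoImplicit false
open Cfsg

namespace Cfsg.Agent.S0031

/-- A fixed-point-free automorphism of a finite group maps some Sylow p-subgroup to itself. -/
theorem result {G : Type*} [Group G] [Finite G] (φ : G ≃* G)
    (hφ : MonoidHom.FixedPointFree (φ : G →* G)) (p : ℕ) [Fact p.Prime] :
    ∃ P : Sylow p G, (P : Subgroup G).map (φ : G →* G) = P := by
  obtain ⟨P⟩ : Nonempty (Sylow p G) := inferInstance
  have hP := H1.isSylowIn_top P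
  have h1 := hP.map (φ : G →* G)
  rw [Subgroup.map_top_of_surjective _ φ.surjective] at h1
  obtain ⟨g, -, e⟩ := h1.conj hP
  obtain ⟨x, hx⟩ := hφ.commutatorMap_surjective g
  obtain ⟨Q, hQ⟩ := (hP.smul (g := x⁻¹) (Subgroup.le_normalizer (Subgroup.mem_top _))).exists_sylow_top
  refine ⟨Q, ?_⟩
  rw [hQ, H1.map_conj_smul]
  conv_rhs => rw [← e, H1.conj_smul_conj_smul, ← hx]
  simp [div_eq_mul_inv]

end Cfsg.Agent.S0031
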