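import Cfsg.Statements.S0032
import Cfsg.Agent.H1.Frob

set_option autoImplicit false
open Cfsg

namespace Cfsg.Agent.S0032

/-- If an automorphism of a finite group fixes only the identity and maps a normal subgroup N into itself, then the only cosets of N it fixes are those in N: a fixed coset xN forces x ∈ N. -/
theorem result {G : Type*} [Group G] [Finite G] (φ : G ≃* G)
    (hφ : MonoidHom.FixedPointFree (φ : G →* G)) (N : Subgroup G) [N.Normal] (hN : ∀ n ∈ N, φ n ∈ N)
    (x : G) (hx : (φ x)⁻¹ * x ∈ N) : x ∈ N := by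
  have h1 : Function.Surjective fun n : N => (⟨(φ n)⁻¹ * n, N.mul_mem (N.inv_mem (hN n n.2)) n.2⟩ : N) := by
    refine Finite.injective_iff_surjective.1 fun a b e => ?_
    have e1 : (φ a)⁻¹ * a = (φ b)⁻¹ * b := congrArg Subtype.val e
    have := hφ (a * (b : G)⁻¹) (by
      change φ _ = _
      rw [map_mul, map_inv]
      calc _ = φ a * ((φ b)⁻¹ * b) * (b : G)⁻¹ := by group
        _ = _ := by rw [← e1]; group)
    exact Subtype.ext (mul_inv_eq_one.1 this)
  obtain ⟨n, e⟩ := h1 ⟨_, hx⟩
  have e1 : (φ n)⁻¹ * n = (φ x)⁻¹ * x := congrArg Subtype.val e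
  have := hφ (x * (n : G)⁻¹) (by
    change φ _ = _
    rw [map_mul, map_inv]
    calc _ = φ x * ((φ n)⁻¹ * n) * (n : G)⁻¹ := by group
      _ = _ := by rw [e1]; group)
  rw [mul_inv_eq_one.1 this]; exact n.2

end Cfsg.Agent.S0032
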