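import Cfsg.Statements.S0033
import Cfsg.Agent.H1.Thompson

set_option autoImplicit false
open Cfsg

namespace Cfsg.Agent.S0033

/-- Thompson's Theorem on fixed-point-free automorphisms: a finite group with an automorphism of prime order fixing only the identity is nilpotent. -/
theorem result {G : Type*} [Group G] [Finite G] (φ : G ≃* G)
    (hφ : MonoidHom.FixedPointFree (φ : G →* G)) (p : ℕ) (hp : p.Prime) (hord : orderOf φ = p) :
    Group.IsNilpotent G := by
  obtain ⟨Γ, _, _, i, j, hi, hj, hij, -, -, hn⟩ := H1.exists_ambient (Subgroup.zpowers (φ : MulAut G)).subtype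
  have h1 : (Nat.card j.range).Prime := by
    rw [H1.card_range_of_injective hj, Nat.card_zpowers]; exact hord ▸ hp
  have := H1.isNilpotent_of_fpf (A := j.range) (K := i.range) (H9.top_le_normalizer _ |> le_top.trans)
    (H1.fpf_of_prime_card h1 (eq_bot_iff.2 ?_)) (FT.ne_bot_of_card_prime h1)
  · exact Group.nilpotent_of_mulEquiv (MonoidHom.ofInjective hi).symm
  · rintro _ ⟨⟨x, rfl⟩, hx⟩
    rw [hφ x ((H1.mem_centralizer_range_iff hi hij).1 hx ⟨φ, Subgroup.mem_zpowers _⟩), map_one]
    exact Subgroup.one_mem _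

end Cfsg.Agent.S0033
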