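import Cfsg.Statements.S0037
import Cfsg.Agent.H1.Frob

set_option autoImplicit false
open Pointwise
open Cfsg

namespace Cfsg.Agent.S0037

/-- Of two Frobenius complements in one finite group, the one of smaller (or equal) order is conjugate to a subgroup of the other. -/
theorem result {G : Type*} [Group G] [Finite G] (H H₀ : Subgroup G)
    (hH : Cfsg.IsFrobeniusComplement H) (hH₀ : Cfsg.IsFrobeniusComplement H₀) (hle : Nat.card H₀ ≤ Nat.card H) :
    ∃ g : G, MulAut.conj g • H₀ ≤ H := by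
  obtain ⟨N, h1, -, h2, h3, h4, h5⟩ := H1.IsFrob.exists_kernel hH
  obtain ⟨N₀, h6, -, h7, h8, -⟩ := H1.IsFrob.exists_kernel hH₀
  have key : H₀ ⊓ N = ⊥ := by
    by_contra h
    obtain ⟨⟨x, hx, hx'⟩, h0⟩ := Subgroup.ne_bot_iff_exists_ne_one.1 h
    have h9 := H1.le_of_fpf_of_mem (Subgroup.le_normalizer_of_normal hx)
      (h8 x hx fun e => h0 (Subtype.ext e)) Subgroup.le_normalizer_of_normal hx'
    have h10 : N₀ < N := lt_of_le_of_ne h9 fun e =>
      h0 (Subtype.ext (h8.inf_eq_bot.le ⟨hx, e ▸ hx'⟩))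
    have := Nat.mul_lt_mul_of_lt_of_le (H1.card_lt_of_lt h10) hle Nat.card_pos
    rw [h2.card_mul, h7.card_mul] at this
    exact this.false
  obtain ⟨g, hg⟩ := H1.IsFrob.exists_le_conj (L := H₀) hH fun x hx => by
    by_cases h : x ∈ N
    · exact ⟨1, by rw [key.le ⟨hx, h⟩]; exact one_mem _⟩
    · exact h5 x h
  exact ⟨g⁻¹, by rwa [H1.conj_smul_le_iff_le, inv_inv]⟩

end Cfsg.Agent.S0037
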