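import Cfsg.Statements.S0038
import Cfsg.Agent.H1.Frob
import Cfsg.Agent.S0037

set_option autoImplicit false
open Pointwise
open Cfsg

namespace Cfsg.Agent.S0038

/-- All Frobenius complements of a finite group are conjugate to one another. -/
theorem result {G : Type*} [Group G] [Finite G] (H H₀ : Subgroup G)
    (hH : Cfsg.IsFrobeniusComplement H) (hH₀ : Cfsg.IsFrobeniusComplement H₀) :
    ∃ g : G, MulAut.conj g • H₀ = H := by
  wlog hle : Nat.card H₀ ≤ Nat.card H generalizing H H₀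
  · obtain ⟨g, e⟩ := this H₀ H hH₀ hH (le_of_not_ge hle)
    exact ⟨g⁻¹, by rw [← e, H1.conj_inv_smul_smul]⟩
  obtain ⟨g, hg⟩ := Cfsg.Agent.S0037.result H H₀ hH hH₀ hle
  refine ⟨g, ?_⟩
  have hD := H1.IsFrob.smul hH₀ g
  generalize MulAut.conj g • H₀ = D at hg hD
  obtain ⟨N, h1, -, h2, h3, h4, -⟩ := H1.IsFrob.exists_kernel hH
  obtain ⟨M, h6, -, h7, h8, -⟩ := H1.IsFrob.exists_kernel hD
  have h9 := H1.dedekind_left (B := M) hg (Or.inl Subgroup.le_normalizer_of_normal)
  rw [h7.symm.sup_eq_top, top_inf_eq] at h9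
  by_contra hne
  obtain ⟨⟨x, hx⟩, h0⟩ := Subgroup.ne_bot_iff_exists_ne_one.1 hD.1
  have hz : Subgroup.zpowers x ≤ D := (Subgroup.zpowers_le).2 hx
  have hn : D ≤ Subgroup.normalizer ((M ⊓ H : Subgroup G) : Set G) :=
    H1.le_normalizer_inf Subgroup.le_normalizer_of_normal (H1.le_normalizer_of_le hg)
  obtain ⟨V, h10, h11, h12, h13, -⟩ := H1.exists_invariant_elementary (hz.trans hn)
    ((h8.mono hz inf_le_left).coprime (hz.trans hn)) (Or.inl (H1.isSolvable_zpowers x))
    (fun e => hne (by rw [h9, e, sup_bot_eq]))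
  refine h11 (H1.eq_bot_of_fpf_of_fpf h4 Subgroup.le_normalizer_of_normal h3 (h10.trans inf_le_right)
    (hz.trans hg) ?_ h12 (h8.mono hz (h10.trans inf_le_left)) ?_)
  · rw [sup_comm]
    exact H1.isSolvable_sup h12 (H1.isSolvable_zpowers x) (H1.isSolvable_of_isMulCommutative h13)
  · exact fun e => h0 (Subtype.ext (by simpa using e))

end Cfsg.Agent.S0038
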