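import Cfsg.Statements.S0040
import Cfsg.Agent.H1.Frob
import Cfsg.Agent.S0016
import Cfsg.Agent.L.PG3

set_option autoImplicit false
open Cfsg

namespace Cfsg.Agent.S0040

/-- Sylow subgroups of Frobenius complements: if H complements a nontrivial normal subgroup K and every nonidentity element of H has trivial centraliser in K, then each Sylow subgroup of H is cyclic or isomorphic to a generalized quaternion group. -/
theorem result {G : Type*} [Group G] [Finite G] (K H : Subgroup G) [K.Normal]
    (hc : Subgroup.IsComplement' K H) (hK : K ≠ ⊥) (hfpf : ∀ h ∈ H, h ≠ 1 → K ⊓ Subgroup.centralizer {h} = ⊥)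
    (p : ℕ) [Fact p.Prime] (P : Sylow p H) :
    IsCyclic P ∨ ∃ n : ℕ, Nonempty (P ≃* QuaternionGroup (2 ^ n)) := by
  have hp : p.Prime := Fact.out
  refine (Cfsg.Agent.S0016.result p P.isPGroup' ?_).imp id And.right
  set f : P →* G := H.subtype.comp (P : Subgroup H).subtype
  have hf : Function.Injective f := H.subtype_injective.comp (Subgroup.subtype_injective _)
  have hfH : ∀ A : Subgroup P, A.map f ≤ H := by
    rintro A _ ⟨x, -, rfl⟩; exact (x : H).2
  have key : ∀ A Z : Subgroup P, Nat.card A = p → Nat.card Z = p → Z ≤ Subgroup.center P → A = Z := by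
    intro A Z hA hZ hZc
    have hel : ∀ B : Subgroup P, Nat.card B = p → Cfsg.IsElementaryAbelian p B := by
      intro B hB
      haveI : IsCyclic B := isCyclic_of_prime_card hB
      obtain ⟨b, -, rfl⟩ := H1.exists_eq_zpowers_of_isCyclic (A := B) inferInstance
      exact L.isElem_zpowers (by rw [Nat.card_zpowers] at hB; exact orderOf_dvd_iff_pow_eq_one.1 hB.dvd)
    have h1 := L.isElem_sup (hel A hA) (hel Z hZ)
      (Subgroup.le_centralizer_iff.1 (hZc.trans (Subgroup.center_le_centralizer _)))
    have h2 : IsCyclic ((A ⊔ Z).map f) := by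
      haveI := h1.1
      exact H1.isCyclic_of_fpf' inferInstance hK Subgroup.le_normalizer_of_normal
        (H1.Fpf.mono hfpf (hfH _) le_rfl)
    have h3 : IsCyclic (A ⊔ Z : Subgroup P) :=
      isCyclic_of_surjective _ ((A ⊔ Z).equivMapOfInjective f hf).symm.surjective
    have h4 : Nat.card (A ⊔ Z : Subgroup P) ≤ p := by
      by_contra h
      exact L.not_isCyclic_of_elem h1 (not_le.1 h) h3
    rw [Subgroup.eq_of_le_of_card_ge (le_sup_left : A ≤ A ⊔ Z) (h4.trans hA.ge)]
    exact (Subgroup.eq_of_le_of_card_ge (le_sup_right : Z ≤ A ⊔ Z) (h4.trans hZ.ge)).symm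
  intro A B hA hB
  haveI : Nontrivial P := by
    have : A ≠ ⊥ := by rintro rfl; rw [Subgroup.card_bot] at hA; exact hp.one_lt.ne hA
    obtain ⟨⟨x, _⟩, hx⟩ := Subgroup.ne_bot_iff_exists_ne_one.1 this
    exact nontrivial_of_ne x 1 fun h => hx (Subtype.ext h)
  have hZ : p ∣ Nat.card (Subgroup.center P) := by
    haveI := P.isPGroup'.center_nontrivial
    obtain ⟨n, hn, e⟩ := (P.isPGroup'.to_subgroup (Subgroup.center P)).nontrivial_iff_card.1 inferInstance
    exact e ▸ dvd_pow_self p hn.ne'
  obtain ⟨z, hz⟩ := exists_prime_orderOf_dvd_card' p hZ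
  have h1 : Nat.card (Subgroup.zpowers (z : P)) = p := by
    rw [Nat.card_zpowers, Subgroup.orderOf_coe, hz]
  rw [key A _ hA h1 (Subgroup.zpowers_le.2 z.2), key B _ hB h1 (Subgroup.zpowers_le.2 z.2)]

end Cfsg.Agent.S0040
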