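import Cfsg.Statements.S0041
import Cfsg.Agent.H1.Frob

set_option autoImplicit false
open Cfsg

namespace Cfsg.Agent.S0041

/-- A group acting on a nontrivial abelian group so that no nonidentity element has a nonidentity fixed point is cyclic, provided it is abelian or its order is a product of two (possibly equal) primes. -/
theorem result {G : Type*} [Group G] [Finite G] (A V : Subgroup G) [IsMulCommutative V]
    (hV : V ≠ ⊥) (hAV : A ≤ Subgroup.normalizer (V : Set G)) (hfpf : ∀ a ∈ A, a ≠ 1 → V ⊓ Subgroup.centralizer {a} = ⊥)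
    (hA : IsMulCommutative A ∨ ∃ p q : ℕ, p.Prime ∧ q.Prime ∧ Nat.card A = p * q) : IsCyclic A := by
  refine H1.isCyclic_of_fpf' ?_ hV hAV hfpf
  rcases hA with h | ⟨p, q, hp, hq, h⟩
  · exact h
  wlog hpq : p ≤ q generalizing p q
  · exact this q p hq hp (by rw [h, mul_comm]) (le_of_not_ge hpq)
  have := Fact.mk hp
  have := Fact.mk hq
  rcases hpq.eq_or_lt with rfl | hlt
  · exact IsPGroup.isMulCommutative_of_card_eq_prime_sq (by rw [h, pow_two])
  obtain ⟨P, hP⟩ := H1.exists_isSylowIn p A
  obtain ⟨Q, hQ⟩ := H1.exists_isSylowIn q A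
  have e1 : Nat.card P = p := by
    rw [hP.card_eq, h, Nat.factorization_mul hp.ne_zero hq.ne_zero, hp.factorization, hq.factorization]
    simp [Finsupp.single_apply, hlt.ne']
  have e2 : Nat.card Q = q := by
    rw [hQ.card_eq, h, Nat.factorization_mul hp.ne_zero hq.ne_zero, hp.factorization, hq.factorization]
    simp [Finsupp.single_apply, hlt.ne]
  have e3 : Q.relIndex A = p := by
    have := H1.card_mul_relIndex hQ.le
    rw [e2, h, mul_comm p] at this
    exact Nat.eq_of_mul_eq_mul_left hq.pos this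
  have h1 : (Q.subgroupOf A).Normal := Subgroup.normal_of_index_eq_minFac_card (by
    rw [h]
    refine e3.trans (le_antisymm ?_ (Nat.minFac_le_of_dvd hp.two_le (dvd_mul_right _ _)))
    have h2 := Nat.minFac_prime (n := p * q) (fun e => hp.ne_one (Nat.eq_one_of_mul_eq_one_right e))
    rcases (Nat.Prime.dvd_mul h2).1 (Nat.minFac_dvd _) with h3 | h3
    · exact ((Nat.prime_dvd_prime_iff_eq h2 hp).1 h3).ge
    · exact hlt.le.trans ((Nat.prime_dvd_prime_iff_eq h2 hq).1 h3).ge)
  rw [Subgroup.normal_subgroupOf_iff_le_normalizer hQ.le] at h1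
  have h2 := H1.fac_of_card_le hP.le hQ.le (by
    rw [H1.inf_eq_bot_of_coprime (by rw [e1, e2]; exact (Nat.coprime_primes hp hq).2 hlt.ne), h, e1, e2]
    simp)
  have hPc : IsCyclic P := isCyclic_of_prime_card e1
  have hQc : IsCyclic Q := isCyclic_of_prime_card e2
  rw [← h2.sup_eq]
  refine H1.isMulCommutative_sup inferInstance inferInstance ?_
  rw [Subgroup.le_centralizer_iff]
  rcases ((Subgroup.centralizer (P : Set G)).subgroupOf Q).eq_bot_or_eq_top_of_prime_card
    (hp := e2 ▸ Fact.mk hq) with h3 | h3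
  · have := H1.eq_bot_of_fpf_of_fpf hV hAV hfpf hQ.le hP.le (by
      rw [sup_comm]; exact H1.isSolvable_sup (hP.le.trans h1) inferInstance inferInstance)
      (hP.le.trans h1) (H1.fpf_of_prime_card (e1 ▸ hp) (by
        rwa [Subgroup.subgroupOf_eq_bot, disjoint_iff, inf_comm] at h3))
      (fun e => hp.one_lt.ne' (by rw [← e1, e, Subgroup.card_bot]))
    exact this.le.trans bot_le
  · exact Subgroup.subgroupOf_eq_top.1 h3

end Cfsg.Agent.S0041
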