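import Cfsg.Statements.S0042
import Cfsg.Agent.H1.Thompson

set_option autoImplicit false
open Cfsg

namespace Cfsg.Agent.S0042

/-- In a finite Frobenius group, the Frobenius kernel is (the carrier of) a normal subgroup which is nilpotent. -/
theorem result {G : Type*} [Group G] [Finite G] (H : Subgroup G) (hH : Cfsg.IsFrobeniusComplement H) :
    ∃ N : Subgroup G, (N : Set G) = Cfsg.frobeniusKernel H ∧ N.Normal ∧ Group.IsNilpotent N := by
  obtain ⟨N, h1, h2, -, h3, -⟩ := H1.IsFrob.exists_kernel hH
  exact ⟨N, h2, h1, H1.isNilpotent_of_fpf (le_top.trans (H9.top_le_normalizer _)) h3 (H1.isFrob_iff.1 hH).1⟩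

end Cfsg.Agent.S0042
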