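import Cfsg.Statements.S0047
import Cfsg.Agent.H1.Gaschutz

set_option autoImplicit false
open Cfsg

namespace Cfsg.Agent.S0047

/-- A finite group which is the product AB of two abelian subgroups A and B is solvable. -/
theorem result {G : Type*} [Group G] [Finite G] (A B : Subgroup G)
    [IsMulCommutative A] [IsMulCommutative B] (hAB : ∀ g : G, ∃ a ∈ A, ∃ b ∈ B, g = a * b) :
    Group.IsSolvable G := by
  have := H1.ito (H1.fac_top_iff.2 hAB) inferInstance inferInstance
  exact H1.isSolvable_of_normal_of_quotient (commutator G) (H1.isSolvable_of_isMulCommutative this)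
    (H1.isSolvable_of_isMulCommutative
      (Subgroup.Normal.quotient_commutative_iff_commutator_le.2 le_rfl))

end Cfsg.Agent.S0047
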