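import Cfsg.Statements.S0049
import Cfsg.Agent.H1.Frattini

set_option autoImplicit false
open Cfsg

namespace Cfsg.Agent.S0049

/-- A prime divisor of the order of a finite group also divides the index of the Frattini subgroup. -/
theorem result {G : Type*} [Group G] [Finite G] (p : ℕ) (hp : p.Prime) (hdvd : p ∣ Nat.card G) :
    p ∣ (frattini G).index := by
  by_contra hc
  have := Fact.mk hp
  obtain ⟨P, hP⟩ := H1.exists_isSylowIn p (⊤ : Subgroup G)
  have h1 : P ≤ frattini G := H1.le_of_coprime_index (H1.isPGroup_coprime' hP.isPGroup hc)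
  have h2 : P.Normal := by
    have := (hP.of_le h1 le_top).frattini_top
    rw [sup_comm] at this
    exact Subgroup.normalizer_eq_top_iff.1 (frattini_nongenerating this)
  have h3 := hP.coprime
  rw [Subgroup.relIndex_top_right] at h3
  obtain ⟨H, hH⟩ := Subgroup.exists_right_complement'_of_coprime h3
  have h4 : H = ⊤ := frattini_nongenerating (top_le_iff.1 (hH.symm.sup_eq_top.ge.trans
    (sup_le_sup_left h1 _)))
  have h5 := hH.disjoint
  rw [h4, disjoint_top] at h5
  exact hP.eq_bot_iff.1 h5 (by rwa [Subgroup.card_top])

end Cfsg.Agent.S0049
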