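import Cfsg.Statements.S0057
import Cfsg.Agent.H1.Product
import Cfsg.Agent.L.PG3

set_option autoImplicit false
open Cfsg

namespace Cfsg.Agent.S0057

open scoped commutatorElement

/-- Under coprime action, if the centraliser of A in K has prime index p in K then the commutator subgroup [K, A] has order exactly p. -/
theorem result {G : Type*} [Group G] [Finite G] (A K : Subgroup G) (hAK : A ≤ Subgroup.normalizer (K : Set G))
    (hcop : (Nat.card A).Coprime (Nat.card K)) (hsolv : Group.IsSolvable A ∨ Group.IsSolvable K)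
    (p : ℕ) (hp : p.Prime) (hidx : (K ⊓ Subgroup.centralizer (A : Set G)).relIndex K = p) :
    Nat.card (⁅K, A⁆ : Subgroup G) = p := by
  haveI := Fact.mk hp
  set C := K ⊓ Subgroup.centralizer (A : Set G) with hC
  obtain ⟨P, hP, hAP⟩ := H1.exists_invariant_sylow (p := p) hAK hcop hsolv
  have hf : H1.Fac P C K := H1.fac_of_coprime_relIndex hP.le inf_le_left
    (by rw [hidx]; exact ((Nat.Prime.coprime_iff_not_dvd hp).2 hP.not_dvd).symm)
  have e1 : ⁅K, A⁆ = ⁅P, A⁆ := H1.commutator_eq_of_forall_mul_fixed hP.le fun k hk => by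
    obtain ⟨d, hd, c, hc, e⟩ := hf.ex k hk
    exact ⟨d, hd, c, hc.2, e⟩
  set D := P ⊓ Subgroup.centralizer (A : Set G) with hD
  have hcop' := H1.coprime_of_le_right hcop hP.le
  have hs' := H1.solv_or_of_le hsolv hP.le
  have e2 : D.relIndex P = p := by
    rw [← hidx, ← hf.relIndex_eq, ← Subgroup.inf_relIndex_right C P]
    congr 1
    rw [hC, hD, inf_comm (K ⊓ _) P, ← inf_assoc, inf_eq_left.2 hP.le]
  have hPD : P ≤ Subgroup.normalizer (D : Set G) :=
    L.le_normalizer_of_relIndex_prime hP.isPGroup inf_le_left (e2 ▸ hp)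
  have hDA : ⁅D, A⁆ = ⊥ := Subgroup.commutator_eq_bot_iff_le_centralizer.2 inf_le_right
  have hVD : ⁅⁅P, A⁆, D⁆ = ⊥ := by
    refine Subgroup.commutator_commutator_eq_bot_of_rotate ?_ ?_
    · rw [Subgroup.commutator_comm A D, hDA, Subgroup.commutator_bot_left]
    · exact le_bot_iff.1 ((Subgroup.commutator_mono
        (H1.commutator_le_of_le_normalizer hPD) le_rfl).trans hDA.le)
  set V := ⁅P, A⁆ with hV
  have hVP : V ≤ P := H1.commutator_le_of_le_normalizer hAP
  have e3 : V ⊔ D = P := H1.commutator_sup_centralizer hAP hcop' hs'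
  have e4 : (V ⊓ D).relIndex V = p := by
    rw [Subgroup.inf_relIndex_left, ← H1.relIndex_sup_of_le_normalizer (hVP.trans hPD), e3, e2]
  have hVa : IsMulCommutative V := L.isMulCommutative_of_relIndex_prime (e4 ▸ hp) inf_le_left
    (inf_le_right.trans (Subgroup.le_centralizer_iff.1
      (Subgroup.commutator_eq_bot_iff_le_centralizer.1 hVD)))
  have e5 := H1.abelian_centralizer_inf_commutator hVa
    (H1.le_normalizer_commutator hAP Subgroup.le_normalizer) (H1.coprime_of_le_right hcop' hVP)
  rw [H1.commutator_commutator_eq hAP hcop' hs', ← hV] at e5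
  have e6 : V ⊓ D = ⊥ := le_bot_iff.1 (le_trans
    (le_inf (inf_le_inf_left _ inf_le_right) inf_le_left) e5.le)
  rw [e6, Subgroup.relIndex_bot_left] at e4
  rw [e1, e4]

end Cfsg.Agent.S0057
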