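import Cfsg.Statements.S0059
import Cfsg.Agent.H1.Coprime

set_option autoImplicit false
open Cfsg

namespace Cfsg.Agent.S0059

/-- Let a finite group act on a set on which a normal subgroup K of coprime order and index is transitive, with K or the quotient solvable. Then any complement H of K has a fixed point, and any two H-fixed points are interchanged by an element of K centralising H. -/
theorem result {G : Type*} [Group G] [Finite G] {X : Type*} [Nonempty X] [MulAction G X]
    (K H : Subgroup G) [K.Normal] (hc : Subgroup.IsComplement' K H) (hcop : (Nat.card K).Coprime K.index)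
    (hsolv : Group.IsSolvable K ∨ Group.IsSolvable (G ⧸ K)) (htrans : MulAction.IsPretransitive K X) :
    (∃ x : X, ∀ h ∈ H, h • x = x) ∧
    ∀ x y : X, (∀ h ∈ H, h • x = x) → (∀ h ∈ H, h • y = y) → ∃ k ∈ K ⊓ Subgroup.centralizer (H : Set G), k • x = y := by
  have hs : Group.IsSolvable H ∨ Group.IsSolvable K :=
    hsolv.symm.imp_left (H1.isSolvable_of_equiv hc.symm.QuotientMulEquiv)
  have hcop' : (Nat.card H).Coprime (Nat.card K) := by
    rw [← hc.symm.index_eq_card]; exact hcop.symm
  constructor
  · obtain ⟨x⟩ := ‹Nonempty X›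
    obtain ⟨n, hn, h⟩ := H1.glauberman (MulAction.stabilizer G x) (B := H) (N := K)
      Subgroup.le_normalizer_of_normal hcop' hs fun b _ => by
        obtain ⟨k, hk⟩ := htrans.exists_smul_eq x (b • x)
        refine ⟨k, k.2, (k : G)⁻¹ * b, ?_, by group⟩
        rw [MulAction.mem_stabilizer_iff, mul_smul, ← hk]
        exact inv_smul_smul (k : G) x
    refine ⟨n⁻¹ • x, fun h' hh => ?_⟩
    have := H1.conj_smul_le_iff.1 h h' hh
    rw [MulAction.mem_stabilizer_iff, mul_smul, mul_smul, smul_eq_iff_eq_inv_smul] at this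
    exact this
  · intro x y hx hy
    obtain ⟨k, hk⟩ := htrans.exists_smul_eq x y
    have hk' : (k : G) • x = y := hk
    have hH : H ≤ MulAction.stabilizer G x := fun h hh => hx h hh
    obtain ⟨d, hd, h⟩ := H1.fixed_coset (A := H) (D := K ⊓ MulAction.stabilizer G x)
      (H1.le_normalizer_inf Subgroup.le_normalizer_of_normal (H1.le_normalizer_of_le hH))
      (H1.coprime_of_le_right hcop' inf_le_left) (H1.solv_or_of_le hs inf_le_left) (x := k)
      fun a ha => by
        refine Subgroup.mem_inf.2 ⟨?_, ?_⟩
        · have := K.mul_mem (K.inv_mem k.2) (‹K.Normal›.conj_mem _ k.2 a)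
          simpa [mul_assoc] using this
        · rw [MulAction.mem_stabilizer_iff, mul_smul, mul_smul, mul_smul, hx _ (H.inv_mem ha), hk',
            hy _ ha, ← hk', inv_smul_smul]
    refine ⟨k * d, ⟨K.mul_mem k.2 hd.1, h⟩, ?_⟩
    rw [mul_smul, MulAction.mem_stabilizer_iff.1 hd.2, hk']

end Cfsg.Agent.S0059
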