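import Cfsg.Statements.S0060
import Cfsg.Agent.H1.SylowIn
import Cfsg.Agent.H1.Frattini

set_option autoImplicit false
open Pointwise
open Cfsg

namespace Cfsg.Agent.S0060

/-- Brodkey's Theorem: in a finite group with abelian Sylow p-subgroups and no nontrivial normal p-subgroup, some conjugate of a Sylow p-subgroup meets it trivially. -/
theorem result {G : Type*} [Group G] [Finite G] (p : ℕ) [Fact p.Prime]
    (S : Sylow p G) (hS : IsMulCommutative S) (hOp : Cfsg.pCore p G = ⊥) :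
    ∃ g : G, (S : Subgroup G) ⊓ MulAut.conj g • (S : Subgroup G) = ⊥ := by
  obtain ⟨D, ⟨g, rfl⟩, hmin⟩ := WellFounded.has_min (wellFounded_lt (α := Subgroup G))
    {D | ∃ g : G, D = (S : Subgroup G) ⊓ MulAut.conj g • (S : Subgroup G)} ⟨_, 1, rfl⟩
  refine ⟨g, le_bot_iff.1 ?_⟩
  rw [← hOp, H1.pCore_eq_iInf_sylow]
  refine le_iInf fun P => ?_
  set T := MulAut.conj g • (S : Subgroup G) with hT
  set D := (S : Subgroup G) ⊓ T with hD
  have hTs : H1.IsSylowIn p T ⊤ := (H1.isSylowIn_top S).smul (Subgroup.le_normalizer (Subgroup.mem_top _))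
  have hTa : IsMulCommutative T := by
    rw [hT, H1.conj_smul_eq_map]; infer_instance
  have hSN := H1.le_normalizer_of_abelian hS (show D ≤ S from inf_le_left)
  have hTN := H1.le_normalizer_of_abelian hTa (show D ≤ T from inf_le_right)
  obtain ⟨y, hy, h1⟩ := (hTs.of_le hTN le_top).exists_conj_le
    (U := (P : Subgroup G) ⊓ Subgroup.normalizer (D : Set G))
    (P.isPGroup'.to_le inf_le_left) inf_le_right
  obtain ⟨h, -, hh⟩ := (H1.isSylowIn_top S).conj (H1.isSylowIn_top P)
  have h2 : (S : Subgroup G) ⊓ MulAut.conj (y * h) • (S : Subgroup G) ≤ D := by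
    rw [← H1.conj_smul_conj_smul, hh]
    rintro z ⟨hz1, hz2⟩
    refine ⟨hz1, h1 ?_⟩
    replace hz2 := H1.mem_conj_smul.1 hz2
    rw [H1.mem_conj_smul]
    exact ⟨hz2, Subgroup.mul_mem _ (Subgroup.mul_mem _ (Subgroup.inv_mem _ hy) (hSN hz1)) hy⟩
  have h3 := (h2.lt_or_eq.resolve_left (hmin _ ⟨_, rfl⟩)).ge.trans inf_le_right
  rw [← H1.conj_smul_conj_smul, hh, H1.le_conj_smul_iff] at h3
  intro z hz
  have := h3 _ (H1.conj_mem_of_mem_normalizer hy hz)
  simpa [mul_assoc] using this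

end Cfsg.Agent.S0060
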