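import Cfsg.Statements.S0063
import Cfsg.Agent.H1.Basic

set_option autoImplicit false
open Cfsg

namespace Cfsg.Agent.S0063

/-- A finite group of prime-power order p ^ m with m > 1 is nilpotent of class at most m - 1. -/
theorem result {G : Type*} [Group G] [Finite G] (p m : ℕ) [Fact p.Prime]
    (hG : Nat.card G = p ^ m) (hm : 1 < m) : Group.nilpotencyClass G ≤ m - 1 := by
  have hp : p.Prime := Fact.out
  induction m using Nat.strong_induction_on generalizing G with | _ m ih
  have hP : IsPGroup p G := IsPGroup.of_card hG
  haveI := hP.isNilpotent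
  by_cases ha : IsMulCommutative G
  · exact (Group.IsNilpotent.nilpotencyClass_le_one_iff.2 ha).trans (by omega)
  haveI : Nontrivial G := by
    by_contra h
    rw [not_nontrivial_iff_subsingleton] at h
    exact ha inferInstance
  obtain ⟨k, hk⟩ := IsPGroup.iff_card.1 (hP.to_quotient (Subgroup.center G))
  have h1 : k < m := by
    have := H1.card_quotient_lt (N := Subgroup.center G)
      ((Subgroup.nontrivial_iff_ne_bot _).1 hP.center_nontrivial)
    rw [hk, hG] at this
    exact (Nat.pow_lt_pow_iff_right hp.one_lt).1 this
  have h2 : 1 < k := by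
    by_contra h
    apply ha
    haveI : IsCyclic (G ⧸ Subgroup.center G) := isCyclic_of_card_dvd_prime (p := p) (by
      rw [hk]
      calc p ^ k ∣ p ^ 1 := pow_dvd_pow _ (by omega)
        _ = p := pow_one p)
    exact isMulCommutative_of_isCyclic_quotient_center_self G
  rw [Group.nilpotencyClass_eq_quotient_center_plus_one]
  have := ih k h1 hk h2
  omega

end Cfsg.Agent.S0063
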