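import Cfsg.Statements.S0064
import Cfsg.Agent.H1.Frattini

set_option autoImplicit false
open Cfsg

namespace Cfsg.Agent.S0064

/-- A finite group is nilpotent exactly when each of its subgroups is subnormal. -/
theorem result {G : Type*} [Group G] [Finite G] :
    Group.IsNilpotent G ↔ ∀ H : Subgroup G, H.IsSubnormal := by
  refine ⟨fun _ H => H1.isSubnormal_of_nilpotent H, fun h => ?_⟩
  refine H1.isNilpotent_of_sylow_normal fun p _ _ => ?_
  obtain ⟨P⟩ : Nonempty (Sylow p G) := inferInstance
  refine ⟨P, ?_⟩
  rw [le_antisymm (H1.le_pCore_of_subnormal (h P) P.isPGroup') (H1.pCore_le_sylow P)]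
  infer_instance

end Cfsg.Agent.S0064
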