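import Cfsg.Statements.S0068
import Cfsg.Agent.H1.Frob

set_option autoImplicit false
open Cfsg

namespace Cfsg.Agent.S0068

/-- Frobenius complements of even order: if H complements a nontrivial normal subgroup K, each nonidentity element of H has trivial centraliser in K, and H has even order, then H contains a unique involution s, K is abelian, and s inverts every element of K. -/
theorem result {G : Type*} [Group G] [Finite G] (K H : Subgroup G) [K.Normal]
    (hc : Subgroup.IsComplement' K H) (hK : K ≠ ⊥) (hfpf : ∀ h ∈ H, h ≠ 1 → K ⊓ Subgroup.centralizer {h} = ⊥)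
    (heven : 2 ∣ Nat.card H) :
    (∃ s ∈ H, orderOf s = 2 ∧ (∀ t ∈ H, orderOf t = 2 → t = s) ∧ ∀ k ∈ K, s * k * s⁻¹ = k⁻¹) ∧ IsMulCommutative K := by
  have key : ∀ s ∈ H, orderOf s = 2 → ∀ k ∈ K, s * k * s⁻¹ = k⁻¹ := fun s hs h2 k hk =>
    H1.conj_eq_inv_of_fpf (Subgroup.le_normalizer_of_normal (Subgroup.mem_top s))
      (hfpf s hs (by rintro rfl; simp at h2))
      (by rw [← pow_two, ← h2, pow_orderOf_eq_one]; exact one_mem _) hk
  obtain ⟨⟨s, hs⟩, h2⟩ := exists_prime_orderOf_dvd_card' 2 heven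
  rw [Subgroup.orderOf_mk] at h2
  refine ⟨⟨s, hs, h2, fun t ht h3 => ?_, key s hs h2⟩,
    H1.isMulCommutative_of_conj_eq_inv (key s hs h2)⟩
  obtain ⟨⟨k, hk⟩, h0⟩ := Subgroup.ne_bot_iff_exists_ne_one.1 hK
  refine ((H1.fpf_iff.1 hfpf (s⁻¹ * t) (H.mul_mem (H.inv_mem hs) ht) k hk ?_).resolve_right
    (fun e => h0 (Subtype.ext e)) |> inv_mul_eq_one.1).symm
  have e := (key t ht h3 k hk).trans (key s hs h2 k hk).symm
  calc _ = s⁻¹ * (t * k * t⁻¹) * t := by group
    _ = _ := by rw [e]; group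

end Cfsg.Agent.S0068
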