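import Cfsg.Statements.S0069
import Cfsg.Agent.H1.Frob
import Cfsg.Agent.H1.Gaschutz
import Cfsg.Agent.S0040
import Cfsg.Agent.L.PG2

set_option autoImplicit false
open Cfsg

namespace Cfsg.Agent.S0069

open scoped commutatorElement

/-- A Frobenius complement has nontrivial centre: if H ≠ 1 complements a nontrivial normal subgroup K and every nonidentity element of H has trivial centraliser in K, then the centre of H is nontrivial. -/
theorem result {G : Type*} [Group G] [Finite G] (K H : Subgroup G) [K.Normal]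
    (hc : Subgroup.IsComplement' K H) (hK : K ≠ ⊥) (hH : H ≠ ⊥) (hfpf : ∀ h ∈ H, h ≠ 1 → K ⊓ Subgroup.centralizer {h} = ⊥) :
    Subgroup.center H ≠ ⊥ := by
  have hf : H1.Fpf H K := hfpf
  suffices h : ∃ x ∈ H, x ≠ 1 ∧ x ∈ Subgroup.centralizer (H : Set G) by
    obtain ⟨x, hx, h1, h2⟩ := h
    refine Subgroup.ne_bot_iff_exists_ne_one.2 ⟨⟨⟨x, hx⟩, ?_⟩, fun h => h1 ?_⟩
    · exact Subgroup.mem_center_iff.2 fun g => Subtype.ext (h2 g g.2)
    · exact congrArg (fun y : Subgroup.center H => ((y : H) : G)) h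
  have hn : ∀ x : G, x ∈ Subgroup.normalizer (K : Set G) := fun x => by
    rw [Subgroup.normalizer_eq_top]; trivial
  by_cases h2 : 2 ∣ Nat.card H
  · haveI := Fact.mk Nat.prime_two
    obtain ⟨s, hs⟩ := exists_prime_orderOf_dvd_card' 2 h2
    have hs1 : (s : G) ≠ 1 := by
      intro h; rw [show s = 1 from Subtype.ext h, orderOf_one] at hs; omega
    have hs2 : (s : G) * s = 1 := by
      have := pow_orderOf_eq_one s
      rw [hs, pow_two] at this
      exact congrArg Subtype.val this
    have hinv : ∀ k ∈ K, (s : G) * k * (s : G)⁻¹ = k⁻¹ := fun k hk =>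
      H1.conj_eq_inv_of_fpf (hn _) (hfpf s s.2 hs1) (by rw [hs2]; exact Subgroup.one_mem _) hk
    refine ⟨s, s.2, hs1, fun h hh => ?_⟩
    obtain ⟨⟨k, hk⟩, hk1⟩ := Subgroup.ne_bot_iff_exists_ne_one.1 hK
    have := H1.fpf_iff.1 hf ((s : G)⁻¹ * (h * s * h⁻¹))
      (H.mul_mem (H.inv_mem s.2) (H.mul_mem (H.mul_mem hh s.2) (H.inv_mem hh))) k hk (by
        have e1 := hinv _ (‹K.Normal›.conj_mem' k hk h)
        have e2 := hinv k hk
        calc (s : G)⁻¹ * (h * s * h⁻¹) * k
            = (s : G)⁻¹ * h * (s * (h⁻¹ * k * h) * (s : G)⁻¹) * s * h⁻¹ := by group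
          _ = (s : G)⁻¹ * k⁻¹ * (h * s * h⁻¹) := by rw [e1]; group
          _ = (s : G)⁻¹ * (s * k * (s : G)⁻¹) * (h * s * h⁻¹) := by rw [e2]
          _ = k * ((s : G)⁻¹ * (h * s * h⁻¹)) := by group)
    have h3 := this.resolve_right fun h => hk1 (Subtype.ext h)
    rw [inv_mul_eq_one, eq_mul_inv_iff_mul_eq] at h3
    exact h3.symm
  haveI : IsZGroup H := ⟨fun p hp P => by
    haveI := Fact.mk hp
    refine (Cfsg.Agent.S0040.result K H hc hK hfpf p P).resolve_right ?_
    rintro ⟨n, ⟨e⟩⟩
    apply h2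
    refine Dvd.dvd.trans ?_ (Subgroup.card_subgroup_dvd_card (P : Subgroup H))
    rw [Nat.card_congr e.toEquiv, Nat.card_eq_fintype_card, QuaternionGroup.card]
    exact Dvd.intro (2 * 2 ^ n) (by ring)⟩
  set N := ⁅H, H⁆ with hN
  have hNH : N ≤ H := H1.commutator_le_of_le_normalizer Subgroup.le_normalizer
  have hHN : H ≤ Subgroup.normalizer (N : Set G) := H1.le_normalizer_commutator Subgroup.le_normalizer Subgroup.le_normalizer
  have e1 : N.subgroupOf H = commutator H := by
    rw [hN, ← L.map_commutator_subtype, H1.subgroupOf_map_subtype_self]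
  have hNc : IsCyclic N := by
    have := IsZGroup.isCyclic_commutator H
    rw [← e1] at this
    exact isCyclic_of_surjective _ (Subgroup.subgroupOfEquivOfLe hNH).surjective
  have hcop : (Nat.card N).Coprime (N.relIndex H) := by
    have := IsZGroup.coprime_commutator_index H
    rwa [← e1, H1.card_subgroupOf hNH] at this
  have hsH : Group.IsSolvable H := inferInstance
  obtain ⟨A, hAH, h3, h4, h5⟩ := H1.exists_complement_rel hNH hHN hcop
  have hA0 : A ≠ ⊥ := by
    rintro rfl
    rw [bot_sup_eq] at h4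
    exact (H1.commutator_lt_of_solvable hsH hH).ne h4
  have hAa : A ≤ Subgroup.centralizer (A : Set G) := by
    rw [← Subgroup.commutator_eq_bot_iff_le_centralizer, ← le_bot_iff, ← h3]
    exact le_inf (H1.commutator_le_of_le_normalizer Subgroup.le_normalizer)
      (Subgroup.commutator_mono hAH hAH)
  obtain ⟨x, hx, hxp⟩ := H1.exists_prime_orderOf_mem hA0
  have hx1 : x ≠ 1 := by rintro rfl; simp [Nat.not_prime_one] at hxp
  have hxA := Subgroup.zpowers_le.2 hx
  have h6 : Subgroup.zpowers x ≤ Subgroup.centralizer (N : Set G) := by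
    refine H1.le_centralizer_of_prime_order inferInstance ((hxA.trans hAH).trans hHN)
      (H1.coprime_of_le_left (h5 ▸ hcop.symm) hxA) fun y hy hyp => ?_
    by_contra hc
    have hyN := Subgroup.zpowers_le.2 hy
    have h7 : H1.Fpf (Subgroup.zpowers y) (Subgroup.zpowers x) := by
      refine H1.Fpf.symm (H1.fpf_of_prime_card (by rwa [Nat.card_zpowers]) ?_)
      haveI : Fact (Nat.card (Subgroup.zpowers y)).Prime := ⟨by rwa [Nat.card_zpowers]⟩
      rcases Subgroup.eq_bot_or_eq_top_of_prime_card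
        ((Subgroup.centralizer (Subgroup.zpowers x : Set G)).subgroupOf (Subgroup.zpowers y)) with h | h
      · rw [Subgroup.subgroupOf_eq_bot] at h
        exact disjoint_iff.1 h.symm
      · rw [Subgroup.subgroupOf_eq_top] at h
        exact absurd (h (Subgroup.mem_zpowers y)) hc
    have := H1.eq_bot_of_fpf_of_fpf hK Subgroup.le_normalizer_of_normal hf (hyN.trans hNH)
      (hxA.trans hAH) (H1.isSolvable_of_le (sup_le (hyN.trans hNH) (hxA.trans hAH)) hsH)
      (((hxA.trans hAH).trans hHN).trans (H1.normalizer_le_normalizer_of_isCyclic hNc hyN))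
      h7.symm (by simpa using hx1)
    rw [Subgroup.zpowers_eq_bot] at this
    rw [this] at hyp
    simp [Nat.not_prime_one] at hyp
  refine ⟨x, hAH hx, hx1, ?_⟩
  have : H ≤ Subgroup.centralizer {x} := by
    rw [← h4, ← H1.centralizer_zpowers]
    exact sup_le (Subgroup.le_centralizer_iff.1 (hxA.trans hAa)) (Subgroup.le_centralizer_iff.1 h6)
  intro h hh
  exact (Subgroup.mem_centralizer_singleton_iff.1 (this hh))

end Cfsg.Agent.S0069
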