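import Cfsg.Statements.S0070
import Cfsg.Agent.H1.Frattini

set_option autoImplicit false
open Cfsg

namespace Cfsg.Agent.S0070

/-- The Fitting subgroup commutes with passing to the Frattini quotient: the Fitting subgroup of G modulo its Frattini subgroup is the image of the Fitting subgroup of G. -/
theorem result {G : Type*} [Group G] [Finite G] :
    Cfsg.fittingSubgroup (G ⧸ frattini G) = (Cfsg.fittingSubgroup G).map (QuotientGroup.mk' (frattini G)) := by
  refine le_antisymm ?_ (H1.map_fitting_le (QuotientGroup.mk'_surjective _))
  have e := Subgroup.map_comap_eq_self_of_surjective (QuotientGroup.mk'_surjective (frattini G))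
    (Cfsg.fittingSubgroup (G ⧸ frattini G))
  rw [← e]
  refine Subgroup.map_mono (H1.le_fitting (H1.isNilpotent_of_map_le_frattini ?_ le_rfl ?_))
  · intro x hx
    rw [Subgroup.mem_comap, QuotientGroup.mk'_apply, (QuotientGroup.eq_one_iff x).2 hx]
    exact one_mem _
  · rw [e]; exact H1.fitting_isNilpotent

end Cfsg.Agent.S0070
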