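import Cfsg.Statements.S0073
import Cfsg.Agent.H1.Tr

set_option autoImplicit false
open Cfsg

namespace Cfsg.Agent.S0073

open H1

/-- For a finite non-abelian simple group, either the cube of the least prime divisor of the order divides the order, or 12 does. -/
theorem result {G : Type*} [Group G] [Finite G] [IsSimpleGroup G] (hG : ∃ x y : G, x * y ≠ y * x) : (Nat.card G).minFac ^ 3 ∣ Nat.card G ∨ 12 ∣ Nat.card G := by
  have h1 : Nat.card G ≠ 1 := Finite.one_lt_card.ne'
  haveI := Fact.mk (Nat.minFac_prime h1)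
  set p := (Nat.card G).minFac with hp
  obtain ⟨P⟩ := (inferInstance : Nonempty (Sylow p G))
  by_contra h
  push Not at h
  obtain ⟨k, hk⟩ := P.isPGroup'.exists_card_eq
  have h2 : k ≤ 2 := by
    by_contra h2
    exact h.1 ((pow_dvd_pow p (show 3 ≤ k by omega)).trans (hk ▸ Subgroup.card_subgroup_dvd_card _))
  obtain ⟨x, y, hxy⟩ := hG
  refine hxy (comm_of_simple_of_isPGroup (isPGroup_of_hasNPC_of_simple (hasNPC_of_card_le P hk.le
    fun q i hq h3 h4 h5 h6 h7 => ?_) (Nat.minFac_dvd _)) x y)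
  obtain ⟨e1, rfl, rfl⟩ := small_prime_aux hq (lt_of_le_of_ne (Nat.minFac_le_of_dvd hq.two_le h4) h3.symm) h5 (h6.trans h2) h7
  refine h.2 (Nat.Coprime.mul_dvd_of_dvd_of_dvd (by decide : Nat.Coprime 3 4) h4 ?_)
  have := (pow_dvd_pow p h6).trans (hk ▸ Subgroup.card_subgroup_dvd_card (P : Subgroup G))
  rwa [show p = 2 from e1] at this

end Cfsg.Agent.S0073
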