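import Cfsg.Statements.S0074
import Cfsg.Agent.H2.Control

set_option autoImplicit false
open Cfsg

namespace Cfsg.Agent.S0074

/-- For an abelian Sylow p-subgroup P, the intersection of P with the derived subgroup of G equals its intersection with the derived subgroup of the normalizer of P. -/
theorem result {G : Type*} [Group G] [Finite G] {p : ℕ} [Fact p.Prime] (P : Sylow p G) (hP : IsMulCommutative P) : commutator G ⊓ (P : Subgroup G) = ⁅Subgroup.normalizer (P : Set G), Subgroup.normalizer (P : Set G)⁆ ⊓ (P : Subgroup G) := by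
  rw [inf_comm, H2.sylow_inf_commutator, inf_comm,
    ← P.coe_coe, (H2.sylow_isSylowIn P Subgroup.le_normalizer).inf_commutator]
  refine H2.foc_eq_of_controls le_top fun x hx g _ hc => ?_
  obtain ⟨n, hn, e⟩ := P.conj_eq_normalizer_conj_of_mem x g⁻¹ hx (by rw [inv_inv]; exact hc)
  exact ⟨n⁻¹, inv_mem hn, by simpa using e.symm⟩

end Cfsg.Agent.S0074
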