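import Cfsg.Statements.S0075
import Cfsg.Agent.H2.Control

set_option autoImplicit false
open Cfsg

namespace Cfsg.Agent.S0075

/-- For an abelian Sylow p-subgroup T, its intersection with the subgroup generated by the elements of order prime to p is the commutator of T with its normalizer. -/
theorem result {G : Type*} [Group G] [Finite G] {p : ℕ} [Fact p.Prime] (T : Sylow p G) (hT : IsMulCommutative T) : (T : Subgroup G) ⊓ Cfsg.pResidual p G = ⁅(T : Subgroup G), Subgroup.normalizer (T : Set G)⁆ := by
  apply le_antisymm
  · have h1 := (H2.isSylowIn_top T).inf_Op_sup_commutator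
    rw [H2.Op_top] at h1
    refine (inf_le_inf_left _ le_sup_left).trans (h1.le.trans ?_)
    rw [H2.foc_eq_of_controls (V := Subgroup.normalizer (T : Set G)) le_top, Subgroup.commutator_comm]
    · exact H2.foc_le_commutator _ _
    · intro x hx g _ hc
      obtain ⟨n, hn, e⟩ := T.conj_eq_normalizer_conj_of_mem x g⁻¹ hx (by rw [inv_inv]; exact hc)
      exact ⟨n⁻¹, inv_mem hn, by simpa using e.symm⟩
  · refine le_inf (Subgroup.le_normalizer_iff_commutator_le_left.1 le_rfl) ?_
    exact (Subgroup.commutator_mono le_top le_top).trans (H2.commutator_le_pResidual_of_comm T hT)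

end Cfsg.Agent.S0075
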