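import Cfsg.Statements.S0078
import Cfsg.Agent.H2.Control

set_option autoImplicit false
open Cfsg

namespace Cfsg.Agent.S0078

/-- In a p-normal group, a Sylow p-subgroup P meets O^p(G) exactly where it meets O^p(V), for any subgroup V containing the normalizer of the centre of P. -/
theorem result {G : Type*} [Group G] [Finite G] {p : ℕ} [Fact p.Prime] (P : Sylow p G) (hn : ∀ Q : Sylow p G, (P : Subgroup G) ⊓ Subgroup.centralizer (P : Set G) ≤ (Q : Subgroup G) → (Q : Subgroup G) ⊓ Subgroup.centralizer (Q : Set G) = (P : Subgroup G) ⊓ Subgroup.centralizer (P : Set G)) (V : Subgroup G) (hV : Subgroup.normalizer (((P : Subgroup G) ⊓ Subgroup.centralizer (P : Set G) : Subgroup G) : Set G) ≤ V) : (P : Subgroup G) ⊓ Cfsg.pResidual p G = (P : Subgroup G) ⊓ (Cfsg.pResidual p V).map V.subtype := by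
  set Z := (P : Subgroup G) ⊓ Subgroup.centralizer (P : Set G) with hZ
  have hW : IsWeaklyClosed Z P := by
    refine ⟨inf_le_left, fun g hg => ?_⟩
    have h1 := hn (g⁻¹ • P) (H2.cj_le_iff.1 hg)
    rw [← Sylow.coe_coe, H2.sylow_smul_eq_cj, ← H2.cj_centralizer, ← H2.cj_inf] at h1
    exact H2.cj_eq_iff_eq.2 h1.symm
  have hZc : (P : Subgroup G) ≤ Subgroup.centralizer (Z : Set G) :=
    Subgroup.le_centralizer_iff.1 inf_le_right
  have hPV : (P : Subgroup G) ≤ V := (hZc.trans (Subgroup.centralizer_le_normalizer _)).trans hV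
  rw [← H2.Op_top, ← H2.Op_eq_map]
  refine (H2.isSylowIn_top P).inf_Op_eq_of_controls hPV le_top fun x hx g _ hc => ?_
  obtain ⟨h, hh, e⟩ := H2.weaklyClosed_fusion_elt P hW (hZc hx) (hZc hc)
  exact ⟨h, hV hh, e⟩

end Cfsg.Agent.S0078
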