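import Cfsg.Statements.S0079
import Cfsg.Agent.H2.Frobenius

set_option autoImplicit false
open Cfsg

namespace Cfsg.Agent.S0079

/-- A nilpotent Hall subgroup has a normal complement exactly when elements of it that are conjugate in the whole group are already conjugate inside it. -/
theorem result {G : Type*} [Group G] [Finite G] (H : Subgroup G) (hH : Group.IsNilpotent H) (hHall : Nat.Coprime (Nat.card H) H.index) : (∃ N : Subgroup G, N.Normal ∧ N.IsComplement' H) ↔ ∀ x ∈ H, ∀ y ∈ H, (∃ g : G, g * x * g⁻¹ = y) → ∃ h ∈ H, h * x * h⁻¹ = y := by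
  constructor
  · rintro ⟨N, hN, hc⟩ x hx y hy ⟨g, rfl⟩
    obtain ⟨⟨n, h⟩, rfl⟩ := hc.symm.2 g
    refine ⟨n, n.2, ?_⟩
    simp only at hy ⊢
    have h1 : (h : G) * x * (h : G)⁻¹ * x⁻¹ ∈ N := by
      have := hN.conj_mem _ (N.inv_mem h.2) x
      simpa [mul_assoc] using N.mul_mem h.2 this
    have h2 : (h : G) * x * (h : G)⁻¹ * x⁻¹ ∈ H := by
      have := H.mul_mem (H.mul_mem (H.inv_mem n.2) hy) n.2
      refine H.mul_mem ?_ (H.inv_mem hx)
      simpa [mul_assoc] using this
    have h3 : (h : G) * x * (h : G)⁻¹ * x⁻¹ = 1 := Subgroup.disjoint_def.1 hc.disjoint h1 h2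
    have h4 : (h : G) * x * (h : G)⁻¹ = x := by rw [← mul_inv_eq_one]; exact h3
    calc (n : G) * x * (n : G)⁻¹ = n * ((h : G) * x * (h : G)⁻¹) * (n : G)⁻¹ := by rw [h4]
      _ = _ := by group
  · intro hf
    have hc : (H.relIndex ⊤).Coprime (Nat.card H) := by
      rw [Subgroup.relIndex_top_right]; exact hHall.symm
    have h1 := H2.inf_Op_eq_bot_of_controls_fusion (n := Nat.card H) (P := H) (H := ⊤) le_top
      IsPGroup.card hH hc (fun x hx h _ hh => hf x hx.1 _ hh ⟨h, rfl⟩)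
    have h2 := H2.Op_sup_eq (n := Nat.card H) le_top hc
    rw [H2.Op_top] at h1 h2
    refine ⟨_, H2.pResidual_normal (Nat.card H), Subgroup.isComplement'_of_disjoint_and_mul_eq_univ ?_ ?_⟩
    · rwa [disjoint_iff, inf_comm]
    · rw [← Subgroup.normal_mul, h2, Subgroup.coe_top]

end Cfsg.Agent.S0079
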