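import Cfsg.Statements.S0080
import Cfsg.Agent.H2.Frobenius

set_option autoImplicit false
open Cfsg

namespace Cfsg.Agent.S0080

/-- When the index of H is prime to the order of H/H', the focal subgroup of H is G' ∩ H, and H/(G' ∩ H) has a normal complement. -/
theorem result {G : Type*} [Group G] [Finite G] (H : Subgroup G) (h : Nat.Coprime H.index (⁅H, H⁆.relIndex H)) : Subgroup.focalSubgroup H = commutator G ⊓ H ∧ ∃ N : Subgroup G, N.Normal ∧ N ⊓ H = commutator G ⊓ H ∧ N ⊔ H = ⊤ := by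
  have hn : ∀ x ∈ H, ∃ k, x ^ (⁅H, H⁆.relIndex H) ^ k ∈ H2.foc H ⊤ := by
    intro x hx
    refine ⟨1, H2.commutator_le_foc Subgroup.le_normalizer le_top ?_⟩
    have : (⁅H, H⁆.subgroupOf H).Normal :=
      Subgroup.normal_subgroupOf_of_le_normalizer (Subgroup.normalizer_commutator_ge_left _ _)
    rw [pow_one]
    exact (⁅H, H⁆.subgroupOf H).pow_index_mem ⟨x, hx⟩
  obtain ⟨N, h1, h2, -, h3, h4⟩ := H2.transfer_abs H h hn
  have h5 : commutator G ⊓ H = H2.foc H ⊤ := by
    rw [inf_comm]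
    exact H2.inf_commutator_eq_foc le_top (by rwa [Subgroup.relIndex_top_right]) hn
  exact ⟨by rw [h5, H2.foc_top], N, h1, by rw [h5, h3], h4⟩

end Cfsg.Agent.S0080
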