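import Cfsg.Statements.S0081
import Cfsg.Agent.H2.Fus13

set_option autoImplicit false
open Cfsg

namespace Cfsg.Agent.S0081

open H2 Subgroup in

/-- If a normal subgroup meets a Sylow p-subgroup P inside the Frattini subgroup of P, then it has a normal p-complement. -/
theorem result {G : Type*} [Group G] [Finite G] {p : ℕ} [Fact p.Prime] (P : Sylow p G) (N : Subgroup G) [N.Normal] (h : N ⊓ (P : Subgroup G) ≤ (frattini P).map (P : Subgroup G).subtype) : Cfsg.HasNormalPComplement p N := by
  have hP := sylow_isSylowIn P (K := (P : Subgroup G) ⊔ N) le_sup_left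
  refine HasNPC.of_le (tate_group hP (le_trans (b := N ⊓ P) (fun x hx => ⟨?_, hx.1⟩) h)) le_sup_right
  refine Op_le_iff.2 (fun y hy hc => ?_) hx.2
  obtain ⟨a, ha, b, hb, rfl⟩ := (mem_sup_of_le_normalizer le_normalizer_of_normal).1 hy
  have h1 : QuotientGroup.mk' N (a * b) ∈ (P : Subgroup G).map (QuotientGroup.mk' N) :=
    ⟨a, ha, by simp [(QuotientGroup.eq_one_iff b).2 hb]⟩
  exact (QuotientGroup.eq_one_iff _).1 (eq_one_of_coprime (P.isPGroup'.map _) h1 (hc.coprime_dvd_left (orderOf_map_dvd (QuotientGroup.mk' N) _)))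

end Cfsg.Agent.S0081
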