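import Cfsg.Statements.S0083
import Cfsg.Agent.H2.Control

set_option autoImplicit false
open Cfsg

namespace Cfsg.Agent.S0083

/-- For an abelian Sylow p-subgroup P, a normal p-complement exists exactly when the normalizer of P is an internal direct product of P with some subgroup. -/
theorem result {G : Type*} [Group G] [Finite G] {p : ℕ} [Fact p.Prime] (P : Sylow p G) (hP : IsMulCommutative P) : Cfsg.HasNormalPComplement p G ↔ ∃ Q : Subgroup G, Q ≤ Subgroup.centralizer (P : Set G) ∧ Q ⊓ (P : Subgroup G) = ⊥ ∧ Q ⊔ (P : Subgroup G) = Subgroup.normalizer (P : Set G) := by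
  have hPC : (P : Subgroup G) ≤ Subgroup.centralizer (P : Set G) := Subgroup.le_centralizer _
  have hS := H2.sylow_isSylowIn P (K := Subgroup.normalizer (P : Set G)) Subgroup.le_normalizer
  constructor
  · intro h
    refine ⟨H2.Op p (Subgroup.normalizer (P : Set G)), ?_, ?_, hS.Op_sup⟩
    · rw [H2.Op_le_iff]
      intro x hx hc
      exact H2.HasNPC.centralizes (H := ⊤) (H2.hasNPC_top.2 h) P.2 le_top trivial hx hc
    · rw [inf_comm, ← hS.hasNPC_iff]; exact H2.HasNPC.subgroup h _
  · rintro ⟨Q, h1, -, h3⟩
    exact ⟨P, _, inferInstance, MonoidHom.ker_transferSylow_isComplement' P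
      (h3.ge.trans (sup_le h1 hPC))⟩

end Cfsg.Agent.S0083
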