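import Cfsg.Statements.S0086
import Cfsg.Agent.H2.Frobenius

set_option autoImplicit false
open Cfsg

namespace Cfsg.Agent.S0086

/-- A normal complement to a Sylow p-subgroup is exactly the set of elements of order prime to p. -/
theorem result {G : Type*} [Group G] [Finite G] {p : ℕ} [Fact p.Prime] (P : Sylow p G) (N : Subgroup G) [N.Normal] (hN : N.IsComplement' (P : Subgroup G)) (x : G) : x ∈ N ↔ Nat.Coprime (orderOf x) p := by
  have h1 : Nat.Coprime (Nat.card N) p := by
    rw [← hN.index_eq_card]
    exact ((Nat.Prime.coprime_iff_not_dvd Fact.out).2 P.not_dvd_index).symm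
  refine ⟨fun hx => h1.coprime_dvd_left (N.orderOf_dvd_natCard hx), fun hx => ?_⟩
  refine (H2.pResidual_le_iff (n := p)).2 ?_ (H2.mem_pResidual_of_coprime hx)
  obtain ⟨k, hk⟩ := P.2.exists_card_eq
  exact IsPGroup.of_card (n := k) (by rw [← Subgroup.index, hN.symm.index_eq_card, hk])

end Cfsg.Agent.S0086
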