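import Cfsg.Statements.S0087
import Cfsg.Agent.H1.Tr
import Cfsg.Agent.S0079

set_option autoImplicit false
open Cfsg

namespace Cfsg.Agent.S0087

open H1

/-- A Hall subgroup that is central in its normalizer has a normal complement. -/
theorem result {G : Type*} [Group G] [Finite G] (H : Subgroup G) (hHall : Nat.Coprime (Nat.card H) H.index) (h : Subgroup.normalizer (H : Set G) ≤ Subgroup.centralizer (H : Set G)) : ∃ N : Subgroup G, N.Normal ∧ N.IsComplement' H := by
  have hc : IsMulCommutative H := L.comm_of_le_centralizer (Subgroup.le_normalizer.trans h)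
  have hn : Group.IsNilpotent H := isNilpotent_of_commutator_le_centralizer (by rw [L.commutator_eq_bot_iff_comm.2 hc]; exact bot_le)
  refine (Cfsg.Agent.S0079.result H hn hHall).2 ?_
  rintro x hx _ hy ⟨g, rfl⟩
  refine ⟨1, H.one_mem, ?_⟩
  have hC : ∀ y ∈ H, H ≤ Subgroup.centralizer {y} := fun y hy z hz => Subgroup.mem_centralizer_singleton_iff.2 (comm_of_mem hc hz hy)
  have h1 : IsPiHallOf {q | q ∣ Nat.card H} H ⊤ := isPiHallOf_iff'.2 ⟨le_top, fun q _ h => h, fun q hq h h' => by
    rw [Subgroup.relIndex_top_right] at h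
    exact hq.one_lt.ne' (Nat.eq_one_of_dvd_coprimes hHall h' h)⟩
  have h2 := piHallOf_smul h1 (g := g) (Subgroup.le_normalizer (Subgroup.mem_top g))
  obtain ⟨c, h3, h4⟩ := nilpotent_hall_conj hn (piHallOf_of_le h1 (hC _ hy) le_top) (piHallOf_of_le h2 (by
    rw [← H9.cj_eq_smul, ← H9.cj_centralizer_singleton]; exact H9.cj_mono g (hC x hx)) le_top)
  rw [conj_smul_conj_smul, conj_smul_eq_self_iff] at h4
  have h5 := h h4 x hx
  have h6 := Subgroup.mem_centralizer_singleton_iff.1 h3
  calc 1 * x * 1⁻¹ = x * (c * g) * (c * g)⁻¹ := by group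
    _ = c * (g * x * g⁻¹) * c⁻¹ := by rw [h5]; group
    _ = _ := by rw [h6]; group

end Cfsg.Agent.S0087
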