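import Cfsg.Statements.S0089
import Cfsg.Agent.H1.Tr

set_option autoImplicit false
open Cfsg

namespace Cfsg.Agent.S0089

open H1

/-- When all Sylow subgroups are abelian, the derived subgroup meets the centre trivially. -/
theorem result {G : Type*} [Group G] [Finite G] (h : ∀ p : ℕ, p.Prime → ∀ P : Sylow p G, IsMulCommutative P) : commutator G ⊓ Subgroup.center G = ⊥ := by
  by_contra h1
  obtain ⟨x, hx, h2⟩ := exists_prime_orderOf_mem h1
  haveI := Fact.mk h2
  obtain ⟨P, hP⟩ := exists_sylow_mem (p := orderOf x) (x := x) ⟨1, (pow_one _).symm⟩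
  have := sylow_inf_commutator_inf_center P ⟨⟨hP, hx.1⟩, hx.2⟩
  rw [L.commutator_eq_bot_iff_comm.2 (h _ h2 P)] at this
  exact ne_one_of_orderOf_prime h2 rfl this

end Cfsg.Agent.S0089
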