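import Cfsg.Statements.S0090
import Cfsg.Agent.H1.Tr

set_option autoImplicit false
open Cfsg

namespace Cfsg.Agent.S0090

open scoped commutatorElement
open H1

/-- An abelian normal Hall subgroup A splits as the internal direct product of G' ∩ A and Z(G) ∩ A, and [A, G] = G' ∩ A. -/
theorem result {G : Type*} [Group G] [Finite G] (A : Subgroup G) [A.Normal] (hc : IsMulCommutative A) (hHall : Nat.Coprime (Nat.card A) A.index) : ⁅A, (⊤ : Subgroup G)⁆ = commutator G ⊓ A ∧ (commutator G ⊓ A) ⊓ (Subgroup.center G ⊓ A) = ⊥ ∧ (commutator G ⊓ A) ⊔ (Subgroup.center G ⊓ A) = A := by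
  obtain ⟨K, -, -, h1, h2⟩ := exists_complement_rel (D := A) (M := ⊤) le_top Subgroup.le_normalizer_of_normal
    (by rwa [Subgroup.relIndex_top_right])
  obtain ⟨a, b, c, d⟩ := abelian_split hc (K := K) Subgroup.le_normalizer_of_normal
    (by rw [h2, Subgroup.relIndex_top_right]; exact hHall.symm)
  rw [h1] at a b
  rw [← a, ← b, Subgroup.coe_top, Subgroup.centralizer_univ] at c d
  have h3 := (hall_inf_commutator_inf_center hHall).trans (L.commutator_eq_bot_iff_comm.2 hc).le
  have h4 : ⁅A, (⊤ : Subgroup G)⁆ ≤ commutator G ⊓ A := le_inf (Subgroup.commutator_mono le_top le_top) (Subgroup.commutator_le_left _ _)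
  have h5 : ⁅A, (⊤ : Subgroup G)⁆ = commutator G ⊓ A := by
    refine le_antisymm h4 fun x hx => ?_
    obtain ⟨y, hy, z, hz, rfl⟩ := (mem_sup_of_le_normalizer_left Subgroup.le_normalizer_of_normal).1 (d.ge hx.2)
    have : z = 1 := h3 ⟨⟨hz.1, (Subgroup.mul_mem_cancel_left _ (h4 hy).1).1 hx.1⟩, hz.2⟩
    simpa [this] using hy
  rw [← h5, inf_comm (Subgroup.center G)]
  exact ⟨rfl, (inf_comm _ _).trans c, d⟩

end Cfsg.Agent.S0090
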