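import Cfsg.Statements.S0091
import Cfsg.Agent.H2.Frobenius

set_option autoImplicit false
open Cfsg

namespace Cfsg.Agent.S0091

/-- If a nontrivial Sylow p-subgroup controls its own fusion then it is not contained in the derived subgroup. -/
theorem result {G : Type*} [Group G] [Finite G] {p : ℕ} [Fact p.Prime] (P : Sylow p G) (hp : p ∣ Nat.card G) (h : ∀ x ∈ P, ∀ y ∈ P, (∃ g : G, g * x * g⁻¹ = y) → ∃ z ∈ P, z * x * z⁻¹ = y) : ¬ (P : Subgroup G) ≤ commutator G := by
  intro hle
  have h1 := H2.sylow_inf_commutator P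
  rw [inf_eq_left.2 hle] at h1
  refine P.ne_bot_of_dvd_card hp (H2.eq_bot_of_le_commutator P.2 le_rfl (h1.le.trans ?_))
  rw [H2.foc_le_iff]
  intro x hx g _ hc
  obtain ⟨z, hz, e⟩ := h x hx _ hc ⟨g, rfl⟩
  rw [← e]
  exact Subgroup.commutator_mem_commutator hz hx

end Cfsg.Agent.S0091
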