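import Cfsg.Statements.S0092
import Cfsg.Agent.H1.Tr

set_option autoImplicit false
open Cfsg

namespace Cfsg.Agent.S0092

open scoped Pointwise
open H1

/-- If the Sylow p-subgroups of O^p(G) are abelian then G splits over O^p(G). -/
theorem result {G : Type*} [Group G] [Finite G] {p : ℕ} [Fact p.Prime] (h : ∀ Q : Sylow p (Cfsg.pResidual p G), IsMulCommutative Q) : ∃ K : Subgroup G, K.IsComplement' (Cfsg.pResidual p G) := by
  obtain ⟨P⟩ := (inferInstance : Nonempty (Sylow p G))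
  set K := pResidual p G with hK
  obtain ⟨Q, hQ⟩ := exists_isSylowIn (p := p) K
  have hc : IsMulCommutative Q := by
    obtain ⟨R, rfl⟩ := hQ.exists_sylow
    haveI := h R; infer_instance
  have h0 := (hQ.inf_Op_of_comm hc).1
  rw [hK, ← H2.Op_top, H2.Op_Op, H2.Op_top, ← hK, inf_eq_left.2 hQ.1] at h0
  have h1 := hQ.of_le (le_inf hQ.1 Subgroup.le_normalizer) inf_le_left
  obtain ⟨M, h2, h5, h3, h4⟩ := exists_complement_rel h1.1 inf_le_right h1.coprime
  have hMQ := h2.trans inf_le_right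
  have hcop : (Nat.card M).Coprime (Nat.card Q) := h4 ▸ h1.coprime.symm
  obtain ⟨a, -, c, -⟩ := abelian_split hc hMQ hcop
  rw [← a, h3, ← h0, inf_eq_left.2 inf_le_left] at c
  have h6 : K ⊔ (Subgroup.normalizer (M : Set G) ⊓ Subgroup.normalizer (Q : Set G)) = ⊤ := by
    rw [eq_top_iff, ← hQ.frattini_top]
    refine sup_le le_sup_left fun g hg => ?_
    obtain ⟨n, hn, h7⟩ := exists_conj_le_of_solvable_right (isSolvable_of_isMulCommutative hc) hMQ h5
      (B := MulAut.conj g • M) (h3 ▸ conj_smul_le_of_mem_normalizer h2 (le_normalizer_inf Subgroup.le_normalizer_of_normal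
        Subgroup.le_normalizer hg)) (by rwa [card_conj_smul])
    rw [conj_smul_conj_smul, conj_smul_le_iff, ← mem_normalizer_iff_conj_mem] at h7
    exact (Subgroup.mul_mem_cancel_left _ (Subgroup.mem_sup_left (hQ.1 hn))).1 (Subgroup.mem_sup_right
      ⟨h7, Subgroup.mul_mem _ (Subgroup.le_normalizer hn) hg⟩)
  obtain ⟨S, hS⟩ := exists_isSylowIn (p := p) (Subgroup.normalizer (M : Set G) ⊓ Subgroup.normalizer (Q : Set G))
  refine ⟨S, (isComplement'_of_inf_sup ?_ ?_).symm⟩
  · rw [eq_bot_iff, ← inf_eq_bot_of_coprime (isPGroup_coprime' hS.2 (h4 ▸ h1.3) : (Nat.card S).Coprime (Nat.card M))]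
    intro x hx
    obtain ⟨m, hm, y, hy, rfl⟩ := (mem_sup_of_le_normalizer_right hMQ).1 (h3.ge ⟨hx.1, (hS.1 hx.2).2⟩)
    have : y = 1 := c.le ⟨hy, mem_centralizer_of_mem_normalizer hMQ h5 hy
      ((Subgroup.mul_mem_cancel_left _ (Subgroup.le_normalizer hm)).1 (hS.1 hx.2).1)⟩
    exact ⟨hx.2, by simpa [this] using hm⟩
  · have h7 := (hS.map (QuotientGroup.mk' K)).eq_of_isPGroup ((H2.isPGroup_quotient_pResidual p).to_subgroup _)
    rw [eq_top_iff, ← h6, sup_comm K S]
    refine sup_le le_sup_right fun x hx => mem_sup_iff_mk_mem_map.2 ?_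
    rw [h7]; exact ⟨x, hx, rfl⟩

end Cfsg.Agent.S0092
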