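import Cfsg.Statements.S0097
import Cfsg.Agent.H1.ES

set_option autoImplicit false
open Cfsg

namespace Cfsg.Agent.S0097

open scoped commutatorElement
open H1

/-- For odd p and E extraspecial, the subgroup generated by the elements of order dividing p has exponent dividing p and index at most p. -/
theorem result {E : Type*} [Group E] [Finite E] {p : ℕ} [Fact p.Prime] (hp : p ≠ 2) (h : Cfsg.IsExtraspecial p E) : (Subgroup.closure {x : E | x ^ p = 1}).index ≤ p ∧ ∀ g ∈ Subgroup.closure {x : E | x ^ p = 1}, g ^ p = 1 := by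
  open Subgroup in
  obtain ⟨m, z, h⟩ := xp_top h
  have ho := (Fact.out : p.Prime).odd_of_ne_two hp
  have h1 : ⁅(⊤ : Subgroup E), ⊤⁆ ≤ zpowers z := commutator_le.2 h.comm
  have h2 : ⁅⁅(⊤ : Subgroup E), ⊤⁆, ⊤⁆ = ⊥ := commutator_eq_bot_iff_le_centralizer.2
    fun w hw g hg => cm_of_zp (h.cen g hg) (h1 hw)
  let f : E →* zpowers z := MonoidHom.mk' (fun x => ⟨x ^ p, h.pow h.nd (mem_top x)⟩) fun a b =>
    Subtype.ext (L.mul_pow_of_class2 h2 (fun w hw => by
      obtain ⟨k, rfl⟩ := h1 hw
      rw [← zpow_natCast, ← zpow_mul, mul_comm, zpow_mul, zpow_natCast,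
        L.pow_eq_one_of_dvd h.zp (L.dvd_choose_two ho), one_zpow]) (mem_top a) (mem_top b))
  have e : closure {x : E | x ^ p = 1} = f.ker := by
    rw [← closure_eq f.ker]
    exact congrArg _ (Set.ext fun x => (Subtype.ext_iff (a1 := f x) (a2 := 1)).symm)
  rw [e, index_ker]
  exact ⟨(card_le_card_group _).trans h.card_zp.le, fun g hg => congrArg Subtype.val hg⟩

end Cfsg.Agent.S0097
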