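import Cfsg.Statements.S0099
import Cfsg.Agent.H1.ES2

set_option autoImplicit false
open Cfsg

namespace Cfsg.Agent.S0099

open H1

/-- Among three extraspecial 2-groups of equal order, some two are isomorphic. -/
theorem result {E₁ : Type*} {E₂ : Type*} {E₃ : Type*} [Group E₁] [Group E₂] [Group E₃] [Finite E₁] [Finite E₂] [Finite E₃] (h₁ : Cfsg.IsExtraspecial 2 E₁) (h₂ : Cfsg.IsExtraspecial 2 E₂) (h₃ : Cfsg.IsExtraspecial 2 E₃) (h12 : Nat.card E₁ = Nat.card E₂) (h23 : Nat.card E₂ = Nat.card E₃) : Nonempty (E₁ ≃* E₂) ∨ Nonempty (E₂ ≃* E₃) ∨ Nonempty (E₁ ≃* E₃) := by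
  obtain ⟨a, x, h1⟩ := xp_top h₁
  obtain ⟨y, h2, -⟩ := xp_card h₂ (h12 ▸ h1.cd')
  obtain ⟨z, h3, -⟩ := xp_card h₃ (h23 ▸ h2.cd')
  by_contra! h
  have e1 := mt (h1.equiv_two h2) (not_nonempty_iff.2 h.1)
  have e2 := mt (h2.equiv_two h3) (not_nonempty_iff.2 h.2.1)
  have e3 := mt (h1.equiv_two h3) (not_nonempty_iff.2 h.2.2)
  rcases h1.SS_val with _ | _ <;> rcases h2.SS_val with _ | _ <;> rcases h3.SS_val with _ | _ <;>
    simp_all

end Cfsg.Agent.S0099
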