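import Cfsg.Statements.S0105
import Cfsg.Agent.H1.Tr

set_option autoImplicit false
open Cfsg

namespace Cfsg.Agent.S0105

open H1

/-- With an abelian Sylow p-subgroup P, some quotient of G is isomorphic to the part of P central in N_G(P). -/
theorem result {G : Type*} [Group G] [Finite G] {p : ℕ} [Fact p.Prime] (P : Sylow p G) (hP : IsMulCommutative P) : ∃ (N : Subgroup G) (hN : N.Normal), Nonempty (G ⧸ N ≃* ((P : Subgroup G) ⊓ Subgroup.centralizer (Subgroup.normalizer (P : Set G) : Set G) : Subgroup G)) := by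
  have h0 := ((isSylowIn_top P).inf_Op_of_comm hP).1
  rw [top_inf_eq, H2.Op_top] at h0
  have h1 := (isSylowIn_top P).of_le Subgroup.le_normalizer le_top
  obtain ⟨K, h2, -, h3, h4⟩ := exists_complement_rel Subgroup.le_normalizer le_rfl h1.coprime
  obtain ⟨a, b, c, d⟩ := abelian_split hP h2 (h4 ▸ h1.coprime.symm)
  rw [h3] at a b
  rw [← a, ← b, ← h0] at c d
  refine ⟨_, H2.pResidual_normal p, ⟨(isComplement'_of_inf_sup (N := pResidual p G) ?_ ?_).symm.QuotientMulEquiv⟩⟩
  · rw [← c]
    exact le_antisymm (fun x hx => ⟨hx.2, hx.2.1, hx.1⟩) fun x hx => ⟨hx.2.2, hx.1⟩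
  · rw [eq_top_iff, ← H2.pResidual_sup_sylow P]
    exact sup_le le_sup_left (d.ge.trans (sup_le_sup_right inf_le_right _))

end Cfsg.Agent.S0105
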