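import Cfsg.Statements.S0106
import Cfsg.Agent.H1.Q8SL

set_option autoImplicit false
open Cfsg

namespace Cfsg.Agent.S0106

open H1

/-- A finite group with generalized quaternion Sylow 2-subgroups either has a normal 2-complement or has a section isomorphic to SL(2,3). -/
theorem result {G : Type*} [Group G] [Finite G] (T : Sylow 2 G) (n : ℕ) (hn : 1 ≤ n) (hT : Nonempty ((T : Subgroup G) ≃* QuaternionGroup (2 ^ n))) : Cfsg.HasNormalPComplement 2 G ∨ ∃ (H K : Subgroup G) (hK : (K.subgroupOf H).Normal), Nonempty ((H ⧸ K.subgroupOf H) ≃* Matrix.SpecialLinearGroup (Fin 2) (ZMod 3)) := by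
  obtain ⟨e⟩ := hT
  obtain ⟨m, a, b, h, -, h1, h2⟩ := mc_of_quaternion T.isPGroup' (Nat.one_lt_two_pow (by omega)) e
  by_cases hN : HasNormalPComplement 2 G
  · exact Or.inl hN
  obtain ⟨R, hR, o⟩ : ∃ R ≤ (T : Subgroup G), Od R := by
    by_contra hc
    push Not at hc
    exact hN (hasNPC_of_not_od T hc)
  have hq := (h.od_cases hR o).resolve_left fun k => by
    obtain ⟨-, t, ht, hta, -⟩ := h.klein hR k
    have := h.sq_eq h2 (hR ht) hta
    rw [sq, klein_sq k ht, h1] at this
    exact two_ne h.oz this.symm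
  obtain ⟨g, hg, ⟨k, hk⟩, hn⟩ := hq.exists_three o
  have h3 := hq.cube_mem hg (by rw [hk]; exact Nat.Coprime.pow_left k (by norm_num))
  have hK : ((Subgroup.zpowers (g ^ 3)).subgroupOf (R ⊔ Subgroup.zpowers g)).Normal :=
    Subgroup.normal_subgroupOf_of_le_normalizer (sup_le
      (le_normalizer_of_le_centralizer (Subgroup.le_centralizer_iff.1 (Subgroup.zpowers_le.2 h3)))
      (Subgroup.zpowers_le.2 (L.commute_mem_normalizer (Commute.self_pow g 3))))
  refine Or.inr ⟨_, _, hK, hq.sl23 hg hk hn (QuotientGroup.mk' _) (QuotientGroup.mk'_surjective _) ?_⟩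
  ext x
  rw [mem_unbar]
  simp only [Subgroup.mem_bot, QuotientGroup.mk'_apply, QuotientGroup.eq_one_iff,
    Subgroup.mem_subgroupOf]
  exact ⟨fun ⟨_, hx⟩ => hx, fun hx => ⟨Subgroup.mem_sup_right (zpowers_pow_le g 3 hx), hx⟩⟩

end Cfsg.Agent.S0106
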