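import Cfsg.Statements.S0107
import Cfsg.Agent.H1.Tr
import Cfsg.Agent.S0111

set_option autoImplicit false
open Cfsg

namespace Cfsg.Agent.S0107

open H1

/-- A finite group with no nontrivial 2-group quotient and dihedral Sylow 2-subgroups of order at least 8 has a single class of involutions. -/
theorem result {G : Type*} [Group G] [Finite G] (T : Sylow 2 G) (n : ℕ) (hn : 2 ≤ n) (hT : Nonempty ((T : Subgroup G) ≃* DihedralGroup (2 ^ n))) (hO : Cfsg.pResidual 2 G = ⊤) (x y : G) (hx : orderOf x = 2) (hy : orderOf y = 2) : ∃ g : G, g * x * g⁻¹ = y := by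
  obtain ⟨e⟩ := hT
  obtain ⟨m, a, b, -, -, -, h1, -⟩ := L.dqs_of_dihedral T.isPGroup' (le_trans (by decide) (Nat.pow_le_pow_right two_pos hn)) e
  have key : ∀ x : G, orderOf x = 2 → ∃ g : G, g * x * g⁻¹ ∈ Subgroup.zpowers (a : G) := by
    intro x hx
    obtain ⟨g, hg⟩ := exists_conj_mem_sylow T ⟨1, hx⟩
    by_cases h2 : g * x * g⁻¹ ∈ Subgroup.zpowers (a : G)
    · exact ⟨g, h2⟩
    rcases Cfsg.Agent.S0111.result T (Subgroup.zpowers (a : G)) (Subgroup.zpowers_le.2 a.2) (by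
      refine Eq.trans ?_ h1
      rw [← (T : Subgroup G).coe_subtype, ← MonoidHom.map_zpowers, Subgroup.relIndex, subgroupOf_map_subtype_self])
      _ (by rw [orderOf_conj, hx]) hg h2 with ⟨M, _, h, -⟩ | ⟨k, hk⟩
    · exact absurd h (no_index_of_pResidual_eq_top hO M)
    · exact ⟨k * g, by simpa [mul_assoc] using hk⟩
  obtain ⟨g, hg⟩ := key x hx
  obtain ⟨k, hk⟩ := key y hy
  refine ⟨k⁻¹ * g, ?_⟩
  calc _ = k⁻¹ * (g * x * g⁻¹) * k := by group
    _ = _ := by rw [two_eq_of_mem_zpowers hg hk (by rw [orderOf_conj, hx]) (by rw [orderOf_conj, hy])]; group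

end Cfsg.Agent.S0107
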