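import Cfsg.Statements.S0109
import Cfsg.Agent.H9.Qd

set_option autoImplicit false
open Cfsg

namespace Cfsg.Agent.S0109

/-- The Thompson factorization Theorem for solvable groups states that, with p odd (and abelian Sylow 2-subgroups when p = 3) and no nontrivial normal subgroup of order prime to p, every element of G is a product of an element normalizing J(P) and an element centralizing the elements of order dividing p in the centre of P. -/
theorem result {G : Type*} [Group G] [Finite G] {p : ℕ} [Fact p.Prime] (hp : p ≠ 2) (hs : Group.IsSolvable G) (h3 : p = 3 → ∀ T : Sylow 2 G, IsMulCommutative T) (hF : ∀ N : Subgroup G, N.Normal → Nat.Coprime (Nat.card N) p → N = ⊥) (P : Sylow p G) (g : G) : ∃ a ∈ Subgroup.normalizer (Cfsg.thompsonSubgroupOf p (P : Subgroup G) : Set G), ∃ c ∈ Subgroup.centralizer {x : G | x ∈ (P : Subgroup G) ∧ (∀ y ∈ (P : Subgroup G), x * y = y * x) ∧ x ^ p = 1}, g = a * c := by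
  open H9 Subgroup in open scoped commutatorElement in
  have hO : Op' p (⊤ : Subgroup G) = ⊥ := hF _ (normal_of_top_le (le_normalizer_Op' p ⊤)) (Op'_cop p ⊤)
  have hs' : Group.IsSolvable (⊤ : Subgroup G) := inferInstance
  have hst : PStN p G := pstN_of_not_sect hp fun h => by
    obtain ⟨T⟩ : Nonempty (Sylow 2 G) := inferInstance
    exact h.not_comm hp (syl_top_of_sylow T) (h3 (h.eq_three hp (psol_of_solvable hs')) T)
  obtain ⟨x, h1, c, h2, n, h4, e⟩ := (tf_iff hO).2 (tf_of_pstN hst
    (by simpa using centralizer_Op_le_of_PLay (PLay_eq_bot_of_solvable hs') hO)) _ (syl_top_of_sylow P) g⁻¹ (mem_top _)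
  rw [hO, mem_bot] at h1
  refine ⟨n⁻¹, JE_eq p (P : Subgroup G) ▸ inv_mem h4.2, c⁻¹, centralizer_le ?_ (inv_mem h2.2), by
    rw [← mul_inv_rev, ← inv_inj, inv_inv, e, h1, one_mul]⟩
  exact fun y ⟨a1, a2, a3⟩ => subset_closure ⟨⟨a1, fun z hz => (a2 z hz).symm⟩, a3⟩

end Cfsg.Agent.S0109
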