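import Cfsg.Statements.S0110
import Cfsg.Agent.H1.ES

set_option autoImplicit false
open Cfsg

namespace Cfsg.Agent.S0110

open H1

/-- In a p-group G, an extraspecial subgroup E with [G, E] ≤ Z(E) satisfies G = E C_G(E). -/
theorem result {G : Type*} [Group G] [Finite G] {p : ℕ} [Fact p.Prime] (hG : IsPGroup p G) (E : Subgroup G) (hE : Cfsg.IsExtraspecial p E) (h : ⁅(⊤ : Subgroup G), E⁆ ≤ E ⊓ Subgroup.centralizer (E : Set G)) : E ⊔ Subgroup.centralizer (E : Set G) = ⊤ := by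
  open Subgroup in
  obtain ⟨m, z, h1⟩ := xp_of hE
  rw [h1.Z_eq h1.nd] at h
  have h2 := fun g q (hq : q ∈ E) => h (commutator_mem_commutator (mem_top g) hq)
  have h3 := L.le_centralizer_of_card_prime (hG.to_subgroup ⊤) (M := zpowers z) le_top
    (fun g _ => mem_norm_of_cm fun a ha => h2 g a (h1.zle ha)) (h1.card_zp ▸ Fact.out)
  refine eq_top_iff.2 fun g _ => ?_
  obtain ⟨u, hu, h4⟩ := h1.inner (h2 g) fun q hq => h3 ((h1.Z_eq h1.nd).le hq) g (mem_top g)
  exact (mul_mem_cancel_right (mem_sup_left hu)).1 (mem_sup_right fun q hq => (h4 q hq).symm.eq)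

end Cfsg.Agent.S0110
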