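import Cfsg.Statements.S0112
import Cfsg.Agent.L.PG4
import Mathlib

set_option autoImplicit false
open Cfsg

namespace Cfsg.Agent.S0112

open Subgroup

/-- A p-group with a self-centralizing subgroup of order p^2 is of maximal class. -/
theorem result {X : Type*} [Group X] [Finite X] {p : ℕ} [Fact p.Prime] (n : ℕ) (hX : Nat.card X = p ^ n) (A : Subgroup X) (hA : Nat.card A = p ^ 2) (hC : Subgroup.centralizer (A : Set X) = A) : Group.nilpotencyClass X = n - 1 := by
  have hp : p.Prime := Fact.out
  obtain ⟨x, -, hx⟩ := L.exists_centralizer_le_of_selfcent (IsPGroup.of_card hX) hA hC.le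
  obtain ⟨m, rfl⟩ : ∃ m, n = m + 2 := ⟨n - 2, by
    have := card_le_card_group A
    rw [hA, hX] at this
    have := (Nat.pow_le_pow_iff_right hp.one_lt).1 this
    omega⟩
  exact L.max_class_of_centralizer m hX x (hA ▸ card_le_of_le hx)

end Cfsg.Agent.S0112
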