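import Cfsg.Statements.S0114
import Cfsg.Agent.L.PG4
import Mathlib

set_option autoImplicit false
open Cfsg

namespace Cfsg.Agent.S0114

open Subgroup

/-- The central quotient of a 2-group of maximal class is dihedral. -/
theorem result {X : Type*} [Group X] [Finite X] (n : ℕ) (hn : 3 ≤ n) (hX : Nat.card X = 2 ^ n) (hc : Group.nilpotencyClass X = n - 1) : Nonempty (X ⧸ Subgroup.center X ≃* DihedralGroup (2 ^ (n - 2))) := by
  obtain ⟨m, rfl⟩ : ∃ m, n = m + 3 := ⟨n - 3, by omega⟩
  obtain ⟨a, b, h1, h2, h3, h4⟩ := L.dqs_of_max_class hX ((L.nilpotencyClass_eq_iff hX).1 hc)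
  have h5 := h4.center (by omega) h1 (mem_top a) (mem_top b) h3 (by rwa [relIndex_top_right])
  rw [L.top_inf_centralizer_top] at h5
  have h6 : center X ≤ zpowers a := h5 ▸ zpowers_le.2 (pow_mem (mem_zpowers a) _)
  have h7 : (zpowers (QuotientGroup.mk' (center X) a)).index = 2 := by
    rw [← MonoidHom.map_zpowers, H1.index_map_mk', sup_eq_left.2 h6, h2]
  have h8 : orderOf (QuotientGroup.mk' (center X) a) = 2 ^ (m + 1) := by
    have e1 := (zpowers (QuotientGroup.mk' (center X) a)).card_mul_index
    have e2 := card_eq_card_quotient_mul_card_subgroup (center X)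
    rw [hX, show Nat.card (center X) = 2 by rw [h5, Nat.card_zpowers, L.orderOf_pow_two_pow h1],
      ← e1, h7, Nat.card_zpowers, pow_succ, pow_succ] at e2
    omega
  have := H5.dih_equiv_of_index_two (QuotientGroup.mk' (center X) a) (QuotientGroup.mk' (center X) b)
    (by rw [← map_mul, ← pow_two, QuotientGroup.mk'_apply, QuotientGroup.eq_one_iff, h5]
        exact h4.sq_mem)
    (by obtain ⟨w, hw, -⟩ := h4.conj
        rw [← map_inv, ← map_mul, ← map_mul, hw, zpow_sub_one, map_mul, map_inv, mul_eq_right,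
          QuotientGroup.mk'_apply, QuotientGroup.eq_one_iff, h5]
        exact ⟨w, by simp only [zpow_mul, ← zpow_natCast]; push_cast; rfl⟩)
    (by rw [← MonoidHom.map_zpowers, ← mem_comap, QuotientGroup.comap_map_mk', sup_eq_right.2 h6]
        exact h3) h7
  rwa [h8] at this

end Cfsg.Agent.S0114
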