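import Cfsg.Statements.S0118
import Cfsg.Agent.H9.Qd

set_option autoImplicit false
open Cfsg

namespace Cfsg.Agent.S0118

/-- Glauberman's ZJ-Theorem, in the case of groups with no section isomorphic to SL(2,p), p odd: conjugation of subsets of a Sylow p-subgroup P inside P is always induced from the normalizer of Z(J(P)). -/
theorem result {G : Type*} [Group G] [Finite G] {p : ℕ} [Fact p.Prime] (hp : p ≠ 2) (hfree : ¬ ∃ (H K : Subgroup G) (hK : (K.subgroupOf H).Normal), Nonempty ((H ⧸ K.subgroupOf H) ≃* Matrix.SpecialLinearGroup (Fin 2) (ZMod p))) (P : Sylow p G) (A : Set G) (hA : A ⊆ (P : Set G)) (g : G) (hAg : (fun a => g⁻¹ * a * g) '' A ⊆ (P : Set G)) : ∃ n ∈ Subgroup.normalizer (Cfsg.centerThompsonOf p (P : Subgroup G) : Set G), ∀ a ∈ A, n⁻¹ * a * n = g⁻¹ * a * g := by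
  open H9 Subgroup in open scoped commutatorElement in
  have h := cf_ZE hp fun h : Sect (qd p) (⊤ : Subgroup G) => hfree (involves_iff.2 h.sl2_of_qd)
  rw [iW_single, cf_single_iff'] at h
  obtain ⟨x, h1, h2⟩ := h _ (syl_top_of_sylow P) _ ((closure_le _).2 hA) g⁻¹ (mem_top _) (image_subset_iff_cj'.1 hAg)
  rw [iF_fZE, top_inf_eq, ← ZE_eq] at h1
  exact ⟨x⁻¹, inv_mem h1, by simpa using forall_conj_eq_iff.2 h2⟩

end Cfsg.Agent.S0118
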