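import Cfsg.Statements.S0119
import Cfsg.Agent.L.PG2
import Mathlib

set_option autoImplicit false
open Cfsg

namespace Cfsg.Agent.S0119

open Subgroup
open scoped commutatorElement

/-- If a p'-group A of automorphisms of a p-group G satisfies G = [G, A] and acts trivially on every characteristic abelian subgroup, then G is special with centre equal to the fixed points of A. -/
theorem result {G : Type*} [Group G] [Finite G] {p : ℕ} [Fact p.Prime] (hG : IsPGroup p G) (A : Subgroup (MulAut G)) (hA : Nat.Coprime (Nat.card A) p) (hGA : Subgroup.closure {x : G | ∃ g : G, ∃ a ∈ A, x = g⁻¹ * a g} = ⊤) (hchar : ∀ H : Subgroup G, H.Characteristic → IsMulCommutative H → ∀ a ∈ A, ∀ h ∈ H, a h = h) : Cfsg.IsSpecial p G ∧ (∀ g : G, (g ∈ Subgroup.center G ↔ ∀ a ∈ A, a g = g)) := by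
  obtain ⟨Γ, _, _, i, j, hi, hj, hij, -, -, hn⟩ := H1.exists_ambient A.subtype
  have h1 : ⁅i.range, j.range⁆ = i.range := by
    refine le_antisymm (H9.commutator_le_left' le_normalizer_of_normal) ?_
    rw [MonoidHom.range_eq_map i, map_le_iff_le_comap]
    refine hGA.ge.trans ((closure_le _).2 ?_)
    rintro _ ⟨g, a, ha, rfl⟩
    have := commutator_mem_commutator (mem_map_of_mem i (mem_top g⁻¹))
      (show j ⟨a, ha⟩ ∈ j.range from ⟨_, rfl⟩)
    rwa [commutatorElement_def, ← map_inv i, inv_inv, mul_assoc, mul_assoc, ← mul_assoc (j _),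
      hij, ← map_mul] at this
  have h2 : ∀ B : Subgroup G, B.Characteristic → IsMulCommutative B → B ≤ center G := by
    intro B hB hB' x hx
    have := L.le_centralizer_of_three (B := B.map i) h1 (by
      rintro _ ⟨y, hy, rfl⟩
      exact (H1.mem_centralizer_range_iff hi hij).2 fun a => hchar B hB hB' a a.2 y hy) (by
      rw [MonoidHom.range_eq_map]; exact H9.map_le_normalizer_map i le_normalizer_of_normal)
    exact mem_center_iff.2 fun g => hi (by
      rw [map_mul, map_mul]; exact (this ⟨g, rfl⟩ _ (mem_map_of_mem i hx)).symm)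
  have h3 := L.frattini_le_center_of_char hG h2
  have h4 : ∀ g : G, (∀ a ∈ A, a g = g) → g ∈ commutator G := fun g hg => by
    have := L.centralizer_inf_commutator_le (A := j.range) (K := i.range) le_normalizer_of_normal
      (by rw [H1.card_range_of_injective hi, H1.card_range_of_injective hj]
          exact (H1.isPGroup_coprime hG hA).symm)
      (show i g ∈ _ from ⟨⟨⟨g, rfl⟩, (H1.mem_centralizer_range_iff hi hij).2 fun a => hg a a.2⟩,
        h1.symm ▸ ⟨g, rfl⟩⟩)
    rw [MonoidHom.range_eq_map, ← map_commutator] at this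
    exact (mem_map_iff_mem hi).1 this
  haveI := hG.isNilpotent
  have h5 : center G ≤ commutator G := fun g hg =>
    h4 g fun a ha => hchar _ inferInstance inferInstance a ha g hg
  have h6 : commutator G ≤ frattini G := H1.commutator_le_frattini
  exact ⟨⟨hG, le_antisymm h3 (h5.trans h6), le_antisymm (h6.trans h3) h5⟩, fun g =>
    ⟨fun hg a ha => hchar _ inferInstance inferInstance a ha g hg, fun hg => h3 (h6 (h4 g hg))⟩⟩

end Cfsg.Agent.S0119
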