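import Cfsg.Statements.S0120
import Cfsg.Agent.L.PG2
import Mathlib

set_option autoImplicit false
open Cfsg

namespace Cfsg.Agent.S0120

open Subgroup

/-- For odd p, a p'-automorphism of a p-group acting trivially on the elements of order dividing p is trivial. -/
theorem result {G : Type*} [Group G] [Finite G] {p : ℕ} [Fact p.Prime] (hp : p ≠ 2) (hG : IsPGroup p G) (a : MulAut G) (ha : Nat.Coprime (orderOf a) p) (h : ∀ x : G, x ^ p = 1 → a x = x) : a = 1 := by
  rw [← zpowers_eq_bot]
  refine L.aut_eq_one_of_ambient _ fun Γ _ _ i B hi hB hn hc _ => ?_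
  refine L.le_centralizer_of_omega_odd hp (by rwa [hB, Nat.card_zpowers])
    (hG.of_surjective _ i.rangeRestrict_surjective) hn (L.omegaOne_le_iff.2 ?_)
  rintro _ ⟨x, rfl⟩ hx
  refine hc x fun b hb => ?_
  have : zpowers a ≤ MulAction.stabilizer (MulAut G) x :=
    zpowers_le.2 (h x (hi (by rw [map_pow, hx, map_one])))
  exact this hb

end Cfsg.Agent.S0120
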