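import Cfsg.Statements.S0121
import Cfsg.Agent.L.PG2
import Mathlib

set_option autoImplicit false
open Cfsg

namespace Cfsg.Agent.S0121

open Subgroup

/-- A p'-automorphism of a p-group acting trivially on a critical subgroup is trivial. -/
theorem result {G : Type*} [Group G] [Finite G] {p : ℕ} [Fact p.Prime] (hG : IsPGroup p G) (H : Subgroup G) (hH : H.Characteristic) (h1 : (frattini H).map H.subtype ≤ Subgroup.centralizer (H : Set G)) (h2 : ⁅H, (⊤ : Subgroup G)⁆ ≤ H ⊓ Subgroup.centralizer (H : Set G)) (h3 : Subgroup.centralizer (H : Set G) ≤ H) (a : MulAut G) (ha : Nat.Coprime (orderOf a) p) (h : ∀ x ∈ H, a x = x) : a = 1 := by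
  rw [← zpowers_eq_bot]
  refine L.aut_eq_one_of_ambient _ fun Γ _ _ i B hi hB hn hc _ => ?_
  refine L.le_centralizer_of_selfcent (H := H.map i) (by rwa [hB, Nat.card_zpowers])
    (hG.of_surjective _ i.rangeRestrict_surjective) hn (map_le_range _ _) ?_ ?_
  · rintro _ ⟨⟨x, rfl⟩, hx⟩
    exact mem_map_of_mem i (h3 fun y hy => hi (by
      rw [map_mul, map_mul]; exact hx _ (mem_map_of_mem i hy)))
  · rintro _ ⟨x, hx, rfl⟩
    refine hc x fun b hb => ?_
    have : zpowers a ≤ MulAction.stabilizer (MulAut G) x := zpowers_le.2 (h x hx)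
    exact this hb

end Cfsg.Agent.S0121
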