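import Cfsg.Statements.S0125
import Cfsg.Agent.H1.SZ
import Cfsg.Agent.H1.SylowIn
import Cfsg.Agent.H1.Fitting
import Cfsg.Agent.H1.Frattini
import Cfsg.Agent.L.PG1
import Mathlib

set_option autoImplicit false
open Cfsg

namespace Cfsg.Agent.S0125

open Subgroup

/-- The centralizer of a self-centralizing normal subgroup A of a Sylow p-subgroup is the direct product of A with a normal p'-subgroup. -/
theorem result {G : Type*} [Group G] [Finite G] {p : ℕ} [Fact p.Prime] (R : Sylow p G) (A : Subgroup G) (hAR : A ≤ (R : Subgroup G)) (hAn : (R : Subgroup G) ≤ Subgroup.normalizer (A : Set G)) (hC : (R : Subgroup G) ⊓ Subgroup.centralizer (A : Set G) = A) : ∃ H : Subgroup G, H ≤ Subgroup.centralizer (A : Set G) ∧ Nat.Coprime (Nat.card H) p ∧ Subgroup.centralizer (A : Set G) ≤ Subgroup.normalizer (H : Set G) ∧ H ⊓ A = ⊥ ∧ H ⊔ A = Subgroup.centralizer (A : Set G) := by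
  have hAC : A ≤ centralizer (A : Set G) := hC.ge.trans inf_le_right
  have hS : H1.IsSylowIn p A (centralizer (A : Set G)) := by
    have := ((H1.isSylowIn_top R).of_le hAn le_top).inf_normal (H9.centralizer_le_normalizer' A)
      (H9.normalizer_centralizer hAn)
    rwa [hC] at this
  obtain ⟨H, h1, h2, h3, h4⟩ := H1.exists_complement_rel hAC (H9.centralizer_le_normalizer' A)
    hS.coprime
  refine ⟨H, h1, h4 ▸ H9.cop_iff.2 hS.not_dvd, ?_, h2, h3⟩
  rw [← h3]
  exact sup_le le_normalizer ((le_centralizer_iff.1 h1).trans (H9.centralizer_le_normalizer' H))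

end Cfsg.Agent.S0125
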