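import Cfsg.Statements.S0128
import Cfsg.Agent.FT.B4c

set_option autoImplicit false
open Cfsg

namespace Cfsg.Agent.S0128

open FT H9 Subgroup

/-- For p > 3, in a p-group of p-rank at most 2 the elements of order dividing p generate a subgroup of exponent dividing p. -/
theorem result {R : Type*} [Group R] [Finite R] {p : ℕ} [Fact p.Prime] (hp : 3 < p) (hR : IsPGroup p R) (hrk : ∀ E : Subgroup R, Cfsg.IsElementaryAbelian p E → Nat.card E ≤ p ^ 2) (g : R) (hg : g ∈ Subgroup.closure {x : R | x ^ p = 1}) : g ^ p = 1 := by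
  exact t4_8b hp ⊤ (hR.to_subgroup ⊤) (rk_le_iff'.2 fun A _ h => hrk A h) ((L.omegaOne_top p).ge hg)

end Cfsg.Agent.S0128
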