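import Cfsg.Statements.S0129
import Cfsg.Agent.L.PG1
import Mathlib

set_option autoImplicit false
open Cfsg

namespace Cfsg.Agent.S0129

open Subgroup

/-- The order of a p-group is bounded by p^(a(a+1)/2) when it has a maximal normal abelian subgroup of order p^a. -/
theorem result {G : Type*} [Group G] [Finite G] {p : ℕ} [Fact p.Prime] (hG : IsPGroup p G) (A : Subgroup G) [A.Normal] (hA : IsMulCommutative A) (hmax : ∀ B : Subgroup G, B.Normal → IsMulCommutative B → A ≤ B → B = A) (a : ℕ) (ha : Nat.card A = p ^ a) : Nat.card G ≤ p ^ (a * (a + 1) / 2) := by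
  have hp : p.Prime := Fact.out
  have h1 := H1.centralizer_eq_of_maximal_abelian_normal (L := ⊤) (hG.to_subgroup ⊤).isNilpotent
    le_top le_normalizer_of_normal hA (fun M _ h2 h3 h4 =>
      hmax M (normalizer_eq_top_iff.1 (eq_top_iff.2 h2)) h3 h4)
  have h2 := L.relIndex_centralizer_le_pow (hG.to_subgroup ⊤) a le_top le_normalizer_of_normal ha
  rw [top_inf_eq] at h1
  rw [h1, relIndex_top_right] at h2
  rw [← A.card_mul_index, ha, show a * (a + 1) / 2 = a + a.choose 2 by
    have : (a + 1).choose 2 = a + a.choose 2 := by rw [Nat.choose_succ_succ, Nat.choose_one_right]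
    rw [← this, Nat.choose_two_right, mul_comm]; rfl, pow_add]
  exact Nat.mul_le_mul_left _ h2

end Cfsg.Agent.S0129
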