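import Cfsg.Statements.S0132
import Cfsg.Agent.H1.Tr

set_option autoImplicit false
open Cfsg

namespace Cfsg.Agent.S0132

open H1

/-- A minimal non-p-nilpotent finite group is a minimal non-nilpotent group with a normal Sylow p-subgroup. -/
theorem result {G : Type*} [Group G] [Finite G] {p : ℕ} [Fact p.Prime] (h1 : ¬ Cfsg.HasNormalPComplement p G) (h2 : ∀ H : Subgroup G, H ≠ ⊤ → Cfsg.HasNormalPComplement p H) : (∀ H : Subgroup G, H ≠ ⊤ → Group.IsNilpotent H) ∧ ¬ Group.IsNilpotent G ∧ ∀ P : Sylow p G, (P : Subgroup G).Normal := by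
  obtain ⟨P⟩ := (inferInstance : Nonempty (Sylow p G))
  obtain ⟨Q, hQ, q, k, hq, hqp, -, g, h3, h4, h5⟩ := exists_of_not_hasNPC P h1
  haveI := Fact.mk hq
  have hQp := P.isPGroup'.to_le hQ
  have h6 : Subgroup.zpowers g ⊔ Q = ⊤ := by
    by_contra h6
    exact not_hasNPC_of_not_centralizes hQp le_sup_right (Subgroup.mem_sup_left (Subgroup.mem_zpowers g)) h3
      (h4 ▸ Nat.Coprime.pow_left _ ((Nat.coprime_primes hq Fact.out).2 hqp)) h5 (h2 _ h6)
  haveI : Q.Normal := normal_of_sup_eq_top h6 (Subgroup.zpowers_le.2 h3) Subgroup.le_normalizer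
  have h7 : Q.index ∣ q ^ k := by
    rw [← Subgroup.relIndex_top_right, ← h6, relIndex_sup_of_le_normalizer (Subgroup.zpowers_le.2 h3), ← h4, ← Nat.card_zpowers]
    exact Subgroup.relIndex_dvd_card _ _
  have h8 : IsSylowIn p Q ⊤ := ⟨le_top, hQp, fun h => hqp ((Nat.prime_dvd_prime_iff_eq Fact.out hq).1
    ((Fact.out : p.Prime).dvd_of_dvd_pow ((Subgroup.relIndex_top_right Q ▸ h).trans h7))).symm⟩
  refine ⟨fun H hH => isNilpotent_of_forall_hasNPC fun r _ hr => ?_, fun h => h1 (hasNPC_of_nilpotent h p), fun R => ?_⟩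
  · by_cases e : r = p
    · exact e ▸ h2 H hH
    obtain rfl : r = q := by
      have := hr.trans (Subgroup.card_subgroup_dvd_card H)
      rw [← Q.card_mul_index] at this
      rcases (Nat.Prime.dvd_mul Fact.out).1 this with h | h
      · obtain ⟨j, hj⟩ := hQp.exists_card_eq
        exact absurd ((Nat.prime_dvd_prime_iff_eq Fact.out Fact.out).1 ((Fact.out : r.Prime).dvd_of_dvd_pow (hj ▸ h))) e
      · exact (Nat.prime_dvd_prime_iff_eq Fact.out hq).1 ((Fact.out : r.Prime).dvd_of_dvd_pow (h.trans h7))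
    refine H2.HasNPC.subgroup (H2.hasNormalPComplement_iff_exists.2 ⟨Q, inferInstance,
      isPGroup_coprime hQp ((Nat.coprime_primes hq Fact.out).2 hqp), ?_⟩) H
    obtain ⟨j, -, hj⟩ := (Nat.dvd_prime_pow hq).1 h7
    exact IsPGroup.of_card hj
  · rw [h8.eq_of_normal (isSylowIn_top R) Subgroup.le_normalizer_of_normal]; infer_instance

end Cfsg.Agent.S0132
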