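import Cfsg.Statements.S0154
import Cfsg.Agent.H3.Linear

set_option autoImplicit false
open Cfsg

namespace Cfsg.Agent.S0154

/-- A finite group has exactly as many irreducible complex characters of degree 1 as the index of its commutator subgroup. -/
theorem result {G : Type*} [Group G] [Finite G] : Nat.card {χ : Cfsg.IrrCharacter G // (χ : G → ℂ) 1 = 1} = (commutator G).index := by
  rw [← H3.card_hom]
  symm
  refine Nat.card_congr (Equiv.ofBijective
    (fun f => ⟨⟨fun g => (f g : ℂ), H3.isIrr_hom f⟩, by simp⟩) ⟨fun a b h => ?_, fun χ => ?_⟩)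
  · exact H3.hom_fun_injective (congrArg (fun x => x.1.1) h)
  · obtain ⟨f, hf⟩ := H3.exists_hom_of_degree_one (H3.irr_char χ.1.2) χ.2
    exact ⟨f, Subtype.ext (Subtype.ext hf.symm)⟩

end Cfsg.Agent.S0154
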