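import Cfsg.Statements.S0157
import Cfsg.Agent.H3.Linear

set_option autoImplicit false
open Cfsg

namespace Cfsg.Agent.S0157

/-- For a transitive action of a finite group on a finite set with at least two points: the action is 2-transitive if and only if the function sending g to (number of fixed points of g) − 1 is an irreducible character. -/
theorem result {G : Type*} [Group G] [Finite G] (X : Type*) [MulAction G X] [Finite X] [MulAction.IsPretransitive G X] (hX : 2 ≤ Nat.card X) : Cfsg.IsIrrCharacter G (fun g => (Nat.card (MulAction.fixedBy X g) : ℂ) - 1) ↔ MulAction.IsMultiplyPretransitive G X 2 := by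
  classical
  have := Fintype.ofFinite G
  have hnt : Nontrivial X := Finite.one_lt_card_iff_nontrivial.mp hX
  obtain ⟨x⟩ : Nonempty X := inferInstance
  have := Fintype.ofFinite (MulAction.stabilizer G x)
  set π : G → ℂ := fun g => (Nat.card (MulAction.fixedBy X g) : ℂ) with hπ
  have hc : Cfsg.IsCharacter G π := H3.char_perm X
  have h1 : Cfsg.classInner π (fun _ => 1) = 1 := by
    rw [hπ, H3.perm_eq_indFun X x, H3.inner_indFun_left _ _ (H3.class_const 1),
      H3.irr_inner_self H3.isIrr_one]
  have h2 : Cfsg.classInner π π =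
      Nat.card (MulAction.orbitRel.Quotient (MulAction.stabilizer G x) X) := by
    conv_lhs => arg 2; rw [hπ, H3.perm_eq_indFun X x]
    rw [H3.inner_indFun_right _ _ (H3.char_class hc), ← H3.inner_perm_one]; rfl
  have h3 := H3.char_sub_of_inner_ne_zero hc H3.isIrr_one (by rw [h1]; exact one_ne_zero)
  refine (H3.isIrr_iff_norm_one h3).trans ?_
  rw [H3.inner_sub_left, H3.inner_sub_right, H3.inner_sub_right, h1, h2,
    H3.inner_char_symm H3.char_one hc, h1, H3.irr_inner_self H3.isIrr_one, sub_self, sub_zero,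
    sub_eq_iff_eq_add, MulAction.is_two_pretransitive_iff]
  have h4 : ∀ y : X, (Quotient.mk _ y : MulAction.orbitRel.Quotient (MulAction.stabilizer G x) X) =
      Quotient.mk _ x ↔ y = x := by
    intro y
    refine ⟨fun e => ?_, fun e => by rw [e]⟩
    obtain ⟨g, rfl⟩ := Quotient.exact e
    exact g.2
  rw [show (1 : ℂ) + 1 = (2 : ℕ) by norm_num, Nat.cast_inj,
    Nat.card_eq_two_iff' (Quotient.mk _ x)]
  constructor
  · rintro ⟨q, -, hq⟩ a b c d hab hcd
    obtain ⟨g, rfl⟩ := MulAction.exists_smul_eq G x a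
    obtain ⟨h, rfl⟩ := MulAction.exists_smul_eq G x c
    have e1 := hq (Quotient.mk _ (g⁻¹ • b)) (by
      intro e; rw [h4, inv_smul_eq_iff] at e; exact hab e.symm)
    have e2 := hq (Quotient.mk _ (h⁻¹ • d)) (by
      intro e; rw [h4, inv_smul_eq_iff] at e; exact hcd e.symm)
    obtain ⟨k, hk⟩ := Quotient.exact (e2.trans e1.symm)
    refine ⟨h * k * g⁻¹, ?_, ?_⟩
    · rw [mul_smul, inv_smul_smul, mul_smul, k.2]
    · have : (k : G) • g⁻¹ • b = h⁻¹ • d := hk
      rw [mul_smul, mul_smul, this, smul_inv_smul]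
  · intro h
    obtain ⟨y, hy⟩ := exists_ne x
    refine ⟨Quotient.mk _ y, by simpa only [Ne, h4] using hy, fun q hq => ?_⟩
    induction q using Quotient.inductionOn with
    | h z =>
      obtain ⟨g, e1, e2⟩ := h hy.symm (fun e : x = z => hq (by rw [e]))
      exact Quotient.sound ⟨⟨g, e1⟩, e2⟩

end Cfsg.Agent.S0157
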