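import Cfsg.Statements.S0159
import Cfsg.Agent.H3.Perm

set_option autoImplicit false
open Cfsg

namespace Cfsg.Agent.S0159

/-- The number of solutions of s * s = 1 in a finite group equals the sum, over the irreducible characters χ, of (the average over s of χ (s * s)) times χ 1. -/
theorem result {G : Type*} [Group G] [Fintype G] : (Nat.card {s : G // s * s = 1} : ℂ) = ∑ᶠ χ : Cfsg.IrrCharacter G, ((Nat.card G : ℂ)⁻¹ * ∑ s : G, (χ : G → ℂ) (s * s)) * (χ : G → ℂ) 1 := by
  classical
  let f : G → ℂ := fun g => ((Finset.univ.filter fun s : G => s * s = g).card : ℂ)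
  have hf : Cfsg.IsClassFunction G f := by
    intro g h
    simp only [f]
    congr 1
    symm
    refine Finset.card_bij (fun a _ => h * a * h⁻¹) ?_ ?_ ?_
    · intro a ha
      simp only [Finset.mem_filter, Finset.mem_univ, true_and] at ha ⊢
      rw [← ha]; group
    · intro a _ b _ e; simpa using e
    · intro b hb
      simp only [Finset.mem_filter, Finset.mem_univ, true_and] at hb ⊢
      refine ⟨h⁻¹ * b * h, ?_, by group⟩
      calc _ = h⁻¹ * (b * b) * h := by group
        _ = g := by rw [hb]; group
  have h1 := H3.class_apply_eq_sum hf 1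
  rw [finsum_eq_sum_of_fintype, Nat.card_eq_fintype_card, Fintype.card_subtype]
  refine h1.trans (Finset.sum_congr rfl fun χ _ => ?_)
  rw [H3.inner_char_eq (H3.irr_char χ.2)]
  congr 2
  rw [← Equiv.sum_comp (Equiv.inv G) (fun s => (χ : G → ℂ) (s * s)),
    ← Finset.sum_fiberwise Finset.univ (fun s : G => s * s)
      (fun s => (χ : G → ℂ) (Equiv.inv G s * Equiv.inv G s))]
  refine Finset.sum_congr rfl fun g _ => ?_
  rw [Finset.sum_congr rfl (g := fun _ => (χ : G → ℂ) g⁻¹) (fun x hx => by
    rw [← (Finset.mem_filter.mp hx).2]; simp), Finset.sum_const, nsmul_eq_mul]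

end Cfsg.Agent.S0159
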