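import Cfsg.Statements.S0162
import Cfsg.Agent.H3.Perm

set_option autoImplicit false
open Cfsg

namespace Cfsg.Agent.S0162

/-- If a finite group has odd order, its order is congruent to its number of conjugacy classes modulo 16. -/
theorem result {G : Type*} [Group G] [Finite G] (hodd : Odd (Nat.card G)) : Nat.card G ≡ Nat.card (ConjClasses G) [MOD 16] := by
  rw [← H3.card_irr_eq_card_conjClasses, ← ZMod.natCast_eq_natCast_iff]
  choose d hd using fun χ : Cfsg.IrrCharacter G => H3.char_one_nat (H3.irr_char χ.2)
  have h1 : ∑ χ, d χ ^ 2 = Nat.card G := by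
    have := H3.sum_sq_degree (G := G)
    simp only [hd] at this
    exact_mod_cast this
  have h2 : ∑ χ, ((d χ : ZMod 16) ^ 2 - 1) = 0 := by
    refine Finset.sum_involution (fun χ _ => H3.irrConj G χ) ?_ ?_ (by simp) (fun χ _ => ?_)
    · intro χ _
      have e : d (H3.irrConj G χ) = d χ := by
        have h1 : (starRingEnd ℂ) ((χ : G → ℂ) 1) = _ := hd (H3.irrConj G χ)
        rw [hd, map_natCast] at h1
        exact_mod_cast h1.symm
      obtain ⟨k, hk⟩ := hodd.of_dvd_nat (H3.degree_dvd_card χ.2 (hd χ))
      rw [e, hk]
      push_cast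
      generalize (k : ZMod 16) = y
      revert y; decide
    · intro χ _ h e
      have := H3.irr_conj_ne_odd hodd χ.2 (fun e' => h (by
        have : (d χ : ℂ) = 1 := by rw [← hd, e']
        have : d χ = 1 := by exact_mod_cast this
        simp [this]))
      exact this (congrArg Subtype.val e)
    · exact (H3.irrConj G).left_inv χ
  rw [Finset.sum_sub_distrib, sub_eq_zero] at h2
  rw [← h1]; push_cast; rw [h2]; simp

end Cfsg.Agent.S0162
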