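import Cfsg.Statements.S0166
import Cfsg.Agent.H3.Split

set_option autoImplicit false
open Cfsg

namespace Cfsg.Agent.S0166

/-- Brauer's splitting field Theorem: a complex representation of a finite group of exponent m is equivalent to a representation by matrices with entries in ℚ adjoined exp(2πi/m). -/
theorem result {G : Type*} [Group G] [Finite G] (n : ℕ) (ρ : Representation ℂ G (Fin n → ℂ)) : ∃ σ : Representation ℂ G (Fin n → ℂ), Nonempty (ρ.Equiv σ) ∧ ∀ g : G, ∀ i j : Fin n, LinearMap.toMatrix' (σ g) i j ∈ Algebra.adjoin ℚ ({Complex.exp (2 * Real.pi * Complex.I / (Monoid.exponent G : ℂ))} : Set ℂ) := by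
  set ζ := Complex.exp (2 * Real.pi * Complex.I / (Monoid.exponent G : ℂ))
  have hm : Monoid.exponent G ≠ 0 := Monoid.exponent_ne_zero_of_finite
  have hζ : IsPrimitiveRoot ζ (Monoid.exponent G) := Complex.isPrimitiveRoot_exp _ hm
  have : NeZero (Monoid.exponent G) := ⟨hm⟩
  let F := IntermediateField.adjoin ℚ {ζ}
  obtain ⟨m, σ, h1, h2⟩ := H3.fchar_exists_rep (H3.fchar_of_roots (F := F) (fun z hz => by
    obtain ⟨i, -, rfl⟩ := hζ.eq_pow_of_pow_eq_one hz
    exact ⟨⟨_, pow_mem (IntermediateField.mem_adjoin_simple_self ℚ ζ) i⟩, rfl⟩)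
    (H3.isCharacter_character ρ))
  obtain rfl : m = n := by
    have := congrFun h1 1
    simpa [Representation.char_one] using this
  refine ⟨σ, H3.equiv_of_character_eq _ ρ σ rfl h1.symm, fun g i j => ?_⟩
  obtain ⟨a, ha⟩ := h2 g i j
  rw [← IntermediateField.adjoin_simple_toSubalgebra_of_isAlgebraic
    (hζ.isIntegral (Nat.pos_of_ne_zero hm)).tower_top.isAlgebraic, ← ha]
  exact a.2

end Cfsg.Agent.S0166
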