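import Cfsg.Statements.S0167
import Cfsg.Agent.H3.Perm

set_option autoImplicit false
open Cfsg

namespace Cfsg.Agent.S0167

/-- An element g of a finite group is a commutator if and only if the sum over the irreducible characters χ of χ g / χ 1 is nonzero. -/
theorem result {G : Type*} [Group G] [Finite G] (g : G) : (∃ a b : G, g = a * b * a⁻¹ * b⁻¹) ↔ ∑ᶠ χ : Cfsg.IrrCharacter G, (χ : G → ℂ) g / (χ : G → ℂ) 1 ≠ 0 := by
  classical
  have := Fintype.ofFinite G
  let f : G → ℂ := fun g =>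
    ((Finset.univ.filter fun p : G × G => (p.1 * p.2 * p.1⁻¹ * p.2⁻¹)⁻¹ = g).card : ℂ)
  have hf : Cfsg.IsClassFunction G f := by
    intro g h
    simp only [f]
    congr 1
    symm
    refine Finset.card_bij (fun a _ => (h * a.1 * h⁻¹, h * a.2 * h⁻¹)) ?_ ?_ ?_
    · intro a ha
      simp only [Finset.mem_filter, Finset.mem_univ, true_and] at ha ⊢
      rw [← ha]; group
    · intro a _ b _ e; ext <;> simp at e <;> tauto
    · intro b hb
      simp only [Finset.mem_filter, Finset.mem_univ, true_and] at hb ⊢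
      refine ⟨(h⁻¹ * b.1 * h, h⁻¹ * b.2 * h), ?_, by ext <;> simp [mul_assoc]⟩
      calc _ = h⁻¹ * (b.1 * b.2 * b.1⁻¹ * b.2⁻¹)⁻¹ * h := by group
        _ = g := by rw [hb]; group
  have h1 := H3.class_apply_eq_sum hf g
  have h2 : ∀ χ : Cfsg.IrrCharacter G, Cfsg.classInner f χ = Nat.card G / (χ : G → ℂ) 1 := by
    intro χ
    rw [H3.inner_char_eq (H3.irr_char χ.2)]
    have e : ∑ x, f x * (χ : G → ℂ) x⁻¹ = ∑ p : G × G, (χ : G → ℂ) (p.1 * p.2 * p.1⁻¹ * p.2⁻¹) := by
      rw [← Finset.sum_fiberwise Finset.univ (fun p : G × G => (p.1 * p.2 * p.1⁻¹ * p.2⁻¹)⁻¹)]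
      refine Finset.sum_congr rfl fun x _ => ?_
      rw [Finset.sum_congr rfl (g := fun _ => (χ : G → ℂ) x⁻¹) (fun y hy => by
        rw [← (Finset.mem_filter.mp hy).2, inv_inv]), Finset.sum_const, nsmul_eq_mul]
    have h0 := H3.irr_one_ne_zero χ.2
    have h3 := H3.card_ne_zero' G
    rw [e, Fintype.sum_prod_type_right]
    have e2 : ∀ b, ∑ a, (χ : G → ℂ) (a * b * a⁻¹ * b⁻¹) =
        Nat.card G / (χ : G → ℂ) 1 * ((starRingEnd ℂ) ((χ : G → ℂ) b) * (χ : G → ℂ) b) := by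
      intro b
      rw [← H3.char_inv (H3.irr_char χ.2)]
      have := H3.sum_conj_mul χ.2 b b⁻¹
      field_simp
      linear_combination this
    simp only [e2, ← Finset.mul_sum, H3.sum_conj_mul_irr χ.2]
    field_simp
  have h3 : f g = Nat.card G * ∑ χ : Cfsg.IrrCharacter G, (χ : G → ℂ) g / (χ : G → ℂ) 1 := by
    rw [h1, Finset.mul_sum]
    exact Finset.sum_congr rfl fun χ _ => by rw [h2]; ring
  rw [finsum_eq_sum_of_fintype, ← mul_ne_zero_iff_left (H3.card_ne_zero' G), ← h3]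
  simp only [f, Ne, Nat.cast_eq_zero, Finset.card_eq_zero, Finset.filter_eq_empty_iff,
    Finset.mem_univ, true_implies, not_forall, not_not, Prod.exists]
  constructor
  · rintro ⟨a, b, rfl⟩; exact ⟨b, a, by group⟩
  · rintro ⟨a, b, rfl⟩; exact ⟨b, a, by group⟩

end Cfsg.Agent.S0167
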