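import Cfsg.Statements.S0168
import Cfsg.Agent.H3.Values

set_option autoImplicit false
open Cfsg

namespace Cfsg.Agent.S0168

/-- The Burnside–Brauer Theorem. Let χ be the character of a faithful complex representation of a finite group, taking m distinct values. Then every irreducible character has nonzero inner product with χ ^ i for some i < m. -/
theorem result {G : Type*} [Group G] [Fintype G] {V : Type*} [AddCommGroup V] [Module ℂ V] [FiniteDimensional ℂ V] (ρ : Representation ℂ G V) (hfaithful : Function.Injective ρ) (ψ : G → ℂ) (hψ : Cfsg.IsIrrCharacter G ψ) : ∃ i : ℕ, i < Nat.card (Set.range ρ.character) ∧ Cfsg.classInner (fun g => ρ.character g ^ i) ψ ≠ 0 := by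
  classical
  by_contra hc
  push Not at hc
  set χ := ρ.character with hχ
  have hch : Cfsg.IsCharacter G χ := H3.isCharacter_character ρ
  let s : Finset ℂ := (Finset.univ.image χ).erase (χ 1)
  let p : Polynomial ℂ := ∏ a ∈ s, (Polynomial.X - Polynomial.C a)
  have hs : Nat.card (Set.range χ) = s.card + 1 := by
    rw [Finset.card_erase_add_one (by simp), Nat.card_coe_set_eq, ← Set.ncard_coe_finset]
    simp
  have hp : p.natDegree = s.card := by
    simp only [p]; rw [Polynomial.natDegree_prod_of_monic] <;> simp [Polynomial.monic_X_sub_C]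
  have h1 : Cfsg.classInner (fun g => p.eval (χ g)) ψ = 0 := by
    have : (fun g => p.eval (χ g)) =
        ∑ i ∈ Finset.range (p.natDegree + 1), p.coeff i • fun g => χ g ^ i := by
      ext g; simp [Polynomial.eval_eq_sum_range, Finset.sum_apply]
    rw [this, H3.inner_sum_left]
    refine Finset.sum_eq_zero fun i hi => ?_
    rw [H3.inner_smul_left, hc i (by rw [hs, ← hp]; simpa using hi), mul_zero]
  rw [Cfsg.classInner, Finset.sum_eq_single 1] at h1
  · simp only [p, Polynomial.eval_prod, Polynomial.eval_sub, Polynomial.eval_X, Polynomial.eval_C,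
      mul_eq_zero, inv_eq_zero, H3.card_ne_zero' G, false_or, map_eq_zero, H3.irr_one_ne_zero hψ,
      or_false, Finset.prod_eq_zero_iff] at h1
    obtain ⟨a, ha, e⟩ := h1
    exact (Finset.mem_erase.mp ha).1 (sub_eq_zero.mp e).symm
  · intro g _ hg
    have : χ g ∈ s := by
      refine Finset.mem_erase.mpr ⟨fun e => hg ?_, by simp⟩
      rw [← H3.mem_charKer hch, hχ, (H3.charKer_eq_bot_iff ρ).mpr hfaithful] at e
      exact e
    simp only [p, Polynomial.eval_prod]
    rw [Finset.prod_eq_zero this (by simp), zero_mul]
  · simp

end Cfsg.Agent.S0168
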