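import Cfsg.Statements.S0170
import Cfsg.Agent.H3.Linear

set_option autoImplicit false
open Cfsg

namespace Cfsg.Agent.S0170

/-- Exceptional characters. Let S be a subset of a finite group contained in its normalizer N and meeting its conjugates by elements outside N only in the identity. Given n ≥ 2 distinct irreducible characters of N of equal degree that vanish on N away from S, there exist a sign ε and n distinct irreducible characters θ_i of G such that inducing χ_i − χ_j to G gives ε (θ_i − θ_j) for all i, j. -/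
theorem result {G : Type*} [Group G] [Fintype G] (S : Set G) (hSN : S ⊆ Subgroup.normalizer S) (hTI : ∀ g : G, g ∉ Subgroup.normalizer S → ∀ s ∈ S, g * s * g⁻¹ ∈ S → s = 1) (n : ℕ) (hn : 2 ≤ n) (χ : Fin n → (Subgroup.normalizer S → ℂ)) (hirr : ∀ i, Cfsg.IsIrrCharacter (Subgroup.normalizer S) (χ i)) (hinj : Function.Injective χ) (hvan : ∀ i, ∀ x : Subgroup.normalizer S, (x : G) ∉ S → χ i x = 0) (hdeg : ∀ i j, χ i 1 = χ j 1) : ∃ ε : ℂ, (ε = 1 ∨ ε = -1) ∧ ∃ θ : Fin n → (G → ℂ), (∀ i, Cfsg.IsIrrCharacter G (θ i)) ∧ Function.Injective θ ∧ ∀ i j, Cfsg.indFun (Subgroup.normalizer S) (χ i) - Cfsg.indFun (Subgroup.normalizer S) (χ j) = ε • (θ i - θ j) := by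
  have := Fintype.ofFinite (Subgroup.normalizer S)
  let i₀ : Fin n := ⟨0, by omega⟩
  have hiso : ∀ i j, Cfsg.classInner (Cfsg.indFun _ (χ i - χ i₀)) (Cfsg.indFun _ (χ j - χ i₀)) =
      Cfsg.classInner (χ i - χ i₀) (χ j - χ i₀) := by
    intro i j
    refine H3.inner_indFun_ti _ (S \ {1}) S ?_ _
      (H3.class_sub (H3.irr_class (hirr j)) (H3.irr_class (hirr i₀))) ?_ ?_
    · intro g hg t ht h
      exact ht.2 (hTI g hg t ht.1 h)
    · intro x hx
      by_cases h1 : x = 1
      · simp [h1, hdeg i i₀]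
      · have : (x : G) ∉ S := fun h => hx ⟨h, fun e => h1 (Subtype.ext e)⟩
        simp [hvan _ x this]
    · intro x hx; simp [hvan _ x hx]
  obtain ⟨ε, hε, μ, h1, h2, h3⟩ := H3.isometry_lemma i₀
    (fun i => Cfsg.indFun (Subgroup.normalizer S) (χ i - χ i₀)) (by simp [H3.indFun_zero])
    (fun i => H3.gen_indFun _ (H3.gen_sub (H3.irr_gen (hirr i)) (H3.irr_gen (hirr i₀))))
    (fun i => by simp [H3.indFun_one, hdeg i i₀])
    (fun i hi => by
      simp only [hiso, H3.inner_sub_left, H3.inner_sub_right, H3.irr_inner (hirr _) (hirr _),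
        hinj.eq_iff]
      simp [hi, hi.symm]; norm_num)
    (fun i j hi hj hij => by
      simp only [hiso, H3.inner_sub_left, H3.inner_sub_right, H3.irr_inner (hirr _) (hirr _),
        hinj.eq_iff]
      simp [hi, hj.symm, hij])
  refine ⟨ε, hε, μ, h1, h2, fun i j => ?_⟩
  have a := h3 i
  have b := h3 j
  simp only [H3.indFun_sub, smul_sub] at a b ⊢
  linear_combination (exp := 1) a - b

end Cfsg.Agent.S0170
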