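import Cfsg.Statements.S0172
import Cfsg.Agent.H3.Cw

set_option autoImplicit false
open Cfsg

namespace Cfsg.Agent.S0172

open H3

/-- Class number of a Frobenius group: if G = K H with K normal, K ⊓ H trivial and no non-identity element of H commuting with a non-identity element of K, then |H| * k(G) + 1 = |H| * k(H) + k(K), where k denotes the number of conjugacy classes. -/
theorem result {G : Type*} [Group G] [Finite G] (K H : Subgroup G) [K.Normal] (hKH : K ⊓ H = ⊥) (hKH' : K ⊔ H = ⊤) (hfpf : ∀ h ∈ H, h ≠ 1 → ∀ k ∈ K, h * k = k * h → k = 1) : Nat.card H * Nat.card (ConjClasses G) + 1 = Nat.card H * Nat.card (ConjClasses H) + Nat.card (ConjClasses K) := by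
  classical
  have := Fintype.ofFinite G
  have hc := H1.isComplement'_of_inf_sup hKH hKH'
  have hC := centralizer_le_of_fpf K H hKH' hfpf
  have a := card_irr_compl hc
  have b := Finset.card_filter_add_card_filter_not (s := Finset.univ)
    fun χ : IrrCharacter G => ∀ n ∈ K, χ.1 n = χ.1 1
  rw [Nat.card_eq_fintype_card, Fintype.card_subtype
    (fun χ : IrrCharacter G => ∀ n ∈ K, χ.1 n = χ.1 1)] at a
  have c : (Finset.univ.erase (⟨_, isIrr_one⟩ : IrrCharacter K)).card = Nat.card H *
      (Finset.univ.filter fun χ : IrrCharacter G => ¬ ∀ n ∈ K, χ.1 n = χ.1 1).card := by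
    have h1 : ∀ θ ∈ Finset.univ.erase (⟨_, isIrr_one⟩ : IrrCharacter K), θ.1 ≠ fun _ => 1 :=
      fun θ h e => (Finset.mem_erase.1 h).1 (Subtype.ext e)
    let F : IrrCharacter K → IrrCharacter G := fun θ =>
      if h : IsIrrCharacter G (indFun K θ.1) then ⟨_, h⟩ else ⟨_, isIrr_one⟩
    have h2 : ∀ θ : IrrCharacter K, (θ.1 ≠ fun _ => 1) → (F θ).1 = indFun K θ.1 := fun θ h => by
      simp only [F, irr_indFun_frobenius K hC θ.2 h, dif_pos]
    have h3 : ∀ θ : IrrCharacter K, (θ.1 ≠ fun _ => 1) →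
        classInner (fun n : K => indFun K θ.1 n) θ.1 ≠ 0 := fun θ h => by
      have := irr_indFun_frobenius K hC θ.2 h
      rw [← inner_indFun_right K _ (irr_class this), irr_inner_self this]; exact one_ne_zero
    rw [Finset.card_eq_sum_card_fiberwise (f := F) (t := Finset.univ.filter
      fun χ : IrrCharacter G => ¬ ∀ n ∈ K, χ.1 n = χ.1 1), mul_comm, ← smul_eq_mul,
      ← Finset.sum_const]
    · refine Finset.sum_congr rfl fun χ hχ => ?_
      obtain ⟨φ, d, e, f⟩ := exists_indFun_of_frobenius K hC χ.2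
        (by simpa using (Finset.mem_filter.1 hχ).2)
      rw [← hc.symm.index_eq_card, ← congrArg Subgroup.index
        (inertia_eq_of_irr_indFun K d (f ▸ χ.2)), ← card_cjOrbit]
      refine Finset.card_bij (fun θ _ => θ.1) (fun θ h => ?_) (fun _ _ _ _ => Subtype.ext)
        fun ψ h => ?_
      · obtain ⟨h4, h5⟩ := Finset.mem_filter.1 h
        refine (mem_cjOrbit K).2 (cj_of_inner_ne_zero K χ.2 d θ.2 (f ▸ h3 ⟨φ, d⟩ e) ?_)
        rw [← h5, h2 θ (h1 θ h4)]
        exact h3 θ (h1 θ h4)
      · obtain ⟨g, rfl⟩ := (mem_cjOrbit K).1 h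
        have h4 : cj K φ g ≠ fun _ => 1 := fun h => e (by
          rw [← cj_one K φ, ← mul_inv_cancel g, ← cj_cj, h])
        exact ⟨⟨_, irr_cj K d g⟩, Finset.mem_filter.2 ⟨Finset.mem_erase.2 ⟨fun h => h4
          (congrArg Subtype.val h), Finset.mem_univ _⟩, Subtype.ext ((h2 _ h4).trans
            ((indFun_cj K φ g).trans f.symm))⟩, rfl⟩
    · intro θ h
      refine Finset.mem_coe.2 (Finset.mem_filter.2 ⟨Finset.mem_univ _, fun e => h1 θ h ?_⟩)
      rw [h2 θ (h1 θ h)] at e
      exact irr_eq_one_of_const θ.2 fun n => ker_of_constituent (char_restrict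
        (char_indFun K (irr_char θ.2)) K) θ.2 (h3 θ (h1 θ h)) (e n n.2)
  rw [← card_irr_eq_card_conjClasses (G := G), ← card_irr_eq_card_conjClasses (G := K), ← a,
    Nat.card_eq_fintype_card (α := IrrCharacter G), Nat.card_eq_fintype_card (α := IrrCharacter K),
    ← Finset.card_univ, ← b, ← Finset.card_univ,
    ← Finset.card_erase_add_one (Finset.mem_univ (⟨_, isIrr_one⟩ : IrrCharacter K)), c]
  ring

end Cfsg.Agent.S0172
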