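import Cfsg.Statements.S0178
import Cfsg.Agent.H3.Clifford

set_option autoImplicit false
open Cfsg

namespace Cfsg.Agent.S0178

/-- The degree of an irreducible complex representation of a finite group is at most the index of any abelian subgroup. -/
theorem result {G : Type*} [Group G] [Finite G] {V : Type*} [AddCommGroup V] [Module ℂ V] [FiniteDimensional ℂ V] (ρ : Representation ℂ G V) [ρ.IsIrreducible] (A : Subgroup G) (hA : ∀ a ∈ A, ∀ b ∈ A, a * b = b * a) : Module.finrank ℂ V ≤ A.index := by
  have := Fintype.ofFinite G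
  have := Fintype.ofFinite A
  have hχ := H3.isIrr_character ρ
  obtain ⟨θ, hθ, h⟩ := H3.exists_irr_under A hχ
  have h1 := H3.irr_degree_one_of_comm hθ fun a b => Subtype.ext (hA a a.2 b b.2)
  rw [← H3.inner_indFun_right _ _ (H3.irr_class hχ), Ne, H3.inner_eq_zero_symm] at h
  refine H3.degree_le_of_sub (H3.char_sub_of_inner_ne_zero (H3.char_indFun A (H3.irr_char hθ)) hχ h)
    ?_ ρ.char_one
  rw [H3.indFun_one, h1, mul_one]

end Cfsg.Agent.S0178
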