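import Cfsg.Statements.S0180
import Cfsg.Agent.H3.Galois

set_option autoImplicit false
open Cfsg

namespace Cfsg.Agent.S0180

/-- Every irreducible complex character of a finite group takes only rational values if and only if g is conjugate to g ^ m for every element g and every m coprime to the group order. -/
theorem result {G : Type*} [Group G] [Finite G] : (∀ χ : Cfsg.IrrCharacter G, ∀ g : G, ∃ q : ℚ, (χ : G → ℂ) g = (q : ℂ)) ↔ ∀ m : ℕ, m.Coprime (Nat.card G) → ∀ g : G, IsConj g (g ^ m) := by
  constructor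
  · intro h m hm g
    refine H3.isConj_of_irr_eq fun χ hχ => ?_
    obtain ⟨σ, hσ⟩ := H3.exists_galois_pow Nat.card_pos.ne' hm
    rw [← H3.ringHom_char_apply σ hσ (H3.irr_char hχ) (orderOf_dvd_natCard g)]
    obtain ⟨q, hq⟩ := h ⟨χ, hχ⟩ g
    have hq' : χ g = q := hq
    rw [hq', map_ratCast]
  · intro h χ g
    refine H3.rat_of_fixed (H3.char_integral (H3.irr_char χ.2) g).tower_top fun σ => ?_
    obtain ⟨k, hk, hσ⟩ := H3.ringHom_root_pow σ (Nat.card_pos (α := G)).ne'
    rw [H3.ringHom_char_apply σ hσ (H3.irr_char χ.2) (orderOf_dvd_natCard g)]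
    exact (H3.class_isConj (H3.irr_class χ.2) (h k hk g)).symm

end Cfsg.Agent.S0180
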