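import Cfsg.Statements.S0184
import Cfsg.Agent.H3.Ext
import Cfsg.Agent.H1.Fitting

set_option autoImplicit false
open Cfsg

namespace Cfsg.Agent.S0184

/-- A finite p-group admits a faithful irreducible complex representation if and only if its centre is cyclic. -/
theorem result {G : Type*} [Group G] [Finite G] (p : ℕ) [Fact p.Prime] (hG : IsPGroup p G) : (∃ (n : ℕ) (ρ : Representation ℂ G (Fin n → ℂ)), ρ.IsIrreducible ∧ Function.Injective ρ) ↔ IsCyclic (Subgroup.center G) := by
  constructor
  · rintro ⟨n, ρ, hρ, hinj⟩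
    have hχ := H3.isIrr_character ρ
    have hk := (H3.charKer_eq_bot_iff ρ).mpr hinj
    rw [← H3.charCenter_eq_center hχ hk]
    obtain ⟨f, hf⟩ := H3.exists_hom_charCenter (H3.irr_one_ne_zero hχ)
    refine isCyclic_of_injective_ringHom ((Units.coeHom ℂ).comp f) ?_
    rw [injective_iff_map_eq_one]
    intro z hz
    have : (z : G) ∈ H3.charKer ρ.character := fun x => by
      rw [hf, show (f z : ℂ) = 1 from hz, one_mul]
    rw [hk] at this
    exact Subtype.ext this
  · intro hc
    suffices ∃ χ, Cfsg.IsIrrCharacter G χ ∧ H3.charKer χ = ⊥ by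
      obtain ⟨_, ⟨n, ρ, hρ, rfl⟩, h⟩ := this
      exact ⟨n, ρ, hρ, (H3.charKer_eq_bot_iff ρ).mp h⟩
    rcases subsingleton_or_nontrivial G with h | h
    · exact ⟨_, H3.isIrr_one, Subsingleton.elim _ _⟩
    have := hG.center_nontrivial
    have hZ := hG.to_subgroup (Subgroup.center G)
    obtain ⟨z, hz⟩ := exists_prime_orderOf_dvd_card' (G := Subgroup.center G) p
      ((IsPGroup.card_eq_or_dvd hZ).resolve_left Finite.one_lt_card.ne')
    have hz1 : (z : G) ≠ 1 := fun e => by
      rw [show z = 1 from Subtype.ext e, orderOf_one] at hz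
      exact (Fact.out : p.Prime).one_lt.ne hz
    obtain ⟨χ, hχ, hne⟩ := H3.exists_irr_ne_of_ne_one hz1
    refine ⟨χ, hχ, ?_⟩
    by_contra hK
    have hN := H3.charKer_normal (H3.irr_class hχ)
    have : Nontrivial (H3.charKer χ) := (Subgroup.nontrivial_iff_ne_bot _).mpr hK
    have h1 := H1.inf_centralizer_ne_bot_of_isPGroup (hG.to_subgroup (H3.charKer χ))
      (hG.to_subgroup ⊤) (by rw [Subgroup.normalizer_eq_top]) hK
    rw [Subgroup.coe_top, Subgroup.centralizer_univ] at h1
    have h2 : (H3.charKer χ).subgroupOf (Subgroup.center G) ≠ ⊥ := fun e => h1 (by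
      rw [Subgroup.subgroupOf_eq_bot] at e; exact e.eq_bot)
    have h3 : p ∣ Nat.card ((H3.charKer χ).subgroupOf (Subgroup.center G)) :=
      (IsPGroup.card_eq_or_dvd (hZ.to_subgroup _)).resolve_left
        (fun e => h2 (Subgroup.card_eq_one.mp e))
    have h4 : Subgroup.zpowers z ≤ (H3.charKer χ).subgroupOf (Subgroup.center G) := by
      refine H3.cyclic_le_of_card_dvd ?_
      rw [Nat.card_zpowers, hz]; exact h3
    exact hne ((H3.mem_charKer (H3.irr_char hχ) _).mp (h4 (Subgroup.mem_zpowers z)))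

end Cfsg.Agent.S0184
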