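import Cfsg.Statements.S0185
import Cfsg.Agent.H3.Linear

set_option autoImplicit false
open Cfsg

namespace Cfsg.Agent.S0185

/-- If a finite group has a faithful complex representation of degree less than the smallest prime dividing its order, the group is abelian. -/
theorem result {G : Type*} [Group G] [Finite G] {V : Type*} [AddCommGroup V] [Module ℂ V] [FiniteDimensional ℂ V] (ρ : Representation ℂ G V) (hfaithful : Function.Injective ρ) (hdeg : ∀ p : ℕ, p.Prime → p ∣ Nat.card G → Module.finrank ℂ V < p) (a b : G) : a * b = b * a := by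
  have := Fintype.ofFinite G
  have hc := H3.isCharacter_character ρ
  have : a * b * a⁻¹ * b⁻¹ ∈ H3.charKer ρ.character := by
    rw [H3.mem_charKer hc]
    refine H3.ker_of_forall_constituent (H3.char_class hc) fun ψ hψ h => ?_
    obtain ⟨d, hd0, hd⟩ := H3.irr_one_nat hψ
    have h1 := H3.degree_le_of_constituent hc hψ h ρ.char_one hd
    have h2 : d = 1 := by
      by_contra h2
      obtain ⟨p, hp, hpd⟩ := Nat.exists_prime_and_dvd h2
      have := hdeg p hp (hpd.trans (H3.degree_dvd_card hψ hd))
      have := Nat.le_of_dvd hd0 hpd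
      omega
    rw [← H3.mem_charKer (H3.irr_char hψ)]
    exact (H3.degree_one_iff_commutator_le hψ).mp (by simp [hd, h2])
      (Subgroup.commutator_mem_commutator (Subgroup.mem_top a) (Subgroup.mem_top b))
  rw [(H3.charKer_eq_bot_iff ρ).mpr hfaithful, Subgroup.mem_bot, mul_inv_eq_one,
    mul_inv_eq_iff_eq_mul] at this
  exact this

end Cfsg.Agent.S0185
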