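import Cfsg.Statements.S0186
import Cfsg.Agent.H3.Linear

set_option autoImplicit false
open Cfsg

namespace Cfsg.Agent.S0186

/-- Let G be a finite simple group of order n and p a prime dividing n. If G has more than n / p^2 conjugacy classes, then every Sylow p-subgroup of G is abelian. -/
theorem result {G : Type*} [Group G] [Finite G] [IsSimpleGroup G] (p : ℕ) [Fact p.Prime] (hp : p ∣ Nat.card G) (hmany : Nat.card G < p ^ 2 * Nat.card (ConjClasses G)) (P : Sylow p G) (a b : G) (ha : a ∈ P) (hb : b ∈ P) : a * b = b * a := by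
  classical
  have := Fintype.ofFinite (P : Subgroup G)
  by_contra hab
  have hp2 : p ^ 2 ∣ Nat.card G := by
    obtain ⟨n, hn⟩ := IsPGroup.iff_card.mp P.isPGroup'
    refine Dvd.dvd.trans ?_ (P : Subgroup G).card_subgroup_dvd_card
    rw [hn]
    refine pow_dvd_pow p ?_
    by_contra h
    have : IsCyclic (P : Subgroup G) := by
      rcases (by omega : n = 0 ∨ n = 1) with rfl | rfl
      · have := (Nat.card_eq_one_iff_unique.mp hn).1; infer_instance
      · exact isCyclic_of_prime_card (p := p) (by simpa using hn)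
    exact hab (congrArg Subtype.val (IsCyclic.commGroup.mul_comm (⟨a, ha⟩ : (P : Subgroup G)) ⟨b, hb⟩))
  choose d hd using fun χ : Cfsg.IrrCharacter G => H3.char_one_nat (H3.irr_char χ.2)
  have h1 : ∑ χ, d χ ^ 2 = Nat.card G := by
    have := H3.sum_sq_degree (G := G)
    simp only [hd] at this
    exact_mod_cast this
  let e : Cfsg.IrrCharacter G := ⟨_, H3.isIrr_one⟩
  obtain ⟨χ, h2, h3⟩ : ∃ χ, χ ≠ e ∧ d χ < p := by
    by_contra hc
    push Not at hc
    rw [← Finset.add_sum_erase _ _ (Finset.mem_univ e)] at h1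
    have h4 := Finset.card_nsmul_le_sum (Finset.univ.erase e) (fun χ => d χ ^ 2) (p ^ 2)
      fun χ hχ => Nat.pow_le_pow_left (hc χ (Finset.mem_erase.mp hχ).1) 2
    rw [Finset.card_erase_of_mem (Finset.mem_univ _), Finset.card_univ, ← Nat.card_eq_fintype_card,
      H3.card_irr_eq_card_conjClasses, smul_eq_mul] at h4
    have h5 : d e = 1 := by
      have : ((d e : ℕ) : ℂ) = 1 := (hd e).symm
      exact_mod_cast this
    obtain ⟨m, hm⟩ := hp2
    rw [hm] at hmany h1
    have h6 := Nat.lt_of_mul_lt_mul_left hmany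
    have h7 : m * p ^ 2 ≤ (Nat.card (ConjClasses G) - 1) * p ^ 2 :=
      Nat.mul_le_mul_right _ (by omega)
    rw [h5] at h1
    nlinarith
  have hk : H3.charKer χ.1 = ⊥ :=
    (H3.charKer_normal (H3.irr_class χ.2)).eq_bot_or_eq_top.resolve_right
      (H3.charKer_ne_top χ.2 fun h => h2 (Subtype.ext h))
  have hc := H3.char_restrict (H3.irr_char χ.2) (P : Subgroup G)
  have h4 := H3.ker_of_forall_constituent (H3.char_class hc)
    (g := ⟨a, ha⟩ * ⟨b, hb⟩ * ⟨a, ha⟩⁻¹ * ⟨b, hb⟩⁻¹) fun ψ hψ h => by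
      obtain ⟨k, hk⟩ := H3.degree_prime_pow P.isPGroup' hψ
      have h1 := H3.degree_le_of_constituent hc hψ h (hd χ) hk
      have h2 : k = 0 := by
        by_contra h2
        have := Nat.le_self_pow h2 p
        omega
      rw [← H3.mem_charKer (H3.irr_char hψ)]
      exact (H3.degree_one_iff_commutator_le hψ).mp (by simp [hk, h2])
        (Subgroup.commutator_mem_commutator (Subgroup.mem_top _) (Subgroup.mem_top _))
  have h5 : a * b * a⁻¹ * b⁻¹ ∈ H3.charKer χ.1 := (H3.mem_charKer (H3.irr_char χ.2) _).mpr h4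
  rw [hk, Subgroup.mem_bot, mul_inv_eq_one, mul_inv_eq_iff_eq_mul] at h5
  exact hab h5

end Cfsg.Agent.S0186
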