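import Cfsg.Statements.S0187
import Cfsg.Agent.H3.Irr

set_option autoImplicit false
open Cfsg

namespace Cfsg.Agent.S0187

/-- A finite group is commutative if and only if every irreducible complex character has degree 1. -/
theorem result {G : Type*} [Group G] [Finite G] : (∀ a b : G, a * b = b * a) ↔ ∀ χ : Cfsg.IrrCharacter G, (χ : G → ℂ) 1 = 1 := by
  refine ⟨fun h χ => H3.irr_degree_one_of_comm χ.2 h, fun h a b => ?_⟩
  have key : ∀ g : G, Subgroup.centralizer ({g} : Set G) = ⊤ := by
    intro g
    have h1 := H3.sum_norm_sq_char g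
    have h2 := H3.sum_sq_degree (G := G)
    have h3 : ∀ χ : Cfsg.IrrCharacter G, ‖(χ : G → ℂ) g‖ = 1 := by
      intro χ
      obtain ⟨f, hf⟩ := H3.exists_hom_of_degree_one (H3.irr_char χ.2) (h χ)
      rw [hf]; exact H3.norm_hom f g
    simp only [h3, h, one_pow, Finset.sum_const, nsmul_eq_mul, mul_one] at h1 h2
    apply Subgroup.eq_top_of_card_eq
    have h4 : (Finset.univ : Finset (Cfsg.IrrCharacter G)).card = Nat.card G := by exact_mod_cast h2
    rw [← h4]; exact_mod_cast h1.symm
  have : a ∈ Subgroup.centralizer ({b} : Set G) := by rw [key]; trivial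
  exact ((Subgroup.mem_centralizer_singleton_iff).mp this)

end Cfsg.Agent.S0187
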