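import Cfsg.Statements.S0189
import Cfsg.Agent.H3.Values

set_option autoImplicit false
open Cfsg

namespace Cfsg.Agent.S0189

/-- If a complex character of a finite group vanishes at every non-identity element of a Sylow p-subgroup P, then |P| divides its degree. -/
theorem result {G : Type*} [Group G] [Finite G] (p : ℕ) [Fact p.Prime] (P : Sylow p G) (χ : G → ℂ) (hχ : Cfsg.IsCharacter G χ) (hvan : ∀ g : G, g ∈ P → g ≠ 1 → χ g = 0) : ∃ k : ℕ, χ 1 = (Nat.card P : ℂ) * k := by
  obtain ⟨k, hk⟩ := H3.card_dvd_of_vanish (H3.char_gen (H3.char_restrict hχ (P : Subgroup G)))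
    fun g hg => hvan g g.2 fun e => hg (Subtype.ext e)
  obtain ⟨n, hn⟩ := H3.char_one_nat hχ
  have h1 : χ 1 = (Nat.card P : ℂ) * k := hk
  have h2 : (n : ℤ) = (Nat.card P : ℤ) * k := by
    rw [hn] at h1; exact_mod_cast h1
  have h3 : 0 ≤ k := by
    by_contra h
    have : (0 : ℤ) < (Nat.card P : ℤ) := by exact_mod_cast Nat.card_pos
    have : (0 : ℤ) ≤ n := by positivity
    nlinarith
  obtain ⟨m, rfl⟩ := Int.eq_ofNat_of_zero_le h3
  exact ⟨m, by simpa using h1⟩

end Cfsg.Agent.S0189
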