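import Cfsg.Statements.S0192
import Cfsg.Agent.H3.Linear

set_option autoImplicit false
open Cfsg

namespace Cfsg.Agent.S0192

/-- Brauer's generation criterion. Let G be a finite simple group, H₁ and H₂ subgroups, and χ a non-principal irreducible character. If the multiplicity of the principal character in χ restricted to H₁ ⊓ H₂ is less than the sum of the corresponding multiplicities for H₁ and H₂, then H₁ and H₂ do not generate G. -/
theorem result {G : Type*} [Group G] [Fintype G] [IsSimpleGroup G] (H₁ H₂ : Subgroup G) [Fintype H₁] [Fintype H₂] [Fintype ↥(H₁ ⊓ H₂)] (χ : G → ℂ) (hχ : Cfsg.IsIrrCharacter G χ) (hχ1 : χ ≠ fun _ => 1) (hlt : (Cfsg.classInner (fun x : ↥(H₁ ⊓ H₂) => χ x) (fun _ => 1)).re < (Cfsg.classInner (fun x : H₁ => χ x) (fun _ => 1)).re + (Cfsg.classInner (fun x : H₂ => χ x) (fun _ => 1)).re) : H₁ ⊔ H₂ ≠ ⊤ := by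
  intro htop
  have h0 := H3.irr_inner_ne hχ H3.isIrr_one hχ1
  obtain ⟨n, ρ, hρ, rfl⟩ := hχ
  have e1 := H3.inner_one_eq_finrank (ρ.comp H₁.subtype)
  have e2 := H3.inner_one_eq_finrank (ρ.comp H₂.subtype)
  have e3 := H3.inner_one_eq_finrank (ρ.comp (H₁ ⊓ H₂).subtype)
  rw [H3.inner_one_eq_finrank, Nat.cast_eq_zero, Submodule.finrank_eq_zero] at h0
  erw [e1, e2, e3] at hlt
  simp only [Complex.natCast_re] at hlt
  have h1 := Submodule.finrank_sup_add_finrank_inf_eq
    (Representation.invariants (ρ.comp H₁.subtype)) (Representation.invariants (ρ.comp H₂.subtype))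
  have h2 : Representation.invariants (ρ.comp H₁.subtype) ⊓
      Representation.invariants (ρ.comp H₂.subtype) = ⊥ := by
    rw [eq_bot_iff, ← h0]
    rintro v ⟨a, b⟩ g
    have hg : g ∈ H₁ ⊔ H₂ := htop ▸ Subgroup.mem_top g
    rw [Subgroup.sup_eq_closure] at hg
    induction hg using Subgroup.closure_induction with
    | mem x hx => rcases hx with hx | hx; exacts [a ⟨x, hx⟩, b ⟨x, hx⟩]
    | one => simp
    | mul x y _ _ hx hy => rw [map_mul, Module.End.mul_apply, hy, hx]
    | inv x _ hx => exact (Representation.inv_apply_eq_iff ρ).mpr hx.symm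
  have h3 : Representation.invariants (ρ.comp H₁.subtype) ⊔
      Representation.invariants (ρ.comp H₂.subtype) ≤
      Representation.invariants (ρ.comp (H₁ ⊓ H₂).subtype) :=
    sup_le (fun v hv g => hv ⟨g, g.2.1⟩) (fun v hv g => hv ⟨g, g.2.2⟩)
  have h4 := Submodule.finrank_mono h3
  rw [h2, finrank_bot] at h1
  have h5 := hlt
  norm_cast at h5
  omega

end Cfsg.Agent.S0192
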