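import Cfsg.Statements.S0194
import Cfsg.Agent.H3.Perm

set_option autoImplicit false
open scoped ComplexConjugate
open Cfsg

namespace Cfsg.Agent.S0194

/-- Let G have odd order, H be a normal subgroup and θ a non-principal irreducible character of H. Then the function induced from θ is orthogonal to its complex conjugate. -/
theorem result {G : Type*} [Group G] [Fintype G] (hodd : Odd (Nat.card G)) (H : Subgroup G) [H.Normal] (θ : H → ℂ) (hθ : Cfsg.IsIrrCharacter H θ) (hθ1 : θ ≠ fun _ => 1) : Cfsg.classInner (fun g => conj (Cfsg.indFun H θ g)) (Cfsg.indFun H θ) = 0 := by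
  have h1 : (fun g => conj (Cfsg.indFun H θ g)) = Cfsg.indFun H (fun h => conj (θ h)) :=
    funext fun g => (H3.indFun_conj H θ g).symm
  rw [h1, H3.inner_eq_zero_symm]
  refine H3.inner_indFun_normal_eq_zero H hθ (H3.irr_conj hθ) ?_
  rintro ⟨g, hg⟩
  have h2 : g ^ 2 ∈ H3.inertia H θ := by
    rw [H3.mem_inertia, sq, ← H3.cj_cj, ← hg]
    ext n
    exact (congrArg conj (congrFun hg n).symm).trans (by simp)
  obtain ⟨k, hk⟩ := hodd
  have h3 : g ∈ H3.inertia H θ := by
    have := (H3.inertia H θ).pow_mem h2 (k + 1)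
    rwa [← pow_mul, show 2 * (k + 1) = Nat.card G + 1 by omega, pow_succ, pow_card_eq_one',
      one_mul] at this
  rw [h3] at hg
  exact H3.irr_conj_ne_odd (Odd.of_dvd_nat ⟨k, hk⟩ H.card_subgroup_dvd_card) hθ hθ1 hg

end Cfsg.Agent.S0194
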