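import Cfsg.Statements.S0204
import Cfsg.Agent.FT.Final
import Cfsg.Agent.H4.Inv2

set_option autoImplicit false
open Cfsg

namespace Cfsg.Agent.S0204

open Subgroup H4 in

/-- A non-cyclic finite simple group contains a subgroup which is a Klein four-group; this combines the Odd Order Theorem, Burnside's transfer argument for cyclic Sylow 2-subgroups and the Brauer–Suzuki Theorem. -/
theorem result {G : Type*} [Group G] [Finite G] [IsSimpleGroup G] (hG : ¬ IsCyclic G) : ∃ E : Subgroup G, IsKleinFour E := by
  by_contra hc
  push Not at hc
  have hns : ¬ ∀ a b : G, a * b = b * a := fun h1 => hG (by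
    letI : CommGroup G := { (inferInstance : Group G) with mul_comm := h1 }
    exact IsSimpleGroup.isCyclic)
  have hev : 2 ∣ Nat.card G := by
    by_contra h
    exact hns (IsSimpleGroup.comm_iff_isSolvable.2 (FT.feit_thompson G (Nat.odd_iff.2 (by omega))))
  obtain ⟨z, hz⟩ := exists_prime_orderOf_dvd_card' 2 hev
  have h1 : pPrimeCore 2 G = ⊥ := by
    refine (IsSimpleGroup.eq_bot_or_eq_top_of_normal (pPrimeCore 2 G) inferInstance).resolve_right fun e => ?_
    have := odd_card_core (G := G)
    rw [e, card_top, Nat.odd_iff] at this
    omega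
  have h2 := zstar_center (II.of_noKlein hc hz) h1
  rcases IsSimpleGroup.eq_bot_or_eq_top_of_normal (center G) inferInstance with e | e
  · rw [e, mem_bot] at h2
    exact ne_one_of_two hz h2
  · exact hns fun a b => (mem_center_iff.1 (e.ge (mem_top b)) a)

end Cfsg.Agent.S0204
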