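import Cfsg.Statements.S0207
import Cfsg.Agent.H1.Invol

set_option autoImplicit false
open Cfsg

namespace Cfsg.Agent.S0207

open H1

/-- If x, y are distinct involutions, every element of the subgroup they generate that lies outside the cyclic subgroup generated by xy is an involution. -/
theorem result {G : Type*} [Group G] [Finite G] (x y : G) (hx : orderOf x = 2) (hy : orderOf y = 2) (hxy : x ≠ y) (d : G) (hd : d ∈ Subgroup.closure ({x, y} : Set G)) (hd' : d ∉ Subgroup.zpowers (x * y)) : orderOf d = 2 := by
  obtain ⟨t, ht, h⟩ := pair_mem (two_sq hx) (two_sq hy) hd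
  rcases h with rfl | rfl
  · exact absurd ht hd'
  refine two_of ?_ fun h => hd' (h ▸ Subgroup.one_mem _)
  have := pair_inverts (two_sq hx) (two_sq hy) ht
  rw [two_inv hx] at this
  rw [mul_assoc, ← mul_assoc x, this, mul_inv_cancel]

end Cfsg.Agent.S0207
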