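import Cfsg.Statements.S0209
import Cfsg.Agent.H1.Invol

set_option autoImplicit false
open Cfsg

namespace Cfsg.Agent.S0209

open H1

/-- If x, y are involutions whose product has even order n, the element (xy)^(n/2) is an involution that commutes with x and with y. -/
theorem result {G : Type*} [Group G] [Finite G] (x y : G) (hx : orderOf x = 2) (hy : orderOf y = 2) (heven : Even (orderOf (x * y))) : orderOf ((x * y) ^ (orderOf (x * y) / 2)) = 2 ∧ Commute ((x * y) ^ (orderOf (x * y) / 2)) x ∧ Commute ((x * y) ^ (orderOf (x * y) / 2)) y := by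
  obtain ⟨z, hz, h1, h2⟩ := pair_even (two_sq hx) (two_sq hy) (Nat.not_odd_iff_even.2 heven)
  have h3 : orderOf ((x * y) ^ (orderOf (x * y) / 2)) = 2 :=
    orderOf_pow_orderOf_div (orderOf_pos _).ne' (even_iff_two_dvd.1 heven)
  rw [two_eq_of_mem_zpowers (Subgroup.pow_mem _ (Subgroup.mem_zpowers _) _) hz h3 h1]
  exact ⟨h1, h2⟩

end Cfsg.Agent.S0209
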