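import Cfsg.Statements.S0210
import Cfsg.Agent.H1.Invol

set_option autoImplicit false
open Cfsg

namespace Cfsg.Agent.S0210

open H1

/-- If x, y are involutions whose product has even order, no element of the subgroup generated by x and y conjugates x to y. -/
theorem result {G : Type*} [Group G] [Finite G] (x y : G) (hx : orderOf x = 2) (hy : orderOf y = 2) (heven : Even (orderOf (x * y))) (d : G) (hd : d ∈ Subgroup.closure ({x, y} : Set G)) : d * x * d⁻¹ ≠ y := by
  obtain ⟨k, hk⟩ := pair_conj_of_mem (two_sq hx) (two_sq hy) hd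
  intro h
  have h1 := (hk.symm.trans h).trans (pair_snd (x := x) (two_sq hy))
  rw [mul_left_inj, ← zpow_neg_one, L.zpow_eq_zpow_iff_dvd rfl] at h1
  have h2 : (2 : ℤ) ∣ orderOf (x * y) := by exact_mod_cast even_iff_two_dvd.1 heven
  have := h2.trans h1
  omega

end Cfsg.Agent.S0210
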