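import Cfsg.Statements.S0211
import Cfsg.Agent.H1.Invol

set_option autoImplicit false
open Cfsg

namespace Cfsg.Agent.S0211

open H1

/-- Let x, y be involutions with xy of even order n and z = (xy)^(n/2). Then xz is conjugate to x by an element of the subgroup generated by x, y if and only if 4 divides n. -/
theorem result {G : Type*} [Group G] [Finite G] (x y : G) (hx : orderOf x = 2) (hy : orderOf y = 2) (heven : Even (orderOf (x * y))) : (∃ d ∈ Subgroup.closure ({x, y} : Set G), d * x * d⁻¹ = x * (x * y) ^ (orderOf (x * y) / 2)) ↔ 4 ∣ orderOf (x * y) := by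
  obtain ⟨m, hm⟩ := even_iff_two_dvd.1 heven
  have e : orderOf (x * y) / 2 = m := by omega
  have h3 : orderOf ((x * y) ^ (orderOf (x * y) / 2)) = 2 :=
    orderOf_pow_orderOf_div (orderOf_pos _).ne' (even_iff_two_dvd.1 heven)
  rw [e] at h3 ⊢
  have h4 := pair_inverts (two_sq hx) (two_sq hy) (Subgroup.pow_mem _ (Subgroup.mem_zpowers (x * y)) m)
  rw [two_inv h3, mul_inv_eq_iff_eq_mul] at h4
  rw [h4]
  constructor
  · rintro ⟨d, hd, h⟩
    obtain ⟨k, hk⟩ := pair_conj_of_mem (two_sq hx) (two_sq hy) hd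
    rw [hk, mul_left_inj, ← zpow_natCast, L.zpow_eq_zpow_iff_dvd hm] at h
    have := (Dvd.intro (m : ℤ) (by push_cast; rfl) : (2 : ℤ) ∣ (2 * m : ℕ)).trans h
    omega
  · intro h
    obtain ⟨k, rfl⟩ : 2 ∣ m := by omega
    have h5 := Subgroup.pow_mem _ (Subgroup.mem_zpowers (x * y)) k
    exact ⟨_, zpowers_le_closure_pair h5, by rw [pair_conj (two_sq hx) (two_sq hy) h5, ← pow_add, two_mul]⟩

end Cfsg.Agent.S0211
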