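import Cfsg.Statements.S0212
import Cfsg.Agent.H1.Invol

set_option autoImplicit false
open Cfsg

namespace Cfsg.Agent.S0212

open H1

/-- The Brauer–Fowler bound: if G is a finite simple group and t an involution of G whose centralizer has order n, then |G| ≤ (2n^2)!. -/
theorem result {G : Type*} [Group G] [Finite G] [IsSimpleGroup G] (t : G) (ht : orderOf t = 2) : Nat.card G ≤ Nat.factorial (2 * (Nat.card (Subgroup.centralizer ({t} : Set G))) ^ 2) := by
  set c := Nat.card (Subgroup.centralizer ({t} : Set G))
  have hc : 0 < c := Nat.card_pos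
  rcases (inferInstance : (Subgroup.center G).Normal).eq_bot_or_eq_top with h | h
  · obtain ⟨H, h1, h2⟩ := brauer_fowler (even_iff_two_dvd.2 (ht ▸ orderOf_dvd_natCard t)) (by rw [h]; simp)
    refine (Nat.le_of_dvd (Nat.factorial_pos _) (card_dvd_factorial_index h1)).trans (Nat.factorial_le ?_)
    rcases h2 with h2 | h2
    · nlinarith
    have h3 := card_le_mul_card_two ht
    set n := Nat.card {t : G // orderOf t = 2}
    have h4 : 2 * H.index * n ^ 2 < c * (c + 1) * n ^ 2 := by
      refine h2.trans_le ?_
      calc _ ≤ c * n * (c * n + n) := Nat.mul_le_mul h3 (Nat.add_le_add_right h3 _)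
        _ = _ := by ring
    have := Nat.lt_of_mul_lt_mul_right h4
    nlinarith
  · have : Subgroup.centralizer ({t} : Set G) = ⊤ := top_le_iff.1 fun g _ =>
      Subgroup.mem_centralizer_singleton_iff.2 (Subgroup.mem_center_iff.1 (h ▸ Subgroup.mem_top t) g)
    have h2 : c = Nat.card G := by simp only [c, this, Subgroup.card_top]
    refine le_trans ?_ (Nat.self_le_factorial _)
    nlinarith

end Cfsg.Agent.S0212
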