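import Cfsg.Statements.S0213
import Cfsg.Agent.H1.Invol

set_option autoImplicit false
open Cfsg

namespace Cfsg.Agent.S0213

open H1

/-- Thompson Order Formula, two-class case: if every involution of the finite group G is conjugate to exactly one of the non-conjugate involutions x₁, x₂, and nᵢ is the number of pairs (u, v) with u conjugate to x₁, v conjugate to x₂ and xᵢ in the cyclic group generated by uv, then |G| = |C(x₂)| n₁ + |C(x₁)| n₂. -/
theorem result {G : Type*} [Group G] [Finite G] (x₁ x₂ : G) (h₁ : orderOf x₁ = 2) (h₂ : orderOf x₂ = 2) (hnc : ¬ IsConj x₁ x₂) (hall : ∀ t : G, orderOf t = 2 → IsConj x₁ t ∨ IsConj x₂ t) : Nat.card G = Nat.card (Subgroup.centralizer ({x₂} : Set G)) * Nat.card {p : G × G // IsConj x₁ p.1 ∧ IsConj x₂ p.2 ∧ x₁ ∈ Subgroup.zpowers (p.1 * p.2)} + Nat.card (Subgroup.centralizer ({x₁} : Set G)) * Nat.card {p : G × G // IsConj x₁ p.1 ∧ IsConj x₂ p.2 ∧ x₂ ∈ Subgroup.zpowers (p.1 * p.2)} := by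
  classical
  haveI := Fintype.ofFinite G
  let n : G → ℕ := fun z => Nat.card {p : G × G // IsConj x₁ p.1 ∧ IsConj x₂ p.2 ∧ z ∈ Subgroup.zpowers (p.1 * p.2)}
  have hn : ∀ a z, IsConj a z → n z = n a := by
    intro a z h
    obtain ⟨g, rfl⟩ := isConj_iff.1 h
    refine (Nat.card_congr (((MulAut.conj g).toEquiv.prodCongr (MulAut.conj g).toEquiv).subtypeEquiv fun p => ?_)).symm
    have e : ∀ a b : G, IsConj a b ↔ IsConj a (g * b * g⁻¹) := fun a b =>
      ⟨fun h => h.trans (isConj_iff.2 ⟨g, rfl⟩), fun h => h.trans (isConj_iff.2 ⟨g, rfl⟩).symm⟩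
    refine and_congr (e _ _) (and_congr (e _ _) ?_)
    change _ ↔ g * a * g⁻¹ ∈ Subgroup.zpowers (g * p.1 * g⁻¹ * (g * p.2 * g⁻¹))
    rw [conj_mul, ← H9.cj_zpowers, H9.conj_mem_cj_iff]
  have ho : ∀ a z : G, orderOf a = 2 → IsConj a z → orderOf z = 2 := fun a z h1 h => by
    obtain ⟨g, rfl⟩ := isConj_iff.1 h; rw [orderOf_conj, h1]
  have key : ∀ p : {y | IsConj x₁ y} × {y | IsConj x₂ y}, ∃ z ∈ Subgroup.zpowers (p.1.1 * p.2.1 : G), orderOf z = 2 := fun p => by
    obtain ⟨z, h1, h2, -⟩ := pair_not_isConj (two_sq (ho _ _ h₁ p.1.2)) (two_sq (ho _ _ h₂ p.2.2))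
      fun h => hnc ((IsConj.trans p.1.2 h).trans p.2.2.symm)
    exact ⟨z, h1, h2⟩
  choose f hf1 hf2 using key
  have e : Nat.card ({y | IsConj x₁ y} × {y | IsConj x₂ y}) = Nat.card (Σ z : {z : G // orderOf z = 2},
      {p : G × G // IsConj x₁ p.1 ∧ IsConj x₂ p.2 ∧ z.1 ∈ Subgroup.zpowers (p.1 * p.2)}) := by
    refine Nat.card_congr ⟨fun p => ⟨⟨f p, hf2 p⟩, (p.1.1, p.2.1), p.1.2, p.2.2, hf1 p⟩,
      fun q => (⟨_, q.2.2.1⟩, ⟨_, q.2.2.2.1⟩), fun p => rfl, ?_⟩
    rintro ⟨⟨z, hz⟩, ⟨u, v⟩, h1, h2, h3⟩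
    obtain rfl : z = f (⟨u, h1⟩, ⟨v, h2⟩) := two_eq_of_mem_zpowers h3 (hf1 (⟨u, h1⟩, ⟨v, h2⟩)) hz (hf2 _)
    rfl
  rw [Nat.card_prod, Nat.card_sigma, ← index_centralizer_eq_card, ← index_centralizer_eq_card] at e
  have e2 : ∑ z : {z : G // orderOf z = 2}, n z = (Subgroup.centralizer {x₁}).index * n x₁ + (Subgroup.centralizer {x₂}).index * n x₂ := by
    rw [← Finset.sum_subtype (Finset.univ.filter (fun z => IsConj x₁ z) ∪ Finset.univ.filter (fun z => IsConj x₂ z)) (fun z => by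
      simp only [Finset.mem_union, Finset.mem_filter, Finset.mem_univ, true_and]
      exact ⟨fun h => h.elim (ho _ _ h₁) (ho _ _ h₂), hall z⟩) n, Finset.sum_union (Finset.disjoint_filter.2 fun z _ h1 h2 => hnc (h1.trans h2.symm)),
      Finset.sum_congr rfl fun z hz => hn x₁ z (Finset.mem_filter.1 hz).2,
      Finset.sum_congr rfl (s₁ := Finset.univ.filter (fun z => IsConj x₂ z)) fun z hz => hn x₂ z (Finset.mem_filter.1 hz).2,
      Finset.sum_const, Finset.sum_const, index_centralizer_eq_card, index_centralizer_eq_card, Nat.card_eq_fintype_card,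
      Nat.card_eq_fintype_card, Fintype.card_subtype, Fintype.card_subtype]
    rfl
  have e3 := e.trans e2
  have a1 := (Subgroup.centralizer ({x₁} : Set G)).card_mul_index
  have a2 := (Subgroup.centralizer ({x₂} : Set G)).card_mul_index
  change _ = _ * n x₁ + _ * n x₂
  refine Nat.eq_of_mul_eq_mul_left (Nat.card_pos (α := G)) ?_
  generalize Nat.card G = g at *
  generalize Nat.card (Subgroup.centralizer ({x₁} : Set G)) = c1 at *
  generalize Nat.card (Subgroup.centralizer ({x₂} : Set G)) = c2 at *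
  calc g * g = c1 * c2 * ((Subgroup.centralizer {x₁}).index * (Subgroup.centralizer {x₂}).index) := by
        nth_rw 1 [← a1]; rw [← a2]; ring
    _ = _ := by rw [e3, mul_add, mul_add]; nth_rw 1 [← a1]; rw [← a2]; ring

end Cfsg.Agent.S0213
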