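import Cfsg.Statements.S0218
import Cfsg.Agent.H1.Invol

set_option autoImplicit false
open Cfsg

namespace Cfsg.Agent.S0218

open H1

/-- The generalized quaternion group of order 2^(n+3) contains exactly one element of order 2. -/
theorem result (n : ℕ) : Nat.card {x : QuaternionGroup (2 ^ (n + 1)) // orderOf x = 2} = 1 := by
  haveI : NeZero (2 ^ (n + 1)) := ⟨by positivity⟩
  have h : orderOf (QuaternionGroup.a 1 : QuaternionGroup (2 ^ (n + 1))) = 2 * 2 ^ (n + 1) := QuaternionGroup.orderOf_a_one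
  obtain ⟨z, hz, h2⟩ := exists_pow_orderOf_eq (x := (QuaternionGroup.a 1 : QuaternionGroup (2 ^ (n + 1)))) (d := 2)
    (by rw [h]; exact Dvd.intro _ rfl)
  refine Nat.card_eq_one_iff_exists.2 ⟨⟨z, h2⟩, ?_⟩
  rintro ⟨i | i, hy⟩
  · refine Subtype.ext (two_eq_of_mem_zpowers ⟨(i.val : ℤ), ?_⟩ hz hy h2)
    simp only [zpow_natCast, QuaternionGroup.a_one_pow, ZMod.natCast_zmod_val]
  · rw [QuaternionGroup.orderOf_xa] at hy; omega

end Cfsg.Agent.S0218
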