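import Cfsg.Statements.S0220
import Cfsg.Agent.H1.Invol

set_option autoImplicit false
open Cfsg

namespace Cfsg.Agent.S0220

open H1

/-- If x is an involution of a finite group G and a Sylow 2-subgroup of the centralizer of x is cyclic, then G has a subgroup of index 2; in particular G is not simple unless it has order 2. -/
theorem result {G : Type*} [Group G] [Finite G] (x : G) (hx : orderOf x = 2) (S : Sylow 2 ↥(Subgroup.centralizer ({x} : Set G))) (hS : IsCyclic (S : Subgroup ↥(Subgroup.centralizer ({x} : Set G)))) : ∃ H : Subgroup G, H.index = 2 := by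
  have h1 := isSylowIn_map_subtype S
  have hc := (Subgroup.equivMapOfInjective _ _ (Subgroup.subtype_injective _)).isCyclic.1 hS
  set S' := (S : Subgroup _).map (Subgroup.centralizer ({x} : Set G)).subtype
  obtain ⟨T, hT⟩ := h1.2.exists_le_sylow
  have hxS : x ∈ S' := h1.mem_of_mem_normalizer (Subgroup.mem_centralizer_singleton_iff.2 rfl) ⟨1, hx⟩
    (Subgroup.centralizer_le_normalizer _ fun g hg => Subgroup.mem_centralizer_singleton_iff.1 (h1.1 hg))
  have e : S' = T := by
    by_contra e
    have h2 := lt_normalizer_inf_of_isPGroup T.isPGroup' (lt_of_le_of_ne hT e)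
    refine h2.ne' (h1.eq_of_le (T.isPGroup'.to_le inf_le_right) h2.le fun g hg => ?_)
    exact Subgroup.mem_centralizer_singleton_iff.2 (mul_inv_eq_iff_eq_mul.1 (two_eq_of_isCyclic hc
      (conj_mem_of_mem_normalizer hg.1 hxS) hxS (by rw [orderOf_conj, hx]) hx))
  exact exists_index_two_of_isCyclic (even_iff_two_dvd.2 (hx ▸ orderOf_dvd_natCard x)) T (e ▸ hc)

end Cfsg.Agent.S0220
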