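import Cfsg.Statements.S0221
import Cfsg.Agent.H1.Invol
import Cfsg.Agent.S0111

set_option autoImplicit false
open Cfsg

namespace Cfsg.Agent.S0221

open H1

/-- Let G be a finite group with no subgroup of index 2 whose 2-rank is at least 3 (it contains an elementary abelian subgroup of order 8). Then the centralizer of every involution of G also contains an elementary abelian subgroup of order 8. -/
theorem result {G : Type*} [Group G] [Finite G] (hno : ∀ H : Subgroup G, H.index ≠ 2) (hrank : ∃ E : Subgroup G, Nat.card E = 8 ∧ ∀ e ∈ E, e ^ 2 = 1) (x : G) (hx : orderOf x = 2) : ∃ E : Subgroup G, E ≤ Subgroup.centralizer ({x} : Set G) ∧ Nat.card E = 8 ∧ ∀ e ∈ E, e ^ 2 = 1 := by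
  obtain ⟨E, hE, hEe⟩ := hrank
  have comm : ∀ E : Subgroup G, (∀ e ∈ E, e ^ 2 = 1) → IsElementaryAbelian 2 E := fun E h =>
    ⟨isMulCommutative_of_comm fun a ha b hb => by
      have i : ∀ e ∈ E, e⁻¹ = e := fun e he => inv_eq_of_mul_eq_one_right (by rw [← sq]; exact h e he)
      rw [← i _ (E.mul_mem ha hb), mul_inv_rev, i a ha, i b hb], h⟩
  obtain ⟨T, hT⟩ := (L.isPGroup_of_card (p := 2) (n := 3) hE).exists_le_sylow
  obtain ⟨U, hUT, hUn, hUe, hU⟩ : ∃ U : Subgroup G, U ≤ T ∧ (T : Subgroup G) ≤ Subgroup.normalizer (U : Set G) ∧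
      IsElementaryAbelian 2 U ∧ Nat.card U = 2 ^ 2 := by
    by_contra h
    push Not at h
    rcases L.normal_rank_one T.isPGroup' h with h | ⟨-, n, a, b, -, -, -, -, h, -⟩
    · exact L.not_isCyclic_of_elem (p := 2) (comm E hEe) (by omega) (Subgroup.isCyclic_of_le hT)
    · have h1 := relIndex_le_relIndex_of_le (Subgroup.zpowers a) hT
      have h2 := card_inf_mul_relIndex (Subgroup.zpowers a) E
      have h3 := L.card_le_of_isCyclic (E := Subgroup.zpowers a ⊓ E) two_ne_zero (Subgroup.isCyclic_of_le inf_le_left)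
        fun x hx => hEe x hx.2
      have := Nat.mul_le_mul h3 h1
      omega
  have h1 := L.relIndex_centralizer_le_pow T.isPGroup' 2 hUT hUn hU
  have main : ∀ x ∈ Subgroup.centralizer (U : Set G), orderOf x = 2 → ∃ E : Subgroup G, E ≤ Subgroup.centralizer ({x} : Set G) ∧
      Nat.card E = 8 ∧ ∀ e ∈ E, e ^ 2 = 1 := by
    have aux : ∀ x ∈ Subgroup.centralizer (U : Set G), x ^ 2 = 1 → x ∉ U → ∃ E : Subgroup G, U ≤ E ∧ x ∈ E ∧
        Nat.card E = 8 ∧ IsElementaryAbelian 2 E := by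
      intro x hx h2 h3
      have h4 := Subgroup.zpowers_le.2 hx
      refine ⟨Subgroup.zpowers x ⊔ U, le_sup_right, Subgroup.mem_sup_left (Subgroup.mem_zpowers x), ?_,
        L.isElem_sup (L.isElem_zpowers h2) hUe h4⟩
      have h5 : orderOf x = 2 := orderOf_eq_prime h2 fun e => h3 (e ▸ U.one_mem)
      rw [card_sup_of_disjoint (h4.trans (Subgroup.centralizer_le_normalizer _)), hU, Nat.card_zpowers, h5]
      · rfl
      · refine eq_bot_iff.2 fun y hy => ?_
        rcases (mem_zpowers_two h5).1 hy.1 with rfl | rfl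
        exacts [Subgroup.one_mem _, absurd hy.2 h3]
    have fin : ∀ (x : G) (E : Subgroup G), x ∈ E → IsElementaryAbelian 2 E → E ≤ Subgroup.centralizer {x} :=
      fun x E h1 h2 e he => Subgroup.mem_centralizer_singleton_iff.2 (comm_of_mem h2.1 he h1)
    intro x hx h2
    by_cases h3 : x ∈ U
    · by_cases h4 : Subgroup.centralizer (U : Set G) ⊓ E ≤ U
      · have h5 := relIndex_le_relIndex_of_le (Subgroup.centralizer (U : Set G)) hT
        have h6 := card_inf_mul_relIndex (Subgroup.centralizer (U : Set G)) E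
        have h7 : Subgroup.centralizer (U : Set G) ⊓ E = U := Subgroup.eq_of_le_of_card_ge h4 (by
          have := Nat.mul_le_mul_left (Nat.card (Subgroup.centralizer (U : Set G) ⊓ E : Subgroup G)) (h5.trans h1)
          rw [h6, hE] at this
          rw [hU]; norm_num at this ⊢; omega)
        exact ⟨E, fin x E (h7.ge h3).2 (comm E hEe), hE, hEe⟩
      · obtain ⟨y, hy, h5⟩ := SetLike.not_le_iff_exists.1 h4
        obtain ⟨F, h6, -, h7, h8⟩ := aux y hy.1 (hEe y hy.2) h5
        exact ⟨F, fin x F (h6 h3) h8, h7, h8.2⟩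
    · obtain ⟨F, -, h6, h7, h8⟩ := aux x hx (by rw [← h2, pow_orderOf_eq_one]) h3
      exact ⟨F, fin x F h6 h8, h7, h8.2⟩
  obtain ⟨g, hg⟩ : ∃ g : G, g * x * g⁻¹ ∈ Subgroup.centralizer (U : Set G) := by
    obtain ⟨g, hg⟩ := exists_conj_mem_sylow T ⟨1, hx⟩
    by_cases h2 : g * x * g⁻¹ ∈ Subgroup.centralizer (U : Set G)
    · exact ⟨g, h2⟩
    have h3 := L.relIndex_eq_of_le (p := 2) T.isPGroup' (fun h => h2 (h hg)) h1
    rcases Cfsg.Agent.S0111.result T (Subgroup.centralizer (U : Set G) ⊓ T) inf_le_right (by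
      rw [Subgroup.inf_relIndex_right, h3]) _ (by rw [orderOf_conj, hx]) hg (fun h => h2 h.1) with ⟨M, -, h, -⟩ | ⟨k, hk⟩
    · exact absurd h (hno M)
    · exact ⟨k * g, by simpa [mul_assoc] using hk.1⟩
  obtain ⟨F, h2, h3, h4⟩ := main _ hg (by rw [orderOf_conj, hx])
  refine ⟨H9.cj g⁻¹ F, by rwa [H9.cj_le_iff, inv_inv, H9.cj_centralizer_singleton], by rw [H9.card_cj, h3], fun e he => ?_⟩
  have := h4 _ (H9.mem_cj.1 he)
  rwa [inv_inv, conj_pow, conj_eq_one_iff] at this

end Cfsg.Agent.S0221
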