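import Cfsg.Statements.S0226
import Cfsg.Agent.H1.Invol

set_option autoImplicit false
open Cfsg

namespace Cfsg.Agent.S0226

open H1

/-- A finite group of even order has an odd number of involutions. -/
theorem result {G : Type*} [Group G] [Finite G] (heven : Even (Nat.card G)) : Odd (Nat.card {t : G // orderOf t = 2}) := by
  classical
  haveI := Fintype.ofFinite G
  have h := Equiv.Perm.card_fixedPoints_modEq (f := (fun x : G => x⁻¹ : Function.End G)) (p := 2) (n := 1)
    (funext fun x => inv_inv x)
  rw [← Nat.card_eq_fintype_card, ← Nat.card_eq_fintype_card] at h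
  have h2 : Nat.card (Function.fixedPoints (fun x : G => x⁻¹ : Function.End G)) = Nat.card {t : G | orderOf t = 2} + 1 := by
    rw [Nat.card_coe_set_eq, Nat.card_coe_set_eq, ← Set.ncard_insert_of_notMem (a := 1) (by simp)]
    congr 1
    ext t
    simp only [Function.mem_fixedPoints_iff, Set.mem_insert_iff, Set.mem_setOf_eq, two_iff, inv_eq_iff_mul_eq_one]
    by_cases h : t = 1 <;> simp [h]
  rw [h2] at h
  change Odd (Nat.card {t : G | orderOf t = 2})
  rw [Nat.even_iff] at heven
  rw [Nat.odd_iff]
  unfold Nat.ModEq at h
  omega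

end Cfsg.Agent.S0226
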