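import Cfsg.Statements.S0227
import Cfsg.Agent.H9.LB
import Cfsg.Agent.H1.Section

set_option autoImplicit false
open Cfsg

namespace Cfsg.Agent.S0227

/-- Let G be a finite group with no nontrivial normal subgroup of odd order, S a Sylow 2-subgroup, and C the group of automorphisms of G that fix every element of S. Then every Sylow 2-subgroup of C is abelian and has a normal complement in C; in particular C is solvable. -/
theorem result {G : Type*} [Group G] [Finite G] (hO : ∀ N : Subgroup G, N.Normal → Odd (Nat.card N) → N = ⊥) (S : Sylow 2 G) (C : Subgroup (MulAut G)) (hC : ∀ φ : MulAut G, φ ∈ C ↔ ∀ s : G, s ∈ S → φ s = s) : (∀ T : Sylow 2 ↥C, (∀ a b : ↥T, a * b = b * a) ∧ ∃ N : Subgroup ↥C, N.Normal ∧ Subgroup.IsComplement' N (T : Subgroup ↥C)) ∧ Group.IsSolvable ↥C := by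
  open H9 Subgroup in open scoped commutatorElement in
  have : Finite (MulAut G) := Finite.of_injective _ MulEquiv.toEquiv_injective
  obtain ⟨Γ, _, _, i, j, hi, hj, hij, -, -, hn⟩ := H1.exists_ambient C.subtype
  have h1 : (Nat.card (⁅(⊤ : Subgroup C), (⊤ : Subgroup C)⁆ : Subgroup C)).Coprime 2 := by
    obtain ⟨T, hT⟩ := exists_syl (p := 2) (⁅(⊤ : Subgroup C), (⊤ : Subgroup C)⁆ : Subgroup C)
    have a1 := glaub_aut ((syl_top_of_sylow S).map i) (A := (⊤ : Subgroup C).map j)
      (by rw [← MonoidHom.range_eq_map i]; exact le_normalizer_of_normal) (by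
        rintro _ ⟨c, -, rfl⟩ _ ⟨s, hs, rfl⟩
        have := hij c s
        rw [coe_subtype, (hC c).1 c.2 s hs] at this
        exact (mul_inv_eq_iff_eq_mul.1 this).symm) (T := T.map j) (map_commutator _ _ j ▸ map_mono hT.le) (hT.isP.map j)
    rw [← map_Op'_of_injective i hi, hO _ (normal_of_top_le (le_normalizer_Op' 2 ⊤))
      (Nat.coprime_two_right.1 (Op'_cop 2 ⊤)), Subgroup.map_bot, le_bot_iff, commutator_eq_bot_iff_le_centralizer] at a1
    refine hT.eq_bot_iff.1 (eq_bot_iff.2 fun c hc => Subtype.ext (MulEquiv.ext fun g => hi ?_))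
    exact (hij c g).symm.trans (mul_inv_eq_iff_eq_mul.2 (a1 (mem_map_of_mem i (mem_top g)) _ (mem_map_of_mem j hc)))
  have h2 := FT.feit_thompson _ (Nat.coprime_two_right.1 h1)
  have h3 : ∀ a b : C ⧸ commutator C, a * b = b * a := fun a b => mul_comm (G := Abelianization C) a b
  refine ⟨fun T => ⟨fun a b => Subtype.ext (commutatorElement_eq_one_iff_mul_comm.1 (mem_bot.1 ?_)), ?_⟩, ?_⟩
  · rw [← inf_eq_bot_of_p_p' T.isPGroup' h1]
    exact ⟨commutator_le_left' le_normalizer (commutator_mem_commutator a.2 b.2),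
      commutator_mem_commutator (mem_top _) (mem_top _)⟩
  · refine (H2.hasNormalPComplement_iff_sylow T).1 (npc_top_iff.1 (NPC.of_map (QuotientGroup.mk' (commutator C)) (npc_of_nilpotent ?_) ?_))
    · exact isNilpotent_of_le_centralizer fun a _ b _ => h3 b a
    · rwa [QuotientGroup.ker_mk', inf_top_eq]
  · have := isSolvable_of_map (QuotientGroup.mk' (commutator C)) (H := ⊤)
      (isSolvable_of_comm fun a b => Subtype.ext (h3 a b)) (by rwa [QuotientGroup.ker_mk', inf_top_eq])
    exact solvable_of_surjective (f := (⊤ : Subgroup C).subtype) fun x => ⟨⟨x, trivial⟩, rfl⟩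

end Cfsg.Agent.S0227
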