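import Cfsg.Statements.S0228
import Cfsg.Agent.H1.Invol
import Cfsg.Agent.H5.SmallGp

set_option autoImplicit false
open Cfsg

namespace Cfsg.Agent.S0228

open H1

/-- A group of order 12 in which no involution is central is isomorphic to the alternating group on four letters. -/
theorem result {G : Type*} [Group G] [Finite G] (hG : Nat.card G = 12) (hz : ∀ z : G, orderOf z = 2 → z ∉ Subgroup.center G) : Nonempty (G ≃* alternatingGroup (Fin 4)) := by
  haveI : Fact (Nat.Prime 3) := ⟨Nat.prime_three⟩
  obtain ⟨x, hx⟩ := exists_prime_orderOf_dvd_card' (G := G) 3 (by rw [hG]; decide)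
  set P := Subgroup.zpowers x
  have h1 : Nat.card P = 3 := by rw [Nat.card_zpowers, hx]
  have h2 : P.index = 4 := by have := P.card_mul_index; rw [h1, hG] at this; omega
  by_cases h : P.normalCore = ⊥
  · exact H5.alt_of_injective (MulAction.toPermHom G (G ⧸ P))
      ((MonoidHom.ker_eq_bot_iff _).1 (by rw [← Subgroup.normalCore_eq_ker, h])) h2 (by rw [hG]; rfl)
  have h3 : P.normalCore = P := by
    refine eq_of_le_of_card_eq P.normalCore_le ?_
    have := Subgroup.card_dvd_of_le P.normalCore_le
    rw [h1] at this ⊢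
    exact ((Nat.dvd_prime Nat.prime_three).1 this).resolve_left fun e => h (Subgroup.card_eq_one.1 e)
  haveI : P.Normal := h3 ▸ P.normalCore_normal
  obtain ⟨T, hT⟩ := Sylow.exists_subgroup_card_pow_prime (G := G) 2 (n := 2) (by rw [hG]; decide)
  have h4 := L.relIndex_centralizer_le (L := T) (N := P) (x := x) fun g _ => by
    rw [commutatorElement_def, mul_assoc, mul_assoc, ← mul_assoc g]
    exact P.mul_mem (Subgroup.mem_zpowers x) (Subgroup.Normal.conj_mem inferInstance _ (P.inv_mem (Subgroup.mem_zpowers x)) g)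
  have h5 := card_inf_mul_relIndex (Subgroup.centralizer {x}) T
  have h6 := L.isPGroup_of_card hT
  obtain ⟨z, hz1, hz2⟩ := exists_mem_orderOf_eq_prime (H := Subgroup.centralizer {x} ⊓ T) Nat.prime_two
    ((h6.to_le inf_le_right).card_eq_or_dvd.resolve_left fun e => by rw [e, hT] at h5; omega)
  refine absurd (Subgroup.mem_center_iff.2 fun g => ?_) (hz z hz2)
  have h7 : P ≤ Subgroup.centralizer {z} := Subgroup.zpowers_le.2
    (Subgroup.mem_centralizer_singleton_iff.2 (Subgroup.mem_centralizer_singleton_iff.1 hz1.1).symm)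
  have h8 : T ≤ Subgroup.centralizer {z} := fun t ht => Subgroup.mem_centralizer_singleton_iff.2
    (comm_of_mem (L.isMulCommutative_of_card_le_sq h6 hT.le) ht hz1.2)
  have h9 := Nat.Coprime.mul_dvd_of_dvd_of_dvd (by rw [h1, hT]; decide) (Subgroup.card_dvd_of_le h7) (Subgroup.card_dvd_of_le h8)
  have h10 : Subgroup.centralizer {z} = ⊤ := Subgroup.eq_top_of_le_card _ (by
    rw [h1, hT] at h9; rw [hG]; exact Nat.le_of_dvd Nat.card_pos h9)
  exact Subgroup.mem_centralizer_singleton_iff.1 (h10 ▸ Subgroup.mem_top g)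

end Cfsg.Agent.S0228
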