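import Cfsg.Statements.S0230
import Cfsg.Agent.H1.Invol

set_option autoImplicit false
open Cfsg

namespace Cfsg.Agent.S0230

open H1

/-- Let G be a finite group with two non-conjugate involutions, and let t be an involution whose centralizer has maximal order among centralizers of involutions. Then |G| < |C_G(t)|^3. -/
theorem result {G : Type*} [Group G] [Finite G] (s t : G) (hs : orderOf s = 2) (ht : orderOf t = 2) (hnc : ¬ IsConj s t) (hmax : ∀ u : G, orderOf u = 2 → Nat.card (Subgroup.centralizer ({u} : Set G)) ≤ Nat.card (Subgroup.centralizer ({t} : Set G))) : Nat.card G < Nat.card (Subgroup.centralizer ({t} : Set G)) ^ 3 := by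
  set c := Nat.card (Subgroup.centralizer ({t} : Set G))
  have h1 : (Subgroup.centralizer {s}).index ≤ Nat.card {z : Subgroup.centralizer ({t} : Set G) // orderOf (z : G) = 2} * c := by
    classical
    haveI := Fintype.ofFinite G
    rw [index_centralizer_eq_card]
    have h2 : ∀ y : {y : G | IsConj s y}, ∃ z : {z : Subgroup.centralizer ({t} : Set G) // orderOf (z : G) = 2},
        (y : G) ∈ Subgroup.centralizer {(z : G)} := by
      rintro ⟨y, hy⟩
      obtain ⟨g, rfl⟩ := isConj_iff.1 hy
      obtain ⟨z, -, h1, h2, h3⟩ := pair_not_isConj (two_sq (by rw [orderOf_conj, hs])) (two_sq ht) fun h => hnc (hy.trans h)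
      exact ⟨⟨⟨z, Subgroup.mem_centralizer_singleton_iff.2 h3⟩, h1⟩, Subgroup.mem_centralizer_singleton_iff.2 h2.symm⟩
    choose f hf using h2
    calc _ ≤ Nat.card (Σ z : {z : Subgroup.centralizer ({t} : Set G) // orderOf (z : G) = 2}, Subgroup.centralizer {(z : G)}) :=
          Nat.card_le_card_of_injective (fun y => ⟨f y, y, hf y⟩) fun a b e =>
            Subtype.ext (congrArg (fun z => (z.2 : G)) e)
      _ ≤ _ := by
          rw [Nat.card_sigma]
          refine (Finset.sum_le_card_nsmul _ _ c fun z _ => hmax _ z.2).trans ?_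
          rw [Finset.card_univ, ← Nat.card_eq_fintype_card, smul_eq_mul]
  have h2 := Finite.card_subtype_lt (p := fun z : Subgroup.centralizer ({t} : Set G) => orderOf (z : G) = 2) (x := 1) (by simp)
  have h3 := (Subgroup.centralizer ({s} : Set G)).card_mul_index
  have h4 := Nat.mul_le_mul (hmax s hs) h1
  have h5 : 0 < c := Nat.card_pos
  rw [h3] at h4
  calc _ ≤ _ := h4
    _ < c * (c * c) := Nat.mul_lt_mul_of_pos_left (Nat.mul_lt_mul_of_pos_right h2 h5) h5
    _ = _ := by ring

end Cfsg.Agent.S0230
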