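import Cfsg.Statements.S0231
import Cfsg.Agent.H1.Invol

set_option autoImplicit false
open scoped Pointwise
open Cfsg

namespace Cfsg.Agent.S0231

open H1

/-- Let T be a Sylow 2-subgroup of the finite group G which is not normal and which intersects every other Sylow 2-subgroup trivially. Then G has a single conjugacy class of involutions. -/
theorem result {G : Type*} [Group G] [Finite G] (T : Sylow 2 G) (hnn : ¬ (T : Subgroup G).Normal) (hTI : ∀ g : G, MulAut.conj g • (T : Subgroup G) ≠ T → MulAut.conj g • (T : Subgroup G) ⊓ T = ⊥) (s t : G) (hs : orderOf s = 2) (ht : orderOf t = 2) : IsConj s t := by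
  have hT : ∀ x ∈ Subgroup.normalizer ((T : Subgroup G) : Set G), orderOf x = 2 → x ∈ (T : Subgroup G) := fun x hx h =>
    (isSylowIn_top T).mem_of_mem_normalizer trivial ⟨1, h⟩ hx
  obtain ⟨g, hg⟩ := exists_conj_mem_sylow T ⟨1, hs⟩
  have h : SE.Emb (Subgroup.normalizer ((T : Subgroup G) : Set G)) := by
    refine ⟨⟨_, Subgroup.le_normalizer hg, (SE.inv_iff_orderOf.2 hs).conj g⟩, fun s hs h1 g hg => ?_,
      fun h => hnn (Subgroup.normalizer_eq_top_iff.1 h)⟩
    by_contra h2
    have h3 := hTI g fun e => h2 (conj_smul_eq_self_iff.1 e)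
    refine (h1.conj g).1 (Subgroup.mem_bot.1 (h3 ▸ ⟨?_, hT _ hg (SE.inv_iff_orderOf.1 (h1.conj g))⟩))
    exact Subgroup.smul_mem_pointwise_smul _ _ _ (hT _ hs (SE.inv_iff_orderOf.1 h1))
  exact isConj_iff.2 (h.conj_inv (SE.inv_iff_orderOf.2 hs) (SE.inv_iff_orderOf.2 ht))

end Cfsg.Agent.S0231
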