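import Cfsg.Statements.S0232
import Cfsg.Agent.H1.Invol

set_option autoImplicit false
open Cfsg

namespace Cfsg.Agent.S0232

open H1
theorem aux.{u} : ∀ (G : Type u) [Group G] [Finite G], Even (Nat.card G) → 2 < Nat.card G →
    ∃ H : Subgroup G, H ≠ ⊤ ∧ Nat.card G < (Nat.card H) ^ 3 := by
  apply group_induction
  intro G _ _ ih heven hgt
  have h0 : ∀ H : Subgroup G, H.index = 2 → ∃ H : Subgroup G, H ≠ ⊤ ∧ Nat.card G < (Nat.card H) ^ 3 := fun H hH => by
    refine ⟨H, fun h => by simp [h] at hH, ?_⟩
    have := H.card_mul_index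
    rw [hH] at this
    have h2 : 2 ≤ Nat.card H := by omega
    nlinarith [Nat.mul_le_mul h2 h2]
  by_cases hZ : Odd (Nat.card (Subgroup.center G))
  · obtain ⟨H, h1, h2⟩ := brauer_fowler heven hZ
    rcases h2 with h2 | h2
    · exact h0 H h2
    obtain ⟨t, -, ht⟩ := exists_mem_orderOf_eq_prime (H := (⊤ : Subgroup G)) Nat.prime_two (by
      rw [Subgroup.card_top]; exact even_iff_two_dvd.1 heven)
    have h4 : Subgroup.centralizer ({t} : Set G) ≠ ⊤ := fun h => by
      have : t ∈ Subgroup.center G := Subgroup.mem_center_iff.2 fun g =>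
        Subgroup.mem_centralizer_singleton_iff.1 (h ▸ Subgroup.mem_top g)
      exact (Nat.not_even_iff_odd.2 hZ) (even_iff_two_dvd.2 (ht ▸ (Subgroup.center G).orderOf_dvd_natCard this))
    have h3 := card_le_mul_card_two ht
    set n := Nat.card {t : G // orderOf t = 2}
    set c := Nat.card (Subgroup.centralizer ({t} : Set G)) with hc
    have h5 : 2 * H.index * n ^ 2 < c * (c + 1) * n ^ 2 := by
      refine h2.trans_le ?_
      calc _ ≤ c * n * (c * n + n) := Nat.mul_le_mul h3 (Nat.add_le_add_right h3 _)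
        _ = _ := by ring
    have h6 := Nat.lt_of_mul_lt_mul_right h5
    have h7 := H.card_mul_index
    have h8 : 0 < c := Nat.card_pos
    have h9 : 0 < Nat.card H := Nat.card_pos
    have h10 : H.index < c * c := by nlinarith
    rcases le_total c (Nat.card H) with h | h
    · refine ⟨H, h1, ?_⟩
      rw [← h7]
      nlinarith [Nat.mul_le_mul h h, Nat.mul_lt_mul_of_pos_left h10 h9]
    · refine ⟨_, h4, ?_⟩
      rw [← h7, ← hc]
      nlinarith [Nat.mul_le_mul_right H.index h, Nat.mul_lt_mul_of_pos_left h10 h8]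
  obtain ⟨z, hz, h2⟩ := exists_mem_orderOf_eq_prime Nat.prime_two (even_iff_two_dvd.1 (Nat.not_odd_iff_even.1 hZ))
  set Z := Subgroup.zpowers z
  haveI : Z.Normal := ⟨fun a ha g => by
    rwa [Subgroup.mem_center_iff.1 (Subgroup.zpowers_le.2 hz ha) g, mul_inv_cancel_right]⟩
  have h3 : Nat.card Z = 2 := by rw [Nat.card_zpowers, h2]
  have h4 := Z.card_mul_index
  rw [h3] at h4
  by_cases h5 : Even Z.index
  · by_cases h6 : 2 < Z.index
    · obtain ⟨H, h7, h8⟩ := ih (G ⧸ Z) (by change Z.index < _; omega) h5 h6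
      refine ⟨H.comap (QuotientGroup.mk' Z), fun h => h7 (by
        rw [← Subgroup.map_comap_eq_self_of_surjective (QuotientGroup.mk'_surjective Z) H, h,
          Subgroup.map_top_of_surjective _ (QuotientGroup.mk'_surjective Z)]), ?_⟩
      have h9 := (H.comap (QuotientGroup.mk' Z)).card_mul_index
      have h10 := H.card_mul_index
      rw [Subgroup.index_comap_of_surjective _ (QuotientGroup.mk'_surjective Z), ← h4] at h9
      change _ = Z.index at h10
      change Z.index < _ at h8
      rw [← h10, ← mul_assoc] at h9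
      rw [Nat.eq_of_mul_eq_mul_right (Nat.pos_of_ne_zero Subgroup.index_ne_zero_of_finite) h9, ← h4, mul_pow]
      omega
    · exact h0 Z (by obtain ⟨k, hk⟩ := h5; omega)
  · obtain ⟨H, hH⟩ := Subgroup.exists_right_complement'_of_coprime (N := Z) (by
      rw [h3]; exact Nat.coprime_two_left.2 (Nat.not_even_iff_odd.1 h5))
    exact h0 H (hH.index_eq_card.trans h3)

/-- A finite group G of even order greater than 2 has a proper subgroup H with |G| < |H|^3. -/
theorem result {G : Type*} [Group G] [Finite G] (heven : Even (Nat.card G)) (hgt : 2 < Nat.card G) : ∃ H : Subgroup G, H ≠ ⊤ ∧ Nat.card G < (Nat.card H) ^ 3 := by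
  exact aux G heven hgt

end Cfsg.Agent.S0232
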