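import Cfsg.Statements.S0234
import Cfsg.Agent.H1.Invol
import Cfsg.Agent.H5.SmallGp

set_option autoImplicit false
open Cfsg

namespace Cfsg.Agent.S0234

open H1

/-- In a finite simple group G of even order greater than 2, the number n of involutions satisfies 3n < |G|. -/
theorem result {G : Type*} [Group G] [Finite G] [IsSimpleGroup G] (heven : Even (Nat.card G)) (hgt : 2 < Nat.card G) : 3 * Nat.card {t : G // orderOf t = 2} < Nat.card G := by
  classical
  have h0 : ∀ H : Subgroup G, H.index ≠ 2 := fun H h => by
    have := card_dvd_factorial_index (H := H) (fun e => by simp [e] at h)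
    rw [h] at this
    have := Nat.le_of_dvd two_pos this
    omega
  have hZ : Subgroup.center G = ⊥ := (inferInstance : (Subgroup.center G).Normal).eq_bot_or_eq_top.resolve_right fun h => by
    letI : CommGroup G := Group.commGroupOfCenterEqTop h
    have := (IsSimpleGroup.prime_card (α := G)).eq_two_or_odd'.resolve_right (Nat.not_odd_iff_even.2 heven)
    omega
  obtain ⟨H, h1, h2⟩ := brauer_fowler heven (by rw [hZ]; simp)
  replace h2 := h2.resolve_left (h0 H)
  by_contra h3
  push Not at h3
  set n := Nat.card {t : G // orderOf t = 2} with hn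
  have h4 : H.index ≤ 5 := by
    have : 2 * H.index * n ^ 2 < 12 * n ^ 2 := h2.trans_le (by nlinarith)
    have := Nat.lt_of_mul_lt_mul_right this
    omega
  haveI := Fintype.ofFinite (G ⧸ H)
  haveI : Nontrivial (G ⧸ H) := Finite.one_lt_card_iff_nontrivial.1 (Subgroup.one_lt_index_of_ne_top h1)
  have h5 := Subgroup.card_dvd_of_le (H5.range_le_alt (by omega) (MulAction.toPermHom G (G ⧸ H)))
  rw [← Nat.card_congr (MonoidHom.ofInjective (H5.toPermHom_quotient_injective h1)).toEquiv] at h5
  have h6 := Nat.mul_dvd_mul_left 2 h5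
  rw [two_mul_nat_card_alternatingGroup, Nat.card_perm] at h6
  have h7 : Nat.card G ∣ 60 := Nat.dvd_of_mul_dvd_mul_left two_pos (h6.trans (Nat.factorial_dvd_factorial h4))
  have h8 : 4 ∣ Nat.card G := by
    obtain ⟨T⟩ := (inferInstance : Nonempty (Sylow 2 G))
    by_contra h8
    obtain ⟨k, hk⟩ := T.isPGroup'.exists_card_eq
    have h9 : k ≤ 1 := by
      by_contra h9
      exact h8 ((pow_dvd_pow 2 (show 2 ≤ k by omega)).trans (hk ▸ Subgroup.card_subgroup_dvd_card _))
    have h10 : IsCyclic T := isCyclic_of_card_dvd_prime (p := 2) (hk ▸ pow_dvd_pow 2 h9)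
    obtain ⟨K, hK⟩ := exists_index_two_of_isCyclic heven T h10
    exact h0 K hK
  have key : ∀ p k m : ℕ, p.Prime → Nat.card G = p ^ k * m → m ≠ 1 → Nat.card G ∣ m.factorial := fun p k m hp e hm => by
    haveI := Fact.mk hp
    obtain ⟨K, hK⟩ := Sylow.exists_subgroup_card_pow_prime (G := G) p (n := k) (e ▸ Dvd.intro _ rfl)
    have h9 := K.card_mul_index
    rw [hK, e] at h9
    have h10 := Nat.eq_of_mul_eq_mul_left (pow_pos hp.pos _) h9
    exact h10 ▸ card_dvd_factorial_index fun e => hm (by rw [← h10, e, Subgroup.index_top])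
  have h9 : Nat.card G = 4 ∨ Nat.card G = 12 ∨ Nat.card G = 20 ∨ Nat.card G = 60 := by
    have := Nat.le_of_dvd (by decide) h7
    generalize Nat.card G = g at *
    interval_cases g <;> omega
  rcases h9 with e | e | e | e
  · have := key 2 1 2 Nat.prime_two e (by decide); rw [e] at this; exact absurd this (by decide)
  · have := key 2 2 3 Nat.prime_two e (by decide); rw [e] at this; exact absurd this (by decide)
  · have := key 5 1 4 Nat.prime_five e (by decide); rw [e] at this; exact absurd this (by decide)
  obtain ⟨φ⟩ := H5.simple_sixty e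
  have h10 : n = Fintype.card {t : alternatingGroup (Fin 5) // t ≠ 1 ∧ t * t = 1} := by
    rw [hn, ← Nat.card_eq_fintype_card]
    exact Nat.card_congr (φ.toEquiv.subtypeEquiv fun t => by rw [← two_iff]; exact (by simp))
  have h11 : Fintype.card {t : alternatingGroup (Fin 5) // t ≠ 1 ∧ t * t = 1} = 15 := by
    convert (by decide +kernel : Fintype.card {t : alternatingGroup (Fin 5) // t ≠ 1 ∧ t * t = 1} = 15)
  omega

end Cfsg.Agent.S0234
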