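import Cfsg.Statements.S0239
import Cfsg.Agent.H1.Invol

set_option autoImplicit false
open Cfsg

namespace Cfsg.Agent.S0239

open H1

/-- If some nontrivial element x of a finite group G is conjugate to x⁻¹, then |G| is even. -/
theorem result {G : Type*} [Group G] [Finite G] (x : G) (hx : x ≠ 1) (hreal : IsConj x x⁻¹) : Even (Nat.card G) := by
  by_cases h : x = x⁻¹
  · exact even_iff_two_dvd.2 (two_of (eq_inv_iff_mul_eq_one.1 h) hx ▸ orderOf_dvd_natCard x)
  · rw [even_iff_two_dvd, ← relIndex_extC hreal h]
    exact (Subgroup.relIndex_dvd_card _ _).trans (Subgroup.card_subgroup_dvd_card _)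

end Cfsg.Agent.S0239
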