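import Cfsg.Statements.S0240
import Cfsg.Agent.H1.Invol

set_option autoImplicit false
open Cfsg

namespace Cfsg.Agent.S0240

open H1

/-- Let G be a finite group with n involutions and H a subgroup with |H|·(n+1) > |G|. Then some nontrivial h ∈ H is strongly real in G: an involution t of G satisfies t h t⁻¹ = h⁻¹. -/
theorem result {G : Type*} [Group G] [Finite G] (H : Subgroup G) (hH : Nat.card G < Nat.card H * (Nat.card {t : G // orderOf t = 2} + 1)) : ∃ h : G, h ∈ H ∧ h ≠ 1 ∧ ∃ t : G, orderOf t = 2 ∧ t * h * t⁻¹ = h⁻¹ := by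
  by_contra h
  push Not at h
  let f : H × Option {t : G // orderOf t = 2} → G := fun p => p.1 * p.2.elim 1 Subtype.val
  have hf : Function.Injective f := by
    have h1 : ∀ t ∈ H, orderOf t ≠ 2 := fun t ht h2 => h t ht (two_ne h2) t h2 (by rw [two_inv h2, two_sq h2, one_mul])
    rintro ⟨a, _ | s⟩ ⟨b, _ | t⟩ e <;> simp only [f, Option.elim, mul_one] at e
    · rw [Subtype.ext e]
    · exact absurd t.2 (h1 _ ((H.mul_mem_cancel_left b.2).1 (e ▸ a.2)))
    · exact absurd s.2 (h1 _ ((H.mul_mem_cancel_left a.2).1 (e ▸ b.2)))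
    have h2 : (b : G)⁻¹ * a = t * s := by
      rw [← two_inv s.2, eq_mul_inv_iff_mul_eq, mul_assoc, e, inv_mul_cancel_left]
    have h3 : (t : G) * s = 1 := by
      by_contra h3
      exact h _ (h2 ▸ H.mul_mem (H.inv_mem b.2) a.2) h3 t t.2 (pair_inverts (two_sq t.2) (two_sq s.2) (Subgroup.mem_zpowers _))
    rw [h3, inv_mul_eq_one] at h2
    rw [h2, mul_right_inj] at e
    rw [Subtype.ext h2, Subtype.ext e]
  have := Nat.card_le_card_of_injective f hf
  rw [Nat.card_prod, Finite.card_option] at this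
  omega

end Cfsg.Agent.S0240
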