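import Cfsg.Statements.S0241
import Cfsg.Agent.H1.Invol

set_option autoImplicit false
open Cfsg

namespace Cfsg.Agent.S0241

open H1

/-- If x ≠ 1 is conjugate to x⁻¹ in a finite group G and |C_G(x)| is odd, then some involution t satisfies t x t⁻¹ = x⁻¹. -/
theorem result {G : Type*} [Group G] [Finite G] (x : G) (hx : x ≠ 1) (hreal : IsConj x x⁻¹) (hodd : Odd (Nat.card (Subgroup.centralizer ({x} : Set G)))) : ∃ t : G, orderOf t = 2 ∧ t * x * t⁻¹ = x⁻¹ := by
  have h : x ≠ x⁻¹ := fun h => (Nat.not_even_iff_odd.2 hodd) (even_iff_two_dvd.2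
    (two_of (eq_inv_iff_mul_eq_one.1 h) hx ▸ Subgroup.orderOf_dvd_natCard _ (Subgroup.mem_centralizer_singleton_iff.2 rfl)))
  obtain ⟨t, ht, h2⟩ := exists_mem_orderOf_eq_prime (H := extC x) Nat.prime_two (by
    rw [← relIndex_extC hreal h]; exact Subgroup.relIndex_dvd_card _ _)
  refine ⟨t, h2, ht.resolve_left fun e => (Nat.not_even_iff_odd.2 hodd) (even_iff_two_dvd.2 ?_)⟩
  exact h2 ▸ Subgroup.orderOf_dvd_natCard _ (Subgroup.mem_centralizer_singleton_iff.2 (mul_inv_eq_iff_eq_mul.1 e))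

end Cfsg.Agent.S0241
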