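import Cfsg.Statements.S0247
import Cfsg.Agent.H5.PermMod

set_option autoImplicit false
open Cfsg

namespace Cfsg.Agent.S0247

open H5 H5.Form

/-- Sp_4(2) is isomorphic to the symmetric group S_6. -/
theorem result {F : Type*} [Field F] [Fintype F] (hF : Fintype.card F = 2) : Nonempty (Matrix.symplecticGroup (Fin 2) F ≃* Equiv.Perm (Fin 6)) := by
  obtain ⟨ρ, h⟩ := exists_perm_sp (F := F) (m := 2) le_rfl (by simpa [hF] using FiniteField.cast_card_eq_zero F)
  refine ⟨(MulEquiv.ofBijective ρ (h.bijective_of_nat_card_le (le_of_eq ?_))).symm⟩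
  rw [Nat.card_congr (spEquiv 2).toEquiv, card_isom_symp hF (sympF_nondeg 2) (m := 2) (by simp), Nat.card_perm]
  simp [spOrd, Nat.factorial, Finset.prod_range_succ]


end Cfsg.Agent.S0247
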