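import Cfsg.Statements.S0250
import Cfsg.Agent.H5.SL2

set_option autoImplicit false
open Cfsg

namespace Cfsg.Agent.S0250

open H5

/-- SL_2(2) is isomorphic to S_3. -/
theorem result {F : Type*} [Field F] [Fintype F] (hF : Fintype.card F = 2) : Nonempty (Matrix.SpecialLinearGroup (Fin 2) F ≃* Equiv.Perm (Fin 3)) := by
  have h1 := card_PG (k := F)
  have h2 := card_SL2 (k := F)
  rw [hF] at h1 h2
  refine perm_of_injective ((MulAction.toPermHom (PG F) (OnePoint F)).comp mkS) ?_ (by rw [card_onePoint, hF]) h2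
  rw [injective_iff_map_eq_one]
  intro g hg
  have h3 : mkS g = 1 := pg_ext ((Equiv.congr_fun hg _).trans (one_smul _ _).symm) ((Equiv.congr_fun hg _).trans (one_smul _ _).symm) ((Equiv.congr_fun hg _).trans (one_smul _ _).symm)
  rcases mkS_eq_one_iff.1 h3 with h | h
  · exact h
  · rw [h, H5.neg_one_eq_one_iff]
    simpa [hF] using FiniteField.cast_card_eq_zero F


end Cfsg.Agent.S0250
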