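import Cfsg.Statements.S0252
import Cfsg.Agent.H5.PGL2

set_option autoImplicit false
open Cfsg

namespace Cfsg.Agent.S0252

/-- PSL_2(4) is isomorphic to A_5. -/
theorem result {F : Type*} [Field F] [Fintype F] (hF : Fintype.card F = 4) : Nonempty (Matrix.ProjectiveSpecialLinearGroup (Fin 2) F ≃* alternatingGroup (Fin 5)) := by
  have hs : IsSimpleGroup (Matrix.ProjectiveSpecialLinearGroup (Fin 2) F) :=
    Matrix.ProjectiveSpecialLinearGroup.rank_two_simple (by rw [Nat.card_eq_fintype_card, hF])
  apply H5.simple_sixty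
  have h1 := H5.card_PS (k := F)
  rw [hF] at h1
  rw [Nat.card_congr (H5.psEquiv F).toEquiv]
  norm_num at h1
  omega


end Cfsg.Agent.S0252
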