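import Cfsg.Statements.S0256
import Cfsg.Agent.H5.PermMod
import Cfsg.Agent.S0302

set_option autoImplicit false
open Cfsg

namespace Cfsg.Agent.S0256

open H5 H5.Form

/-- PSL_4(2) is isomorphic to A_8. -/
theorem result {F : Type*} [Field F] [Fintype F] (hF : Fintype.card F = 2) : Nonempty (Matrix.ProjectiveSpecialLinearGroup (Fin 4) F ≃* alternatingGroup (Fin 8)) := by
  obtain ⟨e⟩ := plus_six_two hF
  obtain ⟨f⟩ := S0302.result (F := F)
  exact ⟨f.symm.trans ((quotCenterCongr ((commutatorCongr ((oEquiv (plusF F 3)).trans e)).trans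
    (MulEquiv.subgroupCongr (alternatingGroup.commutator_perm_eq (by simp))))).trans
    ((QuotientGroup.quotientMulEquivOfEq (alternatingGroup.center_eq_bot (by simp))).trans QuotientGroup.quotientBot))⟩


end Cfsg.Agent.S0256
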