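import Cfsg.Statements.S2431
import Cfsg.Agent.H5.SL2Cl
import Cfsg.Agent.S0261

set_option autoImplicit false
open Cfsg

namespace Cfsg.Agent.S2431

open H5

theorem mod16 (q : ℕ) (h : 0 < q) : (q % 8 = 1 ∨ q % 8 = 7 → 16 ∣ q * (q - 1) * (q + 1)) ∧
    (q % 8 = 3 ∨ q % 8 = 5 → 8 ∣ q * (q - 1) * (q + 1) ∧ ¬ 16 ∣ q * (q - 1) * (q + 1)) := by
  have h1 : (q - 1) % 16 = (q % 16 + 15) % 16 := by omega
  have h2 : (q + 1) % 16 = (q % 16 + 1) % 16 := by omega
  have h3 : q * (q - 1) * (q + 1) % 16 = (q % 16 * ((q % 16 + 15) % 16) % 16 * ((q % 16 + 1) % 16)) % 16 := by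
    rw [Nat.mul_mod, Nat.mul_mod q, h1, h2]
  have h4 : q % 8 = q % 16 % 8 := by omega
  have h5 := Nat.mod_lt q (show 16 > 0 by norm_num)
  generalize q * (q - 1) * (q + 1) = N at h3
  generalize q % 16 = r at *
  interval_cases r <;> simp at h3 <;> omega

/-- Let F be a finite field with q elements, q odd, and S a Sylow 2-subgroup of SL₂ over F. The centraliser of S is the centre of SL₂ (of order 2); S is its own normaliser when q ≡ ±1 mod 8, and has index 3 in its normaliser when q ≡ ±3 mod 8. -/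
theorem result {F : Type*} [Field F] [Fintype F] (hodd : Odd (Fintype.card F)) (S : Sylow 2 (Matrix.SpecialLinearGroup (Fin 2) F)) :
    Subgroup.centralizer ((S : Subgroup (Matrix.SpecialLinearGroup (Fin 2) F)) : Set (Matrix.SpecialLinearGroup (Fin 2) F)) = Subgroup.center (Matrix.SpecialLinearGroup (Fin 2) F) ∧
    ((Fintype.card F % 8 = 1 ∨ Fintype.card F % 8 = 7) →
      Subgroup.normalizer ((S : Subgroup (Matrix.SpecialLinearGroup (Fin 2) F)) : Set (Matrix.SpecialLinearGroup (Fin 2) F)) = (S : Subgroup (Matrix.SpecialLinearGroup (Fin 2) F))) ∧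
    ((Fintype.card F % 8 = 3 ∨ Fintype.card F % 8 = 5) →
      Nat.card (Subgroup.normalizer ((S : Subgroup (Matrix.SpecialLinearGroup (Fin 2) F)) : Set (Matrix.SpecialLinearGroup (Fin 2) F))) = 3 * Nat.card S) := by
  have h2 := two_ne_of_odd hodd
  obtain ⟨p, hp⟩ := CharP.exists F
  have : Fact p.Prime := ⟨CharP.char_is_prime F p⟩
  have hm1 : -1 ∈ (S : Subgroup (SL2 F)) := by
    have : (Subgroup.zpowers (-1 : SL2 F)).Normal := ⟨by rintro _ ⟨k, rfl⟩ g; exact ⟨k, by simp [((Commute.neg_one_right g).zpow_right k).eq]⟩⟩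
    exact (IsPGroup.of_card (n := 1) (by rw [Nat.card_zpowers, orderOf_neg_one_SL h2]; rfl)).le_sylow_of_normal S
      (Subgroup.mem_zpowers _)
  obtain ⟨n, T, D, hT, hle⟩ := le_D_of_isPGroup p ((char_ne_two p).2 h2) (S.isPGroup'.map (mkS (F := F)))
  have hle' : ∀ g ∈ (S : Subgroup (SL2 F)), mkS g ∈ D := fun g hg => hle ⟨g, hg, rfl⟩
  obtain ⟨k, hk, ⟨e⟩⟩ := Cfsg.Agent.S0261.result hodd S
  have : NeZero (2 ^ k) := ⟨by positivity⟩
  have hc : Nat.card S = 4 * 2 ^ k := by rw [card_equiv e, Nat.card_eq_fintype_card, QuaternionGroup.card]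
  have hnc : ¬ IsCyclic S := fun h => by
    have := isCyclic_of_surjective _ e.surjective
    have h3 := (IsCyclic.commGroup (α := QuaternionGroup (2 ^ k))).mul_comm (.a 1) (.xa 0)
    have h4 : ((2 : ℕ) : ZMod (2 * 2 ^ k)) = 0 := by
      have : (0 - 1 : ZMod (2 * 2 ^ k)) = 0 + 1 := QuaternionGroup.xa.inj h3
      rw [Nat.cast_two]; linear_combination -this
    have := Nat.le_of_dvd two_pos ((ZMod.natCast_eq_zero_iff _ _).1 h4)
    have := Nat.pow_le_pow_right two_pos hk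
    omega
  have hnT : ¬ (S : Subgroup (SL2 F)).map mkS ≤ T := fun h => hnc (isCyclic_of_le_comap hT h)
  obtain ⟨_, ⟨s, hs, rfl⟩, hsT⟩ := SetLike.not_le_iff_exists.1 hnT
  obtain ⟨h3, ⟨eD⟩⟩ := (hT.sub_cases hle).resolve_left hnT
  have h4 := card_eq_map_mkS hm1
  rw [gcd_two_of_odd hodd, hc, h3] at h4
  obtain ⟨r, hr⟩ := hT.exists_gen_inf ((S : Subgroup (SL2 F)).map mkS)
  have hr' : r ∈ T ⊓ (S : Subgroup (SL2 F)).map mkS := hr ▸ Subgroup.mem_zpowers r
  obtain ⟨hrT, t, ht, rfl⟩ := hr'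
  have ho : orderOf (mkS t) = 2 ^ k := by rw [← Nat.card_zpowers, hr]; omega
  have hk2 := Nat.pow_le_pow_right two_pos hk
  have ht1 : mkS t ≠ 1 := fun e => by rw [e, orderOf_one] at ho; omega
  have hm := mod16 (Fintype.card F) Fintype.card_pos
  rw [← card_SL2] at hm
  refine ⟨le_antisymm (fun g hg => ?_) (Subgroup.center_le_centralizer _), fun h => ?_, fun h => ?_⟩
  · have h5 : g ∈ T.comap mkS := hT.centralizer_SL hrT ht1 ▸ Subgroup.mem_centralizer_singleton_iff.2 (hg t ht).symm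
    have h6 := hT.conj_SL (hle' s hs) hsT h5
    rw [hg s hs, mul_inv_cancel_right, eq_inv_iff_mul_eq_one] at h6
    exact mem_center_SL2.2 (sl2_sq_eq_one h2 h6)
  · have h5 := S.pow_dvd_card_of_pow_dvd_card (n := 4) (hm.1 h)
    have h6 : mkS t * mkS t ≠ 1 := sq_ne_one_of_three_le (by rw [hc] at h5; omega)
    have key : ∀ g ∈ Subgroup.normalizer (S : Set (SL2 F)), mkS g ∈ T → g ∈ (S : Subgroup (SL2 F)) := fun g hg hgT => by
      have h7 : g * g ∈ (S : Subgroup (SL2 F)) := by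
        have := S.1.mul_mem ((Subgroup.mem_normalizer_iff.1 hg s).1 hs) (S.1.inv_mem hs)
        rwa [show g * s * g⁻¹ * s⁻¹ = g * (s * g * s⁻¹)⁻¹ by group, hT.conj_SL (hle' s hs) hsT hgT, inv_inv] at this
      obtain ⟨j, hj⟩ := S.isPGroup' ⟨_, h7⟩
      have h8 : IsPGroup 2 (Subgroup.zpowers g) := by
        rintro ⟨_, i, rfl⟩
        refine ⟨j + 1, Subtype.ext ?_⟩
        have : (g * g) ^ 2 ^ j = 1 := congrArg Subtype.val hj
        change (g ^ i) ^ 2 ^ (j + 1) = 1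
        rw [← zpow_natCast, ← zpow_mul, mul_comm, zpow_mul, zpow_natCast, pow_succ', pow_mul, sq, this, one_zpow]
      exact ((h8.inf_normalizer_sylow S).le ⟨Subgroup.mem_zpowers g, hg⟩).2
    refine le_antisymm (fun g hg => ?_) Subgroup.le_normalizer
    have h7 := (Subgroup.mem_normalizer_iff.1 hg t).1 ht
    have h8 : mkS g ∈ D := hT.norm _ hrT ht1 _ (hT.mem_of_sq (by simpa using hle' _ h7) fun e => h6 (by
      rw [← inv_inv (mkS g)] at e; exact conj_sq_eq_one (c := (mkS g)⁻¹⁻¹⁻¹) (by simpa using e) |> fun h => by simpa using h))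
    by_cases h9 : mkS g ∈ T
    · exact key g hg h9
    · have := key (g * s) (mul_mem hg (Subgroup.le_normalizer hs)) (by rw [map_mul, hT.mul_mem_iff h8 (hle' s hs)]; tauto)
      exact (S.1.mul_mem_cancel_right hs).1 this
  · have h5 := (hm.2 h).2
    have h6 := Subgroup.card_subgroup_dvd_card (S : Subgroup (SL2 F))
    obtain rfl : k = 1 := by
      by_contra h7
      obtain ⟨j, rfl⟩ : ∃ j, k = j + 2 := ⟨k - 2, by omega⟩
      exact h5 (Dvd.dvd.trans ⟨2 ^ j, by rw [hc]; ring⟩ h6)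
    have h7 : Nat.card ↥(T ⊓ (S : Subgroup (SL2 F)).map mkS) = 2 := by omega
    rw [h7] at eD
    have hS : (S : Subgroup (SL2 F)).map mkS ≤ PS F := by rintro _ ⟨g, -, rfl⟩; exact mkS_mem_PS g
    obtain ⟨e2⟩ := normalizer_klein h2 (isKleinFour_of_equiv eD inferInstance) hS
    obtain ⟨e3⟩ := card_S4_inf_PS e2 fun h' => by have := (isSquare_two_iff h2).1 ((S4_le_PS e2).1 h'); omega
    rw [normalizer_comap_mkS hm1, card_comap_mkS, gcd_two_of_odd hodd, card_equiv e3, KB.card_A4]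
    change _ = 3 * Nat.card (S : Subgroup (SL2 F))
    omega


end Cfsg.Agent.S2431
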