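import Cfsg.Statements.S0257
import Cfsg.Agent.H5.SL2Cl
import Cfsg.Agent.S0261
import Cfsg.Agent.S2431

set_option autoImplicit false
open Cfsg

namespace Cfsg.Agent.S0257

open H5

/-- SL_2(3) has a normal subgroup of index 3 isomorphic to the quaternion group of order 8, and its centre has order 2. -/
theorem result {F : Type*} [Field F] [Fintype F] (hF : Fintype.card F = 3) : (∃ Q : Subgroup (Matrix.SpecialLinearGroup (Fin 2) F), Q.Normal ∧ Q.index = 3 ∧ Nonempty (Q ≃* QuaternionGroup 2)) ∧ Nat.card (Subgroup.center (Matrix.SpecialLinearGroup (Fin 2) F)) = 2 := by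
  have ho : Odd (Fintype.card F) := by rw [hF]; decide
  refine ⟨?_, by rw [card_center_SL, hF]; rfl⟩
  obtain ⟨S⟩ : Nonempty (Sylow 2 (SL2 F)) := inferInstance
  have hG : Nat.card (SL2 F) = 24 := by rw [card_SL2, hF]
  have hS : Nat.card S = 8 := by rw [S.card_eq_multiplicity, hG, Nat.factorization_def _ Nat.prime_two]; decide +kernel
  obtain ⟨k, hk, ⟨e⟩⟩ := Cfsg.Agent.S0261.result ho S
  have : NeZero (2 ^ k) := ⟨by positivity⟩
  have hc : Nat.card S = 4 * 2 ^ k := by rw [card_equiv e, Nat.card_eq_fintype_card, QuaternionGroup.card]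
  obtain rfl : k = 1 := Nat.pow_right_injective le_rfl (by change 2 ^ k = 2 ^ 1; omega)
  have h := (Cfsg.Agent.S2431.result ho S).2.2 (by rw [hF]; simp)
  have h2 := (S : Subgroup (SL2 F)).card_mul_index
  exact ⟨S, Subgroup.normalizer_eq_top_iff.1 (Subgroup.eq_top_of_card_eq _ (h.trans (by rw [hG]; exact congrArg _ hS))),
    by rw [hS, hG] at h2; omega, ⟨e⟩⟩


end Cfsg.Agent.S0257
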