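import Cfsg.Statements.S0260
import Cfsg.Agent.H5.SL2

set_option autoImplicit false
open Cfsg

namespace Cfsg.Agent.S0260

open H5 OnePoint

/-- Any two distinct Sylow p-subgroups of SL_2(q), p the characteristic, generate SL_2(q). -/
theorem result {F : Type*} [Field F] [Fintype F] (p : ℕ) [Fact p.Prime] [CharP F p] (P Q : Sylow p (Matrix.SpecialLinearGroup (Fin 2) F)) (h : P ≠ Q) : (P : Subgroup (Matrix.SpecialLinearGroup (Fin 2) F)) ⊔ (Q : Subgroup (Matrix.SpecialLinearGroup (Fin 2) F)) = ⊤ := by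
  obtain ⟨x, hx⟩ := sylow_eq_US p P
  obtain ⟨y, hy⟩ := sylow_eq_US p Q
  have hxy : x ≠ y := fun e => h (Sylow.ext (by rw [hx, hy, e]))
  obtain ⟨c, rfl, rfl⟩ := exists_two hxy
  obtain ⟨c, rfl⟩ := mkG_surj c
  rw [hx, hy, US_smul, US_smul, ← Subgroup.map_sup, SL2_eq_top (US ∞ ⊔ US _)
    (fun b => Subgroup.mem_sup_left (sl2_mem_US.2 ⟨rfl, rfl, rfl⟩)) fun b => Subgroup.mem_sup_right ?_]
  · exact Subgroup.map_top_of_surjective _ (conjSL c).surjective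
  · have : ((0 : F) : OnePoint F) = mkG (toG (sl2 (0 : F) (-1) 1 0 (by simp))) • ∞ := by
      rw [mkG_toG, mkS_sl2, eq_comm, pg_infty_eq_coe_iff]; simp
    rw [this, US_smul]
    refine ⟨sl2 1 (-b) 0 1 (by simp), sl2_mem_US.2 ⟨rfl, rfl, rfl⟩, ?_⟩
    simp [conjSL_toG, sl2_inv, sl2_mul, sl2_eq_iff]


end Cfsg.Agent.S0260
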