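import Cfsg.Statements.S0263
import Cfsg.Agent.H5.SL

set_option autoImplicit false
open Cfsg

namespace Cfsg.Agent.S0263

open H5

/-- A Sylow p-subgroup of GL_n(q), p the characteristic, has order q^(n(n-1)/2). -/
theorem result {F : Type*} [Field F] [Fintype F] {q : ℕ} (hF : Fintype.card F = q) (p : ℕ) [Fact p.Prime] [CharP F p] (n : ℕ) (P : Sylow p (Matrix.GeneralLinearGroup (Fin n) F)) : Nat.card P = q ^ (n * (n - 1) / 2) := by
  obtain ⟨k, hp, hk⟩ := FiniteField.card F p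
  have e : ∏ i : Fin n, (q ^ n - q ^ (i : ℕ)) = q ^ (n * (n - 1) / 2) * ∏ i : Fin n, (q ^ (n - i) - 1) := by
    rw [← Finset.sum_range_id, ← Finset.prod_pow_eq_pow_sum, Finset.prod_range, ← Finset.prod_mul_distrib]
    exact Finset.prod_congr rfl fun i _ => by rw [mul_tsub, ← pow_add, mul_one, Nat.add_sub_cancel' i.2.le]
  have n : ¬ p ∣ ∏ i : Fin n, (q ^ (n - i) - 1) := fun h => by
    obtain ⟨i, -, h⟩ := (Prime.dvd_finset_prod_iff hp.prime _).1 h
    have : p ∣ q ^ (n - i) := dvd_pow (hF ▸ hk ▸ dvd_pow_self p k.ne_zero) (by omega)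
    exact hp.one_lt.ne' (Nat.dvd_one.1 ((Nat.dvd_sub_iff_right (Nat.one_le_pow _ _ (hF ▸ Fintype.card_pos)) this).1 h))
  rw [P.card_eq_multiplicity, card_GL, Fintype.card_fin, hF, e, ← hF, hk, ← pow_mul, Nat.factorization_mul (pow_ne_zero _ hp.ne_zero)
    (by rintro h; simp [← hk, hF] at h; simp [h] at n)]
  simp [hp.factorization, Nat.factorization_eq_zero_of_not_dvd (hk ▸ hF ▸ n)]


end Cfsg.Agent.S0263
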