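import Cfsg.Statements.S0266
import Cfsg.Agent.H5.SL2Cl

set_option autoImplicit false
open scoped MatrixGroups
open Cfsg

namespace Cfsg.Agent.S0266

open H5

/-- PGL_2(F) is sharply 3-transitive on the projective line: it is 3-transitive and the stabiliser of three distinct points is trivial. -/
theorem result {F : Type*} [Field F] : MulAction.IsMultiplyPretransitive (Matrix.ProjGenLinGroup (Fin 2) F) (Projectivization F (Fin 2 → F)) 3 ∧ ∀ (g : Matrix.ProjGenLinGroup (Fin 2) F) (a b c : Projectivization F (Fin 2 → F)), a ≠ b → a ≠ c → b ≠ c → g • a = a → g • b = b → g • c = c → g = 1 := by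
  classical
  let e := OnePoint.equivProjectivization F
  refine ⟨?_, fun g a b c hab hac hbc ha hb hc => ?_⟩
  · refine MulAction.isMultiplyPretransitive_iff.2 fun x y => ?_
    have key : ∀ x : Fin 3 ↪ Projectivization F (Fin 2 → F), ∃ g : PG F, ∀ i, g • e (![OnePoint.infty, (0 : F), (1 : F)] i) = x i :=
      fun x => by
        obtain ⟨g, h1, h2, h3⟩ := exists_three (x := e.symm (x 0)) (y := e.symm (x 1)) (z := e.symm (x 2))
          (by simp) (by simp) (by simp)
        refine ⟨g, fun i => ?_⟩
        rw [← proj_smul]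
        fin_cases i
        · exact (congrArg e h1).trans (e.apply_symm_apply _)
        · exact (congrArg e h2).trans (e.apply_symm_apply _)
        · exact (congrArg e h3).trans (e.apply_symm_apply _)
    obtain ⟨g, hg⟩ := key x
    obtain ⟨h, hh⟩ := key y
    exact ⟨h * g⁻¹, Function.Embedding.ext fun i => by
      rw [Function.Embedding.smul_apply, ← hg, mul_smul, inv_smul_smul, hh]⟩
  · obtain ⟨a, rfl⟩ := e.surjective a
    obtain ⟨b, rfl⟩ := e.surjective b
    obtain ⟨c, rfl⟩ := e.surjective c
    rw [← proj_smul, e.injective.eq_iff] at ha hb hc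
    exact pg_three g a b c (fun h => hab (h ▸ rfl)) (fun h => hac (h ▸ rfl)) (fun h => hbc (h ▸ rfl)) ha hb hc


end Cfsg.Agent.S0266
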