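import Cfsg.Statements.S0267
import Cfsg.Agent.H5.SL2Cl
import Cfsg.Agent.S0266

set_option autoImplicit false
open Cfsg

namespace Cfsg.Agent.S0267

open H5

/-- SL_2(q) is 3-transitive on the q+1 points of the projective line if and only if q is even. -/
theorem result {F : Type*} [Field F] [Fintype F] : MulAction.IsMultiplyPretransitive (Matrix.SpecialLinearGroup (Fin 2) F) (Projectivization F (Fin 2 → F)) 3 ↔ ringChar F = 2 := by
  classical
  have hs : ∀ (g : SL2 F) (x : Projectivization F (Fin 2 → F)), mkS g • x = g • x := fun g x => rfl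
  have h3 := Cfsg.Agent.S0266.result (F := F)
  rw [FiniteField.even_card_iff_char_two, ← Nat.even_iff, MulAction.isMultiplyPretransitive_iff]
  constructor
  · intro h
    by_contra ho
    obtain ⟨d, hd⟩ := exists_not_mem_PS (Nat.not_even_iff_odd.1 ho)
    let e := OnePoint.equivProjectivization F
    let x : Fin 3 ↪ Projectivization F (Fin 2 → F) := Function.Embedding.trans
      ⟨![OnePoint.infty, (0 : F), (1 : F)], fun i j => by fin_cases i <;> fin_cases j <;> simp⟩ e.toEmbedding
    obtain ⟨g, hg⟩ := h x (d • x)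
    have h4 : ∀ i, (d⁻¹ * mkS g) • x i = x i := fun i => by
      rw [mul_smul, inv_smul_eq_iff, hs]; exact DFunLike.congr_fun hg i
    have := h3.2 _ _ _ _ (x.injective.ne (by decide)) (x.injective.ne (by decide)) (x.injective.ne (by decide))
      (h4 0) (h4 1) (h4 2)
    exact hd (inv_mul_eq_one.1 this ▸ mkS_mem_PS g)
  · intro h x y
    obtain ⟨g, hg⟩ := MulAction.isMultiplyPretransitive_iff.1 h3.1 x y
    obtain ⟨g, rfl⟩ : g ∈ PS F := PS_eq_top h ▸ Subgroup.mem_top g
    exact ⟨g, hg⟩


end Cfsg.Agent.S0267
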