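import Cfsg.Statements.S0269
import Cfsg.Agent.H5.OmIndex

set_option autoImplicit false
open Cfsg

namespace Cfsg.Agent.S0269

open H5

/-- Sp_{2m}(q) is perfect except for Sp_2(2), Sp_2(3) and Sp_4(2): stated as m at least 3, or m = 2 and q at least 3, or q at least 4. -/
theorem result {F : Type*} [Field F] [Fintype F] (m : ℕ) (h : 3 ≤ m ∨ (m = 2 ∧ 3 ≤ Fintype.card F) ∨ 4 ≤ Fintype.card F) : commutator (Matrix.symplecticGroup (Fin m) F) = ⊤ := by
  have h1 := sympF_nondeg (F := F) m
  have k : commutator (sympF F m).isom = ⊤ := by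
    refine h1.symp_perfect ?_
    rcases h with h | ⟨rfl, h⟩ | h
    · right; left; simp; omega
    · by_cases h4 : 4 ≤ Fintype.card F
      · exact Or.inl (exists_sq_ne_one h4)
      · refine Or.inr (Or.inr ⟨by simp, two_ne_zero_of_odd ?_⟩)
        rw [show Fintype.card F = 3 by omega]; decide
    · exact Or.inl (exists_sq_ne_one h)
  rw [eq_top_iff]
  intro g _
  rw [mem_commutator_congr (spEquiv m), k]; trivial


end Cfsg.Agent.S0269
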