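import Cfsg.Statements.S0273
import Cfsg.Agent.H5.SL2Cl

set_option autoImplicit false
open Cfsg

namespace Cfsg.Agent.S0273

open H5

/-- In GL_2(q) the centraliser of a non-trivial element of a Sylow p-subgroup (p the characteristic) has order q (q-1): the Sylow subgroup times the scalars. -/
theorem result {F : Type*} [Field F] [Fintype F] {q : ℕ} (hF : Fintype.card F = q) (p : ℕ) [Fact p.Prime] [CharP F p] (P : Sylow p (Matrix.GeneralLinearGroup (Fin 2) F)) (a : Matrix.GeneralLinearGroup (Fin 2) F) (ha : a ∈ P) (ha1 : a ≠ 1) : Nat.card (Subgroup.centralizer ({a} : Set (Matrix.GeneralLinearGroup (Fin 2) F))) = q * (q - 1) := by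
  subst hF
  obtain ⟨x, hx⟩ := sylow_eq_UG p P
  obtain ⟨c, rfl⟩ := exists_mkG_smul x
  have ha : a ∈ (P : Subgroup (GL2 F)) := ha
  rw [hx, UG_smul, UG_infty] at ha
  obtain ⟨_, ⟨b, rfl⟩, rfl⟩ := ha
  have hb : b ≠ 0 := by rintro rfl; exact ha1 (by rw [← one_eq_gl2, map_one])
  have h1 := map_centralizer (φ := (MulAut.conj c).toMonoidHom) (MulAut.conj c).injective (gl2 1 b 0 1 (by simp))
  rw [MonoidHom.range_eq_top.2 (MulAut.conj c).surjective, inf_top_eq] at h1
  rw [← h1, card_cj, card_centralizer_GL (by rw [mkG_gl2, ne_eq, pg_eq_one_iff]; simp [hb])]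
  have : ∀ p : F × F, p.1 ^ 2 + (gl2 1 b 0 1 (by simp)).1.trace * p.1 * p.2 + (gl2 1 b 0 1 (by simp)).1.det * p.2 ^ 2 ≠ 0 ↔
      p.1 + p.2 ≠ 0 := fun p => by
    rw [← pow_ne_zero_iff two_ne_zero (a := p.1 + p.2)]
    simp only [gl2_coe, Matrix.trace_fin_two_of, Matrix.det_fin_two_of]
    exact Iff.of_eq (by congr 1; ring)
  simp only [this]
  rw [← Nat.card_eq_fintype_card, ← Nat.card_units, ← Nat.card_prod]
  exact Nat.card_congr ⟨fun p => (p.1.1, Units.mk0 _ p.2), fun p => ⟨(p.1, p.2 - p.1), by simp⟩, fun p => by simp, fun p => by simp⟩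


end Cfsg.Agent.S0273
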