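import Cfsg.Statements.S0274
import Cfsg.Agent.H5.SL2

set_option autoImplicit false
open Cfsg

namespace Cfsg.Agent.S0274

open H5

/-- Dickson's Theorem for SL_2: if p is odd and H is a subgroup of SL_2(q), q a power of p, with more than one Sylow p-subgroup, then H contains a copy of SL_2(p). -/
theorem result {F : Type*} [Field F] [Fintype F] (p : ℕ) [Fact p.Prime] [CharP F p] (hp : p ≠ 2) (H : Subgroup (Matrix.SpecialLinearGroup (Fin 2) F)) (hH : 1 < Nat.card (Sylow p H)) : ∃ K : Subgroup (Matrix.SpecialLinearGroup (Fin 2) F), K ≤ H ∧ Nonempty (K ≃* Matrix.SpecialLinearGroup (Fin 2) (ZMod p)) := by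
  obtain ⟨c, h⟩ := exists_sl2_prime_le p hp hH
  let φ := (conjSL c).toMonoidHom.comp (Matrix.SpecialLinearGroup.map (n := Fin 2) (ZMod.castHom (dvd_refl p) F))
  have hφ : Function.Injective φ := (conjSL c).injective.comp (slmap_injective _)
  exact ⟨φ.range, by rintro _ ⟨g, rfl⟩; exact h g, ⟨(MonoidHom.ofInjective hφ).symm⟩⟩


end Cfsg.Agent.S0274
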