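import Cfsg.Statements.S0275
import Cfsg.Agent.H5.SL2Cl

set_option autoImplicit false
open Cfsg

namespace Cfsg.Agent.S0275

open H5

/-- If p is odd and H is a subgroup of SL_2(q), q a power of p, with more than one Sylow p-subgroup, then the Sylow 2-subgroups of H are generalised quaternion. -/
theorem result {F : Type*} [Field F] [Fintype F] (p : ℕ) [Fact p.Prime] [CharP F p] (hp : p ≠ 2) (H : Subgroup (Matrix.SpecialLinearGroup (Fin 2) F)) (hH : 1 < Nat.card (Sylow p H)) (S : Sylow 2 H) : ∃ k : ℕ, 1 ≤ k ∧ Nonempty ((S : Subgroup H) ≃* QuaternionGroup (2 ^ k)) := by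
  obtain ⟨c, hc⟩ := exists_sl2_prime_le p hp hH
  obtain ⟨a, b, ha, hb, h⟩ := exists_Q8 (F := ZMod p) ((char_ne_two p).1 hp)
  let φ : SL2 (ZMod p) →* SL2 F := (conjSL c).toMonoidHom.comp (Matrix.SpecialLinearGroup.map (ZMod.castHom (dvd_refl p) F))
  have h1 : φ (-1) = -1 := by
    change conjSL c _ = _
    rw [← map_one (conjSL c), ← conjSL_neg, one_eq_sl2, one_eq_sl2, neg_sl2, neg_sl2, slmap_sl2]
    simp
  exact sylow_two_quat ((char_ne_two p).1 hp) S (a := φ a) (b := φ b) (hc a) (hc b) (by rw [← map_mul, ha, h1])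
    (by rw [← map_mul, hb, h1]) (by rw [← map_inv, ← map_mul, ← map_mul, h, map_inv])


end Cfsg.Agent.S0275
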