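import Cfsg.Statements.S0276
import Cfsg.Agent.H5.PSL2Max

set_option autoImplicit false
open Cfsg

namespace Cfsg.Agent.S0276

open H5

/-- For q = 3 or 5 mod 8 the Sylow 2-subgroups of PSL_2(q) are elementary abelian of order 4. -/
theorem result {F : Type*} [Field F] [Fintype F] {q : ℕ} (hF : Fintype.card F = q) (hq : q % 8 = 3 ∨ q % 8 = 5) (P : Sylow 2 (Matrix.ProjectiveSpecialLinearGroup (Fin 2) F)) : IsKleinFour (P : Subgroup (Matrix.ProjectiveSpecialLinearGroup (Fin 2) F)) := by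
  subst hF
  have ho : Odd (Fintype.card F) := Nat.odd_iff.2 (by omega)
  obtain ⟨X, ⟨e⟩⟩ := exists_A4 (two_ne_zero_of_odd ho)
  obtain ⟨V, hV⟩ := exists_map_psl (H := V4.map (emb e)) (by rintro _ ⟨g, -, rfl⟩; exact A4_le_PS e (emb_mem e g))
  have h1 : IsKleinFour V := isKleinFour_of_equiv ((pslSub V).trans ((MulEquiv.subgroupCongr hV).trans
    (V4.equivMapOfInjective _ (emb_inj e)).symm)) isKleinFour_V4
  have h2 : IsPGroup 2 V := IsPGroup.of_card (n := 2) h1.card_four
  have h3 := V.card_mul_index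
  have h4 := card_PS (k := F)
  rw [h1.card_four, card_PSL2] at h3
  rw [gcd_two_of_odd ho, ← h3] at h4
  have h5 : ¬ 2 ∣ V.index := by
    rintro ⟨j, hj⟩
    have : (Fintype.card F * (Fintype.card F - 1) * (Fintype.card F + 1)) % 16 = 0 := by omega
    obtain ⟨a, ha⟩ : ∃ a, Fintype.card F = a + 1 := ⟨Fintype.card F - 1, by omega⟩
    rw [ha] at this hq
    have h6 := Nat.mod_lt a (by norm_num : 16 > 0)
    rw [Nat.add_sub_cancel, Nat.mul_mod, Nat.mul_mod (a + 1), Nat.add_mod (a + 1), Nat.add_mod a] at this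
    rw [← Nat.mod_mod_of_dvd _ (by norm_num : 8 ∣ 16), Nat.add_mod a] at hq
    interval_cases a % 16 <;> simp_all
  exact isKleinFour_of_equiv (P.equiv (h2.toSylow h5)) h1


end Cfsg.Agent.S0276
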