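import Cfsg.Statements.S0281
import Cfsg.Agent.H5.Iso2

set_option autoImplicit false
open Cfsg

namespace Cfsg.Agent.S0281

open H5 H5.Form Matrix

/-- SU_2(q) is isomorphic to SL_2(q). -/
theorem result {F K : Type*} [Field F] [Fintype F] [Field K] [Fintype K] {q : ℕ} (hF : Fintype.card F = q ^ 2) (hK : Fintype.card K = q) : Nonempty (Cfsg.SU 2 F q ≃* Matrix.SpecialLinearGroup (Fin 2) K) := by
  obtain ⟨ι, hι⟩ := exists_emb hF hK
  obtain ⟨θ, θ0, hθ⟩ := exists_conj_eq_neg hF
  have c : ∀ a, conj hF (ι a) = ι a := fun a => (hι _).2 ⟨a, rfl⟩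
  let Φ : Form (unitK hF) (Fin 2 → F) := ofHerm _ (conj_ne_id hF) (LinearMap.mk₂'ₛₗ _ (conj hF)
    (fun u v => θ * (u 0 * conj hF (v 1) - u 1 * conj hF (v 0))) (by intros; simp; ring) (by intros; simp; ring) (by intros; simp; ring)
    (by intros; simp; ring)) fun x y => by simp [hθ, conj_conj]; ring
  have n : Φ.Nondeg := fun y hy => by
    have h1 := hy ![1, 0]; have h2 := hy ![0, 1]
    simp [Φ, θ0] at h1 h2
    ext i; fin_cases i <;> simp [h1, h2]
  obtain ⟨e, he⟩ := unit_iso n (hermF_nondeg 2 hF) rfl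
  let φ : SL2 K →* Φ.sisom := ((glEquiv.toMonoidHom.comp toG).comp (SpecialLinearGroup.map ι)).codRestrict _ fun g => by
    refine (mem_sisom _).2 ⟨(mem_isom_unit _).2 fun x y => ?_, (det_glEquiv _).trans (SpecialLinearGroup.map ι g).2⟩
    obtain ⟨a, b, c', d, h, rfl⟩ := exists_sl2 g
    have := congrArg ι h
    simp [Φ, slmap_sl2, mulVec, dotProduct, Fin.sum_univ_two, c, θ0] at this ⊢
    linear_combination (x 0 * conj hF (y 1) - x 1 * conj hF (y 0)) * this
  have i : Function.Injective φ := fun a b h => slmap_injective ι (toG_inj (glEquiv.injective (congrArg Subtype.val h)))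
  haveI := finite_aut (F := F) (V := Fin 2 → F)
  refine ⟨(suEquiv 2 hF).trans (he.sisomCongr.symm.trans (MulEquiv.ofBijective φ (i.bijective_of_nat_card_le (le_of_eq ?_))).symm)⟩
  refine Nat.eq_of_mul_eq_mul_left (show 0 < q + 1 by omega) ((card_sisom_unit n (n := 2) (by simp) (by simp)).trans ?_)
  simp [card_SL2, hK, guOrd, uf, Finset.prod_range_succ, show q ^ 2 - 1 = _ from Nat.sq_sub_sq _ 1]; ring


end Cfsg.Agent.S0281
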