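import Cfsg.Statements.S0284
import Cfsg.Agent.H5.Orders

set_option autoImplicit false
open Cfsg

namespace Cfsg.Agent.S0284

/-- The standard Hermitian form on F^n, |F| = q^2, has exactly q^(n-1) (q^n - (-1)^n) vectors of norm 1. -/
theorem result {F : Type*} [Field F] [Fintype F] {q : ℕ} (hF : Fintype.card F = q ^ 2) (n : ℕ) : Nat.card {v : Fin n → F // Cfsg.hermForm n F q v v = 1} = (if Even n then q ^ (n - 1) * (q ^ n - 1) else q ^ (n - 1) * (q ^ n + 1)) := by
  classical
  have h2 := H5.two_le_of_card_sq hF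
  have := H5.Form.numQ_unit_aux (H5.hermF_nondeg n hF) (c := 1) (by simp) (n := n) (by simp)
  rw [if_neg one_ne_zero] at this
  change (H5.hermF n hF).numQ 1 = _
  rcases n with _ | n
  · have : (q : ℤ) * (H5.hermF 0 hF).numQ 1 = 0 := by simpa using this
    simp only [mul_eq_zero, Nat.cast_eq_zero] at this
    simp; omega
  zify
  apply mul_left_cancel₀ (a := (q : ℤ)) (by omega)
  rw [this]
  split_ifs with h
  · rw [h.neg_one_pow]; push_cast [Nat.cast_sub (Nat.one_le_pow (n + 1) q (by omega))]
    simp; ring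
  · rw [(Nat.not_even_iff_odd.1 h).neg_one_pow]; simp; ring


end Cfsg.Agent.S0284
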