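import Cfsg.Statements.S0294
import Cfsg.Agent.H5.OmIndex

set_option autoImplicit false
open Cfsg

namespace Cfsg.Agent.S0294

open H5 H5.Form

/-- gcd(4, q^m + 1) |PΩ^-_{2m}(q)| = q^(m(m-1)) (q^m + 1) prod_{i=1}^{m-1} (q^(2i) - 1), m at least 4 (type ²D_m). -/
theorem result {F : Type*} [Field F] [Fintype F] {q : ℕ} (hF : Fintype.card F = q) (m : ℕ) (hm : 4 ≤ m) (a b : F) (hab : ∀ z₁ z₂ : F, z₁ ^ 2 + a * z₁ * z₂ + b * z₂ ^ 2 = 0 → z₁ = 0 ∧ z₂ = 0) : Nat.gcd 4 (q ^ m + 1) * Nat.card (Cfsg.POmega F (Cfsg.quadFormMinus (m - 1) F a b)) = q ^ (m * (m - 1)) * (q ^ m + 1) * ∏ i ∈ Finset.range (m - 1), (q ^ (2 * (i + 1)) - 1) := by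
  classical
  obtain ⟨m, rfl⟩ : ∃ k, m = k + 1 := ⟨m - 1, by omega⟩
  have h1 := minusF_nondeg m (disc_ne_zero_of_aniso hab)
  have ht := minusF_not_hasTS m hab
  have hd : Module.finrank F ((Fin m ⊕ Fin m) ⊕ Fin 2 → F) = 2 * m + 2 := by simp; omega
  have := card_isom_eq_mul (minusF m a b)
  have e := Nat.card_congr (quotCenterCongr (omegaEquiv (minusF m a b))).toEquiv
  rw [card_isom_minus hF h1 hd ht, h1.card_center_Om (by omega), ← e] at this
  change _ * Nat.card (POmega F (minusF m a b).Q) = _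
  simp only [Nat.add_sub_cancel]
  have k : 2 * Nat.gcd 4 (q ^ (m + 1) + 1) = (commutator (minusF m a b).isom).index *
      if (2 : F) ≠ 0 ∧ scal _ (-1 : Fˣ) ∈ (minusF m a b).Om then 2 else 1 := by
    rw [Nat.gcd_rec]
    by_cases h2 : (2 : F) = 0
    · rw [h1.index_even (h1.orth_RG (Or.inr (by omega)))
        (FiniteField.isSquare_of_char_two (ringChar_eq_two h2)) (by omega), if_neg (by simp [h2])]
      have := (FiniteField.even_card_iff_char_two.1 (ringChar_eq_two h2))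
      have : q ^ (m + 1) % 2 = 0 := by rw [Nat.pow_mod, ← hF, this]; simp
      rcases (by omega : (q ^ (m + 1) + 1) % 4 = 1 ∨ (q ^ (m + 1) + 1) % 4 = 3) with h | h <;> simp [h]
    · rw [h1.index_odd h2 (by omega), neg_mem_Om_minus h1 h2 hd ht, hF]
      rcases pow_mod_four_of_odd (hF ▸ odd_of_two_ne_zero h2) (m + 1) with h | h
      · rw [show (q ^ (m + 1) + 1) % 4 = 2 by omega]; simp [h, h2]
      · rw [show (q ^ (m + 1) + 1) % 4 = 0 by omega]; simp [h, h2]
  rw [← mul_assoc, ← k] at this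
  apply Nat.eq_of_mul_eq_mul_left two_pos
  linarith


end Cfsg.Agent.S0294
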