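import Cfsg.Statements.S0300
import Cfsg.Agent.H5.Iso2

set_option autoImplicit false
open Cfsg

namespace Cfsg.Agent.S0300

open H5 H5.Form Matrix

/-- PΩ^-_4(q) is isomorphic to PSL_2(q^2). -/
theorem result {F K : Type*} [Field F] [Fintype F] [Field K] [Fintype K] {q : ℕ} (hF : Fintype.card F = q) (hK : Fintype.card K = q ^ 2) (a b : F) (hab : ∀ z₁ z₂ : F, z₁ ^ 2 + a * z₁ * z₂ + b * z₂ ^ 2 = 0 → z₁ = 0 ∧ z₂ = 0) : Nonempty (Cfsg.POmega F (Cfsg.quadFormMinus 1 F a b) ≃* Matrix.ProjectiveSpecialLinearGroup (Fin 2) K) := by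
  obtain ⟨ι, -⟩ := exists_emb hK hF
  letI := ι.toAlgebra
  let τ : Matrix (Fin 2) (Fin 2) K →+ Matrix (Fin 2) (Fin 2) K := ⟨⟨fun X => (X.map (conj hK))ᵀ, by simp⟩, fun X Y => by ext; simp⟩
  have D : Desc hK (detF K) τ := ⟨fun c X => by ext; simp [τ], fun X => by ext; simp [τ, conj_conj],
    fun X => by simp [τ, detF_Q, RingHom.map_det]⟩
  let c : SL2 K →* Matrix (Fin 2) (Fin 2) K := (Units.coeHom _).comp toG
  let φ := act2 c ((conj hK).mapMatrix.toMonoidHom.comp c) fun g => by simp [c, ← RingHom.map_det, -RingHom.mapMatrix_apply]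
  have hφ : ∀ g X, τ ((φ g).1 X) = (φ g).1 (τ X) := fun g X => by
    simp [φ, τ, act2_apply, Matrix.map_mul, transpose_map, mul_assoc, Function.comp_def, conj_conj]
  have n := D.nondeg hF detF_nondeg
  have d : Module.finrank F (D.fix hF) = 2 * 1 + 2 := by rw [D.finrank_fix]; simp [Module.finrank_matrix]
  have k : ∀ g, D.hom hF φ hφ g = 1 → g = 1 ∨ g = -1 := fun g h =>
    (ker2 g.2 fun X => congrArg (·.1 X) (D.hom_ker hF φ hφ h)).imp (fun h => Subtype.ext h.1) fun h => Subtype.ext h.1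
  obtain ⟨r, rfl⟩ : ∃ r, q = r + 2 := ⟨q - 2, by have := two_le_of_card_sq hK; omega⟩
  have t : ¬ (D.form hF).HasTS 2 := fun t => by
    have := card_dvd_two_mul _ k
    rw [card_isom_plus hF n (m := 1) d t, card_SL2, hK] at this
    simp only [Finset.prod_range_one, show (r + 2) ^ 2 - 1 = r ^ 2 + 4 * r + 3 from Nat.sub_eq_of_eq_add (by ring), Nat.reduceAdd, Nat.reduceMul] at this
    have h := (Nat.dvd_sub_iff_right (show 4 * (r ^ 2 + 4 * r + 3) ≤ 4 * ((r + 2) ^ 2 + 1) by nlinarith) (dvd_mul_left _ _)).2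
      (Nat.dvd_of_mul_dvd_mul_left (by positivity) (this.trans (dvd_of_eq (by ring))))
    rw [show 4 * ((r + 2) ^ 2 + 1) - 4 * (r ^ 2 + 4 * r + 3) = 8 from Nat.sub_eq_of_eq_add (by ring)] at h
    have := Nat.le_of_dvd (by omega) h
    obtain rfl : r = 0 := by nlinarith
    omega
  obtain ⟨e, he⟩ := minus_iso n (minusF_nondeg 1 (disc_ne_zero_of_aniso hab)) d (by simp) t (minusF_not_hasTS 1 hab)
  obtain ⟨x, x0, x1⟩ := exists_sq_ne_one (F := K) (by rw [hK]; nlinarith)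
  exact n.pomega_iso (by omega) _ (range_le_commutator _ (SL2.commutator_eq_top x0 (by rwa [sq])))
    (by rw [card_isom_minus hF n d t, card_SL2, hK]; simp; ring)
    (fun h => neg_one_eq_one_iff.2 (by rw [← map_ofNat ι, h, map_zero])) k (mem_center_SL2.2 (Or.inr rfl)) center_quot_SL2 he.isomCongr


end Cfsg.Agent.S0300
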