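import Cfsg.Statements.S0303
import Cfsg.Agent.H5.Iso2

set_option autoImplicit false
open Cfsg

namespace Cfsg.Agent.S0303

open H5 H5.Form Matrix

/-- PΩ^-_6(q) is isomorphic to PSU_4(q). -/
theorem result {F K : Type*} [Field F] [Fintype F] [Field K] [Fintype K] {q : ℕ} (hF : Fintype.card F = q) (hK : Fintype.card K = q ^ 2) (a b : F) (hab : ∀ z₁ z₂ : F, z₁ ^ 2 + a * z₁ * z₂ + b * z₂ ^ 2 = 0 → z₁ = 0 ∧ z₂ = 0) : Nonempty (Cfsg.POmega F (Cfsg.quadFormMinus 2 F a b) ≃* Cfsg.PSU 4 K q) := by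
  obtain ⟨ι, -⟩ := exists_emb hK hF
  letI := ι.toAlgebra
  let τ : (Fin 3 ⊕ Fin 3 → K) →+ (Fin 3 ⊕ Fin 3 → K) := ⟨⟨fun v => conj hK ∘ v ∘ Sum.swap, by ext; simp⟩, fun X Y => by ext; simp⟩
  have D : Desc hK (plusF K 3) τ := ⟨fun c X => by ext; simp [τ], fun X => by ext; simp [τ, conj_conj],
    fun X => by simp [τ, Cfsg.quadFormPlus, mul_comm]⟩
  let α : Cfsg.SU 4 K q →* Matrix (Fin 4) (Fin 4) K := (Cfsg.slToMat 4 K).comp (Subgroup.subtype _)
  let φ := act6 α fun g => g.1.2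
  have hB : ∀ u v, (plusF K 3).B u (τ v) = u ⬝ᵥ (conj hK ∘ v) := fun u v => by simp [plusF_B, τ, dotProduct, Finset.sum_add_distrib]
  have hφ : ∀ g X, τ ((φ g).1 X) = (φ g).1 (τ X) := fun g X => (plusF_nondeg 3).ext fun u => by
    obtain ⟨u, rfl⟩ := (φ g).1.surjective u
    have : (α g)ᵀ * (α g).map (conj hK) = 1 := Matrix.ext fun i j => by
      have := g.2 (Pi.single i 1) (Pi.single j 1)
      rw [← hermF_B 4 hK, ← hermF_B 4 hK, hermF_B', hermF_B'] at this
      simpa [mul_apply, Pi.single_apply, one_apply, eq_comm, α] using this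
    rw [isom_B (φ g).2, hB, hB]
    change L6 (α g) u ⬝ᵥ conj hK ∘ L6 (α g) X = _
    rw [L6_map, L6_dot, ← Module.End.mul_apply, ← map_mul, this, map_one, Module.End.one_apply]
  have n := D.nondeg hF (plusF_nondeg 3)
  have d : Module.finrank F (D.fix hF) = 2 * 2 + 2 := by rw [D.finrank_fix]; simp
  haveI : Fact (Even (Fintype.card (Fin 4))) := ⟨by decide⟩
  let z : Cfsg.SU 4 K q := ⟨-1, fun u v => by rw [← hermF_B 4 hK, ← hermF_B 4 hK]; simp [neg_mulVec, -hermF_B]⟩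
  have k : ∀ g, D.hom hF φ hφ g = 1 → g = 1 ∨ g = z := fun g h =>
    (ker6 g.1.2 fun X => congrArg (·.1 X) (D.hom_ker hF φ hφ h)).imp (fun h => Subtype.ext (Subtype.ext h)) fun h => Subtype.ext (Subtype.ext h)
  obtain ⟨r, rfl⟩ : ∃ r, q = r + 2 := ⟨q - 2, by have := two_le_of_card_sq hK; omega⟩
  have c : Nat.card (Cfsg.SU 4 K (r + 2)) = (r + 2) ^ 6 * ((r + 2) ^ 2 - 1) * ((r + 2) ^ 4 - 1) * ((r + 2) ^ 3 + 1) := by
    have := card_sisom_unit (hermF_nondeg 4 hK) (n := 4) (by simp) (by simp)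
    rw [← Nat.card_congr (suEquiv 4 hK).toEquiv] at this
    refine Nat.eq_of_mul_eq_mul_left (show 0 < r + 2 + 1 by omega) (this.trans ?_)
    simp [guOrd, uf, Finset.prod_range_succ, show ¬ Even 3 by decide]; ring
  have t : ¬ (D.form hF).HasTS 3 := fun t => by
    have := card_dvd_two_mul _ k
    rw [card_isom_plus hF n (m := 2) d t, c] at this
    simp only [Finset.prod_range_succ, Finset.prod_range_zero, Nat.reduceAdd, Nat.reduceMul] at this
    have p : 0 < (r + 2) ^ 6 * ((r + 2) ^ 2 - 1) * ((r + 2) ^ 4 - 1) := by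
      have := Nat.one_lt_pow (n := 2) (a := r + 2) (by omega) (by omega)
      have := Nat.one_lt_pow (n := 4) (a := r + 2) (by omega) (by omega)
      exact Nat.mul_pos (Nat.mul_pos (by positivity) (by omega)) (by omega)
    have h := Nat.dvd_sub (dvd_mul_left ((r + 2) ^ 3 + 1) 4) (Nat.dvd_of_mul_dvd_mul_left (n := 4 * ((r + 2) ^ 3 - 1)) p (this.trans (dvd_of_eq (by ring))))
    have := Nat.pow_le_pow_left (show 2 ≤ r + 2 by omega) 3
    have := Nat.le_of_dvd (by omega) h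
    omega
  obtain ⟨e, he⟩ := minus_iso n (minusF_nondeg 2 (disc_ne_zero_of_aniso hab)) d (by simp) t (minusF_not_hasTS 2 hab)
  have p : commutator (Cfsg.SU 4 K (r + 2)) = ⊤ := (Subgroup.eq_top_iff' _).2 fun g => (mem_commutator_congr (suEquiv 4 hK) g).2
    (((hermF_nondeg 4 hK).unit_perfect (by simp) (by simp)).ge trivial)
  haveI : Group.IsPerfect (Cfsg.SU 4 K (r + 2)) := ⟨p⟩
  exact n.pomega_iso (by omega) _ (range_le_commutator _ p) (by rw [card_isom_minus hF n d t, c]; simp [Finset.prod_range_succ]; ring)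
    (fun h => Subtype.ext (Subtype.ext (neg_eq_iff_add_eq_zero.2 (by
      erw [← two_smul K, ← map_ofNat ι, h, map_zero, zero_smul])))) k
    (Subgroup.mem_center_iff.2 fun g => Subtype.ext (by simp [z])) (Group.IsPerfect.center_quotient_center_eq_bot _) he.isomCongr


end Cfsg.Agent.S0303
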