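import Cfsg.Statements.S0307
import Cfsg.Agent.H5.Br

set_option autoImplicit false
open Cfsg

namespace Cfsg.Agent.S0307

open H5 Matrix

/-- PSL_n(q) is normal in PGL_n(q) with cyclic quotient of order gcd(n, q-1): the image of the natural map PSL_n → PGL_n is the kernel of a surjective homomorphism onto the cyclic group of that order. -/
theorem result {F : Type*} [Field F] [Fintype F] {q : ℕ} (hF : Fintype.card F = q) (n : ℕ) (hn : 1 ≤ n) : ∃ g : Matrix.ProjGenLinGroup (Fin n) F →* Multiplicative (ZMod (Nat.gcd n (q - 1))), Function.Surjective g ∧ g.ker = (Matrix.ProjectiveSpecialLinearGroup.toPGL : Matrix.ProjectiveSpecialLinearGroup (Fin n) F →* Matrix.ProjGenLinGroup (Fin n) F).range := by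
  obtain ⟨ψ, h1, h2⟩ := exists_hom_zmod_gcd (C := Fˣ) n (d := Nat.gcd n (q - 1)) (by rw [card_units_eq, hF])
  haveI : Nonempty (Fin n) := ⟨⟨0, hn⟩⟩
  refine ⟨ProjGenLinGroup.lift (ψ.comp GeneralLinearGroup.det) (MonoidHom.ext fun c => (h2 _).2 ⟨c, by simp⟩), fun x => ?_, Subgroup.ext fun g => ?_⟩
  · obtain ⟨g, rfl⟩ := (h1.comp (GeneralLinearGroup.det_surjective (n := Fin n))) x
    exact ⟨ProjGenLinGroup.mk g, rfl⟩
  induction g using ProjGenLinGroup.induction_on with | mk g
  rw [MonoidHom.mem_ker, ProjGenLinGroup.lift_mk, MonoidHom.comp_apply, h2]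
  constructor
  · rintro ⟨y, e⟩
    obtain ⟨s, hs⟩ := (range_toGL (ι := Fin n) (F := F)).ge (show g * GeneralLinearGroup.scalar _ y⁻¹ ∈ _ by simp [← e])
    exact ⟨s, by rw [ProjectiveSpecialLinearGroup.toPGL_mk, hs]; simp⟩
  · rintro ⟨s, e⟩
    induction s using QuotientGroup.induction_on with | H s
    obtain ⟨u, e⟩ := ProjGenLinGroup.mk_eq_mk_iff.1 e
    exact ⟨u, by simp [← e]⟩


end Cfsg.Agent.S0307
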