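import Cfsg.Statements.S0312
import Cfsg.Agent.H6.BN

set_option autoImplicit false
open Cfsg

namespace Cfsg.Agent.S0312

/-- Every standard parabolic subgroup of a group with a (B,N)-pair equals its own normaliser. -/
theorem result {G : Type*} [Group G] (P : Cfsg.BNPair G) {J : Set G}
    (hJ : J ⊆ P.S) : Subgroup.normalizer (P.parabolic J : Set G) = P.parabolic J := by
  apply le_antisymm _ Subgroup.le_normalizer
  intro g hg
  obtain ⟨w, n, hn, -, b, hb, b', hb', rfl⟩ := H6.BN.exists_mem_C P g
  have hB := H6.BN.B_le_parabolic (P := P) J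
  have hn' : n ∈ Subgroup.normalizer (P.parabolic J : Set G) := by
    have := Subgroup.mul_mem _ (Subgroup.mul_mem _
      (Subgroup.inv_mem _ (Subgroup.le_normalizer (hB hb))) hg)
      (Subgroup.inv_mem _ (Subgroup.le_normalizer (hB hb')))
    simpa [mul_assoc] using this
  have : n ∈ P.parabolic J :=
    H6.BN.mem_of_conj_le' hB hn (fun c hc => (Subgroup.mem_normalizer_iff.1 hn' c).1 (hB hc))
  exact Subgroup.mul_mem _ (Subgroup.mul_mem _ (hB hb) this) (hB hb')

end Cfsg.Agent.S0312
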