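import Cfsg.Statements.S0313
import Cfsg.Agent.H6.BN

set_option autoImplicit false
open Cfsg

namespace Cfsg.Agent.S0313

/-- Two standard parabolic subgroups of a group with a (B,N)-pair which are conjugate in `G` coincide. -/
theorem result {G : Type*} [Group G] (P : Cfsg.BNPair G) {J K : Set G}
    (hJ : J ⊆ P.S) (hK : K ⊆ P.S) (g : G)
    (h : (P.parabolic J).map (MulAut.conj g).toMonoidHom = P.parabolic K) :
    P.parabolic J = P.parabolic K := by
  obtain ⟨w, n, hn, -, b, hb, b', hb', rfl⟩ := H6.BN.exists_mem_C P g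
  have hB := H6.BN.B_le_parabolic (P := P) J
  have hB' := H6.BN.B_le_parabolic (P := P) K
  have key : ∀ x ∈ P.parabolic J, (b * n * b') * x * (b * n * b')⁻¹ ∈ P.parabolic K := by
    intro x hx
    rw [← h]
    exact ⟨x, hx, by simp [mul_assoc]⟩
  have hnK : n ∈ P.parabolic K := by
    apply H6.BN.mem_of_conj_le' hB' hn
    intro c hc
    have h1 := key (b'⁻¹ * c * b') (hB (P.B.mul_mem (P.B.mul_mem (P.B.inv_mem hb') hc) hb'))
    have := Subgroup.mul_mem _ (Subgroup.mul_mem _ (Subgroup.inv_mem _ (hB' hb)) h1) (hB' hb)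
    simpa [mul_assoc] using this
  have hg : b * n * b' ∈ P.parabolic K :=
    Subgroup.mul_mem _ (Subgroup.mul_mem _ (hB' hb) hnK) (hB' hb')
  generalize b * n * b' = g at *
  ext x
  constructor
  · intro hx
    have := Subgroup.mul_mem _ (Subgroup.mul_mem _ (Subgroup.inv_mem _ hg) (key x hx)) hg
    simpa [mul_assoc] using this
  · intro hx
    have h1 : g * x * g⁻¹ ∈ (P.parabolic J).map (MulAut.conj g).toMonoidHom := by
      rw [h]
      exact Subgroup.mul_mem _ (Subgroup.mul_mem _ hg hx) (Subgroup.inv_mem _ hg)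
    obtain ⟨y, hy, e⟩ := h1
    have : y = x := by simpa using e
    exact this ▸ hy

end Cfsg.Agent.S0313
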