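import Cfsg.Statements.S0316
import Cfsg.Agent.H6.BN

set_option autoImplicit false
open Cfsg

namespace Cfsg.Agent.S0316

/-- The map `J ↦ P_J` is a lattice isomorphism from the power set of the set of distinguished generators onto the
subgroups containing `B`. -/
theorem result {G : Type*} [Group G] (P : Cfsg.BNPair G) :
    ∃ e : Set P.S ≃o {M : Subgroup G // P.B ≤ M},
      ∀ J : Set P.S, ((e J : {M : Subgroup G // P.B ≤ M}) : Subgroup G) = P.parabolic (Subtype.val '' J) := by
  have hsub : ∀ J : Set P.S, Subtype.val '' J ⊆ P.S := by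
    rintro J _ ⟨x, -, rfl⟩
    exact x.2
  have hmem : ∀ (J : Set P.S) (x : P.S), (x : G) ∈ P.parabolic (Subtype.val '' J) ↔ x ∈ J := by
    intro J x
    rw [H6.BN.mem_parabolic_gen_iff (hsub J) x.2]
    simp
  refine ⟨⟨⟨fun J => ⟨P.parabolic (Subtype.val '' J), H6.BN.B_le_parabolic _⟩,
    fun M => {x | (x : G) ∈ M.1}, ?_, ?_⟩, ?_⟩, fun J => rfl⟩
  · intro J
    ext x
    exact hmem J x
  · rintro ⟨M, hM⟩
    apply Subtype.ext
    change P.parabolic _ = M
    conv_rhs => rw [H6.BN.eq_parabolic hM]
    congr 1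
    ext t
    simp [and_comm]
  · intro J K
    change P.parabolic _ ≤ P.parabolic _ ↔ _
    constructor
    · intro h x hx
      exact (hmem K x).1 (h ((hmem J x).2 hx))
    · intro h
      exact sup_le_sup_left (Subgroup.closure_mono (Set.image_mono h)) _

end Cfsg.Agent.S0316
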