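import Cfsg.Statements.S0321
import Cfsg.Agent.H6.BN

set_option autoImplicit false
open Cfsg

namespace Cfsg.Agent.S0321

/-- For `n ∈ N` not in `B`, the union `B ∪ B n B` is (the underlying set of) a subgroup exactly when `n` agrees
modulo `B ⊓ N` with one of the distinguished representatives; thus the distinguished involutions are
determined by `B` and `N`. -/
theorem result {G : Type*} [Group G] (P : Cfsg.BNPair G) {n : G}
    (hn : n ∈ P.N) (hnB : n ∉ P.B) :
    (∃ H : Subgroup G, (H : Set G) = (P.B : Set G) ∪ DoubleCoset.doubleCoset n (P.B : Set G) P.B) ↔ ∃ s ∈ P.S, s⁻¹ * n ∈ P.B := by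
  constructor
  · rintro ⟨H, hH⟩
    have hB : P.B ≤ H := by
      intro b hb
      rw [← SetLike.mem_coe, hH]
      exact Or.inl hb
    have hnH : n ∈ H := by
      rw [← SetLike.mem_coe, hH]
      exact Or.inr (DoubleCoset.mem_doubleCoset_self _ _ _)
    obtain ⟨l, hl, hw⟩ := (H6.BN.gen P).exists_red (H6.BN.mk P n hn)
    cases l with
    | nil => exact absurd ((H6.BN.mk_eq_one P hn).1 hw.symm) hnB
    | cons i l =>
      have h1 := H6.BN.letters_mem hB _ hl hnH (hw ▸ H6.BN.self_mem_C P hn) i (by simp)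
      rw [← SetLike.mem_coe, hH] at h1
      rcases h1 with h1 | h1
      · exact absurd h1 (H6.BN.not_mem_B P i.2)
      · refine ⟨i, i.2, ?_⟩
        rw [← H6.BN.mk_eq_mk P (P.subset i.2) hn]
        exact H6.BN.eq_mk_of_mem_C _ ((H6.BN.mem_C_mk' P hn).2 h1)
  · rintro ⟨s, hs, h⟩
    rw [← H6.BN.mk_eq_mk P (P.subset hs) hn] at h
    refine ⟨P.parabolic {s}, ?_⟩
    ext g
    rw [SetLike.mem_coe, H6.BN.mem_parabolic_iff (Set.singleton_subset_iff.2 hs), Set.mem_union,
      ← H6.BN.mem_C_mk' P hn, ← h, SetLike.mem_coe, ← H6.BN.mem_C_one]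
    constructor
    · rintro ⟨l, hl, hg⟩
      have key : (H6.BN.gen P).wp l = 1 ∨ (H6.BN.gen P).wp l = H6.BN.s P ⟨s, hs⟩ := by
        clear hg
        induction l with
        | nil => left; rfl
        | cons i l ih =>
          have hi : i = ⟨s, hs⟩ := Subtype.ext (hl i (by simp))
          subst hi
          rcases ih (fun j hj => hl j (by simp [hj])) with h1 | h1
          · right; simp [h1]
          · left; simp [h1, H6.BN.s_sq]
      rcases key with h1 | h1
      · left; rwa [h1] at hg
      · right; rwa [h1] at hg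
    · rintro (h1 | h1)
      · exact ⟨[], by simp, h1⟩
      · exact ⟨[⟨s, hs⟩], by simp, by rw [H6.InvGen.wp_singleton]; exact h1⟩

end Cfsg.Agent.S0321
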