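import Cfsg.Statements.S0322
import Cfsg.Agent.H6.BN

set_option autoImplicit false
open Cfsg

namespace Cfsg.Agent.S0322

/-- A group with a (B,N)-pair of rank one acts doubly transitively on the left cosets of `B`. -/
theorem result {G : Type*} [Group G] (P : Cfsg.BNPair G) (h : P.rank = 1) : MulAction.IsMultiplyPretransitive G (G ⧸ P.B) 2 := by
  obtain ⟨i, hi⟩ : ∃ i : P.S, ∀ j, j = i := by
    have h1 : Nat.card P.S = 1 := h
    rw [Nat.card_eq_one_iff_exists] at h1
    exact h1
  have hW : ∀ w : H6.BN.W P, w = 1 ∨ w = H6.BN.s P i := by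
    intro w
    induction w using (H6.BN.gen P).induction_left with
    | h1 => left; rfl
    | hs j w _ ih =>
      rw [hi j]
      rcases ih with rfl | rfl
      · right; simp
      · left; simp [H6.BN.s_sq]
  have hC : ∀ g : G, g ∉ P.B → g ∈ H6.BN.C P (H6.BN.s P i) := by
    intro g hg
    obtain ⟨w, hw⟩ := H6.BN.exists_mem_C P g
    rcases hW w with rfl | rfl
    · exact absurd ((H6.BN.mem_C_one P).1 hw) hg
    · exact hw
  rw [MulAction.is_two_pretransitive_iff]
  intro a b c d hab hcd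
  obtain ⟨a, rfl⟩ := QuotientGroup.mk_surjective a
  obtain ⟨b, rfl⟩ := QuotientGroup.mk_surjective b
  obtain ⟨c, rfl⟩ := QuotientGroup.mk_surjective c
  obtain ⟨d, rfl⟩ := QuotientGroup.mk_surjective d
  rw [Ne, QuotientGroup.eq] at hab hcd
  obtain ⟨x, hx, y, hy, e⟩ := H6.BN.exists_of_mem_C (hC _ hab) (hC _ hcd)
  refine ⟨c * x * a⁻¹, ?_, ?_⟩
  · rw [MulAction.Quotient.smul_mk, QuotientGroup.eq]
    simpa [mul_assoc] using P.B.inv_mem hx
  · rw [MulAction.Quotient.smul_mk, QuotientGroup.eq]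
    have : d = c * (x * (a⁻¹ * b) * y) := by rw [← e]; group
    rw [this]
    simpa [mul_assoc] using hy

end Cfsg.Agent.S0322
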