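import Cfsg.Statements.S0323
import Cfsg.Agent.H6.BN

set_option autoImplicit false
open scoped Pointwise
open Cfsg

namespace Cfsg.Agent.S0323

/-- A doubly transitive action on a set with at least three points yields a (B,N)-pair of rank one:
`B` is the stabiliser of a point `x`, `N` the setwise stabiliser of a pair `{x, y}`. -/
theorem result {G Ω : Type*} [Group G] [MulAction G Ω]
    (h2 : MulAction.IsMultiplyPretransitive G Ω 2) {x y z : Ω} (hxy : x ≠ y) (hyz : y ≠ z) (hxz : x ≠ z) :
    ∃ P : Cfsg.BNPair G, P.B = MulAction.stabilizer G x ∧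
      P.N = MulAction.stabilizer G ({x, y} : Set Ω) ∧ P.rank = 1 := by
  rw [MulAction.is_two_pretransitive_iff] at h2
  obtain ⟨s, hs1, hs2⟩ := h2 hxy hxy.symm
  have memN : ∀ g : G, g ∈ MulAction.stabilizer G ({x, y} : Set Ω) ↔
      (g • x = x ∧ g • y = y) ∨ (g • x = y ∧ g • y = x) := by
    intro g
    rw [MulAction.mem_stabilizer_iff, Set.smul_set_insert, Set.smul_set_singleton,
      Set.pair_eq_pair_iff]
  have hsN : s ∈ MulAction.stabilizer G ({x, y} : Set Ω) := (memN s).2 (Or.inr ⟨hs1, hs2⟩)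
  have hsi : s⁻¹ • x = y := by rw [← hs2, inv_smul_smul]
  have hsi' : s⁻¹ • y = x := by rw [← hs1, inv_smul_smul]
  have cell : ∀ g n : G, g • x ≠ x → n • x ≠ x → g ∈ DoubleCoset.doubleCoset n
      (MulAction.stabilizer G x : Set G) (MulAction.stabilizer G x) := by
    intro g n hg hn
    obtain ⟨b, hb1, hb2⟩ := h2 hn.symm hg.symm
    refine DoubleCoset.mem_doubleCoset.2 ⟨b, hb1, (b * n)⁻¹ * g, ?_, by group⟩
    change ((b * n)⁻¹ * g) • x = x
    rw [mul_smul, ← hb2, ← mul_smul b, inv_smul_smul]
  have cell1 : ∀ g n : G, g • x = x → n • x = x → g ∈ DoubleCoset.doubleCoset n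
      (MulAction.stabilizer G x : Set G) (MulAction.stabilizer G x) := by
    intro g n hg hn
    refine DoubleCoset.mem_doubleCoset.2 ⟨1, one_mem _, n⁻¹ * g, ?_, by group⟩
    change (n⁻¹ * g) • x = x
    rw [mul_smul, hg, inv_smul_eq_iff, hn]
  refine ⟨⟨MulAction.stabilizer G x, MulAction.stabilizer G ({x, y} : Set Ω), {s}, ?_, ?_, ?_, ?_,
    ?_, ?_, ?_, ?_⟩, rfl, rfl, ?_⟩
  · rw [eq_top_iff]
    intro g _
    by_cases hg : g • x = x
    · exact Subgroup.mem_sup_left hg
    · obtain ⟨b, hb, b', hb', rfl⟩ := DoubleCoset.mem_doubleCoset.1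
        (cell g s hg (by rw [hs1]; exact hxy.symm))
      exact Subgroup.mul_mem _ (Subgroup.mul_mem _ (Subgroup.mem_sup_left hb)
        (Subgroup.mem_sup_right hsN)) (Subgroup.mem_sup_left hb')
  · rintro n hn t ⟨ht1, ht2⟩
    have ht1' : t • x = x := ht1
    have ht3 : t • y = y := by
      rcases (memN t).1 ht2 with h | h
      · exact h.2
      · exact absurd (ht1'.symm.trans h.1) hxy
    change (n * t * n⁻¹) • x = x
    rcases (memN _).1 (Subgroup.inv_mem _ hn) with h | h
    · rw [mul_smul, mul_smul, h.1, ht1', ← h.1, smul_inv_smul, h.1]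
    · rw [mul_smul, mul_smul, h.1, ht3, ← h.1, smul_inv_smul]
  · simpa using hsN
  · rintro _ rfl
    change (_ * _) • x = x
    rw [mul_smul, hs1, hs2]
  · rintro _ rfl _ rfl _
    rfl
  · apply le_antisymm
    · apply sup_le _ inf_le_right
      simpa using hsN
    · intro n hn
      rcases (memN n).1 hn with h | h
      · exact Subgroup.mem_sup_right ⟨h.1, hn⟩
      · have h1 : s⁻¹ * n ∈ MulAction.stabilizer G x ⊓ MulAction.stabilizer G ({x, y} : Set Ω) := by
          refine ⟨?_, Subgroup.mul_mem _ (Subgroup.inv_mem _ hsN) hn⟩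
          change (s⁻¹ * n) • x = x
          rw [mul_smul, h.1, hsi']
        have := Subgroup.mul_mem _ (Subgroup.mem_sup_left (Subgroup.subset_closure
          (Set.mem_singleton s))) (Subgroup.mem_sup_right h1)
        simpa using this
  · intro s' hs' n hn b hb
    rw [Set.mem_singleton_iff.1 hs']
    have hb' : b • x = x := hb
    rcases (memN n).1 hn with h | h
    · left
      apply cell
      · rw [mul_smul, mul_smul, h.1, hb', hs1]; exact hxy.symm
      · rw [mul_smul, h.1, hs1]; exact hxy.symm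
    · by_cases hc : (s * b * n) • x = x
      · left
        exact cell1 _ _ hc (by rw [mul_smul, h.1, hs2])
      · right
        exact cell _ _ hc (by rw [h.1]; exact hxy.symm)
  · intro s' hs' h
    rw [Set.mem_singleton_iff.1 hs'] at h
    obtain ⟨b, hb1, hb2⟩ := h2 hxy hxz
    have : s * b * s ∈ (MulAction.stabilizer G x : Set G) := by
      rw [← h]; exact ⟨b, hb1, rfl⟩
    have h3 : (s * b * s) • x = x := this
    rw [mul_smul, mul_smul, hs1, hb2, ← hs2, smul_left_cancel_iff] at h3
    exact hyz h3.symm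
  · simp [Cfsg.BNPair.rank]

end Cfsg.Agent.S0323
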