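import Cfsg.Statements.S0326
import Cfsg.Agent.H6.Suz4

set_option autoImplicit false
open Cfsg

namespace Cfsg.Agent.S0326

/-- The Suzuki–Tits ovoid over a finite field with `q` elements has `q² + 1` points. -/
theorem result {F : Type*} [Field F] [Fintype F] (m : ℕ) :
    Nat.card (Cfsg.suzukiOvoid F m) = Fintype.card F ^ 2 + 1 := by
  rw [sq (Fintype.card F), ← Fintype.card_prod, ← Fintype.card_option, ← Nat.card_eq_fintype_card]
  let v : Option (F × F) → Fin 4 → F := fun o => o.elim ![1, 0, 0, 0] fun p =>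
    ![p.1 * p.2 + p.1 ^ (2 ^ (m + 1) + 2) + p.2 ^ (2 ^ (m + 1)), p.2, p.1, 1]
  have hv : ∀ o, v o ≠ 0 := by
    rintro (_ | p) e
    · simpa [v] using congrFun e 0
    · simpa [v] using congrFun e 3
  refine (Nat.card_eq_of_bijective (fun o => (⟨Projectivization.mk F _ (hv o), _, hv o, rfl, by
    rcases o with _ | ⟨x, y⟩
    exacts [Or.inl rfl, Or.inr ⟨x, y, rfl⟩]⟩ : Cfsg.suzukiOvoid F m)) ⟨fun o o' e => ?_, ?_⟩).symm
  · obtain ⟨c, hc⟩ := (Projectivization.mk_eq_mk_iff' ..).1 (congrArg Subtype.val e)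
    have h0 := congrFun hc 0
    have h1 := congrFun hc 1
    have h2 := congrFun hc 2
    have h3 := congrFun hc 3
    rcases o with _ | ⟨x, y⟩ <;> rcases o' with _ | ⟨x', y'⟩ <;> simp_all [v]
  · rintro ⟨_, w, hw, rfl, rfl | ⟨x, y, rfl⟩⟩
    exacts [⟨none, rfl⟩, ⟨some (x, y), rfl⟩]

end Cfsg.Agent.S0326
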