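import Cfsg.Statements.S0327
import Cfsg.Agent.H6.Suz4

set_option autoImplicit false
open Cfsg

namespace Cfsg.Agent.S0327

/-- The Suzuki group (`m ≥ 1`) is a Zassenhaus group on the `q² + 1` points of the Suzuki–Tits ovoid. -/
theorem result {F : Type*} [Field F] [Fintype F] {m : ℕ} (hm : 1 ≤ m)
    (hF : Fintype.card F = 2 ^ (2 * m + 1)) :
    Cfsg.IsZassenhausGroup (Cfsg.Sz F m) (Cfsg.suzukiOvoid F m) := by
  let P := H6.Suz.Par.mk m hm hF
  have h := P.pt_opt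
  have h3 : P.opt none ≠ P.sz.W • P.opt none := (by simpa using h.ne (one_mem _) : _ ≠ _).symm
  have h4 := h.ne (P.sz.T_mem_B 0 1)
  have h5 : P.sz.W • P.opt none ≠ P.sz.T 0 1 • P.sz.W • P.opt none := fun e => by
    simpa [P.sz.T_eq_one, eq_comm (a := (1 : Cfsg.Sz F P.m))] using
      h.inj (one_mem _) (P.sz.T_mem 0 1) (by simpa using e)
  obtain ⟨k, hk⟩ := P.exists_unit_ne
  have hk' : P.sz.D k ≠ 1 := fun e => hk (H6.Suz.SzS.D_inj (e.trans (map_one _).symm))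
  refine ⟨⟨fun {g g'} e => inv_mul_eq_one.1 (h.three _ _ _ _ h3 h5 h4.symm ?_ ?_ ?_)⟩, h.two_trans,
    h.three, ⟨_, hk', _, _, h3, h.mem_H.2 (P.sz.D_mem k)⟩, fun N hN hN' => ⟨P.opt none, fun e => ?_⟩⟩
  iterate 3 rw [mul_smul, ← e, inv_smul_smul]
  rcases P.sz.simple.eq_bot_or_eq_top_of_normal N hN with rfl | rfl
  · obtain ⟨⟨g, hg⟩, e⟩ := hN'.exists_smul_eq (P.opt none) (P.sz.W • P.opt none)
    obtain rfl := Subgroup.mem_bot.1 hg
    exact h3 ((one_smul _ _).symm.trans e)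
  · exact hk' (congrArg Subtype.val ((Subgroup.eq_bot_iff_forall _).1 e ⟨_, trivial⟩
      (h.mem_H.2 (P.sz.D_mem k)).1))

end Cfsg.Agent.S0327
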