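import Cfsg.Statements.S0330
import Cfsg.Agent.H6.Suz4

set_option autoImplicit false
open Cfsg

namespace Cfsg.Agent.S0330

/-- A Sylow 2-subgroup `P` of the Suzuki group (field with `q = 2^(2m+1)` elements, `m ≥ 1`) has order `q²` and
exponent `4`; its centre coincides with its commutator subgroup and has order `q`. -/
theorem result {F : Type*} [Field F] [Fintype F] {m : ℕ} (hm : 1 ≤ m)
    (hF : Fintype.card F = 2 ^ (2 * m + 1)) (P : Sylow 2 (Cfsg.Sz F m)) :
    Nat.card P = (2 ^ (2 * m + 1)) ^ 2 ∧ Monoid.exponent P = 4 ∧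
      Subgroup.center P = commutator P ∧ Nat.card (Subgroup.center P) = 2 ^ (2 * m + 1) := by
  obtain ⟨Y, hY⟩ := (H6.Suz.Par.mk m hm hF).sz.exists_U_eq P
  change Nat.card P.1 = _ ∧ Monoid.exponent P.1 = 4 ∧ Subgroup.center P.1 = commutator P.1 ∧
    Nat.card (Subgroup.center P.1) = _
  rw [← hY, Y.center_U, Y.commutator_U, H1.card_subgroupOf Y.Z_le_U]
  exact ⟨Y.card_U, Y.exponent_U, rfl, Y.card_Z⟩

end Cfsg.Agent.S0330
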