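import Cfsg.Statements.S0335
import Cfsg.Agent.H6.Suz4

set_option autoImplicit false
open Cfsg

namespace Cfsg.Agent.S0335

/-- The Suzuki–Tits point set is an ovoid: any three distinct points of it are projectively independent
(no line of projective 3-space meets it in more than two points). -/
theorem result {F : Type*} [Field F] [Fintype F] {m : ℕ} (hm : 1 ≤ m)
    (hF : Fintype.card F = 2 ^ (2 * m + 1)) (p : Fin 3 ↪ Cfsg.suzukiOvoid F m) :
    Projectivization.Independent (fun i => (p i : Projectivization F (Fin 4 → F))) := by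
  let P := H6.Suz.Par.mk m hm hF
  obtain ⟨g, h0, h1⟩ := P.pt_opt.exists_pair (p.injective.ne (show (0 : Fin 3) ≠ 1 by simp))
  obtain ⟨o, ho⟩ := P.opt_surj (g⁻¹ • p 2)
  rw [P.W_opt] at h1
  rw [inv_smul_eq_iff] at ho
  obtain _ | ⟨a, b⟩ := o
  · exact absurd (p.injective (ho.trans h0)) (by simp)
  have hab : ¬ (a = 0 ∧ b = 0) := by
    rintro ⟨rfl, rfl⟩
    exact absurd (p.injective (ho.trans h1)) (by simp)
  let o : Fin 3 → Option (F × F) := ![none, some (0, 0), some (a, b)]
  have e : (fun i => (p i : Projectivization F (Fin 4 → F))) = fun i => g.1 • (P.opt (o i)).1 := by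
    ext i
    fin_cases i
    exacts [congrArg Subtype.val h0.symm, congrArg Subtype.val h1.symm, congrArg Subtype.val ho]
  rw [e]
  refine Projectivization.Independent.mk (fun i => g.1 • P.pt (o i))
    (fun i => (smul_ne_zero_iff_ne _).2 (P.pt_ne_zero _)) (Fintype.linearIndependent_iff.2 fun c hc => ?_)
  simp only [← smul_comm g.1, ← Finset.smul_sum, smul_eq_zero_iff_eq] at hc
  have h0 := congrFun hc 0
  have h1 := congrFun hc 1
  have h2 := congrFun hc 2
  have h3 := congrFun hc 3
  simp [Fin.sum_univ_three, o, H6.Suz.Par.pt, P.f_zero] at h0 h1 h2 h3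
  have : c 2 = 0 := by tauto
  intro i
  fin_cases i <;> simp_all

end Cfsg.Agent.S0335
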