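import Cfsg.Statements.S0338
import Cfsg.Agent.H3.Zass6

set_option autoImplicit false
open Cfsg

namespace Cfsg.Agent.S0338

/-- A Zassenhaus group of odd degree is a simple group. -/
theorem result {G Ω : Type*} [Group G] [MulAction G Ω] [Fintype Ω]
    (hZ : Cfsg.IsZassenhausGroup G Ω) (hodd : Odd (Fintype.card Ω)) : IsSimpleGroup G := by
  have := H3.zass_finite hZ
  obtain ⟨-, -, a, b, hab, -⟩ := hZ.2.2.2.1
  obtain ⟨H, h⟩ := H3.exists_ZG hZ hab
  have : Nontrivial G := by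
    obtain ⟨x, p⟩ := Subgroup.ne_bot_iff_exists_ne_one.1 h.nt
    exact ⟨x, 1, by simpa using p⟩
  have ev : Even (Nat.card H) := by have := h.card; rw [← Nat.card_eq_fintype_card, Nat.odd_iff] at hodd; rw [Nat.even_iff]; omega
  have ho : Odd (Nat.card (H3.St2 G a b)) := Nat.coprime_two_right.1 ((h.fpf.coprime (inf_le_left.trans h.norm)).of_dvd_right ev.two_dvd)
  refine ⟨fun N n => or_iff_not_imp_left.2 fun n0 => ?_⟩
  obtain ⟨l, z⟩ := h.normal_zass hZ n0
  obtain ⟨K, k⟩ := H3.exists_ZG z hab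
  obtain ⟨L, -, l', p, q⟩ := k.exists_perfect z
  let ι := N.subtype.comp L.subtype
  have i : Function.Injective ι := (Subgroup.subtype_injective _).comp (Subgroup.subtype_injective _)
  have d : Nat.card (H3.St2 L a b) ∣ Nat.card (H3.St2 G a b) := Subgroup.card_comap_dvd_of_injective (H3.St2 G a b) ι i
  have c : Nat.card (K.subgroupOf L) = Nat.card H := by have := q.card; have := h.card; omega
  have m : (K.subgroupOf L).map ι = H := H1.eq_of_le_of_card_eq (by
    rintro _ ⟨x, r, rfl⟩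
    exact h.mem.2 ((q.mem.1 r).imp_right (Or.imp_left fun e => by simp [e]))) (by rw [Subgroup.card_map_of_injective i, c])
  have e := q.card_inv_H (ho.of_dvd_nat d) p
  rw [c, if_pos ev, ← Set.ncard_image_of_injective _ i] at e
  have f := H1.card_dvd_ncard_of_free (H3.St2 G a b) {x | orderOf x = 2 ∧ x ∈ H}
    (fun g r x s => ⟨((MulAut.conj g).orderOf_eq x).trans s.1, h.conj_mem r.1 s.2⟩)
    fun g r x s t => (H1.fpf_iff.1 h.fpf g r x s.2 t).resolve_right (H4.ne_one_of_two s.1)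
  rw [Nat.card_coe_set_eq, show {x | orderOf x = 2 ∧ x ∈ H} = ι '' {x | orderOf x = 2 ∧ x ∈ K.subgroupOf L} from Set.ext fun x => ⟨fun r => by
    obtain ⟨y, s, rfl⟩ := m.ge r.2
    exact ⟨y, ⟨(orderOf_injective ι i y).symm.trans r.1, s⟩, rfl⟩, by
      rintro ⟨y, s, rfl⟩; exact ⟨(orderOf_injective ι i y).trans s.1, m.le ⟨y, s.2, rfl⟩⟩⟩, e] at f
  have g := q.cardG
  rw [c, Nat.dvd_antisymm d f, ← h.cardG] at g
  exact Subgroup.eq_top_of_le_card N (g ▸ Subgroup.card_le_card_group L)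

end Cfsg.Agent.S0338
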