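import Cfsg.Statements.S0341
import Cfsg.Agent.H3.Zass6

set_option autoImplicit false
open Cfsg

namespace Cfsg.Agent.S0341

/-- If a finite group acts faithfully and doubly transitively, no non-identity element fixes three points, some
non-identity element fixes two points, and some normal subgroup acts regularly, then the number of points
is `2^p` with `p` prime. -/
theorem result {G Ω : Type*} [Group G]
    [MulAction G Ω] [Fintype Ω] [FaithfulSMul G Ω] (h2 : MulAction.IsMultiplyPretransitive G Ω 2)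
    (h3 : ∀ g : G, ∀ a b c : Ω, a ≠ b → b ≠ c → a ≠ c → g • a = a → g • b = b → g • c = c → g = 1)
    (hfix : ∃ g : G, g ≠ 1 ∧ ∃ a b : Ω, a ≠ b ∧ g • a = a ∧ g • b = b)
    (N : Subgroup G) [N.Normal] (hNt : MulAction.IsPretransitive N Ω)
    (hNr : ∀ a : Ω, MulAction.stabilizer N a = ⊥) :
    ∃ p : ℕ, p.Prime ∧ Fintype.card Ω = 2 ^ p := by
  have : Finite G := Finite.of_injective _ (MulAction.toPerm_injective (α := G) (β := Ω))
  obtain ⟨g, g1, a, b, hab, g2⟩ := hfix
  obtain ⟨c, e⟩ : ∃ c : Ω, g • c ≠ c := by_contra fun e => g1 (eq_of_smul_eq_smul (α := Ω) fun c => by simpa using not_not.1 (not_exists.1 e c))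
  obtain ⟨H, h⟩ := H3.exists_ZG' (c := c) h2 h3 hab (fun f => e (f ▸ g2.1)) (fun f => e (f ▸ g2.2)) fun f => g1 (f.le g2)
  obtain ⟨p, p1, p2⟩ := Nat.exists_prime_and_dvd h.one_lt.ne'
  have := Fact.mk p1
  obtain ⟨x, x1, x2⟩ := H9.exists_orderOf_eq_of_dvd p2
  have c := (Nat.card_zpowers x).trans x2
  exact ⟨p, p1, Nat.card_eq_fintype_card.symm.trans (c ▸ h.card_reg hNt hNr (Subgroup.zpowers_le_of_mem x1)
    (fun f => p1.one_lt.ne' (by simpa [f] using c.symm)) (c ▸ p1.eq_two_or_odd'.symm))⟩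

end Cfsg.Agent.S0341
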