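import Cfsg.Statements.S0345
import Cfsg.Agent.H3.Zass6

set_option autoImplicit false
open Cfsg

namespace Cfsg.Agent.S0345

/-- In a finite simple Zassenhaus group the stabiliser `H` of two points `a ≠ b` is cyclic, and some involution
interchanging `a` and `b` inverts every element of `H`. -/
theorem result {G Ω : Type*} [Group G] [Finite G] [MulAction G Ω] [Finite Ω]
    (hZ : Cfsg.IsZassenhausGroup G Ω) [IsSimpleGroup G]
    {a b : Ω} (hab : a ≠ b) :
    IsCyclic ↥(MulAction.stabilizer G a ⊓ MulAction.stabilizer G b) ∧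
      ∃ v : G, orderOf v = 2 ∧ v • a = b ∧ v • b = a ∧ ∀ h ∈ MulAction.stabilizer G a ⊓ MulAction.stabilizer G b, v * h * v⁻¹ = h⁻¹ := by
  obtain ⟨H, h⟩ := H3.exists_ZG hZ hab
  have hp := H3.zass_perfect h
  obtain ⟨w, p, q⟩ := h.exists_swap
  rcases Nat.even_or_odd (Nat.card (H3.St2 G a b)) with he | ho
  swap
  · exact ⟨h.cyc ho hp, w, h.swap_order ho hp p q, p, q, fun _ => h.inverts ho hp p q⟩
  have l := (h.card_cases (h.le_of_even he)).resolve_left fun e => h.not_perfect e he hp
  have k := Set.eq_of_subset_of_ncard_le (s := {x | x ∈ H3.St2 G a b ∧ w * x * (w * x) = 1}) (t := H3.St2 G a b) (fun _ e => e.1) (by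
    have := h.card_le he p q
    rw [← Nat.card_coe_set_eq (H3.St2 G a b : Set G)]
    change Nat.card (H3.St2 G a b) ≤ _
    omega)
  have ww : w * w = 1 := by simpa using (k.ge (one_mem _)).2
  have i : ∀ x ∈ H3.St2 G a b, w * x * w⁻¹ = x⁻¹ := fun x e => by
    rw [← eq_inv_of_mul_eq_one_left ww]; exact eq_inv_of_mul_eq_one_left (by simpa [mul_assoc] using (k.ge e).2)
  exact ⟨H1.isCyclic_of_fpf' (H1.isMulCommutative_of_conj_eq_inv i) h.ntH (inf_le_left.trans h.norm) h.fpf, w,
    H4.orderOf_two_of ww fun e => hab (by simpa [e] using p), p, q, i⟩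

end Cfsg.Agent.S0345
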