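import Cfsg.Statements.S0346
import Cfsg.Agent.H3.Zass4

set_option autoImplicit false
open Cfsg

namespace Cfsg.Agent.S0346

/-- The number of points of a finite simple Zassenhaus group is `p^k + 1` for some prime power `p^k` (the regular normal
subgroup of a point stabiliser is a `p`-group). -/
theorem result {G Ω : Type*} [Group G] [Finite G] [MulAction G Ω] [Fintype Ω]
    (hZ : Cfsg.IsZassenhausGroup G Ω) [IsSimpleGroup G] :
    IsPrimePow (Fintype.card Ω - 1) := by
  obtain ⟨-, -, a, b, hab, -⟩ := hZ.2.2.2.1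
  obtain ⟨H, h⟩ := H3.exists_ZG hZ hab
  rw [← Nat.card_eq_fintype_card, ← h.card, add_tsub_cancel_right]
  have n := mt Subgroup.card_eq_one.1 h.ntH
  have k : ∀ p f : ℕ, p.Prime → Nat.card H = p ^ f → IsPrimePow (Nat.card H) := fun p f a b =>
    ⟨p, f, a.prime, Nat.pos_of_ne_zero fun e => n (by simpa [e] using b), b.symm⟩
  rcases ((Nat.even_or_odd _).imp h.le_of_even (h.feit' hZ) : _ ∨ _ ∨ _) with e | e | e
  iterate 2 exact let ⟨_, p, f, a, _, b⟩ := h.elem e; k p f a b
  have := Fact.mk Nat.prime_two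
  exact let ⟨f, b⟩ := IsPGroup.iff_card.1 e.1; k 2 f this.1 b

end Cfsg.Agent.S0346
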