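import Cfsg.Statements.S0351
-- import your own Cfsg.Agent.* helpers here

set_option autoImplicit false
set_option maxRecDepth 200000
open Cfsg

namespace Cfsg.Agent.S0351

/-- Derived design: removing a point p from the blocks through p of an S(t+1, k+1, v) yields an S(t, k, v-1) on the points other than p. -/
theorem result {α : Type*} [Fintype α] [DecidableEq α] {t k : ℕ} {B : Set (Finset α)} (hB : Cfsg.IsSteinerSystem (t + 1) (k + 1) B) (p : α) : Cfsg.IsSteinerSystem t k {b' : Finset {a : α // a ≠ p} | ∃ b ∈ B, p ∈ b ∧ b' = Finset.subtype (fun a => a ≠ p) b} := by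
  refine ⟨?_, fun s hs => ?_⟩
  · rintro _ ⟨b, hb, hp, rfl⟩
    have := hB.1 b hb
    rw [Finset.card_subtype, Finset.filter_ne', Finset.card_erase_of_mem hp, this]; rfl
  · obtain ⟨b, ⟨hb, h1⟩, h2⟩ := hB.2 (insert p (s.map (Function.Embedding.subtype _))) (by
      rw [Finset.card_insert_of_notMem (by simp), Finset.card_map, hs])
    refine ⟨_, ⟨⟨b, hb, h1 (Finset.mem_insert_self _ _), rfl⟩, fun x hx => Finset.mem_subtype.2
      (h1 (Finset.mem_insert_of_mem (Finset.mem_map_of_mem _ hx)))⟩, ?_⟩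
    rintro _ ⟨⟨c, hc, hp, rfl⟩, h3⟩
    rw [h2 c ⟨hc, Finset.insert_subset hp fun x hx => ?_⟩]
    obtain ⟨y, hy, rfl⟩ := Finset.mem_map.1 hx
    exact Finset.mem_subtype.1 (h3 hy)

end Cfsg.Agent.S0351
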