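import Cfsg.Statements.S0352
import Cfsg.Agent.H8.Stn3
-- import your own Cfsg.Agent.* helpers here

set_option autoImplicit false
set_option maxRecDepth 200000
open Cfsg

namespace Cfsg.Agent.S0352

/-- In a Steiner system S(5, 8, 24), two distinct blocks intersect in 0, 2 or 4 points. -/
theorem result {α : Type*} [Fintype α] [DecidableEq α] (hα : Fintype.card α = 24) {B : Set (Finset α)} (hB : Cfsg.IsSteinerSystem 5 8 B) {b c : Finset α} (hb : b ∈ B) (hc : c ∈ B) (hbc : b ≠ c) : (b ∩ c).card = 0 ∨ (b ∩ c).card = 2 ∨ (b ∩ c).card = 4 := by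
  obtain ⟨C, hn, rfl, rfl⟩ := H8.uq24_oct hα hB hb
  obtain ⟨a, ha, rfl⟩ := hc
  have := H8.allL_iff.1 (show (H8.allL H8.StB.oL fun a => decide (5279 = a ∨ H7.pc24 (5279 &&& a) ∈ [0, 2, 4])) = true by
    decide +kernel) a ha
  rw [H8.card_inter' hn le_rfl _ (H8.msk_lt H8.StC.om a ha)]
  simpa using (of_decide_eq_true this).resolve_left fun e => hbc (congrArg _ e)

end Cfsg.Agent.S0352
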