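import Cfsg.Statements.S0353
import Cfsg.Agent.H8.Stn3
-- import your own Cfsg.Agent.* helpers here

set_option autoImplicit false
set_option maxRecDepth 200000
open Cfsg

namespace Cfsg.Agent.S0353

/-- In an S(5, 8, 24), the symmetric difference of two blocks meeting in four points is a block. -/
theorem result {α : Type*} [Fintype α] [DecidableEq α] (hα : Fintype.card α = 24) {B : Set (Finset α)} (hB : Cfsg.IsSteinerSystem 5 8 B) {b c : Finset α} (hb : b ∈ B) (hc : c ∈ B) (h4 : (b ∩ c).card = 4) : symmDiff b c ∈ B := by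
  obtain ⟨C, hn, rfl, rfl⟩ := H8.uq24_oct hα hB hb
  obtain ⟨a, ha, rfl⟩ := hc
  have := H8.allL_iff.1 (show (H8.allL H8.StB.oL fun a => H8.bor (H8.bnot (Nat.beq (H7.pc24 (5279 &&& a)) 4))
    (H8.frc (5279 ^^^ a) (H8.memL H8.StB.oL))) = true by decide +kernel) a ha
  rw [H8.card_inter' hn le_rfl _ (H8.msk_lt H8.StC.om a ha)] at h4
  rw [h4, H8.frc_eq] at this
  exact ⟨_, H8.memL_spec this, C.fs_xor _ _⟩

end Cfsg.Agent.S0353
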