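import Cfsg.Statements.S0354
import Cfsg.Agent.H8.Stn3
-- import your own Cfsg.Agent.* helpers here

set_option autoImplicit false
set_option maxRecDepth 200000
open Cfsg

namespace Cfsg.Agent.S0354

/-- In an S(5, 8, 24), each block is disjoint from exactly 30 blocks. -/
theorem result {α : Type*} [Fintype α] [DecidableEq α] (hα : Fintype.card α = 24) {B : Set (Finset α)} (hB : Cfsg.IsSteinerSystem 5 8 B) {b : Finset α} (hb : b ∈ B) : {c : Finset α | c ∈ B ∧ Disjoint b c}.ncard = 30 := by
  obtain ⟨C, hn, rfl, rfl⟩ := H8.uq24_oct hα hB hb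
  rw [H8.ncard_blkP hn H8.StC.om (fun a => Nat.beq (5279 &&& a) 0) (fun _ h => h.1) fun a ha h => by
    simp [H8.disj_fs hn _ h, H8.fs_mem_blk hn H8.StC.om h, ha]]
  decide +kernel

end Cfsg.Agent.S0354
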