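import Cfsg.Statements.S0355
import Cfsg.Agent.H8.Stn3
-- import your own Cfsg.Agent.* helpers here

set_option autoImplicit false
set_option maxRecDepth 200000
open Cfsg

namespace Cfsg.Agent.S0355

/-- In a Steiner system S(4, 7, 23), two distinct blocks intersect in 1 or 3 points. -/
theorem result {α : Type*} [Fintype α] [DecidableEq α] (hα : Fintype.card α = 23) {B : Set (Finset α)} (hB : Cfsg.IsSteinerSystem 4 7 B) {b c : Finset α} (hb : b ∈ B) (hc : c ∈ B) (hbc : b ≠ c) : (b ∩ c).card = 1 ∨ (b ∩ c).card = 3 := by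
  obtain ⟨C, hn, rfl⟩ := H8.StB.wuq hα hB
  obtain ⟨a, ha, rfl⟩ := hc
  obtain ⟨b, hb, rfl⟩ := hb
  have := H8.allL_iff.1 (H8.allL_iff.1 (show (H8.allL H8.StB.wL fun b => H8.allL H8.StB.wL fun a =>
    H8.bor (H8.frc (H7.pc24 (b &&& a)) (H8.memL [1, 3])) (Nat.beq b a)) = true by decide +kernel) b hb) a ha
  rw [H8.card_inter' hn (by norm_num) _ (H8.msk_lt H8.StC.wm a ha)]
  rw [H8.bor_eq_true, H8.frc_eq, H8.memL_iff, Nat.beq_eq] at this
  simpa using this.resolve_right fun e => hbc (congrArg _ e)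

end Cfsg.Agent.S0355
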