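import Cfsg.Statements.S0357
import Cfsg.Agent.H8.Stn3
-- import your own Cfsg.Agent.* helpers here

set_option autoImplicit false
set_option maxRecDepth 200000
open Cfsg

namespace Cfsg.Agent.S0357

/-- In a Steiner system S(5, 6, 12), the complement of every block is again a block. -/
theorem result {α : Type*} [Fintype α] [DecidableEq α] (hα : Fintype.card α = 12) {B : Set (Finset α)} (hB : Cfsg.IsSteinerSystem 5 6 B) {b : Finset α} (hb : b ∈ B) : bᶜ ∈ B := by
  obtain ⟨C, hn, rfl⟩ := H8.StA.tuq hα hB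
  obtain ⟨b, hb, rfl⟩ := hb
  have := H8.allL_iff.1 (show (H8.allL H8.StA.tL fun b => H8.frc (b ^^^ H7.ones 12) (H8.memL H8.StA.tL)) = true by
    decide +kernel) b hb
  rw [H8.frc_eq, ← hn] at this
  exact ⟨_, H8.memL_spec this, C.fs_compl _⟩

end Cfsg.Agent.S0357
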