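import Cfsg.Statements.S0358
import Cfsg.Agent.H7.Golay

set_option autoImplicit false
open Cfsg

namespace Cfsg.Agent.S0358

/-- The length-24 code built from the squares modulo 23 has dimension 12 over the field with two elements. -/
theorem result : Module.finrank (ZMod 2) Cfsg.golayCode = 12 := by
  have h1 : Nat.card golayCode = 2 ^ 12 := by
    have : (golayCode : Set (GolayPt → ZMod 2)).ncard = 4096 := by
      rw [← Set.ncard_image_of_injective (f := support₂) _ (fun _ _ => H7.eq_of_support_eq)]
      rw [show support₂ '' (golayCode : Set (GolayPt → ZMod 2)) = H7.CC from rfl,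
        H7.ncard_supp (fun _ => true) le_rfl (fun m _ h => by simp [h])]
      decide +kernel
    exact this
  have h2 := Module.natCard_eq_pow_finrank (K := ZMod 2) (V := golayCode)
  rw [h1, Nat.card_zmod] at h2
  exact (Nat.pow_right_injective (le_refl 2) h2).symm

end Cfsg.Agent.S0358
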