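import Cfsg.Statements.S0362
import Cfsg.Agent.H7.Golay

set_option autoImplicit false
open Cfsg

namespace Cfsg.Agent.S0362

/-- The length-24 code is self-orthogonal: the dot product over ZMod 2 of any two of its words vanishes (with dimension 12 this makes it self-dual). -/
theorem result (v w : Cfsg.GolayPt → ZMod 2) (hv : v ∈ Cfsg.golayCode) (hw : w ∈ Cfsg.golayCode) : ∑ i, v i * w i = 0 := by
  have key : ∀ v ∈ Set.range qrWord ∪ {1}, ∀ w ∈ Set.range qrWord ∪ {1}, ∑ i, v i * w i = 0 := by
    have a : ∀ s t : ZMod 23, ∑ i, H7.wd (H7.qrM s.val) i * H7.wd (H7.qrM t.val) i = 0 := by decide +kernel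
    have b : ∀ s : ZMod 23, ∑ i, H7.wd (H7.qrM s.val) i = 0 := by decide +kernel
    rintro v (⟨s, rfl⟩ | rfl) w (⟨t, rfl⟩ | rfl)
    · rw [H7.qrWord_eq, H7.qrWord_eq]; exact a s t
    · rw [H7.qrWord_eq]; simpa using b s
    · rw [H7.qrWord_eq]; simpa using b t
    · decide +kernel
  induction hv, hw using Submodule.span_induction₂ with
  | mem_mem x y hx hy => exact key x hx y hy
  | zero_left => simp
  | zero_right => simp
  | add_left x y z _ _ _ h1 h2 => simp [add_mul, Finset.sum_add_distrib, h1, h2]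
  | add_right x y z _ _ _ h1 h2 => simp [mul_add, Finset.sum_add_distrib, h1, h2]
  | smul_left r x y _ _ h => simp [mul_assoc, ← Finset.mul_sum, h]
  | smul_right r x y _ _ h => simp [mul_left_comm, ← Finset.mul_sum, h]

end Cfsg.Agent.S0362
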