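import Cfsg.Statements.S0369
import Cfsg.Agent.H7.M24Orb

set_option autoImplicit false
open Cfsg

namespace Cfsg.Agent.S0369

open scoped Pointwise

/-- The group of the length-24 code coincides with the automorphism group of its octad system. -/
theorem result : Cfsg.M24 = Cfsg.setSystemAut Cfsg.octads := by
  ext g
  constructor
  · intro hg
    exact H7.smul_octads ⟨g, hg⟩
  · intro hg
    refine H7.mem_M24_of_basis fun b hb => ?_
    have h1 : ∀ o ∈ octads, g • o ∈ H7.CC := fun o ho => by
      have := Set.smul_mem_smul_set (a := g) ho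
      rw [show g • octads = octads from hg] at this
      exact this.1
    have h2 : ∀ b ∈ H7.gB, H7.band (H7.isCw b) (Nat.beq (H7.pc24 b) 8) = true ∨
      ∃ a ∈ [5279, 10558, 18147, 36294, 69395, 133817, 262637, 298027, 525274, 1050548],
        H7.band (H7.isCw a) (Nat.beq (H7.pc24 a) 8) = true ∧
        H7.band (H7.isCw (a ^^^ b)) (Nat.beq (H7.pc24 (a ^^^ b)) 8) = true := by decide +kernel
    rcases h2 b hb with h | ⟨a, -, h3, h4⟩
    · exact h1 _ (H7.fs_oct h)
    · have : H7.fs b = symmDiff (H7.fs a) (H7.fs (a ^^^ b)) := by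
        rw [H7.fs, H7.fs, H7.fs, ← H7.gC.fs_xor, Nat.xor_xor_cancel_left]
      rw [this, H7.smul_symmDiff']
      exact H7.symmDiff_mem (h1 _ (H7.fs_oct h3)) (h1 _ (H7.fs_oct h4))

end Cfsg.Agent.S0369
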