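import Cfsg.Statements.S0371
import Cfsg.Agent.H7.M24

set_option autoImplicit false
open Cfsg

namespace Cfsg.Agent.S0371

/-- Multiplication by a nonzero square residue modulo 23, fixing the extra point, lies in the group of the length-24 code. -/
theorem result (u : (ZMod 23)ˣ) (hu : IsSquare u) : Equiv.optionCongr (Units.mulLeft u) ∈ Cfsg.M24 := by
  have h2 : ∀ u : (ZMod 23)ˣ, IsSquare u → ∀ b ∈ H7.gB, H7.isCw (H7.colP 24 (fun p =>
      if b.testBit (H7.gC.code ((Equiv.optionCongr (Units.mulLeft u))⁻¹ (H7.pt p))) then 1 else 0) 0) = true := by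
    decide +kernel
  refine H7.mem_M24_of_basis fun b hb => ?_
  convert H7.fs_mem_supp_of (h2 u hu b hb) using 1
  ext x
  rw [← Finset.inv_smul_mem_iff, H7.gC.mem_fs, H7.gC.mem_fs, H7.testBit_colP, H7.pt, H7.gC.dec_code]
  have := H7.gC.code_lt x
  rw [H7.gC_n] at this
  simp only [this, decide_true, Bool.true_and, Equiv.Perm.smul_def]
  generalize b.testBit _ = c
  cases c <;> simp

end Cfsg.Agent.S0371
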