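import Cfsg.Statements.S0377
import Cfsg.Agent.H7.M24Orb

set_option autoImplicit false
open Cfsg

namespace Cfsg.Agent.S0377

/-- A point stabiliser in the group of the length-24 code is simple. -/
theorem result (p : Cfsg.GolayPt) : IsSimpleGroup (MulAction.stabilizer Cfsg.M24 p) := by
  obtain ⟨g, rfl⟩ := (H7.multi_le (k := 1) (by norm_num) |> MulAction.is_one_pretransitive_iff.1).exists_smul_eq
    (H7.pt 23) p
  have := H7.S23_simple
  exact (H7.stab1Equiv g _).symm.isSimpleGroup

end Cfsg.Agent.S0377
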