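import Cfsg.Statements.S0380
import Cfsg.Agent.H8.GE
import Cfsg.Agent.H8.XL34
-- import your own Cfsg.Agent.* helpers here

set_option autoImplicit false
set_option maxRecDepth 200000
open Cfsg

namespace Cfsg.Agent.S0380

/-- A three-point stabiliser in the group of the length-24 code is isomorphic to PSL(3, F) for the field F with 4 elements. -/
theorem result (p q r : Cfsg.GolayPt) (hpq : p ≠ q) (hpr : p ≠ r) (hqr : q ≠ r) (F : Type) [Field F] [Fintype F] (hF : Fintype.card F = 4) : Nonempty (↥(MulAction.stabilizer Cfsg.M24 p ⊓ MulAction.stabilizer Cfsg.M24 q ⊓ MulAction.stabilizer Cfsg.M24 r) ≃* Matrix.ProjectiveSpecialLinearGroup (Fin 3) F) := by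
  obtain ⟨C, hC, h⟩ := H8.wP (k := 3) (by norm_num) _ (H7.inj3 hpq hpr hqr) ![0, 1, 2] (by decide) (by decide)
  obtain rfl : C.dec 0 = p := h 0
  obtain rfl : C.dec 1 = q := h 1
  obtain rfl : C.dec 2 = r := h 2
  rw [show MulAction.stabilizer M24 (C.dec 0) ⊓ MulAction.stabilizer M24 (C.dec 1) ⊓ MulAction.stabilizer M24 (C.dec 2) =
    H8.SM M24 C [0, 1, 2] [] [] from Subgroup.ext fun g => by simp [H8.mem_SM, and_assoc]]
  exact (H8.GE.a3i hC).elim fun e => (H8.L34.iso hF).map fun e' => (e'.trans e).symm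

end Cfsg.Agent.S0380
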