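import Cfsg.Statements.S0384
import Cfsg.Agent.H8.GG
-- import your own Cfsg.Agent.* helpers here

set_option autoImplicit false
set_option maxRecDepth 200000
open scoped Pointwise
open Cfsg

namespace Cfsg.Agent.S0384

/-- A dodecad stabiliser is sharply 5-transitive on the dodecad. -/
theorem result (d : Finset Cfsg.GolayPt) (hd : d ∈ Cfsg.dodecads) (x y : Fin 5 ↪ Cfsg.GolayPt) (hx : ∀ i, x i ∈ d) (hy : ∀ i, y i ∈ d) : ∃! g : MulAction.stabilizer Cfsg.M24 d, ∀ i, ((g : Cfsg.M24) : Equiv.Perm Cfsg.GolayPt) (x i) = y i := by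
  obtain ⟨C, hC, rfl⟩ := H8.wD hd
  rw [H8.GC.sD]
  have hD : ∀ g : H8.SM M24 C [] [340831] [], g • C.fs 340831 = C.fs 340831 := fun g => g.2.2.1 _ (by simp)
  obtain ⟨g, hg⟩ := (H8.GF.d0ch hC).lets.tup hC.n (H8.GF.d0ch hC).tch hD H8.GF.d0m rfl x y x.injective y.injective hx hy
  refine ⟨g, hg, fun g' hg' => (inv_mul_eq_one.1 ((H8.GF.d0ch hC).sharp hC.n hD H8.GF.d0m (by decide +kernel) rfl x x.injective hx fun i => ?_)).symm⟩
  rw [mul_smul, inv_smul_eq_iff, hg i]; exact hg' i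

end Cfsg.Agent.S0384
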