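import Cfsg.Statements.S0385
import Cfsg.Agent.H8.GG
-- import your own Cfsg.Agent.* helpers here

set_option autoImplicit false
set_option maxRecDepth 200000
open Cfsg

namespace Cfsg.Agent.S0385

/-- The 6-point intersections of octads with a fixed dodecad form a Steiner system S(5, 6, 12) on the dodecad. -/
theorem result (d : Finset Cfsg.GolayPt) (hd : d ∈ Cfsg.dodecads) : Cfsg.IsSteinerSystem 5 6 {h : Finset {p : Cfsg.GolayPt // p ∈ d} | ∃ o ∈ Cfsg.octads, (o ∩ d).card = 6 ∧ h = Finset.subtype (fun p => p ∈ d) o} := by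
  refine ⟨?_, fun s hs => ?_⟩
  · rintro _ ⟨o, -, h, rfl⟩
    rw [Finset.card_subtype, ← h, Finset.filter_mem_eq_inter]
  obtain ⟨o, ⟨ho, h1⟩, h2⟩ := H7.steiner.2 (s.map (.subtype _)) (by rw [Finset.card_map, hs])
  have h3 := H7.weights (H7.symmDiff_mem ho.1 hd.1)
  have h4 := H7.card_symmDiff_add o d
  have h5 := Finset.card_le_card (Finset.subset_inter h1 fun x hx => Finset.property_of_mem_map_subtype s hx)
  have h6 := Finset.card_le_card (Finset.inter_subset_left (s₁ := o) (s₂ := d))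
  rw [Finset.card_map, hs] at h5
  rw [ho.2] at h4 h6
  rw [hd.2] at h4
  refine ⟨_, ⟨⟨o, ho, by omega, rfl⟩, fun x hx => Finset.mem_subtype.2 (h1 (Finset.mem_map_of_mem _ hx))⟩, ?_⟩
  rintro _ ⟨⟨o', ho', -, rfl⟩, h⟩
  rw [h2 o' ⟨ho', fun x hx => ?_⟩]
  obtain ⟨y, hy, rfl⟩ := Finset.mem_map.1 hx
  exact Finset.mem_subtype.1 (h hy)

end Cfsg.Agent.S0385
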