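import Cfsg.Statements.S0386
import Cfsg.Agent.H7.M24Cnt

set_option autoImplicit false
open Cfsg

namespace Cfsg.Agent.S0386

open scoped Pointwise
open H7

/-- For a fixed dodecad, 132 octads meet it in 6 points, 132 in 2 points and 495 in 4 points. -/
theorem result (d : Finset Cfsg.GolayPt) (hd : d ∈ Cfsg.dodecads) : {o : Finset Cfsg.GolayPt | o ∈ Cfsg.octads ∧ (o ∩ d).card = 6}.ncard = 132 ∧ {o : Finset Cfsg.GolayPt | o ∈ Cfsg.octads ∧ (o ∩ d).card = 2}.ncard = 132 ∧ {o : Finset Cfsg.GolayPt | o ∈ Cfsg.octads ∧ (o ∩ d).card = 4}.ncard = 495 := by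
  obtain ⟨k, rfl⟩ := exists_smul_dod hd
  simp only [Finset.inter_comm _ (k • fs 340831)]
  refine ⟨?_, ?_, ?_⟩
  · rw [ncard_smul_pred k (Q := fun x => x ∈ octads ∧ (fs 340831 ∩ x).card = 6) (by simp [card_inter_smul, Finset.smul_mem_smul_finset_iff]),
      cnt_supp (fun m => pc24 m = 8 ∧ pc24 (340831 &&& m) = 6) (fun _ h => h.1.1) (fun m _ h => by
        simp only [Set.mem_setOf_eq, oct_iff h, card_inter_fs, pt23_mem, pt0_mem, and_assoc])]
    decide +kernel
  · rw [ncard_smul_pred k (Q := fun x => x ∈ octads ∧ (fs 340831 ∩ x).card = 2) (by simp [card_inter_smul, Finset.smul_mem_smul_finset_iff]),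
      cnt_supp (fun m => pc24 m = 8 ∧ pc24 (340831 &&& m) = 2) (fun _ h => h.1.1) (fun m _ h => by
        simp only [Set.mem_setOf_eq, oct_iff h, card_inter_fs, pt23_mem, pt0_mem, and_assoc])]
    decide +kernel
  · rw [ncard_smul_pred k (Q := fun x => x ∈ octads ∧ (fs 340831 ∩ x).card = 4) (by simp [card_inter_smul, Finset.smul_mem_smul_finset_iff]),
      cnt_supp (fun m => pc24 m = 8 ∧ pc24 (340831 &&& m) = 4) (fun _ h => h.1.1) (fun m _ h => by
        simp only [Set.mem_setOf_eq, oct_iff h, card_inter_fs, pt23_mem, pt0_mem, and_assoc])]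
    decide +kernel

end Cfsg.Agent.S0386
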