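import Cfsg.Statements.S0389
import Cfsg.Agent.H8.GG
-- import your own Cfsg.Agent.* helpers here

set_option autoImplicit false
set_option maxRecDepth 200000
open scoped Pointwise
open Cfsg

namespace Cfsg.Agent.S0389

/-- The stabiliser of a dodecad and a point on it is 3-transitive on the complementary dodecad. -/
theorem result (d : Finset Cfsg.GolayPt) (hd : d ∈ Cfsg.dodecads) (p : Cfsg.GolayPt) (hp : p ∈ d) (x y : Fin 3 ↪ Cfsg.GolayPt) (hx : ∀ i, x i ∉ d) (hy : ∀ i, y i ∉ d) : ∃ g ∈ MulAction.stabilizer Cfsg.M24 d ⊓ MulAction.stabilizer Cfsg.M24 p, ∀ i, (g : Equiv.Perm Cfsg.GolayPt) (x i) = y i := by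
  obtain ⟨C, hC, e, e0, e1, e2, e3⟩ := H8.wE3 hd hp (hx 0) (hx 1) (hx 2) (by simp) (by simp) (by simp)
  obtain ⟨C', hC', f, f0, f1, f2, f3⟩ := H8.wE3 hd hp (hy 0) (hy 1) (hy 2) (by simp) (by simp) (by simp)
  obtain ⟨g, h1, h2, -⟩ := hC.rel' hC'
  refine ⟨g, ⟨show g • d = d by rw [← e, h2, f, e], show g • p = p by rw [← e0, h1, f0, e0]⟩, fun i => show g • x i = y i from ?_⟩
  fin_cases i
  exacts [e1 ▸ f1 ▸ h1 5, e2 ▸ f2 ▸ h1 7, e3 ▸ f3 ▸ h1 10]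

end Cfsg.Agent.S0389
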