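import Cfsg.Statements.S0406
import Cfsg.Agent.H2.LeU

set_option autoImplicit false
open Matrix
open Cfsg

namespace Cfsg.Agent.S0406

open Finset

/-- A rank-24 even lattice with no roots and the stated numbers of vectors of norms 4, 6, 8 is isomorphic to the Leech lattice. -/
theorem result (B : Matrix (Fin 24) (Fin 24) ℤ) (hsymm : B.IsSymm) (hpos : ∀ x : Fin 24 → ℤ, x ≠ 0 → 0 < x ⬝ᵥ (B *ᵥ x)) (heven : ∀ x : Fin 24 → ℤ, (2 : ℤ) ∣ x ⬝ᵥ (B *ᵥ x)) (h2 : ∀ x : Fin 24 → ℤ, x ⬝ᵥ (B *ᵥ x) ≠ 2) (h4 : {x : Fin 24 → ℤ | x ⬝ᵥ (B *ᵥ x) = 4}.ncard = 196560) (h6 : {x : Fin 24 → ℤ | x ⬝ᵥ (B *ᵥ x) = 6}.ncard = 16773120) (h8 : {x : Fin 24 → ℤ | x ⬝ᵥ (B *ᵥ x) = 8}.ncard = 398034000) : ∃ f : (Fin 24 → ℤ) ≃+ Cfsg.leechLattice, ∀ x : Fin 24 → ℤ, Cfsg.sqNorm ((f x : Cfsg.leechLattice) : Cfsg.GolayPt → ℤ) = 8 * (x ⬝ᵥ (B *ᵥ x)) := by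
  classical
  have L := H8.Le.matLat B hsymm hpos heven h2
  obtain ⟨-, cr⟩ := L.main (by simpa using h4) (by simpa using h6) (by simpa using h8)
  obtain ⟨x0, h0⟩ := Set.nonempty_of_ncard_ne_zero (s := {x : Fin 24 → ℤ | x ⬝ᵥ (B *ᵥ x) = 8}) (by rw [h8]; norm_num)
  have c48 := cr x0 trivial h0
  obtain ⟨b, hb⟩ : ∃ b : (Fin 24 → ℤ) → (Fin 24 → ℤ) → ℤ, b = fun x y => x ⬝ᵥ (B *ᵥ y) := ⟨_, rfl⟩
  have hb' : ∀ x y, x ⬝ᵥ (B *ᵥ y) = b x y := fun _ _ => by rw [hb]
  rw [← hb] at L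
  simp only [hb', Set.mem_setOf_eq] at *
  rw [h0] at c48
  have fin := Set.finite_of_ncard_ne_zero (c48.trans_ne (by norm_num))
  obtain ⟨ι, hι⟩ := exists_injective_nat (Fin 24 → ℤ)
  obtain ⟨S, hS⟩ : ∃ S : Finset (Fin 24 → ℤ), ∀ y, y ∈ S ↔ (b y y = 8 ∧ ∃ z, x0 - y = 2 • z) ∧ ι (-y) < ι y :=
    ⟨fin.toFinset.filter fun y => ι (-y) < ι y, fun y => by simp⟩
  have cg : ∀ x ∈ S, ∀ y ∈ S, ∃ z, x - y = 2 • z := fun x hx y hy => by
    obtain ⟨z, e⟩ := ((hS x).1 hx).1.2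
    obtain ⟨w, f⟩ := ((hS y).1 hy).1.2
    exact ⟨w - z, by rw [smul_sub, ← e, ← f]; abel⟩
  have n8 : ∀ x ∈ S, b x x = 8 := fun x hx => ((hS x).1 hx).1.1
  have ort : ∀ x ∈ S, ∀ y ∈ S, x ≠ y → b x y = 0 := fun x hx y hy n => by
    obtain ⟨z, e⟩ := cg x hx y hy
    rcases L.cong trivial n (n8 x hx).le (n8 y hy).le ⟨z, trivial, e⟩ with k | k
    · have := ((hS x).1 hx).2
      have := ((hS y).1 hy).2
      rw [k, neg_neg] at *
      omega
    · exact k.2.2
  have c24 : S.card = 24 := by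
    have := L.orth_le S (fun x hx => by rw [n8 x hx]; norm_num) ort
    have l := Set.ncard_le_ncard (show {y | y ∈ (⊤ : AddSubgroup (Fin 24 → ℤ)) ∧ b y y = 8 ∧
      ∃ z ∈ (⊤ : AddSubgroup (Fin 24 → ℤ)), x0 - y = 2 • z} ⊆ ((S ∪ S.image Neg.neg : Finset _) : Set (Fin 24 → ℤ)) from
      fun y (⟨_, a, z, _, e⟩ : y ∈ (⊤ : AddSubgroup (Fin 24 → ℤ)) ∧ b y y = 8 ∧ ∃ z ∈ (⊤ : AddSubgroup (Fin 24 → ℤ)), x0 - y = 2 • z) => by
        rw [mem_coe, mem_union]
        rcases lt_trichotomy (ι (-y)) (ι y) with k | k | k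
        · exact Or.inl ((hS y).2 ⟨⟨a, z, e⟩, k⟩)
        · have := L.neg y y
          rw [hι k] at this
          omega
        · exact Or.inr (mem_image.2 ⟨-y, (hS _).2 ⟨⟨(L.neg_neg' y).trans a, z + y, by
            rw [smul_add, ← e, two_nsmul]; abel⟩, by rwa [neg_neg]⟩, neg_neg y⟩)) (finite_toSet _)
    rw [c48, Set.ncard_coe_finset] at l
    have := l.trans ((card_union_le _ _).trans (Nat.add_le_add_left card_image_le _))
    omega
  have ev : ∀ (m : S → ℤ) (a : S), b a (∑ c : S, m c • c.1) = 8 * m a := fun m a => by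
    show L.hm a _ = _
    rw [map_sum, sum_eq_single a (fun c _ n => by
      rw [map_zsmul]; exact smul_eq_zero_of_right _ (ort _ a.2 _ c.2 fun e => n (Subtype.ext e.symm)))
      (fun h => absurd (mem_univ a) h), map_zsmul, smul_eq_mul, mul_comm]
    exact congrArg (· * m a) (n8 _ a.2)
  have pars : ∀ x y, ∑ a : S, b a x * b a y = 8 * b y x := fun x y => by
    have e : (8 : ℤ) • x - ∑ c : S, b c x • c.1 = 0 := by
      by_contra n
      have o : ∀ a ∈ S, b a ((8 : ℤ) • x - ∑ c : S, b c x • c.1) = 0 := fun a ha => by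
        show L.hm a _ = _
        rw [map_sub, map_zsmul]
        exact sub_eq_zero.2 (ev (fun c => b c x) ⟨a, ha⟩).symm
      generalize (8 : ℤ) • x - ∑ c : S, b c x • c.1 = w at n o
      have := L.orth_le (insert w S) (fun y hy => by
        rcases mem_insert.1 hy with rfl | hy
        · exact (hpos _ n).ne'
        · rw [n8 y hy]; norm_num) fun y hy z hz k => by
          rcases mem_insert.1 hy with rfl | hy' <;> rcases mem_insert.1 hz with rfl | hz'
          · exact absurd rfl k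
          · rw [L.symm]; exact o _ hz'
          · exact o _ hy'
          · exact ort _ hy' _ hz' k
      rw [card_insert_of_notMem fun k => by have := o w k; have := n8 w k; omega] at this
      omega
    have := congrArg (L.hm y) (sub_eq_zero.1 e)
    rw [map_zsmul, map_sum] at this
    refine Eq.trans (sum_congr rfl fun a _ => ?_) this.symm
    rw [map_zsmul, L.symm a y]; rfl
  let φ : (Fin 24 → ℤ) →+ (S → ℤ) := AddMonoidHom.mk' (fun x a => b a x) fun x y => funext fun a => L.add _ _ _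
  have nm : ∀ x, ∑ a, φ x a ^ 2 = 8 * b x x := fun x => by simp only [sq]; exact pars x x
  have iφ : Function.Injective φ := (injective_iff_map_eq_zero φ).2 fun x e => by
    by_contra n
    have := nm x
    have := hpos x n
    simp [e] at *
    omega
  have F : H2.Fr φ.range := by
    refine ⟨by simp [c24], ?_, ?_, ?_, fun m ⟨t, ht⟩ => ?_, ?_⟩
    · rintro _ ⟨x, rfl⟩ _ ⟨y, rfl⟩; exact ⟨_, pars x y⟩
    · rintro _ ⟨x, rfl⟩; rw [nm]; have := heven x; omega
    · rintro _ ⟨x, rfl⟩ n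
      have := L.min x trivial fun e => n (by rw [e, map_zero])
      rw [nm]; omega
    · obtain ⟨a0, ha⟩ := card_pos.1 (show 0 < S.card by omega)
      choose z hz using fun a : S => cg a a.2 a0 ha
      refine ⟨∑ a, m a • z a + t • a0, funext fun a => ?_⟩
      have e : (2 : ℤ) • (∑ a, m a • z a + t • a0) = ∑ c : S, m c • c.1 := by
        rw [smul_add, smul_sum, smul_smul, ← ht, sum_smul, ← sum_add_distrib]
        refine sum_congr rfl fun c _ => ?_
        rw [smul_comm, ← smul_add, ofNat_zsmul, ← hz, sub_add_cancel]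
      have := congrArg (L.hm a) e
      rw [map_zsmul] at this
      have k : 2 * b a (∑ a, m a • z a + t • a0) = 8 * m a := this.trans (ev m a)
      show b a _ = _
      omega
    · rw [← h4, ← Set.ncard_image_of_injective _ iφ]
      congr 1
      ext v
      constructor
      · rintro ⟨⟨x, rfl⟩, e⟩
        exact ⟨x, by rw [nm] at e; show b x x = 4; omega, rfl⟩
      · rintro ⟨x, e, rfl⟩
        exact ⟨⟨x, rfl⟩, by rw [nm, show b x x = 4 from e]; rfl⟩
  obtain ⟨T, t1, t2⟩ := F.main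
  let f : (Fin 24 → ℤ) →+ leechLattice := (T.symm.toAddMonoidHom.comp φ).codRestrict _ fun x =>
    (t2 _).2 ⟨x, (T.apply_symm_apply _).symm⟩
  refine ⟨AddEquiv.ofBijective f ⟨fun x y e => iφ (T.symm.injective (congrArg Subtype.val e)), fun y => ?_⟩,
    fun x => ?_⟩
  · obtain ⟨x, e⟩ := (t2 _).1 y.2
    exact ⟨x, Subtype.ext (T.symm_apply_eq.2 e)⟩
  · show sqNorm (T.symm (φ x)) = _
    rw [← t1, T.apply_symm_apply, nm]

end Cfsg.Agent.S0406
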