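import Cfsg.Statements.S0413
import Cfsg.Agent.H8.Stn3
-- import your own Cfsg.Agent.* helpers here

set_option autoImplicit false
set_option maxRecDepth 200000
open Cfsg

namespace Cfsg.Agent.S0413

/-- Aut of an S(4, 7, 23) is simple of order 10200960 and 4-transitive. -/
theorem result {α : Type*} [Fintype α] [DecidableEq α] (hα : Fintype.card α = 23) {B : Set (Finset α)} (hB : Cfsg.IsSteinerSystem 4 7 B) : Cfsg.IsM23 (Cfsg.setSystemAut B) ∧ MulAction.IsMultiplyPretransitive (Cfsg.setSystemAut B) α 4 := by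
  obtain ⟨C, hn, rfl⟩ := H8.StB.wuq hα hB
  exact ⟨H8.isM23_of (H8.StC.wiso hn), (H8.StC.wch hn).lets.multi hn (H8.StC.wch hn).tch _ H8.StC.wmv⟩

end Cfsg.Agent.S0413
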