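import Cfsg.Statements.S0418
import Cfsg.Agent.H8.GG
import Cfsg.Agent.H1.Simp
-- import your own Cfsg.Agent.* helpers here

set_option autoImplicit false
set_option maxRecDepth 200000
open Cfsg

namespace Cfsg.Agent.S0418

open Subgroup MulAction

theorem key {G α : Type*} [Group G] [Finite G] [Fintype α] [DecidableEq α] [MulAction G α] [FaithfulSMul G α] (hα : Fintype.card α = 11)
    [IsMultiplyPretransitive G α 4] (hsharp : ∀ x : Fin 4 ↪ α, stabilizer G x = ⊥) : IsM11 G := by
  have hα' : Nat.card α = 11 := Nat.card_eq_fintype_card.trans hα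
  obtain ⟨x⟩ : Nonempty (Fin 4 ↪ α) := Function.Embedding.nonempty_of_card_le (by simp [hα])
  have c : Nat.card G = 7920 := by
    rw [← index_bot, ← hsharp x, index_stabilizer_of_transitive, Nat.card_eq_fintype_card, Fintype.card_embedding_eq, hα]; rfl
  have := Fact.mk (show Nat.Prime 11 by norm_num)
  have : Nontrivial G := Finite.one_lt_card_iff_nontrivial.1 (by omega)
  have := isPreprimitive_of_is_two_pretransitive (isMultiplyPretransitive_of_le (G := G) (α := α) (m := 2) (n := 4) (by norm_num) (by omega))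
  refine ⟨⟨fun N hN => or_iff_not_imp_left.2 fun h => ?_⟩, c⟩
  have := IsQuasiPreprimitive.isPretransitive_of_normal (N := N) (X := α) fun e => h (eq_bot_iff.2 fun g hg =>
    eq_of_smul_eq_smul (α := α) fun a => by rw [one_smul]; exact e.ge (Set.mem_univ a) ⟨g, hg⟩)
  have s : ∀ a : α, Nat.card (stabilizer N a) * 11 = Nat.card N := fun a => by
    rw [← hα', ← index_stabilizer_of_transitive N a, card_mul_index]
  have i := N.card_mul_index
  obtain ⟨g, hg⟩ := exists_prime_orderOf_dvd_card' (G := N) 11 (Dvd.intro_left _ (s (x 0)))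
  have d : ∀ K : Type _, [Group K] → [Finite K] → Nat.card K ∣ 7920 → ¬ 11 ^ (1 + 1) ∣ Nat.card K := fun K _ _ h e => absurd (e.trans h) (by norm_num)
  obtain ⟨Q, hQ⟩ := H8.exists_syl (N := zpowers g) (k := 1) ((Nat.card_zpowers g).trans hg) (d _ (c ▸ N.card_subgroup_dvd_card))
  have hg' : Nat.card (zpowers g.1) = 11 ^ 1 := (Nat.card_zpowers _).trans ((orderOf_coe g).trans hg)
  obtain ⟨P, hP⟩ := H8.exists_syl hg' (d _ c.dvd)
  obtain ⟨R, hR⟩ := H8.exists_syl (N := P.1.map (toPermHom G α)) (k := 1) (by rw [card_map_of_injective toPerm_injective, hP, hg'])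
    (by rw [Nat.card_perm, hα']; norm_num [Nat.factorial])
  have e1 := card_dvd_of_le (le_normalizer_map (H := P.1) (toPermHom G α))
  rw [card_map_of_injective toPerm_injective, ← hR, H1.card_norm_perm (.inl hα)] at e1
  have e2 := H1.card_sylow_mul P
  have e3 : _ % 11 = 1 := card_sylow_modEq_one 11 G
  have e4 := H1.card_order_p P (hP ▸ hg')
  have e5 := H1.card_order_p Q (by rw [hQ, Nat.card_zpowers, hg])
  have e6 : Nat.card {y : N // orderOf y = 11} = Nat.card {y : G // orderOf y = 11} := Nat.card_eq_of_bijective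
    (fun y => ⟨y.1, (orderOf_coe _).trans y.2⟩) ⟨fun y z e => Subtype.ext (Subtype.ext (congrArg (fun w : {y : G // orderOf y = 11} => w.1) e)), fun ⟨y, hy⟩ => by
      have h1 := orderOf_map_dvd (QuotientGroup.mk' N) y
      have h2 : _ ∣ N.index := orderOf_dvd_natCard (QuotientGroup.mk' N y)
      have h3 := (QuotientGroup.eq_one_iff y).1 (orderOf_eq_one_iff.1 (((Nat.dvd_prime (show Nat.Prime 11 by norm_num)).1 (hy ▸ h1)).resolve_right fun e =>
        d G c.dvd (by rw [← i, ← s (x 0), mul_assoc]; exact (Nat.mul_dvd_mul_left 11 (e ▸ h2)).mul_left _)))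
      exact ⟨⟨⟨y, h3⟩, (orderOf_mk _ _).trans hy⟩, rfl⟩⟩
  have e7 : Nat.card (Sylow 11 G) = 144 := by
    generalize Nat.card (normalizer (P : Set G)) = e at *
    have := Nat.le_of_dvd (by norm_num) e1
    interval_cases e <;> omega
  obtain ⟨k, hk⟩ : 144 ∣ Nat.card N := Dvd.intro _ ((congrArg (· * _) (by omega)).trans (H1.card_sylow_mul Q))
  have s0 := s (x 0)
  obtain ⟨j, rfl⟩ : 11 ∣ k := by omega
  rcases (Nat.dvd_prime Nat.prime_five).1 (show j ∣ 5 from Dvd.intro _ (Nat.eq_of_mul_eq_mul_left (show 0 < 1584 by norm_num)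
    (by rw [← mul_assoc, show 1584 * j = Nat.card N by omega, i, c]))) with rfl | rfl
  swap
  · exact eq_top_of_card_eq _ (by omega)
  have t : ∀ a : α, (stabilizer N a : Set N) = {y | orderOf y = 11}ᶜ := fun a => Set.eq_of_subset_of_ncard_le (fun y hy e => by
    have := orderOf_dvd_natCard _ hy
    have := s a
    rw [show orderOf y = 11 from e] at *
    omega) (by
      have := Set.ncard_add_ncard_compl {y : N | orderOf y = 11}
      have := s a
      have : Nat.card (stabilizer N a) = (stabilizer N a : Set N).ncard := rfl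
      have : Nat.card {y : N // orderOf y = 11} = {y : N | orderOf y = 11}.ncard := rfl
      omega)
  rw [show stabilizer N (x 0) = ⊥ from eq_bot_iff.2 fun y hy => Subtype.ext (eq_of_smul_eq_smul (α := α) fun a => by
    rw [OneMemClass.coe_one, one_smul]; exact ((t (x 0)).trans (t a).symm).le hy), card_bot] at s0
  omega


/-- A sharply 4-transitive group of degree 11 is simple of order 7920. -/
theorem result {α : Type*} [Fintype α] [DecidableEq α] (hα : Fintype.card α = 11) (G : Subgroup (Equiv.Perm α)) [MulAction.IsMultiplyPretransitive G α 4] (hsharp : ∀ x : Fin 4 ↪ α, MulAction.stabilizer G x = ⊥) : Cfsg.IsM11 G := by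
  exact key hα hsharp

end Cfsg.Agent.S0418
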