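import Cfsg.Statements.S0415
import Cfsg.Agent.S0418
-- import your own Cfsg.Agent.* helpers here

set_option autoImplicit false
set_option maxRecDepth 200000
open Cfsg

namespace Cfsg.Agent.S0415

open Subgroup MulAction Finset in
theorem key {G α : Type*} [Group G] [Fintype α] [DecidableEq α] [MulAction G α] (h4 : 4 ≤ Fintype.card α)
    [IsMultiplyPretransitive G α 4] (hsharp : ∀ x : Fin 4 ↪ α, stabilizer G x = ⊥) :
    Fintype.card α = 4 ∨ Fintype.card α = 5 ∨ Fintype.card α = 6 ∨ Fintype.card α = 11 := by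
  classical
  obtain ⟨x⟩ : Nonempty (Fin 4 ↪ α) := Function.Embedding.nonempty_of_card_le (by simpa using h4)
  have s1 : ∀ (g : G) (y : Fin 4 ↪ α), (∀ i, g • y i = y i) → g = 1 := fun g y h =>
    (hsharp y).le (show g • y = y from DFunLike.ext _ _ h)
  obtain ⟨u, hu⟩ := exists_smul_eq G x ((Equiv.swap 0 1).toEmbedding.trans x)
  have hu' : ∀ i, u • x i = x (Equiv.swap 0 1 i) := fun i => DFunLike.congr_fun hu i
  have uu : ∀ a : α, u • u • a = a := fun a => by
    rw [← mul_smul, s1 (u * u) x fun i => by rw [mul_smul, hu', hu', Equiv.swap_apply_self], one_smul]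
  have c : ∀ (σ : Fin 4 → Fin 4) (y : Fin 4 ↪ α), (∀ i, u • y i = y (σ i)) →
      #{y : Fin 4 ↪ α | ∀ i, u • y i = y (σ i)} = Nat.card (centralizer {u}) := fun σ y hy => by
    rw [← Fintype.card_subtype, ← Nat.card_eq_fintype_card]
    refine (Nat.card_eq_of_bijective (fun g : centralizer {u} => (⟨g.1 • y, fun i => by
      change u • g.1 • y i = g.1 • y (σ i)
      rw [← mul_smul, ← mem_centralizer_singleton_iff.1 g.2, mul_smul, hy]⟩ : {y : Fin 4 ↪ α // ∀ i, u • y i = y (σ i)})) ⟨fun g h e => ?_, fun z => ?_⟩).symm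
    · refine Subtype.ext (inv_mul_eq_one.1 (s1 _ y fun i => ?_))
      rw [mul_smul, inv_smul_eq_iff]; exact (DFunLike.congr_fun (congrArg Subtype.val e) i).symm
    · obtain ⟨g, hg⟩ := exists_smul_eq G y z.1
      refine ⟨⟨g, mem_centralizer_singleton_iff.2 (inv_mul_eq_one.1 (s1 _ y fun i => ?_))⟩, Subtype.ext hg⟩
      have := z.2 i
      rw [← hg] at this
      rw [mul_smul, inv_smul_eq_iff, mul_smul, mul_smul, hy]; exact this
  set F : Finset α := {a | u • a = a} with hF
  have hM : ∀ a, a ∈ Fᶜ ↔ u • a ≠ a := fun a => by simp [hF]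
  have hF' : ∀ a, a ∈ F ↔ u • a = a := fun a => by simp [hF]
  have n01 : u • x 0 ≠ x 0 := by rw [hu']; exact x.injective.ne (by decide)
  have f3 : #F ≤ 3 := by
    by_contra h
    obtain ⟨y⟩ : Nonempty (Fin 4 ↪ F) := Function.Embedding.nonempty_of_card_le (by simp only [Fintype.card_fin, Fintype.card_coe]; omega)
    exact n01 (by rw [s1 u (y.trans (.subtype _)) fun i => (hF' _).1 (y i).2, one_smul])
  have f2 : 2 ≤ #F := one_lt_card.2 ⟨x 2, (hF' _).2 (by rw [hu']; rfl), x 3, (hF' _).2 (by rw [hu']; rfl), x.injective.ne (by decide)⟩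
  have m2 : 2 ≤ #Fᶜ := one_lt_card.2 ⟨x 0, (hM _).2 n01, x 1, (hM _).2 (by rw [hu']; exact x.injective.ne (by decide)), x.injective.ne (by decide)⟩
  have mk : ∀ a b c d : α, a ≠ b → a ≠ c → a ≠ d → b ≠ c → b ≠ d → c ≠ d → Function.Injective ![a, b, c, d] := fun a b c d _ _ _ _ _ _ i j => by
    fin_cases i <;> fin_cases j <;> simp [*, eq_comm]
  have cA : #{y : Fin 4 ↪ α | ∀ i, u • y i = y (Equiv.swap 0 1 i)} = #(Fᶜ ×ˢ F.offDiag) :=
    card_bij (fun y _ => (y 0, y 2, y 3)) (fun y hy => by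
      have hy := (mem_filter.1 hy).2
      exact mem_product.2 ⟨(hM _).2 (by rw [hy]; exact y.injective.ne (by decide)), mem_offDiag.2 ⟨(hF' _).2 (by rw [hy]; rfl), (hF' _).2 (by rw [hy]; rfl), y.injective.ne (by decide)⟩⟩)
      (fun y hy z hz e => by
        have hy := (mem_filter.1 hy).2 0
        have hz := (mem_filter.1 hz).2 0
        simp only [Prod.mk.injEq] at e
        ext i; fin_cases i
        exacts [e.1, hy.symm.trans ((congrArg (u • ·) e.1).trans hz), e.2.1, e.2.2])
      fun ⟨a, c, d⟩ h => by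
        obtain ⟨h1, h2⟩ := mem_product.1 h
        obtain ⟨h2, h3, h4⟩ := mem_offDiag.1 h2
        rw [hM] at h1; rw [hF'] at h2 h3
        refine ⟨⟨_, mk a (u • a) c d h1.symm (fun e => h1 (e ▸ h2)) (fun e => h1 (e ▸ h3)) (fun e => h1 (by rw [← uu a, e, h2, h2]))
          (fun e => h1 (by rw [← uu a, e, h3, h3])) h4⟩, mem_filter.2 ⟨mem_univ _, fun i => ?_⟩, rfl⟩
        fin_cases i
        exacts [rfl, uu a, h2, h3]
  have cB : #{y : Fin 4 ↪ α | ∀ i, u • y i = y (![1, 0, 3, 2] i)} = #(Fᶜ.sigma fun a => Fᶜ \ {a, u • a}) :=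
    card_bij (fun y _ => ⟨y 0, y 2⟩) (fun y hy => by
      have hy := (mem_filter.1 hy).2
      refine mem_sigma.2 ⟨(hM _).2 (by rw [hy]; exact y.injective.ne (by decide)), mem_sdiff.2 ⟨(hM _).2 (by rw [hy]; exact y.injective.ne (by decide)), ?_⟩⟩
      rw [mem_insert, mem_singleton, hy, y.injective.eq_iff, y.injective.eq_iff]; decide)
      (fun y hy z hz e => by
        have hy := (mem_filter.1 hy).2
        have hz := (mem_filter.1 hz).2
        simp only [Sigma.mk.injEq, heq_eq_eq] at e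
        ext i; fin_cases i
        exacts [e.1, (hy 0).symm.trans ((congrArg (u • ·) e.1).trans (hz 0)), e.2, (hy 2).symm.trans ((congrArg (u • ·) e.2).trans (hz 2))])
      fun ⟨a, c⟩ h => by
        obtain ⟨h1, h2⟩ := mem_sigma.1 h
        obtain ⟨h2, h3⟩ := mem_sdiff.1 h2
        rw [hM] at h1 h2
        rw [mem_insert, mem_singleton, not_or] at h3
        refine ⟨⟨_, mk a (u • a) c (u • c) h1.symm (Ne.symm h3.1) (fun e => h3.2 (by rw [show a = u • c from e, uu])) (Ne.symm h3.2)
          (fun e => h3.1 ((smul_left_cancel_iff u).1 e).symm) h2.symm⟩, mem_filter.2 ⟨mem_univ _, fun i => ?_⟩, rfl⟩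
        fin_cases i
        exacts [rfl, uu a, rfl, uu c]
  rw [card_sigma, sum_congr rfl (g := fun _ => #Fᶜ - 2) (fun a ha => by
    rw [card_sdiff_of_subset, card_pair ((hM a).1 ha).symm]
    intro b hb
    rcases mem_insert.1 hb with rfl | hb
    · exact ha
    · rw [mem_singleton.1 hb, hM, uu]; exact ((hM a).1 ha).symm), sum_const, smul_eq_mul] at cB
  rw [card_product, offDiag_card, c _ x hu'] at cA
  have t := card_add_card_compl F
  rcases m2.eq_or_lt with h | h
  · omega
  obtain ⟨y, hy⟩ := card_pos.1 (cB ▸ Nat.mul_pos (by omega) (by omega))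
  rw [c _ y (mem_filter.1 hy).2, cA] at cB
  have := Nat.eq_of_mul_eq_mul_left (by omega) cB
  interval_cases h : #F <;> omega

/-- Degrees of sharply 4-transitive permutation groups are 4, 5, 6, 11. -/
theorem result {α : Type*} [Fintype α] [DecidableEq α] (G : Subgroup (Equiv.Perm α)) (h4 : 4 ≤ Fintype.card α) [MulAction.IsMultiplyPretransitive G α 4] (hsharp : ∀ x : Fin 4 ↪ α, MulAction.stabilizer G x = ⊥) : Fintype.card α = 4 ∨ Fintype.card α = 5 ∨ Fintype.card α = 6 ∨ Fintype.card α = 11 := by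
  exact key h4 hsharp

end Cfsg.Agent.S0415
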