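import Cfsg.Statements.S0416
import Cfsg.Agent.S0415
-- import your own Cfsg.Agent.* helpers here

set_option autoImplicit false
set_option maxRecDepth 200000
open Cfsg

namespace Cfsg.Agent.S0416

open Subgroup MulAction SubMulAction in
theorem step {G α : Type*} [Group G] [Fintype α] [MulAction G α] {k : ℕ} (hk : k + 1 ≤ Fintype.card α) (a : α)
    [h : IsMultiplyPretransitive G α (k + 1)] (hsharp : ∀ x : Fin (k + 1) ↪ α, stabilizer G x = ⊥) :
    IsMultiplyPretransitive (stabilizer G a) (ofStabilizer G a) k ∧ (∀ y : Fin k ↪ ofStabilizer G a, stabilizer (stabilizer G a) y = ⊥) ∧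
      Nat.card (ofStabilizer G a) + 1 = Fintype.card α := by
  have : IsPretransitive G α := is_one_pretransitive_iff.1
    (isMultiplyPretransitive_of_le (G := G) (α := α) (m := 1) (n := k + 1) (by omega) (by rwa [Nat.card_eq_fintype_card]))
  refine ⟨ofStabilizer.isMultiplyPretransitive.1 h, fun y => eq_bot_iff.2 fun h hh => ?_, by rw [nat_card_ofStabilizer_add_one_eq, Nat.card_eq_fintype_card]⟩
  have : h.1 ∈ stabilizer G (ofStabilizer.snoc y) := by
    rw [mem_stabilizer_iff]; ext i
    refine Fin.lastCases ?_ (fun j => ?_) i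
    · change h.1 • ofStabilizer.snoc y (Fin.last k) = _; rw [ofStabilizer.snoc_last]; exact h.2
    · change h.1 • ofStabilizer.snoc y j.castSucc = _; rw [ofStabilizer.snoc_castSucc]
      exact congrArg Subtype.val (DFunLike.congr_fun (mem_stabilizer_iff.1 hh) j)
  rw [hsharp] at this
  exact Subtype.ext this

open MulAction in
theorem key {G α : Type*} [Group G] [Fintype α] [MulAction G α] (h5 : 5 ≤ Fintype.card α)
    [IsMultiplyPretransitive G α 5] (hsharp : ∀ x : Fin 5 ↪ α, stabilizer G x = ⊥) :
    Fintype.card α = 5 ∨ Fintype.card α = 6 ∨ Fintype.card α = 7 ∨ Fintype.card α = 12 := by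
  classical
  obtain ⟨a⟩ : Nonempty α := Fintype.card_pos_iff.1 (by omega)
  obtain ⟨h1, h2, h3⟩ := step (G := G) (k := 4) h5 a hsharp
  let _ := Fintype.ofFinite (SubMulAction.ofStabilizer G a)
  rw [Nat.card_eq_fintype_card] at h3
  have := S0415.key (by omega) h2
  omega

/-- Degrees of sharply 5-transitive permutation groups are 5, 6, 7, 12. -/
theorem result {α : Type*} [Fintype α] [DecidableEq α] (G : Subgroup (Equiv.Perm α)) (h5 : 5 ≤ Fintype.card α) [MulAction.IsMultiplyPretransitive G α 5] (hsharp : ∀ x : Fin 5 ↪ α, MulAction.stabilizer G x = ⊥) : Fintype.card α = 5 ∨ Fintype.card α = 6 ∨ Fintype.card α = 7 ∨ Fintype.card α = 12 := by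
  exact key h5 hsharp

end Cfsg.Agent.S0416
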