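import Cfsg.Statements.S0417
import Cfsg.Agent.S0416
-- import your own Cfsg.Agent.* helpers here

set_option autoImplicit false
set_option maxRecDepth 200000
open Cfsg

namespace Cfsg.Agent.S0417

universe u v
open Subgroup MulAction in
theorem key (k : ℕ) : ∀ {G : Type u} {α : Type v} [Group G] [Fintype α] [MulAction G α] (_ : k + 6 ≤ Fintype.card α)
    [IsMultiplyPretransitive G α (k + 6)] (_ : ∀ x : Fin (k + 6) ↪ α, stabilizer G x = ⊥), Fintype.card α ≤ k + 8 := by
  classical
  induction' k with k ih <;> intro G α _ _ _ hn _ hsharp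
  · obtain ⟨x⟩ : Nonempty (Fin 6 ↪ α) := Function.Embedding.nonempty_of_card_le (by simpa using hn)
    obtain ⟨h1, h2, h3⟩ := S0416.step (G := G) (k := 5) hn (x 0) hsharp
    let _ := Fintype.ofFinite (SubMulAction.ofStabilizer G (x 0))
    rw [Nat.card_eq_fintype_card] at h3
    have := S0416.key (by omega) h2
    by_contra h
    have hα : Fintype.card α = 13 := by omega
    have c : Nat.card G = 1235520 := by
      rw [← index_bot, ← hsharp x, index_stabilizer_of_transitive, Nat.card_eq_fintype_card, Fintype.card_embedding_eq, hα]; rfl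
    have : Finite G := Nat.finite_of_card_ne_zero (by omega)
    have : FaithfulSMul G α := ⟨fun {g h} e => inv_mul_eq_one.1 ((hsharp x).le (show (g⁻¹ * h) • x = x from DFunLike.ext _ _ fun i => by
      change (g⁻¹ * h) • x i = x i; rw [mul_smul, ← e, inv_smul_smul]))⟩
    have := Fact.mk (show Nat.Prime 13 by norm_num)
    obtain ⟨g, hg⟩ := exists_prime_orderOf_dvd_card' (G := G) 13 (by rw [c]; norm_num)
    have hg' : Nat.card (zpowers g) = 13 ^ 1 := (Nat.card_zpowers _).trans hg
    obtain ⟨P, hP⟩ := H8.exists_syl hg' (by rw [c]; norm_num)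
    obtain ⟨R, hR⟩ := H8.exists_syl (N := P.1.map (toPermHom G α)) (k := 1) (by rw [card_map_of_injective toPerm_injective, hP, hg'])
      (by rw [Nat.card_perm, Nat.card_eq_fintype_card, hα]; norm_num [Nat.factorial])
    have e1 := card_dvd_of_le (le_normalizer_map (H := P.1) (toPermHom G α))
    rw [card_map_of_injective toPerm_injective, ← hR, H1.card_norm_perm (.inl hα)] at e1
    have e2 := H1.card_sylow_mul P
    have e3 : _ % 13 = 1 := card_sylow_modEq_one 13 G
    generalize Nat.card (normalizer (P : Set G)) = e at *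
    have := Nat.le_of_dvd (by norm_num) e1
    interval_cases e <;> omega
  · obtain ⟨a⟩ : Nonempty α := Fintype.card_pos_iff.1 (by omega)
    obtain ⟨h1, h2, h3⟩ := S0416.step (G := G) (k := k + 6) (by omega) a (h := by rwa [add_right_comm] at *) (by rwa [add_right_comm] at *)
    let _ := Fintype.ofFinite (SubMulAction.ofStabilizer G a)
    rw [Nat.card_eq_fintype_card] at h3
    have := ih (by omega) h2
    omega

/-- For k ≥ 6, sharply k-transitive groups have degree k, k+1 or k+2. -/
theorem result {α : Type*} [Fintype α] [DecidableEq α] (G : Subgroup (Equiv.Perm α)) (k : ℕ) (hk : 6 ≤ k) (hn : k ≤ Fintype.card α) [MulAction.IsMultiplyPretransitive G α k] (hsharp : ∀ x : Fin k ↪ α, MulAction.stabilizer G x = ⊥) : Fintype.card α = k ∨ Fintype.card α = k + 1 ∨ Fintype.card α = k + 2 := by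
  obtain ⟨k, rfl⟩ := Nat.exists_eq_add_of_le' hk
  have := key k hn hsharp
  omega

end Cfsg.Agent.S0417
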