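import Cfsg.Statements.S0419
import Cfsg.Agent.S0418
-- import your own Cfsg.Agent.* helpers here

set_option autoImplicit false
set_option maxRecDepth 200000
open Cfsg

namespace Cfsg.Agent.S0419

/-- A sharply 5-transitive group of degree 12 is simple of order 95040. -/
theorem result {α : Type*} [Fintype α] [DecidableEq α] (hα : Fintype.card α = 12) (G : Subgroup (Equiv.Perm α)) [MulAction.IsMultiplyPretransitive G α 5] (hsharp : ∀ x : Fin 5 ↪ α, MulAction.stabilizer G x = ⊥) : Cfsg.IsM12 G := by
  open Subgroup MulAction SubMulAction in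
  classical
  have hα' : Nat.card α = 12 := Nat.card_eq_fintype_card.trans hα
  obtain ⟨a⟩ : Nonempty α := Fintype.card_pos_iff.1 (by omega)
  have h2 := isMultiplyPretransitive_of_le (G := G) (α := α) (m := 2) (n := 5) (by norm_num) (by omega)
  have hp := isPreprimitive_of_is_two_pretransitive h2
  have h4 : IsMultiplyPretransitive (stabilizer G a) (ofStabilizer G a) 4 := ofStabilizer.isMultiplyPretransitive.1 ‹_›
  have h1 : IsPretransitive (stabilizer G a) (ofStabilizer G a) := is_one_pretransitive_iff.1 (ofStabilizer.isMultiplyPretransitive.1 h2)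
  let _ := Fintype.ofFinite (ofStabilizer G a)
  have : FaithfulSMul (stabilizer G a) (ofStabilizer G a) := ⟨fun {g h} e => Subtype.ext (eq_of_smul_eq_smul (α := α) fun b => by
    by_cases hb : b = a
    · rw [hb, mem_stabilizer_iff.1 g.2, mem_stabilizer_iff.1 h.2]
    · exact congrArg Subtype.val (e ⟨b, hb⟩))⟩
  obtain ⟨hs, hc⟩ := S0418.key (G := stabilizer G a) (α := ofStabilizer G a)
    (by rw [← Nat.card_eq_fintype_card, nat_card_ofStabilizer_eq, hα']) (fun y => eq_bot_iff.2 fun h hh => by
      have : h.1 ∈ stabilizer G (ofStabilizer.snoc y) := by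
        rw [mem_stabilizer_iff]; ext i
        refine Fin.lastCases ?_ (fun j => ?_) i
        · change h.1 • ofStabilizer.snoc y (Fin.last 4) = _; rw [ofStabilizer.snoc_last]; exact h.2
        · change h.1 • ofStabilizer.snoc y j.castSucc = _; rw [ofStabilizer.snoc_castSucc]
          exact congrArg Subtype.val (DFunLike.congr_fun (mem_stabilizer_iff.1 hh) j)
      rw [hsharp] at this
      exact Subtype.ext this)
  have c : Nat.card G = 95040 := by
    rw [← (stabilizer G a).card_mul_index, index_stabilizer_of_transitive, hc, hα']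
  have : Nontrivial G := Finite.one_lt_card_iff_nontrivial.1 (by omega)
  refine ⟨⟨fun N hN => or_iff_not_imp_left.2 fun h => ?_⟩, c⟩
  have := IsQuasiPreprimitive.isPretransitive_of_normal (N := N) (X := α) fun e => h (eq_bot_iff.2 fun g hg =>
    eq_of_smul_eq_smul (α := α) fun a => by rw [one_smul]; exact e.ge (Set.mem_univ a) ⟨g, hg⟩)
  rcases hs.eq_bot_or_eq_top_of_normal (N.subgroupOf (stabilizer G a)) inferInstance with e | e
  · exfalso
    have t : ∀ g : G, g ∈ N → g • a = a → g = 1 := fun g hg ha =>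
      congrArg Subtype.val (show (⟨g, ha⟩ : stabilizer G a) = 1 from e.le hg)
    have s : Nat.card N = 12 := by
      rw [← (stabilizer N a).card_mul_index, index_stabilizer_of_transitive, hα',
        show stabilizer N a = ⊥ from eq_bot_iff.2 fun g hg => Subtype.ext (t g g.2 hg), card_bot]
    have := Fact.mk Nat.prime_two
    have := Fact.mk Nat.prime_three
    obtain ⟨u, hu⟩ := exists_prime_orderOf_dvd_card' (G := N) 2 (by rw [s]; norm_num)
    obtain ⟨v, hv⟩ := exists_prime_orderOf_dvd_card' (G := N) 3 (by rw [s]; norm_num)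
    have n : ∀ w : N, orderOf w ≠ 1 → w.1 • a ≠ a := fun w hw ha => hw (orderOf_eq_one_iff.2 (Subtype.ext (t _ w.2 ha)))
    obtain ⟨k, hk⟩ := exists_smul_eq (stabilizer G a) (⟨u.1 • a, n u (by omega)⟩ : ofStabilizer G a) ⟨v.1 • a, n v (by omega)⟩
    have hk' : k.1 • u.1 • a = v.1 • a := congrArg Subtype.val hk
    have := t (v.1⁻¹ * (k.1 * u * k.1⁻¹)) (mul_mem (inv_mem v.2) (hN.conj_mem _ u.2 _)) (by
      rw [mul_smul, mul_smul, mul_smul, show k.1⁻¹ • a = a from (inv_mem k.2 :), hk', inv_smul_smul])
    have e2 : orderOf v.1 = orderOf u.1 := by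
      rw [inv_mul_eq_one.1 this]; exact (MulAut.conj k.1).orderOf_eq u.1
    rw [orderOf_coe, orderOf_coe] at e2
    omega
  · refine eq_top_iff.2 fun g _ => ?_
    obtain ⟨n, hn⟩ := exists_smul_eq N a (g • a)
    have : (⟨n.1⁻¹ * g, by rw [mem_stabilizer_iff, mul_smul, ← hn]; exact inv_smul_smul _ _⟩ : stabilizer G a) ∈ N.subgroupOf _ := e.ge (mem_top _)
    simpa using mul_mem n.2 (mem_subgroupOf.1 this)

end Cfsg.Agent.S0419
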