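import Cfsg.Statements.S0423
import Cfsg.Agent.H8.KJ2h
import Cfsg.Agent.H8.SJ2
-- import your own Cfsg.Agent.* helpers here

set_option autoImplicit false
set_option maxRecDepth 200000
open Cfsg

namespace Cfsg.Agent.S0423

/-- Existence of a simple group of order 604800. -/
theorem result : ∃ G : Subgroup (Equiv.Perm (Fin 100)), Cfsg.IsJ2 G := by
  
  haveI := H8.J2.simple
  exact ⟨H8.J2h.P, H8.J2h.K.iso.some.symm.isSimpleGroup, H8.J2h.card⟩

end Cfsg.Agent.S0423
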