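import Cfsg.Statements.S0428
import Cfsg.Agent.H4.SRG

set_option autoImplicit false
open Cfsg

namespace Cfsg.Agent.S0428

open scoped Pointwise


/-- The point-block graph of an S(3, 6, 22) is strongly regular with parameters (100, 22, 0, 6). -/
theorem result {α : Type*} [Fintype α] (hα : Fintype.card α = 22) {B : Set (Finset α)} (hB : Cfsg.IsSteinerSystem 3 6 B) [Fintype B] [DecidableRel (Cfsg.pointBlockGraph B).Adj] : (Cfsg.pointBlockGraph B).IsSRGWith 100 22 0 6 := by
  classical
  obtain ⟨C, hn, rfl⟩ := H8.StA.huq hα hB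
  exact H4.SRG.srg_of _ (H4.SRG.e100 C hn) _ (H4.SRG.adj100 C hn) H4.SRG.c100

end Cfsg.Agent.S0428
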