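import Cfsg.Statements.S0439


set_option autoImplicit false
open Cfsg

namespace Cfsg.Agent.S0439

open Equiv Equiv.Perm in

/-- In the symmetric group of degree n ≥ 2, the set of transpositions is a conjugacy class of 3-transpositions which generates the group. -/
theorem result (n : ℕ) (hn : 2 ≤ n) : Cfsg.IsThreeTranspositionClass {σ : Equiv.Perm (Fin n) | σ.IsSwap} := by
  refine ⟨⟨fun d hd => hd.orderOf, ?_⟩, ⟨swap ⟨0, by omega⟩ ⟨1, by omega⟩, ⟨_, _, by simp, rfl⟩, ?_⟩, closure_isSwap⟩
  · have k : ∀ a b c : Fin n, a ≠ b → a ≠ c → (swap a b * swap a c) ^ 2 = 1 ∨ (swap a b * swap a c) ^ 3 = 1 := by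
      intro a b c h1 h2
      by_cases h : b = c
      · subst h; simp
      · right
        rw [← (isThreeCycle_swap_mul_swap_same h1 h2 h).orderOf, pow_orderOf_eq_one]
    rintro _ ⟨a, b, hab, rfl⟩ _ ⟨c, d, hcd, rfl⟩
    by_cases h1 : a = c
    · subst h1; exact k a b d hab hcd
    by_cases h2 : a = d
    · subst h2; rw [swap_comm c]; exact k a b c hab hcd.symm
    by_cases h3 : b = c
    · subst h3; rw [swap_comm a]; exact k b a d hab.symm hcd
    by_cases h4 : b = d
    · subst h4; rw [swap_comm a, swap_comm c]; exact k b a c hab.symm hcd.symm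
    left
    have : Commute (swap a b) (swap c d) := by
      apply Disjoint.commute
      intro x
      by_cases hx : x = a ∨ x = b
      · right; rcases hx with rfl | rfl <;> exact swap_apply_of_ne_of_ne (by assumption) (by assumption)
      · push Not at hx; left; exact swap_apply_of_ne_of_ne hx.1 hx.2
    rw [this.mul_pow]; simp [pow_two]
  · ext σ
    constructor
    · rintro ⟨a, b, hab, rfl⟩
      exact isConj_swap (by simp) hab
    · intro h
      obtain ⟨g, rfl⟩ := isConj_iff.1 h
      exact ⟨_, _, g.injective.ne (by simp), (swap_apply_apply g _ _).symm⟩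

end Cfsg.Agent.S0439
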