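import Cfsg.Statements.S0440
import Cfsg.Agent.H5.T3

set_option autoImplicit false
open Cfsg

namespace Cfsg.Agent.S0440

open H5 H5.Form Module Matrix Subgroup

/-- In the symplectic group in dimension 2n ≥ 2 over the field with two elements, the elements g for which g - 1 has rank one (the symplectic transvections) form a conjugacy class of 3-transpositions generating the group. -/
theorem result (n : ℕ) (hn : 1 ≤ n) : Cfsg.IsThreeTranspositionClass {g : Matrix.symplecticGroup (Fin n) (ZMod 2) | ((g : Matrix (Fin n ⊕ Fin n) (Fin n ⊕ Fin n) (ZMod 2)) - 1).rank = 1} := by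
  have two : ∀ a : ZMod 2, a ≠ 0 → a = 1 := by decide
  have h := sympF_nondeg (F := ZMod 2) n
  have hD : ∀ g : Matrix.symplecticGroup (Fin n) (ZMod 2), (g.1 - 1).rank = 1 ↔
      ∃ p, p ≠ 0 ∧ ∀ z, (spEquiv n g).1 z = z - (1 * (sympF (ZMod 2) n).B z p) • p := fun g => by
    rw [rank_sub_one (spEquiv_apply n g)]
    refine ⟨fun H => ?_, fun ⟨p, hp, e⟩ => h.rank_of hp one_ne_zero e⟩
    obtain ⟨p, a, ha, p0, a0, e⟩ := h.rank_one (spEquiv n g).2 H
    obtain rfl := two a a0
    exact ⟨p, p0, fun z => by rw [e, refl_apply, inv_one]⟩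
  have hr : ∀ u hu hv ha, u ≠ 0 → (spEquiv n).symm ⟨_, (sympF (ZMod 2) n).eich_mem (u := u) (v := 0) (a := 1) hu hv ha⟩ ∈
      {g : Matrix.symplecticGroup (Fin n) (ZMod 2) | (g.1 - 1).rank = 1} := fun u hu hv ha u0 =>
    (hD _).2 ⟨u, u0, fun z => by rw [MulEquiv.apply_symm_apply, eich_apply]; simp [show (-1 : ZMod 2) = 1 from rfl, CharTwo.neg_eq, -sympF_B]⟩
  refine h.t3 ((sympF (ZMod 2) n).isom.subtype.comp (spEquiv n).toMonoidHom) (Subtype.val_injective.comp (spEquiv n).injective)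
    (fun g => (spEquiv n g).2) (· ≠ 0) one_ne_zero hD (fun p hp => ⟨hp, by rw [symp_self]; rfl⟩)
    (fun p q _ _ => ?_) (fun g p hp => (LinearEquiv.map_ne_zero_iff _).2 hp) (fun p q hp hq => ?_) ?_ ?_
  · rw [symp_symm _ q p]; generalize (sympF (ZMod 2) n).B q p = a; revert a; decide
  · obtain ⟨g, hg, e⟩ := h.exists_map hp hq (by simp [symp_Q])
    exact ⟨(spEquiv n).symm ⟨g, hg⟩, 1, by simp, by simpa using e⟩
  · exact ⟨_, hr (Pi.single (.inl ⟨0, hn⟩) 1) (symp_Q _ _) (by simp) (by simp) (by simp)⟩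
  · refine closure_eq_top_of_equiv (spEquiv n) h.symp_TG.ge ?_
    rintro _ ⟨u, a, hu, ha, rfl⟩
    by_cases c : u = 0 ∨ a = 0
    · exact ⟨1, one_mem _, LinearEquiv.ext fun z => by rcases c with rfl | rfl <;> simp [eich_apply, -sympF_B, -hermF_B]⟩
    obtain rfl := two a (not_or.1 c).2
    exact ⟨_, subset_closure (hr u hu (by simp) ha (not_or.1 c).1), by simp⟩


end Cfsg.Agent.S0440
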