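import Cfsg.Statements.S0442
import Cfsg.Agent.H9.Basic

set_option autoImplicit false
open Cfsg

namespace Cfsg.Agent.S0442

theorem inv_pow' {G : Type*} [Group G] {a b : G} (ha : a * a = 1) (hb : b * b = 1) (m : ℕ) :
    a * (a * b) ^ m * a = ((a * b) ^ m)⁻¹ ∧ b * (a * b) ^ m * b = ((a * b) ^ m)⁻¹ := by
  have ha' : a⁻¹ = a := inv_eq_of_mul_eq_one_left ha
  have hb' : b⁻¹ = b := inv_eq_of_mul_eq_one_left hb
  have h1 : a * (a * b) * a⁻¹ = (a * b)⁻¹ := by rw [← mul_assoc a a, ha, one_mul, mul_inv_rev, ha', hb']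
  have h2 : b * (a * b) * b⁻¹ = (a * b)⁻¹ := by rw [mul_inv_rev, ha', hb']; simp [mul_assoc, hb]
  constructor
  · rw [← inv_pow, ← h1, conj_pow, ha']
  · rw [← inv_pow, ← h2, conj_pow, hb']

theorem ev {G : Type*} [Group G] {a b : G} (ha : a * a = 1) (hb : b * b = 1) (m : ℕ) (h : (a * b) ^ (2 * m) = 1) :
    Commute ((a * b) ^ m) a := by
  have h1 := (inv_pow' ha hb m).1
  rw [two_mul, pow_add] at h
  rw [inv_eq_of_mul_eq_one_left h] at h1
  show _ * a = a * _
  conv_rhs => rw [← h1]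
  simp [← mul_assoc, ha]

/-- A standard trick for producing elements of an involution centraliser: for an involution a and an element g, let b be the conjugate g⁻¹ * a * g. If a * b has odd order 2m + 1 then g * (a * b) ^ m commutes with a; if a * b has even order 2m then (a * b) ^ m and (a * (g * a * g⁻¹)) ^ m commute with a. -/
theorem result {G : Type*} [Group G] (a g : G) (ha : orderOf a = 2) : (∀ m : ℕ, orderOf (a * (g⁻¹ * a * g)) = 2 * m + 1 → Commute (g * (a * (g⁻¹ * a * g)) ^ m) a) ∧ (∀ m : ℕ, orderOf (a * (g⁻¹ * a * g)) = 2 * m → Commute ((a * (g⁻¹ * a * g)) ^ m) a ∧ Commute ((a * (g * a * g⁻¹)) ^ m) a) := by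
  have h1 : a * a = 1 := by rw [← pow_two, ← ha, pow_orderOf_eq_one]
  have h2 : ∀ g : G, g⁻¹ * a * g * (g⁻¹ * a * g) = 1 := fun g => by
    simp [mul_assoc, ← mul_assoc a a, h1]
  refine ⟨fun m hm => ?_, fun m hm => ⟨ev h1 (h2 g) m (hm ▸ pow_orderOf_eq_one _), ev h1 (by simpa using h2 g⁻¹) m ?_⟩⟩
  · set b := g⁻¹ * a * g with hb
    have h3 := (inv_pow' h1 (h2 g) m).2
    have h4 := pow_orderOf_eq_one (a * b)
    rw [hm, two_mul, add_assoc, pow_add, pow_succ'] at h4
    have h5 : (a * b) ^ m * a = b * (a * b) ^ m := by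
      have e1 : (a * b) ^ m * a * (b * (a * b) ^ m) = 1 := by simpa [mul_assoc] using h4
      have e2 : b * (a * b) ^ m * (b * (a * b) ^ m) = 1 := by rw [← mul_assoc, hb, h3, inv_mul_cancel]
      exact mul_right_cancel (e1.trans e2.symm)
    show _ * a = a * _
    rw [mul_assoc, h5, hb]; group
  · have h4 := pow_orderOf_eq_one (a * (g⁻¹ * a * g))
    rw [hm] at h4
    have : a * (g * a * g⁻¹) = (g * a⁻¹) * (a * (g⁻¹ * a * g)) * (g * a⁻¹)⁻¹ := by group
    rw [this, conj_pow, h4]; simp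

end Cfsg.Agent.S0442
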