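import Cfsg.Statements.S0443
import Cfsg.Agent.H9.Syl

set_option autoImplicit false
open Cfsg

namespace Cfsg.Agent.S0443

open Subgroup H9 in

/-- Two definitions of a 2-central involution agree: an element t of order 2 of a finite group lies in the centre of some Sylow 2-subgroup if and only if its centraliser contains some Sylow 2-subgroup. -/
theorem result {G : Type*} [Group G] [Finite G] (t : G) (ht : orderOf t = 2) : Cfsg.IsTwoCentralInvolution t ↔ ∃ P : Sylow 2 G, (P : Subgroup G) ≤ Subgroup.centralizer ({t} : Set G) := by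
  constructor
  · rintro ⟨-, P, -, h⟩
    exact ⟨P, fun x hx y hy => by rw [hy]; exact (h x hx).symm⟩
  · rintro ⟨P, h⟩
    refine ⟨ht, P, ?_, fun x hx => (h hx t rfl).symm⟩
    have h1 : IsPGroup 2 (zpowers t) := IsPGroup.of_card (n := 1) (by rw [Nat.card_zpowers, ht]; rfl)
    refine (syl_top_of_sylow P).le_of_le_normalizer h1 le_top (Or.inl (zpowers_le.2 ?_)) (mem_zpowers t)
    exact centralizer_le_normalizer _ (fun x hx => (h hx t rfl).symm)

end Cfsg.Agent.S0443
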