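import Cfsg.Statements.S0444
import Cfsg.Agent.H2.Tt3

set_option autoImplicit false
open Cfsg

namespace Cfsg.Agent.S0444

/-- Two members of a set of 3-transpositions which do not commute generate a subgroup isomorphic to the symmetric group on three letters. -/
theorem result {G : Type*} [Group G] {E : Set G} (hE : Cfsg.IsThreeTranspositionSet E) {d e : G} (hd : d ∈ E) (he : e ∈ E) (h : ¬ Commute d e) : Nonempty (Subgroup.closure ({d, e} : Set G) ≃* Equiv.Perm (Fin 3)) := by
  exact H2T.sym3 (H7.tset_sq hE hd) (H7.tset_sq hE he) (H2T.wbraid hE hd he h) (fun e => h (e ▸ Commute.refl d))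

end Cfsg.Agent.S0444
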