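import Cfsg.Statements.S0446


set_option autoImplicit false
open Cfsg

namespace Cfsg.Agent.S0446

/-- Every finite group of even order contains a 2-central involution, i.e. an element of order 2 in the centre of some Sylow 2-subgroup. -/
theorem result {G : Type*} [Group G] [Finite G] (h : Even (Nat.card G)) : ∃ t : G, Cfsg.IsTwoCentralInvolution t := by
  obtain ⟨P⟩ : Nonempty (Sylow 2 G) := inferInstance
  have hP : Nontrivial P := by
    rw [← Finite.one_lt_card_iff_nontrivial, P.card_eq_multiplicity]
    refine Nat.one_lt_pow ?_ (by norm_num)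
    exact (Nat.prime_two.factorization_pos_of_dvd Nat.card_pos.ne' h.two_dvd).ne'
  have hZ := P.2.center_nontrivial
  obtain ⟨k, hk⟩ := (P.2.to_subgroup (Subgroup.center P)).exists_card_eq
  have hk0 : k ≠ 0 := by
    rintro rfl
    exact absurd (Finite.one_lt_card_iff_nontrivial.2 hZ) (by simp [hk])
  obtain ⟨z, hz⟩ := exists_prime_orderOf_dvd_card' (G := Subgroup.center P) 2 (hk ▸ dvd_pow_self 2 hk0)
  refine ⟨z, by rw [Subgroup.orderOf_coe, Subgroup.orderOf_coe, hz], P, z.1.2, fun x hx => ?_⟩
  exact congrArg Subtype.val (Subgroup.mem_center_iff.1 z.2 ⟨x, hx⟩)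

end Cfsg.Agent.S0446
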