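import Cfsg.Statements.S0458
import Cfsg.Agent.H8.SJ3
-- import your own Cfsg.Agent.* helpers here

set_option autoImplicit false
open Cfsg

namespace Cfsg.Agent.S0458

/-- Janko's third group exists as a transitive permutation group of degree 6156 with point stabiliser of order 8160: a simple group of order 50232960. -/
theorem result : ∃ H : Subgroup (Equiv.Perm (Fin 6156)), Cfsg.IsJ3 H ∧ MulAction.IsPretransitive H (Fin 6156) ∧ Nat.card (MulAction.stabilizer H (0 : Fin 6156)) = 8160 := by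
  have tr : ∀ p : Fin 6156, ∃ g : H8.J3.P, g • p = Fin.ofNat 6156 0 := fun p => by
    obtain ⟨g, -, h⟩ := H8.forest_one ⊤ (fun y _ => ⟨_, trivial, H8.J3.slets.rep y⟩)
      (H8.allR_iff.1 H8.J3.sconn0 0 (by omega) (by omega)) p.2
    exact ⟨g, by rwa [H8.ofNat_coe] at h⟩
  haveI : MulAction.IsPretransitive H8.J3.P (Fin 6156) := ⟨fun p q => by
    obtain ⟨g, hg⟩ := tr p
    obtain ⟨g', hg'⟩ := tr q
    exact ⟨g'⁻¹ * g, by rw [mul_smul, hg, ← hg', inv_smul_smul]⟩⟩
  refine ⟨H8.J3.P, ⟨H8.J3.simple, H8.J3.card⟩, inferInstance, ?_⟩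
  have := (MulAction.stabilizer H8.J3.P (0 : Fin 6156)).index_mul_card
  rw [MulAction.index_stabilizer_of_transitive, H8.J3.card, Nat.card_eq_fintype_card, Fintype.card_fin] at this
  omega

end Cfsg.Agent.S0458
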