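import Cfsg.Statements.S0459
import Cfsg.Agent.H8.YRu
import Cfsg.Agent.H8.SRu
import Cfsg.Agent.H8.STi
-- import your own Cfsg.Agent.* helpers here

set_option autoImplicit false
set_option maxRecDepth 200000
open Cfsg

namespace Cfsg.Agent.S0459

theorem key {G H : Type*} [Group G] [Group H] {N K : Subgroup G} (h : N ≤ K) (e : Nonempty (H ≃* N)) (h1 : IsSimpleGroup H)
    (h2 : Nat.card H = 17971200) : ∃ T : Subgroup K, IsTits T :=
  have e := e.some.trans (Subgroup.subgroupOfEquivOfLe h).symm
  ⟨_, e.symm.isSimpleGroup, (Nat.card_congr e.toEquiv).symm.trans h2⟩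

/-- The Rudvalis group exists as a transitive permutation group of degree 4060: simple of order 145926144000, with point stabiliser of order 35942400 containing a simple subgroup of order 17971200 (the order of the Tits group). -/
theorem result : ∃ H : Subgroup (Equiv.Perm (Fin 4060)), Cfsg.IsRu H ∧ MulAction.IsPretransitive H (Fin 4060) ∧ Nat.card (MulAction.stabilizer H (0 : Fin 4060)) = 35942400 ∧ ∃ T : Subgroup (MulAction.stabilizer H (0 : Fin 4060)), Cfsg.IsTits T := by
  have tr := H8.Ru.trans
  obtain ⟨N, h, e⟩ := H8.Ru.tits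
  refine ⟨H8.Ru.P, ⟨H8.Ru.simple, H8.Ru.card⟩, tr, ?_, key h e H8.Ti.simple H8.Ti.card⟩
  have := (MulAction.stabilizer H8.Ru.P (0 : Fin 4060)).index_mul_card
  rw [MulAction.index_stabilizer_of_transitive, H8.Ru.card, Nat.card_eq_fintype_card, Fintype.card_fin] at this
  omega

end Cfsg.Agent.S0459
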