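import Cfsg.Statements.S0460
import Cfsg.Agent.H8.ON.H0
-- import your own Cfsg.Agent.* helpers here

set_option autoImplicit false
set_option maxRecDepth 200000
open Cfsg

namespace Cfsg.Agent.S0460

/-- The O'Nan group exists as a transitive permutation group of degree 122760: simple of order 460815505920, point stabiliser of order 3753792, and containing simple subgroups of orders 175560 and 7920. -/
theorem result : ∃ H : Subgroup (Equiv.Perm (Fin 122760)), Cfsg.IsON H ∧ MulAction.IsPretransitive H (Fin 122760) ∧ Nat.card (MulAction.stabilizer H (0 : Fin 122760)) = 3753792 ∧ (∃ K : Subgroup H, Cfsg.IsJ1 K) ∧ (∃ K : Subgroup H, Cfsg.IsM11 K) := by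
  have := H8.ON.top_ON.1
  have := H8.ON.simple_ON
  obtain ⟨f, hf, tr⟩ := H8.ON.perm_rep _ H8.ON.stab_ON.2 (by norm_num)
  have e := MonoidHom.ofInjective hf
  have c : Nat.card f.range = 460815505920 := (Nat.card_congr e.toEquiv).symm.trans H8.ON.top_ON.2.1
  refine ⟨f.range, ⟨e.symm.isSimpleGroup, c⟩, tr, ?_, ?_, ?_⟩
  · have := (MulAction.stabilizer f.range (0 : Fin 122760)).index_mul_card
    rw [MulAction.index_stabilizer_of_transitive, c, Nat.card_eq_fintype_card, Fintype.card_fin] at this
    omega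
  · have := H8.J1.simple
    obtain ⟨φ, h⟩ := H8.ON.emb_J1
    obtain ⟨K, h1, h2⟩ := H8.ON.sub_range h hf
    exact ⟨K, h1, h2.trans H8.J1.card⟩
  · have : IsSimpleGroup H8.M11.P := have := H7.isM11.1; H8.isoM11.some.symm.isSimpleGroup
    obtain ⟨φ, h⟩ := H8.ON.emb_M11
    obtain ⟨K, h1, h2⟩ := H8.ON.sub_range h hf
    exact ⟨K, h1, h2.trans H8.M11.card⟩

end Cfsg.Agent.S0460
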