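import Cfsg.Statements.S0471
import Cfsg.Agent.H7.Inv22
import Cfsg.Agent.H7.FM7

set_option autoImplicit false
open Cfsg

namespace Cfsg.Agent.S0471

open H7 H7.T

/-- The Fischer group of order 64561751654400 exists as a 3-transposition group: a simple group of that order generated by a conjugacy class of 3510 3-transpositions, the centraliser of each being a non-split double cover of PSU(6, 2). -/
theorem result : ∃ (G : Type) (_ : Group G) (_ : Finite G), Cfsg.IsFi22 G ∧ ∃ D : Set G, Cfsg.IsThreeTranspositionClass D ∧ Nat.card D = 3510 ∧ ∀ d ∈ D, ∃ (F : Type) (_ : Field F) (_ : Fintype F), Fintype.card F = 4 ∧ Cfsg.IsNonsplitDoubleCover (Subgroup.centralizer ({d} : Set G)) (Cfsg.PSU 6 F 2) := by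
  refine ⟨_, _, F22.fin, ⟨simple22 F22, F22.card⟩, F22.D, F22.isCls (trD22 F22) (by decide), F22.ncard_D, fun d hd => ?_⟩
  obtain ⟨K, _, _, h, ⟨e⟩⟩ := psuU FU
  exact ⟨K, _, _, h, nsdc_congr e ((loc22 F22 FU d hd).nsdc FU (F22.t3.order hd) (qs22 F22 hd))⟩

end Cfsg.Agent.S0471
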