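import Cfsg.Statements.S0481
import Cfsg.Agent.H9.Syl

set_option autoImplicit false
open Cfsg

namespace Cfsg.Agent.S0481

open Subgroup H9 in

/-- Large extraspecial subgroups: let z be an involution of a finite group G whose centraliser C contains a normal 2-subgroup Q with centre of order 2 and all squares central, such that every element of G centralising Q lies in Q. Then C contains a Sylow 2-subgroup of G, and any involution of G whose centraliser contains a Sylow 2-subgroup of G is conjugate to z. -/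
theorem result {G : Type*} [Group G] [Finite G] (z : G) (hz : orderOf z = 2) (Q : Subgroup G) (hQC : Q ≤ Subgroup.centralizer ({z} : Set G)) (hQn : ∀ g ∈ Subgroup.centralizer ({z} : Set G), ∀ q ∈ Q, g * q * g⁻¹ ∈ Q) (hQ2 : IsPGroup 2 Q) (hZ : Nat.card (Subgroup.center Q) = 2) (hsq : ∀ x : Q, x ^ 2 ∈ Subgroup.center Q) (hlarge : Subgroup.centralizer (Q : Set G) ≤ Q) : (∃ P : Sylow 2 G, (P : Subgroup G) ≤ Subgroup.centralizer ({z} : Set G)) ∧ ∀ u : G, orderOf u = 2 → (∃ P : Sylow 2 G, (P : Subgroup G) ≤ Subgroup.centralizer ({u} : Set G)) → IsConj z u := by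
  have hzQ : z ∈ centralizer (Q : Set G) := fun q hq => (hQC hq z rfl).symm
  have hz1 : z ≠ 1 := by rintro rfl; simp at hz
  have hc : ∀ y ∈ centralizer (Q : Set G), y ≠ 1 → y = z := by
    intro y hy hy1
    have m : ∀ y (hy : y ∈ centralizer (Q : Set G)), (⟨y, hlarge hy⟩ : Q) ∈ center Q := fun y hy =>
      mem_center_iff.2 fun q => Subtype.ext (hy q q.2)
    obtain ⟨w, -, hw⟩ := (Nat.card_eq_two_iff' (1 : center Q)).1 hZ
    have h1 := hw ⟨_, m y hy⟩ (fun h => hy1 (congrArg (fun x : center Q => ((x : Q) : G)) h))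
    have h2 := hw ⟨_, m z hzQ⟩ (fun h => hz1 (congrArg (fun x : center Q => ((x : Q) : G)) h))
    exact congrArg (fun x : center Q => ((x : Q) : G)) (h1.trans h2.symm)
  obtain ⟨S, hS, hQS⟩ := exists_syl_ge hQ2 hQC
  have hzS : z ∈ S := hQS (hlarge hzQ)
  have hS' : Syl 2 S ⊤ := by
    refine Syl.of_normalizer (syl_of_maximal hS.isP (le_inf le_top le_normalizer) fun T hT h1 h2 => ?_)
    refine (hS.maximal hT (fun g hg => ?_) h2).le
    have hg' := (h1 hg).2
    have : g * z * g⁻¹ = z := by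
      refine hc _ (fun q hq => ?_) (by simpa using hz1)
      have h3 := hS.le ((mem_normalizer_iff.1 (inv_mem hg') q).1 (hQS hq)) z rfl
      calc q * (g * z * g⁻¹) = g * (g⁻¹ * q * g⁻¹⁻¹ * z) * g⁻¹ := by group
        _ = _ := by rw [← h3]; group
    intro y hy; rw [hy]; exact (mul_inv_eq_iff_eq_mul.1 this).symm
  obtain ⟨P, hP⟩ := hS'.exists_sylow_top
  refine ⟨⟨P, hP ▸ hS.le⟩, fun u hu ⟨R, hR⟩ => ?_⟩
  obtain ⟨g, -, hg⟩ := hS'.conj (syl_top_of_sylow R)
  have : g⁻¹ * u * g = z := by
    refine hc _ (fun q hq => ?_) (fun h => ?_)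
    · have h3 := hR (hg.le (mem_map_of_mem _ (hQS hq))) u rfl
      simp only [MulEquiv.toMonoidHom_eq_coe, MonoidHom.coe_coe, MulAut.conj_apply] at h3
      calc q * (g⁻¹ * u * g) = g⁻¹ * (g * q * g⁻¹ * u) * g := by group
        _ = _ := by rw [← h3]; group
    · have : u = 1 := by simpa [mul_assoc] using congrArg (fun x => g * x * g⁻¹) h
      rw [this] at hu; simp at hu
  exact isConj_iff.2 ⟨g, by rw [← this]; group⟩

end Cfsg.Agent.S0481
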