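import Cfsg.Statements.S0497
import Cfsg.Agent.H3.Ord6

set_option autoImplicit false
open Cfsg

namespace Cfsg.Agent.S0497

open H3

/-- A simple group of order 360 is isomorphic to the alternating group of degree 6. -/
theorem result {G : Type*} [Group G] [Finite G] [IsSimpleGroup G]
    (h : Nat.card G = 360) : Nonempty (G ≃* alternatingGroup (Fin 6)) := by
  haveI : Fact (Nat.Prime 5) := ⟨by norm_num⟩
  have hG : ¬ IsMulCommutative G := fun c => absurd (h ▸ H1.prime_card_of_comm c.1.1) (by norm_num)
  obtain ⟨F, _, _, a, e⟩ := psl_72 hG (p := 5) (s := 19) le_rfl h (by norm_num) (by norm_num) (by decide +kernel) (by decide +kernel)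
  have := ord_card_psl e
  rcases a with a | a | a
  · rw [a, h] at this; simp at this
  · rw [a, h] at this; simp at this
  · exact ⟨e.some.trans (Cfsg.Agent.S0254.result a).some⟩

end Cfsg.Agent.S0497
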