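import Cfsg.Statements.S0502
import Cfsg.Agent.H1.MC
import Cfsg.Agent.H1.Frattini

set_option autoImplicit false
open Cfsg

namespace Cfsg.Agent.S0502

open Subgroup in

/-- If a finite 2-group has a normal elementary abelian subgroup of order at least 8, then any two of its Klein
four-subgroups are joined by a chain of Klein four-subgroups with consecutive members commuting elementwise. -/
theorem result {P : Type*} [Group P] [Finite P] (hP : IsPGroup 2 P)
    (E : Subgroup P) [E.Normal] (hE : IsMulCommutative E) (hE2 : ∀ e ∈ E, e ^ 2 = 1) (hE8 : 8 ≤ Nat.card E) :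
    Cfsg.IsFourConnected P := by
  have hEb : (⊥ : Subgroup P) < E := bot_lt_iff_ne_bot.2 fun e => by rw [e, card_bot] at hE8; omega
  obtain ⟨z, hz, hz1, hzc⟩ := H1.exists_central_mod (L := ⊤) (hP.to_subgroup ⊤).isNilpotent hEb le_top
    le_normalizer_of_normal le_normalizer_of_normal
  have hz1' : z ≠ 1 := by simpa using hz1
  have hzc' : ∀ g, Commute z g := fun g => by
    have := hzc g trivial
    rw [mem_bot] at this
    exact commutatorElement_eq_one_iff_commute.1 this
  have o2 : ∀ e ∈ E, e ≠ 1 → orderOf e = 2 := fun e he h => orderOf_eq_prime (hE2 e he) h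
  have cE : ∀ a ∈ E, ∀ b ∈ E, a * b = b * a := fun a ha b hb =>
    congrArg Subtype.val (hE.is_comm.comm ⟨a, ha⟩ ⟨b, hb⟩)
  have cs : ∀ a b c : P, Commute c a → Commute c b → ∀ x ∈ zpowers a ⊔ zpowers b, Commute c x := by
    intro a b c h1 h2 x hx
    have : zpowers a ⊔ zpowers b ≤ centralizer {c} := sup_le (zpowers_le.2 fun y hy => hy ▸ h1)
      (zpowers_le.2 fun y hy => hy ▸ h2)
    exact this hx c rfl
  have key : ∀ U : Subgroup P, IsKleinFour U → ∃ A B : Subgroup P, IsKleinFour A ∧ IsKleinFour B ∧ B ≤ E ∧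
      (∀ a ∈ U, ∀ b ∈ A, a * b = b * a) ∧ (∀ a ∈ A, ∀ b ∈ B, a * b = b * a) := by
    intro U hU
    obtain ⟨v, hv, hv1, hvz⟩ := H1.klein_exists_ne hU z
    have hv2 := H1.klein_sq hU hv
    obtain ⟨e, he, h1, h2, h3⟩ : ∃ e ∈ E, e ≠ 1 ∧ e ≠ z ∧ Commute v e := by
      by_contra h
      push Not at h
      have h' : ∀ e ∈ E, Commute v e → e ∈ zpowers z := fun e he hc => by
        by_cases h1 : e = 1
        · simp [h1]
        by_cases h2 : e = z
        · simp [h2]
        exact absurd hc (h e he h1 h2)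
      have hn : ∀ e ∈ E, v * e * v⁻¹ ∈ E := fun e he => Normal.conj_mem inferInstance e he v
      let f : E →* P := MonoidHom.mk' (fun e => e * (v * e * v⁻¹)) (fun a b => by
        have := cE _ b.2 _ (hn a a.2)
        simp only [coe_mul]
        calc _ = (a : P) * (b * (v * a * v⁻¹)) * (v * b * v⁻¹) := by group
          _ = _ := by rw [this]; group)
      have c2 : Nat.card (zpowers z) = 2 := by rw [Nat.card_zpowers, o2 z hz hz1']
      have k1 : Nat.card f.range ≤ 2 := c2 ▸ card_le_of_le (by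
        rintro _ ⟨e, rfl⟩
        refine h' _ (E.mul_mem e.2 (hn e e.2)) ?_
        show v * (e * (v * e * v⁻¹)) = e * (v * e * v⁻¹) * v
        conv_lhs => rw [cE _ e.2 _ (hn e e.2)]
        rw [inv_eq_of_mul_eq_one_left hv2]
        simp [mul_assoc, hv2, ← mul_assoc v v])
      have k2 : Nat.card f.ker ≤ 2 := by
        rw [← c2, ← card_map_of_injective E.subtype_injective]
        refine card_le_of_le ?_
        rintro _ ⟨e, he, rfl⟩
        refine h' _ e.2 ?_
        have h1 : (e : P) * (v * e * v⁻¹) = 1 := he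
        have h2 : (e : P) * e = 1 := by rw [← pow_two]; exact hE2 _ e.2
        exact mul_inv_eq_iff_eq_mul.1 (mul_left_cancel (h1.trans h2.symm))
      have k3 := f.ker.card_mul_index
      rw [index_ker] at k3
      nlinarith
    refine ⟨_, _, H1.isKleinFour_sup (orderOf_eq_prime (by rw [pow_two, hv2]) hv1) (o2 z hz hz1') hvz (hzc' v).symm,
      H1.isKleinFour_sup (o2 e he h1) (o2 z hz hz1') h2 (hzc' e).symm, sup_le (zpowers_le.2 he) (zpowers_le.2 hz),
      fun a ha => cs _ _ a (congrArg Subtype.val ((H1.klein_comm hU).is_comm.comm ⟨a, ha⟩ ⟨v, hv⟩)) (hzc' a).symm,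
      fun a ha => cs _ _ a (cs _ _ e h3.symm (hzc' e).symm a ha).symm (hzc' a).symm⟩
  intro U V hU hV
  obtain ⟨A, B, h1, h2, h3, h4, h5⟩ := key U hU
  obtain ⟨A', B', k1, k2, k3, k4, k5⟩ := key V hV
  refine .head ⟨hU, h1, h4⟩ (.head ⟨h1, h2, h5⟩ (.head ⟨h2, k2, fun a ha b hb => cE a (h3 ha) b (k3 hb)⟩
    (.head ⟨k2, k1, fun a ha b hb => (k5 b hb a ha).symm⟩ (.single ⟨k1, hV, fun a ha b hb => (k4 b hb a ha).symm⟩))))

end Cfsg.Agent.S0502
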