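import Cfsg.Statements.S0505
import Cfsg.Agent.H2.Loc2

set_option autoImplicit false
open Cfsg

namespace Cfsg.Agent.S0505

open Subgroup H9 H2L

/-- Let G be a finite group of even order in which the centralizer of every involution is solvable and has trivial
core (no nontrivial normal subgroup of odd order). Then G is of characteristic 2 type. -/
theorem result {G : Type*} [Group G] [Finite G]
    (h2 : Even (Nat.card G))
    (hs : ∀ t : G, orderOf t = 2 → Group.IsSolvable (Subgroup.centralizer ({t} : Set G)))
    (hc : ∀ t : G, orderOf t = 2 → Cfsg.oddCore (Subgroup.centralizer ({t} : Set G)) = ⊥) :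
    Cfsg.IsCharacteristicTwoType G := by
  haveI : Fact (Nat.Prime 2) := ⟨Nat.prime_two⟩
  refine ⟨h2, fun T hT hb => ?_⟩
  refine char_iff.mp (norm_of_elements (p := 2) (fun z hz => ?_) hT hb)
  rw [Fst_eq_Op_iff']
  exact ⟨Lay_eq_bot_of_solvable (hs z hz), Op'_eq_bot_iff.mpr (hc z hz)⟩

end Cfsg.Agent.S0505
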