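import Cfsg.Statements.S0508
import Cfsg.Agent.H3.Dih

set_option autoImplicit false
open Cfsg

namespace Cfsg.Agent.S0508

/-- Let G be a finite simple group with a dihedral Sylow 2-subgroup S (of order at least 4), t an involution in the
centre of S, C the centralizer of t and O the core of C (its largest normal subgroup of odd order). Suppose that: if O
is nontrivial then the centralizer of O in S is cyclic of index 2 in S; every element of S not centralizing O inverts
every element of O; and the normalizer of every nontrivial subgroup of O lies in C. Then G is isomorphic to a projective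
special linear group of dimension 2 over a field of odd order. -/
theorem result {G : Type*} [Group G] [Finite G] [IsSimpleGroup G] (S : Sylow 2 G) (n : ℕ)
    (hn : 2 ≤ n) (hS : Nonempty ((S : Subgroup G) ≃* DihedralGroup n)) (t : G) (ht : orderOf t = 2)
    (htS : t ∈ (S : Subgroup G))
    (htZ : ∀ s ∈ (S : Subgroup G), s * t = t * s) (O : Subgroup G)
    (hO : O = (Cfsg.oddCore (Subgroup.centralizer ({t} : Set G))).map (Subgroup.centralizer ({t} : Set G)).subtype)
    (ha : O ≠ ⊥ → IsCyclic ((S : Subgroup G) ⊓ Subgroup.centralizer (O : Set G) : Subgroup G) ∧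
      ((S : Subgroup G) ⊓ Subgroup.centralizer (O : Set G)).relIndex (S : Subgroup G) = 2)
    (hb : ∀ s ∈ (S : Subgroup G), s ∉ Subgroup.centralizer (O : Set G) → ∀ y ∈ O, s * y * s⁻¹ = y⁻¹)
    (hc : ∀ Y : Subgroup G, Y ≤ O → Y ≠ ⊥ → Subgroup.normalizer (Y : Set G) ≤ Subgroup.centralizer ({t} : Set G)) :
    ∃ (F : Type) (_ : Field F) (_ : Fintype F), Odd (Fintype.card F) ∧ Nonempty (G ≃* Matrix.ProjectiveSpecialLinearGroup (Fin 2) F) := by
  open H9 Subgroup in
  have s := syl_top_of_sylow S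
  have h := H3.dh_of S hn hS
  obtain ⟨a, b, d⟩ := h.ds ht htS htZ
  rw [Op'_eq] at hO
  have c : O ⊔ S = centralizer {t} := hO ▸ (h.npc s ht).eq_sup (s.mono (fun x hx => mem_centralizer_singleton_iff.2 (htZ x hx)) le_top)
  have k : a ∈ centralizer (O : Set G) ∧ ∀ y ∈ O, b * y * b⁻¹ = y⁻¹ := by
    by_cases o : O = ⊥
    · simp [o, mem_centralizer_iff]
    obtain ⟨c1, c2⟩ := ha o
    obtain ⟨r, e⟩ := (isCyclic_iff_exists_zpowers_eq_top).1 c1
    have e2 : zpowers (r : G) = (S : Subgroup G) ⊓ centralizer (O : Set G) := by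
      rw [← subtype_apply, ← MonoidHom.map_zpowers, e, map_top_subtype]
    have e3 : (S : Subgroup G) ⊓ centralizer (O : Set G) ≤ zpowers a := e2 ▸ zpowers_le.2 (by_contra fun f => by
      have t1 : t ∈ zpowers (r : G) := e2.ge ⟨htS, fun y hy => mem_centralizer_singleton_iff.1 (c.le (mem_sup_left hy))⟩
      rcases (H1.mem_zpowers_two (H1.two_of (d.out_sq r.2.1 f) fun e => f (e ▸ one_mem _))).1 t1 with e | e
      exacts [H1.two_ne ht e, f (e ▸ d.ta)])
    refine ⟨by_contra fun f => d.nb ?_, hb b d.hb fun f => d.nb (e3 ⟨d.hb, f⟩)⟩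
    exact ((zpowers a).mul_mem_cancel_left (mem_zpowers a)).1 (e3 (L.mul_mem_of_relIndex_two c2 d.ha d.hb (f ·.2) fun f => d.nb (e3 f)))
  obtain ⟨F, _, _, e, f⟩ := (d.bsw ht S.isPGroup' (hO ▸ Op'_cop 2 _) c k.1 k.2 hc fun u =>
    h.cj_all s (H3.no_index_two (d.two_lt ht)) ht).psl
  exact ⟨F, _, _, e.elim (fun e => ⟨_, e⟩) fun e => Nat.odd_iff.2 (by omega), f⟩

end Cfsg.Agent.S0508
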