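import Cfsg.Statements.S3757
import Cfsg.Agent.H1.Sig6

set_option autoImplicit false
open Cfsg

namespace Cfsg.Agent.S3757

open H1

/-- Let A and G be subgroups of a finite group with A an elementary abelian p-group of rank at least 3 (order at least p³) normalizing G, and G of order prime to p. If C_G(a) is solvable for every non-identity a ∈ A, then G is solvable. -/
theorem result {X : Type*} [Group X] [Finite X] {p : ℕ} [Fact p.Prime] (A G : Subgroup X) (hA : Cfsg.IsElementaryAbelian p A) (hrank : p ^ 3 ≤ Nat.card A) (hAG : A ≤ Subgroup.normalizer (G : Set X)) (hG : (Nat.card G).Coprime p) (hsol : ∀ a ∈ A, a ≠ 1 → Group.IsSolvable ↥(G ⊓ Subgroup.centralizer ({a} : Set X))) : Group.IsSolvable G := by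
  have h : SF p A fun a => G ⊓ Subgroup.centralizer {a} := ⟨hA, fun _ _ _ => inf_le_right,
    fun _ _ _ => H9.cop_of_le hG inf_le_left, fun a ha _ => H9.normalizer_inf hAG (le_normalizer_cent1 hA.1 ha), hsol,
    fun _ _ _ _ _ _ => inf_le_inf_right _ inf_le_left⟩
  refine isSolvable_of_le (gen_pt hA hAG hG ((Nat.pow_le_pow_right (Fact.out : p.Prime).pos (by norm_num)).trans hrank)
    fun a h1 h2 => le_clo (θ := fun a => G ⊓ Subgroup.centralizer {a}) h1 h2) ((h.compl hrank).mem h).sol

end Cfsg.Agent.S3757
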