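import Cfsg.Statements.S0518
import Cfsg.Agent.H9.JC6

set_option autoImplicit false
open Cfsg

namespace Cfsg.Agent.S0518

/-- Let G be a finite group of characteristic 2 type with trivial 2-core in which every 2-local subgroup is solvable
and, for every Sylow 2-subgroup S, the centralizer of the set of central involutions of S lies in the normalizer of S.
Then either G has a strongly embedded subgroup, or the subgroup generated by the elements of odd order has two distinct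
maximal 2-local subgroups, each isomorphic to the symmetric group of degree 4, whose intersection has order 8. -/
theorem result {G : Type*} [Group G] [Finite G]
    (hL : Cfsg.IsCharacteristicTwoType G) (hO : Cfsg.pCore 2 G = ⊥)
    (hN : ∀ N : Subgroup G, Cfsg.IsTwoLocal N → Group.IsSolvable N)
    (hZ : ∀ S : Sylow 2 G,
      Subgroup.centralizer {z : G | z ∈ (S : Subgroup G) ∧ z ^ 2 = 1 ∧ ∀ s ∈ (S : Subgroup G), s * z = z * s} ≤
        Subgroup.normalizer ((S : Subgroup G) : Set G))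
    (H : Subgroup G) (hH : H = Subgroup.closure {g : G | Odd (orderOf g)}) :
    (∃ K : Subgroup G, Cfsg.IsStronglyEmbedded K) ∨
      ∃ M₁ M₂ : Subgroup H, M₁ ≠ M₂ ∧ Cfsg.IsMaximalTwoLocal M₁ ∧ Cfsg.IsMaximalTwoLocal M₂ ∧
        Nonempty (M₁ ≃* Equiv.Perm (Fin 4)) ∧ Nonempty (M₂ ≃* Equiv.Perm (Fin 4)) ∧ Nat.card ↥(M₁ ⊓ M₂) = 8 := by
  open H9 Subgroup in open scoped commutatorElement in
  have z : JC.ZN G := JC.zn_of hL hN fun S => le_trans (centralizer_le fun x hx =>
    mem_OZ.2 ⟨hx.1, hx.2.2, hx.2.1⟩) (hZ S)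
  have o := (Op_top 2).trans hO
  obtain rfl : H = Ores 2 ⊤ := hH.trans ((congrArg Subgroup.closure (by simp)).trans JC.odd_eq)
  obtain ⟨S, s⟩ := exists_syl (p := 2) (⊤ : Subgroup G)
  have t := JC.tl_of (s.isP.to_le (JE_le 2 S)) (JC.J_ne s.isP (s.ne_bot (by simpa using hL.1.two_dvd)))
  by_cases e : ∀ T, T ∉ straddlingTwoSubgroups (normalizer (JE 2 S : Set G))
  · exact .inl ⟨_, emb_iff_spe.2 (JC.spe_of o t e)⟩
  push Not at e
  obtain ⟨T, e⟩ := e
  obtain ⟨T, e⟩ := JC.exists_mx e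
  obtain ⟨K, K', p⟩ := e.pair z o ⟨S, s, le_rfl⟩
  obtain ⟨a1, a2, a3, ⟨a4⟩⟩ := p.fin z
  obtain ⟨-, -, b3, ⟨b4⟩⟩ := p.symm.fin z
  refine .inr ⟨_, _, fun f => p.ne (p.g.eqL p.g' ?_), a3, b3, ⟨?_⟩, ⟨?_⟩, ?_⟩
  · exact (le_inf le_sup_left (p.g'.jk.ores.ge.trans (Ores_mono le_top))).trans ((subgroupOf_inj.1 f).ge.trans inf_le_left)
  · rw [← inf_subgroupOf_right]; exact (subgroupOfEquivOfLe inf_le_right).trans a4
  · rw [← inf_subgroupOf_right]; exact (subgroupOfEquivOfLe inf_le_right).trans b4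
  · rw [← a2, ← a1, ← card_subgroupOf (inf_le_right : T ⊓ _ ≤ _), inf_subgroupOf_right]
    change Nat.card (((K ⊔ T) ⊓ (K' ⊔ T)).subgroupOf _) = _
    rw [p.g.inf z p.c p.g' p.ne]

end Cfsg.Agent.S0518
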