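import Cfsg.Statements.S0519
import Cfsg.Agent.L.PG3
import Mathlib

set_option autoImplicit false
open Cfsg

namespace Cfsg.Agent.S0519

open Subgroup

/-- Let P be a finite p-group in which every abelian normal subgroup is cyclic, but which has a non-cyclic abelian
subgroup. Then p = 2 and P is generalized quaternion, dihedral of order at least 16, or quasi-dihedral. -/
theorem result {P : Type*} [Group P] [Finite P] (p : ℕ) [Fact p.Prime]
    (hP : IsPGroup p P) (hn : ∀ A : Subgroup P, A.Normal → IsMulCommutative A → IsCyclic A)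
    (hm : ∃ B : Subgroup P, IsMulCommutative B ∧ ¬ IsCyclic B) :
    p = 2 ∧ ((∃ n : ℕ, Nonempty (P ≃* QuaternionGroup n)) ∨ (∃ n : ℕ, 8 ≤ n ∧ Nonempty (P ≃* DihedralGroup n)) ∨
      Cfsg.IsQuasiDihedral P) := by
  rcases L.normal_rank_one (hP.to_subgroup ⊤) (fun A _ h1 hA h => L.not_isCyclic_of_elem_sq hA h
    (hn A (normalizer_eq_top_iff.1 (eq_top_iff.2 h1)) hA.1))
    with h | ⟨rfl, n, a, b, -, -, h1, h2, h3, h4, h5⟩
  · obtain ⟨B, -, hB⟩ := hm
    haveI := L.isCyclic_top_iff.1 h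
    exact absurd (Subgroup.isCyclic B) hB
  rw [relIndex_top_right] at h3
  refine ⟨rfl, ?_⟩
  rcases h5.equiv h2 h3 h4 with ⟨h6, h7, h⟩ | h | h
  · refine Or.inr (Or.inl ⟨_, ?_, h⟩)
    by_contra h8
    obtain rfl : n = 1 := by
      by_contra h9
      exact h8 (Nat.pow_le_pow_right (n := 2) (i := 3) two_pos (by omega))
    have h9 : (a ^ 2) ^ 2 = 1 := by rw [← pow_mul]; exact (show orderOf a = 2 * 2 from h2) ▸ pow_orderOf_eq_one a
    obtain ⟨h10, h11⟩ := L.elem_two_gen (p := 2) (b := b) (c := a ^ 2) (L.commute_iff_conj.2 (by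
      rw [← conj_pow, h7, inv_pow, inv_eq_iff_mul_eq_one, ← pow_two, h9])) h6 h9
      (pow_ne_one_of_lt_orderOf two_ne_zero (by rw [h2]; norm_num))
      fun h => h4 (zpowers_le.2 (pow_mem (mem_zpowers a) _) h)
    refine L.not_isCyclic_of_elem_sq h10 h11 (hn _ (normal_of_index_eq_two ?_) h10.1)
    have e1 := (zpowers a).card_mul_index
    have e2 := (zpowers (a ^ 2) ⊔ zpowers b).card_mul_index
    rw [Nat.card_zpowers, h2, h3] at e1
    rw [h11, ← e1] at e2
    omega
  · exact Or.inl ⟨_, h⟩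
  · exact Or.inr (Or.inr h.2)

end Cfsg.Agent.S0519
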