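import Cfsg.Statements.S0520
import Cfsg.Agent.H1.MC
import Cfsg.Agent.H9.Fus

set_option autoImplicit false
open Cfsg

namespace Cfsg.Agent.S0520

open Subgroup in
theorem rk_top {G : Type*} [Group G] [Finite G] : ¬ Cfsg.PRankLE 2 1 G ↔ ∃ V : Subgroup G, IsKleinFour V := by
  constructor
  · intro h
    unfold Cfsg.PRankLE at h
    push Not at h
    obtain ⟨A, h1, h2, h3⟩ := h
    obtain ⟨a, ha, ha1⟩ := A.bot_or_exists_ne_one.resolve_left fun e => by rw [e, card_bot] at h3; omega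
    obtain ⟨b, hb, hb1⟩ : ∃ b ∈ A, b ∉ zpowers a := by
      by_contra h; push Not at h
      have := card_le_of_le (show A ≤ zpowers a from h)
      rw [Nat.card_zpowers, orderOf_eq_prime (h2 a ha) ha1] at this
      omega
    exact ⟨_, H1.isKleinFour_sup (orderOf_eq_prime (h2 a ha) ha1) (orderOf_eq_prime (h2 b hb) fun e => hb1 (by simp [e]))
      (fun e => hb1 (by simp [e])) (congrArg Subtype.val (h1.is_comm.comm ⟨a, ha⟩ ⟨b, hb⟩))⟩
  · rintro ⟨V, hV⟩ h
    have := h V (H1.klein_comm hV) fun a ha => by rw [pow_two, H1.klein_sq hV ha]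
    rw [hV.card_four] at this; omega

open Subgroup in
theorem kl_map {G H : Type*} [Group G] [Group H] (f : G →* H) (hf : Function.Injective f) (V : Subgroup G) :
    IsKleinFour (V.map f) ↔ IsKleinFour V := by
  have e := V.equivMapOfInjective f hf
  exact ⟨fun h => ⟨by rw [Nat.card_congr e.toEquiv, h.card_four], by rw [Monoid.exponent_eq_of_mulEquiv e, h.exponent_two]⟩,
    fun h => ⟨by rw [← Nat.card_congr e.toEquiv, h.card_four], by rw [← Monoid.exponent_eq_of_mulEquiv e, h.exponent_two]⟩⟩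

open Subgroup in
theorem rk {G : Type*} [Group G] [Finite G] {Q : Subgroup G} : ¬ Cfsg.PRankLE 2 1 Q ↔ ∃ V ≤ Q, IsKleinFour V := by
  rw [rk_top]
  refine ⟨fun ⟨V, h⟩ => ⟨_, map_subtype_le V, (kl_map _ Q.subtype_injective V).2 h⟩, fun ⟨V, h1, h2⟩ =>
    ⟨V.subgroupOf Q, (kl_map _ Q.subtype_injective _).1 (by rwa [map_subgroupOf_eq_of_le h1])⟩⟩
open Subgroup H9 in

/-- Let G be a finite group of 2-rank at least 2 and S a Sylow 2-subgroup whose commuting graph of Klein four-subgroups is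
connected. Then the commuting graph of Klein four-subgroups of G is disconnected if and only if the 2-generated core — the
subgroup generated by the normalizers N_G(Q) of the subgroups Q of S that contain a Klein four-group — is a proper
subgroup of G. -/
theorem result {G : Type*} [Group G] [Finite G] (h2 : ¬ Cfsg.PRankLE 2 1 G)
    (S : Sylow 2 G) (hS : Cfsg.IsFourConnected (S : Subgroup G)) :
    ¬ Cfsg.IsFourConnected G ↔
      (⨆ Q : {Q : Subgroup G // Q ≤ (S : Subgroup G) ∧ ¬ Cfsg.PRankLE 2 1 Q},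
          Subgroup.normalizer ((Q : Subgroup G) : Set G)) ≠ ⊤ := by
  set Γ := (⨆ Q : {Q : Subgroup G // Q ≤ (S : Subgroup G) ∧ ¬ Cfsg.PRankLE 2 1 Q},
          Subgroup.normalizer ((Q : Subgroup G) : Set G)) with hΓ
  set R := fun A B : Subgroup G => IsKleinFour A ∧ IsKleinFour B ∧ ∀ a ∈ A, ∀ b ∈ B, a * b = b * a with hR
  have hS' := syl_top_of_sylow S
  have kc : ∀ g (V : Subgroup G), IsKleinFour V → IsKleinFour (cj g V) := fun g V h => H1.klein_cj h g
  have hN : ∀ Q ≤ (S : Subgroup G), ∀ V ≤ Q, IsKleinFour V → normalizer (Q : Set G) ≤ Γ := fun Q h V h1 h2 =>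
    le_iSup (fun Q : {Q : Subgroup G // Q ≤ (S : Subgroup G) ∧ ¬ Cfsg.PRankLE 2 1 Q} =>
      normalizer ((Q : Subgroup G) : Set G)) ⟨Q, h, rk.2 ⟨V, h1, h2⟩⟩
  obtain ⟨V₀, hV₀, hV₀S⟩ : ∃ V : Subgroup G, IsKleinFour V ∧ V ≤ S := by
    obtain ⟨V, hV⟩ := rk_top.1 h2
    obtain ⟨g, -, hg⟩ := hS'.exists_cj_le (H1.klein_pg hV) le_top
    exact ⟨_, kc g V hV, hg⟩
  have hSΓ : Syl 2 S Γ := hS'.mono (le_normalizer.trans (hN _ le_rfl V₀ hV₀S hV₀)) le_top
  have inS : ∀ U V : Subgroup G, IsKleinFour U → IsKleinFour V → U ≤ S → V ≤ S → Relation.ReflTransGen R U V := by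
    intro U V hU hV h1 h2
    have := hS (U.subgroupOf S) (V.subgroupOf S)
      ((kl_map _ (S : Subgroup G).subtype_injective _).1 (by rwa [map_subgroupOf_eq_of_le h1]))
      ((kl_map _ (S : Subgroup G).subtype_injective _).1 (by rwa [map_subgroupOf_eq_of_le h2]))
    rw [← map_subgroupOf_eq_of_le h1, ← map_subgroupOf_eq_of_le h2]
    refine Relation.ReflTransGen.lift (map (S : Subgroup G).subtype) ?_ _ _ this
    rintro A B ⟨k1, k2, k3⟩
    refine ⟨(kl_map _ (S : Subgroup G).subtype_injective _).2 k1, (kl_map _ (S : Subgroup G).subtype_injective _).2 k2, ?_⟩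
    rintro _ ⟨a, ha, rfl⟩ _ ⟨b, hb, rfl⟩
    exact congrArg Subtype.val (k3 a ha b hb)
  have Rc : ∀ g U V, Relation.ReflTransGen R U V → Relation.ReflTransGen R (cj g U) (cj g V) := by
    intro g U V h
    refine Relation.ReflTransGen.lift (cj g) ?_ _ _ h
    rintro A B ⟨k1, k2, k3⟩
    refine ⟨kc g A k1, kc g B k2, ?_⟩
    rintro _ ⟨a, ha, rfl⟩ _ ⟨b, hb, rfl⟩
    rw [← map_mul, k3 a ha b hb, map_mul]
  have Rs : ∀ U V, Relation.ReflTransGen R U V → Relation.ReflTransGen R V U :=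
    fun U V h => by
      induction h with
      | refl => exact .refl
      | tail _ k ih => exact .head ⟨k.2.1, k.1, fun a ha b hb => (k.2.2 b hb a ha).symm⟩ ih
  rw [not_iff_not]
  constructor
  · intro hc
    have h1 : ∀ U, Relation.ReflTransGen R V₀ U → ∃ γ ∈ Γ, cj γ U ≤ S := by
      intro U h
      induction h with
      | refl => exact ⟨1, Γ.one_mem, by simpa using hV₀S⟩
      | @tail A B _ h ih =>
        obtain ⟨γ, hγ, h1⟩ := ih
        have h3 : cj γ B ≤ Γ := by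
          refine le_trans ?_ ((centralizer_le_normalizer _).trans (hN _ h1 _ le_rfl (kc γ A h.1)))
          rw [← cj_centralizer]
          exact cj_mono γ fun b hb a ha => h.2.2 a ha b hb
        obtain ⟨δ, hδ, h4⟩ := hSΓ.exists_cj_le (H1.klein_pg (kc γ B h.2.1)) h3
        exact ⟨δ * γ, Γ.mul_mem hδ hγ, by rwa [cj_mul]⟩
    rw [eq_top_iff]
    intro g _
    obtain ⟨γ, hγ, h3⟩ := h1 _ (hc V₀ _ hV₀ (kc g V₀ hV₀))
    have hT : Syl 2 (cj (γ * g) S) ⊤ := hS'.cj_of_mem (le_normalizer trivial)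
    have h4 : cj (γ * g) (S : Subgroup G) ≤ Γ := by
      by_contra hn
      have h5 := lt_inf_normalizer_of_p hT.isP (lt_of_le_of_ne (inf_le_left (b := Γ)) fun e => hn (inf_eq_left.1 e))
      obtain ⟨δ, hδ, h6⟩ := hSΓ.exists_cj_le (hT.isP.to_le (inf_le_left (b := Γ))) inf_le_right
      have h7 := hN _ h6 (cj δ (cj γ (cj g V₀))) (cj_mono δ (le_inf (by rw [← cj_mul]; exact cj_mono _ hV₀S)
        (h3.trans hSΓ.le))) (kc _ _ (kc _ _ (kc _ _ hV₀)))
      rw [← cj_normalizer, cj_le_iff, cj_eq_of_mem (Γ.inv_mem hδ)] at h7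
      exact h5.not_ge (inf_le_inf_left _ h7)
    obtain ⟨δ, hδ, h5⟩ := (hT.mono h4 le_top).conj hSΓ
    rw [← cj_mul, ← mem_normalizer_iff_cj] at h5
    have := Γ.mul_mem (Γ.inv_mem (Γ.mul_mem hδ hγ)) (hN _ le_rfl V₀ hV₀S hV₀ h5)
    simpa [mul_assoc] using this
  · intro ht
    let H : Subgroup G := {
      carrier := {g | Relation.ReflTransGen R V₀ (cj g V₀)}
      one_mem' := by simpa using Relation.ReflTransGen.refl
      mul_mem' := fun {a b} ha hb => by
        show Relation.ReflTransGen R V₀ (cj (a * b) V₀)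
        rw [cj_mul]; exact ha.trans (Rc a _ _ hb)
      inv_mem' := fun {a} ha => by
        have := Rs _ _ (Rc a⁻¹ _ _ ha)
        rwa [← cj_mul, inv_mul_cancel, cj_one] at this }
    have hH : Γ ≤ H := by
      refine iSup_le fun Q g hg => ?_
      obtain ⟨V, h1, h3⟩ := rk.1 Q.2.2
      have h4 : cj g V ≤ S := (cj_mono g h1).trans ((mem_normalizer_iff_cj.1 hg).le.trans Q.2.1)
      exact (inS _ _ hV₀ (kc g V h3) hV₀S h4).trans (Rc g _ _ (inS _ _ h3 hV₀ (h1.trans Q.2.1) hV₀S))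
    have h1 : ∀ U : Subgroup G, IsKleinFour U → Relation.ReflTransGen R V₀ U := by
      intro U hU
      obtain ⟨g, -, hg⟩ := hS'.exists_cj_le (H1.klein_pg hU) le_top
      have := Rc g⁻¹ _ _ (inS _ _ hV₀ (kc g U hU) hV₀S hg)
      rw [← cj_mul, inv_mul_cancel, cj_one] at this
      exact Relation.ReflTransGen.trans (hH (ht ▸ mem_top g⁻¹)) this
    exact fun U V hU hV => (Rs _ _ (h1 U hU)).trans (h1 V hV)

end Cfsg.Agent.S0520
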