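import Cfsg.Statements.S0521
import Cfsg.Agent.H9.Qd
import Cfsg.Agent.H1.Fitting
import Cfsg.Agent.H1.Cores

set_option autoImplicit false
open Cfsg

namespace Cfsg.Agent.S0521

open Subgroup H9
open scoped commutatorElement
theorem core {X : Type*} [Group X] [Finite X] [Group.IsSolvable X] (hX : Odd (Nat.card X)) {p : ℕ} [hp : Fact p.Prime]
    (hp2 : p ≠ 2) (h0 : Cfsg.pPrimeCore p X = ⊥) {S : Subgroup X} (hS : IsPGroup p S) (hQ : Op p ⊤ ≤ S)
    (hc : IsCyclic ↥⁅S, S⁆) : S ≤ Op p ⊤ := by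
  have hst := actionStable_iff.1 (actionStable_of_not_sect (G := X) hp2 (not_sect_of_odd hp2 (by simpa using hX)))
  have hC : centralizer (Op p (⊤ : Subgroup X) : Set X) ≤ Op p ⊤ := by
    rw [Op_top]; exact H1.centralizer_pCore_le h0
  intro a ha
  refine Opm_cmod_Phi_le hC (hst.2.1 a ?_)
  haveI : (Op p (⊤ : Subgroup X)).Normal := by rw [Op_top]; infer_instance
  have hQp : IsPGroup p (Op p (⊤ : Subgroup X)) := hS.to_le hQ
  obtain ⟨C, hCd⟩ : ∃ C, C = ⁅S, S⁆ ⊓ Op p ⊤ := ⟨_, rfl⟩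
  have hCQ : C ≤ Op p ⊤ := hCd ▸ inf_le_right
  have hcy : IsCyclic C := Subgroup.isCyclic_of_le (H' := ⁅S, S⁆) (hCd ▸ inf_le_left)
  have h1 : ⁅Op p ⊤, zpowers a⁆ ≤ C :=
    hCd ▸ le_inf (commutator_mono hQ (zpowers_le.2 ha)) (commutator_le_left _ _)
  have hn : S ≤ normalizer (C : Set X) := by
    rw [hCd]
    exact le_trans (le_inf (normalizer_commutator le_normalizer le_normalizer) le_normalizer_of_normal)
      inf_normalizer_le_normalizer_inf
  refine (commutator_mono h1 (zpowers_le.2 ha)).trans ?_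
  by_cases hb : C = ⊥
  · rw [hb, commutator_bot_left]; exact bot_le
  have hlt := commutator_lt_of_p (hQp.to_le hCQ) hS hn hb
  obtain ⟨c, hc'⟩ := (Subgroup.isCyclic_iff_exists_zpowers_eq_top C).mp hcy
  intro d hd
  have hdC := hlt.le hd
  rw [← hc'] at hdC
  obtain ⟨k, rfl⟩ := hdC
  have hcC : c ∈ C := hc' ▸ mem_zpowers c
  by_cases hk : (p : ℤ) ∣ k
  · obtain ⟨m, rfl⟩ := hk
    show c ^ ((p : ℤ) * m) ∈ _
    rw [mul_comm, zpow_mul, zpow_natCast]
    exact L.pow_mem_Phi hQp (zpow_mem (hCQ hcC) _)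
  · exfalso
    obtain ⟨n, hn'⟩ := IsPGroup.iff_orderOf.mp hQp ⟨c, hCQ hcC⟩
    rw [Subgroup.orderOf_mk] at hn'
    have : c ∈ zpowers (c ^ k) := by
      rw [mem_zpowers_zpow_iff, hn', Int.gcd_eq_natAbs, Int.natAbs_natCast]
      exact Nat.Coprime.pow_right _ ((Nat.Prime.coprime_iff_not_dvd hp.out).2 (by rwa [← Int.natCast_dvd])).symm
    exact hlt.not_ge (hc'.ge.trans (zpowers_le.2 (zpowers_le.2 hd this)))

/-- Let X be a finite solvable group of odd order, p a prime and S a Sylow p-subgroup of X whose commutator subgroup is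
cyclic. Then the product of the largest normal subgroup of X of order prime to p with S is a normal subgroup of X. -/
theorem result {X : Type*} [Group X] [Finite X] [Group.IsSolvable X]
    (hX : Odd (Nat.card X)) (p : ℕ) [Fact p.Prime] (S : Sylow p X) (hS : IsCyclic (commutator (S : Subgroup X))) :
    (Cfsg.pPrimeCore p X ⊔ (S : Subgroup X)).Normal := by
  by_cases hp2 : p = 2
  · subst hp2
    have : (S : Subgroup X) = ⊥ := by
      obtain ⟨n, hn⟩ := IsPGroup.iff_card.mp S.isPGroup'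
      have h1 : 2 ^ n ∣ Nat.card X := hn ▸ card_subgroup_dvd_card _
      rcases n with _ | n
      · exact card_eq_one.mp (by simpa using hn)
      · exact absurd ((dvd_pow_self 2 (Nat.succ_ne_zero n)).trans h1) (by rw [← even_iff_two_dvd]; exact Nat.not_even_iff_odd.mpr hX)
    rw [this, sup_bot_eq]; infer_instance
  let π := QuotientGroup.mk' (Cfsg.pPrimeCore p X)
  have hs : Function.Surjective π := QuotientGroup.mk'_surjective _
  let T := S.mapSurjective hs
  have hT : (T : Subgroup (X ⧸ Cfsg.pPrimeCore p X)) = (S : Subgroup X).map π := rfl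
  have hO : Op p ⊤ ≤ (T : Subgroup (X ⧸ Cfsg.pPrimeCore p X)) := by
    rw [Op_top, H1.pCore_eq_iInf_sylow]; exact iInf_le _ T
  have h1 := core (hX.of_dvd_nat (card_quotient_dvd_card _)) hp2 H1.pPrimeCore_quotient_pPrimeCore T.isPGroup' hO (by
    rw [hT, ← map_commutator, ← L.map_commutator_subtype, map_map]
    exact isCyclic_of_surjective _ (MonoidHom.subgroupMap_surjective _ _))
  have h2 : ((S : Subgroup X).map π).Normal := by
    rw [← hT, le_antisymm h1 hO, Op_top]; infer_instance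
  have h3 := h2.comap π
  rwa [comap_map_eq, QuotientGroup.ker_mk', sup_comm] at h3

end Cfsg.Agent.S0521
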