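import Cfsg.Statements.S0522
import Cfsg.Agent.FT.B7

set_option autoImplicit false
open Cfsg

namespace Cfsg.Agent.S0522

/-- Transitivity Theorem (odd-order setting). Let X be a finite group of odd order in which the normalizer of every
nontrivial p-subgroup is solvable, P a Sylow p-subgroup, and B an abelian subgroup of P, normalized by P, with
C_P(B) = B and containing an elementary abelian subgroup of order p^3. Then for every prime q ≠ p, any two q-subgroups
that are maximal among the q-subgroups normalized by B are conjugate by an element of the centralizer of B. -/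
theorem result {X : Type*} [Group X] [Finite X] (hX : Odd (Nat.card X)) (p : ℕ)
    [Fact p.Prime] (hloc : ∀ T : Subgroup X, IsPGroup p T → T ≠ ⊥ → Group.IsSolvable (Subgroup.normalizer (T : Set X)))
    (P : Sylow p X) (B : Subgroup X) (hBP : B ≤ (P : Subgroup X))
    (hBn : ∀ x ∈ (P : Subgroup X), ∀ b ∈ B, x * b * x⁻¹ ∈ B) (hBa : IsMulCommutative B)
    (hBc : (P : Subgroup X) ⊓ Subgroup.centralizer (B : Set X) = B)
    (hB3 : ∃ E : Subgroup X, E ≤ B ∧ (∀ e ∈ E, e ^ p = 1) ∧ p ^ 3 ≤ Nat.card E)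
    (q : ℕ) [Fact q.Prime] (hqp : q ≠ p) (Q₁ Q₂ : Subgroup X)
    (h₁ : IsPGroup q Q₁ ∧ B ≤ Subgroup.normalizer (Q₁ : Set X) ∧
      ∀ R : Subgroup X, IsPGroup q R → B ≤ Subgroup.normalizer (R : Set X) → Q₁ ≤ R → R = Q₁)
    (h₂ : IsPGroup q Q₂ ∧ B ≤ Subgroup.normalizer (Q₂ : Set X) ∧
      ∀ R : Subgroup X, IsPGroup q R → B ≤ Subgroup.normalizer (R : Set X) → Q₂ ≤ R → R = Q₂) :
    ∃ c ∈ Subgroup.centralizer (B : Set X), Q₂ = Q₁.map (MulAut.conj c).toMonoidHom := by
  open H9 Subgroup in open scoped commutatorElement in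
  have hscn : IsSCN (P : Subgroup X) B := ⟨hBP, le_normalizer_of_cj_le fun g hg => by
    rintro _ ⟨b, hb, rfl⟩; exact hBn g hg b hb, hBc⟩
  have hB := P.isPGroup'.to_le hBP
  obtain ⟨E, e1, e2, e3⟩ := hB3
  have h3 : 3 ≤ FT.rk p B := (Nat.pow_le_pow_iff_right (Fact.out : p.Prime).one_lt).1
    (e3.trans (FT.card_le_pow_rk ⟨comm_of_le hBa e1, e2⟩ e1))
  obtain ⟨k, h1, h2⟩ := FT.tr_of_local hqp hB hBa h3 (fun u hu u1 Y y1 y2 y3 => by
    have hu' := isPGroup_zpowers_of_mem hB hu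
    have hs := isSolvable_of_le (hloc _ hu' (zpowers_ne_bot.2 u1)) (centralizer_le_normalizer' _)
    rw [centralizer_zpowers] at hs
    exact thompson_bender (FT.ne_two_of_odd (H := ⊤) (by rwa [card_top]) ((dvd_card_of_isPGroup hu'
      (zpowers_ne_bot.2 u1)).trans (card_dvd_of_le le_top))) (PLay_eq_bot_of_solvable hs) hB
      (le_centralizer_singleton_iff.2 (le_centralizer_of_le_comm hBa le_rfl le_rfl hu))
      (fun x _ h1 h2 => FT.IsSCN.mem_of_syl (syl_top_of_sylow P) hscn (mem_top _) h1 (elem_isP (elem_zpowers h2)))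
      y1 y2 y3) _ _ ⟨h₁.1, h₁.2.1, h₁.2.2⟩ ⟨h₂.1, h₂.2.1, h₂.2.2⟩
  exact ⟨k, Op'_le _ _ h1, h2.symm⟩

end Cfsg.Agent.S0522
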