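import Cfsg.Statements.S0525
import Cfsg.Agent.H1.Super

set_option autoImplicit false
open Cfsg

namespace Cfsg.Agent.S0525

/-- A direct product of two finite supersolvable groups is supersolvable. -/
theorem result {G H : Type*} [Group G] [Group H] [Finite G] [Finite H] (hG : Cfsg.IsSupersolvable G) (hH : Cfsg.IsSupersolvable H) : Cfsg.IsSupersolvable (G × H) := by
  refine H1.isSupersolvable_iff.2 ?_
  have := H1.ssc_inf (H1.ssc_ker (MonoidHom.fst G H) hG) (H1.ssc_ker (MonoidHom.snd G H) hH)
  rwa [show (MonoidHom.fst G H).ker ⊓ (MonoidHom.snd G H).ker = ⊥ from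
    eq_bot_iff.2 fun x hx => Prod.ext hx.1 hx.2] at this

end Cfsg.Agent.S0525
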