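import Cfsg.Statements.S0529
import Cfsg.Agent.H1.Super

set_option autoImplicit false
open Cfsg

namespace Cfsg.Agent.S0529

/-- A finite supersolvable group has a chain of normal subgroups, from the trivial subgroup to the whole group, in which every step has prime index and the primes occurring are non-increasing as one goes up the chain. -/
theorem result {G : Type*} [Group G] [Finite G] (hG : Cfsg.IsSupersolvable G) : ∃ (n : ℕ) (H : Fin (n + 1) → Subgroup G), H 0 = ⊥ ∧ H (Fin.last n) = ⊤ ∧ (∀ i, (H i).Normal) ∧ (∀ i : Fin n, H i.castSucc ≤ H i.succ ∧ ((H i.castSucc).relIndex (H i.succ)).Prime) ∧ ∀ i j : Fin n, i ≤ j → (H j.castSucc).relIndex (H j.succ) ≤ (H i.castSucc).relIndex (H i.succ) := by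
  suffices ∀ N : Subgroup G, N.Normal → ∃ (n : ℕ) (H : Fin (n + 1) → Subgroup G), H 0 = N ∧
      H (Fin.last n) = ⊤ ∧ (∀ i, (H i).Normal) ∧ (∀ i : Fin n, H i.castSucc ≤ H i.succ ∧
        ((H i.castSucc).relIndex (H i.succ)).Prime) ∧ (∀ i j : Fin n, i ≤ j →
        (H j.castSucc).relIndex (H j.succ) ≤ (H i.castSucc).relIndex (H i.succ)) ∧
        ∀ i : Fin n, (H i.castSucc).relIndex (H i.succ) ∣ N.index by
    obtain ⟨n, H, h1, h2, h3, h4, h5, -⟩ := this ⊥ inferInstance
    exact ⟨n, H, h1, h2, h3, h4, h5⟩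
  intro N
  induction N using WellFoundedGT.induction with
  | ind N ih =>
  intro hN
  by_cases h0 : N = ⊤
  · exact ⟨0, fun _ => N, rfl, h0, fun _ => hN, fun i => i.elim0, fun i => i.elim0, fun i => i.elim0⟩
  obtain ⟨p, hp, hd, hmax⟩ := H1.exists_max_prime (Subgroup.index_ne_zero_of_finite (H := N))
    (mt Subgroup.index_eq_one.1 h0)
  have := Fact.mk hp
  obtain ⟨K, h1, h2⟩ := H1.super_exists_normal_max_prime (H1.super_quotient hG N) hd hmax
  have hf := QuotientGroup.mk'_surjective N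
  have h3 : N.relIndex (K.comap (QuotientGroup.mk' N)) = p := by
    rw [← H1.card_map_mk', Subgroup.map_comap_eq_self_of_surjective hf, h2]
  have h4 := QuotientGroup.le_comap_mk' N K
  generalize hM : K.comap (QuotientGroup.mk' N) = M at h3 h4
  have hMn : M.Normal := hM ▸ inferInstance
  obtain ⟨n, H, h5, h6, h7, h8, h9, h10⟩ := ih M (H1.lt_of_prime_relIndex h4 (h3 ▸ hp)) hMn
  have h11 := Subgroup.index_dvd_of_le h4
  refine ⟨n + 1, Fin.cons (α := fun _ => Subgroup G) N H, rfl, h6, fun i => ?_, fun i => ?_,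
    fun i j => ?_, fun i => ?_⟩
  · exact Fin.cases hN h7 i
  · refine Fin.cases ?_ (fun j => h8 j) i
    change N ≤ H 0 ∧ (N.relIndex (H 0)).Prime
    rw [h5, h3]; exact ⟨h4, hp⟩
  · refine Fin.cases (fun _ => ?_) (fun i => Fin.cases (fun h => absurd h (by simp))
      (fun j h => h9 i j (by simpa using h)) j) i
    change _ ≤ N.relIndex (H 0)
    rw [h5, h3]
    refine Fin.cases ?_ (fun j => hmax _ (h8 j).2 ((h10 j).trans h11)) j
    change N.relIndex (H 0) ≤ _
    rw [h5, h3]
  · refine Fin.cases ?_ (fun j => (h10 j).trans h11) i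
    change N.relIndex (H 0) ∣ _
    rw [h5, h3]; exact hd

end Cfsg.Agent.S0529
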