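import Cfsg.Statements.S0530
import Cfsg.Agent.H1.Super

set_option autoImplicit false
open Cfsg

namespace Cfsg.Agent.S0530

/-- A finite group whose order is twice a prime power is supersolvable. -/
theorem result {G : Type*} [Group G] [Finite G] (p n : ℕ) (hp : p.Prime) (hG : Nat.card G = 2 * p ^ n) : Cfsg.IsSupersolvable G := by
  have := Fact.mk hp
  obtain ⟨P, h1, h2, h3⟩ : ∃ P : Subgroup G, P.Normal ∧ Group.IsNilpotent P ∧ P.index = 2 := by
    obtain ⟨P, hP⟩ := Sylow.exists_subgroup_card_pow_prime p (n := n) (G := G) (hG ▸ dvd_mul_left _ _)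
    have e := P.index_mul_card
    rw [hP, hG] at e
    have e' := Nat.eq_of_mul_eq_mul_right (pow_pos hp.pos n) e
    exact ⟨P, P.normal_of_index_eq_two e', (IsPGroup.of_card hP).isNilpotent, e'⟩
  refine H1.isSupersolvable_iff.2 ((H1.ssc_of_nilpotent_of_forall (P := P) h2 bot_le le_rfl
    fun K C hK hC _ h4 h5 h6 => ?_).trans (H1.ssc_of_prime_relIndex h1 inferInstance le_top
      (by rw [Subgroup.relIndex_top_right, h3]; exact Nat.prime_two)))
  obtain ⟨t, ht⟩ : ∃ t, t ∉ P := by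
    by_contra h
    push Not at h
    rw [(Subgroup.eq_top_iff' P).2 h] at h3
    simp at h3
  have key : ∀ y ∈ C, y ∉ K → t * y * t⁻¹ ∈ K ⊔ Subgroup.zpowers y →
      ∃ K', K < K' ∧ K' ≤ C ∧ H1.SSC K K' := fun y hy h7 h8 => by
    have h9 : K ⊔ Subgroup.zpowers y ≤ C := sup_le h4.le ((Subgroup.zpowers_le).2 hy)
    refine ⟨_, left_lt_sup.2 (by rwa [Subgroup.zpowers_le]), h9, H1.ssc_sup_zpowers hK
      (Subgroup.normalizer_eq_top_iff.1 ((Subgroup.eq_top_iff' _).2 fun g => ?_))⟩
    have h10 := H1.le_normalizer_of_commutator_le h6 le_sup_left h9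
    by_cases hg : g ∈ P
    · exact h10 hg
    have h11 : t ∈ Subgroup.normalizer ((K ⊔ Subgroup.zpowers y : Subgroup G) : Set G) := by
      rw [← H1.conj_smul_eq_self_iff]
      refine H1.eq_of_le_of_card_eq ?_ (H1.card_conj_smul _ _)
      rw [Subgroup.smul_sup, H1.conj_smul_eq_map t (Subgroup.zpowers y), MonoidHom.map_zpowers]
      exact sup_le ((H1.conj_smul_le_of_mem_normalizer le_rfl (Subgroup.le_normalizer_of_normal
        (Subgroup.mem_top t))).trans le_sup_left) ((Subgroup.zpowers_le).2 h8)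
    have h12 : g * t⁻¹ ∈ P := by rw [Subgroup.mul_mem_iff_of_index_two h3]; simp [hg, ht]
    simpa using mul_mem (h10 h12) h11
  obtain ⟨x, hx, h7⟩ := SetLike.exists_of_lt h4
  by_cases h8 : x * (t * x * t⁻¹) ∈ K
  · refine key x hx h7 ?_
    have := mul_mem (inv_mem (Subgroup.mem_sup_right (S := K) (Subgroup.mem_zpowers x)))
      (Subgroup.mem_sup_left h8)
    simpa using this
  · have h9 := hC.conj_mem x hx t
    refine key _ (C.mul_mem hx h9) h8 ?_
    have h10 := h6 (Subgroup.commutator_mem_commutator (C.inv_mem hx) (Subgroup.mul_self_mem_of_index_two h3 t))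
    have h11 := h6 (Subgroup.commutator_mem_commutator h9 (h5 hx))
    have e : t * (x * (t * x * t⁻¹)) * t⁻¹ = (t * x * t⁻¹ * x * (t * x * t⁻¹)⁻¹ * x⁻¹) *
      (x * (t * x * t⁻¹)) * (x⁻¹ * (t * t) * x⁻¹⁻¹ * (t * t)⁻¹) := by group
    rw [e]
    exact mul_mem (mul_mem (Subgroup.mem_sup_left h11) (Subgroup.mem_sup_right (Subgroup.mem_zpowers _)))
      (Subgroup.mem_sup_left h10)

end Cfsg.Agent.S0530
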