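import Cfsg.Statements.S0532
import Cfsg.Agent.H1.SylowIn

set_option autoImplicit false
open Cfsg

namespace Cfsg.Agent.S0532

theorem hered {G : Type*} [Group G] (h : ∀ H : Subgroup G, Cfsg.HasSubgroupOfEveryOrder H)
    (M : Subgroup G) (H : Subgroup M) : Cfsg.HasSubgroupOfEveryOrder H := by
  intro d hd
  set e := H.equivMapOfInjective M.subtype M.subtype_injective
  obtain ⟨K, hK⟩ := h (H.map M.subtype) d (by rwa [← Nat.card_congr e.toEquiv])
  exact ⟨K.map e.symm.toMonoidHom, by rw [Subgroup.card_map_of_injective e.symm.injective, hK]⟩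

theorem exists_index {G : Type*} [Group G] [Finite G]
    (h : ∀ H : Subgroup G, Cfsg.HasSubgroupOfEveryOrder H) {q : ℕ} (hq : q ∣ Nat.card G) :
    ∃ M : Subgroup G, M.index = q := by
  obtain ⟨d, hd⟩ := hq
  obtain ⟨K, hK⟩ := h ⊤ d (by rw [Subgroup.card_top, hd]; exact Dvd.intro_left _ rfl)
  refine ⟨K.map (⊤ : Subgroup G).subtype, ?_⟩
  have := (K.map (⊤ : Subgroup G).subtype).index_mul_card
  rw [Subgroup.card_map_of_injective (Subgroup.subtype_injective _), hK, hd] at this
  exact Nat.eq_of_mul_eq_mul_right (hK ▸ Nat.card_pos) this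

/-- If each subgroup of a finite group satisfies the converse of Lagrange's theorem, then a Sylow subgroup for the largest prime dividing the group order is normal. -/
theorem result {G : Type*} [Group G] [Finite G] (h : ∀ H : Subgroup G, Cfsg.HasSubgroupOfEveryOrder H) (p : ℕ) [Fact p.Prime] (hdvd : p ∣ Nat.card G) (hmax : ∀ q : ℕ, q.Prime → q ∣ Nat.card G → q ≤ p) (P : Sylow p G) : (P : Subgroup G).Normal := by
  have hp : p.Prime := Fact.out
  suffices h' : ∀ P : Subgroup G, H1.IsSylowIn p P ⊤ → P.Normal from h' _ (H1.isSylowIn_top P)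
  clear P hdvd
  induction hn : Nat.card G using Nat.strong_induction_on generalizing G with | _ n ih
  subst hn
  intro P hP
  by_cases h1 : P = ⊤
  · exact h1 ▸ inferInstance
  by_cases h0 : P = ⊥
  · exact h0 ▸ inferInstance
  have h2 : Nat.card G ≠ 1 := fun h => by
    haveI := (Nat.card_eq_one_iff_unique.1 h).1
    exact h1 (Subsingleton.elim _ _)
  have hq := Nat.minFac_prime h2
  obtain ⟨M, hM⟩ := exists_index h (Nat.minFac_dvd (Nat.card G))
  haveI := Subgroup.normal_of_index_eq_minFac_card hM
  have h3 : (Nat.card G).minFac ≠ p := by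
    intro e
    apply h1
    refine hP.eq_of_isPGroup ((H1.isPGroup_iff_isPiNum).2 fun r hr hd => ?_)
    rw [Subgroup.card_top] at hd
    exact le_antisymm (hmax r hr hd) (e ▸ Nat.minFac_le_of_dvd hr.two_le hd)
  have h4 : P ≤ M := H1.le_of_coprime_index (H1.isPGroup_coprime hP.isPGroup
    (by rw [hM]; exact (Nat.coprime_primes hq hp).2 h3))
  have h5 : M ≠ ⊤ := fun e => by rw [e, Subgroup.index_top] at hM; exact hq.one_lt.ne hM
  have h6 := hP.of_le h4 le_top
  have h7 := ih _ (H1.card_subgroup_lt h5) (hered h M)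
    (fun q hq hd => hmax q hq (hd.trans (Subgroup.card_subgroup_dvd_card M))) rfl
    (P.subgroupOf M) (by simpa using h6.subgroupOf le_rfl)
  rw [Subgroup.normal_subgroupOf_iff_le_normalizer h4] at h7
  have := h6.normalizer_le_of_normal h7
  rw [Subgroup.normalizer_eq_top] at this
  exact Subgroup.normalizer_eq_top_iff.1 (eq_top_iff.2 this)

end Cfsg.Agent.S0532
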