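import Cfsg.Statements.S0533
import Cfsg.Agent.S0532
import Cfsg.Agent.H1.Super
import Cfsg.Agent.L.PG3

set_option autoImplicit false
open Cfsg

namespace Cfsg.Agent.S0533

/-- If every subgroup of a finite group has subgroups of all orders dividing its order, then the group is supersolvable. -/
theorem result {G : Type*} [Group G] [Finite G] (h : ∀ H : Subgroup G, Cfsg.HasSubgroupOfEveryOrder H) : Cfsg.IsSupersolvable G := by
  induction hn : Nat.card G using Nat.strong_induction_on generalizing G with | _ n ih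
  subst hn
  rcases subsingleton_or_nontrivial G with h0 | h0
  · exact H1.super_of_subsingleton
  obtain ⟨p, hp, hd, hmax⟩ := H1.exists_max_prime (Nat.card_pos (α := G)).ne'
    Finite.one_lt_card.ne'
  haveI := Fact.mk hp
  obtain ⟨P⟩ : Nonempty (Sylow p G) := inferInstance
  haveI := Cfsg.Agent.S0532.result h p hd hmax P
  have hP := H1.isSylowIn_top P
  obtain ⟨M, hM⟩ := Cfsg.Agent.S0532.exists_index h hd
  have h5 : M ≠ ⊤ := fun e => by rw [e, Subgroup.index_top] at hM; exact hp.one_lt.ne hM
  have hMs := ih _ (H1.card_subgroup_lt h5) (Cfsg.Agent.S0532.hered h M) rfl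
  have hf : H1.Fac (P : Subgroup G) M ⊤ := H1.fac_of_coprime_index (by
    rw [hM]; exact ((Nat.Prime.coprime_iff_not_dvd hp).2 P.not_dvd_index).symm)
  have e1 : (M ⊓ P).relIndex P = p := by
    rw [Subgroup.inf_relIndex_right, hf.relIndex_eq, Subgroup.relIndex_top_right, hM]
  have hPn := P.isPGroup'.isNilpotent
  have h1 : (P : Subgroup G) ≤ Subgroup.normalizer ((M ⊓ P : Subgroup G) : Set G) := by
    exact L.le_normalizer_of_relIndex_prime P.isPGroup' inf_le_right (e1.symm ▸ hp)
  haveI : (M ⊓ P).Normal := H1.normal_of_sup_eq_top hf.sup_eq h1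
    (H1.le_normalizer_inf Subgroup.le_normalizer Subgroup.le_normalizer_of_normal)
  rw [H1.isSupersolvable_iff]
  refine ((H1.ssc_of_nilpotent_of_forall hPn bot_le inf_le_right ?_).trans
    (H1.ssc_of_prime_relIndex inferInstance inferInstance inf_le_right (e1.symm ▸ hp))).trans
    (H1.ssc_of_quotient _ (H1.super_of_surjective ((QuotientGroup.mk' P).comp M.subtype) ?_ hMs))
  · intro K C hK hC _ hKC hCM hCP
    obtain ⟨K', h2, h3, h4, h6⟩ := H1.exists_normal_prime_between' hMs (hCM.trans inf_le_left)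
      Subgroup.le_normalizer_of_normal Subgroup.le_normalizer_of_normal hKC
    exact ⟨K', H1.lt_of_prime_relIndex h3 h6, h4, H1.ssc_of_prime_relIndex hK
      (H1.normal_of_sup_eq_top hf.sup_eq (H1.le_normalizer_of_commutator_le hCP h3 h4) h2) h3 h6⟩
  · intro x
    obtain ⟨x, rfl⟩ := QuotientGroup.mk'_surjective _ x
    obtain ⟨a, ha, b, hb, rfl⟩ := hf.ex x trivial
    exact ⟨⟨b, hb⟩, by simp [(QuotientGroup.eq_one_iff a).2 ha]⟩

end Cfsg.Agent.S0533
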