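import Cfsg.Statements.S0535
import Cfsg.Agent.H1.HallConv

set_option autoImplicit false
open Cfsg

namespace Cfsg.Agent.S0535

/-- Suppose that for every nontrivial subgroup H of a finite group and every prime p dividing the order of H there is a proper subgroup of H whose index in H is a power of p. Then the group is solvable. -/
theorem result {G : Type*} [Group G] [Finite G] (h : ∀ H : Subgroup G, H ≠ ⊥ → ∀ p : ℕ, p.Prime → p ∣ Nat.card H → ∃ K : Subgroup H, K ≠ ⊤ ∧ ∃ k : ℕ, K.index = p ^ k) : Group.IsSolvable G := by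
  refine H1.isSolvable_of_complements fun p hp => ?_
  obtain ⟨H, ⟨k, hk⟩, hmin⟩ := WellFounded.has_min (wellFounded_lt (α := Subgroup G))
    {H | ∃ k, H.index = p ^ k} ⟨⊤, 0, by simp⟩
  refine ⟨H, (H1.isPiHall_compl_iff' hp).2 ⟨fun hd => ?_, k, hk⟩⟩
  obtain ⟨K, h1, j, hj⟩ := h H (by
    rintro rfl
    exact hp.one_lt.ne' (by simpa using hd)) p hp hd
  refine hmin (K.map H.subtype) ⟨j + k, by rw [Subgroup.index_map_subtype, hj, hk, pow_add]⟩
    (lt_of_le_of_ne (Subgroup.map_subtype_le K) fun e => h1 ?_)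
  rw [← H1.subgroupOf_map_subtype_self K, e, Subgroup.subgroupOf_self]

end Cfsg.Agent.S0535
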