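import Cfsg.Statements.S0537
import Cfsg.Agent.H1.Schmidt

set_option autoImplicit false
open Cfsg

namespace Cfsg.Agent.S0537

/-- A finite non-abelian group in which every proper subgroup is abelian is either of prime-power order, or is generated by a cyclic Sylow p-subgroup and a normal Sylow q-subgroup that is elementary abelian, for distinct primes p and q. -/
theorem result {G : Type*} [Group G] [Finite G] (hna : ¬ IsMulCommutative G) (h : ∀ H : Subgroup G, H ≠ ⊤ → IsMulCommutative H) : (∃ p : ℕ, p.Prime ∧ IsPGroup p G) ∨ ∃ p q : ℕ, p.Prime ∧ q.Prime ∧ p ≠ q ∧ ∃ (P : Sylow p G) (Q : Sylow q G), IsCyclic P ∧ (Q : Subgroup G).Normal ∧ Cfsg.IsElementaryAbelian q (Q : Subgroup G) ∧ (P : Subgroup G) ⊔ Q = ⊤ := by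
  by_cases h0 : Group.IsNilpotent G
  · left
    by_contra hc
    push Not at hc
    have h1 : ∀ (p : ℕ) [Fact p.Prime] (P : Sylow p G),
        (P : Subgroup G) ≤ Subgroup.centralizer ((⊤ : Subgroup G) : Set G) := fun p hp P => by
      rw [Subgroup.le_centralizer_iff, top_le_iff]
      refine H1.eq_top_of_forall_sylow_le fun q hq _ => ?_
      by_cases e : q = p
      · subst e
        have := h P fun e => hc q hq ((e ▸ P.isPGroup').of_equiv Subgroup.topEquiv)
        exact ⟨P, Subgroup.le_centralizer _⟩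
      · have := Fact.mk hq
        obtain ⟨Q⟩ : Nonempty (Sylow q G) := inferInstance
        exact ⟨Q, H1.le_centralizer_of_coprime_of_nilpotent (L := ⊤) inferInstance le_top le_top
          (IsPGroup.coprime_card_of_ne _ _ e _ _ Q.isPGroup' P.isPGroup')⟩
    have h2 : Subgroup.centralizer ((⊤ : Subgroup G) : Set G) = ⊤ :=
      H1.eq_top_of_forall_sylow_le fun q hq _ => by
        have := Fact.mk hq
        obtain ⟨Q⟩ : Nonempty (Sylow q G) := inferInstance
        exact ⟨Q, h1 q Q⟩
    exact hna ⟨⟨fun a b => h2.ge (Subgroup.mem_top b) a trivial⟩⟩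
  right
  obtain ⟨p, q, x, Q, hp, hq, h1, h2, h3, h4, h5, h6⟩ := H1.minimalNonNilpotent_structure h0
    fun M hM => H1.isNilpotent_of_isMulCommutative (h M hM)
  have := Fact.mk hp
  have := Fact.mk hq
  have hQ := h Q fun e => h0 ((e ▸ h3.isPGroup).of_equiv Subgroup.topEquiv).isNilpotent
  have hc := IsPGroup.coprime_card_of_ne _ _ h1 _ _ h2.isPGroup h3.isPGroup
  have h7 : Subgroup.zpowers x ⊔ H1.powKer Q hQ q = ⊤ := by
    by_contra h7
    refine h6 (H1.le_centralizer_of_prime_order hQ Subgroup.le_normalizer_of_normal hc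
      (fun v hv h8 a ha => H1.comm_of_mem (h _ h7) (Subgroup.mem_sup_left ha)
        (Subgroup.mem_sup_right (H1.mem_powKer.2 ⟨hv, ?_⟩))) (Subgroup.mem_zpowers x))
    rw [← H1.isPGroup_iff_isPiNum.1 h3.isPGroup _ h8 (H1.orderOf_dvd_card_of_mem hv), pow_orderOf_eq_one]
  have h8 := H1.dedekind_right (A := Subgroup.zpowers x) (H1.powKer_le (hM := hQ) (n := q))
    (Or.inl (Subgroup.le_normalizer_of_normal.trans H1.normalizer_le_normalizer_powKer))
  rw [h7, top_inf_eq, H1.inf_eq_bot_of_coprime hc, bot_sup_eq] at h8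
  obtain ⟨P, e⟩ := h2.exists_sylow_top
  obtain ⟨Q, rfl⟩ := h3.exists_sylow_top
  exact ⟨p, q, hp, hq, h1, P, Q, by change IsCyclic (P : Subgroup G); rw [e]; infer_instance, h4,
    ⟨hQ, fun a ha => (H1.mem_powKer.1 (h8.le ha)).2⟩, e ▸ h5⟩

end Cfsg.Agent.S0537
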