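import Cfsg.Statements.S0542
import Cfsg.Agent.H1.SylowIn

set_option autoImplicit false
open Cfsg

namespace Cfsg.Agent.S0542

/-- A Sylow p-subgroup of a finite group meets every subnormal subgroup H in a Sylow p-subgroup of H. -/
theorem result {G : Type*} [Group G] [Finite G] (p : ℕ) [Fact p.Prime] (H : Subgroup G) (hH : H.IsSubnormal) (S : Sylow p G) : ∃ Q : Sylow p H, (Q : Subgroup H) = (S : Subgroup G).subgroupOf H := by
  suffices h : H1.IsSylowIn p ((S : Subgroup G) ⊓ H) H from
    ⟨h.toSylow, by rw [h.coe_toSylow, Subgroup.inf_subgroupOf_right]⟩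
  induction hH with
  | top => simpa using H1.isSylowIn_top S
  | step K L hKL _ hn ih =>
    have := ih.inf_normal hKL
      (inf_le_right.trans ((Subgroup.normal_subgroupOf_iff_le_normalizer hKL).1 hn))
    rwa [inf_assoc, inf_eq_right.2 hKL] at this

end Cfsg.Agent.S0542
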