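import Cfsg.Statements.S0546
import Cfsg.Agent.H1.System

set_option autoImplicit false
open Cfsg

namespace Cfsg.Agent.S0546

/-- The normal closure of a system normalizer of a finite solvable group is the whole group. -/
theorem result {G : Type*} [Group G] [Finite G] [Group.IsSolvable G] (K : Nat.Primes → Subgroup G) (hK : Cfsg.IsComplementSystem K) : Subgroup.normalClosure ((Cfsg.systemNormalizer K : Subgroup G) : Set G) = ⊤ := by
  by_contra hne
  set M := Subgroup.normalClosure ((Cfsg.systemNormalizer K : Subgroup G) : Set G)
  have : Nontrivial (G ⧸ M) := QuotientGroup.nontrivial_iff.2 hne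
  obtain ⟨N, h1, h2⟩ := H1.exists_normal_prime_index (G := G ⧸ M)
  have hf := QuotientGroup.mk'_surjective M
  rw [← N.index_comap_of_surjective hf] at h2
  have := Fact.mk h2
  have h3 : IsCyclic (G ⧸ N.comap (QuotientGroup.mk' M)) := 
    isCyclic_of_prime_card (p := (N.comap (QuotientGroup.mk' M)).index) rfl
  have h4 := H1.systemNormalizer_sup_eq_top hK (N.comap (QuotientGroup.mk' M))
    (H1.isNilpotent_of_isMulCommutative IsCyclic.isMulCommutative)
  rw [sup_eq_right.2 (Subgroup.le_normalClosure.trans (QuotientGroup.le_comap_mk' M N))] at h4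
  rw [h4, Subgroup.index_top] at h2
  exact Nat.not_prime_one h2

end Cfsg.Agent.S0546
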