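import Cfsg.Statements.S0547
import Cfsg.Agent.H1.Primitive

set_option autoImplicit false
open Cfsg

namespace Cfsg.Agent.S0547

/-- Let a finite solvable group G act faithfully and primitively on a set, and let M be a minimal normal subgroup of G. Then M is transitive with trivial point stabilizers, and the number of points equals the order of M, which is a prime power p ^ d with d ≥ 1. -/
theorem result {G : Type*} [Group G] [Finite G] [Group.IsSolvable G] {Ω : Type*} [Nonempty Ω] [MulAction G Ω] [FaithfulSMul G Ω] (hprim : MulAction.IsPreprimitive G Ω) (M : Subgroup G) [M.Normal] (hM : M ≠ ⊥) (hmin : ∀ K : Subgroup G, K.Normal → K ≤ M → K = ⊥ ∨ K = M) : MulAction.IsPretransitive M Ω ∧ (∀ ω : Ω, MulAction.stabilizer M ω = ⊥) ∧ ∃ p d : ℕ, p.Prime ∧ 0 < d ∧ Nat.card Ω = p ^ d ∧ Nat.card M = p ^ d := by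
  have : Nontrivial G := (Subgroup.nontrivial_iff.1 ⟨_, _, hM⟩)
  obtain ⟨h1, p, hp, h2⟩ := H1.minimal_normal_elementary inferInstance hM hmin
  have key := fun ω : Ω => H1.isComplement'_of_corefree (H1.isCoatom_stabilizer_of_faithful ω)
    (H1.stabilizer_corefree ω) hM h1
  obtain ⟨ω⟩ := ‹Nonempty Ω›
  refine ⟨⟨fun x y => ?_⟩, fun x => ?_, ?_⟩
  · obtain ⟨g, rfl⟩ := MulAction.exists_smul_eq G x y
    obtain ⟨m, hm, s, hs, rfl⟩ := Subgroup.mem_sup_of_normal_left.1
      ((key x).sup_eq_top.ge (Subgroup.mem_top g))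
    exact ⟨⟨m, hm⟩, by rw [mul_smul, MulAction.mem_stabilizer_iff.1 hs]; rfl⟩
  · rw [eq_bot_iff]
    intro m hm
    exact Subtype.ext ((key x).disjoint.le_bot ⟨m.2, hm⟩)
  · have := Fact.mk hp
    obtain ⟨d, hd⟩ := IsPGroup.iff_card.1 (H1.isPGroup_of_pow_eq_one h2)
    refine ⟨p, d, hp, Nat.pos_of_ne_zero ?_, ?_, hd⟩
    · rintro rfl
      exact hM (Subgroup.eq_bot_of_card_eq _ (by simpa using hd))
    · rw [← hd, ← (key ω).index_eq_card, MulAction.index_stabilizer_of_transitive]

end Cfsg.Agent.S0547
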