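import Cfsg.Statements.S0548
import Cfsg.Agent.H1.Primitive

set_option autoImplicit false
open Cfsg

namespace Cfsg.Agent.S0548

/-- Let a finite solvable group G act faithfully and primitively on a set, let M be a minimal normal subgroup and H the stabilizer of a point. Then H is a complement to M, no non-identity element of H centralizes M, and the only subgroups of M normalized by H are the trivial subgroup and M. -/
theorem result {G : Type*} [Group G] [Finite G] [Group.IsSolvable G] {Ω : Type*} [MulAction G Ω] [FaithfulSMul G Ω] (hprim : MulAction.IsPreprimitive G Ω) (M : Subgroup G) [M.Normal] (hM : M ≠ ⊥) (hmin : ∀ K : Subgroup G, K.Normal → K ≤ M → K = ⊥ ∨ K = M) (ω : Ω) : Subgroup.IsComplement' M (MulAction.stabilizer G ω) ∧ MulAction.stabilizer G ω ⊓ Subgroup.centralizer (M : Set G) = ⊥ ∧ ∀ K : Subgroup G, K ≤ M → MulAction.stabilizer G ω ≤ Subgroup.normalizer (K : Set G) → K = ⊥ ∨ K = M := by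
  have : Nontrivial G := (Subgroup.nontrivial_iff.1 ⟨_, _, hM⟩)
  obtain ⟨h1, p, hp, h2⟩ := H1.minimal_normal_elementary inferInstance hM hmin
  have h3 := H1.isCoatom_stabilizer_of_faithful (G := G) ω
  have h4 := H1.stabilizer_corefree (G := G) ω
  refine ⟨H1.isComplement'_of_corefree h3 h4 hM h1, ?_, fun K h5 h6 => hmin K ?_ h5⟩
  · rw [inf_comm]; exact H1.centralizer_inf_eq_bot_of_corefree h3 h4 hM
  · exact H1.normal_of_sup_eq_top (H1.sup_eq_top_of_corefree h3 h4 hM) h6
      (H1.le_normalizer_of_abelian h1 h5)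

end Cfsg.Agent.S0548
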