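import Cfsg.Statements.S0552
import Cfsg.Agent.H1.Fitting

set_option autoImplicit false
open Cfsg

namespace Cfsg.Agent.S0552

/-- Let σ be an automorphism of a finite solvable group G fixing every element of the Fitting subgroup. If σ is not the identity then the order of σ and the order of G have a common prime factor. -/
theorem result {G : Type*} [Group G] [Finite G] [Group.IsSolvable G] (σ : G ≃* G) (hσ : ∀ x ∈ Cfsg.fittingSubgroup G, σ x = x) (hne : σ ≠ MulEquiv.refl G) : ¬ (orderOf σ).Coprime (Nat.card G) := by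
  intro hc
  apply hne
  ext g
  have h1 : g⁻¹ * σ g ∈ Cfsg.fittingSubgroup G := by
    refine H1.centralizer_fitting_le fun x hx => ?_
    have := hσ _ (H1.fitting_normal.conj_mem x hx g)
    rw [map_mul, map_mul, map_inv, hσ x hx] at this
    calc x * (g⁻¹ * σ g) = g⁻¹ * (g * x * g⁻¹) * σ g := by group
      _ = g⁻¹ * (σ g * x * (σ g)⁻¹) * σ g := by rw [this]
      _ = g⁻¹ * σ g * x := by group
  set c := g⁻¹ * σ g with hc'
  have h2 : ∀ k : ℕ, (σ ^ k) g = g * c ^ k := by
    intro k
    induction k with
    | zero => simp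
    | succ k ih =>
      rw [pow_succ', MulAut.mul_apply, ih, map_mul, map_pow, hσ c h1, pow_succ', ← mul_assoc, hc',
        mul_inv_cancel_left]
  have h3 := h2 (orderOf σ)
  rw [pow_orderOf_eq_one, MulAut.one_apply, left_eq_mul] at h3
  have h4 : orderOf c = 1 := Nat.eq_one_of_dvd_coprimes hc (orderOf_dvd_of_pow_eq_one h3)
    (orderOf_dvd_natCard c)
  rw [orderOf_eq_one_iff, hc', inv_mul_eq_one] at h4
  exact h4.symm

end Cfsg.Agent.S0552
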