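import Cfsg.Statements.S0553
import Cfsg.Agent.H1.Frattini

set_option autoImplicit false
open Cfsg

namespace Cfsg.Agent.S0553

/-- Let G be a nontrivial finite solvable group in which every maximal subgroup has order coprime to its index. Then for some prime p dividing the order of G the Sylow p-subgroups of G are normal. -/
theorem result {G : Type*} [Group G] [Finite G] [Group.IsSolvable G] [Nontrivial G] (h : ∀ M : Subgroup G, IsCoatom M → (Nat.card M).Coprime M.index) : ∃ p : ℕ, p.Prime ∧ p ∣ Nat.card G ∧ ∀ P : Sylow p G, (P : Subgroup G).Normal := by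
  suffices h' : ∃ p : ℕ, p.Prime ∧ p ∣ Nat.card G ∧ ∃ P : Subgroup G, H1.IsSylowIn p P ⊤ ∧ P.Normal by
    obtain ⟨p, hp, hd, P, h1, h2⟩ := h'
    haveI := Fact.mk hp
    refine ⟨p, hp, hd, fun Q => ?_⟩
    rwa [h1.eq_of_normal (H1.isSylowIn_top Q) Subgroup.le_normalizer_of_normal]
  induction hn : Nat.card G using Nat.strong_induction_on generalizing G with | _ n ih
  subst hn
  obtain ⟨N, p, hp, hN, h0, -, -, -, hNp, -⟩ := H1.exists_minimal_normal_elementary (⊤ : Subgroup G)
    inferInstance top_ne_bot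
  haveI := Fact.mk hp
  have hpN : p ∣ Nat.card N := by
    obtain ⟨k, hk⟩ := IsPGroup.iff_card.1 hNp
    rcases k with _ | k
    · exact absurd (Subgroup.card_eq_one.1 (by simpa using hk)) h0
    · exact hk ▸ dvd_pow_self p (by omega)
  have hpG := hpN.trans (Subgroup.card_subgroup_dvd_card N)
  by_cases h1 : p ∣ N.index
  swap
  · exact ⟨p, hp, hpG, N, ⟨le_top, hNp, by rwa [Subgroup.relIndex_top_right]⟩, hN⟩
  haveI : Nontrivial (G ⧸ N) := by
    rw [← Finite.one_lt_card_iff_nontrivial]
    exact lt_of_lt_of_le hp.one_lt (Nat.le_of_dvd Nat.card_pos h1)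
  obtain ⟨q, hq, hqd, Q, hQ, hQn⟩ := ih _ (H1.card_quotient_lt h0) (G := G ⧸ N) (fun M hM => by
    have := h _ (Subgroup.isCoatom_comap_of_surjective (QuotientGroup.mk'_surjective N) hM)
    rw [Subgroup.index_comap_of_surjective _ (QuotientGroup.mk'_surjective N),
      H1.card_comap_mk'] at this
    exact Nat.Coprime.coprime_mul_left this) rfl
  haveI := Fact.mk hq
  set T := Q.comap (QuotientGroup.mk' N) with hT
  have hNT : N ≤ T := fun x hx => by
    rw [hT, Subgroup.mem_comap, QuotientGroup.mk'_apply, (QuotientGroup.eq_one_iff x).2 hx]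
    exact Q.one_mem
  obtain ⟨R, hR⟩ := H1.exists_isSylowIn (p := q) T
  have hTi : ¬ q ∣ T.relIndex ⊤ := by
    rw [Subgroup.relIndex_top_right, hT,
      Subgroup.index_comap_of_surjective _ (QuotientGroup.mk'_surjective N)]
    simpa using hQ.not_dvd
  have hR' := hR.trans le_top hTi
  have hqG := hqd.trans (Subgroup.card_quotient_dvd_card N)
  by_cases h2 : Subgroup.normalizer (R : Set G) = ⊤
  · exact ⟨q, hq, hqG, R, hR', Subgroup.normalizer_eq_top_iff.1 h2⟩
  exfalso
  obtain ⟨M, hM, hRM⟩ := (eq_top_or_exists_le_coatom _).resolve_left h2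
  have e1 : R ⊔ N = T := by
    have h3 := hR.map (QuotientGroup.mk' N)
    rw [hT, Subgroup.map_comap_eq_self_of_surjective (QuotientGroup.mk'_surjective N)] at h3
    rw [hT, ← h3.eq_of_isPGroup hQ.isPGroup, Subgroup.comap_map_eq, QuotientGroup.ker_mk']
  have e2 : M ⊔ N = ⊤ := by
    rw [eq_top_iff, ← hR.frattini_top, ← e1]
    exact sup_le (sup_le_sup_right (Subgroup.le_normalizer.trans hRM) _) (hRM.trans le_sup_left)
  have h3 := H1.index_dvd_card_of_sup_eq_top e2
  have h4 : p ∣ M.index := by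
    obtain ⟨k, hk⟩ := IsPGroup.iff_card.1 hNp
    rw [hk, Nat.dvd_prime_pow hp] at h3
    obtain ⟨j, -, hj⟩ := h3
    rcases j with _ | j
    · exact absurd (Subgroup.index_eq_one.1 (by simpa using hj)) hM.1
    · exact hj ▸ dvd_pow_self p (by omega)
  have h5 : N.index ∣ Nat.card M := by
    rw [← Subgroup.relIndex_top_right, ← e2, H1.relIndex_sup_of_le_normalizer
      Subgroup.le_normalizer_of_normal]
    exact Subgroup.relIndex_dvd_card _ _
  exact hp.one_lt.ne' (Nat.eq_one_of_dvd_coprimes (h M hM) (h1.trans h5) h4)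

end Cfsg.Agent.S0553
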