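import Cfsg.Statements.S0554
import Cfsg.Agent.H1.Fitting

set_option autoImplicit false
open Cfsg

namespace Cfsg.Agent.S0554

theorem absorb {G : Type*} [Group G] (N : Subgroup G) [hN : N.Normal] (t : ℕ) :
    ∀ (K : Fin t → Subgroup G) (i : Fin t), N ≤ K i → ∀ s : Fin t → G, (∀ j, s j ∈ K j) → ∀ n ∈ N,
      ∃ s' : Fin t → G, (∀ j, s' j ∈ K j) ∧ (List.ofFn s').prod = (List.ofFn s).prod * n := by
  induction t with
  | zero => intro K i; exact i.elim0
  | succ t ih =>
    intro K i hi s hs n hn
    rcases Fin.eq_zero_or_eq_succ i with rfl | ⟨i, rfl⟩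
    · set r := (List.ofFn fun j : Fin t => s j.succ).prod with hr
      refine ⟨Fin.cons (s 0 * (r * n * r⁻¹)) (fun j => s j.succ), fun j => ?_, ?_⟩
      · refine Fin.cases ?_ (fun j => ?_) j
        · exact (K 0).mul_mem (hs 0) (hi (hN.conj_mem n hn r))
        · exact hs _
      · simp only [List.ofFn_succ, List.prod_cons, Fin.cons_zero, Fin.cons_succ, ← hr]
        group
    · obtain ⟨s', h1, h2⟩ := ih (fun j => K j.succ) i hi (fun j => s j.succ) (fun j => hs _) n hn
      refine ⟨Fin.cons (s 0) s', fun j => ?_, ?_⟩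
      · exact Fin.cases (hs 0) (fun j => h1 j) j
      · simp only [List.ofFn_succ, List.prod_cons, Fin.cons_zero, Fin.cons_succ, h2, mul_assoc]

theorem aux {G : Type*} [Group G] [Finite G] [Group.IsSolvable G] (t : ℕ) (K : Fin t → Subgroup G)
    (h : ∀ q : ℕ, q.Prime → q ∣ Nat.card G → ∃ i, H1.IsSylowIn q (K i) ⊤) (g : G) :
    ∃ s : Fin t → G, (∀ i, s i ∈ K i) ∧ g = (List.ofFn s).prod := by
  induction hn : Nat.card G using Nat.strong_induction_on generalizing G with | _ n ih
  subst hn
  rcases subsingleton_or_nontrivial G with h0 | h0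
  · exact ⟨fun _ => 1, fun i => (K i).one_mem, Subsingleton.elim _ _⟩
  obtain ⟨N, p, hp, hN, h0, -, -, -, hNp, -⟩ := H1.exists_minimal_normal_elementary (⊤ : Subgroup G)
    inferInstance top_ne_bot
  haveI := Fact.mk hp
  have hpN : p ∣ Nat.card N := by
    obtain ⟨k, hk⟩ := IsPGroup.iff_card.1 hNp
    rcases k with _ | k
    · exact absurd (Subgroup.card_eq_one.1 (by simpa using hk)) h0
    · exact hk ▸ dvd_pow_self p (by omega)
  obtain ⟨i, hi⟩ := h p hp (hpN.trans (Subgroup.card_subgroup_dvd_card N))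
  obtain ⟨s, h1, h2⟩ := ih _ (H1.card_quotient_lt h0) (fun i => (K i).map (QuotientGroup.mk' N))
    (fun q hq hd => by
      haveI := Fact.mk hq
      obtain ⟨j, hj⟩ := h q hq (hd.trans (Subgroup.card_quotient_dvd_card N))
      have := hj.map (QuotientGroup.mk' N)
      rw [Subgroup.map_top_of_surjective _ (QuotientGroup.mk'_surjective N)] at this
      exact ⟨j, this⟩) (QuotientGroup.mk' N g) rfl
  choose s' h3 h4 using h1
  have h5 : ((List.ofFn s').prod)⁻¹ * g ∈ N := by
    rw [← QuotientGroup.eq, ← QuotientGroup.mk'_apply, ← QuotientGroup.mk'_apply, h2, map_list_prod,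
      List.map_ofFn]
    congr 2
    exact funext h4
  obtain ⟨s'', h6, h7⟩ := absorb N t K i
    (hi.ge_of_normal hNp le_top Subgroup.le_normalizer_of_normal) s' h3 _ h5
  exact ⟨s'', h6, by rw [h7]; group⟩

/-- Let G be a finite solvable group and let S assign to each of t distinct primes, including every prime divisor of the order of G, a Sylow subgroup of G. Then every element of G is a product s_0 s_1 ⋯ s_(t-1) with s_i in S i, the factors taken in the given order. -/
theorem result {G : Type*} [Group G] [Finite G] [Group.IsSolvable G] (t : ℕ) (p : Fin t → ℕ) (hp : ∀ i, (p i).Prime) (hinj : Function.Injective p) (hall : ∀ q : ℕ, q.Prime → q ∣ Nat.card G → ∃ i, p i = q) (S : (i : Fin t) → Sylow (p i) G) : ∀ g : G, ∃ s : (i : Fin t) → G, (∀ i, s i ∈ (S i : Subgroup G)) ∧ g = (List.ofFn s).prod := by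
  refine aux t (fun i => (S i : Subgroup G)) fun q hq hd => ?_
  obtain ⟨i, rfl⟩ := hall q hq hd
  haveI := Fact.mk hq
  exact ⟨i, H1.isSylowIn_top (S i)⟩

end Cfsg.Agent.S0554
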