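import Cfsg.Statements.S0555
import Cfsg.Agent.H1.Gaschutz

set_option autoImplicit false
open Cfsg

namespace Cfsg.Agent.S0555

open scoped commutatorElement

/-- Let i ≥ 1. If in the derived series of a group the quotient of the i-th term by the (i+1)-st and the quotient of the (i+1)-st by the (i+2)-nd are both cyclic, then the (i+1)-st and (i+2)-nd terms coincide. -/
theorem result {G : Type*} [Group G] (i : ℕ) (hi : 1 ≤ i) (h₁ : IsCyclic (↥(derivedSeries G i) ⧸ (derivedSeries G (i + 1)).subgroupOf (derivedSeries G i))) (h₂ : IsCyclic (↥(derivedSeries G (i + 1)) ⧸ (derivedSeries G (i + 2)).subgroupOf (derivedSeries G (i + 1)))) : derivedSeries G (i + 1) = derivedSeries G (i + 2) := by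
  set f := QuotientGroup.mk' (derivedSeries G (i + 2))
  have h3 : IsCyclic ((derivedSeries G i).map (QuotientGroup.mk' (derivedSeries G (i + 1)))) :=
    isCyclic_of_surjective _ (H1.quotientEquivMap _ _).surjective
  have h4 : IsCyclic ((derivedSeries G (i + 1)).map f) :=
    isCyclic_of_surjective _ (H1.quotientEquivMap _ _).surjective
  obtain ⟨g, hg, h5⟩ := H1.exists_le_sup_zpowers_of_isCyclic_map _ h3
  rw [QuotientGroup.ker_mk'] at h5
  haveI : ((derivedSeries G (i + 1)).map f).Normal :=
    Subgroup.Normal.map inferInstance _ (QuotientGroup.mk'_surjective _)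
  have h6 : f g ∈ Subgroup.centralizer (((derivedSeries G (i + 1)).map f : Subgroup _) : Set _) := by
    refine H1.commutator_le_centralizer_of_isCyclic (L := ⊤) h4 Subgroup.le_normalizer_of_normal ?_
    have : g ∈ ⁅(⊤ : Subgroup G), (⊤ : Subgroup G)⁆ := by
      obtain ⟨j, rfl⟩ : ∃ j, i = j + 1 := ⟨i - 1, by omega⟩
      exact Subgroup.commutator_mono le_top le_top hg
    have := Subgroup.mem_map_of_mem f this
    rw [Subgroup.map_commutator] at this
    exact Subgroup.commutator_mono le_top le_top this
  have h7 : IsMulCommutative ((derivedSeries G i).map f) :=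
    H1.isMulCommutative_of_le_sup_zpowers inferInstance h6 (by
      rw [← MonoidHom.map_zpowers, ← Subgroup.map_sup]; exact Subgroup.map_mono h5)
  refine le_antisymm ?_ (derivedSeries_antitone G (by omega))
  have h8 : (derivedSeries G (i + 1)).map f = ⊥ := by
    rw [derivedSeries_succ G i, Subgroup.map_commutator, Subgroup.commutator_eq_bot_iff_le_centralizer]
    exact fun x hx y hy => H1.comm_of_mem h7 hy hx
  rwa [Subgroup.map_eq_bot_iff, QuotientGroup.ker_mk'] at h8

end Cfsg.Agent.S0555
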