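import Cfsg.Statements.S0556
import Cfsg.Agent.H1.Frob
import Cfsg.Agent.H1.Gaschutz

set_option autoImplicit false
open Cfsg

namespace Cfsg.Agent.S0556

open scoped Pointwise

/-- If a finite group has a maximal subgroup that is abelian, then the third term of its derived series is trivial (so the group is solvable of derived length at most three). -/
theorem result {G : Type*} [Group G] [Finite G] (A : Subgroup G) (hA : IsCoatom A) [IsMulCommutative A] : derivedSeries G 3 = ⊥ := by
  suffices h : derivedSeries G 2 ≤ Subgroup.center G by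
    rw [derivedSeries_succ G 2, Subgroup.commutator_eq_bot_iff_le_centralizer]
    exact h.trans (Subgroup.center_le_centralizer _)
  have hAa : IsMulCommutative A := inferInstance
  by_cases hn : A.Normal
  · have h1 := H1.commutator_le_of_prime_index (H1.prime_index_of_normal_coatom hA)
    have : derivedSeries G 2 = ⊥ := by
      rw [derivedSeries_succ G 1, derivedSeries_one, Subgroup.commutator_eq_bot_iff_le_centralizer]
      exact fun x hx y hy => H1.comm_of_mem hAa (h1 hy) (h1 hx)
    exact this ▸ bot_le
  have hN : Subgroup.normalizer (A : Set G) = A := by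
    rcases (Subgroup.le_normalizer (H := A)).eq_or_lt with h | h
    · exact h.symm
    · exact absurd (Subgroup.normalizer_eq_top_iff.1 (hA.2 _ h)) hn
  set Z := Subgroup.center G
  set f := QuotientGroup.mk' Z
  have hf : Function.Surjective f := QuotientGroup.mk'_surjective Z
  have hZA : Z ≤ A := by
    rw [← hN]
    exact (Subgroup.center_le_centralizer _).trans (Subgroup.centralizer_le_normalizer _)
  have hmem : ∀ x, f x ∈ A.map f → x ∈ A := by
    intro x hx
    rw [← Subgroup.mem_comap, Subgroup.comap_map_eq, QuotientGroup.ker_mk', sup_eq_left.2 hZA] at hx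
    exact hx
  have hc := H1.isCoatom_map_mk' hA hZA
  have hF : Cfsg.IsFrobeniusComplement (A.map f) := by
    refine H1.isFrob_iff.2 ⟨fun h => hn ?_, hc.1, fun g x hx h1 h2 => ?_⟩
    · rw [Subgroup.map_eq_bot_iff, QuotientGroup.ker_mk'] at h
      rw [le_antisymm h hZA]; infer_instance
    obtain ⟨g, rfl⟩ := hf g
    obtain ⟨x, hx, rfl⟩ := hx
    by_contra hg
    apply h1
    have h3 : g * x * g⁻¹ ∈ A := hmem _ (by simpa using h2)
    have h4 : ¬ MulAut.conj g • A ≤ A := fun h => hg (Subgroup.mem_map_of_mem _ (by
      rw [← hN, H1.mem_normalizer_iff_conj_mem]; exact H1.conj_smul_le_iff.1 h))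
    have h5 : (⊤ : Subgroup G) ≤ Subgroup.centralizer {g * x * g⁻¹} := by
      rw [← H1.sup_eq_top_of_coatom hA h4]
      refine sup_le (fun a ha => ?_) fun a ha => ?_
      · exact Subgroup.mem_centralizer_singleton_iff.2 (H1.comm_of_mem hAa ha h3)
      · rw [Subgroup.mem_centralizer_singleton_iff]
        have := H1.comm_of_mem hAa (H1.mem_conj_smul.1 ha) hx
        calc a * (g * x * g⁻¹) = g * (g⁻¹ * a * g * x) * g⁻¹ := by group
          _ = g * (x * (g⁻¹ * a * g)) * g⁻¹ := by rw [this]
          _ = g * x * g⁻¹ * a := by group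
    have h6 : g * x * g⁻¹ ∈ Z := Subgroup.mem_center_iff.2 fun y =>
      Subgroup.mem_centralizer_singleton_iff.1 (h5 (Subgroup.mem_top y))
    have h7 : x ∈ Z := by simpa [mul_assoc] using (inferInstance : Z.Normal).conj_mem' _ h6 g
    exact (QuotientGroup.eq_one_iff x).2 h7
  obtain ⟨K, hK, -, -, hfp, hK0, -⟩ := H1.IsFrob.exists_kernel hF
  have hAa' : IsMulCommutative (A.map f) := inferInstance
  obtain ⟨V, hVK, hV0, hAV, hVa, -⟩ := H1.exists_invariant_elementary
    (Subgroup.le_normalizer_of_normal : A.map f ≤ _) (hfp.coprime Subgroup.le_normalizer_of_normal)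
    (Or.inl (H1.isSolvable_of_isMulCommutative hAa')) hK0
  have h1 : A.map f ⊔ V = ⊤ := H1.sup_eq_top_of_coatom hc fun h => hV0
    (le_bot_iff.1 (hfp.inf_eq_bot ▸ le_inf h hVK))
  have h2 : (derivedSeries G 1).map f ≤ V := by
    rw [derivedSeries_succ G 0, Subgroup.map_commutator]
    refine (Subgroup.commutator_mono (le_top.trans h1.ge) (le_top.trans h1.ge)).trans ?_
    refine (H1.commutator_sup_le_of_abelian hAa' hVa).trans ?_
    rw [Subgroup.commutator_comm]
    exact H1.commutator_le_of_le_normalizer hAV
  have h3 : (derivedSeries G 2).map f = ⊥ := by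
    rw [derivedSeries_succ G 1, Subgroup.map_commutator, Subgroup.commutator_eq_bot_iff_le_centralizer]
    exact fun x hx y hy => H1.comm_of_mem hVa (h2 hy) (h2 hx)
  rwa [Subgroup.map_eq_bot_iff, QuotientGroup.ker_mk'] at h3

end Cfsg.Agent.S0556
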