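import Cfsg.Statements.S0557
import Cfsg.Agent.H1.Frattini
import Cfsg.Agent.H2.Frobenius

set_option autoImplicit false
open Cfsg

namespace Cfsg.Agent.S0557

/-- Let H be a subgroup of a finite group G with order coprime to its index. If iterating the focal-subgroup construction starting from H reaches the trivial subgroup after finitely many steps, then H has a normal complement in G. -/
theorem result {G : Type*} [Group G] [Finite G] (H : Subgroup G) (hHall : (Nat.card H).Coprime H.index) (n : ℕ) (hfoc : (fun K : Subgroup G => Subgroup.focalSubgroup K)^[n] H = ⊥) : ∃ N : Subgroup G, N.Normal ∧ Subgroup.IsComplement' N H := by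
  set m := Nat.card H
  set L := H2.Op m (⊤ : Subgroup G) with hL
  haveI : L.Normal := by rw [hL, H2.Op_top]; infer_instance
  have h1 : L ⊔ H = ⊤ := H2.Op_sup_eq le_top (by rw [Subgroup.relIndex_top_right]; exact hHall.symm)
  obtain ⟨N, h2, -, h3, h4, -⟩ := H2.transfer_rel (n := m) (P := H ⊓ L) (H := L) inf_le_right
    (Nat.Coprime.coprime_dvd_left ((H1.relIndex_inf_dvd_of_le_normalizer le_top
      Subgroup.le_normalizer_of_normal le_top).trans (by rw [Subgroup.relIndex_top_right]))
      hHall.symm) (fun x hx => ⟨1, by
        rw [pow_one, orderOf_dvd_iff_pow_eq_one.1 (H1.orderOf_dvd_card_of_mem hx.1)]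
        exact Subgroup.one_mem _⟩)
  rw [hL, H2.Op_Op, ← hL] at h3
  rw [le_antisymm h2 h3, inf_eq_right.2 inf_le_right] at h4
  have h5 : ∀ k, H ⊓ L ≤ (fun K : Subgroup G => Subgroup.focalSubgroup K)^[k] H := by
    intro k
    induction k with
    | zero => exact inf_le_left
    | succ k ih =>
      rw [Function.iterate_succ_apply', h4, ← H2.foc_top]
      exact H2.foc_mono ih le_top
  exact ⟨L, inferInstance, H1.isComplement'_of_inf_sup
    (by rw [inf_comm]; exact le_bot_iff.1 ((h5 n).trans hfoc.le)) h1⟩

end Cfsg.Agent.S0557
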