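import Cfsg.Statements.S0558
import Cfsg.Agent.H1.Schmidt

set_option autoImplicit false
open Cfsg

namespace Cfsg.Agent.S0558
open scoped Pointwise

/-- Let H be a subgroup of a finite group G that is not a Sylow subgroup of G for any prime, and suppose that for every prime p dividing the order of H and every Sylow p-subgroup P of H the normalizer of P in G is exactly H. Then some normal subgroup of G is a complement to H. -/
theorem result {G : Type*} [Group G] [Finite G] (H : Subgroup G) (hnot : ∀ p : ℕ, p.Prime → ∀ P : Sylow p G, (P : Subgroup G) ≠ H) (hnorm : ∀ p : ℕ, p.Prime → p ∣ Nat.card H → ∀ P : Sylow p H, Subgroup.normalizer (((P : Subgroup H).map H.subtype : Subgroup G) : Set G) = H) : ∃ N : Subgroup G, N.Normal ∧ Subgroup.IsComplement' N H := by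
  have key : ∀ (p : ℕ) [Fact p.Prime], p ∣ Nat.card H → ∃ P, H1.IsSylowIn p P H ∧ H1.IsSylowIn p P ⊤ ∧
      Subgroup.normalizer (P : Set G) = H := fun p hp hd => by
    obtain ⟨P⟩ : Nonempty (Sylow p H) := inferInstance
    have h1 := hnorm p hp.out hd P
    have h2 := H1.isSylowIn_map_subtype P
    exact ⟨_, h2, H1.isSylowIn_of_normalizer le_top (by rwa [h1, inf_top_eq]), h1⟩
  have hn : Group.IsNilpotent H := H1.isNilpotent_of_isSylowIn_normal fun p _ hd => by
    obtain ⟨P, h1, -, h2⟩ := key p hd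
    exact ⟨P, h1, h2.ge⟩
  refine H1.exists_normal_complement_of_forall_hasNPC (Nat.coprime_of_dvd fun p hp h1 h2 => ?_)
    fun p hp hd => ?_
  · have := Fact.mk hp
    obtain ⟨P, h3, h4, -⟩ := key p h1
    exact h4.not_dvd_relIndex_of_le h3.le (by rwa [Subgroup.relIndex_top_right])
  obtain ⟨P, h1, h2, -⟩ := key p hd
  obtain ⟨P, rfl⟩ := h2.exists_sylow_top
  obtain ⟨q, hq, h3, h4⟩ : ∃ q : ℕ, q.Prime ∧ q ∣ Nat.card H ∧ q ≠ p := by
    by_contra h
    push Not at h
    exact hnot p hp.out P (h1.eq_of_isPGroup (H1.isPGroup_iff_isPiNum.2 h))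
  have := Fact.mk hq
  obtain ⟨Q, h5, h6, h7⟩ := key q h3
  have h8 := H1.le_centralizer_of_coprime_of_nilpotent hn h5.le h1.le
    (IsPGroup.coprime_card_of_ne _ _ h4 _ _ h5.isPGroup h1.isPGroup)
  refine H2.hasNPC_of_controls_fusion P fun x hx g hg => ?_
  have h9 : Q ≤ Subgroup.centralizer {g * x * g⁻¹} :=
    h8.trans (Subgroup.centralizer_le (by simpa using hg))
  have h10 : MulAut.conj g • Q ≤ Subgroup.centralizer {g * x * g⁻¹} :=
    H1.conj_smul_le_iff.2 fun y hy => Subgroup.mem_centralizer_singleton_iff.2 (by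
      calc _ = g * (y * x) * g⁻¹ := by group
        _ = _ := by rw [← h8 hy x hx]; group)
  obtain ⟨c, hc, e⟩ := ((h6.smul (Subgroup.le_normalizer (Subgroup.mem_top g))).of_le h10 le_top).conj
    (h6.of_le h9 le_top)
  rw [H1.conj_smul_conj_smul, H1.conj_smul_eq_self_iff, h7] at e
  obtain ⟨R, hR⟩ := H1.exists_piHallOf (π := {p}ᶜ) (M := H) inferInstance
  obtain ⟨u, hu, v, hv, e'⟩ := (H1.fac_of_coprime_relIndex h1.le hR.1 (Nat.coprime_of_dvd
    fun r hr h8 h9 => by
      by_cases e : r = p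
      · exact h1.not_dvd (e ▸ h8)
      · exact hR.2.2 r hr e h9)).ex _ e
  have h11 := H1.le_centralizer_of_coprime_of_nilpotent hn hR.1 h1.le
    (H1.isPGroup_coprime' h1.isPGroup fun h => hR.2.1 p hp.out h rfl).symm hv x hx
  refine ⟨u, hu, ?_⟩
  calc _ = (u * v) * x * (u * v)⁻¹ := by rw [mul_assoc u v, ← h11]; group
    _ = c * (g * x * g⁻¹) * c⁻¹ := by rw [← e']; group
    _ = _ := by rw [Subgroup.mem_centralizer_singleton_iff.1 hc, mul_inv_cancel_right]

end Cfsg.Agent.S0558
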