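import Cfsg.Statements.S0561
import Cfsg.Agent.H1.Product
import Cfsg.Agent.H1.Hall

set_option autoImplicit false
open Pointwise
open Cfsg

namespace Cfsg.Agent.S0561

/-- Let the finite solvable group G be the product HK of subgroups, and let A be normal in H and B normal in K, where A and B are Hall subgroups of G (order coprime to index). Then for all x, y the product set of xAx⁻¹ and yBy⁻¹ is a subgroup of G. -/
theorem result {G : Type*} [Group G] [Finite G] [Group.IsSolvable G] (H K A B : Subgroup G) (hHK : ∀ g : G, ∃ h ∈ H, ∃ k ∈ K, g = h * k) (hA : A ≤ H) (hAn : (A.subgroupOf H).Normal) (hB : B ≤ K) (hBn : (B.subgroupOf K).Normal) (hAh : (Nat.card A).Coprime A.index) (hBh : (Nat.card B).Coprime B.index) (x y : G) : ∃ S : Subgroup G, (S : Set G) = ((MulAut.conj x • A : Subgroup G) : Set G) * ((MulAut.conj y • B : Subgroup G) : Set G) := by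
  have hf : H1.Fac H K ⊤ := H1.fac_top_iff.2 hHK
  have hHA := (Subgroup.normal_subgroupOf_iff_le_normalizer hA).1 hAn
  have hKB := (Subgroup.normal_subgroupOf_iff_le_normalizer hB).1 hBn
  set π : Set ℕ := {r | r ∣ Nat.card A ∨ r ∣ Nat.card B}
  obtain ⟨W, hW, hAW⟩ := H1.exists_piHall_ge (π := π) (K := A) (fun r _ h => Or.inl h)
  obtain ⟨z, hz⟩ := H1.piHall_exists_conj_le (K := B) hW (fun r _ h => Or.inr h)
  have h1 : H1.Fac A (MulAut.conj z • B) W := by
    refine H1.fac_of_coprime_relIndex hAW hz (Nat.coprime_of_dvd fun r hr h1 h2 => ?_)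
    rcases (H1.isPiHall_iff.1 hW).1 r hr (h1.trans (Subgroup.relIndex_dvd_card _ _)) with h | h
    · exact hr.one_lt.ne' (Nat.eq_one_of_dvd_coprimes hAh h
        (h1.trans (Subgroup.relIndex_dvd_index_of_le hAW)))
    · exact hr.one_lt.ne' (Nat.eq_one_of_dvd_coprimes hBh h
        (h2.trans (H1.index_conj_smul z B ▸ Subgroup.relIndex_dvd_index_of_le hz)))
  obtain ⟨g, -, e1, e2⟩ := hf.exists_conj_smul hHA hKB (Subgroup.mem_top 1) (Subgroup.mem_top z)
  obtain ⟨g', -, e3, e4⟩ := hf.exists_conj_smul hHA hKB (Subgroup.mem_top x) (Subgroup.mem_top y)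
  rw [H1.conj_one_smul] at e1
  have h2 := h1.smul (g' * g⁻¹)
  rw [e2, H1.conj_smul_conj_smul] at h2
  nth_rewrite 1 [e1] at h2
  rw [H1.conj_smul_conj_smul, inv_mul_cancel_right, ← e3, ← e4] at h2
  exact ⟨_, H1.fac_iff_coe.1 h2⟩

end Cfsg.Agent.S0561
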