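import Cfsg.Statements.S0565
import Cfsg.Agent.H2.KW

set_option autoImplicit false
open Cfsg

namespace Cfsg.Agent.S0565

universe u
open Subgroup H9 H2K in
theorem aux (n : ℕ) : ∀ (G : Type u) [Group G] [Finite G], Nat.card G ≤ n →
    ∀ A B : Subgroup G, Group.IsNilpotent A → Group.IsNilpotent B →
    H1.Fac A B ⊤ → (A ≠ ⊤ ∨ B ≠ ⊤) → ∃ N : Subgroup G, N.Normal ∧ N ≠ ⊤ ∧ (A ≤ N ∨ B ≤ N) := by
  induction n with
  | zero => intro G _ _ h; exact absurd (Nat.card_pos (α := G)) (by omega)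
  | succ n ih =>
    intro G _ _ hn A B hA hB h hp
    by_cases hq : ∃ N : Subgroup G, N.Normal ∧ N ≠ ⊥ ∧ (A ⊔ N ≠ ⊤ ∨ B ⊔ N ≠ ⊤)
    · obtain ⟨N, hN, h0, h1⟩ := hq
      have key : ∀ X : Subgroup G, X.map (QuotientGroup.mk' N) = ⊤ → X ⊔ N = ⊤ := fun X e => by
        have := comap_map_eq (QuotientGroup.mk' N) X
        rw [e, comap_top, QuotientGroup.ker_mk'] at this
        exact this.symm
      obtain ⟨M, hM, hM1, h2⟩ := ih _ (by have := card_quot_lt N h0; omega) _ _ (nil_map _ hA) (nil_map _ hB)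
        (h.map_top (QuotientGroup.mk'_surjective N)) (h1.imp (mt (key A)) (mt (key B)))
      refine ⟨M.comap (QuotientGroup.mk' N), hM.comap _, fun e => hM1 ?_, h2.imp map_le_iff_le_comap.1 map_le_iff_le_comap.1⟩
      rw [← map_comap_eq_self_of_surjective (QuotientGroup.mk'_surjective N) M, e]
      exact map_top_of_surjective _ (QuotientGroup.mk'_surjective N)
    push Not at hq
    have hs := kw hA hB h
    have main : ∀ A B : Subgroup G, Group.IsNilpotent A → A ≠ ⊤ → B = ⊤ → Group.IsNilpotent B → ∃ N : Subgroup G, N.Normal ∧ N ≠ ⊤ ∧ A ≤ N := by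
      intro A B _ h1 e hB
      subst e
      obtain ⟨M, hM, hAM⟩ := (eq_top_or_exists_le_coatom A).resolve_left h1
      haveI : Group.IsNilpotent G := nilpotent_of_mulEquiv topEquiv
      exact ⟨M, NormalizerCondition.normal_of_coatom M normalizerCondition_of_isNilpotent hM, hM.1, hAM⟩
    by_cases hA1 : A = ⊤
    · obtain ⟨N, h1, h2, h3⟩ := main B A hB (hp.resolve_left (not_not.2 hA1)) hA1 hA
      exact ⟨N, h1, h2, Or.inr h3⟩
    by_cases hB1 : B = ⊤
    · obtain ⟨N, h1, h2, h3⟩ := main A B hA hA1 hB1 hB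
      exact ⟨N, h1, h2, Or.inl h3⟩
    have hT : (⊤ : Subgroup G) ≠ ⊥ := fun e => hA1 (eq_top_iff.2 (e.le.trans bot_le))
    obtain ⟨p, hp, hO⟩ : ∃ p : ℕ, ∃ _ : Fact p.Prime, Op p (⊤ : Subgroup G) ≠ ⊥ := by
      by_contra hc
      push Not at hc
      have hF : Fit (⊤ : Subgroup G) = ⊥ := eq_bot_iff.2 (Fit_le_of_forall_Op fun q hq => (hc q hq).le)
      have := centralizer_Fit_le_of_solvable (X := (⊤ : Subgroup G)) inferInstance
      rw [hF] at this
      exact hT (eq_bot_iff.2 (le_trans (le_inf le_rfl (le_centralizer_iff.1 bot_le)) this))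
    have hOn : (Op p (⊤ : Subgroup G)).Normal := normalizer_eq_top_iff.1 (eq_top_iff.2 (le_normalizer_Op p ⊤))
    have cop : ∀ X : Subgroup G, Group.IsNilpotent X → X ≠ ⊤ → (∀ N : Subgroup G, N.Normal → N ≠ ⊥ → X ⊔ N = ⊤) →
        ¬ p ∣ Nat.card X := by
      intro X hX h1 h2 hd
      have hP0 : Op p X ≠ ⊥ := (syl_Op_of_nilpotent hX).ne_bot hd
      -- Z = C_{O}(Op X) ; consider W = Z(O)
      set O := Op p (⊤ : Subgroup G) with hOdef
      have hW0 : O ⊓ centralizer (O : Set G) ≠ ⊥ := inf_centralizer_ne_bot_of_p (Op_p _ _) (Op_p _ _) le_normalizer hO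
      haveI hWn : (O ⊓ centralizer (O : Set G)).Normal := inferInstance
      set W := O ⊓ centralizer (O : Set G) with hW
      have hWc : W ≤ centralizer (W : Set G) := inf_le_right.trans (centralizer_anti inf_le_left)
      have hC0 : W ⊓ centralizer (Op p X : Set G) ≠ ⊥ :=
        inf_centralizer_ne_bot_of_p (Op_p _ _).to_inf_left (Op_p _ _) le_normalizer_of_normal hW0
      have hCn : (W ⊓ centralizer (Op p X : Set G)).Normal := by
        rw [← normalizer_eq_top_iff, eq_top_iff, ← h2 W hWn hW0]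
        exact sup_le (normalizer_inf le_normalizer_of_normal (normalizer_centralizer (le_normalizer_Op p X)))
          ((hWc.trans (centralizer_anti inf_le_left)).trans (centralizer_le_normalizer' _))
      have hPn : (Op p X).Normal := by
        rw [← normalizer_eq_top_iff, eq_top_iff, ← h2 _ hCn hC0]
        exact sup_le (le_normalizer_Op p X) (inf_le_right.trans (centralizer_le_normalizer' _))
      have := h2 _ hPn hP0
      rw [sup_eq_left.2 (Op_le p X)] at this
      exact h1 this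
    have h3 : p ∣ Nat.card A * Nat.card B :=
      ((dvd_card_of_isPGroup (Op_p p ⊤) hO).trans (card_dvd_of_le le_top)).trans h.card_dvd
    rcases (Nat.Prime.dvd_mul hp.out).1 h3 with h4 | h4
    · exact absurd h4 (cop A hA hA1 fun N h1 h2 => (hq N h1 h2).1)
    · exact absurd h4 (cop B hB hB1 fun N h1 h2 => (hq N h1 h2).2)

/-- Let the finite group G be the product AB of nilpotent subgroups A and B, not both equal to G. Then there is a proper normal subgroup of G containing A or containing B. -/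
theorem result {G : Type*} [Group G] [Finite G] (A B : Subgroup G) (hA : Group.IsNilpotent A) (hB : Group.IsNilpotent B) (hAB : ∀ g : G, ∃ a ∈ A, ∃ b ∈ B, g = a * b) (hproper : A ≠ ⊤ ∨ B ≠ ⊤) : ∃ N : Subgroup G, N.Normal ∧ N ≠ ⊤ ∧ (A ≤ N ∨ B ≤ N) := by
  exact aux _ G le_rfl A B hA hB (H1.fac_top_iff.2 hAB) hproper

end Cfsg.Agent.S0565
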