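import Cfsg.Statements.S0567
import Cfsg.Agent.H1.Subnormal

set_option autoImplicit false
open Cfsg

namespace Cfsg.Agent.S0567

open scoped commutatorElement

/-- A subgroup H of a group G is subnormal exactly when, for some m, the subgroup obtained from G by taking the commutator with H m times in succession is contained in H. -/
theorem result {G : Type*} [Group G] (H : Subgroup G) : H.IsSubnormal ↔ ∃ m : ℕ, (fun K : Subgroup G => ⁅K, H⁆)^[m] ⊤ ≤ H := by
  rw [← H9.sn_top_iff]
  constructor
  · intro h
    induction h using H9.SN.ind with
    | refl => exact ⟨0, le_rfl⟩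
    | step H L h1 h2 _ ih =>
      obtain ⟨m, hm⟩ := ih
      have : ∀ k, (fun K : Subgroup G => ⁅K, H⁆)^[k] ⊤ ≤ (fun K : Subgroup G => ⁅K, L⁆)^[k] ⊤ := by
        intro k
        induction k with
        | zero => exact le_rfl
        | succ k ih =>
          rw [Function.iterate_succ_apply', Function.iterate_succ_apply']
          exact Subgroup.commutator_mono ih h1
      refine ⟨m + 1, ?_⟩
      rw [Function.iterate_succ_apply']
      exact (Subgroup.commutator_mono ((this m).trans hm) le_rfl).trans (H9.commutator_le_right' h2)
  · rintro ⟨m, hm⟩
    have : ∀ k, H9.SN (H ⊔ (fun K : Subgroup G => ⁅K, H⁆)^[k] ⊤) ⊤ := by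
      intro k
      induction k with
      | zero => simpa using H9.SN.refl ⊤
      | succ k ih =>
        rw [Function.iterate_succ_apply']
        refine H9.SN.step (sup_le le_sup_left ?_) ?_ ih
        · rw [sup_comm]; exact Subgroup.commutator_le_sup _ _
        · rw [sup_comm]; exact H1.le_normalizer_sup_commutator _ _
    have := this m
    rwa [sup_eq_left.2 hm] at this

end Cfsg.Agent.S0567
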