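import Cfsg.Statements.S0568
import Cfsg.Agent.H1.System

set_option autoImplicit false
open Cfsg

namespace Cfsg.Agent.S0568

/-- Let D be the system normalizer of a Hall complement system of a finite solvable group G, and let A < B be normal subgroups with no normal subgroup of G strictly between them (a chief factor). If G centralizes B modulo A then B ≤ A ⊔ D (D covers the factor); otherwise B ∩ D ≤ A (D avoids it). -/
theorem result {G : Type*} [Group G] [Finite G] [Group.IsSolvable G] (K : Nat.Primes → Subgroup G) (hK : Cfsg.IsComplementSystem K) (A B : Subgroup G) [A.Normal] [B.Normal] (hAB : A < B) (hchief : ∀ N : Subgroup G, N.Normal → A ≤ N → N ≤ B → N = A ∨ N = B) : (⁅B, (⊤ : Subgroup G)⁆ ≤ A → B ≤ A ⊔ Cfsg.systemNormalizer K) ∧ (¬ ⁅B, (⊤ : Subgroup G)⁆ ≤ A → B ⊓ Cfsg.systemNormalizer K ≤ A) := by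
  have hf := QuotientGroup.mk'_surjective A
  have e := H1.systemNormalizer_map hK hf
  constructor
  · intro h
    have h1 : B.map (QuotientGroup.mk' A) ≤ Subgroup.centralizer ((⊤ : Subgroup (G ⧸ A)) : Set (G ⧸ A)) := by
      rw [← Subgroup.commutator_eq_bot_iff_le_centralizer, ← Subgroup.map_top_of_surjective _ hf,
        ← Subgroup.map_commutator, Subgroup.map_eq_bot_iff, QuotientGroup.ker_mk']
      exact h
    have h2 : B.map (QuotientGroup.mk' A) ≤ (Cfsg.systemNormalizer K).map (QuotientGroup.mk' A) := by
      rw [← e]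
      exact H1.le_systemNormalizer fun p => H1.le_normalizer_of_le_centralizer
        (h1.trans (Subgroup.centralizer_le (Set.subset_univ _)))
    rwa [Subgroup.map_le_map_iff, QuotientGroup.ker_mk', sup_comm] at h2
  · intro h
    have h1 := H1.systemNormalizer_inf_eq_bot (H1.IsComplementSystem.map hK hf)
      (B := B.map (QuotientGroup.mk' A)) (fun N hN h2 => ?_) (fun h2 => h ?_)
    · rw [e] at h1
      have h3 := (Subgroup.map_inf_le _ _ _).trans h1.le
      rwa [le_bot_iff, Subgroup.map_eq_bot_iff, QuotientGroup.ker_mk'] at h3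
    · rw [← Subgroup.map_comap_eq_self_of_surjective hf N]
      have h3 := Subgroup.comap_mono (f := QuotientGroup.mk' A) h2
      rw [QuotientGroup.comap_map_mk', sup_eq_right.2 hAB.le] at h3
      rcases hchief _ inferInstance (QuotientGroup.le_comap_mk' A N) h3 with h4 | h4
      · left; rw [h4, QuotientGroup.map_mk'_self]
      · right; rw [h4]
    · have h3 := Subgroup.le_centralizer_iff.1 h2.ge
      rwa [← Subgroup.commutator_eq_bot_iff_le_centralizer, ← Subgroup.map_top_of_surjective _ hf,
        ← Subgroup.map_commutator, Subgroup.map_eq_bot_iff, QuotientGroup.ker_mk'] at h3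

end Cfsg.Agent.S0568
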