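import Cfsg.Statements.S0573
import Cfsg.Agent.H1.Gaschutz
import Cfsg.Agent.H1.System

set_option autoImplicit false
open Cfsg

namespace Cfsg.Agent.S0573

open scoped commutatorElement

/-- If a nontrivial finite group G is the product AB of abelian subgroups A and B, then some nontrivial normal subgroup of G is contained in A or in B. -/
theorem result {G : Type*} [Group G] [Finite G] [Nontrivial G] (A B : Subgroup G) [IsMulCommutative A] [IsMulCommutative B] (hAB : ∀ g : G, ∃ a ∈ A, ∃ b ∈ B, g = a * b) : ∃ N : Subgroup G, N.Normal ∧ N ≠ ⊥ ∧ (N ≤ A ∨ N ≤ B) := by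
  have hA : IsMulCommutative A := inferInstance
  have hB : IsMulCommutative B := inferInstance
  have hf : H1.Fac A B ⊤ := H1.fac_top_iff.2 hAB
  by_contra hcon
  push Not at hcon
  have hA0 : ∀ N : Subgroup G, N.Normal → N ≤ A → N = ⊥ := fun N h1 h2 => by
    by_contra h; exact (hcon N h1 h).1 h2
  have hB0 : ∀ N : Subgroup G, N.Normal → N ≤ B → N = ⊥ := fun N h1 h2 => by
    by_contra h; exact (hcon N h1 h).2 h2
  set K := ⁅(⊤ : Subgroup G), (⊤ : Subgroup G)⁆ with hK
  have hKa : IsMulCommutative K := H1.ito hf hA hB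
  have key : ∀ A B : Subgroup G, IsMulCommutative A → IsMulCommutative B → H1.Fac A B ⊤ →
      (∀ N : Subgroup G, N.Normal → N ≤ B → N = ⊥) → (∀ N : Subgroup G, N.Normal → N ≤ A → N = ⊥) →
      A ⊓ Subgroup.centralizer (K : Set G) = ⊥ := by
    intro A B hA hB hf hB0 hA0
    have h1 : Subgroup.centralizer (A : Set G) ≤ A := by
      have h2 := hf.dedekind (M := Subgroup.centralizer (A : Set G))
        (fun x hx y hy => H1.comm_of_mem hA hy hx) le_top
      have h3 : B ⊓ Subgroup.centralizer (A : Set G) = ⊥ := by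
        refine hB0 _ (H1.normal_of_sup_eq_top hf.sup_eq ?_ (H1.le_normalizer_of_abelian hB inf_le_left))
          inf_le_left
        exact H1.le_normalizer_of_le_centralizer (Subgroup.le_centralizer_iff.1 inf_le_right)
      rw [← h2.sup_eq, h3, sup_bot_eq]
    refine hA0 _ (H1.normal_of_sup_eq_top hf.sup_eq (H1.le_normalizer_of_abelian hA inf_le_left) ?_)
      inf_le_left
    intro b hb
    rw [H1.mem_normalizer_iff_conj_mem]
    rintro a ⟨ha1, ha2⟩
    refine ⟨h1 fun c hc => ?_, (inferInstance : (Subgroup.centralizer (K : Set G)).Normal).conj_mem _ ha2 b⟩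
    have h4 : ⁅b⁻¹, c⁆ ∈ K := Subgroup.commutator_mem_commutator trivial trivial
    have h5 := ha2 _ h4
    have h6 := H1.comm_of_mem hA ha1 hc
    calc c * (b * a * b⁻¹) = b * (⁅b⁻¹, c⁆ * (c * a)) * b⁻¹ := by group
      _ = b * (⁅b⁻¹, c⁆ * a * c) * b⁻¹ := by rw [← h6, mul_assoc ⁅b⁻¹, c⁆]
      _ = b * (a * ⁅b⁻¹, c⁆ * c) * b⁻¹ := by rw [h5]
      _ = b * a * b⁻¹ * c := by group
  have hAC := key A B hA hB hf hB0 hA0
  have hBC := key B A hB hA hf.symm hA0 hB0
  have hKC : K ≤ Subgroup.centralizer (K : Set G) := fun x hx y hy => H1.comm_of_mem hKa hy hx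
  set X := (A ⊔ K) ⊓ (B ⊔ K) with hX
  have hKX : K ≤ X := le_inf le_sup_right le_sup_right
  have hfX : H1.Fac (A ⊓ X) (B ⊓ X) X := by
    refine ⟨inf_le_right, inf_le_right, fun x hx => ?_⟩
    obtain ⟨a, ha, b, hb, rfl⟩ := hAB x
    have h1 : a ∈ B ⊔ K := (Subgroup.mul_mem_cancel_right _ (Subgroup.mem_sup_left hb)).1 hx.2
    have h2 : b ∈ A ⊔ K := (Subgroup.mul_mem_cancel_left _ (Subgroup.mem_sup_left ha)).1 hx.1
    exact ⟨a, ⟨ha, Subgroup.mem_sup_left ha, h1⟩, b, ⟨hb, h2, Subgroup.mem_sup_left hb⟩, rfl⟩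
  have hZ : X ⊓ Subgroup.centralizer (X : Set G) = ⊥ := by
    rw [eq_bot_iff]
    intro z hz
    obtain ⟨a, ha, b, hb, rfl⟩ := hfX.center (H1.isMulCommutative_of_le inf_le_left hA)
      (H1.isMulCommutative_of_le inf_le_left hB) hz
    have h1 : a ∈ A ⊓ Subgroup.centralizer (K : Set G) := ⟨ha.1.1, Subgroup.centralizer_le hKX ha.2⟩
    have h2 : b ∈ B ⊓ Subgroup.centralizer (K : Set G) := ⟨hb.1.1, Subgroup.centralizer_le hKX hb.2⟩
    rw [hAC] at h1; rw [hBC] at h2
    exact Subgroup.mul_mem _ h1 h2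
  have key2 : ∀ A : Subgroup G, IsMulCommutative A → A ⊓ Subgroup.centralizer (K : Set G) = ⊥ →
      X ≤ A ⊔ K → Cfsg.IsCarterSubgroup ((A ⊓ X).subgroupOf X) := by
    intro A hA hAC hX
    refine ⟨H1.isNilpotent_subgroupOf _ (H1.isNilpotent_of_isMulCommutative
      (H1.isMulCommutative_of_le inf_le_left hA)), ?_⟩
    rw [← Subgroup.subgroupOf_normalizer_eq inf_le_right]
    have e : (A ⊓ X) ⊔ K = X := by
      rw [← H1.dedekind_right hKX (Or.inl Subgroup.le_normalizer_of_normal), inf_eq_right.2 hX]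
    refine le_antisymm (fun x hx => ?_) (Subgroup.subgroupOf_mono _ Subgroup.le_normalizer)
    rw [Subgroup.mem_subgroupOf] at hx ⊢
    obtain ⟨a, ha, k, hk, e1⟩ := (H1.mem_sup_of_le_normalizer_right
      Subgroup.le_normalizer_of_normal).1 (e.ge x.2)
    rw [← e1] at hx ⊢
    have h1 := H1.mem_centralizer_of_mem_normalizer (A := A ⊓ X) Subgroup.le_normalizer_of_normal
      (le_bot_iff.1 ((inf_le_inf inf_le_left hKC).trans hAC.le)) hk
      ((Subgroup.mul_mem_cancel_left _ (Subgroup.le_normalizer ha)).1 hx)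
    have h2 : k ∈ X ⊓ Subgroup.centralizer (X : Set G) := by
      refine ⟨hKX hk, ?_⟩
      have : X ≤ Subgroup.centralizer {k} := by
        rw [← e, ← H1.centralizer_zpowers]
        exact sup_le (Subgroup.le_centralizer_iff.1 (Subgroup.zpowers_le.2 h1))
          (Subgroup.le_centralizer_iff.1 (Subgroup.zpowers_le.2 (hKC hk)))
      exact fun y hy => Subgroup.mem_centralizer_singleton_iff.1 (this hy)
    rw [hZ, Subgroup.mem_bot] at h2
    rwa [h2, mul_one]
  haveI : Group.IsSolvable G := H1.isSolvable_of_normal_of_quotient K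
    (H1.isSolvable_of_isMulCommutative hKa) (H1.isSolvable_of_isMulCommutative
      (Subgroup.Normal.quotient_commutative_iff_commutator_le.2 le_rfl))
  obtain ⟨g, hg, e⟩ := H1.exists_conj_of_subgroupOf inf_le_right inf_le_right
    (H1.carter_conj (key2 A hA hAC inf_le_left) (key2 B hB hBC inf_le_right))
  rw [← e] at hfX
  have h1 : K = ⊥ := le_bot_iff.1 (hAC ▸ le_inf (hKX.trans ((hfX.eq_of_conj hg).ge.trans inf_le_left)) hKC)
  have h2 : ∀ N : Subgroup G, N.Normal := fun N =>
    Subgroup.Normal.of_commutator_le _ (by rw [commutator_def, ← hK, h1]; exact bot_le)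
  have := hf.sup_eq
  rw [hA0 A (h2 A) le_rfl, hB0 B (h2 B) le_rfl, sup_idem] at this
  exact bot_ne_top this

end Cfsg.Agent.S0573
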