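import Cfsg.Statements.S0571
import Cfsg.Agent.S0573
import Cfsg.Agent.H1.Super

set_option autoImplicit false
open Cfsg

namespace Cfsg.Agent.S0571

/-- If a finite group G is the product AB of two cyclic subgroups (every element is a product ab), then G is supersolvable. -/
theorem result {G : Type*} [Group G] [Finite G] (A B : Subgroup G) [IsCyclic A] [IsCyclic B] (hAB : ∀ g : G, ∃ a ∈ A, ∃ b ∈ B, g = a * b) : Cfsg.IsSupersolvable G := by
  induction hn : Nat.card G using Nat.strong_induction_on generalizing G with | _ n ih
  subst hn
  rcases subsingleton_or_nontrivial G with h0 | h0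
  · exact H1.super_of_subsingleton
  obtain ⟨N, hN, h1, h2⟩ := Cfsg.Agent.S0573.result A B hAB
  have hc : IsCyclic N := by
    rcases h2 with h | h
    · exact Subgroup.isCyclic_of_le h
    · exact Subgroup.isCyclic_of_le h
  refine H1.super_of_cyclic_normal N hc ?_
  haveI := isCyclic_of_surjective _ ((QuotientGroup.mk' N).subgroupMap_surjective A)
  haveI := isCyclic_of_surjective _ ((QuotientGroup.mk' N).subgroupMap_surjective B)
  exact ih _ (H1.card_quotient_lt h1) (A.map (QuotientGroup.mk' N)) (B.map (QuotientGroup.mk' N))
    (H1.fac_top_iff.1 ((H1.fac_top_iff.2 hAB).map_top (QuotientGroup.mk'_surjective N))) rfl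

end Cfsg.Agent.S0571
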