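import Cfsg.Statements.S0577
import Cfsg.Agent.H1.Schmidt

set_option autoImplicit false
open Cfsg

namespace Cfsg.Agent.S0577

/-- Let G be a finite minimal non-nilpotent group and Q a normal Sylow q-subgroup of G, and let D be the commutator subgroup of Q regarded in G (a normal subgroup). Then G modulo D is non-abelian and all its proper subgroups are abelian. -/
theorem result {G : Type*} [Group G] [Finite G] (hG : Cfsg.IsMinimalNonNilpotent G) (q : ℕ) [Fact q.Prime] (hq : q ∣ Nat.card G) (Q : Sylow q G) (hQ : (Q : Subgroup G).Normal) (D : Subgroup G) [D.Normal] (hD : D = (commutator ↥(Q : Subgroup G)).map (Q : Subgroup G).subtype) : ¬ IsMulCommutative (G ⧸ D) ∧ ∀ K : Subgroup (G ⧸ D), K ≠ ⊤ → IsMulCommutative K := by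
  rw [Subgroup.map_subtype_commutator] at hD
  obtain ⟨p, r, x, R, hp, hr, h1, h2, h3, h4, h5, h6⟩ := H1.minimalNonNilpotent_structure hG.1 hG.2
  have := Fact.mk hp
  have := Fact.mk hr
  have hQ' := H1.isSylowIn_top Q
  have hqr : q = r := by
    have h7 := (H1.fac_of_normalizer (A := Subgroup.zpowers x) (B := R)
      (Or.inl Subgroup.le_normalizer_of_normal)).card_dvd
    rw [h5, Subgroup.card_top] at h7
    rcases (Nat.Prime.dvd_mul Fact.out).1 (hq.trans h7) with h8 | h8
    · have e : q = p := H1.isPGroup_iff_isPiNum.1 h2.isPGroup q Fact.out h8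
      subst e
      have e := hQ'.eq_of_normal h2 Subgroup.le_normalizer_of_normal
      refine (h6 (H1.le_centralizer_of_normalizes_of_disjoint Subgroup.le_normalizer_of_normal
        (e ▸ Subgroup.le_normalizer_of_normal) (disjoint_iff.1 (IsPGroup.disjoint_of_ne _ _ h1 _ _
          h2.isPGroup h3.isPGroup)) (Subgroup.mem_zpowers x))).elim
    · exact H1.isPGroup_iff_isPiNum.1 h3.isPGroup q Fact.out h8
  subst hqr
  have e := hQ'.eq_of_normal h3 Subgroup.le_normalizer_of_normal
  subst e
  have hc := IsPGroup.coprime_card_of_ne _ _ h1 _ _ h2.isPGroup h3.isPGroup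
  refine ⟨fun h => h6 (H1.le_centralizer_of_frattini Subgroup.le_normalizer_of_normal
    (hc.coprime_dvd_right (Subgroup.card_subgroup_dvd_card _)) ?_ (Subgroup.mem_zpowers x)), fun K hK => ?_⟩
  · refine ((Subgroup.commutator_mono le_top le_top).trans
      (Subgroup.Normal.quotient_commutative_iff_commutator_le.1 h)).trans ?_
    rw [hD]
    exact H1.commutator_le_map_frattini h3.isPGroup.isNilpotent
  have hf := QuotientGroup.mk'_surjective D
  have h7 := hG.2 (K.comap (QuotientGroup.mk' D)) fun e => hK (by
    rw [← Subgroup.map_comap_eq_self_of_surjective hf K, e, Subgroup.map_top_of_surjective _ hf])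
  rw [← Subgroup.map_comap_eq_self_of_surjective hf K]
  generalize K.comap (QuotientGroup.mk' D) = L at h7
  obtain ⟨P, hP⟩ := H1.exists_isSylowIn p L
  obtain ⟨S, hS⟩ := H1.exists_isSylowIn q L
  have h8 : L ≤ P ⊔ S := H1.le_of_forall_pSubgroup_le fun r hr hd U hU hUL => by
    have h9 := (H1.fac_of_normalizer (A := Subgroup.zpowers x) (B := Q)
      (Or.inl Subgroup.le_normalizer_of_normal)).card_dvd
    rw [h5, Subgroup.card_top] at h9
    rcases (Nat.Prime.dvd_mul hr).1 ((hd.trans (Subgroup.card_subgroup_dvd_card L)).trans h9) with h10 | h10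
    · have e : r = p := H1.isPGroup_iff_isPiNum.1 h2.isPGroup r hr h10
      subst e
      exact (hP.le_of_le_normalizer hU hUL (hUL.trans (hP.le_normalizer_of_nilpotent h7))).trans le_sup_left
    · have e : r = q := H1.isPGroup_iff_isPiNum.1 h3.isPGroup r hr h10
      subst e
      exact (hS.le_of_le_normalizer hU hUL (hUL.trans (hS.le_normalizer_of_nilpotent h7))).trans le_sup_right
  refine H1.isMulCommutative_of_le (Subgroup.map_mono h8) ?_
  rw [Subgroup.map_sup]
  refine H1.isMulCommutative_sup ?_ ?_ ?_
  · obtain ⟨g, -, h9⟩ := h2.exists_conj_le hP.isPGroup le_top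
    rw [H1.conj_smul_le_iff_le, H1.conj_smul_eq_map, MonoidHom.map_zpowers] at h9
    have := H1.isCyclic_of_le_zpowers' h9
    infer_instance
  · rw [← Subgroup.le_centralizer_iff_isMulCommutative, ← Subgroup.commutator_eq_bot_iff_le_centralizer,
      ← Subgroup.map_commutator, Subgroup.map_eq_bot_iff, QuotientGroup.ker_mk', hD]
    have := h3.le_of_le_normalizer hS.isPGroup le_top Subgroup.le_normalizer_of_normal
    exact Subgroup.commutator_mono this this
  · rw [← Subgroup.commutator_eq_bot_iff_le_centralizer, ← Subgroup.map_commutator,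
      Subgroup.commutator_eq_bot_iff_le_centralizer.2 (H1.le_centralizer_of_coprime_of_nilpotent h7
        hP.le hS.le (IsPGroup.coprime_card_of_ne _ _ h1 _ _ hP.isPGroup hS.isPGroup)), Subgroup.map_bot]

end Cfsg.Agent.S0577
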