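import Cfsg.Statements.S0578
import Cfsg.Agent.H1.Schmidt

set_option autoImplicit false
open Cfsg

namespace Cfsg.Agent.S0578

/-- If in a finite group the normalizer of each abelian subgroup coincides with its centralizer, then the group is abelian. -/
theorem result {G : Type*} [Group G] [Finite G] (h : ∀ A : Subgroup G, IsMulCommutative A → Subgroup.normalizer (A : Set G) = Subgroup.centralizer (A : Set G)) : IsMulCommutative G := by
  suffices ∀ L : Subgroup G, IsMulCommutative L from
    ⟨⟨fun a b => H1.comm_of_mem (this ⊤) trivial trivial⟩⟩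
  intro L
  induction L using WellFoundedLT.induction with
  | ind L ih =>
  by_cases h0 : L = ⊥
  · rw [h0]; infer_instance
  have h1 : Group.IsSolvable L := H1.isSolvable_of_proper_nilpotent fun M hM => by
    have := H1.isNilpotent_of_isMulCommutative (ih (M.map L.subtype)
      (lt_of_le_of_ne (Subgroup.map_subtype_le M) fun e => hM (by
        rw [← H1.subgroupOf_map_subtype_self M, e, Subgroup.subgroupOf_self])))
    exact Group.nilpotent_of_mulEquiv (M.equivMapOfInjective _ L.subtype_injective).symm
  obtain ⟨B, h2, h3, h4⟩ := H1.exists_normal_prime_relIndex h1 h0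
  have h5 := ih B (H1.lt_of_prime_relIndex h2 h4)
  obtain ⟨x, hx, h6⟩ := SetLike.exists_of_lt (H1.lt_of_prime_relIndex h2 h4)
  rw [h B h5] at h3
  refine H1.isMulCommutative_of_le_sup_zpowers h5 (h3 hx) ?_
  have h7 : B ⊔ Subgroup.zpowers x ≤ L := sup_le h2 ((Subgroup.zpowers_le).2 hx)
  have h8 := Subgroup.relIndex_mul_relIndex B _ L le_sup_left h7
  rcases (Nat.dvd_prime h4).1 (Dvd.intro _ h8) with h9 | h9
  · exact (h6 (Subgroup.relIndex_eq_one.1 h9 (Subgroup.mem_sup_right (Subgroup.mem_zpowers x)))).elim
  · rw [h9] at h8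
    exact Subgroup.relIndex_eq_one.1 (Nat.eq_of_mul_eq_mul_left h4.pos (h8.trans (mul_one _).symm))

end Cfsg.Agent.S0578
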