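import Cfsg.Statements.S0581
import Cfsg.Agent.H1.Schmidt

set_option autoImplicit false
open Pointwise
open Cfsg

namespace Cfsg.Agent.S0581

/-- Let H be a nilpotent subgroup of a finite group G whose order is coprime to its index, and K a subgroup every prime divisor of whose order divides the order of H. Then K lies in some conjugate of H. -/
theorem result {G : Type*} [Group G] [Finite G] (H K : Subgroup G) (hH : Group.IsNilpotent H) (hHall : (Nat.card H).Coprime H.index) (hK : ∀ p : ℕ, p.Prime → p ∣ Nat.card K → p ∣ Nat.card H) : ∃ x : G, K ≤ MulAut.conj x • H := by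
  obtain ⟨g, -, h⟩ := H1.exists_conj_le_of_nilpotent_hall hH
    (H1.isPiHallOf_top.2 (H1.piHall_of_coprime hHall)) le_top hK
  exact ⟨g⁻¹, H1.conj_smul_le_iff_le.1 h⟩

end Cfsg.Agent.S0581
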