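import Cfsg.Statements.S0582
import Cfsg.Agent.H1.Super
import Cfsg.Agent.H1.Section

set_option autoImplicit false
open Pointwise
open Cfsg

namespace Cfsg.Agent.S0582

/-- Let H and K be supersolvable subgroups of a finite group G of the same order, that order being coprime to their index. Then H and K are conjugate in G. -/
theorem result {G : Type*} [Group G] [Finite G] (H K : Subgroup G) (hH : Cfsg.IsSupersolvable H) (hK : Cfsg.IsSupersolvable K) (hcard : Nat.card H = Nat.card K) (hHall : (Nat.card H).Coprime H.index) : ∃ x : G, MulAut.conj x • H = K := by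
  induction hn : Nat.card G using Nat.strong_induction_on generalizing G with | _ n ih
  subst hn
  by_cases h0 : H = ⊥
  · subst h0
    rw [Subgroup.card_bot, eq_comm, Subgroup.card_eq_one] at hcard
    exact ⟨1, by rw [hcard, H1.conj_one_smul]⟩
  obtain ⟨p, hp, hd, hmax⟩ := H1.exists_max_prime (Nat.card_pos (α := H)).ne'
    (fun h => h0 (Subgroup.card_eq_one.1 h))
  haveI := Fact.mk hp
  have key : ∀ H' : Subgroup G, Cfsg.IsSupersolvable H' → Nat.card H = Nat.card H' →
      ∃ P, H1.IsSylowIn p P ⊤ ∧ P ≤ H' ∧ H' ≤ Subgroup.normalizer (P : Set G) := by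
    intro H' h1 h2
    obtain ⟨P⟩ : Nonempty (Sylow p H') := inferInstance
    have h3 := H1.isSylowIn_map_subtype P
    refine ⟨_, h3.trans le_top ?_, h3.le, H1.normal_map_subtype_iff.1
      (H1.super_sylow_normal h1 (h2 ▸ hmax) (H1.isSylowIn_top P))⟩
    have : H'.index = H.index := by
      have := H.card_mul_index.trans H'.card_mul_index.symm
      rw [h2] at this
      exact (Nat.eq_of_mul_eq_mul_left Nat.card_pos this).symm
    rw [Subgroup.relIndex_top_right, this]
    exact fun h => hp.one_lt.ne' (Nat.eq_one_of_dvd_coprimes hHall hd h)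
  obtain ⟨P, hP, hPH, hHP⟩ := key H hH rfl
  obtain ⟨Q, hQ, hQK, hKQ⟩ := key K hK hcard
  obtain ⟨g, -, rfl⟩ := hP.conj hQ
  set Q := MulAut.conj g • P with hQ'
  set H' := MulAut.conj g • H with hH'
  have h1 : Q ≤ H' := H1.conj_smul_mono g hPH
  have h2 : H' ≤ Subgroup.normalizer (Q : Set G) := by
    rw [hQ', H1.normalizer_conj_smul]; exact H1.conj_smul_mono g hHP
  have h3 : Q ≠ ⊥ := by
    rw [Ne, hQ.eq_bot_iff, not_not, Subgroup.card_top]
    exact hd.trans (Subgroup.card_subgroup_dvd_card H)
  obtain ⟨S, _, f, hf, hker⟩ := H1.exists_section (L := Subgroup.normalizer (Q : Set G)) (N := Q)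
    Subgroup.le_normalizer le_rfl
  haveI : Finite S := Finite.of_surjective f hf
  have hc' : Nat.card H' = Nat.card H := H1.card_conj_smul g H
  obtain ⟨x, hx⟩ := ih _ (lt_of_lt_of_le (H1.card_section_lt hf (by rwa [hker]))
    (Subgroup.card_le_card_group _)) (H1.bar f H') (H1.bar f K)
    (H1.super_map _ (H1.super_subgroupOf _ (by rw [hH', H1.conj_smul_eq_map]; exact H1.super_map _ hH)))
    (H1.super_map _ (H1.super_subgroupOf _ hK))
    (by
      rw [H1.card_bar h2, H1.card_bar hKQ, hker]
      have := (H1.card_mul_relIndex h1).trans (hc'.trans (hcard.trans (H1.card_mul_relIndex hQK).symm))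
      exact Nat.eq_of_mul_eq_mul_left Nat.card_pos this)
    (by
      rw [← Subgroup.relIndex_top_right, ← H1.bar_self hf, H1.relIndex_bar h2 le_rfl (hker.le.trans h1)]
      refine Nat.Coprime.coprime_dvd_left (H1.card_bar_dvd _) (Nat.Coprime.coprime_dvd_right
        (Subgroup.relIndex_dvd_index_of_le h2) ?_)
      rwa [hc', hH', H1.index_conj_smul]) rfl
  obtain ⟨x, rfl⟩ := hf x
  rw [← H1.bar_conj_smul] at hx
  have h4 := congrArg (H1.unbar f) hx
  rw [H1.unbar_bar_of_le (H1.conj_smul_le_of_mem h2 x.2) (hker.le.trans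
    ((H1.conj_smul_eq_self_iff.2 x.2).ge.trans (H1.conj_smul_mono _ h1))),
    H1.unbar_bar_of_le hKQ (hker.le.trans hQK), hH', H1.conj_smul_conj_smul] at h4
  exact ⟨_, h4⟩

end Cfsg.Agent.S0582
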