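import Cfsg.Statements.S0586
import Cfsg.Agent.H1.Frattini

set_option autoImplicit false
open Cfsg

namespace Cfsg.Agent.S0586

/-- If the Frattini subgroup of a finite group G is trivial, then the Fitting subgroup of G equals the join of all abelian minimal normal subgroups of G. -/
theorem result {G : Type*} [Group G] [Finite G] (hΦ : frattini G = ⊥) : Cfsg.fittingSubgroup G = sSup {N : Subgroup G | N.Normal ∧ N ≠ ⊥ ∧ IsMulCommutative N ∧ ∀ K : Subgroup G, K.Normal → K ≤ N → K = ⊥ ∨ K = N} := by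
  set S := sSup {N : Subgroup G | N.Normal ∧ N ≠ ⊥ ∧ IsMulCommutative N ∧
    ∀ K : Subgroup G, K.Normal → K ≤ N → K = ⊥ ∨ K = N} with hS
  set F := Cfsg.fittingSubgroup G
  have h1 : S ≤ F := sSup_le fun N hN => by
    haveI := hN.1
    exact H1.le_fitting (H1.isNilpotent_of_isMulCommutative hN.2.2.1)
  refine le_antisymm ?_ h1
  have hF : IsMulCommutative F := by
    have := (H1.commutator_le_map_frattini H1.fitting_isNilpotent).trans
      (H1.map_frattini_le_of_normal F)
    rw [hΦ, le_bot_iff, Subgroup.commutator_eq_bot_iff_le_centralizer] at this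
    exact H1.isMulCommutative_of_comm fun x hx y hy => this hy x hx
  haveI : S.Normal := Subgroup.sSup_normal _ fun N hN => hN.1
  obtain ⟨H, hH⟩ := H1.exists_complement_of_inf_frattini (H1.isMulCommutative_of_le h1 hF)
    (by rw [hΦ, inf_bot_eq])
  haveI : (F ⊓ H).Normal := H1.inf_normal_of_abelian hF
    (eq_top_iff.2 (hH.sup_eq_top.ge.trans (sup_le_sup_right h1 _)))
  have h2 : F ⊓ H = ⊥ := by
    by_contra h
    obtain ⟨M, hM1, hM2, hM3, hM4⟩ := H1.exists_minimal_normal_le _ h
    have : M ≤ S := le_sSup ⟨hM1, hM2, H1.isMulCommutative_of_le (hM3.trans inf_le_left) hF, hM4⟩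
    exact hM2 (le_bot_iff.1 (hH.disjoint.eq_bot ▸ le_inf this (hM3.trans inf_le_right)))
  have h3 := H1.dedekind_left (B := H) h1 (Or.inr Subgroup.le_normalizer_of_normal)
  rw [hH.sup_eq_top, top_inf_eq, inf_comm, h2, sup_bot_eq] at h3
  exact h3.le

end Cfsg.Agent.S0586
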