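import Cfsg.Statements.S0587
import Cfsg.Agent.H1.Primitive

set_option autoImplicit false
open Cfsg

namespace Cfsg.Agent.S0587

/-- Let G be a finite group whose largest normal p-subgroup L is nontrivial, and M a maximal subgroup of G with trivial normal core. Then L is elementary abelian, M is a complement to L, L is a minimal normal subgroup of G, the centralizer of L is L, and for every prime q such that the largest normal q-subgroup of M is nontrivial, the order of L is congruent to 1 modulo q and q ≠ p. -/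
theorem result {G : Type*} [Group G] [Finite G] (p : ℕ) [Fact p.Prime] (hL : Cfsg.pCore p G ≠ ⊥) (M : Subgroup G) (hM : IsCoatom M) (hcore : M.normalCore = ⊥) : Cfsg.IsElementaryAbelian p (Cfsg.pCore p G) ∧ Subgroup.IsComplement' (Cfsg.pCore p G) M ∧ (∀ K : Subgroup G, K.Normal → K ≤ Cfsg.pCore p G → K = ⊥ ∨ K = Cfsg.pCore p G) ∧ Subgroup.centralizer ((Cfsg.pCore p G : Subgroup G) : Set G) = Cfsg.pCore p G ∧ ∀ (q : ℕ) [Fact q.Prime], Cfsg.pCore q ↥M ≠ ⊥ → Nat.card (Cfsg.pCore p G) % q = 1 % q ∧ q ≠ p := by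
  have hp := H1.pCore_isPGroup (p := p) (G := G)
  obtain ⟨N, q, hq, h1, h2, h3, h4, h5, h6, hmin⟩ := H1.exists_minimal_normal_elementary
    (Cfsg.pCore p G) (H1.isSolvable_of_isPGroup hp) hL
  obtain ⟨h7, h8, -⟩ := H1.abelian_normal_of_corefree hM hcore h2 h4
  have e : Cfsg.pCore p G = N :=
    le_antisymm (h7 ▸ H1.le_centralizer_minimal_normal hp.isNilpotent hmin) h3
  rw [e] at hp ⊢
  have := Fact.mk hq
  have hqp : q = p := by
    by_contra hne
    exact h2 (by simpa using IsPGroup.disjoint_of_ne q p hne N N h6 hp)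
  subst hqp
  refine ⟨⟨h4, h5⟩, H1.isComplement'_of_corefree hM hcore h2 h4, hmin, h7, fun r _ hr => ?_⟩
  have h9 := H1.map_subtype_pCore_isPGroup (p := r) M
  have h10 : (Cfsg.pCore r M).map M.subtype ≠ ⊥ := by
    rwa [Ne, Subgroup.map_eq_bot_iff_of_injective _ M.subtype_injective]
  have h11 := H1.normalizer_eq_of_corefree hM hcore h10 (Subgroup.map_subtype_le _)
    (H1.normal_map_subtype_iff.1 inferInstance)
  have h12 : N ⊓ Subgroup.centralizer ((Cfsg.pCore r M).map M.subtype : Set G) = ⊥ :=
    eq_bot_iff.2 (le_trans (inf_le_inf_left _ ((Subgroup.centralizer_le_normalizer _).trans h11.le)) h8.le)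
  refine ⟨?_, ?_⟩
  · have := H1.card_modEq_card_inf_centralizer (L := N) h9 Subgroup.le_normalizer_of_normal
    rwa [h12, Subgroup.card_bot] at this
  · rintro rfl
    exact H1.inf_centralizer_ne_bot_of_isPGroup h6 h9 Subgroup.le_normalizer_of_normal h2 h12

end Cfsg.Agent.S0587
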