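import Cfsg.Statements.S0588
import Cfsg.Agent.H1.Frob

set_option autoImplicit false
open Cfsg

namespace Cfsg.Agent.S0588

/-- If a subgroup H of a finite group G contains the centralizer of every non-identity element of H, then the order of H is coprime to its index. -/
theorem result {G : Type*} [Group G] [Finite G] (H : Subgroup G) (h : ∀ x ∈ H, x ≠ 1 → Subgroup.centralizer ({x} : Set G) ≤ H) : (Nat.card H).Coprime H.index := by
  refine Nat.coprime_of_dvd fun p hp h1 h2 => ?_
  have := Fact.mk hp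
  obtain ⟨Q, hQ⟩ := H1.exists_isSylowIn p H
  obtain ⟨P, hP, h3⟩ := H1.exists_isSylowIn_ge hQ.isPGroup le_top
  have h4 : Q ≠ ⊥ := fun e => hQ.eq_bot_iff.1 e h1
  have h5 : P ≤ H := by
    obtain ⟨⟨z, hz, hz'⟩, h0⟩ := Subgroup.ne_bot_iff_exists_ne_one.1
      (H1.inf_centralizer_ne_bot_of_isPGroup hP.isPGroup hP.isPGroup Subgroup.le_normalizer
        fun e => h4 (eq_bot_iff.2 (h3.trans e.le)))
    obtain ⟨⟨x, hx⟩, h6⟩ := Subgroup.ne_bot_iff_exists_ne_one.1 h4
    have h7 : z ∈ H := h x (hQ.le hx) (fun e => h6 (Subtype.ext e))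
      (Subgroup.mem_centralizer_singleton_iff.2 (hz' x (h3 hx)).symm)
    exact fun y hy => h z h7 (fun e => h0 (Subtype.ext e))
      (Subgroup.mem_centralizer_singleton_iff.2 (hz' y hy))
  exact hP.not_dvd_relIndex_of_le h5 (by rwa [Subgroup.relIndex_top_right])

end Cfsg.Agent.S0588
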