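import Cfsg.Statements.S0592
import Cfsg.Agent.H9.QP

set_option autoImplicit false
open Cfsg

namespace Cfsg.Agent.S0592

/-- Two quadratically acting generators of a linear group that is not a p-group, with the p'-part of the order of their product dividing q - 1, give a homomorphism onto a subgroup of SL(2, q) that is not a p-group. -/
theorem result {K : Type*} [Field K] [Fintype K] {p : ℕ} [Fact p.Prime] [CharP K p] {W : Type*} [AddCommGroup W] [Module K W] [FiniteDimensional K W] [Finite W] [Nontrivial W] (H : Subgroup (W ≃ₗ[K] W)) (a b : W ≃ₗ[K] W) (hH : H = Subgroup.closure {a, b}) (ha : ∀ w : W, a (a w - w) = a w - w) (hb : ∀ w : W, b (b w - w) = b w - w) (hnp : ¬ IsPGroup p H) (hk : ∃ e k : ℕ, orderOf (a * b) = p ^ e * k ∧ k ∣ Fintype.card K - 1) : ∃ φ : H →* Matrix.SpecialLinearGroup (Fin 2) K, ¬ IsPGroup p φ.range := by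
  open H9 Subgroup in open scoped commutatorElement in
  subst hH
  obtain ⟨e, k, h1, h2⟩ := hk
  let ρ : Subgroup.closure {a, b} →* Module.End K W := LinearEquiv.automorphismGroup.toLinearMapMonoidHom.comp (Subgroup.subtype _)
  have sq : ∀ x : Subgroup.closure {a, b}, (∀ w, x.1 (x.1 w - w) = x.1 w - w) → (ρ x - 1) ^ 2 = 0 := fun x hx =>
    LinearMap.ext fun w => sub_eq_zero.2 (hx w)
  rcases quad_pair (p := p) ρ (a := ⟨a, Subgroup.subset_closure (Or.inl rfl)⟩) (b := ⟨b, Subgroup.subset_closure (Or.inr rfl)⟩) (by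
    apply Subgroup.map_injective (subtype_injective _)
    rw [MonoidHom.map_closure, ← MonoidHom.range_eq_map, range_subtype, Set.image_pair]; rfl) (sq _ ha) (sq _ hb)
    (e := e) (Subtype.ext (orderOf_dvd_iff_pow_eq_one.1 (h1 ▸ Nat.mul_dvd_mul_left _ h2))) with ⟨n, hn⟩ | ⟨φ, -, -, -, h⟩
  · refine absurd (fun g => ⟨n, Subtype.ext (LinearEquiv.toLinearMap_injective ?_)⟩) hnp
    have := hn g
    rw [← map_pow] at this
    exact this
  · exact ⟨φ, h⟩

end Cfsg.Agent.S0592
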