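import Cfsg.Statements.S0594
import Cfsg.Agent.H9.Qd

set_option autoImplicit false
open Cfsg

namespace Cfsg.Agent.S0594

/-- For odd p, two quadratic generators of a faithful group that is not a p-group, one of which acts nontrivially on a normal subgroup of order prime to p, force p = 3 and a section isomorphic to SL(2,3). -/
theorem result {G : Type*} [Group G] [Finite G] {p : ℕ} [Fact p.Prime] (hp : p ≠ 2) (V H : Subgroup G) (hV : Cfsg.IsElementaryAbelian p V) (hHV : H ≤ Subgroup.normalizer (V : Set G)) (hf : H ⊓ Subgroup.centralizer (V : Set G) = ⊥) (a b : G) (hab : H = Subgroup.closure {a, b}) (ha : ⁅⁅V, Subgroup.zpowers a⁆, Subgroup.zpowers a⁆ = ⊥) (hb : ⁅⁅V, Subgroup.zpowers b⁆, Subgroup.zpowers b⁆ = ⊥) (hnp : ¬ IsPGroup p H) (Q : Subgroup G) (hQH : Q ≤ H) (hQn : H ≤ Subgroup.normalizer (Q : Set G)) (hQ : (Nat.card Q).Coprime p) (hQa : ⁅Q, Subgroup.zpowers a⁆ ≠ ⊥) : p = 3 ∧ ∃ (K L : Subgroup G) (hL : (L.subgroupOf K).Normal), K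 ≤ H ∧ Nonempty ((K ⧸ L.subgroupOf K) ≃* Matrix.SpecialLinearGroup (Fin 2) (ZMod 3)) := by
  open H9 Subgroup in open scoped commutatorElement in
  have h1 : a ∈ H := hab ▸ subset_closure (Or.inl rfl)
  have h0 := zpowers_le.2 h1
  have hA : IsPGroup p (zpowers a) := isPGroup_of_Ores_eq_bot (eq_bot_iff.2 ((le_inf ((Ores_le p _).trans h0)
    (Ores_le_centralizer_of_quad (isPGroup_of_elem hV.2) (h0.trans hHV) ha)).trans hf.le))
  have h2 : Q ⊔ zpowers a ≤ H := sup_le hQH h0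
  obtain ⟨K, h3, h4⟩ := nat2_of_not_mem_Opm hp hV (h2.trans hHV) (mem_sup_right (mem_zpowers a)) ha fun h => hQa (by
    have h5 := zpowers_le.2 (Opm_le_Op (by
      rw [eq_bot_iff.2 ((inf_le_inf_left _ h2).trans ((inf_comm _ _).trans hf).le)]; exact IsPGroup.of_bot) h)
    rw [eq_bot_iff, ← commutator_eq_bot_of_p_p' (Op_p p (Q ⊔ zpowers a)) hQ ((Op_le p _).trans (h2.trans hQn))
      (le_sup_left.trans (le_normalizer_Op p _)), commutator_comm]
    exact commutator_mono h5 le_rfl)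
  have h5 := h4.sect.mono h3
  obtain rfl := h5.eq_three hp (psol_of_npc (npc_of_le_sup hQ hA (h0.trans hQn) le_rfl))
  exact ⟨rfl, sect_iff.1 (h5.mono h2)⟩

end Cfsg.Agent.S0594
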