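import Cfsg.Statements.S0600
import Cfsg.Agent.H9.Thom

set_option autoImplicit false
open Cfsg

namespace Cfsg.Agent.S0600

/-- A normal elementary abelian p-subgroup generated by the fixed points of the Sylow p-subgroups admits no nontrivial normal p-subgroup of G modulo its centralizer. -/
theorem result {G : Type*} [Group G] [Finite G] {p : ℕ} [Fact p.Prime] (V : Subgroup G) [V.Normal] (hV : Cfsg.IsElementaryAbelian p V) (hgen : V = ⨆ S : Sylow p G, V ⊓ Subgroup.centralizer ((S : Subgroup G) : Set G)) : Cfsg.pCore p (G ⧸ Subgroup.centralizer (V : Set G)) = ⊥ := by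
  open H9 Subgroup in open scoped commutatorElement in
  refine pCore_quot_eq_bot_iff.2 (le_centralizer_iff.1 (hgen.le.trans (iSup_le fun S => ?_)))
  exact le_centralizer_iff.1 (Opm_le_centralizer (syl_top_of_sylow S))

end Cfsg.Agent.S0600
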