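import Cfsg.Statements.S0602
import Cfsg.Agent.H9.Thom

set_option autoImplicit false
open Cfsg

namespace Cfsg.Agent.S0602

/-- The Thompson subgroup is characteristic, and nontrivial as soon as p divides the group order. -/
theorem result {G : Type*} [Group G] [Finite G] {p : ℕ} [Fact p.Prime] : (Cfsg.thompsonSubgroup p G).Characteristic ∧ (p ∣ Nat.card G → Cfsg.thompsonSubgroup p G ≠ ⊥) := by
  open H9 Subgroup in open scoped commutatorElement in
  rw [← JE_top]
  refine ⟨characteristic_iff_map_eq.2 fun φ => ?_, fun h => JE_ne_bot (by simpa using h)⟩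
  rw [map_JE φ.injective, map_top_of_surjective _ φ.surjective]

end Cfsg.Agent.S0602
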