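import Cfsg.Statements.S0604
import Cfsg.Agent.H9.Thom

set_option autoImplicit false
open Cfsg

namespace Cfsg.Agent.S0604

/-- The Thompson subgroup of G is the join of the Thompson subgroups of its Sylow p-subgroups. -/
theorem result {G : Type*} [Group G] [Finite G] {p : ℕ} [Fact p.Prime] : Cfsg.thompsonSubgroup p G = ⨆ S : Sylow p G, Cfsg.thompsonSubgroupOf p (S : Subgroup G) := by
  open H9 Subgroup in open scoped commutatorElement in
  rw [← JE_top]
  simp only [JE_eq]
  refine le_antisymm (JE_le_of_syl fun S hS => ?_) (iSup_le fun S => (syl_top_of_sylow S).JE_le)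
  obtain ⟨Q, rfl⟩ := hS.exists_sylow_top
  exact le_iSup (fun S : Sylow p G => JE p (S : Subgroup G)) Q

end Cfsg.Agent.S0604
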