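import Cfsg.Statements.S0609
import Cfsg.Agent.H9.Thom

set_option autoImplicit false
open Cfsg

namespace Cfsg.Agent.S0609

/-- Thompson factorizability passes to and from the quotient by the largest normal subgroup of order prime to p. -/
theorem result {G : Type*} [Group G] [Finite G] {p : ℕ} [Fact p.Prime] : Cfsg.IsThompsonFactorizable p G ↔ Cfsg.IsThompsonFactorizable p (G ⧸ Cfsg.pPrimeCore p G) := by
  open H9 Subgroup in open scoped commutatorElement in
  rw [← tf_top_iff, ← tf_top_iff, ← tf_map_iff (QuotientGroup.mk' (pPrimeCore p G)) (by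
    rw [QuotientGroup.ker_mk', inf_top_eq]; exact pPrimeCore_cop p),
    map_top_of_surjective _ (QuotientGroup.mk'_surjective _)]

end Cfsg.Agent.S0609
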