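import Cfsg.Statements.S0612
import Cfsg.Agent.H1.FF3

set_option autoImplicit false
open Cfsg

namespace Cfsg.Agent.S0612

open H1

/-- In such a faithful group every nontrivial best offender decomposes as a direct product of minimal nontrivially-acting best offenders. -/
theorem result {G : Type*} [Group G] [Finite G] {p : ℕ} [Fact p.Prime] (V H : Subgroup G) (hV : Cfsg.IsElementaryAbelian p V) (hHV : H ≤ Subgroup.normalizer (V : Set G)) (hf : H ⊓ Subgroup.centralizer (V : Set G) = ⊥) (hS1 : Subgroup.centralizer (Cfsg.pPrimeCore p ↥H : Set ↥H) ≤ Cfsg.pPrimeCore p ↥H) (hS3 : H = ⨆ A : {A : Subgroup G // A ≤ H ∧ Cfsg.IsBestOffenderOn p V A}, (A : Subgroup G)) (hH1 : H ≠ ⊥) (A : Subgroup G) (hAH : A ≤ H) (hA : Cfsg.IsBestOffenderOn p V A) (hA1 : A ≠ ⊥) : ∃ (k : ℕ) (B : Fin k → Subgroup G), (∀ i, B i ≤ A ∧ Cfsg.IsBestOffenderOn p V (B i) ∧ ⁅V, B i⁆ ≠ ⊥ ∧ ∀ C : Subgroup G, C ≤ B i → Cfsg.IsBestOffenderOn p V C →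 ⁅V, C⁆ ≠ ⊥ → C = B i) ∧ iSupIndep B ∧ ⨆ i, B i = A := by
  classical
  have h := fp_of hV hHV hf hS1
  obtain ⟨s, ⟨h1, h2⟩, hm⟩ := exists_minimal_of_wellFoundedLT
    (fun s : Finset (Subgroup G) => (∀ B ∈ s, B ≤ A ∧ Tv p V H B) ∧ A ≤ s.sup id)
    ⟨(Set.toFinite {B | B ≤ A ∧ Tv p V H B}).toFinset, fun B hB => by simpa using hB,
      h.le_of_tv hAH hA fun B h1 h2 => Finset.le_sup (f := id) (by simpa using ⟨h1, h2⟩)⟩
  refine ⟨s.card, fun i => s.equivFin.symm i, fun i => ⟨(h1 _ (s.equivFin.symm i).2).1,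
    (h.tv_iff.1 (h1 _ (s.equivFin.symm i).2).2).2⟩, fun i => ?_, le_antisymm (iSup_le fun i => (h1 _ (s.equivFin.symm i).2).1)
      (h2.trans (Finset.sup_le fun B hB => le_iSup_of_le (s.equivFin ⟨B, hB⟩) (by simp)))⟩
  have hi := (s.equivFin.symm i).2
  refine disjoint_iff.2 ((bot_or_eq_of_prime (h1 _ hi).2.prime inf_le_left).resolve_right fun e => ?_)
  have := hm (y := s.erase (s.equivFin.symm i)) ⟨fun B hB => h1 B (Finset.mem_of_mem_erase hB),
    h2.trans (Finset.sup_le fun B hB => ?_)⟩ (Finset.erase_subset _ _)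
  · exact Finset.notMem_erase _ s (this hi)
  by_cases c : B = s.equivFin.symm i
  · refine (c.le.trans (inf_eq_left.1 e)).trans (iSup₂_le fun j hj => Finset.le_sup (f := id) (Finset.mem_erase.2
      ⟨fun e => hj (s.equivFin.symm.injective (Subtype.ext e)), (s.equivFin.symm j).2⟩))
  · exact Finset.le_sup (f := id) (Finset.mem_erase.2 ⟨c, hB⟩)

end Cfsg.Agent.S0612
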