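import Cfsg.Statements.S0614
import Cfsg.Agent.H1.FF3

set_option autoImplicit false
open Cfsg

namespace Cfsg.Agent.S0614

open H1

/-- The commutator of the p'-core with a minimal nontrivially-acting best offender is a 3-group (when p = 2) or a non-abelian 2-group (when p = 3). -/
theorem result {G : Type*} [Group G] [Finite G] {p : ℕ} [Fact p.Prime] (V H : Subgroup G) (hV : Cfsg.IsElementaryAbelian p V) (hHV : H ≤ Subgroup.normalizer (V : Set G)) (hf : H ⊓ Subgroup.centralizer (V : Set G) = ⊥) (hS1 : Subgroup.centralizer (Cfsg.pPrimeCore p ↥H : Set ↥H) ≤ Cfsg.pPrimeCore p ↥H) (hS3 : H = ⨆ A : {A : Subgroup G // A ≤ H ∧ Cfsg.IsBestOffenderOn p V A}, (A : Subgroup G)) (hH1 : H ≠ ⊥) (A : Subgroup G) (hAH : A ≤ H) (hA : Cfsg.IsBestOffenderOn p V A) (hAV : ⁅V, A⁆ ≠ ⊥) (hmin : ∀ B : Subgroup G, B ≤ A → Cfsg.IsBestOffenderOn p V B → ⁅V, B⁆ ≠ ⊥ → B = A) :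 (p = 2 ∧ IsPGroup 3 ↥(⁅((Cfsg.pPrimeCore p ↥H).map H.subtype), A⁆)) ∨ (p = 3 ∧ IsPGroup 2 ↥(⁅((Cfsg.pPrimeCore p ↥H).map H.subtype), A⁆) ∧ ¬ IsMulCommutative ↥(⁅((Cfsg.pPrimeCore p ↥H).map H.subtype), A⁆)) := by
  have h := fp_of hV hHV hf hS1
  have t := h.tv_iff.2 ⟨hAH, hA, hAV, hmin⟩
  rw [H9.Op'_eq]
  have q := h.isP_Q t
  rcases h.p23 t with rfl | rfl
  · exact .inl ⟨rfl, q⟩
  refine .inr ⟨rfl, q, ?_⟩
  obtain ⟨x, hx, h1⟩ := h.exx t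
  obtain ⟨-, -, ⟨e⟩⟩ := h.pairx t hx h1
  refine H9.Sect.not_comm (p := 3) (K := Ea 3 H A) (by norm_num) ⟨_, ?_, e.toMonoidHom, e.surjective⟩
    (H9.syl_sup_of_cop q (by rw [t.card]; norm_num) (.inr (Subgroup.normalizer_commutator_ge_right _ _)))
  rw [Ea, ← H9.ncl_eq_sup]; exact sup_le (H9.le_ncl _ _) (H9.cj_le_ncl A hx)

end Cfsg.Agent.S0614
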