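import Cfsg.Statements.S0615
import Cfsg.Agent.H1.FF3

set_option autoImplicit false
open Cfsg

namespace Cfsg.Agent.S0615

open H1

/-- Two subnormal subgroups acting irreducibly on their incomparable commutator modules, in a faithful group with trivial largest normal p-subgroup, generate their direct product, and the commutator module splits accordingly. -/
theorem result {G : Type*} [Group G] [Finite G] {p : ℕ} [Fact p.Prime] (V E E₁ E₂ : Subgroup G) (hV : Cfsg.IsElementaryAbelian p V) (hEV : E ≤ Subgroup.normalizer (V : Set G)) (hf : E ⊓ Subgroup.centralizer (V : Set G) = ⊥) (hgen : E = E₁ ⊔ E₂) (hs₁ : (E₁.subgroupOf E).IsSubnormal) (hs₂ : (E₂.subgroupOf E).IsSubnormal) (hOp : Cfsg.pCore p ↥E = ⊥) (hirr₁ : (∀ U : Subgroup G, U ≤ ⁅V, E₁⁆ → E₁ ≤ Subgroup.normalizer (U : Set G) → U = ⊥ ∨ U = ⁅V, E₁⁆)) (hirr₂ : (∀ U : Subgroup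 G, U ≤ ⁅V, E₂⁆ → E₂ ≤ Subgroup.normalizer (U : Set G) → U = ⊥ ∨ U = ⁅V, E₂⁆)) (h12 : ¬ ⁅V, E₁⁆ ≤ ⁅V, E₂⁆) (h21 : ¬ ⁅V, E₂⁆ ≤ ⁅V, E₁⁆) (hc₁ : 2 < Nat.card E₁) (hc₂ : 2 < Nat.card E₂) : ⁅E₁, E₂⁆ = ⊥ ∧ E₁ ⊓ E₂ = ⊥ ∧ ⁅V, E₁⁆ ⊓ ⁅V, E₂⁆ = ⊥ ∧ ⁅V, E⁆ = ⁅V, E₁⁆ ⊔ ⁅V, E₂⁆ := by
  have l1 : E₁ ≤ E := hgen ▸ le_sup_left
  have l2 : E₂ ≤ E := hgen ▸ le_sup_right
  have o := H9.Op_eq_bot_iff.2 hOp
  have s1 := H9.sn_iff.2 ⟨l1, hs₁⟩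
  have s := sep_of_irr hV hEV hf o s1 (H9.sn_iff.2 ⟨l2, hs₂⟩) hirr₁ hirr₂ h12 h21 hc₁ hc₂
  refine ⟨s.com, le_bot_iff.1 ((inf_le_inf_left _ s.c2).trans (faith_comm (H9.elem_isP hV) hEV hf o s1).le), s.inf, ?_⟩
  rw [hgen]
  exact le_antisymm (comm_sup_le_of_le (sup_le (H9.commutator_le_left' (l1.trans hEV))
    (H9.commutator_le_left' (l2.trans hEV))) le_sup_left le_sup_right)
    (sup_le (Subgroup.commutator_mono le_rfl le_sup_left) (Subgroup.commutator_mono le_rfl le_sup_right))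

end Cfsg.Agent.S0615
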