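import Cfsg.Statements.S0618
import Cfsg.Agent.H1.FF4

set_option autoImplicit false
open Cfsg

namespace Cfsg.Agent.S0618

open H1

/-- A p-separable group with trivial p'-core in which the Thompson factorization fails has p = 2 or 3, and J(G) induces on the normal closure of Ω₁(Z(S)) a group containing a normal SL(2, p). -/
theorem result {G : Type*} [Group G] [Finite G] {p : ℕ} [Fact p.Prime] (hsep : Cfsg.IsPSolvable p G) (hO : Cfsg.pPrimeCore p G = ⊥) (hnf : ¬ Cfsg.IsThompsonFactorizable p G) : (p = 2 ∨ p = 3) ∧ ∃ E : Subgroup G, Subgroup.centralizer ((⨆ S : Sylow p G, Cfsg.omegaOne p ((S : Subgroup G) ⊓ Subgroup.centralizer ((S : Subgroup G) : Set G))) : Set G) ≤ E ∧ E ≤ Cfsg.thompsonSubgroup p G ⊔ Subgroup.centralizer ((⨆ S : Sylow p G, Cfsg.omegaOne p ((S : Subgroup G) ⊓ Subgroup.centralizer ((S : Subgroup G) : Set G))) : Set G) ∧ Cfsg.thompsonSubgroup p G ⊔ Subgroup.centralizer ((⨆ S : Sylow p G, Cfsg.omegaOne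 p ((S : Subgroup G) ⊓ Subgroup.centralizer ((S : Subgroup G) : Set G))) : Set G) ≤ Subgroup.normalizer (E : Set G) ∧ ∃ hn : ((Subgroup.centralizer ((⨆ S : Sylow p G, Cfsg.omegaOne p ((S : Subgroup G) ⊓ Subgroup.centralizer ((S : Subgroup G) : Set G))) : Set G)).subgroupOf E).Normal, Nonempty ((↥E ⧸ (Subgroup.centralizer ((⨆ S : Sylow p G, Cfsg.omegaOne p ((S : Subgroup G) ⊓ Subgroup.centralizer ((S : Subgroup G) : Set G))) : Set G)).subgroupOf E) ≃* Matrix.SpecialLinearGroup (Fin 2) (ZMod p)) := by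
  have e0 : Subgroup.centralizer (⨆ S : Sylow p G, (Cfsg.omegaOne p ((S : Subgroup G) ⊓
      Subgroup.centralizer ((S : Subgroup G) : Set G)) : Set G)) = Subgroup.centralizer (H9.VZ p (⊤ : Subgroup G) : Set G) := by
    rw [H9.VZ_top]
    exact le_antisymm (Subgroup.le_centralizer_iff.1 (iSup_le fun S x hx c hc => (hc x (Set.mem_iUnion.2 ⟨S, hx⟩)).symm))
      (Subgroup.centralizer_le (Set.iUnion_subset fun S => le_iSup (fun S : Sylow p G => Cfsg.omegaOne p ((S : Subgroup G) ⊓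
        Subgroup.centralizer ((S : Subgroup G) : Set G))) S))
  rw [e0, ← H9.JE_top]
  have hs := H9.psol_of_isPSolvable hsep
  have o : H9.Op' p (⊤ : Subgroup G) = ⊥ := by rw [H9.Op'_top, hO]
  have hV := H9.VZ_elem (H9.centralizer_Op_le_of_PLay (H9.PLay_eq_bot_of_psol hs) o)
  have n := H9.normalizer_VZ (p := p) (Subgroup.le_normalizer (H := (⊤ : Subgroup G)))
  obtain ⟨Γ, _, _, i, f, h⟩ := exists_hol (H9.VZ p (⊤ : Subgroup G))
  obtain ⟨k, g⟩ := h.fp_J hV le_top n hs (H9.Opm_VZ_le _)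
  obtain ⟨A, t⟩ := g.exists fun e => hnf (H9.tf_top_iff.1 ((H9.tf_iff o).2
    (h.kr_f ▸ (H9.im_eq_bot_iff f (le_top.trans n)).1 e)))
  obtain ⟨θ, h1, h2⟩ := k.hom t g
  have e := H9.im_pre f (t.E_le.trans (H9.im_le_im_self f _))
  obtain ⟨φ, h3, h4⟩ := exists_comp f θ (H9.pre_le f _) (e.le.trans t.E_le)
  rw [← h.kr_f, ← H9.pre_im f (le_top.trans n)]
  refine ⟨k.p23 t, _, H9.kr_le_pre f _, H9.pre_mono f t.E_le, H9.pre_le_normalizer f (k.nE t g),
    sect_of_comp φ (h4 (e.symm ▸ h2)) ?_⟩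
  rw [h3, ← H9.pre_inf, h1, inf_left_comm, k.E_faith t, inf_bot_eq, H9.pre_bot, inf_eq_right.2 (H9.kr_le_pre f _)]

end Cfsg.Agent.S0618
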