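import Cfsg.Statements.S0619
import Cfsg.Agent.H1.FF4

set_option autoImplicit false
open Cfsg

namespace Cfsg.Agent.S0619

open scoped commutatorElement
open H1

/-- For a p-separable group and a normal elementary abelian p-subgroup V with no nontrivial normal p-subgroup modulo its centralizer C, the Thompson subgroup J(G) moves Ω₁(Z(J(C))) only inside V. -/
theorem result {G : Type*} [Group G] [Finite G] {p : ℕ} [Fact p.Prime] (hsep : Cfsg.IsPSolvable p G) (V : Subgroup G) [V.Normal] (hV : Cfsg.IsElementaryAbelian p V) (hO : Cfsg.pCore p (G ⧸ Subgroup.centralizer (V : Set G)) = ⊥) : ⁅Cfsg.omegaOne p (Cfsg.centerThompsonOf p (Subgroup.centralizer (V : Set G))), Cfsg.thompsonSubgroup p G⁆ ≤ V := by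
  rw [H9.ZE_eq, ← H9.JE_top]
  change ⁅H9.OE p _, _⁆ ≤ V
  have n : ⊤ ≤ Subgroup.normalizer (V : Set G) := (Subgroup.normalizer_eq_top V).ge
  obtain ⟨Γ, _, _, i, f, h⟩ := exists_hol V
  have k := h.fp hV n (H9.psol_of_isPSolvable hsep) (H9.pCore_quot_eq_bot_iff.1 hO) (H9.SN.refl _)
  rw [H9.JE, sSup_eq_iSup', Subgroup.commutator_comm]
  refine H9.commutator_iSup_le (fun _ => le_top.trans n) fun ⟨A, hA⟩ => ?_
  have e := k.ms_eq (H9.im_mono f le_top) (h.bo (le_top.trans n) (H9.ME.bo hA hV le_top))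
  have e2 := h.ms_eq (A := A) (le_top.trans n)
  rw [e, h.card_i le_rfl, h.kr_f, H9.ms, H9.ME.inf_centralizer hA hV le_top] at e2
  have e3 := H9.card_sup_mul_card_inf ((le_top (a := Subgroup.centralizer (V : Set G) ⊓ A)).trans n)
  have l : V ≤ Subgroup.centralizer (V : Set G) := Subgroup.le_centralizer_iff_isMulCommutative.2 hV.1
  rw [inf_right_comm, inf_eq_right.2 l, ← e2] at e3
  have m : Subgroup.centralizer (V : Set G) ⊓ A ⊔ V ∈ H9.ME p ⊤ := H9.MaxF.of_card hA le_top
    (H9.elem_sup (H9.elem_of_le hA.2.1 inf_le_right) hV inf_le_left) (Nat.eq_of_mul_eq_mul_right Nat.card_pos e3).ge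
  rw [Subgroup.commutator_comm]
  exact (Subgroup.commutator_mono (H9.ME.OE_le (H9.MaxF.mono m (sup_le inf_le_left l) le_top)) le_rfl).trans
    (H9.commutator_sup_le (le_top.trans n) (le_top.trans n) ((H9.le_centralizer_iff'.1 (H9.le_centralizer_of_le_comm
      hA.2.1.1 inf_le_right le_rfl)).le.trans bot_le) (H9.commutator_le_left' (le_top.trans n)))

end Cfsg.Agent.S0619
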