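import Cfsg.Statements.S0620
import Cfsg.Agent.H1.FF4

set_option autoImplicit false
open Cfsg

namespace Cfsg.Agent.S0620

open H1

/-- Under coprime action of an elementary abelian q-group X on a p-separable group K with trivial p'-core, K is generated by the normalizer of J(S), the centralizer of Ω₁(Z(S)) and the fixed points of X. -/
theorem result {G : Type*} [Group G] [Finite G] {p : ℕ} [Fact p.Prime] {q : ℕ} [Fact q.Prime] (K X : Subgroup G) (hXK : X ≤ Subgroup.normalizer (K : Set G)) (hX : Cfsg.IsElementaryAbelian q X) (hq : ¬ q ∣ Nat.card K) (hsep : Cfsg.IsPSolvable p ↥K) (hO : Cfsg.pPrimeCore p ↥K = ⊥) (S : Sylow p ↥K) : (Subgroup.normalizer (Cfsg.thompsonSubgroupOf p (S : Subgroup ↥K) : Set ↥K) ⊔ Subgroup.centralizer (Cfsg.omegaOne p ((S : Subgroup ↥K) ⊓ Subgroup.centralizer ((S : Subgroup ↥K) : Set ↥K)) : Set ↥K) ⊔ (Subgroup.centralizer (X : Set G)).subgroupOf K) = ⊤ := by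
  have hT := H9.syl_of_sylow S
  refine top_le_iff.1 ((Subgroup.map_le_map_iff_of_injective K.subtype_injective).1 ((H9.map_top_subtype K).le.trans
    (tf_gen' (H9.elem_isP hX) hXK (H9.cop_iff.2 hq) (H9.psol_of_isPSolvable' hsep) (H9.Op'_eq_bot_iff.2 hO) hT ?_ ?_ ?_)))
  · refine le_trans ?_ (Subgroup.map_mono (le_sup_of_le_left le_sup_left))
    rw [H9.JE_eq, H9.map_normalizer_subtype, H9.map_JE K.subtype_injective]
  · refine le_trans ?_ (Subgroup.map_mono (le_sup_of_le_left le_sup_right))
    change _ ≤ (Subgroup.centralizer (H9.OZ p (S : Subgroup K) : Set K)).map _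
    rw [H9.map_centralizer_subtype, H9.map_OZ K.subtype_injective]
  · refine le_trans ?_ (Subgroup.map_mono le_sup_right)
    rw [Subgroup.subgroupOf_map_subtype, inf_comm]

end Cfsg.Agent.S0620
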