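import Cfsg.Statements.S0621
import Cfsg.Agent.H1.FF4

set_option autoImplicit false
open Cfsg

namespace Cfsg.Agent.S0621

open H1

/-- Let K be p-separable with O_p'(K) = 1, normalized by an elementary abelian q-group X for a prime q not dividing the order of K. If the Thompson factorization fails in K, then p is 2 or 3 and the fixed points of X contain a plane W of order p² and a subgroup inducing SL(2, p) on it. -/
theorem result {G : Type*} [Group G] [Finite G] {p : ℕ} [Fact p.Prime] {q : ℕ} [Fact q.Prime] (K X : Subgroup G) (hXK : X ≤ Subgroup.normalizer (K : Set G)) (hX : Cfsg.IsElementaryAbelian q X) (hq : ¬ q ∣ Nat.card K) (hsep : Cfsg.IsPSolvable p ↥K) (hO : Cfsg.pPrimeCore p ↥K = ⊥) (hnf : ¬ Cfsg.IsThompsonFactorizable p ↥K) : (p = 2 ∨ p = 3) ∧ ∃ W D : Subgroup G, W ≤ K ⊓ Subgroup.centralizer (X : Set G) ∧ D ≤ K ⊓ Subgroup.centralizer (X : Set G) ∧ Cfsg.IsElementaryAbelian p W ∧ Nat.card W = p ^ 2 ∧ D ≤ Subgroup.normalizer (W : Set G)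 ∧ ∃ hn : ((Subgroup.centralizer (W : Set G)).subgroupOf D).Normal, Nonempty ((↥D ⧸ (Subgroup.centralizer (W : Set G)).subgroupOf D) ≃* Matrix.SpecialLinearGroup (Fin 2) (ZMod p)) := by
  have hs := H9.psol_of_isPSolvable' hsep
  have o := H9.Op'_eq_bot_iff.2 hO
  have hV := H9.VZ_elem (H9.centralizer_Op_le_of_PLay (H9.PLay_eq_bot_of_psol hs) o)
  have n := H9.normalizer_VZ (p := p) (Subgroup.le_normalizer (H := K))
  have nX := H9.normalizer_VZ (p := p) hXK
  have lJ := H9.JE_le p K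
  have c := H9.cop_of_le (H9.cop_iff.2 hq) lJ
  obtain ⟨Γ, _, _, i, f, h⟩ := exists_hol (H9.VZ p K)
  obtain ⟨k, g⟩ := h.fp_J hV (H9.VZ_le K) n hs (H9.Opm_VZ_le _)
  obtain ⟨A, t⟩ := g.exists fun e => hnf (H9.tf_iff'.1 ((H9.tf_iff o).2
    (h.kr_f ▸ (H9.im_eq_bot_iff f (lJ.trans n)).1 e)))
  obtain ⟨W, h1, h2, h3, θ, h4, h5⟩ := k.fix t g ((h.norm nX le_rfl).2 nX) (H9.im_le_normalizer f (H9.normalizer_JE hXK))
    (H9.isPGroup_im f (H9.elem_isP hX)) (H9.cop_im f c)
  have e := H9.im_centralizer_cop f nX (H9.normalizer_JE (p := p) hXK)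
    (H9.copA_of_p (H9.elem_isP hX) (H9.cop_of_le c inf_le_right))
  have e' := H9.im_pre i (h1.trans inf_le_left)
  have lD := (inf_le_left (b := Subgroup.centralizer (X : Set G))).trans (lJ.trans n)
  have lW := H9.pre_le i W
  obtain ⟨φ, h6, h7⟩ := exists_comp f θ lD (H9.im_mono f inf_le_left)
  refine ⟨k.p23 t, H9.pre i W, _, le_inf (lW.trans (H9.VZ_le K)) (Subgroup.le_centralizer_iff.1 ((h.cent nX lW).1
    (e'.symm ▸ Subgroup.le_centralizer_iff.1 (h1.trans inf_le_right)))), inf_le_inf_right _ lJ, H9.elem_of_le hV lW,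
    by rw [← h.card_i lW, e', h2], (h.norm lD lW).1 (by rw [e, e']; exact h3), sect_of_comp φ (h7 (e.symm ▸ h4)) ?_⟩
  rw [h6]
  refine le_antisymm (le_inf inf_le_left ((h.cent (inf_le_left.trans lD) lW).1 ?_))
    (le_inf inf_le_left ((H9.im_le_iff f (inf_le_left.trans lD)).1 ?_))
  · rw [e']
    exact (le_inf ((H9.im_mono f inf_le_right).trans (H9.im_pre_le f _)) ((H9.im_mono f inf_le_left).trans
      (e.le.trans inf_le_right))).trans (h5.le.trans inf_le_right)
  · exact (le_inf ((H9.im_mono f inf_le_left).trans e.le) (((h.cent (inf_le_left.trans lD) lW).2 inf_le_right).trans (H9.centralizer_anti e'.ge))).trans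
      (h5.ge.trans inf_le_left)

end Cfsg.Agent.S0621
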