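import Cfsg.Statements.S0627
import Cfsg.Agent.H9.Qd

set_option autoImplicit false
open Cfsg

namespace Cfsg.Agent.S0627

/-- In a p-separable group with p at least 5, the normalizer of W(S) supplements the largest normal subgroup of order prime to p. -/
theorem result {G : Type*} [Group G] [Finite G] {p : ℕ} [Fact p.Prime] (hp : 5 ≤ p) (hsep : Cfsg.IsPSolvable p G) (S : Sylow p G) : Cfsg.pPrimeCore p G ⊔ Subgroup.normalizer (((Cfsg.stableNormalClosure p ↥(S : Subgroup G)).map (S : Subgroup G).subtype) : Set G) = ⊤ := by
  open H9 Subgroup in open scoped commutatorElement in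
  have hS := syl_top_of_sylow S
  have hf := QuotientGroup.mk'_surjective (pPrimeCore p G)
  refine sup_normalizer_eq_top_of_map (P := WS p (S : Subgroup G)) (hS.isP.to_le (iF_le _ _)) ?_
  refine iF_map char_snc _ hS.isP (ker_mk'_inf_eq_bot hS.isP) ▸ ?_
  refine WS_normal (actionStable_of_not_sect (by omega) fun h => ?_)
    (constrained_quot (isPConstrained_of_isPSolvable hsep)) (syl_map_quot hf hS)
  have := h.eq_three (by omega) (map_top_of_surjective _ hf ▸ (psol_of_isPSolvable hsep).map _)
  omega

end Cfsg.Agent.S0627
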