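import Cfsg.Statements.S0629
import Cfsg.Agent.H9.PCon

set_option autoImplicit false
open Cfsg

namespace Cfsg.Agent.S0629

/-- A group in which the centralizer of a Sylow p-subgroup of O_{p',p}(G) is p-solvable is p-constrained. -/
theorem result {G : Type*} [Group G] [Finite G] {p : ℕ} [Fact p.Prime] (P : Sylow p ↥(Cfsg.pPrimePCore p G)) (hsol : Cfsg.IsPSolvable p ↥(Subgroup.centralizer (((P : Subgroup ↥(Cfsg.pPrimePCore p G)).map (Cfsg.pPrimePCore p G).subtype : Subgroup G) : Set G))) : Cfsg.IsPConstrained p G := by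
  open H9 Subgroup in open scoped commutatorElement in
  have hP := syl_of_sylow P
  have hs := psol_of_isPSolvable' hsol
  generalize (P : Subgroup (pPrimePCore p G)).map (pPrimePCore p G).subtype = Q at hP hs
  rw [← Opp_top] at hP
  rw [isPConstrained_top_iff, PLay_eq_bot_iff']
  intro K hK
  obtain ⟨Γ, _, _, f, -, hk, hk', -⟩ := exists_quot_Op' p (⊤ : Subgroup G)
  have hc : (Nat.card (kr f ⊓ ⊤ : Subgroup G)).Coprime p := hk' ▸ Op'_cop p ⊤
  have h1 := im_centralizer_cop f le_top (le_top.trans le_normalizer : Q ≤ _) (copA_of_p hP.isP hc)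
  rw [im_syl_Opp f le_rfl hk' hP, top_inf_eq] at h1
  have h2 := hK.im f le_rfl (cop_of_le hc (inf_le_inf_left _ le_top))
  refine h2.pqs.not_psol (PSol.mono ?_ (h1 ▸ le_inf h2.le (h2.le_centralizer_of_sn_p (sn_Op p _) (Op_p p _))))
  exact hs.im f

end Cfsg.Agent.S0629
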