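import Cfsg.Statements.S0630
import Cfsg.Agent.H9.PCon

set_option autoImplicit false
open Cfsg

namespace Cfsg.Agent.S0630

/-- p-constraint passes to and from the quotient by the largest normal subgroup of order prime to p. -/
theorem result {G : Type*} [Group G] [Finite G] {p : ℕ} [Fact p.Prime] : Cfsg.IsPConstrained p G ↔ Cfsg.IsPConstrained p (G ⧸ Cfsg.pPrimeCore p G) := by
  open H9 Subgroup in open scoped commutatorElement in
  set f := QuotientGroup.mk' (pPrimeCore p G) with hf
  have htop : (⊤ : Subgroup G).map f = ⊤ := map_top_of_surjective _ (QuotientGroup.mk'_surjective _)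
  have hker : f.ker = Op' p ⊤ := by rw [QuotientGroup.ker_mk', Op'_top]
  have hk : (Nat.card (f.ker ⊓ ⊤ : Subgroup G)).Coprime p := by
    rw [inf_top_eq, hker]; exact Op'_cop p ⊤
  rw [isPConstrained_top_iff, isPConstrained_top_iff, ← htop, ← map_PLay_of_ker f hk,
    Subgroup.map_eq_bot_iff, hker]
  exact ⟨fun h => h.le.trans bot_le, fun h => PLay_eq_bot_of_le_cop h (Op'_cop p ⊤)⟩

end Cfsg.Agent.S0630
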