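import Cfsg.Statements.S0632
import Cfsg.Agent.H9.Stab

set_option autoImplicit false
open Cfsg

namespace Cfsg.Agent.S0632

/-- For a group with a nontrivial normal p-subgroup, p-stability passes to and from the quotient by the largest normal subgroup of order prime to p. -/
theorem result {G : Type*} [Group G] [Finite G] {p : ℕ} [Fact p.Prime] (hO : Cfsg.pCore p G ≠ ⊥) : Cfsg.IsPStable p G ↔ Cfsg.IsPStable p (G ⧸ Cfsg.pPrimeCore p G) := by
  open H9 Subgroup in open scoped commutatorElement in
  rw [isPStable_iff, isPStable_iff, pst_iff_quot, pst_iff_of_bot (pPrimeCore_quotient p)]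
  refine and_congr_right fun _ => and_congr_left fun _ => ⟨fun _ h => hO (eq_bot_iff.2 ?_), fun _ => hO⟩
  have h1 := map_Op_le (p := p) (QuotientGroup.mk' (pPrimeCore p G)) ⊤
  rw [map_top_of_surjective _ (QuotientGroup.mk'_surjective _), Op_top, Op_top, h, le_bot_iff,
    Subgroup.map_eq_bot_iff] at h1
  exact (le_inf h1 le_rfl).trans (ker_mk'_inf_eq_bot (pCore_p p)).le

end Cfsg.Agent.S0632
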