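import Cfsg.Statements.S0633
import Cfsg.Agent.H1.HB3

set_option autoImplicit false
open Cfsg

namespace Cfsg.Agent.S0633

open H1

/-- Theorem B of Hall and Higman on the minimal polynomial of a p-element of order p^n in a p-solvable linear group on a nonzero vector space in characteristic p with no nontrivial normal p-subgroup: its degree is p^n, except when some p^n₀ - 1 (n₀ ≤ n) is a power of a prime q for which the Sylow q-subgroups are non-abelian, in which case the degree is at least p^(n-n₀)(p^n₀ - 1). -/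
theorem result {F : Type*} [Field F] {p : ℕ} [Fact p.Prime] [CharP F p] {V : Type*} [AddCommGroup V] [Module F V] [FiniteDimensional F V] [Nontrivial V] (H : Subgroup (V ≃ₗ[F] V)) [Finite H] (hsol : Cfsg.IsPSolvable p H) (hOp : Cfsg.pCore p H = ⊥) (x : V ≃ₗ[F] V) (hx : x ∈ H) (n : ℕ) (hn : orderOf x = p ^ n) (r : ℕ) (hr : minpoly F (x : Module.End F V) = (Polynomial.X - 1) ^ r) : r = p ^ n ∨ ∃ n₀ q m : ℕ, 1 ≤ n₀ ∧ n₀ ≤ n ∧ q.Prime ∧ 1 ≤ m ∧ p ^ n₀ - 1 = q ^ m ∧ (∀ Q : Sylow q H, ¬ IsMulCommutative Q) ∧ p ^ (n - n₀) * (p ^ n₀ - 1) ≤ r := by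
  let ρ : H →* Module.End F V := LinearEquiv.automorphismGroup.toLinearMapMonoidHom.comp H.subtype
  have hρ : Function.Injective ρ := fun a b h => Subtype.ext (LinearEquiv.toLinearMap_injective h)
  have hp : p.Prime := Fact.out
  have h1 : ((x : Module.End F V) - 1) ^ r = 0 := by simpa [hr] using minpoly.aeval F (x : Module.End F V)
  have h2 : ∀ k, ((x : Module.End F V) - 1) ^ k ≠ 0 → k < r := fun k hk => lt_of_not_ge fun h => hk (by
    obtain ⟨j, rfl⟩ := Nat.exists_eq_add_of_le h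
    rw [pow_add, h1, zero_mul])
  have hx1 : (⟨x, hx⟩ : H) ^ p ^ n = 1 := Subtype.ext (hn ▸ pow_orderOf_eq_one x)
  have h3 : r ≤ p ^ n := by
    have := minpoly.dvd F (x : Module.End F V) (p := (Polynomial.X - 1) ^ p ^ n) (by
      have : (x : Module.End F V) ^ p ^ n = 1 := (ρ.map_pow ⟨x, hx⟩ _).symm.trans (by rw [hx1, map_one])
      simpa [sub_one_pow_char] using sub_eq_zero.2 this)
    rw [hr, ← Polynomial.C_1] at this
    have := Polynomial.natDegree_le_of_dvd this (pow_ne_zero _ (Polynomial.X_sub_C_ne_zero _))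
    rwa [Polynomial.natDegree_pow, Polynomial.natDegree_pow, Polynomial.natDegree_X_sub_C, mul_one, mul_one] at this
  rcases n with _ | n
  · have := h2 0 (by simp)
    left; simp at h3 ⊢; omega
  obtain ⟨q, hq, hpq, K, hK, h | ⟨h, j, m, h4, h5, h6, h7, h8⟩⟩ := thmB (H9.psol_of_isPSolvable hsol) hOp ρ hρ
    (x := ⟨x, hx⟩) (fun e => pow_ne_one_of_lt_orderOf (pow_pos hp.pos n).ne'
      (hn ▸ Nat.pow_lt_pow_right hp.one_lt n.lt_succ_self) (congrArg Subtype.val e)) hx1
  · have := h2 _ h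
    left; omega
  · haveI := Fact.mk hq
    have := h2 _ h8
    exact Or.inr ⟨j, q, m, h4, h5, hq, h6, h7, fun Q hQ => h (abQ_of_sylow Q hQ K hK), by omega⟩

end Cfsg.Agent.S0633
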