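import Cfsg.Statements.S0635
import Cfsg.Agent.H1.PLen

set_option autoImplicit false
open Cfsg

namespace Cfsg.Agent.S0635

open H1

/-- The p-length of a p-soluble group is at most the nilpotency class of its Sylow p-subgroups. -/
theorem result {G : Type*} [Group G] [Finite G] {p : ℕ} [Fact p.Prime] (hsol : Cfsg.IsPSolvable p G) (S : Sylow p G) : Cfsg.PLengthLE p (Group.nilpotencyClass ↥(S : Subgroup G)) G := by
  refine pl_of_lcs _ G (H9.psol_of_isPSolvable hsol) S (isSylowIn_top S) ?_
  have := S.isPGroup'.isNilpotent
  rw [← Subgroup.top_subtype_lowerCentralSeries, Subgroup.lowerCentralSeries_nilpotencyClass,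
    Subgroup.map_bot]

end Cfsg.Agent.S0635
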