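import Cfsg.Statements.S0637
import Cfsg.Agent.FT.B4c

set_option autoImplicit false
open Cfsg

namespace Cfsg.Agent.S0637

open FT H9 Subgroup

/-- For p greater than 3, the bound p² on the order of the subgroup generated by the elements of order dividing p passes from a p-group to all its quotients. -/
theorem result {R : Type*} [Group R] [Finite R] {p : ℕ} [Fact p.Prime] (hp : 3 < p) (hR : IsPGroup p R) (hO : Nat.card ↥(Cfsg.omegaOne p (⊤ : Subgroup R)) ≤ p ^ 2) (T : Subgroup R) [T.Normal] : Nat.card ↥(Cfsg.omegaOne p (⊤ : Subgroup (R ⧸ T))) ≤ p ^ 2 := by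
  have h := meta_top_iff.1 (t4_11 hp _ ⊤ rfl (hR.to_subgroup ⊤) hO)
  have h1 : Meta (⊤ : Subgroup (R ⧸ T)) := by
    have := (meta_top_iff.2 h).im ((QuotientGroup.mk' T).comp (⊤ : Subgroup R).subtype) le_rfl
    rwa [im_self _ ((QuotientGroup.mk'_surjective T).comp fun x => ⟨⟨x, trivial⟩, rfl⟩)] at this
  have h2 := (hR.to_quotient T).to_subgroup ⊤
  by_cases hc : IsCyclic (⊤ : Subgroup (R ⧸ T))
  · rw [(el_omegaOne_of_comm (H := ⊤) inferInstance).card]
    exact Nat.pow_le_pow_right (by omega) ((rk_le_one_of_cyclic hc).trans one_le_two)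
  · exact (t4_10 (by omega) h2 h1 hc).card.le

end Cfsg.Agent.S0637
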