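import Cfsg.Statements.S0640
import Cfsg.Agent.FT.B5

set_option autoImplicit false
open Cfsg

namespace Cfsg.Agent.S0640

open FT H9 Subgroup

/-- For odd p, a prime q ≠ p dividing the order of the automorphism group of a p-group of rank at most 2 divides p² - 1 and is less than p. -/
theorem result {R : Type*} [Group R] [Finite R] {p : ℕ} [Fact p.Prime] (hp : p ≠ 2) (hR : IsPGroup p R) (hrk : Cfsg.PRankLE p 2 R) (q : ℕ) (hq : q.Prime) (hqp : q ≠ p) (hdvd : q ∣ Nat.card (MulAut R)) : q ∣ p ^ 2 - 1 ∧ q < p := by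
  haveI := Fact.mk hq
  obtain ⟨A, -, hA⟩ := exists_card_prime (H := (⊤ : Subgroup (MulAut R))) hq (by rwa [card_top])
  have : q ∣ p - 1 ∨ q ∣ p + 1 := by
    by_contra h
    refine ne_bot_of_card_prime (hA ▸ hq) (L.aut_eq_one_of_ambient A fun Γ _ _ i B hi h1 h2 _ _ => ?_)
    by_contra h3
    refine h (t4_13 hp (MonoidHom.range_eq_map i ▸ (hR.to_subgroup ⊤).map i) ?_ hqp (isPGroup_of_card_prime (h1.trans hA)) h2
      fun a => h3 (le_centralizer_iff.1 a))
    rw [MonoidHom.range_eq_map, rk_map i (by rw [(MonoidHom.ker_eq_bot_iff i).2 hi]; simp)]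
    exact rk_top_le_iff.2 hrk
  exact ⟨by rw [sq_sub_one_eq]; exact this.elim (fun a => a.mul_right _) fun a => a.mul_left _, lt_of_dvd_pm hp hq hqp this⟩

end Cfsg.Agent.S0640
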