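import Cfsg.Statements.S0641
import Cfsg.Agent.H1.Reg

set_option autoImplicit false
open Cfsg

namespace Cfsg.Agent.S0641

open H1

/-- Regularity of a p-group passes to quotient groups. -/
theorem result {G : Type*} [Group G] {p : ℕ} [Fact p.Prime] (hG : Cfsg.IsRegularPGroup p G) (N : Subgroup G) [N.Normal] : Cfsg.IsRegularPGroup p (G ⧸ N) := by
  refine ⟨hG.1.to_quotient N, fun a b n => ?_⟩
  obtain ⟨a, rfl⟩ := QuotientGroup.mk'_surjective N a
  obtain ⟨b, rfl⟩ := QuotientGroup.mk'_surjective N b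
  obtain ⟨c, h1, h2⟩ := hG.2 a b n
  refine ⟨QuotientGroup.mk' N c, ?_, by simpa using congrArg (QuotientGroup.mk' N) h2⟩
  rw [← map_closure_pair, ← Subgroup.map_commutator, ← map_pc]
  exact Subgroup.mem_map_of_mem _ h1

end Cfsg.Agent.S0641
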