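import Cfsg.Statements.S0642
import Cfsg.Agent.H1.Reg

set_option autoImplicit false
open Cfsg

namespace Cfsg.Agent.S0642

open scoped commutatorElement
open H1

/-- Among finite 2-groups the regular ones are exactly the abelian ones. -/
theorem result {G : Type*} [Group G] [Finite G] (hG : IsPGroup 2 G) : Cfsg.IsRegularPGroup 2 G ↔ ∀ a b : G, a * b = b * a := by
  open Subgroup in
  refine ⟨fun h a b => ?_, fun h => ⟨hG, fun a b n => ⟨1, one_mem _, by
    rw [Commute.mul_pow (h a b), mul_one]⟩⟩⟩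
  obtain ⟨c, h1, h2⟩ := (R1.of_reg h).2 b⁻¹ a⁻¹
  set K := closure ({b⁻¹, a⁻¹} : Set G)
  have h3 : K ≤ normalizer ((L.Phi ⁅K, K⁆ : Subgroup G) : Set G) :=
    L.normalizer_Phi (normalizer_commutator_ge_right _ _)
  have h4 : c ∈ L.Phi ⁅K, K⁆ := pc_le_iff.2 (fun x hx => by
    simpa using L.pow_mem_Phi (hG.to_subgroup _) hx) h1
  have h5 := comm_pair_le (h3 (left_mem_pair _ _)) (h3 (right_mem_pair _ _)) (by
    have := conj_mem_of_mem_normalizer (h3 (mul_mem (left_mem_pair _ _) (mul_mem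
      (right_mem_pair _ _) (right_mem_pair _ _)))) (inv_mem h4)
    rw [show c = (b⁻¹ ^ 2 * a⁻¹ ^ 2)⁻¹ * (b⁻¹ * a⁻¹) ^ 2 by rw [h2]; group] at this
    convert this using 1
    simp [commutatorElement_def, sq, mul_assoc])
  have h6 := eq_of_sup_frattini (H := ⊥) bot_le (h5.trans le_sup_right)
  have h7 := commutator_mem_commutator (inv_mem (right_mem_pair b⁻¹ a⁻¹))
    (inv_mem (left_mem_pair b⁻¹ a⁻¹))
  rw [← h6, mem_bot, inv_inv, inv_inv] at h7
  exact commutatorElement_eq_one_iff_mul_comm.1 h7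

end Cfsg.Agent.S0642
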