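import Cfsg.Statements.S0645
import Cfsg.Agent.L.PG3
import Mathlib

set_option autoImplicit false
open Cfsg

namespace Cfsg.Agent.S0645

open Subgroup

/-- Classification of p-groups with a cyclic maximal subgroup, odd p: a non-abelian one of order p^n has generators a of order p^(n-1) and b of order p, b outside the cyclic subgroup generated by a, with b a b⁻¹ = a^(1 + p^(n-2)). -/
theorem result {G : Type*} [Group G] [Finite G] {p : ℕ} [Fact p.Prime] (hp : p ≠ 2) (n : ℕ) (hn : 3 ≤ n) (hG : Nat.card G = p ^ n) (C : Subgroup G) (hC : IsCyclic C) (hCi : C.index = p) (hna : ∃ x y : G, x * y ≠ y * x) : ∃ a b : G, orderOf a = p ^ (n - 1) ∧ orderOf b = p ∧ b ∉ Subgroup.zpowers a ∧ b * a * b⁻¹ = a ^ (1 + p ^ (n - 2)) := by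
  have hp' : p.Prime := Fact.out
  obtain ⟨a, ha, rfl⟩ := H1.exists_eq_zpowers_of_isCyclic hC
  obtain ⟨m, rfl⟩ : ∃ m, n = m + 2 := ⟨n - 2, by omega⟩
  have h1 : orderOf a = p ^ (m + 1) := by
    have := (zpowers a).card_mul_index
    rw [hCi, hG, Nat.card_zpowers, pow_succ] at this
    exact Nat.eq_of_mul_eq_mul_right hp'.pos this
  obtain ⟨-, b, -, h2, ⟨h3, -, h4⟩ | h3⟩ := L.cyclic_index_classify
    ((IsPGroup.of_card hG).to_subgroup ⊤) (mem_top a) h1 (by rwa [relIndex_top_right]) fun h => by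
      obtain ⟨x, y, hxy⟩ := hna
      exact hxy (H1.comm_of_mem h trivial trivial)
  · exact ⟨a, b, h1, orderOf_eq_prime h3 (by rintro rfl; exact h2 (one_mem _)), h2, h4⟩
  · exact absurd h3.1 hp

end Cfsg.Agent.S0645
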