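import Cfsg.Statements.S0646
import Cfsg.Agent.L.PG3
import Mathlib

set_option autoImplicit false
open Cfsg

namespace Cfsg.Agent.S0646

open Subgroup

/-- Classification of non-abelian 2-groups with a cyclic maximal subgroup: dihedral, generalized quaternion, and for order at least 16 the modular group and the semidihedral group, each given by generators a (of index 2) and b with the stated relations. -/
theorem result {G : Type*} [Group G] [Finite G] (n : ℕ) (hn : 3 ≤ n) (hG : Nat.card G = 2 ^ n) (C : Subgroup G) (hC : IsCyclic C) (hCi : C.index = 2) (hna : ∃ x y : G, x * y ≠ y * x) : ∃ a b : G, orderOf a = 2 ^ (n - 1) ∧ b ∉ Subgroup.zpowers a ∧ ((b ^ 2 = 1 ∧ b * a * b⁻¹ = a⁻¹) ∨ (b ^ 2 = a ^ (2 ^ (n - 2)) ∧ b * a * b⁻¹ = a⁻¹) ∨ (4 ≤ n ∧ b ^ 2 = 1 ∧ b * a * b⁻¹ = a ^ (1 + 2 ^ (n - 2))) ∨ (4 ≤ n ∧ b ^ 2 = 1 ∧ b * a * b⁻¹ = a ^ (2 ^ (n - 2) - 1))) := by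
  obtain ⟨a, ha, rfl⟩ := H1.exists_eq_zpowers_of_isCyclic hC
  obtain ⟨m, rfl⟩ : ∃ m, n = m + 2 := ⟨n - 2, by omega⟩
  have h1 : orderOf a = 2 ^ (m + 1) := by
    have := (zpowers a).card_mul_index
    rw [hCi, hG, Nat.card_zpowers, pow_succ] at this
    exact Nat.eq_of_mul_eq_mul_right two_pos this
  obtain ⟨-, b, -, h2, ⟨h3, h5, h4⟩ | ⟨-, h3 | h3 | h3⟩⟩ := L.cyclic_index_classify
    ((IsPGroup.of_card hG).to_subgroup ⊤) (mem_top a) h1 (by rwa [relIndex_top_right]) fun h => by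
      obtain ⟨x, y, hxy⟩ := hna
      exact hxy (H1.comm_of_mem h trivial trivial)
  · exact ⟨a, b, h1, h2, Or.inr (Or.inr (Or.inl ⟨by have := h5 rfl; omega, h3, h4⟩))⟩
  · exact ⟨a, b, h1, h2, Or.inl h3⟩
  · exact ⟨a, b, h1, h2, Or.inr (Or.inl h3)⟩
  · exact ⟨a, b, h1, h2, Or.inr (Or.inr (Or.inr ⟨by have := h3.1; omega, h3.2⟩))⟩

end Cfsg.Agent.S0646
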