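import Cfsg.Statements.S0656
import Cfsg.Agent.H9.QP

set_option autoImplicit false
open Cfsg

namespace Cfsg.Agent.S0656

/-- For odd p, a faithful group on an elementary abelian p-group with no nontrivial normal p-subgroup in which some nontrivial p-element acts quadratically has a section isomorphic to SL(2, p). -/
theorem result {G : Type*} [Group G] [Finite G] {p : ℕ} [Fact p.Prime] (hp : p ≠ 2) (V H : Subgroup G) (hV : Cfsg.IsElementaryAbelian p V) (hHV : H ≤ Subgroup.normalizer (V : Set G)) (hf : H ⊓ Subgroup.centralizer (V : Set G) = ⊥) (hO : Cfsg.pCore p ↥H = ⊥) (x : G) (hxH : x ∈ H) (hx1 : x ≠ 1) (hxp : ∃ k : ℕ, orderOf x = p ^ k) (hq : ⁅⁅V, Subgroup.zpowers x⁆, Subgroup.zpowers x⁆ = ⊥) : ∃ (K L : Subgroup G) (hL : (L.subgroupOf K).Normal), K ≤ H ∧ Nonempty ((K ⧸ L.subgroupOf K) ≃* Matrix.SpecialLinearGroup (Fin 2) (ZMod p)) := by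
  open H9 Subgroup in open scoped commutatorElement in
  obtain ⟨K, h1, h2⟩ := nat2_of_not_mem_Opm hp hV hHV hxH hq fun h => hx1 (mem_bot.1 ((Op_eq_bot_iff.2 hO).le
    (Opm_le_Op (by rw [inf_comm, hf]; exact IsPGroup.of_bot) h)))
  exact sect_iff.1 (h2.sect.mono h1)

end Cfsg.Agent.S0656
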