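import Cfsg.Statements.S0657
import Cfsg.Agent.H9.Qd

set_option autoImplicit false
open Cfsg

namespace Cfsg.Agent.S0657

/-- For odd p, a group that fails to be p-stable modulo its largest normal subgroup of order prime to p, and whose upper p-series does not stop there, has a section isomorphic to SL(2, p). -/
theorem result {G : Type*} [Group G] [Finite G] {p : ℕ} [Fact p.Prime] (hp : p ≠ 2) (hO : Cfsg.pPrimeCore p G < Cfsg.pPrimePCore p G) (hns : ¬ Cfsg.IsPStable p (G ⧸ Cfsg.pPrimeCore p G)) : ∃ (K L : Subgroup G) (hL : (L.subgroupOf K).Normal), K ≤ ⊤ ∧ Nonempty ((K ⧸ L.subgroupOf K) ≃* Matrix.SpecialLinearGroup (Fin 2) (ZMod p)) := by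
  open H9 Subgroup in open scoped commutatorElement in
  have hf := QuotientGroup.mk'_surjective (pPrimeCore p G)
  refine sect_iff.1 (Sect.of_map (QuotientGroup.mk' (pPrimeCore p G)) ?_)
  rw [map_top_of_surjective _ hf]
  by_contra h
  refine hns (isPStable_iff.2 ⟨(Fact.out : p.Prime).odd_of_ne_two hp, fun h1 => hO.ne ?_,
    (pst_iff_of_bot ?_).2 (pstN_of_not_sect hp h)⟩)
  · rw [pPrimePCore, h1, MonoidHom.comap_bot, QuotientGroup.ker_mk']
  · exact pPrimeCore_quotient p

end Cfsg.Agent.S0657
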