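import Cfsg.Statements.S0658
import Cfsg.Agent.H9.Stab

set_option autoImplicit false
open Cfsg

namespace Cfsg.Agent.S0658

/-- In a group of characteristic p type all of whose p-locals are p-stable (p odd), the normalizer of Z(J(P)) contains the normalizer of every nontrivial subgroup of the Sylow p-subgroup P. -/
theorem result {G : Type*} [Group G] [Finite G] {p : ℕ} [Fact p.Prime] (hp : p ≠ 2) (hloc : ∀ Q : Subgroup G, IsPGroup p Q → Q ≠ ⊥ → Cfsg.pPrimeCore p ↥(Subgroup.normalizer (Q : Set G)) = ⊥ ∧ Cfsg.IsPConstrained p ↥(Subgroup.normalizer (Q : Set G)) ∧ Cfsg.IsPStable p ↥(Subgroup.normalizer (Q : Set G))) (P : Sylow p G) (Q : Subgroup G) (hQP : Q ≤ (P : Subgroup G)) (hQ1 : Q ≠ ⊥) : Subgroup.normalizer (Q : Set G) ≤ Subgroup.normalizer (Cfsg.centerThompsonAOf ((P : Subgroup G)) : Set G) := by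
  open H9 Subgroup in open scoped commutatorElement in
  rw [ZA_eq]
  have hS := syl_top_of_sylow P
  have zj : ∀ Q R : Subgroup G, IsPGroup p Q → Q ≠ ⊥ → Syl p R (normalizer (Q : Set G)) →
      normalizer (Q : Set G) ≤ normalizer (Zc (JA R) : Set G) := fun Q R h1 h2 hR => by
    obtain ⟨h3, h4, h5⟩ := hloc Q h1 h2
    obtain ⟨T, rfl⟩ := hR.exists_sylow
    have := ZA_normal hp (syl_top_of_sylow T) ((pst_iff_of_bot h3).1 (isPStable_iff.1 h5).2.2)
      (constrained_of_pcon h4 h3)
    rw [← map_JA (subtype_injective _), ← map_Zc (subtype_injective _)]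
    exact map_subtype_le_normalizer _
  set M := normalizer (Zc (JA (P : Subgroup G)) : Set G) with hM
  have hPM : (P : Subgroup G) ≤ M := normalizer_Zc (normalizer_JA le_normalizer)
  have key : ∀ R Q : Subgroup G, Q ≠ ⊥ → IsPGroup p Q → Q ≤ M → Syl p R (normalizer (Q : Set G) ⊓ M) →
      normalizer (Q : Set G) ≤ M := by
    intro R
    induction R using WellFoundedGT.induction with
    | ind R ih =>
    intro Q h0 h1 h2 hR
    have h3 : Q ≤ R := hR.le_of_le_normalizer h1 (le_inf le_normalizer h2) (Or.inr (hR.le.trans inf_le_left))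
    by_cases h4 : Syl p R M
    · obtain ⟨m, hm, rfl⟩ := (hS.mono hPM le_top).conj h4
      have h5 := zj Q _ h1 h0 ((hS.cj_of_mem (top_le_normalizer _ (mem_top m))).mono
        (hR.le.trans inf_le_left) le_top)
      rwa [← cj_JA, ← cj_Zc, mem_normalizer_iff_cj.1 hm] at h5
    have h5 : Zc (JA R) ≤ R := inf_le_left.trans (JA_le R)
    have h6 : normalizer (R : Set G) ≤ normalizer (Zc (JA R) : Set G) := normalizer_Zc (normalizer_JA le_rfl)
    obtain ⟨T, hT, h7⟩ := exists_syl_ge hR.isP (le_inf (le_normalizer.trans h6) (hR.le.trans inf_le_right))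
    have h8 : R ≠ T := by
      rintro rfl
      exact h4 (Syl.of_normalizer (hT.mono (le_inf (hR.le.trans inf_le_right) le_normalizer)
        (le_inf (inf_le_right.trans h6) inf_le_left)))
    have h9 := ih T (lt_of_le_of_ne h7 h8) _ (ZA_ne_bot hR.isP fun e => h0 (eq_bot_iff.2 (h3.trans e.le)))
      (hR.isP.to_le h5) (h5.trans (hR.le.trans inf_le_right)) hT
    exact (zj Q R h1 h0 (Syl.of_normalizer (hR.mono (le_inf (hR.le.trans inf_le_left) le_normalizer)
      (inf_le_inf_left _ (h6.trans h9))))).trans h9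
  obtain ⟨R, hR⟩ := exists_syl p (normalizer (Q : Set G) ⊓ M)
  exact key R Q hQ1 (hS.isP.to_le hQP) (hQP.trans hPM) hR

end Cfsg.Agent.S0658
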