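import Cfsg.Statements.S0660
import Cfsg.Agent.H9.Rad
import Cfsg.Agent.H1.Gaschutz

set_option autoImplicit false
open Cfsg

namespace Cfsg.Agent.S0660

open H9 Subgroup

/-- Under a coprime action on an abelian group, an invariant subgroup that is complemented admits an invariant complement. -/
theorem result {G : Type*} [Group G] [Finite G] (V A U : Subgroup G) (hVab : IsMulCommutative V) (hAV : A ≤ Subgroup.normalizer (V : Set G)) (hcop : (Nat.card A).Coprime (Nat.card V)) (hUV : U ≤ V) (hAU : A ≤ Subgroup.normalizer (U : Set G)) (W : Subgroup G) (hWV : W ≤ V) (hUW : U ⊓ W = ⊥) (hUWV : U ⊔ W = V) : ∃ W' : Subgroup G, W' ≤ V ∧ A ≤ Subgroup.normalizer (W' : Set G) ∧ U ⊓ W' = ⊥ ∧ U ⊔ W' = V := by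
  set L := V ⊔ A with hL
  have hVc : V ≤ centralizer (V : Set G) := le_centralizer V
  have hLV : L ≤ normalizer (V : Set G) := sup_le le_normalizer hAV
  have hLU : L ≤ normalizer (U : Set G) :=
    sup_le ((hVc.trans (centralizer_le (SetLike.coe_subset_coe.2 hUV))).trans (centralizer_le_normalizer' U)) hAU
  have hVL : V ≤ L := le_sup_left
  haveI : (U.subgroupOf L).Normal := (normal_subgroupOf_iff_le_normalizer (hUV.trans hVL)).2 hLU
  have hc : IsMulCommutative (U.subgroupOf L) :=
    ⟨⟨fun a b => Subtype.ext (Subtype.ext (hVc (hUV a.2) _ (hUV b.2)).symm)⟩⟩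
  have hi : (V.subgroupOf L).index ∣ Nat.card A := by
    show V.relIndex L ∣ _
    rw [hL, sup_comm, relIndex_sup_of_le_normalizer hAV]
    exact relIndex_dvd_card _ _
  obtain ⟨H, hH⟩ := H1.gaschutz_exists (K := U.subgroupOf L) (U := V.subgroupOf L) (A := W.subgroupOf L) hc
    (by
      rw [Nat.card_congr (subgroupOfEquivOfLe (hUV.trans hVL)).toEquiv]
      exact (hcop.symm.coprime_dvd_left (card_dvd_of_le hUV)).coprime_dvd_right hi)
    (by
      show comap _ _ ⊓ comap _ _ = ⊥
      rw [← comap_inf, inf_comm, hUW]; exact bot_subgroupOf _)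
    (by rw [← subgroupOf_sup (hUV.trans hVL) (hWV.trans hVL), hUWV])
  have e1 : U ⊔ H.map L.subtype = L := by
    have := congrArg (map L.subtype) hH.sup_eq_top
    rwa [Subgroup.map_sup, subgroupOf_map_subtype, inf_eq_left.2 (hUV.trans hVL), ← MonoidHom.range_eq_map,
      range_subtype] at this
  have e2 : U ⊓ H.map L.subtype = ⊥ := by
    rw [eq_bot_iff]
    rintro _ ⟨h1, x, hx, rfl⟩
    have : x ∈ U.subgroupOf L ⊓ H := ⟨h1, hx⟩
    rw [hH.disjoint.eq_bot, mem_bot] at this
    rw [this]; exact one_mem _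
  have hHL : H.map L.subtype ≤ L := map_subtype_le _
  refine ⟨H.map L.subtype ⊓ V, inf_le_right, ?_, ?_, ?_⟩
  · refine le_trans ((le_sup_right : A ≤ L).trans e1.ge) ?_
    refine sup_le ?_ ?_
    · exact (hUV.trans hVc).trans ((centralizer_le (SetLike.coe_subset_coe.2 inf_le_right)).trans
        (centralizer_le_normalizer' _))
    · exact normalizer_inf le_normalizer (hHL.trans hLV)
  · rw [← inf_assoc, e2, bot_inf_eq]
  · rw [← dedekind hUV (Or.inr (hHL.trans hLU)), e1, inf_eq_right.2 hVL]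

end Cfsg.Agent.S0660
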