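import Cfsg.Statements.S0661
import Cfsg.Agent.H9.PCon

set_option autoImplicit false
open Cfsg

namespace Cfsg.Agent.S0661

/-- If, modulo the largest normal subgroup of order prime to p, the largest normal p-subgroup contains its centralizer, then for every p-subgroup P the p'-core of N_G(P) is just O_p'(G) ∩ N_G(P). -/
theorem result {G : Type*} [Group G] [Finite G] {p : ℕ} [Fact p.Prime] (hc : Subgroup.centralizer (Cfsg.pCore p (G ⧸ Cfsg.pPrimeCore p G) : Set (G ⧸ Cfsg.pPrimeCore p G)) ≤ Cfsg.pCore p (G ⧸ Cfsg.pPrimeCore p G)) (P : Subgroup G) (hP : IsPGroup p P) : (Cfsg.pPrimeCore p ↥(Subgroup.normalizer (P : Set G))).map (Subgroup.normalizer (P : Set G)).subtype = Cfsg.pPrimeCore p G ⊓ Subgroup.normalizer (P : Set G) := by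
  open H9 Subgroup in open scoped commutatorElement in
  set f := QuotientGroup.mk' (pPrimeCore p G) with hf
  have htop : (⊤ : Subgroup G).map f = ⊤ := map_top_of_surjective _ (QuotientGroup.mk'_surjective _)
  have hker : f.ker = Op' p ⊤ := by rw [QuotientGroup.ker_mk', Op'_top]
  have hk : (Nat.card (f.ker ⊓ ⊤ : Subgroup G)).Coprime p := by
    rw [inf_top_eq, hker]; exact Op'_cop p ⊤
  have h1 : PLay p (⊤ : Subgroup (G ⧸ pPrimeCore p G)) = ⊥ := by
    refine (Fst_eq_Op_iff''.1 (Fst_eq_Op_iff_centralizer_le.2 ?_)).1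
    rw [Op_top]; exact inf_le_right.trans hc
  rw [← htop, ← map_PLay_of_ker f hk, Subgroup.map_eq_bot_iff, hker] at h1
  have h2 := (local_of_PLay_eq_bot (PLay_eq_bot_of_le_cop h1 (Op'_cop p ⊤)) hP le_top).2
  rw [top_inf_eq] at h2
  rw [Op'_eq, ← Op'_top]
  exact le_antisymm (le_inf h2 (Op'_le _ _)) (Op'_inf_le le_top)

end Cfsg.Agent.S0661
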