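import Cfsg.Statements.S0662
import Cfsg.Agent.L.PG4
import Mathlib

set_option autoImplicit false
open Cfsg

namespace Cfsg.Agent.S0662

open Subgroup

/-- In a p-group of maximal class of order at least p³ the normal subgroups of index at least p² are exactly the terms of the lower central series, and there are exactly p + 1 normal subgroups of index p. -/
theorem result {G : Type*} [Group G] [Finite G] {p : ℕ} [Fact p.Prime] (n : ℕ) (hG : Nat.card G = p ^ n) (hcl : Group.nilpotencyClass G = n - 1) (hn : 3 ≤ n) : (∀ (N : Subgroup G) [N.Normal] (r : ℕ), 2 ≤ r → N.index = p ^ r → N = (⊤ : Subgroup G).lowerCentralSeries (r - 1)) ∧ Nat.card {N : Subgroup G // N.Normal ∧ N.index = p} = p + 1 := by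
  have hp : p.Prime := Fact.out
  obtain ⟨m, rfl⟩ : ∃ m, n = m + 3 := ⟨n - 3, by omega⟩
  have hP := IsPGroup.of_card hG
  have h := (L.nilpotencyClass_eq_iff hG).1 hcl
  refine ⟨fun N _ r hr hN => ?_, ?_⟩
  · obtain ⟨j, rfl⟩ : ∃ j, r = j + 2 := ⟨r - 2, by omega⟩
    have h1 := L.lcs_le_of_index_le hP N j hN.le
    have e := N.card_mul_index
    rw [hN, hG] at e
    refine (eq_of_le_of_card_ge h1 ?_).symm
    have h2 := (Nat.pow_dvd_pow_iff_le_right hp.one_lt).1 (Dvd.intro_left _ e)
    rcases Nat.eq_or_lt_of_le h2 with h3 | h3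
    · rw [← h3] at e
      rw [Nat.eq_of_mul_eq_mul_right (pow_pos hp.pos _) (e.trans (one_mul _).symm)]
      exact Nat.card_pos
    · obtain ⟨k, rfl⟩ : ∃ k, m = j + k := ⟨m - j, by omega⟩
      refine le_trans ?_ (L.pow_le_card_lcs (hP.to_subgroup ⊤) (j + 1) k (by
        rwa [show j + 1 + k = j + k + 1 by ring]))
      apply Nat.le_of_mul_le_mul_right _ (pow_pos hp.pos (j + 2))
      rw [e, ← pow_add]; apply le_of_eq; congr 1; ring
  · haveI := hP.isNilpotent
    have hnc : ¬ IsCyclic (⊤ : Subgroup G) := fun hc => h (eq_bot_iff.2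
      (L.commutator_eq_bot_iff_comm.2 hc.isMulCommutative ▸
      (⊤ : Subgroup G).lowerCentralSeries_antitone (show 1 ≤ m + 1 by omega)))
    have h1 := L.index_commutator_le_of_lcs hG h
    have h2 := L.sq_le_relIndex_of_le_Phi (hP.to_subgroup ⊤) le_rfl hnc
    rw [relIndex_top_right, L.Phi_top] at h2
    have h3 : Nat.card (G ⧸ frattini G) = p ^ 2 := le_antisymm ((Nat.le_of_dvd
      (Nat.pos_of_ne_zero index_ne_zero_of_finite)
      (index_dvd_of_le H1.commutator_le_frattini)).trans h1) h2
    rw [← L.card_subgroups_of_exp_sq (P := (⊤ : Subgroup (G ⧸ frattini G))) (fun x _ => by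
      obtain ⟨x, rfl⟩ := QuotientGroup.mk'_surjective _ x
      rw [← map_pow, QuotientGroup.mk'_apply, QuotientGroup.eq_one_iff]
      exact H1.pow_mem_frattini hP x) (by rw [card_top, h3])]
    have key : ∀ H : Subgroup (G ⧸ frattini G), H.index = p ↔ Nat.card H = p := fun H => by
      have := H.card_mul_index
      rw [h3, pow_two] at this
      exact ⟨fun h => Nat.eq_of_mul_eq_mul_right hp.pos (h ▸ this),
        fun h => Nat.eq_of_mul_eq_mul_left hp.pos (h ▸ this)⟩
    have hf : ∀ N : Subgroup G, N.index = p → frattini G ≤ N := fun N hN =>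
      frattini_le_coatom ⟨by rintro rfl; rw [index_top] at hN; exact hp.one_lt.ne hN, fun K hK =>
        (L.eq_or_eq_of_relIndex_prime (by rw [relIndex_top_right, hN]; exact hp) hK.le le_top
          ).resolve_left hK.ne'⟩
    let F : {H : Subgroup (G ⧸ frattini G) // H ≤ ⊤ ∧ Nat.card H = p} →
        {N : Subgroup G // N.Normal ∧ N.index = p} := fun H => ⟨H.1.comap (QuotientGroup.mk' _),
      Subgroup.Normal.of_commutator_le _ (H1.commutator_le_frattini.trans
        (QuotientGroup.le_comap_mk' _ _)),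
      by rw [index_comap_of_surjective _ (QuotientGroup.mk'_surjective _), key]; exact H.2.2⟩
    refine (Nat.card_congr (Equiv.ofBijective F
      ⟨fun H K h => Subtype.ext (comap_injective (QuotientGroup.mk'_surjective _)
        (congrArg Subtype.val h)), fun N => ⟨⟨N.1.map (QuotientGroup.mk' _), le_top, ?_⟩, ?_⟩⟩)).symm
    · rw [← key, H1.index_map_mk', sup_eq_left.2 (hf _ N.2.2)]; exact N.2.2
    · exact Subtype.ext ((QuotientGroup.comap_map_mk' _ _).trans (sup_eq_right.2 (hf _ N.2.2)))

end Cfsg.Agent.S0662
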