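import Cfsg.Statements.S0663
import Cfsg.Agent.L.PG1
import Cfsg.Agent.H9.Norm

set_option autoImplicit false
open Cfsg

namespace Cfsg.Agent.S0663

open scoped commutatorElement
open H1
open Subgroup

section
variable {L : Type*} [Group L] [Finite L] {p : ℕ} [hp : Fact p.Prime] {G : Subgroup L}

omit [Finite L] hp in
theorem nrm {N : Subgroup L} (h : G ≤ normalizer (N : Set L)) (i : ℕ) :
    G ≤ normalizer (iterCommutator N G i : Set L) := by
  rcases i with _ | i
  · exact h
  · exact normalizer_commutator_ge_right _ _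

omit [Finite L] hp in
theorem rmc {H K : Subgroup L} (h : H ≤ K) : H.relIndex K * Nat.card H = Nat.card K := by
  rw [mul_comm, card_mul_relIndex h]

theorem iter_bot (hG : IsPGroup p G) (n : ℕ) : ∀ N : Subgroup L, IsPGroup p N →
    G ≤ normalizer (N : Set L) → Nat.card N ≤ p ^ n → iterCommutator N G n = ⊥ := by
  induction n with
  | zero => intro N _ _ h; exact card_le_one_iff_eq_bot N |>.1 (by simpa using h)
  | succ n ih =>
    intro N hN hn h
    rw [H9.iter_succ']
    have h0 := H9.commutator_le_left' hn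
    refine ih _ (hN.to_le h0) (normalizer_commutator_ge_right N G) ?_
    by_cases e : N = ⊥
    · rw [e, commutator_bot_left, card_bot]; exact Nat.one_le_pow _ _ hp.out.pos
    have := (_root_.L.mul_card_le_of_lt hN (commutator_lt_of_isPGroup hN hG hn e)).trans h
    rw [pow_succ'] at this
    exact Nat.le_of_mul_le_mul_left this hp.out.pos

theorem main (hG : IsPGroup p G) (n : ℕ) : ∀ N : Subgroup L, G ≤ normalizer (N : Set L) →
    Nat.card N = p ^ n → (iterCommutator N G (n - 1) ≠ ⊥ ∨ n = 0) →
    (∀ i ≤ n, Nat.card (iterCommutator N G i) = p ^ (n - i)) ∧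
    ∀ H ≤ N, G ≤ normalizer (H : Set L) → ∃ i ≤ n, H = iterCommutator N G i := by
  induction n with
  | zero =>
    intro N _ h _
    refine ⟨fun i hi => by rw [Nat.le_zero.1 hi]; exact h, fun H h1 _ => ⟨0, le_rfl, ?_⟩⟩
    rw [pow_zero, card_eq_one] at h
    exact le_antisymm h1 (h.le.trans bot_le)
  | succ n ih =>
    intro N hn h hl
    have hN := _root_.L.isPGroup_of_card h
    have e : N ≠ ⊥ := fun e => by
      rw [e, card_bot] at h; exact (Nat.one_lt_pow n.succ_ne_zero hp.out.one_lt).ne h
    have h0 := commutator_lt_of_isPGroup hN hG hn e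
    have n1 := normalizer_commutator_ge_right N G
    have hl' : iterCommutator ⁅N, G⁆ G (n - 1) ≠ ⊥ ∨ n = 0 := by
      rcases n with _ | n
      · exact Or.inr rfl
      · exact Or.inl (by rw [← H9.iter_succ']; simpa using hl)
    have c1 : Nat.card (⁅N, G⁆ : Subgroup L) = p ^ n := by
      obtain ⟨k, hk⟩ := _root_.L.exists_card_eq_pow (hN.to_le h0.le)
      have h1 := _root_.L.mul_card_le_of_lt hN h0
      rw [hk, h, ← pow_succ', Nat.pow_le_pow_iff_right hp.out.one_lt] at h1
      rw [hk]; congr 1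
      by_contra h2
      rcases hl' with h3 | h3
      · exact h3 (iter_bot hG _ _ (hN.to_le h0.le) n1
          (by rw [hk]; exact Nat.pow_le_pow_right hp.out.pos (by omega)))
      · omega
    obtain ⟨i1, i2⟩ := ih _ n1 c1 hl'
    refine ⟨fun i hi => ?_, fun H h1 h2 => ?_⟩
    · rcases i with _ | i
      · exact h
      · rw [H9.iter_succ', i1 i (by omega), Nat.add_sub_add_right]
    by_cases h3 : H ≤ ⁅N, G⁆
    · obtain ⟨i, hi, rfl⟩ := i2 H h3 h2
      exact ⟨i + 1, by omega, (H9.iter_succ' _ _ _).symm⟩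
    refine ⟨0, by omega, ?_⟩
    change H = N
    have h4 : H ⊔ ⁅N, G⁆ = N := by
      by_contra h5
      have a1 := _root_.L.mul_card_le_of_lt hN (lt_of_le_of_ne (sup_le h1 h0.le) h5)
      have a2 := _root_.L.mul_card_le_of_lt (hN.to_le (sup_le h1 h0.le)) (right_lt_sup.2 h3)
      rw [c1, ← pow_succ', ← h] at a2
      have := hp.out.two_le
      have : 0 < Nat.card N := Nat.card_pos
      nlinarith
    obtain ⟨i, hi, e1⟩ := i2 (H ⊓ ⁅N, G⁆) inf_le_right (le_normalizer_inf h2 n1)
    rcases i with _ | i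
    · rw [← h4]; exact (sup_eq_left.2 (inf_eq_right.1 e1)).symm
    exfalso
    obtain ⟨M, m1, m2, m3⟩ := _root_.L.exists_normal_card' (hN.to_sup_of_normal_left' hG hn)
      (h0.le.trans le_sup_left)
      (sup_le (normalizer_commutator_ge_left N G) n1) (n - 1)
      (by rw [c1]; exact Nat.pow_le_pow_right hp.out.pos (by omega))
    obtain ⟨j, hj, rfl⟩ := i2 M m1 (le_sup_right.trans m2)
    rw [i1 j hj] at m3
    obtain rfl : j = 1 := by have := Nat.pow_right_injective hp.out.two_le m3; omega
    have h5 : H ⊓ ⁅N, G⁆ ≤ iterCommutator ⁅N, G⁆ G 1 := by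
      rw [e1, add_comm, H9.iter_add]
      exact H9.iter_le (normalizer_commutator_ge_right _ _) _
    have h6 : ⁅N, G⁆ ≤ iterCommutator ⁅N, G⁆ G 1 := commutator_le.2 fun x hx g hg => by
      rw [← h4] at hx
      obtain ⟨a, ha, b, hb, rfl⟩ := (mem_sup_of_le_normalizer_right
        (h1.trans (normalizer_commutator_ge_left N G))).1 hx
      rw [_root_.L.commutatorElement_mul_left']
      exact mul_mem (H9.conj_mem_of_le_normalizer m2 (mem_sup_left (h1 ha))
        (commutator_mem_commutator hb hg)) (h5 ⟨H9.commutator_le_left' h2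
          (commutator_mem_commutator ha hg), commutator_mem_commutator (h1 ha) hg⟩)
    have := card_le_of_le h6
    rw [c1, i1 1 hj, Nat.pow_le_pow_iff_right hp.out.one_lt] at this
    omega

end

/-- A p-group acts uniserially on a p-group N of order p^n exactly when the iterated commutator chain from N has length n; in that case the chain terms are all the invariant subgroups of N and they are normal in N. -/
theorem result {L : Type*} [Group L] [Finite L] {p : ℕ} [Fact p.Prime] (N G : Subgroup L) (hN : IsPGroup p N) (hG : IsPGroup p G) (hGN : G ≤ Subgroup.normalizer (N : Set L)) (n : ℕ) (hn : Nat.card N = p ^ n) : ((∀ H : Subgroup L, H ≤ N → G ≤ Subgroup.normalizer (H : Set L) → H ≠ ⊥ → (⁅H, G⁆).relIndex H = p) ↔ Cfsg.iterCommutator N G (n - 1) ≠ ⊥ ∨ n = 0) ∧ ((∀ H : Subgroup L, H ≤ N → G ≤ Subgroup.normalizer (H : Set L) → H ≠ ⊥ → (⁅H, G⁆).relIndex H = p) → ∀ H : Subgroup L, H ≤ N → G ≤ Subgroup.normalizer (H : Set L) → (∃ i ≤ n, H = Cfsg.iterCommutator N G i) ∧ N ≤ Subgroup.normalizer (H :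 Set L)) := by
  have hp : p.Prime := Fact.out
  have a : (∀ H : Subgroup L, H ≤ N → G ≤ normalizer (H : Set L) → H ≠ ⊥ → (⁅H, G⁆).relIndex H = p) →
      iterCommutator N G (n - 1) ≠ ⊥ ∨ n = 0 := fun h => by
    have h1 : ∀ i ≤ n, Nat.card (iterCommutator N G i) = p ^ (n - i) := by
      intro i
      induction i with
      | zero => intro _; exact hn
      | succ i ih =>
        intro hi
        have h2 := ih (by omega)
        have h3 := h _ (H9.iter_le hGN i) (nrm hGN i) fun e => by
          rw [e, card_bot] at h2; exact (Nat.one_lt_pow (by omega) hp.one_lt).ne h2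
        have h4 := rmc (H9.commutator_le_left' (nrm hGN i))
        rw [h3, h2, show n - i = n - (i + 1) + 1 by omega, pow_succ'] at h4
        exact Nat.eq_of_mul_eq_mul_left hp.pos h4
    rcases n with _ | n
    · exact Or.inr rfl
    · refine Or.inl fun e => ?_
      have := h1 n (by omega)
      rw [Nat.add_sub_cancel] at e
      rw [e, card_bot] at this; exact (Nat.one_lt_pow (by omega) hp.one_lt).ne this
  refine ⟨⟨a, fun h H h1 h2 h3 => ?_⟩, fun h H h1 h2 => ?_⟩
  · obtain ⟨i1, i2⟩ := main hG n N hGN hn h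
    obtain ⟨i, hi, rfl⟩ := i2 H h1 h2
    have h4 := rmc (H9.commutator_le_left' h2)
    have : i ≠ n := fun e => h3 (by rw [← card_eq_one, i1 i hi, e, Nat.sub_self, pow_zero])
    rw [← H9.iter_succ, i1 i hi, i1 (i + 1) (by omega), show n - i = n - (i + 1) + 1 by omega,
      pow_succ'] at h4
    exact Nat.eq_of_mul_eq_mul_right (pow_pos hp.pos _) h4
  · obtain ⟨i1, i2⟩ := main hG n N hGN hn (a h)
    obtain ⟨i, hi, rfl⟩ := i2 H h1 h2
    refine ⟨⟨i, hi, rfl⟩, ?_⟩
    obtain ⟨M, m1, m2, m3⟩ := _root_.L.exists_normal_card' (hN.to_sup_of_normal_left' hG hGN) le_sup_left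
      (sup_le le_normalizer hGN) (n - i) (by rw [hn]; exact Nat.pow_le_pow_right hp.pos (by omega))
    obtain ⟨j, hj, rfl⟩ := i2 M m1 (le_sup_right.trans m2)
    rw [i1 j hj] at m3
    obtain rfl : j = i := by have := Nat.pow_right_injective hp.two_le m3; omega
    exact le_sup_left.trans m2

end Cfsg.Agent.S0663
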