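import Cfsg.Statements.S0666
import Cfsg.Agent.H9.Rad
import Cfsg.Agent.H1.Frob

set_option autoImplicit false
open Cfsg

namespace Cfsg.Agent.S0666

open H9 Subgroup
open scoped IsMulCommutative

/-- A Frobenius group acting on a nontrivial abelian group of order prime to that of its kernel, with the kernel acting without nontrivial fixed points, has a complement with a nontrivial fixed point. -/
theorem result {G : Type*} [Group G] [Finite G] (V F : Subgroup G) (hVab : IsMulCommutative V) (hV1 : V ≠ ⊥) (hFV : F ≤ Subgroup.normalizer (V : Set G)) (H : Subgroup ↥F) (hH : Cfsg.IsFrobeniusComplement H) (hcop : (Nat.card V).Coprime (Nat.card (Cfsg.frobeniusKernel H))) (hCK : V ⊓ Subgroup.centralizer (Subtype.val '' Cfsg.frobeniusKernel H : Set G) = ⊥) : V ⊓ Subgroup.centralizer ((H.map F.subtype : Subgroup G) : Set G) ≠ ⊥ := by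
  classical
  intro hC
  obtain ⟨N, hN, e, hc, -, -, hx⟩ := H1.IsFrob.exists_kernel hH
  rw [← e] at hcop hCK
  haveI := Fintype.ofFinite F
  let ρ : F →* MulAut V := V.normalizerMonoidHom.comp (inclusion hFV)
  have hρ : ∀ (f : F) (v : V), (ρ f v : G) = f * v * (f : G)⁻¹ := fun f v => rfl
  have key : ∀ (X Y : Subgroup F), Y ≤ X → V ⊓ centralizer (Subtype.val '' (Y : Set F)) = ⊥ → ∀ v : V,
      ∏ f ∈ Finset.univ.filter (· ∈ X), ρ f v = 1 := fun X Y hY h v => by
    have h1 : ∀ y ∈ Y, ρ y (∏ f ∈ Finset.univ.filter (· ∈ X), ρ f v) =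
        ∏ f ∈ Finset.univ.filter (· ∈ X), ρ f v := fun y hy => by
      rw [map_prod]
      refine Finset.prod_nbij' (fun f => y * f) (fun f => y⁻¹ * f) (fun f hf => ?_) (fun f hf => ?_)
        (fun f _ => by simp) (fun f _ => by simp) (fun f _ => by simp)
      · simpa using mul_mem (hY hy) (by simpa using hf)
      · simpa using mul_mem (inv_mem (hY hy)) (by simpa using hf)
    have h2 : ((∏ f ∈ Finset.univ.filter (· ∈ X), ρ f v : V) : G) ∈
        V ⊓ centralizer (Subtype.val '' (Y : Set F)) := by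
      refine ⟨Subtype.property _, ?_⟩
      rintro _ ⟨y, hy, rfl⟩
      have := congrArg Subtype.val (h1 y hy)
      rw [hρ] at this
      exact mul_inv_eq_iff_eq_mul.1 this
    rw [h] at h2
    exact Subtype.ext h2
  have hd : ∀ x, x ∈ N → x ∈ H → x = 1 := fun x h1 h2 => by
    have : x ∈ N ⊓ H := ⟨h1, h2⟩
    rwa [hc.disjoint.eq_bot, mem_bot] at this
  refine hV1 (eq_bot_iff.2 fun v hv => ?_)
  lift v to V using hv
  have k1 := key ⊤ N le_top hCK v
  have k2 := key N N le_rfl hCK v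
  have k3 : ∏ k ∈ Finset.univ.filter (· ∈ N), ∏ h ∈ Finset.univ.filter (· ∈ H), ρ (k * h * k⁻¹) v = 1 := by
    refine Finset.prod_eq_one fun k _ => ?_
    have := congrArg (ρ k) (key H H le_rfl hC (ρ k⁻¹ v))
    rw [map_prod, map_one] at this
    simpa [map_mul] using this
  have k4 : ∏ k ∈ Finset.univ.filter (· ∈ N), ∏ h ∈ (Finset.univ.filter (· ∈ H)).erase 1, ρ (k * h * k⁻¹) v =
      ∏ f ∈ Finset.univ.filter (· ∉ N), ρ f v := by
    rw [← Finset.prod_product']
    refine Finset.prod_nbij (fun x => x.1 * x.2 * x.1⁻¹) ?_ ?_ ?_ (fun _ _ => rfl)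
    · rintro ⟨k, h⟩ hkh
      simp only [Finset.mem_product, Finset.mem_filter, Finset.mem_univ, true_and, Finset.mem_erase] at hkh ⊢
      intro h1
      have := hN.conj_mem _ h1 k⁻¹
      exact hkh.2.1 (hd h (by simpa [mul_assoc] using this) hkh.2.2)
    · rintro ⟨k, h⟩ hkh ⟨k', h'⟩ hkh' e
      simp only [Finset.coe_product, Set.mem_prod, Finset.mem_coe, Finset.mem_filter, Finset.mem_univ, true_and,
        Finset.mem_erase] at hkh hkh' e
      have e1 : k'⁻¹ * k * h * (k'⁻¹ * k)⁻¹ = h' := by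
        rw [show k'⁻¹ * k * h * (k'⁻¹ * k)⁻¹ = k'⁻¹ * (k * h * k⁻¹) * k' by group, e]; group
      have e2 : k'⁻¹ * k ∈ H := by
        by_contra hn
        have : h' ∈ H ⊓ cj (k'⁻¹ * k) H := ⟨hkh'.2.2, e1 ▸ conj_mem_cj_iff.2 hkh.2.2⟩
        rw [cj_eq_smul, hH.2.2 _ hn, mem_bot] at this
        exact hkh'.2.1 this
      have e3 := hd _ (mul_mem (inv_mem hkh'.1) hkh.1) e2
      rw [e3] at e1
      exact Prod.ext (inv_mul_eq_one.1 e3).symm (by simpa using e1)
    · intro x hx'
      have hxN : x ∉ N := by simpa using hx'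
      obtain ⟨g, hg⟩ := hx x hxN
      obtain ⟨⟨k, h⟩, rfl⟩ := hc.2 g
      rw [← cj_eq_smul] at hg
      simp only at hg
      rw [cj_mul, cj_eq_of_mem h.2] at hg
      obtain ⟨y, hy, rfl⟩ := hg
      refine ⟨(k, y), ?_, rfl⟩
      simp only [Finset.coe_product, Set.mem_prod, Finset.mem_coe, Finset.mem_filter, Finset.mem_univ, true_and,
        Finset.mem_erase]
      refine ⟨k.2, fun e => hxN ?_, hy⟩
      rw [e, map_one]
      exact one_mem _
  have k5 : ∏ f ∈ Finset.univ.filter (· ∉ N), ρ f v = 1 := by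
    have := Finset.prod_filter_mul_prod_filter_not Finset.univ (· ∈ N) (fun f => ρ f v)
    rw [k2, one_mul] at this
    rw [this, ← k1]
    simp
  have k6 : v ^ Nat.card N = 1 := by
    rw [← k3]
    have : ∀ k ∈ Finset.univ.filter (· ∈ N), ∏ h ∈ Finset.univ.filter (· ∈ H), ρ (k * h * k⁻¹) v =
        v * ∏ h ∈ (Finset.univ.filter (· ∈ H)).erase 1, ρ (k * h * k⁻¹) v := fun k _ => by
      rw [← Finset.mul_prod_erase _ _ (a := 1) (by simp)]
      simp
    rw [Finset.prod_congr rfl this, Finset.prod_mul_distrib, k4, k5, mul_one, Finset.prod_const,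
      Nat.card_eq_fintype_card, Fintype.card_subtype]
  have k7 : orderOf v = 1 := Nat.Coprime.eq_one_of_dvd (hcop.coprime_dvd_left (orderOf_dvd_natCard v))
    (orderOf_dvd_of_pow_eq_one k6)
  rw [orderOf_eq_one_iff.1 k7]
  exact one_mem _

end Cfsg.Agent.S0666
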