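import Cfsg.Statements.S0667
import Cfsg.Agent.H9.Stab

set_option autoImplicit false
open Cfsg

namespace Cfsg.Agent.S0667

/-- Glauberman's Theorem in the p-constrained, p-stable vocabulary: for odd p such a group is the product of its largest normal subgroup of order prime to p with the normalizer of Z(J(P)), and Z(J(P)) is normal when that p'-subgroup is trivial. -/
theorem result {G : Type*} [Group G] [Finite G] {p : ℕ} [Fact p.Prime] (hp : p ≠ 2) (hc : Cfsg.IsPConstrained p G) (hs : Cfsg.IsPStable p G) (P : Sylow p G) : Cfsg.pPrimeCore p G ⊔ Subgroup.normalizer (Cfsg.centerThompsonAOf ((P : Subgroup G)) : Set G) = ⊤ ∧ (Cfsg.pPrimeCore p G = ⊥ → (Cfsg.centerThompsonAOf ((P : Subgroup G))).Normal) := by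
  open H9 Subgroup in open scoped commutatorElement in
  rw [ZA_eq]
  have hS := syl_top_of_sylow P
  have h1 : pPrimeCore p G ⊔ normalizer (Zc (JA (P : Subgroup G)) : Set G) = ⊤ := by
    refine sup_normalizer_eq_top_of_map (hS.isP.to_le (inf_le_left.trans (JA_le _))) ?_
    rw [map_Zc_of_ker _ (ker_mk'_inf_eq_bot (hS.isP.to_le (JA_le _))), map_JA_of_ker _ (ker_mk'_inf_eq_bot hS.isP)]
    exact ZA_normal hp (syl_map_quot (QuotientGroup.mk'_surjective _) hS)
      (pst_iff_quot.1 (isPStable_iff.1 hs).2.2) (constrained_quot hc)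
  exact ⟨h1, fun h => by rwa [h, bot_sup_eq, normalizer_eq_top_iff] at h1⟩

end Cfsg.Agent.S0667
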