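import Cfsg.Statements.S0668
import Cfsg.Agent.PM.Mod

set_option autoImplicit false
open Cfsg

namespace Cfsg.Agent.S0668

open MulAction PM

/-- The equivariant linear maps between the permutation modules of two finite `G`-sets form a space whose dimension is the number of `G`-orbits on the product of the two sets. -/
theorem result {G : Type*} [Group G] {K : Type*} [Field K] {Ω₁ Ω₂ : Type*} [Fintype Ω₁] [Fintype Ω₂] [MulAction G Ω₁] [MulAction G Ω₂] : Module.finrank K ((Cfsg.permRep K G Ω₁).linHom (Cfsg.permRep K G Ω₂)).invariants = Nat.card (MulAction.orbitRel.Quotient G (Ω₁ × Ω₂)) := by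
  classical
  let φ : (orbitRel.Quotient G (Ω₁ × Ω₂) → K) →ₗ[K] ((Cfsg.permRep K G Ω₁).linHom (Cfsg.permRep K G Ω₂)).invariants :=
    { toFun := fun F => ⟨km fun y x => F (Quotient.mk _ (x, y)), fun g => by
        refine LinearMap.ext fun v => ?_
        rw [Representation.linHom_apply, LinearMap.comp_apply, LinearMap.comp_apply, ← km_rep, ← Module.End.mul_apply, ← map_mul, mul_inv_cancel, map_one]
        · rfl
        · exact fun g y x => congrArg F (Quotient.sound ⟨g, rfl⟩)⟩
      map_add' := fun F F' => by
        refine Subtype.ext (LinearMap.ext fun v => funext fun y => ?_)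
        simp [km_apply, add_mul, Finset.sum_add_distrib]
      map_smul' := fun c F => by
        refine Subtype.ext (LinearMap.ext fun v => funext fun y => ?_)
        simp [km_apply, mul_assoc, Finset.mul_sum] }
  have hb : Function.Bijective φ := by
    refine ⟨(injective_iff_map_eq_zero φ).2 fun F hF => funext ?_, fun T => ?_⟩
    · rintro ⟨x, y⟩
      have := congrFun (LinearMap.congr_fun (congrArg Subtype.val hF) (Pi.single x 1)) y
      exact (km_single _ x y).symm.trans this
    · refine ⟨Quotient.lift (fun z : Ω₁ × Ω₂ => T.1 (Pi.single z.1 1) z.2) ?_, ?_⟩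
      · rintro _ ⟨x, y⟩ ⟨g, rfl⟩
        have := congrFun (LinearMap.congr_fun (T.2 g) (Pi.single (g • x) 1)) (g • y)
        rw [Representation.linHom_apply] at this
        simp only [LinearMap.comp_apply, permRep_apply, inv_smul_smul] at this
        change T.1 (Pi.single (g • x) 1) (g • y) = T.1 (Pi.single x 1) y
        rw [← this]
        refine congrArg (fun v => T.1 v y) (funext fun z => ?_)
        simp [Pi.single_apply]
      · refine Subtype.ext (LinearMap.ext fun v => funext fun y => ?_)
        conv_rhs => rw [pi_eq_sum_univ' v, map_sum]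
        simp [φ, km_apply, mul_comm]
  haveI := Fintype.ofFinite (orbitRel.Quotient G (Ω₁ × Ω₂))
  rw [← (LinearEquiv.ofBijective φ hb).finrank_eq]
  simp

end Cfsg.Agent.S0668
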