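import Cfsg.Statements.S0669
import Cfsg.Agent.PM.B

set_option autoImplicit false
open Cfsg

namespace Cfsg.Agent.S0669

open MulAction PM

/-- The rank of a transitive action: orbits on ordered pairs correspond to orbits of a point stabiliser. -/
theorem result {G : Type*} [Group G] {Ω : Type*} [Finite Ω] [MulAction G Ω] [MulAction.IsPretransitive G Ω] (a : Ω) : Nat.card (MulAction.orbitRel.Quotient G (Ω × Ω)) = Nat.card (MulAction.orbitRel.Quotient (MulAction.stabilizer G a) Ω) := by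
  symm
  refine Nat.card_congr (Equiv.ofBijective (Quotient.map' (fun b => (a, b)) ?_) ⟨?_, ?_⟩)
  · rintro b c ⟨g, rfl⟩
    exact ⟨(g : G), Prod.ext g.2 rfl⟩
  · rintro ⟨b⟩ ⟨c⟩ h
    obtain ⟨g, hg⟩ := Quotient.exact h
    exact Quotient.sound ⟨⟨g, congrArg Prod.fst hg⟩, congrArg Prod.snd hg⟩
  · rintro ⟨⟨x, y⟩⟩
    obtain ⟨g, hg⟩ := exists_smul_eq G x a
    exact ⟨Quotient.mk _ (g • y), Quotient.sound ⟨g, Prod.ext hg rfl⟩⟩

end Cfsg.Agent.S0669
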