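import Cfsg.Statements.S0673
import Cfsg.Agent.PM.Pr

set_option autoImplicit false
open Cfsg

namespace Cfsg.Agent.S0673

open MulAction PM

/-- In characteristic `p`, the translation-invariant subspaces of the space of functions on `ZMod p` are exactly the spaces of polynomial functions of degree less than `r`, one for each `r ≤ p`, of dimension `r`. -/
theorem result {p : ℕ} [Fact p.Prime] {K : Type*} [Field K] [CharP K p] (W : Submodule K (ZMod p → K)) (hW : ∀ f ∈ W, (fun j => f (j - 1)) ∈ W) : ∃ r : ℕ, r ≤ p ∧ Module.finrank K W = r ∧ ∀ f : ZMod p → K, f ∈ W ↔ ∃ P : Polynomial K, P.degree < r ∧ ∀ j : ZMod p, f j = P.eval (ZMod.cast j : K) := by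
  obtain ⟨r, hr, rfl⟩ := inv_sub W hW
  refine ⟨r, hr, finrank_ev hr, fun f => ⟨?_, fun ⟨P, h1, h2⟩ => ⟨P, Polynomial.mem_degreeLT.2 h1, (funext h2).symm⟩⟩⟩
  rintro ⟨P, h1, rfl⟩
  exact ⟨P, Polynomial.mem_degreeLT.1 h1, fun _ => rfl⟩

end Cfsg.Agent.S0673
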