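import Cfsg.Statements.S0681
import Cfsg.Agent.PM.B

set_option autoImplicit false
open Cfsg

namespace Cfsg.Agent.S0681

open MulAction PM
section
variable {F : Type*} [Cfsg.NearField F]
theorem zm (a : F) : 0 * a = 0 := by
  have := Cfsg.NearField.right_distrib (0 : F) 0 a
  rw [add_zero] at this
  exact (left_eq_add.1 this)
theorem nm (a b : F) : -a * b = -(a * b) := by
  apply eq_neg_of_add_eq_zero_left
  rw [← Cfsg.NearField.right_distrib, neg_add_cancel, zm]
theorem sm (a b c : F) : (a - b) * c = a * c - b * c := by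
  rw [sub_eq_add_neg, Cfsg.NearField.right_distrib, nm, sub_eq_add_neg]
theorem mne {a b : F} (ha : a ≠ 0) (hb : b ≠ 0) : a * b ≠ 0 := by
  intro e
  obtain ⟨c, h1, h2⟩ := Cfsg.NearField.exists_inv a ha
  apply hb
  rw [← one_mul b, ← h2, mul_assoc, e, Cfsg.NearField.mul_zero]
theorem ine {a c : F} (h : a * c = 1) : c ≠ 0 := by
  rintro rfl
  rw [Cfsg.NearField.mul_zero] at h
  exact Cfsg.NearField.zero_ne_one h
def aff (F : Type*) [Cfsg.NearField F] : Subgroup (Equiv.Perm F) where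
  carrier := {σ | ∃ a b : F, a ≠ 0 ∧ ∀ x : F, σ x = x * a + b}
  one_mem' := ⟨1, 0, Cfsg.NearField.zero_ne_one.symm, fun x => by simp⟩
  mul_mem' := by
    rintro σ τ ⟨a, b, ha, e⟩ ⟨c, d, hc, e'⟩
    exact ⟨c * a, d * a + b, mne hc ha, fun x => by
      rw [Equiv.Perm.mul_apply, e, e', Cfsg.NearField.right_distrib, mul_assoc, add_assoc]⟩
  inv_mem' := by
    rintro σ ⟨a, b, ha, e⟩
    obtain ⟨c, h1, h2⟩ := Cfsg.NearField.exists_inv a ha
    refine ⟨c, -b * c, ine h1, fun x => σ.injective ?_⟩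
    rw [Equiv.Perm.inv_def, Equiv.apply_symm_apply, e, ← Cfsg.NearField.right_distrib, mul_assoc, h2, mul_one]
    simp
theorem ex (a b : F) (ha : a ≠ 0) : ∃ σ : aff F, ∀ x, σ • x = x * a + b := by
  obtain ⟨c, h1, h2⟩ := Cfsg.NearField.exists_inv a ha
  exact ⟨⟨⟨fun x => x * a + b, fun x => (x - b) * c, fun x => by simp [mul_assoc, h1],
    fun x => by simp [mul_assoc, h2]⟩, a, b, ha, fun x => rfl⟩, fun x => rfl⟩
end

/-- The affine maps `x ↦ x * a + b`, `a ≠ 0`, of a near-field form a sharply doubly transitive permutation group. -/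
theorem result {F : Type*} [Cfsg.NearField F] : ∃ H : Subgroup (Equiv.Perm F), (∀ σ : Equiv.Perm F, σ ∈ H ↔ ∃ a b : F, a ≠ 0 ∧ ∀ x : F, σ x = x * a + b) ∧ MulAction.IsMultiplyPretransitive H F 2 ∧ ∀ x : Fin 2 ↪ F, MulAction.stabilizer H x = ⊥ := by
  refine ⟨aff F, fun σ => Iff.rfl, two_iff.2 fun a b c d hab hcd => ?_, sharp2_iff.2 ?_⟩
  · obtain ⟨u, h1, h2⟩ := Cfsg.NearField.exists_inv (a - b) (sub_ne_zero.2 hab)
    obtain ⟨σ, e⟩ := ex (u * (c - d)) (-(b * (u * (c - d))) + d) (mne (ine h1) (sub_ne_zero.2 hcd))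
    refine ⟨σ, ?_, by rw [e]; simp⟩
    rw [e, ← add_assoc, ← sub_eq_add_neg, ← sm, ← mul_assoc, h1, one_mul]; simp
  · rintro a b hab ⟨σ, u, v, hu, e⟩ h1 h2
    change σ a = a at h1
    change σ b = b at h2
    rw [e] at h1 h2
    obtain ⟨w, h3, h4⟩ := Cfsg.NearField.exists_inv (a - b) (sub_ne_zero.2 hab)
    have h5 : (a - b) * u = a - b := by
      rw [sm]
      conv_rhs => rw [← h1, ← h2]
      rw [add_sub_add_right_eq_sub]
    have h6 : u = 1 := by rw [← one_mul u, ← h4, mul_assoc, h5]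
    subst h6
    have h7 : v = 0 := by simpa using h1
    ext x
    simp [e, h7]

end Cfsg.Agent.S0681
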