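import Cfsg.Statements.S0682
import Cfsg.Agent.PM.C
import Cfsg.Agent.S0681

set_option autoImplicit false
open Cfsg

namespace Cfsg.Agent.S0682

open MulAction PM Cfsg.Agent.S0681

/-- A finite near-field has prime-power order; its additive group is commutative of prime exponent. -/
theorem result {F : Type*} [Cfsg.NearField F] [Finite F] : ∃ p j : ℕ, p.Prime ∧ 1 ≤ j ∧ Nat.card F = p ^ j ∧ (∀ x y : F, x + y = y + x) ∧ ∀ x : F, p • x = 0 := by
  haveI : Nontrivial (Multiplicative F) := ⟨⟨Multiplicative.ofAdd (0 : F), Multiplicative.ofAdd (1 : F), Cfsg.NearField.zero_ne_one (F := F)⟩⟩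
  obtain ⟨p, j, h1, h2, h3, h4, h5⟩ := elem_of_aut (N := Multiplicative F) fun x y hx hy => by
    obtain ⟨u, e1, e2⟩ := Cfsg.NearField.exists_inv x.toAdd hx
    obtain ⟨v, e3, e4⟩ := Cfsg.NearField.exists_inv (u * y.toAdd) (mne (ine e1) hy)
    refine ⟨AddEquiv.toMultiplicative ⟨⟨fun z => z * (u * y.toAdd), fun z => z * v,
      fun z => by simp only [mul_assoc _ (u * y.toAdd), e3, mul_one],
      fun z => by simp only [mul_assoc _ v, e4, mul_one]⟩,
      fun a b => Cfsg.NearField.right_distrib _ _ _⟩, ?_⟩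
    change x.toAdd * (u * y.toAdd) = y.toAdd
    rw [← mul_assoc, e1, one_mul]
  exact ⟨p, j, h1, h2, h3, h4, h5⟩

end Cfsg.Agent.S0682
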