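import Cfsg.Statements.S0687
import Cfsg.Agent.H9.Zs6

set_option autoImplicit false
open Cfsg

namespace Cfsg.Agent.S0687

/-- In a linear group over the prime field that is regular on non-zero vectors and has no irreducible cyclic normal subgroup, a normal subgroup `N` minimal among the non-abelian normal subgroups centralising a maximal normal abelian subgroup `A` is irreducible on `V`, and its centraliser is `A`. -/
theorem result {p : ℕ} [Fact p.Prime] {V : Type*} [AddCommGroup V] [Module (ZMod p) V] [Finite V] (H : Subgroup (V ≃ₗ[ZMod p] V)) (hreg : ∀ v w : V, v ≠ 0 → w ≠ 0 → ∃! h : H, (h : V ≃ₗ[ZMod p] V) v = w) (hI : ∀ A : Subgroup H, A.Normal → IsCyclic A → ∃ W : Submodule (ZMod p) V, W ≠ ⊥ ∧ W ≠ ⊤ ∧ ∀ a ∈ A, ∀ v ∈ W, ((a : H) : V ≃ₗ[ZMod p] V) v ∈ W) (A : Subgroup H) (hAn : A.Normal) (hAc : IsMulCommutative A) (hAmax : ∀ B : Subgroup H, B.Normal → IsMulCommutative B → A ≤ B → B = A) (N : Subgroup H) (hNn : N.Normal)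 (hNle : N ≤ Subgroup.centralizer (A : Set H)) (hNna : ¬ IsMulCommutative N) (hNmin : ∀ M : Subgroup H, M.Normal → M ≤ N → ¬ IsMulCommutative M → M = N) : (∀ W : Submodule (ZMod p) V, (∀ n ∈ N, ∀ v ∈ W, ((n : H) : V ≃ₗ[ZMod p] V) v ∈ W) → W = ⊥ ∨ W = ⊤) ∧ Subgroup.centralizer (N : Set H) = A := by
  open H9 Subgroup in open scoped commutatorElement in
  have : Finite (V ≃ₗ[ZMod p] V) := Finite.of_injective _ DFunLike.coe_injective
  have h := Zs.reg_of (Zs.NoIrr.nt (ρ := H.subtype) hI) hreg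
  obtain ⟨a, b⟩ : Nat.card V = p ^ 2 ∧ IsMulCommutative (centralizer (N : Set H)) := by
    rcases h.fc.minN hAc hAmax hNle hNna hNmin with ⟨z, q⟩ | ⟨c, rfl⟩
    · exact ⟨(h.q8_norm q).1, (h.q8_norm q).2.2.2.2.2⟩
    · exact ⟨(h.sl_norm c).1, (h.sl_norm c).2.1⟩
  exact ⟨h.irr a hNna, hAmax _ inferInstance b (le_centralizer_iff.1 hNle)⟩

end Cfsg.Agent.S0687
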