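import Cfsg.Statements.S0689
import Cfsg.Agent.H9.Zs6

set_option autoImplicit false
open Cfsg

namespace Cfsg.Agent.S0689

/-- The insoluble sharply doubly transitive groups: a non-solvable linear group over the prime field that is regular on the non-zero vectors of `V` occurs only for `|V| = 11², 29², 59²`, and is `SL(2,5) × C_m` with `m = 1, 7, 29` respectively. -/
theorem result {p : ℕ} [Fact p.Prime] {V : Type*} [AddCommGroup V] [Module (ZMod p) V] [Finite V] (H : Subgroup (V ≃ₗ[ZMod p] V)) (hreg : ∀ v w : V, v ≠ 0 → w ≠ 0 → ∃! h : H, (h : V ≃ₗ[ZMod p] V) v = w) (hsolv : ¬ Group.IsSolvable H) : (Nat.card V = 121 ∧ Nonempty (H ≃* Matrix.SpecialLinearGroup (Fin 2) (ZMod 5))) ∨ (Nat.card V = 841 ∧ Nonempty (H ≃* Matrix.SpecialLinearGroup (Fin 2) (ZMod 5) × Multiplicative (ZMod 7))) ∨ (Nat.card V = 3481 ∧ Nonempty (H ≃* Matrix.SpecialLinearGroup (Fin 2) (ZMod 5) × Multiplicative (ZMod 29))) := by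
  open H9 Subgroup in open scoped commutatorElement in
  have : Finite (V ≃ₗ[ZMod p] V) := Finite.of_injective _ DFunLike.coe_injective
  have h := Zs.reg_of (not_subsingleton_iff_nontrivial.1 fun e => hsolv (by
    have : Subsingleton H := ⟨fun a b => Subtype.ext (LinearEquiv.ext fun _ => Subsingleton.elim _ _)⟩
    infer_instance)) hreg
  obtain ⟨a, -, φ, M, h1, h2, h3, h4, h5⟩ := h.sl_norm hsolv
  have e := (MonoidHom.ofInjective h1).symm
  rcases h5 with ⟨rfl, c⟩ | ⟨rfl, c⟩ | ⟨rfl, c⟩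
  · rw [card_eq_one.1 c, sup_bot_eq] at h2
    exact .inl ⟨a, ⟨topEquiv.symm.trans ((MulEquiv.subgroupCongr h2.symm).trans e)⟩⟩
  · have := Fact.mk (by norm_num : Nat.Prime 7)
    exact .inr (.inl ⟨a, Zs.equiv_prod h3 h4 h2 e (mulEquivOfPrimeCardEq c (by simp))⟩)
  · have := Fact.mk (by norm_num : Nat.Prime 29)
    exact .inr (.inr ⟨a, Zs.equiv_prod h3 h4 h2 e (mulEquivOfPrimeCardEq c (by simp))⟩)

end Cfsg.Agent.S0689
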