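import Cfsg.Statements.S0690
import Cfsg.Agent.H9.Zs4

set_option autoImplicit false
open Cfsg

namespace Cfsg.Agent.S0690

/-- Zassenhaus: a perfect non-trivial group of fixed-point-free automorphisms of a finite group is isomorphic to `SL(2,5)`. -/
theorem result {K : Type*} [Group K] [Finite K] (G : Subgroup (MulAut K)) (hfpf : ∀ φ ∈ G, φ ≠ 1 → ∀ k : K, φ k = k → k = 1) (hperf : commutator G = ⊤) (hne : G ≠ ⊥) : Nonempty (G ≃* Matrix.SpecialLinearGroup (Fin 2) (ZMod 5)) := by
  open H9 Subgroup in open scoped commutatorElement in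
  have : Nontrivial K := not_subsingleton_iff_nontrivial.1 fun e => hne (eq_bot_iff.2 fun φ _ => MulEquiv.ext fun _ => Subsingleton.elim _ _)
  have : Nontrivial G := (nontrivial_iff_ne_bot G).2 hne
  have h := Zs.fc_of_action G.subtype fun a ha k e => hfpf a a.2 (fun e => ha (Subtype.ext e)) k e
  obtain ⟨φ, M, h1, h0, h2, h3, h4, h5, h6⟩ := h.dp fun e =>
    top_ne_bot (α := Subgroup G) (eq_bot_of_perfect_of_solvable inferInstance hperf)
  have e : φ.range ⊔ M = ⊤ := top_unique (Zs.le_of_perfect_of_six hperf le_top le_top (top_le_normalizer _)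
    (by rw [relIndex_top_right]; exact h3.trans (by norm_num)))
  have hz := Zs.zgroup_of_odd h.pq (h6.coprime_dvd_right (by norm_num : 2 ∣ 30))
  have : φ.range.Normal := h0 ▸ inferInstance
  exact ⟨(MulEquiv.ofBijective φ ⟨h1, MonoidHom.range_eq_top.1 (top_unique
    (le_of_perfect_of_le_sup (K := ⊤) hperf le_normalizer_of_normal (inferInstance : Group.IsSolvable M) e.ge))⟩).symm⟩

end Cfsg.Agent.S0690
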