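import Cfsg.Statements.S0691
import Cfsg.Agent.H5.SL2X

set_option autoImplicit false
open Cfsg

namespace Cfsg.Agent.S0691

open H5

/-- An exceptional sharply doubly transitive group of degree 5^2: the listed matrices generate a subgroup of GL(2,5) of order 24 acting regularly on the non-zero vectors. -/
theorem result (A : Matrix.GeneralLinearGroup (Fin 2) (ZMod 5)) (B : Matrix.GeneralLinearGroup (Fin 2) (ZMod 5)) (C : Matrix.GeneralLinearGroup (Fin 2) (ZMod 5)) (hA : (A : Matrix (Fin 2) (Fin 2) (ZMod 5)) = !![2, 0; 0, -2]) (hB : (B : Matrix (Fin 2) (Fin 2) (ZMod 5)) = !![0, -1; 1, 0]) (hC : (C : Matrix (Fin 2) (Fin 2) (ZMod 5)) = !![1, 2; 1, -2]) : Nat.card (Subgroup.closure ({A, B, C} : Set (Matrix.GeneralLinearGroup (Fin 2) (ZMod 5)))) = 24 ∧ ∀ v w : Fin 2 → ZMod 5, v ≠ 0 → w ≠ 0 → ∃! h : Subgroup.closure ({A, B, C} : Set (Matrix.GeneralLinearGroup (Fin 2) (ZMod 5))), Matrix.mulVec ((h : Matrix.GeneralLinearGroup (Fin 2) (ZMod 5))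 : Matrix (Fin 2) (Fin 2) (ZMod 5)) v = w := by
  obtain rfl : A = toG (sl2 2 0 0 (-2) (by decide)) := Units.ext hA
  obtain rfl : B = toG (sl2 0 (-1) 1 0 (by decide)) := Units.ext hB
  obtain rfl : C = toG (sl2 1 2 1 (-2) (by decide)) := Units.ext hC
  generalize ha : (sl2 2 0 0 (-2) (by decide) : SL2 (ZMod 5)) = a
  generalize hb : (sl2 0 (-1) 1 0 (by decide) : SL2 (ZMod 5)) = b
  generalize hc : (sl2 1 2 1 (-2) (by decide) : SL2 (ZMod 5)) = c
  have h1 : a = c * b * c * c ∧ b * b = -1 ∧ c ^ 3 = 1 ∧ (b * c) ^ 3 = -1 ∧ ¬ (b = 1 ∨ b = -1) := by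
    subst ha hb hc; decide +kernel
  have m1 : b ∈ Subgroup.closure {b, c} := Subgroup.subset_closure (by simp)
  have m2 : c ∈ Subgroup.closure {b, c} := Subgroup.subset_closure (by simp)
  have h2 : Subgroup.closure {toG a, toG b, toG c} = (Subgroup.closure {b, c}).map toG := by
    rw [← Set.image_singleton, ← Set.image_insert_eq, ← Set.image_insert_eq, ← MonoidHom.map_closure]
    refine congrArg _ (le_antisymm ((Subgroup.closure_le _).2 ?_) (Subgroup.closure_mono (Set.subset_insert _ _)))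
    exact Set.insert_subset (h1.1 ▸ mul_mem (mul_mem (mul_mem m2 m1) m2) m2) Subgroup.subset_closure
  obtain ⟨e⟩ := triA4 (x := mkS b) (y := mkS c) (by rw [sq, ← map_mul, h1.2.1, mkS_neg, map_one])
    (by rw [← map_pow, h1.2.2.1, map_one]) (by rw [← map_mul, ← map_pow, h1.2.2.2.1, mkS_neg, map_one])
    (mt mkS_eq_one_iff.1 h1.2.2.2.2)
  have h3 := card_eq_map_mkS (h1.2.1 ▸ mul_mem m1 m1)
  rw [MonoidHom.map_closure, Set.image_pair, card_equiv e, KB.card_A4] at h3
  have h4 : Nat.card (Subgroup.closure {b, c}) = 24 := h3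
  have h5 := (card_equiv ((Subgroup.closure {b, c}).equivMapOfInjective toG toG_inj)).symm.trans h4
  rw [h2]
  refine ⟨h5, regular_of_free (by rw [h5]; simp) ?_⟩
  rintro _ ⟨g, hg, rfl⟩ v hv h
  rw [eq_one_of_fix_vec 5 (n := 24) (congrArg Subtype.val (h4 ▸ pow_card_eq_one' (x := (⟨g, hg⟩ : Subgroup.closure {b, c}))))
    (by norm_num) hv h, map_one]


end Cfsg.Agent.S0691
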