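import Cfsg.Statements.S0692
import Cfsg.Agent.H5.SL2X

set_option autoImplicit false
open Cfsg

namespace Cfsg.Agent.S0692

open H5

instance : Fact (Nat.Prime 11) := ⟨by norm_num⟩

/-- An exceptional sharply doubly transitive group of degree 11^2: the listed matrices generate a subgroup of GL(2,11) of order 120 acting regularly on the non-zero vectors. -/
theorem result (A : Matrix.GeneralLinearGroup (Fin 2) (ZMod 11)) (B : Matrix.GeneralLinearGroup (Fin 2) (ZMod 11)) (hA : (A : Matrix (Fin 2) (Fin 2) (ZMod 11)) = !![0, -1; 1, 0]) (hB : (B : Matrix (Fin 2) (Fin 2) (ZMod 11)) = !![2, 4; 1, -3]) : Nat.card (Subgroup.closure ({A, B} : Set (Matrix.GeneralLinearGroup (Fin 2) (ZMod 11)))) = 120 ∧ ∀ v w : Fin 2 → ZMod 11, v ≠ 0 → w ≠ 0 → ∃! h : Subgroup.closure ({A, B} : Set (Matrix.GeneralLinearGroup (Fin 2) (ZMod 11))), Matrix.mulVec ((h : Matrix.GeneralLinearGroup (Fin 2) (ZMod 11)) : Matrix (Fin 2) (Fin 2) (ZMod 11)) v = w := by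
  obtain rfl : A = toG (sl2 0 (-1) 1 0 (by decide)) := Units.ext hA
  obtain rfl : B = toG (sl2 2 4 1 (-3) (by decide)) := Units.ext hB
  generalize hb : (sl2 0 (-1) 1 0 (by decide) : SL2 (ZMod 11)) = b
  generalize hc : (sl2 2 4 1 (-3) (by decide) : SL2 (ZMod 11)) = c
  have h1 : b * b = -1 ∧ c ^ 3 = 1 ∧ ((b * c) ^ 5 = 1 ∨ (b * c) ^ 5 = -1) ∧ ¬ (b = 1 ∨ b = -1) := by
    subst hb hc; decide +kernel
  have m1 : b ∈ Subgroup.closure {b, c} := Subgroup.subset_closure (by simp)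
  have h2 : Subgroup.closure {toG b, toG c} = (Subgroup.closure {b, c}).map toG := by
    rw [MonoidHom.map_closure, Set.image_pair]
  obtain ⟨e⟩ := triA5 (x := mkS b) (y := mkS c) (by rw [sq, ← map_mul, h1.1, mkS_neg, map_one])
    (by rw [← map_pow, h1.2.1, map_one]) (by rw [← map_mul, ← map_pow, mkS_eq_one_iff.2 h1.2.2.1])
    (mt mkS_eq_one_iff.1 h1.2.2.2)
  have h3 := card_eq_map_mkS (h1.1 ▸ mul_mem m1 m1)
  rw [MonoidHom.map_closure, Set.image_pair, card_equiv e, KB.card_A5] at h3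
  have h4 : Nat.card (Subgroup.closure {b, c}) = 120 := h3
  have h5 := (card_equiv ((Subgroup.closure {b, c}).equivMapOfInjective toG toG_inj)).symm.trans h4
  rw [h2]
  refine ⟨h5, regular_of_free (by rw [h5]; simp) ?_⟩
  rintro _ ⟨g, hg, rfl⟩ v hv h
  rw [eq_one_of_fix_vec 11 (n := 120) (congrArg Subtype.val (h4 ▸ pow_card_eq_one' (x := (⟨g, hg⟩ : Subgroup.closure {b, c}))))
    (by norm_num) hv h, map_one]


end Cfsg.Agent.S0692
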