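import Cfsg.Statements.S0693
import Cfsg.Agent.H5.SL2X

set_option autoImplicit false
open Cfsg

namespace Cfsg.Agent.S0693

open H5

instance : Fact (Nat.Prime 59) := ⟨by norm_num⟩

/-- An exceptional sharply doubly transitive group of degree 59^2: the listed matrices generate a subgroup of GL(2,59) of order 3480 acting regularly on the non-zero vectors. -/
theorem result (A : Matrix.GeneralLinearGroup (Fin 2) (ZMod 59)) (B : Matrix.GeneralLinearGroup (Fin 2) (ZMod 59)) (C : Matrix.GeneralLinearGroup (Fin 2) (ZMod 59)) (hA : (A : Matrix (Fin 2) (Fin 2) (ZMod 59)) = !![0, -1; 1, 0]) (hB : (B : Matrix (Fin 2) (Fin 2) (ZMod 59)) = !![9, 15; -10, -10]) (hC : (C : Matrix (Fin 2) (Fin 2) (ZMod 59)) = !![4, 0; 0, 4]) : Nat.card (Subgroup.closure ({A, B, C} : Set (Matrix.GeneralLinearGroup (Fin 2) (ZMod 59)))) = 3480 ∧ ∀ v w : Fin 2 → ZMod 59, v ≠ 0 → w ≠ 0 → ∃! h : Subgroup.closure ({A, B, C} : Set (Matrix.GeneralLinearGroup (Fin 2) (ZMod 59))), Matrix.mulVec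 ((h : Matrix.GeneralLinearGroup (Fin 2) (ZMod 59)) : Matrix (Fin 2) (Fin 2) (ZMod 59)) v = w := by
  obtain rfl : A = toG (sl2 0 (-1) 1 0 (by decide)) := Units.ext hA
  obtain rfl : B = toG (sl2 9 15 (-10) (-10) (by decide)) := Units.ext hB
  generalize hb : (sl2 0 (-1) 1 0 (by decide) : SL2 (ZMod 59)) = b
  generalize hc : (sl2 9 15 (-10) (-10) (by decide) : SL2 (ZMod 59)) = c
  have h1 : b * b = -1 ∧ c ^ 3 = 1 ∧ ((b * c) ^ 5 = 1 ∨ (b * c) ^ 5 = -1) ∧ ¬ (b = 1 ∨ b = -1) := by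
    subst hb hc; decide +kernel
  have m1 : b ∈ Subgroup.closure {b, c} := Subgroup.subset_closure (by simp)
  obtain ⟨e⟩ := triA5 (x := mkS b) (y := mkS c) (by rw [sq, ← map_mul, h1.1, mkS_neg, map_one])
    (by rw [← map_pow, h1.2.1, map_one]) (by rw [← map_mul, ← map_pow, mkS_eq_one_iff.2 h1.2.2.1])
    (mt mkS_eq_one_iff.1 h1.2.2.2)
  have h3 := card_eq_map_mkS (h1.1 ▸ mul_mem m1 m1)
  rw [MonoidHom.map_closure, Set.image_pair, card_equiv e, KB.card_A5] at h3
  have h4 : Nat.card (Subgroup.closure {b, c}) = 120 := h3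
  have h5 := (card_equiv ((Subgroup.closure {b, c}).equivMapOfInjective toG toG_inj)).symm.trans h4
  have hC1 : C.1 = (4 : ZMod 59) • (1 : Matrix (Fin 2) (Fin 2) (ZMod 59)) := by rw [hC]; decide
  have hCk : ∀ k : ℕ, (C ^ k).1 = (4 : ZMod 59) ^ k • (1 : Matrix (Fin 2) (Fin 2) (ZMod 59)) := fun k => by
    rw [Units.val_pow_eq_pow_val, hC1, smul_pow, one_pow]
  have : Fact (Nat.Prime 29) := ⟨by norm_num⟩
  have ho : orderOf C = 29 := orderOf_eq_prime (Units.ext (by rw [hCk]; decide +kernel)) fun e => by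
    rw [e] at hC; revert hC; decide
  have hcen : ∀ g, g * C = C * g := fun g => Units.ext (by simp [hC1])
  have : (Subgroup.zpowers C).Normal := ⟨by rintro _ ⟨k, rfl⟩ g; exact ⟨k, by simp [((show Commute g C from hcen g).zpow_right k).eq]⟩⟩
  have h2 : Subgroup.closure {toG b, toG c, C} = (Subgroup.closure {b, c}).map toG ⊔ Subgroup.zpowers C := by
    rw [MonoidHom.map_closure, Set.image_pair, Subgroup.zpowers_eq_closure, ← Subgroup.closure_union]
    congr 1; ext; simp; tauto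
  have h6 : Nat.card ↥((Subgroup.closure {b, c}).map toG ⊔ Subgroup.zpowers C) = 3480 := by
    rw [← card_mul_relIndex le_sup_right, Subgroup.relIndex_sup_right, Nat.card_zpowers, ho, ← Subgroup.inf_relIndex_right,
      Subgroup.inf_eq_bot_of_coprime (by rw [Nat.card_zpowers, ho, h5]; norm_num), Subgroup.relIndex_bot_left, h5]
  rw [h2]
  refine ⟨h6, regular_of_free (by rw [h6]; simp) fun g hg v hv h => ?_⟩
  obtain ⟨_, ⟨s, hs, rfl⟩, t, ht, rfl⟩ := Subgroup.mem_sup_of_normal_right.1 hg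
  obtain ⟨k, rfl⟩ := mem_powers_iff_mem_zpowers.2 ht
  have h7 : s ^ 120 = 1 := congrArg Subtype.val (h4 ▸ pow_card_eq_one' (x := (⟨s, hs⟩ : Subgroup.closure {b, c})))
  have h8 : ∀ n : ℕ, ((toG s * C ^ k) ^ n).1.mulVec v = v := fun n => by
    induction n with
    | zero => simp
    | succ n ih => rw [pow_succ, Units.val_mul, ← Matrix.mulVec_mulVec, h, ih]
  have h9 : C ^ k = 1 := by
    have := h8 120
    rw [((show Commute (toG s) C from hcen _).pow_right k).mul_pow, ← map_pow, h7, map_one, one_mul, ← pow_mul, hCk,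
      Matrix.smul_mulVec, Matrix.one_mulVec, ← sub_eq_zero] at this
    nth_rw 2 [← one_smul (ZMod 59) v] at this
    rw [← sub_smul, smul_eq_zero, sub_eq_zero] at this
    have h10 : C ^ (k * 120) = 1 := Units.ext (by rw [hCk, this.resolve_right hv]; simp)
    rw [← orderOf_dvd_iff_pow_eq_one, ho] at h10 ⊢
    exact Nat.Coprime.dvd_of_dvd_mul_right (by norm_num) h10
  simp only [h9, mul_one] at h ⊢
  rw [eq_one_of_fix_vec 59 h7 (by norm_num) hv h, map_one]


end Cfsg.Agent.S0693
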