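import Cfsg.Statements.S0694
import Mathlib

set_option autoImplicit false
open Cfsg

namespace Cfsg.Agent.S0694

/-- The Dickson pair condition: for a prime power `q` and `n > 1`, (every prime factor of `n` divides `q - 1`, and `4 ∣ n → 4 ∣ q - 1`) holds exactly when `q ^ n ≡ 1` modulo `n * (q - 1)` but `q ^ i` is not, for `0 < i < n`. -/
theorem result (q n : ℕ) (hq : IsPrimePow q) (hn : 1 < n) : ((∀ r : ℕ, r.Prime → r ∣ n → r ∣ q - 1) ∧ (4 ∣ n → 4 ∣ q - 1)) ↔ (q ^ n ≡ 1 [MOD n * (q - 1)] ∧ ∀ i : ℕ, 0 < i → i < n → ¬ q ^ i ≡ 1 [MOD n * (q - 1)]) := by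
  have q2 := hq.two_le
  let S : ℕ → ℕ := fun i => ∑ j ∈ Finset.range i, q ^ j
  have hS : ∀ i, S i * (q - 1) = q ^ i - 1 := fun i => by
    have := Nat.geomSum_eq q2 i
    have h2 := Nat.sub_dvd_pow_sub_pow q 1 i
    rw [one_pow] at h2
    simp only [S, this]; exact Nat.div_mul_cancel h2
  have key : ∀ i, q ^ i ≡ 1 [MOD n * (q - 1)] ↔ n ∣ S i := fun i => by
    rw [Nat.ModEq.comm, Nat.modEq_iff_dvd' (Nat.one_le_pow _ _ (by omega)), ← hS,
      Nat.mul_dvd_mul_iff_right (by omega)]
  have hs : ∀ i, S (i + 1) = q * S i + 1 := fun i => by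
    simp only [S]; rw [Finset.sum_range_succ', Finset.mul_sum]; simp [pow_succ']
  simp only [key]
  constructor
  · rintro ⟨h1, h2⟩
    have main : ∀ i, 0 < i → (n ∣ S i ↔ n ∣ i) := fun i hi => by
      have S0 : S i ≠ 0 := by obtain ⟨j, rfl⟩ := Nat.exists_eq_add_of_lt hi; rw [hs]; omega
      rw [← Nat.factorization_prime_le_iff_dvd (by omega) S0, ← Nat.factorization_prime_le_iff_dvd (by omega) hi.ne']
      refine forall₂_congr fun r hr => ?_
      by_cases h3 : r ∣ n
      swap
      · simp [Nat.factorization_eq_zero_of_not_dvd h3]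
      haveI := Fact.mk hr
      have h4 := h1 r hr h3
      have h5 : ¬ r ∣ q := fun h => hr.one_lt.ne' (Nat.dvd_one.1 (by
        have := Nat.dvd_sub h h4; rwa [show q - (q - 1) = 1 by omega] at this))
      have h6 := congrArg (padicValNat r) (hS i)
      rw [padicValNat.mul S0 (by omega)] at h6
      simp only [Nat.factorization_def _ hr]
      by_cases r2 : r = 2
      · subst r2
        rcases Nat.even_or_odd i with he | ho
        · have h7 := padicValNat.pow_two_sub_pow (x := q) (y := 1) (by omega) h4 h5 hi.ne' he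
          rw [one_pow] at h7
          have h8 : 1 ≤ padicValNat 2 (q + 1) := one_le_padicValNat_of_dvd (by omega) (by omega)
          by_cases h9 : 4 ∣ n
          · have := h2 h9
            have : ¬ 2 ≤ padicValNat 2 (q + 1) := fun h => by
              have := (padicValNat_dvd_iff_le (p := 2) (by omega : q + 1 ≠ 0)).2 h
              omega
            omega
          · have : ¬ 2 ≤ padicValNat 2 n := fun h => h9 ((padicValNat_dvd_iff_le (p := 2) (by omega : n ≠ 0)).2 h)
            have : 1 ≤ padicValNat 2 i := one_le_padicValNat_of_dvd hi.ne' he.two_dvd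
            omega
        · have : ∀ i, S i % 2 = i % 2 := fun i => by
            induction i with
            | zero => rfl
            | succ i ih => rw [hs, Nat.add_mod, Nat.mul_mod, ih, show q % 2 = 1 by omega]; omega
          have h7 := this i
          rw [padicValNat.eq_zero_of_not_dvd (n := S i) (by obtain ⟨k, hk⟩ := ho; omega),
            padicValNat.eq_zero_of_not_dvd ho.not_two_dvd_nat]
      · have h7 := padicValNat.pow_sub_pow (x := q) (y := 1) (hr.odd_of_ne_two r2) (by omega) h4 h5 hi.ne'
        rw [one_pow] at h7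
        omega
    exact ⟨(main n (by omega)).2 dvd_rfl, fun i h3 h4 h5 => Nat.not_dvd_of_pos_of_lt h3 h4 ((main i h3).1 h5)⟩
  · rintro ⟨h1, h2⟩
    haveI : NeZero n := ⟨by omega⟩
    have hu : (q : ZMod n) ^ n = 1 := by
      have := congrArg (Nat.cast : ℕ → ZMod n) (hS n)
      rw [Nat.cast_mul, (ZMod.natCast_eq_zero_iff _ _).2 h1, zero_mul, Nat.cast_sub (Nat.one_le_pow _ _ (by omega))] at this
      push_cast at this
      exact (sub_eq_zero.1 this.symm)
    have hadd : ∀ i j, S (i + j) = S i + q ^ i * S j := fun i j => by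
      simp only [S]; rw [Finset.sum_range_add, Finset.mul_sum]; simp [pow_add]
    have hinj : Function.Injective fun i : Fin n => (S i : ZMod n) := by
      have k : ∀ i j : ℕ, i < j → j < n → (S i : ZMod n) ≠ S j := fun i j h3 h4 e => by
        obtain ⟨k, rfl⟩ := Nat.exists_eq_add_of_lt h3
        rw [add_assoc, hadd] at e
        push_cast at e
        have := ((IsUnit.of_pow_eq_one hu (by omega)).pow i).mul_right_eq_zero.1 (left_eq_add.1 e)
        exact h2 (k + 1) (by omega) (by omega) ((ZMod.natCast_eq_zero_iff _ _).1 this)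
      intro i j e
      rcases lt_trichotomy i.1 j.1 with h | h | h
      · exact absurd e (k _ _ h j.2)
      · exact Fin.ext h
      · exact absurd e.symm (k _ _ h i.2)
    have hsurj := (hinj.bijective_of_nat_card_le (by simp)).2
    have cover : ∀ m x, m ∣ n → ∃ i ≤ n, (S i : ZMod m) = (x : ℕ) := fun m x hm => by
      obtain ⟨i, hi⟩ := hsurj (x : ZMod n)
      exact ⟨i, i.2.le, by simpa using congrArg (ZMod.castHom hm (ZMod m)) hi⟩
    have p1 : ∀ r : ℕ, r.Prime → r ∣ n → r ∣ q - 1 := fun r hr h3 => by
      haveI := Fact.mk hr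
      by_contra h4
      have h5 : (1 - q : ZMod r) ≠ 0 := fun e => h4 ((ZMod.natCast_eq_zero_iff _ _).1 (by
        rw [Nat.cast_sub (by omega)]; push_cast; linear_combination -e))
      obtain ⟨i, h6, h7⟩ := cover r (1 - q : ZMod r)⁻¹.val h3
      rw [ZMod.natCast_zmod_val] at h7
      have : ∀ j, (S (i + j) : ZMod r) = (1 - q : ZMod r)⁻¹ := fun j => by
        induction j with
        | zero => exact h7
        | succ j ih => rw [← add_assoc, hs]; push_cast; rw [ih]; field_simp; ring
      have h8 := this (n - i)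
      rw [show i + (n - i) = n by omega, (ZMod.natCast_eq_zero_iff _ _).2 (h3.trans h1)] at h8
      exact inv_ne_zero h5 h8.symm
    refine ⟨p1, fun h4 => ?_⟩
    have h5 := p1 2 Nat.prime_two (Dvd.dvd.trans (by norm_num) h4)
    by_contra h6
    obtain ⟨i, -, h7⟩ := cover 4 2 h4
    rw [ZMod.natCast_eq_natCast_iff'] at h7
    have : ∀ i, S i % 4 = i % 2 := fun i => by
      induction i with
      | zero => rfl
      | succ i ih =>
        rw [hs, Nat.add_mod, Nat.mul_mod, ih, show q % 4 = 3 by omega]
        rcases Nat.mod_two_eq_zero_or_one i with h | h <;> rw [h] <;> omega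
    have := this i
    omega

end Cfsg.Agent.S0694
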