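import Cfsg.Statements.S0701
import Cfsg.Agent.PM.B

set_option autoImplicit false
open Cfsg

namespace Cfsg.Agent.S0701

open MulAction PM

/-- The centraliser in the full symmetric group of a transitive permutation group `G` is semiregular, and it is transitive if and only if `G` is regular. -/
theorem result {α : Type*} (G : Subgroup (Equiv.Perm α)) [MulAction.IsPretransitive G α] : (∀ c ∈ Subgroup.centralizer (G : Set (Equiv.Perm α)), ∀ a : α, c a = a → c = 1) ∧ (MulAction.IsPretransitive (Subgroup.centralizer (G : Set (Equiv.Perm α))) α ↔ ∀ a : α, MulAction.stabilizer G a = ⊥) := by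
  have h1 : ∀ c ∈ Subgroup.centralizer (G : Set (Equiv.Perm α)), ∀ a : α, c a = a → c = 1 := by
    intro c hc a ha
    ext b
    obtain ⟨g, hg⟩ := exists_smul_eq G a b
    have := congrArg (fun σ : Equiv.Perm α => σ a) (hc g g.2)
    simp only [Equiv.Perm.mul_apply, ha] at this
    change (g : Equiv.Perm α) a = b at hg
    rw [hg] at this
    exact this.symm
  refine ⟨h1, fun h a => ?_, fun h => ⟨fun a b => ?_⟩⟩
  · rw [stab_bot_iff]
    intro g hg
    ext b
    obtain ⟨c, hc⟩ := h.exists_smul_eq a b
    have := congrArg (fun σ : Equiv.Perm α => σ a) (c.2 g g.2)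
    change (g : Equiv.Perm α) a = a at hg
    change (c : Equiv.Perm α) a = b at hc
    simp only [Equiv.Perm.mul_apply, hg, hc] at this
    exact this
  · have hu : ∀ (x : α) (g g' : G), g • x = g' • x → g = g' := by
      intro x g g' e
      have := stab_bot_iff.1 (h x) (g'⁻¹ * g) (by rw [mul_smul, e, inv_smul_smul])
      exact (inv_mul_eq_one.1 this).symm
    choose f hf using fun x y : α => exists_smul_eq G x y
    have k : ∀ (x : α) (g : G), f x (g • x) = g := fun x g => hu x _ _ (hf _ _)
    refine ⟨⟨⟨fun x => f a x • b, fun x => f b x • a, fun x => by simp only [k, hf],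
      fun x => by simp only [k, hf]⟩, fun g hg => ?_⟩, ?_⟩
    · ext x
      change (⟨g, hg⟩ : G) • f a x • b = f a ((⟨g, hg⟩ : G) • x) • b
      conv_rhs => rw [← hf a x, ← mul_smul, k, mul_smul]
    · change f a a • b = b
      conv_lhs => rw [← one_smul G a]
      rw [show f ((1 : G) • a) ((1 : G) • a) = 1 by rw [one_smul]; simpa using k a 1, one_smul]

end Cfsg.Agent.S0701
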