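import Cfsg.Statements.S0702
import Cfsg.Agent.PM.B
import Cfsg.Agent.S0701

set_option autoImplicit false
open Cfsg

namespace Cfsg.Agent.S0702

open MulAction PM

/-- For a transitive permutation group `G` on a finite set, the centraliser of `G` in the symmetric group is isomorphic to `N_G(G_ω)/G_ω`, and its orbit of `ω` is the set of fixed points of `G_ω`. -/
theorem result {α : Type*} [Finite α] (G : Subgroup (Equiv.Perm α)) [MulAction.IsPretransitive G α] (a : α) : Nonempty (Subgroup.centralizer (G : Set (Equiv.Perm α)) ≃* Subgroup.normalizer ((MulAction.stabilizer G a : Subgroup G) : Set G) ⧸ (MulAction.stabilizer G a).subgroupOf (Subgroup.normalizer ((MulAction.stabilizer G a : Subgroup G) : Set G))) ∧ MulAction.orbit (Subgroup.centralizer (G : Set (Equiv.Perm α))) a = MulAction.fixedPoints (MulAction.stabilizer G a) α := by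
  have hC : ∀ (c : Subgroup.centralizer (G : Set (Equiv.Perm α))) (g : G) (x : α), c • g • x = g • c • x :=
    fun c g x => (congrArg (fun σ : Equiv.Perm α => σ x) (c.2 g g.2)).symm
  choose f hf using fun y : α => exists_smul_eq G a y
  -- right multiplication by an element mapping into fixed points
  have key : ∀ b ∈ fixedPoints (stabilizer G a) α, ∃ c : Subgroup.centralizer (G : Set (Equiv.Perm α)), c • a = b := by
    intro b hb
    have k : ∀ g : G, f (g • a) • b = g • b := fun g => by
      have : g⁻¹ * f (g • a) ∈ stabilizer G a := by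
        rw [mem_stabilizer_iff, mul_smul, hf, inv_smul_smul]
      have h2 := hb ⟨_, this⟩
      change (g⁻¹ * f (g • a)) • b = b at h2
      rw [mul_smul, inv_smul_eq_iff] at h2
      exact h2
    have hs : Function.Surjective fun x => f x • b := fun y => by
      obtain ⟨g, hg⟩ := exists_smul_eq G b y
      exact ⟨g • a, (k g).trans hg⟩
    refine ⟨⟨Equiv.ofBijective _ (Finite.surjective_iff_bijective.1 hs), fun g hg => ?_⟩, ?_⟩
    · ext x
      change (⟨g, hg⟩ : G) • f x • b = f ((⟨g, hg⟩ : G) • x) • b
      conv_rhs => rw [← hf x, ← mul_smul, k, mul_smul]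
    · change f a • b = b
      simpa using k 1
  have horb : MulAction.orbit (Subgroup.centralizer (G : Set (Equiv.Perm α))) a = MulAction.fixedPoints (MulAction.stabilizer G a) α := by
    ext b
    refine ⟨?_, fun hb => key b hb⟩
    rintro ⟨c, rfl⟩ g
    change (g : G) • c • a = c • a
    rw [← hC, g.2]
  refine ⟨?_, horb⟩
  have hN : ∀ n : Subgroup.normalizer ((MulAction.stabilizer G a : Subgroup G) : Set G),
      ∃ c : Subgroup.centralizer (G : Set (Equiv.Perm α)), c • a = (n : G)⁻¹ • a := fun n =>
    key _ fun g => by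
      change (g : G) • (n : G)⁻¹ • a = _
      have := (Subgroup.mem_normalizer_iff.1 n.2 g).1 g.2
      rw [mem_stabilizer_iff, mul_smul, mul_smul, smul_eq_iff_eq_inv_smul] at this
      exact this
  choose φ hφ using hN
  have hu : ∀ c d : Subgroup.centralizer (G : Set (Equiv.Perm α)), c • a = d • a → c = d := by
    intro c d e
    have := (Cfsg.Agent.S0701.result G).1 (d⁻¹ * c : Subgroup.centralizer (G : Set (Equiv.Perm α))) (d⁻¹ * c).2 a (by
      change (d⁻¹ * c) • a = a
      rw [mul_smul, e, inv_smul_smul])
    exact (inv_mul_eq_one.1 (Subtype.ext this)).symm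
  let ψ : Subgroup.normalizer ((MulAction.stabilizer G a : Subgroup G) : Set G) →*
      Subgroup.centralizer (G : Set (Equiv.Perm α)) := MonoidHom.mk' φ fun m n => hu _ _ (by
    rw [mul_smul, hφ, hφ, hC, hφ, Subgroup.coe_mul, mul_inv_rev, mul_smul])
  have hs : Function.Surjective ψ := by
    intro c
    have hfix : c • a ∈ MulAction.fixedPoints (MulAction.stabilizer G a) α := horb ▸ ⟨c, rfl⟩
    refine ⟨⟨(f (c • a))⁻¹, Subgroup.mem_normalizer_iff.2 fun g => ?_⟩, hu _ _ ?_⟩
    · simp only [mem_stabilizer_iff, inv_inv, mul_smul, hf, inv_smul_eq_iff]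
      rw [← hC, smul_left_cancel_iff]
    · change φ _ • a = _
      rw [hφ]; simp [hf]
  have hk : ψ.ker = (MulAction.stabilizer G a).subgroupOf (Subgroup.normalizer ((MulAction.stabilizer G a : Subgroup G) : Set G)) := by
    ext n
    rw [MonoidHom.mem_ker, Subgroup.mem_subgroupOf, mem_stabilizer_iff]
    constructor
    · intro h
      have := hφ n
      change ψ n • a = _ at this
      rw [h, one_smul, eq_inv_smul_iff] at this
      exact this
    · intro h
      apply hu
      change φ n • a = _
      rw [hφ, one_smul, inv_smul_eq_iff, h]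
  exact ⟨((QuotientGroup.quotientMulEquivOfEq hk.symm).trans (QuotientGroup.quotientKerEquivOfSurjective ψ hs)).symm⟩

end Cfsg.Agent.S0702
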