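import Cfsg.Statements.S0703
import Cfsg.Agent.PM.D
import Cfsg.Agent.H1.Fitting

set_option autoImplicit false
open Cfsg

namespace Cfsg.Agent.S0703

open MulAction PM

/-- An abelian transitive minimal normal subgroup `M` of a permutation group on a finite set is self-centralising in the symmetric group, regular, elementary abelian, and is the unique minimal normal subgroup. -/
theorem result {α : Type*} [Finite α] (G : Subgroup (Equiv.Perm α)) (M : Subgroup G) [M.Normal] (hM : M ≠ ⊥) (hmin : ∀ L : Subgroup G, L.Normal → L ≤ M → L = ⊥ ∨ L = M) (hab : IsMulCommutative M) (htrans : MulAction.IsPretransitive M α) : Subgroup.centralizer ((M.map G.subtype : Subgroup (Equiv.Perm α)) : Set (Equiv.Perm α)) = M.map G.subtype ∧ (∀ a : α, MulAction.stabilizer M a = ⊥) ∧ (∃ p : ℕ, p.Prime ∧ ∀ m ∈ M, m ^ p = 1) ∧ ∀ L : Subgroup G, L.Normal → L ≠ ⊥ → (∀ L' : Subgroup G, L'.Normal → L' ≤ L → L' = ⊥ ∨ L' = L) → L = M := by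
  haveI := nonempty_of_ne_bot (α := α) hM
  have hc : ∀ m ∈ M, ∀ n ∈ M, m * n = n * m := fun m hm n hn =>
    congrArg Subtype.val (hab.is_comm.comm (⟨m, hm⟩ : M) ⟨n, hn⟩)
  refine ⟨cent_map htrans htrans hc, fun a => sub_stab_bot.2 fun m hm e =>
    eq_one_of_comm htrans (fun n hn => hc n hn m hm) e, ?_, fun L hL h0 hLm => ?_⟩
  · exact (H1.minimal_normal_elementary (Group.isSolvable_of_comm hab.is_comm.comm) hM hmin).2
  · by_contra h1
    obtain ⟨h2, h3⟩ := comm_of_min hLm hmin hM h1
    exact h0 (by rw [← h2, eq_comm, inf_eq_left]; exact fun l hl => mem_of_comm htrans htrans hc fun m hm => (h3 l hl m hm).symm)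

end Cfsg.Agent.S0703
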