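import Cfsg.Statements.S0704
import Cfsg.Agent.PM.D

set_option autoImplicit false
open Cfsg

namespace Cfsg.Agent.S0704

open MulAction PM

/-- Two distinct transitive minimal normal subgroups `M`, `N` of a permutation group are regular, non-abelian, isomorphic, each other's centraliser in the symmetric group, and the only minimal normal subgroups. -/
theorem result {α : Type*} (G : Subgroup (Equiv.Perm α)) (M N : Subgroup G) [M.Normal] [N.Normal] (hM : M ≠ ⊥) (hN : N ≠ ⊥) (hMmin : ∀ L : Subgroup G, L.Normal → L ≤ M → L = ⊥ ∨ L = M) (hNmin : ∀ L : Subgroup G, L.Normal → L ≤ N → L = ⊥ ∨ L = N) (hMN : M ≠ N) (hMt : MulAction.IsPretransitive M α) (hNt : MulAction.IsPretransitive N α) : (∀ a : α, MulAction.stabilizer M a = ⊥) ∧ (∀ a : α, MulAction.stabilizer N a = ⊥) ∧ ¬ IsMulCommutative M ∧ Nonempty (M ≃* N) ∧ Subgroup.centralizer ((M.map G.subtype : Subgroup (Equiv.Perm α)) : Set (Equiv.Perm α)) = N.map G.subtype ∧ Subgroup.centralizer ((N.map G.subtype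 : Subgroup (Equiv.Perm α)) : Set (Equiv.Perm α)) = M.map G.subtype ∧ ∀ L : Subgroup G, L.Normal → L ≠ ⊥ → (∀ L' : Subgroup G, L'.Normal → L' ≤ L → L' = ⊥ ∨ L' = L) → L = M ∨ L = N := by
  haveI := nonempty_of_ne_bot (α := α) hM
  obtain ⟨h1, h2, h3, h4, h5⟩ := two_min (α := α) M N hM hN hMmin hNmin hMN hMt hNt
  obtain ⟨-, hc⟩ := comm_of_min hMmin hNmin hN hMN
  exact ⟨h1, h2, h3, h4, cent_map hMt hNt hc, cent_map hNt hMt fun n hn m hm => (hc m hm n hn).symm, h5⟩

end Cfsg.Agent.S0704
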