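import Cfsg.Statements.S0706
import Cfsg.Agent.PM.Gen

set_option autoImplicit false
open Cfsg

namespace Cfsg.Agent.S0706

open MulAction PM
open scoped Pointwise

/-- In a generously `k`-transitive permutation group, for a prime `p ≤ k` and a `k`-set `Γ`, there are no `p` points outside `Γ` lying in distinct orbits of the pointwise stabiliser of `Γ` all of length prime to `p` (at most `p - 1` such orbits). -/
theorem result {α : Type*} [Fintype α] [DecidableEq α] (G : Subgroup (Equiv.Perm α)) {k : ℕ} (hk : k < Fintype.card α) (hgen : ∀ s : Finset α, s.card = k + 1 → ∀ σ : Equiv.Perm ↥s, ∃ g ∈ G, ∀ x : ↥s, g (x : α) = σ x) {p : ℕ} (hp : p.Prime) (hpk : p ≤ k) (Γ : Finset α) (hΓ : Γ.card = k) (f : Fin p → α) (hf : ∀ i, f i ∉ Γ) (hdist : ∀ i j, i ≠ j → f j ∉ MulAction.orbit (fixingSubgroup G (Γ : Set α)) (f i)) : ∃ i, p ∣ Nat.card (MulAction.orbit (fixingSubgroup G (Γ : Set α)) (f i)) := by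
  classical
  have h : Gen G α k := fun s hs σ => let ⟨g, hg, e⟩ := hgen s hs σ; ⟨⟨g, hg⟩, e⟩
  haveI := Fact.mk hp
  by_contra hc
  push Not at hc
  obtain ⟨S, hS, hSc⟩ := Finset.exists_subset_card_eq (s := Γ) (n := p) (by omega)
  let K := fixingSubgroup G (Γ : Set α)
  let L : Subgroup G := fixingSubgroup G ((Γ \ S : Finset α) : Set α) ⊓ stabilizer G Γ
  have hL : ∀ g : G, g ∈ L ↔ (∀ x ∈ Γ \ S, g • x = x) ∧ g • Γ = Γ := fun g => by
    simp only [L, Subgroup.mem_inf, mem_fixingSubgroup_iff, mem_stabilizer_iff, Finset.mem_coe]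
  obtain ⟨s, hs⟩ : S.Nonempty := Finset.card_pos.1 (hSc ▸ hp.pos)
  have hKL : K ≤ L ⊓ stabilizer G s := fun g hg => by
    have := (mem_fixingSubgroup_iff G).1 hg
    refine ⟨(hL g).2 ⟨fun x hx => this x (Finset.mem_sdiff.1 hx).1, ?_⟩, this s (hS hs)⟩
    ext x
    rw [← Finset.inv_smul_mem_iff]
    exact ⟨fun h => by rw [← smul_inv_smul g x, this _ h]; exact h,
      fun h => by rw [(mem_fixingSubgroup_iff G).1 (inv_mem hg) x h]; exact h⟩
  have horb : orbit L s = S := by
    ext x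
    constructor
    · rintro ⟨⟨g, hg⟩, rfl⟩
      obtain ⟨h1, h2⟩ := (hL g).1 hg
      change g • s ∈ S
      by_contra h3
      have h4 : g • s ∈ Γ := h2 ▸ Finset.smul_mem_smul_finset (hS hs)
      have := h1 _ (Finset.mem_sdiff.2 ⟨h4, h3⟩)
      rw [smul_left_cancel_iff] at this
      exact h3 (this.symm ▸ hs)
    · intro hx
      obtain ⟨g, hg⟩ := exists_ext (h.mt hk) Γ hΓ (Equiv.swap s x) (Equiv.injective _).injOn
      refine ⟨⟨g, (hL g).2 ⟨fun y hy => ?_, ?_⟩⟩, ?_⟩
      · rw [Finset.mem_sdiff] at hy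
        rw [hg y hy.1, Equiv.swap_apply_of_ne_of_ne (ne_of_mem_of_not_mem hs hy.2).symm
          (ne_of_mem_of_not_mem hx hy.2).symm]
      · apply Finset.eq_of_subset_of_card_le _ (Finset.card_smul_finset g Γ).ge
        intro y hy
        obtain ⟨z, hz, rfl⟩ := Finset.mem_smul_finset.1 hy
        rw [hg z hz, Equiv.swap_apply_def]
        split_ifs
        exacts [hS hx, hS hs, hz]
      · change g • s = x
        rw [hg s (hS hs), Equiv.swap_apply_left]
  have h1 := card_orbit_sub L s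
  rw [horb, Nat.card_coe_set_eq, Set.ncard_coe_finset, hSc] at h1
  have h2 : p * Nat.card K ∣ Nat.card L := h1 ▸ mul_dvd_mul_left _ (Subgroup.card_dvd_of_le hKL)
  obtain ⟨R⟩ : Nonempty (Sylow p L) := inferInstance
  let R' : Subgroup G := (R : Subgroup L).map L.subtype
  have hR : R' ≤ L := Subgroup.map_subtype_le _
  have hfix : ∀ i, ∃ x ∈ orbit K (f i), ∀ g ∈ R', g • x = x := fun i => by
    obtain ⟨x, hx, e⟩ := exists_fix hp (R.2.map L.subtype) (orbit K (f i)).toFinite.toFinset (by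
      intro g hg x hx
      rw [Set.Finite.mem_toFinset] at hx ⊢
      obtain ⟨u, rfl⟩ := hx
      obtain ⟨v, h3, h4⟩ := h.orb hΓ (hf i) (g := g * u) (by
        rw [mul_smul, ((hL _).1 (hKL u.2).1).2, ((hL _).1 (hR hg)).2])
      exact ⟨⟨v, (mem_fixingSubgroup_iff G).2 h3⟩, h4.trans (mul_smul _ _ _)⟩) (by
      rw [← Set.ncard_eq_toFinset_card, ← Nat.card_coe_set_eq]; exact hc i)
    exact ⟨x, (Set.Finite.mem_toFinset _).1 hx, e⟩
  choose δ hδ hδ' using hfix
  have hinj : Function.Injective δ := fun i j e => by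
    by_contra hij
    apply hdist i j hij
    rw [← orbit_eq_iff.2 (hδ i), e, orbit_eq_iff.2 (hδ j)]
    exact mem_orbit_self _
  have hδΓ : ∀ i, δ i ∉ Γ := fun i hi => by
    obtain ⟨u, e⟩ := hδ i
    have := (mem_fixingSubgroup_iff G).1 u.2 _ hi
    change (u : G) • f i = δ i at e
    rw [← e, smul_left_cancel_iff] at this
    rw [← e, this] at hi
    exact hf i hi
  let Γ' := (Γ \ S) ∪ Finset.univ.image δ
  have hΓ' : Γ'.card = k := by
    rw [Finset.card_union_of_disjoint, Finset.card_sdiff_of_subset hS, Finset.card_image_of_injective _ hinj]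
    · simp; omega
    · rw [Finset.disjoint_right]
      intro x hx hx'
      obtain ⟨i, -, rfl⟩ := Finset.mem_image.1 hx
      exact hδΓ i (Finset.mem_sdiff.1 hx').1
  have h3 : R' ≤ fixingSubgroup G (Γ' : Set α) := fun g hg => (mem_fixingSubgroup_iff G).2 fun x hx => by
    rcases Finset.mem_union.1 hx with hx | hx
    · exact ((hL g).1 (hR hg)).1 x hx
    · obtain ⟨i, -, rfl⟩ := Finset.mem_image.1 hx
      exact hδ' i g hg
  have h4 := Subgroup.card_dvd_of_le h3
  rw [card_fix_eq (h.mt hk) hΓ' hΓ, Subgroup.card_map_of_injective L.subtype_injective,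
    R.card_eq_multiplicity, hp.pow_dvd_iff_le_factorization Nat.card_pos.ne'] at h4
  have h5 := (Nat.factorization_le_iff_dvd (mul_ne_zero hp.ne_zero Nat.card_pos.ne') Nat.card_pos.ne').2 h2 p
  rw [Nat.factorization_mul hp.ne_zero Nat.card_pos.ne', hp.factorization] at h5
  simp only [Finsupp.coe_add, Pi.add_apply, Finsupp.single_eq_same] at h5
  change _ ≤ (Nat.card K).factorization p at h4
  omega

end Cfsg.Agent.S0706
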