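import Cfsg.Statements.S0707
import Cfsg.Agent.PM.B

set_option autoImplicit false
open Cfsg

namespace Cfsg.Agent.S0707

open MulAction PM

/-- In a primitive permutation group, distinct points have distinct stabilisers unless the group is regular of prime degree. -/
theorem result {α : Type*} (G : Subgroup (Equiv.Perm α)) [MulAction.IsPreprimitive G α] (h : ¬ (Nat.card α).Prime ∨ ∃ a : α, MulAction.stabilizer G a ≠ ⊥) {a b : α} (hab : a ≠ b) : MulAction.stabilizer G a ≠ MulAction.stabilizer G b := by
  intro e
  rcases prim_rel (G := G) (fun x y : α => stabilizer G x = stabilizer G y)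
    ⟨fun _ => rfl, Eq.symm, Eq.trans⟩ (fun g x y h => by
      rw [stabilizer_smul_eq_stabilizer_map_conj, stabilizer_smul_eq_stabilizer_map_conj, h])
    with h1 | h1
  · exact hab (h1 _ _ e)
  have hb : ∀ x : α, stabilizer G x = ⊥ := by
    intro x
    rw [stab_bot_iff]
    intro g hg
    ext y
    have : g ∈ stabilizer G y := h1 x y ▸ hg
    exact this
  rcases h with h | ⟨x, h⟩
  · apply h
    haveI : Nontrivial α := ⟨a, b, hab⟩
    have hc := IsPreprimitive.isCoatom_stabilizer_of_isPreprimitive G a
    rw [hb a] at hc
    haveI : IsSimpleOrder (Subgroup G) := isSimpleOrder_iff_isCoatom_bot.2 hc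
    have h2 := card_mul_stab (G := G) a
    rw [hb a, Subgroup.card_bot, mul_one] at h2
    rw [h2]
    have hcomm : ∀ x y : G, x * y = y * x := by
      intro x y
      rcases eq_bot_or_eq_top (Subgroup.zpowers x) with h | h
      · rw [Subgroup.zpowers_eq_bot.1 h]; simp
      · obtain ⟨n, rfl⟩ : y ∈ Subgroup.zpowers x := h ▸ Subgroup.mem_top y
        exact ((Commute.refl x).zpow_right n).eq
    letI : CommGroup G := { (inferInstance : Group G) with mul_comm := hcomm }
    haveI : IsSimpleGroup G := 
      { toNontrivial := Subgroup.nontrivial_iff.1 inferInstance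
        eq_bot_or_eq_top_of_normal := fun H _ => eq_bot_or_eq_top H }
    exact IsSimpleGroup.prime_card
  · exact h (hb x)

end Cfsg.Agent.S0707
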