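import Cfsg.Statements.S0708
import Cfsg.Agent.PM.E

set_option autoImplicit false
open Cfsg

namespace Cfsg.Agent.S0708

open MulAction PM
theorem inj4 {Ω : Type*} {a b c d : Ω} (h1 : a ≠ b) (h2 : a ≠ c) (h3 : a ≠ d) (h4 : b ≠ c) (h5 : b ≠ d) (h6 : c ≠ d) :
    Function.Injective ![a, b, c, d] := by
  intro i j; fin_cases i <;> fin_cases j <;> simp [h1, h2, h3, h4, h5, h6, h1.symm, h2.symm, h3.symm, h4.symm, h5.symm, h6.symm]

/-- Tits' argument: a sharply 4-transitive group (no finiteness assumed) has finite degree at most 11, and at most 6 when the degree is even. -/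
theorem result {G : Type*} [Group G] {Ω : Type*} [MulAction G Ω] (h4 : MulAction.IsMultiplyPretransitive G Ω 4) (hsharp : ∀ x : Fin 4 ↪ Ω, MulAction.stabilizer G x = ⊥) (hne : Nonempty (Fin 4 ↪ Ω)) : Finite Ω ∧ Nat.card Ω ≤ 11 ∧ (Even (Nat.card Ω) → Nat.card Ω ≤ 6) := by
  classical
  have sh : ∀ {a b c d : Ω}, a ≠ b → a ≠ c → a ≠ d → b ≠ c → b ≠ d → c ≠ d → ∀ g g' : G,
      g • a = g' • a → g • b = g' • b → g • c = g' • c → g • d = g' • d → g = g' := by
    intro a b c d h1 h2 h3 h4 h5 h6 g g' e1 e2 e3 e4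
    refine (inv_mul_eq_one.1 (sharp_iff.1 hsharp _ (inj4 h1 h2 h3 h4 h5 h6) (g'⁻¹ * g) fun i => ?_)).symm
    fin_cases i <;> simp [mul_smul, e1, e2, e3, e4]
  have ex : ∀ {a b c d : Ω}, a ≠ b → a ≠ c → a ≠ d → b ≠ c → b ≠ d → c ≠ d →
      ∃ t : G, t • a = a ∧ t • b = b ∧ t • c = d ∧ t • d = c ∧ ∀ w : Ω, t • t • w = w := by
    intro a b c d h1 h2 h3 h4' h5 h6
    obtain ⟨t, ht⟩ := mt_iff.1 h4 _ _ (inj4 h1 h2 h3 h4' h5 h6) (inj4 h1 h3 h2 h5 h4' h6.symm)
    have e0 : t • a = a := ht 0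
    have e1 : t • b = b := ht 1
    have e2 : t • c = d := ht 2
    have e3 : t • d = c := ht 3
    have := sh h1 h2 h3 h4' h5 h6 (t * t) 1 (by simp [mul_smul, e0]) (by simp [mul_smul, e1])
      (by simp [mul_smul, e2, e3]) (by simp [mul_smul, e2, e3])
    exact ⟨t, e0, e1, e2, e3, fun w => by rw [← mul_smul, this, one_smul]⟩
  obtain ⟨E⟩ := hne
  have xy : E 0 ≠ E 1 := E.injective.ne (by decide)
  have xu : E 0 ≠ E 2 := E.injective.ne (by decide)
  have xv : E 0 ≠ E 3 := E.injective.ne (by decide)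
  have yu : E 1 ≠ E 2 := E.injective.ne (by decide)
  have yv : E 1 ≠ E 3 := E.injective.ne (by decide)
  have uv : E 2 ≠ E 3 := E.injective.ne (by decide)
  generalize E 0 = x at *
  generalize E 1 = y at *
  generalize E 2 = u at *
  generalize E 3 = v at *
  obtain ⟨a, ax, ay, au, av, aa⟩ := ex xy xu xv yu yv uv
  let R : Ω → Prop := fun i => a • i ≠ i ∧ i ≠ u ∧ i ≠ v
  have hR : ∀ i, R i → u ≠ a • i ∧ v ≠ a • i := fun i h =>
    ⟨fun e => h.2.2 (by rw [← aa i, ← e, au]), fun e => h.2.1 (by rw [← aa i, ← e, av])⟩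
  have key : ∀ i, R i → ∃ t : G, t • u = u ∧ t • v = v ∧ t • i = a • i ∧ (∀ w : Ω, t • t • w = w) ∧
      a • t • x = t • x ∧ a • t • y = t • y ∧ ¬ (t • x = x ∧ t • y = y) := fun i h => by
    obtain ⟨t, h1, h2, h3, h5, h6⟩ := ex uv h.2.1.symm (hR i h).1 h.2.2.symm (hR i h).2 h.1.symm
    have c := sh uv h.2.1.symm (hR i h).1 h.2.2.symm (hR i h).2 h.1.symm (a * t) (t * a)
      (by simp [mul_smul, h1, h2, au]) (by simp [mul_smul, h1, h2, av])
      (by simp [mul_smul, h3, h5, aa]) (by simp [mul_smul, h3, h5, aa])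
    refine ⟨t, h1, h2, h3, h6, by rw [← mul_smul, c, mul_smul, ax], by rw [← mul_smul, c, mul_smul, ay], fun e => ?_⟩
    rw [sh xy xu xv yu yv uv t 1 (by simp [e.1]) (by simp [e.2]) (by simp [h1]) (by simp [h2]), one_smul] at h3
    exact h.1 h3.symm
  choose! t t1 t2 t3 t4 t5 t6 t7 using key
  have fib : ∀ p q : Ω, ∃ s : Finset Ω, s.card ≤ 2 ∧ ∀ i, R i → t i • x = p → t i • y = q → i ∈ s := by
    intro p q
    by_cases h : ∃ i, R i ∧ t i • x = p ∧ t i • y = q
    · obtain ⟨i, h1, h2, h3⟩ := h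
      refine ⟨{i, a • i}, Finset.card_le_two, fun k k1 k2 k3 => ?_⟩
      by_contra hc
      simp only [Finset.mem_insert, Finset.mem_singleton, not_or] at hc
      have e := sh xy xu xv yu yv uv (t k) (t i) (by rw [h2, k2]) (by rw [h3, k3]) (by rw [t1 _ h1, t1 _ k1])
        (by rw [t2 _ h1, t2 _ k1])
      have e2 := sh h1.1.symm (Ne.symm hc.1) (fun e => hc.2 (by rw [e, aa])) (Ne.symm hc.2)
        (fun e => hc.1 (MulAction.injective a e).symm) k1.1.symm (t i) a (t3 i h1)
        (by rw [aa, ← t3 i h1, t4 i h1]) (e ▸ t3 k k1) (by beta_reduce; rw [aa, ← t3 k k1, ← e, t4 k k1])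
      exact uv (by rw [← au, ← e2, t1 i h1])
    · exact ⟨∅, by simp, fun i h1 h2 h3 => absurd ⟨i, h1, h2, h3⟩ h⟩
  choose s hs hs' using fib
  have ti : ∀ i, t i • x ≠ t i • y := fun i e => xy (MulAction.injective _ e)
  have bound : ∀ (S : Finset Ω), (∀ w, w ∈ S) → Finite Ω ∧ Nat.card Ω ≤ S.card := fun S h => by
    haveI : Finite Ω := Finite.of_surjective (fun w : S => (w : Ω)) fun w => ⟨⟨w, h w⟩, rfl⟩
    exact ⟨this, by simpa using Nat.card_le_card_of_surjective (fun w : S => (w : Ω)) fun w => ⟨⟨w, h w⟩, rfl⟩⟩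
  by_cases hz : ∃ z, a • z = z ∧ z ≠ x ∧ z ≠ y
  · obtain ⟨z, az, zx, zy⟩ := hz
    have hF : ∀ w, a • w = w → w = x ∨ w = y ∨ w = z := fun w hw => by
      by_contra hc
      push Not at hc
      rw [sh xy zx.symm hc.1.symm zy.symm hc.2.1.symm hc.2.2.symm a 1 (by simp [ax]) (by simp [ay]) (by simp [az]) (by simp [hw]), one_smul] at au
      exact uv au
    obtain ⟨h1, h2⟩ := bound ({u, v} ∪ {x, y, z} ∪ s y x ∪ s z y ∪ s x z) fun w => by
      simp only [Finset.mem_union, Finset.mem_insert, Finset.mem_singleton]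
      by_cases hw : R w
      · have k1 := t4 w hw x
        have k2 := t4 w hw y
        have k3 := ti w
        have k4 := t7 w hw
        rcases hF _ (t5 w hw) with e1 | e1 | e1 <;> rcases hF _ (t6 w hw) with e2 | e2 | e2
        · exact absurd (e1.trans e2.symm) k3
        · exact absurd ⟨e1, e2⟩ k4
        · exact Or.inr (hs' _ _ w hw e1 e2)
        · exact Or.inl (Or.inl (Or.inr (hs' _ _ w hw e1 e2)))
        · exact absurd (e1.trans e2.symm) k3
        · rw [e1, e2] at k1; exact absurd k1 zx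
        · rw [e2, e1] at k2; exact absurd k2 zy
        · exact Or.inl (Or.inr (hs' _ _ w hw e1 e2))
        · exact absurd (e1.trans e2.symm) k3
      · have := hF w
        simp only [R] at hw
        tauto
    have h3 : ({u, v} ∪ {x, y, z} ∪ s y x ∪ s z y ∪ s x z).card ≤ 11 := by
      have a1 := Finset.card_union_le ({u, v} ∪ {x, y, z} ∪ s y x ∪ s z y) (s x z)
      have a2 := Finset.card_union_le ({u, v} ∪ {x, y, z} ∪ s y x) (s z y)
      have a3 := Finset.card_union_le ({u, v} ∪ {x, y, z}) (s y x)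
      have a4 := Finset.card_union_le ({u, v} : Finset Ω) {x, y, z}
      have := hs y x; have := hs z y; have := hs x z
      have := Finset.card_le_two (a := u) (b := v)
      have := Finset.card_le_three (a := x) (b := y) (c := z)
      omega
    refine ⟨h1, h2.trans h3, fun he => ?_⟩
    exfalso
    haveI := Fintype.ofFinite Ω
    have a2 : (MulAction.toPerm a : Equiv.Perm Ω) ^ 2 ^ 1 = 1 := by ext w; simp [sq, aa]
    have := Equiv.Perm.card_compl_support_modEq a2
    rw [show (MulAction.toPerm a : Equiv.Perm Ω).supportᶜ = {x, y, z} by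
      ext w
      simp only [Finset.mem_compl, Equiv.Perm.mem_support, not_not, Finset.mem_insert, Finset.mem_singleton]
      exact ⟨hF w, by rintro (rfl | rfl | rfl) <;> assumption⟩,
      Finset.card_eq_three.2 ⟨x, y, z, xy, zx.symm, zy.symm, rfl⟩, ← Nat.card_eq_fintype_card] at this
    obtain ⟨m, hm⟩ := he
    unfold Nat.ModEq at this
    omega
  · push Not at hz
    have hF : ∀ w, a • w = w → w = x ∨ w = y := fun w hw => by
      by_cases h : w = x
      · exact Or.inl h
      · exact Or.inr (hz w hw h)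
    obtain ⟨h1, h2⟩ := bound ({u, v} ∪ {x, y} ∪ s y x) fun w => by
      simp only [Finset.mem_union, Finset.mem_insert, Finset.mem_singleton]
      by_cases hw : R w
      · have k3 := ti w
        have k4 := t7 w hw
        rcases hF _ (t5 w hw) with e1 | e1 <;> rcases hF _ (t6 w hw) with e2 | e2
        · exact absurd (e1.trans e2.symm) k3
        · exact absurd ⟨e1, e2⟩ k4
        · exact Or.inr (hs' _ _ w hw e1 e2)
        · exact absurd (e1.trans e2.symm) k3
      · have := hF w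
        simp only [R] at hw
        tauto
    have h3 : ({u, v} ∪ {x, y} ∪ s y x).card ≤ 6 := by
      have a3 := Finset.card_union_le ({u, v} ∪ {x, y}) (s y x)
      have a4 := Finset.card_union_le ({u, v} : Finset Ω) {x, y}
      have := hs y x
      have := Finset.card_le_two (a := u) (b := v)
      have := Finset.card_le_two (a := x) (b := y)
      omega
    exact ⟨h1, by omega, fun _ => by omega⟩

end Cfsg.Agent.S0708
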