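import Cfsg.Statements.S0709


set_option autoImplicit false
open Cfsg

namespace Cfsg.Agent.S0709

open Subgroup

def DC {G : Type*} [Group G] (A B : Subgroup G) (a : G) : Prop := ∀ x ∈ B, x ∈ A ∨ ∃ u ∈ A, ∃ v ∈ A, x = u * a * v

theorem step {G : Type*} [Group G] {A B : Subgroup G} {a b : G} (h : DC A B a) (h1 : A ≤ B) (h2 : a ∈ B)
    (h3 : ∀ x ∈ A, b * x * b⁻¹ ∈ A) (h4 : b ^ 2 ∈ A) (h5 : (a * b) ^ 3 ∈ A) : DC B (closure (B ∪ {b})) b := by
  have l1 : ∀ y ∈ B, ∀ x, (x ∈ B ∨ ∃ u ∈ B, ∃ v ∈ B, x = u * b * v) → y * x ∈ B ∨ ∃ u ∈ B, ∃ v ∈ B, y * x = u * b * v := by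
    rintro y hy x (k | ⟨u, hu, v, hv, rfl⟩)
    exacts [Or.inl (mul_mem hy k), Or.inr ⟨_, mul_mem hy hu, v, hv, by group⟩]
  have l2 : ∀ x, (x ∈ B ∨ ∃ u ∈ B, ∃ v ∈ B, x = u * b * v) → b * x ∈ B ∨ ∃ u ∈ B, ∃ v ∈ B, b * x = u * b * v := by
    rintro x (k | ⟨u, hu, v, hv, rfl⟩)
    · exact Or.inr ⟨1, one_mem _, x, k, by group⟩
    rcases h u hu with k | ⟨c, hc, d, hd, rfl⟩
    · exact Or.inl (by convert mul_mem (h1 (mul_mem (h3 u k) h4)) hv using 1; group)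
    · exact Or.inr ⟨_, mul_mem (mul_mem (h1 (h3 c hc)) (inv_mem h2)) (h1 (inv_mem h4)), _, mul_mem (mul_mem (mul_mem
        (inv_mem h2) (h1 h5)) (h1 (h3 _ (mul_mem (mul_mem (inv_mem h4) hd) h4)))) hv, by
          simp only [pow_succ, pow_zero, one_mul]; group⟩
  intro x hx
  induction hx using closure_induction_left with
  | one => exact Or.inl (one_mem _)
  | mul_left y hy x _ ih =>
    rcases hy with hy | rfl
    exacts [l1 y hy x ih, l2 x ih]
  | inv_mul_cancel y hy x _ ih =>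
    rcases hy with hy | rfl
    · exact l1 _ (inv_mem hy) x ih
    · convert l1 _ (inv_mem (h1 h4)) _ (l2 x ih) using 2 <;> simp [pow_two, mul_assoc]

def KK {G : Type*} [Group G] (A : Subgroup G) (s : ℕ → G) : ℕ → Subgroup G
  | 0 => A
  | n + 1 => closure (KK A s n ∪ {s (n + 1)})

theorem KK_le {G : Type*} [Group G] {A X : Subgroup G} {s : ℕ → G} {n : ℕ} :
    KK A s n ≤ X ↔ A ≤ X ∧ ∀ i, 1 ≤ i → i ≤ n → s i ∈ X := by
  induction n with
  | zero => exact ⟨fun h => ⟨h, by omega⟩, fun h => h.1⟩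
  | succ n ih =>
    rw [KK, closure_le, Set.union_subset_iff, SetLike.coe_subset_coe, ih, Set.singleton_subset_iff, and_assoc]
    exact and_congr_right' ⟨fun h i a b => (Nat.le_succ_iff.1 b).elim (h.1 i a) (· ▸ h.2),
      fun h => ⟨fun i a b => h i a (by omega), h _ (by omega) le_rfl⟩⟩

/-- Witt's Lemma for constructing transitive extensions. Points `q 1, …, q t` (`t ≥ 2`) of a finite set are given; `G` fixes `q i` for `i ≥ 3` and is doubly transitive on the remaining points; `s 1 ∈ G` swaps `q 1, q 2`; for `2 ≤ i ≤ t-1`, `s i` swaps `q i, q (i+1)` and fixes the other `q j`; with `H` the stabiliser of `q 1, q 2` in `G`: `s i ^ 2 ∈ H`, `(s i * s (i+1)) ^ 3 ∈ H`, `(s i * s j) ^ 2 ∈ H` for `j ≥ i + 2`, and `s i` (`i ≥ 2`) normalises the stabiliser of `q 2` in `G`. Then `G` and the `s i` generate a `t`-transitive group whose pointwise stabiliser of the `q`'s is `H`. -/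
theorem result {α : Type*} [Fintype α] [DecidableEq α] (t : ℕ) (ht : 2 ≤ t) (q : ℕ → α) (hq : ∀ i j : ℕ, 1 ≤ i → i ≤ t → 1 ≤ j → j ≤ t → q i = q j → i = j) (G : Subgroup (Equiv.Perm α)) (hfix : ∀ g ∈ G, ∀ i : ℕ, 3 ≤ i → i ≤ t → g (q i) = q i) (h2 : ∀ a b c d : α, (∀ i, 3 ≤ i → i ≤ t → a ≠ q i ∧ b ≠ q i ∧ c ≠ q i ∧ d ≠ q i) → a ≠ b → c ≠ d → ∃ g ∈ G, g a = c ∧ g b = d) (s : ℕ → Equiv.Perm α) (hs1 : s 1 ∈ G) (hs1q : s 1 (q 1) = q 2 ∧ s 1 (q 2) = q 1) (hsq : ∀ i : ℕ, 2 ≤ i → i + 1 ≤ t → s i (q i) = q (i + 1) ∧ s i (q (i + 1)) = q i ∧ ∀ j : ℕ, 1 ≤ j → j ≤ t → j ≠ i → j ≠ i + 1 → s i (q j) = q j) (H : Subgroup (Equiv.Perm α)) (hH : H = G ⊓ MulAction.stabilizer (Equiv.Perm α) (q 1) ⊓ MulAction.stabilizer (Equiv.Perm α) (q 2)) (hsq2 : ∀ i : ℕ, 1 ≤ i → i + 1 ≤ t → s i ^ 2 ∈ H) (hbraid : ∀ i : ℕ, 1 ≤ i → i + 2 ≤ t → (s i * s (i + 1)) ^ 3 ∈ H) (hcomm : ∀ i j : ℕ, 1 ≤ i → i + 2 ≤ j → j + 1 ≤ t → (s i * s j) ^ 2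 ∈ H ∧ (s j * s i) ^ 2 ∈ H) (hnorm : ∀ i : ℕ, 2 ≤ i → i + 1 ≤ t → ∀ g ∈ G ⊓ MulAction.stabilizer (Equiv.Perm α) (q 2), s i * g * (s i)⁻¹ ∈ G ⊓ MulAction.stabilizer (Equiv.Perm α) (q 2)) : MulAction.IsMultiplyPretransitive ↥(Subgroup.closure ((G : Set (Equiv.Perm α)) ∪ {x | ∃ i : ℕ, 2 ≤ i ∧ i + 1 ≤ t ∧ x = s i})) α t ∧ Subgroup.closure ((G : Set (Equiv.Perm α)) ∪ {x | ∃ i : ℕ, 2 ≤ i ∧ i + 1 ≤ t ∧ x = s i}) ⊓ fixingSubgroup (Equiv.Perm α) {x | ∃ i : ℕ, 1 ≤ i ∧ i ≤ t ∧ x = q i} = H := by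
  obtain ⟨n, rfl⟩ : ∃ n, t = n + 2 := ⟨t - 2, by omega⟩
  set A := G ⊓ MulAction.stabilizer (Equiv.Perm α) (q 2) with hA
  have m1 : ∀ k, A ≤ KK A s k := fun k => (KK_le.1 le_rfl).1
  have m2 : ∀ {k i}, 1 ≤ i → i ≤ k → s i ∈ KK A s k := fun {k i} => (KK_le.1 le_rfl).2 i
  have m3 : ∀ k, KK A s k ≤ KK A s (k + 1) := fun k => KK_le.2 ⟨m1 _, fun i a b => m2 a (by omega)⟩
  have hH' : ∀ k, H ≤ KK A s k := fun k => le_trans (hH ▸ inf_le_inf_right _ inf_le_left) (m1 k)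
  have ne : ∀ {i j}, 1 ≤ i → i ≤ n + 2 → 1 ≤ j → j ≤ n + 2 → i ≠ j → q i ≠ q j := fun a b c d e h => e (hq _ _ a b c d h)
  have fx : ∀ {k j g}, k + 2 ≤ j → j ≤ n + 2 → g ∈ KK A s k → g (q j) = q j := fun {k j g} a b hg => by
    refine (KK_le (X := MulAction.stabilizer (Equiv.Perm α) (q j))).2 ⟨fun x hx => ?_, fun i c d => ?_⟩ hg
    · rcases (by omega : j = 2 ∨ 3 ≤ j) with rfl | h
      exacts [hx.2, hfix x hx.1 j h b]
    · rcases (by omega : i = 1 ∨ 2 ≤ i) with rfl | h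
      exacts [hfix _ hs1 j (by omega) b, (hsq i h (by omega)).2.2 j (by omega) b (by omega) (by omega)]
  have sq : ∀ {k}, k ≤ n → s (k + 1) (q (k + 1)) = q (k + 2) ∧ s (k + 1) (q (k + 2)) = q (k + 1) := fun {k} h => by
    rcases k with _ | k
    exacts [hs1q, ⟨(hsq _ (by omega) (by omega)).1, (hsq _ (by omega) (by omega)).2.1⟩]
  have d0 : DC A G (s 1) := fun g hg => or_iff_not_imp_left.2 fun h => by
    obtain ⟨u, hu, u1, u2⟩ := h2 (q 1) (q 2) (g (q 2)) (q 2) (fun i a b => ⟨ne (by omega) (by omega) (by omega) b (by omega),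
      ne (by omega) (by omega) (by omega) b (by omega), fun e => ne (i := 2) (j := i) (by omega) (by omega) (by omega) b (by omega)
        (g.injective (e.trans (hfix g hg i a b).symm)), ne (by omega) (by omega) (by omega) b (by omega)⟩)
      (ne (by omega) (by omega) (by omega) (by omega) (by omega)) fun e => h ⟨hg, e⟩
    exact ⟨u, ⟨hu, u2⟩, (u * s 1)⁻¹ * g, ⟨G.mul_mem (G.inv_mem (G.mul_mem hu hs1)) hg,
      (Equiv.Perm.inv_eq_iff_eq (f := u * s 1)).2 (u1.symm.trans (congrArg u hs1q.2.symm))⟩, by group⟩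
  have g1 : KK A s 1 = G := le_antisymm (KK_le.2 ⟨inf_le_left, fun i a b => (by omega : i = 1) ▸ hs1⟩) fun g hg => by
    rcases d0 g hg with h | ⟨u, hu, v, hv, rfl⟩
    exacts [m1 _ h, mul_mem (mul_mem (m1 _ hu) (m2 le_rfl le_rfl)) (m1 _ hv)]
  have dc : ∀ k ≤ n, DC (KK A s k) (KK A s (k + 1)) (s (k + 1)) := fun k hk => by
    induction k with
    | zero => exact g1 ▸ d0
    | succ k ih =>
      have h4 := hH' k (hsq2 (k + 2) (by omega) (by omega))
      refine step (ih (by omega)) (m3 k) (m2 (by omega) le_rfl) (fun x hx => (KK_le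
        (X := (KK A s k).comap (MulAut.conj (s (k + 2))).toMonoidHom)).2 ⟨fun y hy => m1 k (hnorm _ (by omega) (by omega) y hy),
          fun i a b => ?_⟩ hx) h4 (hH' k (hbraid _ (by omega) (by omega)))
      have := mul_mem (mul_mem (hH' k (hcomm i (k + 2) a (by omega) (by omega)).2) (inv_mem (m2 a b))) (inv_mem h4)
      simpa [pow_two, mul_assoc] using this
  have st : ∀ k ≤ n + 1, ∀ g ∈ KK A s k, (∀ i, 1 ≤ i → i ≤ n + 2 → g (q i) = q i) → g ∈ A := fun k hk g hg h => by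
    induction k with
    | zero => exact hg
    | succ k ih =>
      refine ih (by omega) ((dc k (by omega) g hg).resolve_right ?_)
      rintro ⟨u, hu, v, hv, rfl⟩
      have := h (k + 2) (by omega) (by omega)
      rw [Equiv.Perm.mul_apply, Equiv.Perm.mul_apply, fx le_rfl (by omega) hv, (sq (by omega)).2] at this
      exact ne (by omega) (by omega) (by omega) (by omega) (by omega) (u.injective (this.trans (fx le_rfl (by omega) hu).symm))
  have t1 : ∀ k ≤ n, ∀ a, (∀ j, k + 3 ≤ j → j ≤ n + 2 → a ≠ q j) → ∃ g ∈ KK A s (k + 1), g a = q (k + 2) := fun k hk a ha => by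
    by_cases e : a = q (k + 2)
    · exact ⟨1, one_mem _, e⟩
    induction k with
    | zero =>
      obtain ⟨g, hg, e, -⟩ := h2 a (q 2) (q 2) (q 1) (fun i b c => ⟨ha i b c, ne (by omega) (by omega) (by omega) c (by omega),
        ne (by omega) (by omega) (by omega) c (by omega), ne (by omega) (by omega) (by omega) c (by omega)⟩) e
        (ne (by omega) (by omega) (by omega) (by omega) (by omega))
      exact ⟨g, g1 ▸ hg, e⟩
    | succ k ih =>
      obtain ⟨g, hg, l⟩ : ∃ g ∈ KK A s (k + 1), g a = q (k + 2) := by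
        by_cases e' : a = q (k + 2)
        · exact ⟨1, one_mem _, e'⟩
        · exact ih (by omega) (fun j b c => (Nat.eq_or_lt_of_le b).elim (· ▸ e) fun d => ha j d c) e'
      exact ⟨s (k + 2) * g, mul_mem (m2 (by omega) le_rfl) (m3 _ hg), by rw [Equiv.Perm.mul_apply, l, (sq hk).1]⟩
  have t2 : ∀ k ≤ n, ∀ x : ℕ → α, (∀ i j, 1 ≤ i → i ≤ k + 2 → 1 ≤ j → j ≤ k + 2 → x i = x j → i = j) →
      (∀ i j, 1 ≤ i → i ≤ k + 2 → k + 3 ≤ j → j ≤ n + 2 → x i ≠ q j) →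
      ∃ g ∈ KK A s (k + 1), ∀ i, 1 ≤ i → i ≤ k + 2 → g (x i) = q i := fun k hk => by
    induction k with
    | zero =>
      intro x x1 x2
      obtain ⟨g, hg, e1, e2⟩ := h2 (x 1) (x 2) (q 1) (q 2) (fun i b c => ⟨x2 _ _ le_rfl (by omega) b c, x2 _ _ (by omega) le_rfl b c,
        ne (by omega) (by omega) (by omega) c (by omega), ne (by omega) (by omega) (by omega) c (by omega)⟩)
        (fun e => by have := x1 _ _ le_rfl (by omega) (by omega) le_rfl e; omega)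
        (ne (by omega) (by omega) (by omega) (by omega) (by omega))
      exact ⟨g, g1 ▸ hg, fun i a b => by rcases (by omega : i = 1 ∨ i = 2) with rfl | rfl <;> assumption⟩
    | succ k ih =>
      intro x x1 x2
      obtain ⟨g, hg, e⟩ := t1 _ hk (x (k + 3)) fun j => x2 _ j (by omega) le_rfl
      obtain ⟨u, hu, l⟩ := ih (by omega) (fun i => g (x i))
        (fun i j a b c d h => x1 i j a (by omega) c (by omega) (g.injective h)) fun i j a b c d h => by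
          rcases Nat.eq_or_lt_of_le c with rfl | c
          · have := x1 _ _ a (by omega) (by omega) le_rfl (g.injective (h.trans e.symm)); omega
          · exact x2 i j a (by omega) c d (g.injective (h.trans (fx c d hg).symm))
      refine ⟨u * g, mul_mem (m3 _ hu) hg, fun i a b => ?_⟩
      rcases Nat.eq_or_lt_of_le b with rfl | b
      · exact (congrArg u e).trans (fx le_rfl (by omega) hu)
      · exact l i a (by omega)
  have E : closure ((G : Set (Equiv.Perm α)) ∪ {x | ∃ i : ℕ, 2 ≤ i ∧ i + 1 ≤ n + 2 ∧ x = s i}) = KK A s (n + 1) := by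
    refine le_antisymm ((closure_le _).2 ?_) (KK_le.2 ⟨fun x hx => subset_closure (Or.inl hx.1), fun i a b => subset_closure ?_⟩)
    · rintro x (h | ⟨i, a, b, rfl⟩)
      · exact KK_le.2 ⟨m1 _, fun i a b => m2 a (by omega)⟩ (g1.ge h)
      · exact m2 (by omega) (by omega)
    · rcases (by omega : i = 1 ∨ 2 ≤ i) with rfl | h
      exacts [Or.inl hs1, Or.inr ⟨i, h, by omega, rfl⟩]
  rw [E]
  constructor
  · have : ∀ x : Fin (n + 2) ↪ α, ∃ g ∈ KK A s (n + 1), ∀ i, g (x i) = q (i + 1) := fun x => by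
      obtain ⟨g, hg, e⟩ := t2 n le_rfl (fun i => x (Fin.ofNat _ (i - 1))) (fun i j a b c d h => by
        have := congrArg Fin.val (x.injective h)
        rw [Fin.val_ofNat, Fin.val_ofNat, Nat.mod_eq_of_lt (by omega), Nat.mod_eq_of_lt (by omega)] at this
        omega) (by omega)
      exact ⟨g, hg, fun i => by simpa using e (i + 1) (by omega) (by omega)⟩
    refine MulAction.isMultiplyPretransitive_iff.2 fun x y => ?_
    obtain ⟨g, hg, e⟩ := this x
    obtain ⟨h, hh, l⟩ := this y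
    exact ⟨⟨h⁻¹ * g, mul_mem (inv_mem hh) hg⟩, Function.Embedding.ext fun i =>
      Equiv.Perm.inv_eq_iff_eq.2 ((e i).trans (l i).symm)⟩
  · refine le_antisymm (fun g hg => ?_) fun g hg => ⟨hH' _ hg, (mem_fixingSubgroup_iff _).2 ?_⟩
    · have k : ∀ i, 1 ≤ i → i ≤ n + 2 → g (q i) = q i := fun i a b => (mem_fixingSubgroup_iff _).1 hg.2 _ ⟨i, a, b, rfl⟩
      exact hH ▸ ⟨⟨(st _ le_rfl g hg.1 k).1, k 1 le_rfl (by omega)⟩, k 2 (by omega) (by omega)⟩
    · rintro _ ⟨i, a, b, rfl⟩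
      rcases Nat.eq_or_lt_of_le a with rfl | a
      · exact (hH ▸ hg).1.2
      · exact fx (k := 0) a b (hH' 0 hg)

end Cfsg.Agent.S0709
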