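import Cfsg.Statements.S0712
import Cfsg.Agent.PM.E

set_option autoImplicit false
open Cfsg

namespace Cfsg.Agent.S0712

open MulAction PM

/-- Jordan: a primitive group in which the pointwise stabiliser of a set `s` is doubly transitive on the complement of `s` (which has at least 2 points) is `(|s| + 2)`-transitive. -/
theorem result {α : Type*} [Fintype α] [DecidableEq α] (G : Subgroup (Equiv.Perm α)) (hG : MulAction.IsPreprimitive G α) (s : Set α) {m : ℕ} (hsm : s.ncard = m) (hm : m + 2 ≤ Fintype.card α) (h2 : MulAction.IsMultiplyPretransitive (fixingSubgroup G s) (SubMulAction.ofFixingSubgroup G s) 2) : MulAction.IsMultiplyPretransitive G α (m + 2) := by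
  have h1 : IsMultiplyPretransitive G α (m + 1) := by
    rcases m with _ | n
    · exact is_one_pretransitive_iff.2 inferInstance
    · haveI := hG.isMultiplyPreprimitive hsm (by rw [Nat.card_eq_fintype_card]; omega)
        (isPreprimitive_of_is_two_pretransitive h2)
      infer_instance
  have hc : s.toFinite.toFinset.card = m := by rw [← hsm, Set.ncard_eq_toFinset_card]
  obtain ⟨a, ha⟩ := exists_notMem (s := s.toFinite.toFinset) (by omega)
  refine mt_succ_one h1 (s := insert a s.toFinite.toFinset) (by rw [Finset.card_insert_of_notMem ha, hc]) ?_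
  intro b c hb hc
  simp only [Finset.mem_insert, Set.Finite.mem_toFinset, not_or] at ha hb hc
  obtain ⟨g, e1, e2⟩ := two_iff.1 h2 ⟨a, ha⟩ ⟨b, hb.2⟩ ⟨a, ha⟩ ⟨c, hc.2⟩
    (fun e => hb.1 (congrArg Subtype.val e).symm) (fun e => hc.1 (congrArg Subtype.val e).symm)
  refine ⟨g, fun x hx => ?_, congrArg Subtype.val e2⟩
  simp only [Finset.mem_insert, Set.Finite.mem_toFinset] at hx
  rcases hx with rfl | hx
  · exact congrArg Subtype.val e1
  · exact (mem_fixingSubgroup_iff G).1 g.2 x hx

end Cfsg.Agent.S0712
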