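import Cfsg.Statements.S0722
import Cfsg.Agent.PM.B

set_option autoImplicit false
open Cfsg

namespace Cfsg.Agent.S0722

open MulAction PM

/-- In a primitive group `H`, with `N` a minimal normal subgroup and `K` a point stabiliser, `K ⊓ N` is maximal among proper `K`-invariant subgroups of `N`. -/
theorem result {α : Type*} [Finite α] (H : Subgroup (Equiv.Perm α)) [MulAction.IsPreprimitive H α] (N : Subgroup H) [N.Normal] (hN : N ≠ ⊥) (hmin : ∀ M : Subgroup H, M.Normal → M ≤ N → M = ⊥ ∨ M = N) (a : α) (X : Subgroup H) (hX : X ≤ N) (hKX : MulAction.stabilizer H a ⊓ N ≤ X) (hinv : MulAction.stabilizer H a ≤ Subgroup.normalizer (X : Set H)) : X = MulAction.stabilizer H a ⊓ N ∨ X = N := by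
  haveI : Nontrivial α := by
    obtain ⟨n, hn⟩ := (Subgroup.ne_bot_iff_exists_ne_one).1 hN
    obtain ⟨x, hx⟩ := exists_move (α := α) (g := (n : H)) fun e => hn (Subtype.ext e)
    exact ⟨_, _, hx⟩
  have hc := IsPreprimitive.isCoatom_stabilizer_of_isPreprimitive H a
  by_cases h : X ≤ stabilizer H a
  · exact Or.inl (le_antisymm (le_inf h hX) hKX)
  right
  have ht : X ⊔ stabilizer H a = ⊤ := hc.2 _ (right_lt_sup.2 h)
  have hn : X.Normal := by
    rw [← Subgroup.normalizer_eq_top_iff, eq_top_iff, ← ht]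
    exact sup_le Subgroup.le_normalizer hinv
  exact (hmin X hn hX).resolve_left fun e => h (e ▸ bot_le)

end Cfsg.Agent.S0722
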