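import Cfsg.Statements.S0723
import Cfsg.Agent.H9.ONS
import Cfsg.Agent.S0721

set_option autoImplicit false
open Cfsg

namespace Cfsg.Agent.S0723

/-- The core of the O'Nan–Scott Theorem. Let `H` be a primitive permutation group on a finite set whose unique minimal normal subgroup `N` is non-abelian, and `K` a point stabiliser. Then there are a non-abelian simple group `T` and an isomorphism `N ≃* T^m` (`m ≥ 1`) under which `K ⊓ N` becomes either a product `∏ K_i` of proper subgroups `K_i < T`, or the set of functions constant on each block of a partition of the index set into blocks of one common size `k ≥ 2`. -/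
theorem result {α : Type*} [Finite α] (H : Subgroup (Equiv.Perm α)) [MulAction.IsPreprimitive H α] (N : Subgroup H) [N.Normal] (hN : N ≠ ⊥) (hmin : ∀ M : Subgroup H, M.Normal → M ≤ N → M = ⊥ ∨ M = N) (huniq : ∀ L : Subgroup H, L.Normal → L ≠ ⊥ → (∀ M : Subgroup H, M.Normal → M ≤ L → M = ⊥ ∨ M = L) → L = N) (hnab : ¬ IsMulCommutative N) (a : α) : ∃ (T : Type) (_ : Group T) (m : ℕ) (e : N ≃* (Fin m → T)), IsSimpleGroup T ∧ ¬ IsMulCommutative T ∧ 0 < m ∧ ((∃ K : Fin m → Subgroup T, (∀ i, K i ≠ ⊤) ∧ ∀ n : N, (n : H) ∈ MulAction.stabilizer H a ↔ ∀ i, e n i ∈ K i) ∨ (∃ (k : ℕ) (c : Fin m → Fin m), 2 ≤ k ∧ (∀ j : Fin m, Nat.card {i : Fin m // c i = j} = k ∨ Nat.card {i : Fin m // c i = j} = 0) ∧ ∀ n : N, (n : H) ∈ MulAction.stabilizer H a ↔ ∀ i j : Fin m, c i = c j → e n i = e n j)) := by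
  open H9 Subgroup in open scoped commutatorElement in
  classical
  obtain ⟨T, _, m, hT, hm, ⟨e⟩⟩ := Cfsg.Agent.S0721.result N hN hmin
  have hTc : ¬ IsMulCommutative T := fun h => hnab ⟨⟨fun x y => e.injective (by
    rw [map_mul, map_mul]; ext i; exact h.is_comm.comm _ _)⟩⟩
  have hfix : ¬ ∀ n ∈ N, ∀ b : α, n • b = b := fun h => hN (eq_bot_iff.mpr fun n hn =>
    Subtype.ext (Equiv.ext fun b => h n hn b))
  have htr : MulAction.IsPretransitive N α := MulAction.IsQuasiPreprimitive.isPretransitive_of_normal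
    fun h => hfix fun n hn b => by
      have : b ∈ MulAction.fixedPoints N α := h ▸ Set.mem_univ _
      exact this ⟨n, hn⟩
  let φ : H → MulAut (Fin m → T) := fun h => e.symm.trans ((MulAut.conjNormal h).trans e)
  have hφ : ∀ h (n : N), φ h (e n) = e (MulAut.conjNormal h n) := fun h n => by
    show e (MulAut.conjNormal h (e.symm (e n))) = _
    rw [e.symm_apply_apply]
  let K := MulAction.stabilizer H a
  let R : Subgroup (Fin m → T) := (K.subgroupOf N).map e.toMonoidHom
  have hR : ∀ n : N, e n ∈ R ↔ (n : H) ∈ K := fun n =>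
    ⟨fun ⟨_, h, h'⟩ => e.injective h' ▸ h, fun h => ⟨n, h, rfl⟩⟩
  have dec : ∀ h : H, ∃ n : N, ∃ k ∈ K, h = n * k := fun h => by
    obtain ⟨n, hn⟩ := htr.exists_smul_eq a (h • a)
    exact ⟨n, (n : H)⁻¹ * h, by
      rw [MulAction.mem_stabilizer_iff, mul_smul, inv_smul_eq_iff]; exact hn.symm, by group⟩
  have hNK : ¬ N ≤ K := fun h => hfix fun n hn b => by
    obtain ⟨g, rfl⟩ := htr.exists_smul_eq a b
    have : ((g : H)⁻¹ * n * g) • a = a := h (N.mul_mem (N.mul_mem (N.inv_mem g.2) hn) g.2)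
    rw [mul_smul, mul_smul, inv_smul_eq_iff] at this
    exact this
  haveI : Nontrivial α := by
    by_contra h
    rw [not_nontrivial_iff_subsingleton] at h
    exact hfix fun n _ b => Subsingleton.elim _ _
  have hco : IsCoatom K := MulAction.IsPreprimitive.isCoatom_stabilizer_of_isPreprimitive H a
  rcases H9.ONS.core hTc (fun k : K => φ k) R
    (fun h => hNK fun n hn => (hR ⟨n, hn⟩).mp (h ▸ Subgroup.mem_top _))
    (fun k x => by
      obtain ⟨n, rfl⟩ := e.surjective x
      rw [hφ, hR, hR]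
      show (k : H) * n * (k : H)⁻¹ ∈ K ↔ _
      rw [K.mul_mem_cancel_right (K.inv_mem k.2), K.mul_mem_cancel_left k.2])
    (fun S hRS hS => by
      let L : Subgroup H :=
        { carrier := {h | ∃ n : N, e n ∈ S ∧ ∃ k ∈ K, h = n * k}
          one_mem' := ⟨1, by rw [map_one]; exact S.one_mem, 1, K.one_mem, by simp⟩
          mul_mem' := by
            rintro _ _ ⟨n, hn, k, hk, rfl⟩ ⟨n', hn', k', hk', rfl⟩
            refine ⟨n * MulAut.conjNormal k n', ?_, k * k', K.mul_mem hk hk', ?_⟩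
            · rw [map_mul, ← hφ]; exact S.mul_mem hn (hS ⟨k, hk⟩ _ hn')
            · show _ = (n : H) * (k * n' * k⁻¹) * (k * k'); group
          inv_mem' := by
            rintro _ ⟨n, hn, k, hk, rfl⟩
            refine ⟨MulAut.conjNormal k⁻¹ n⁻¹, ?_, k⁻¹, K.inv_mem hk, ?_⟩
            · rw [← hφ, map_inv]; exact hS ⟨k⁻¹, K.inv_mem hk⟩ _ (S.inv_mem hn)
            · show _ = k⁻¹ * (n : H)⁻¹ * k⁻¹⁻¹ * k⁻¹; group }
      have hKL : K ≤ L := fun k hk => ⟨1, by rw [map_one]; exact S.one_mem, k, hk, by simp⟩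
      rcases hKL.eq_or_lt with h | h
      · refine Or.inl (le_antisymm (fun x hx => ?_) hRS)
        obtain ⟨n, rfl⟩ := e.surjective x
        rw [hR, h]
        exact ⟨n, hx, 1, K.one_mem, by simp⟩
      · refine Or.inr (eq_top_iff.mpr fun x _ => ?_)
        obtain ⟨n, rfl⟩ := e.surjective x
        have : (n : H) ∈ L := hco.2 L h ▸ Subgroup.mem_top _
        obtain ⟨n', hn', k, hk, e1⟩ := this
        have h2 : e (n'⁻¹ * n) ∈ R := (hR _).mpr (by
          rw [Subgroup.coe_mul, Subgroup.coe_inv, e1, inv_mul_cancel_left]; exact hk)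
        have := S.mul_mem hn' (hRS h2)
        rwa [← map_mul, mul_inv_cancel_left] at this)
    (fun i j => by
      have hcomp : ∀ (g h : H) x, φ (g * h) x = φ g (φ h x) := fun g h x => by
        obtain ⟨n, rfl⟩ := e.surjective x
        rw [hφ, hφ, hφ, map_mul, MulAut.mul_apply]
      let M : Subgroup H :=
        { carrier := {h | ∃ hn : h ∈ N, ∀ l, (¬ ∃ g : H, ∀ x : Fin m → T, x i = 1 → φ g x l = 1) → e ⟨h, hn⟩ l = 1}
          one_mem' := ⟨N.one_mem, fun l _ => congrFun (map_one e) l⟩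
          mul_mem' := by
            rintro x y ⟨hx, h1⟩ ⟨hy, h2⟩
            refine ⟨N.mul_mem hx hy, fun l hl => ?_⟩
            rw [show (⟨x * y, N.mul_mem hx hy⟩ : N) = ⟨x, hx⟩ * ⟨y, hy⟩ from rfl, map_mul, Pi.mul_apply, h1 l hl,
              h2 l hl, mul_one]
          inv_mem' := by
            rintro x ⟨hx, h1⟩
            refine ⟨N.inv_mem hx, fun l hl => ?_⟩
            rw [show (⟨x⁻¹, N.inv_mem hx⟩ : N) = ⟨x, hx⟩⁻¹ from rfl, map_inv, Pi.inv_apply, h1 l hl, inv_one] }
      have hMn : M.Normal := ⟨by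
        rintro x ⟨hx, h1⟩ g
        refine ⟨Subgroup.Normal.conj_mem inferInstance x hx g, fun l hl => ?_⟩
        obtain ⟨ρ, θ, h2⟩ := H9.ONS.aut_form hTc (φ g)
        rw [show (⟨g * x * g⁻¹, Subgroup.Normal.conj_mem inferInstance x hx g⟩ : N) = MulAut.conjNormal g ⟨x, hx⟩
          from rfl, ← hφ, h2, h1, map_one]
        rintro ⟨g', hg'⟩
        exact hl ⟨g * g', fun y hy => by rw [hcomp, h2, hg' y hy, map_one]⟩⟩
      obtain ⟨t, ht⟩ := exists_ne (1 : T)
      have hsing : ∀ l, (e.symm (Pi.mulSingle l t) : H) ∈ M ↔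
          ∃ g : H, ∀ x : Fin m → T, x i = 1 → φ g x l = 1 := fun l => by
        constructor
        · rintro ⟨hn, h1⟩
          by_contra hl
          have := h1 l hl
          rw [Subtype.coe_eta, e.apply_symm_apply, Pi.mulSingle_eq_same] at this
          exact ht this
        · intro hl
          refine ⟨(e.symm _).2, fun l' hl' => ?_⟩
          rw [Subtype.coe_eta, e.apply_symm_apply, Pi.mulSingle_eq_of_ne]
          rintro rfl
          exact hl' hl
      have hM : M = N := (hmin M hMn fun x hx => hx.1).resolve_left fun h => by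
        have := (hsing i).mpr ⟨1, fun x hx => by
          obtain ⟨n, rfl⟩ := e.surjective x
          rw [hφ, map_one]; exact hx⟩
        rw [h, Subgroup.mem_bot] at this
        have h3 : e.symm (Pi.mulSingle i t) = 1 := Subtype.ext this
        rw [MulEquiv.map_eq_one_iff] at h3
        have h4 := congrFun h3 i
        rw [Pi.mulSingle_eq_same] at h4
        exact ht h4
      obtain ⟨g, hg⟩ := (hsing j).mp (hM.ge (e.symm _).2)
      obtain ⟨n, k, hk, rfl⟩ := dec g
      refine ⟨⟨k, hk⟩, fun x hx => ?_⟩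
      have h5 := hg x hx
      obtain ⟨y, hy⟩ := e.surjective (φ k x)
      rw [hcomp, ← hy, hφ, show MulAut.conjNormal (n : H) y = n * y * n⁻¹ from rfl, map_mul, map_mul, map_inv,
        Pi.mul_apply, Pi.mul_apply, Pi.inv_apply, mul_inv_eq_one, mul_eq_left] at h5
      show φ k x j = 1
      rw [← hy, h5]) with ⟨L, h1, h2⟩ | ⟨β, k, c, h1, h2, h3⟩
  · exact ⟨T, inferInstance, m, e, hT, hTc, hm, Or.inl ⟨L, h1, fun n => by rw [← h2, hR]⟩⟩
  · exact ⟨T, inferInstance, m, e.trans (MulEquiv.piCongrRight β), hT, hTc, hm,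
      Or.inr ⟨k, c, h1, h2, fun n => by rw [← hR, h3]; rfl⟩⟩

end Cfsg.Agent.S0723
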