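import Cfsg.Statements.S0724
import Cfsg.Agent.PM.E

set_option autoImplicit false
open Cfsg

namespace Cfsg.Agent.S0724

open MulAction PM
theorem burn {G α : Type*} [Group G] [Fintype G] [Finite α] [MulAction G α] (P : Polynomial ℤ) :
    (Nat.card G : ℤ) ∣ ∑ g : G, P.eval (Nat.card (fixedBy α g) : ℤ) := by
  classical
  induction P using Polynomial.induction_on' with
  | add p q hp hq => simpa [Finset.sum_add_distrib] using dvd_add hp hq
  | monomial j c =>
    simp only [Polynomial.eval_monomial, ← Finset.mul_sum]
    refine Dvd.dvd.mul_left ?_ _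
    haveI := Fintype.ofFinite α
    haveI := Fintype.ofFinite (orbitRel.Quotient G (Fin j → α))
    have h := sum_card_fixedBy_eq_card_orbits_mul_card_group G (Fin j → α)
    have e : ∀ g : G, Fintype.card (fixedBy (Fin j → α) g) = Nat.card (fixedBy α g) ^ j := fun g => by
      rw [← Nat.card_eq_fintype_card, Nat.card_congr (β := Fin j → fixedBy α g)
        ⟨fun x i => ⟨x.1 i, congrFun x.2 i⟩, fun x => ⟨fun i => x i, funext fun i => (x i).2⟩,
          fun _ => rfl, fun _ => rfl⟩]
      simp [Nat.card_pi]
    simp only [e] at h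
    rw [Nat.card_eq_fintype_card]
    exact_mod_cast (⟨_, h.trans (mul_comm _ _)⟩ : Fintype.card G ∣ ∑ g : G, Nat.card (fixedBy α g) ^ j)

/-- Blichfeldt's Theorem: if a finite set `L` of natural numbers contains the number of fixed points of every non-identity element of a permutation group `G` of degree `n`, then the order of `G` divides `∏ (n - l)` over `l ∈ L`. -/
theorem result {α : Type*} [Fintype α] [DecidableEq α] (G : Subgroup (Equiv.Perm α)) (L : Finset ℕ) (hL : ∀ g ∈ G, g ≠ 1 → Nat.card (MulAction.fixedBy α g) ∈ L) : Nat.card G ∣ ∏ l ∈ L, (Fintype.card α - l) := by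
  classical
  by_cases h : ∃ l ∈ L, Fintype.card α ≤ l
  · obtain ⟨l, hl, h⟩ := h
    rw [Finset.prod_eq_zero hl (by omega)]
    exact dvd_zero _
  push Not at h
  haveI := Fintype.ofFinite G
  have h1 := burn (G := G) (α := α) (∏ l ∈ L, (Polynomial.X - Polynomial.C (l : ℤ)))
  rw [Finset.sum_eq_single 1] at h1
  · rw [← Int.natCast_dvd_natCast]
    convert h1
    rw [Polynomial.eval_prod, Nat.cast_prod]
    refine Finset.prod_congr rfl fun l hl => ?_
    rw [Nat.cast_sub (h l hl).le]
    simp
  · intro g _ hg
    rw [Polynomial.eval_prod]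
    exact Finset.prod_eq_zero (hL g g.2 fun e => hg (Subtype.ext e)) (by rw [Polynomial.eval_sub, Polynomial.eval_X, Polynomial.eval_C]; exact sub_self _)
  · simp

end Cfsg.Agent.S0724
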