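import Cfsg.Statements.S0728
import Cfsg.Agent.H3.Zass4

set_option autoImplicit false
open Cfsg

namespace Cfsg.Agent.S0728

/-- In a sharply triply transitive group of even degree at least 6 (degree `q + 1`, `q` odd), a two-point stabiliser has at most one subgroup of order 3. -/
theorem result {α : Type*} [Fintype α] [DecidableEq α] (heven : Even (Fintype.card α)) (h6 : 6 ≤ Fintype.card α) (G : Subgroup (Equiv.Perm α)) (h3 : MulAction.IsMultiplyPretransitive G α 3) (hsharp : ∀ x : Fin 3 ↪ α, MulAction.stabilizer G x = ⊥) {a b : α} (hab : a ≠ b) (A B : Subgroup G) (hA : A ≤ MulAction.stabilizer G a ⊓ MulAction.stabilizer G b) (hB : B ≤ MulAction.stabilizer G a ⊓ MulAction.stabilizer G b) (hA3 : Nat.card A = 3) (hB3 : Nat.card B = 3) : A = B := by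
  have h := H3.sh3_iff.2 ⟨h3, hsharp⟩
  have := Fact.mk Nat.prime_three
  obtain ⟨c, p, q, -⟩ := H3.exists_notMem3 (by rw [Nat.card_eq_fintype_card]; omega) a b b
  obtain ⟨s, s1, s2, s3⟩ := h.tr hab p.symm q.symm hab.symm q.symm p.symm
  obtain ⟨x, x1, x2⟩ := H9.exists_orderOf_eq_of_dvd hA3.symm.dvd
  obtain ⟨y, y1, y2⟩ := H9.exists_orderOf_eq_of_dvd hB3.symm.dvd
  have k : ∀ (A : Subgroup G) x, x ∈ A → Nat.card A = 3 → orderOf x = 3 → Subgroup.zpowers x = A := fun A x a b c =>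
    H1.eq_of_le_of_card_eq (Subgroup.zpowers_le_of_mem a) (by rw [Nat.card_zpowers, b, c])
  rcases h.three_eq hab p q s1 s2 s3 (hA x1) (hB y1) x2 y2 with e | e
  · rw [← k A x x1 hA3 x2, e, k B y y1 hB3 y2]
  rcases h.three_eq hab p q s1 s2 s3 (hA x1) (inv_mem (hA x1)) x2 (by simpa using x2) with f | f
  · exact absurd (x2 ▸ orderOf_dvd_of_pow_eq_one (show x ^ 2 = 1 by rw [sq]; nth_rw 1 [f]; simp)) (by simp)
  · rw [← k A x x1 hA3 x2, ← k B y y1 hB3 y2, ← e, f, Subgroup.zpowers_inv]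

end Cfsg.Agent.S0728
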