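import Cfsg.Statements.S0729
import Cfsg.Agent.H3.Zass5

set_option autoImplicit false
open Cfsg

namespace Cfsg.Agent.S0729

/-- In a sharply triply transitive group of even degree at least 6, the two-point stabiliser `H = G_{a,b}` has a normal subgroup of index 2 that is normalised by the element `s` interchanging `a, b` and fixing a third point `c`. -/
theorem result {α : Type*} [Fintype α] [DecidableEq α] (heven : Even (Fintype.card α)) (h6 : 6 ≤ Fintype.card α) (G : Subgroup (Equiv.Perm α)) (h3 : MulAction.IsMultiplyPretransitive G α 3) (hsharp : ∀ x : Fin 3 ↪ α, MulAction.stabilizer G x = ⊥) {a b c : α} (hab : a ≠ b) (hac : a ≠ c) (hbc : b ≠ c) (s : G) (hsa : s • a = b) (hsb : s • b = a) (hsc : s • c = c) : ∃ N : Subgroup G, N ≤ MulAction.stabilizer G a ⊓ MulAction.stabilizer G b ∧ (N.subgroupOf (MulAction.stabilizer G a ⊓ MulAction.stabilizer G b)).Normal ∧ N.relIndex (MulAction.stabilizer G a ⊓ MulAction.stabilizer G b) = 2 ∧ ∀ n ∈ N, s * n * s⁻¹ ∈ N := by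
  rw [← Nat.card_eq_fintype_card] at heven h6
  obtain ⟨H, h, e⟩ := (H3.sh3_iff.2 ⟨h3, hsharp⟩).zg (by omega) hab
  obtain ⟨N, p, q, r, -⟩ := h.exists_N e (by have := h.card; rw [Nat.even_iff] at *; omega) hac.symm hbc.symm hsa hsb hsc
  exact ⟨N, p, Subgroup.normal_of_index_eq_two q, q, fun n t => (r n t).symm ▸ inv_mem t⟩

end Cfsg.Agent.S0729
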