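import Cfsg.Statements.S0730
import Cfsg.Agent.H3.Zass5

set_option autoImplicit false
open Cfsg

namespace Cfsg.Agent.S0730

/-- A sharply triply transitive group of degree `p^f + 1`, `p` an odd prime and `f` odd, is isomorphic to the projective general linear group of degree 2 over the field with `p^f` elements (for even `f` there is a second, twisted, group). -/
theorem result {α : Type*} [Fintype α] [DecidableEq α] {p f : ℕ} (hp : p.Prime) (hp2 : p ≠ 2) (hfo : Odd f) (hα : Fintype.card α = p ^ f + 1) (G : Subgroup (Equiv.Perm α)) (h3 : MulAction.IsMultiplyPretransitive G α 3) (hsharp : ∀ x : Fin 3 ↪ α, MulAction.stabilizer G x = ⊥) : ∃ (F : Type) (_ : Field F) (_ : Fintype F), Fintype.card F = p ^ f ∧ Nonempty (G ≃* Matrix.ProjGenLinGroup (Fin 2) F) := by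
  rw [← Nat.card_eq_fintype_card] at hα
  have o := (hp.odd_of_ne_two hp2).pow (n := f)
  have l : 3 ≤ p ^ f := (hp.two_le.lt_of_ne' hp2).trans_le (Nat.le_self_pow hfo.pos.ne' p)
  have : Nontrivial α := Finite.one_lt_card_iff_nontrivial.1 (by omega)
  obtain ⟨a, b, hab⟩ := exists_pair_ne α
  obtain ⟨H, h, e⟩ := (H3.sh3_iff.2 ⟨h3, hsharp⟩).zg (by omega) hab
  have c : Nat.card H = p ^ f := by have := h.card; omega
  have he : Even (Nat.card (H3.St2 G a b)) := by rw [Nat.even_iff]; rw [Nat.odd_iff] at o; omega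
  exact c ▸ h.pgl_of_comm e he fun _ r _ => h.comm_of_odd e he hp c hfo r

end Cfsg.Agent.S0730
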