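import Cfsg.Statements.S0731
import Cfsg.Agent.H3.Zass4

set_option autoImplicit false
open Cfsg

namespace Cfsg.Agent.S0731

/-- A finite Zassenhaus group whose point stabiliser has an abelian regular normal subgroup on the remaining points is sharply triply transitive or isomorphic to `PSL(2, F)` for a finite field `F` of odd characteristic. -/
theorem result {G Ω : Type*} [Group G] [Finite G] [MulAction G Ω] [Finite Ω] (hZ : Cfsg.IsZassenhausGroup G Ω) (x : Ω) (F : Subgroup G) (hFle : F ≤ MulAction.stabilizer G x) (hFn : (F.subgroupOf (MulAction.stabilizer G x)).Normal) (hFab : IsMulCommutative F) (hreg : ∀ y z : Ω, y ≠ x → z ≠ x → ∃! u : F, (u : G) • y = z) : (MulAction.IsMultiplyPretransitive G Ω 3 ∧ ∀ t : Fin 3 ↪ Ω, MulAction.stabilizer G t = ⊥) ∨ ∃ (K : Type) (_ : Field K) (_ : Fintype K), ringChar K ≠ 2 ∧ Nonempty (G ≃* Matrix.ProjectiveSpecialLinearGroup (Fin 2) K) := by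
  obtain ⟨-, -, a, b, hab, -⟩ := hZ.2.2.2.1
  have : Nontrivial Ω := ⟨a, b, hab⟩
  obtain ⟨y, e⟩ := exists_ne x
  have h := H3.ZG.of_reg hZ e.symm hFle hreg
  refine (em _).imp (fun e => H3.sh3_iff.1 (h.sh3 e)) fun n => ?_
  have c : ∀ x ∈ F, ∀ y ∈ F, x * y = y * x := fun _ a _ => H1.comm_of_mem hFab a
  have l := (h.card_cases (((Nat.even_or_odd _).imp h.le_of_even (h.feit' hZ)).elim id fun e => e.resolve_right fun e => e.2.1
    (Subgroup.commutator_eq_bot_iff_le_centralizer.2 fun x e y f => c y f x e))).resolve_left n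
  obtain ⟨K, _, _, k, i⟩ := (Nat.even_or_odd _).elim (h.psl_of_even · n) fun o => h.psl_of_comm o (h.perfect_of_comm hZ o c (Or.inl n)) c
  exact ⟨K, _, ‹_›, fun e => by have := FiniteField.even_card_of_char_two e; omega, i⟩

end Cfsg.Agent.S0731
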