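import Cfsg.Statements.S0733
import Cfsg.Agent.PM.B

set_option autoImplicit false
open Cfsg

namespace Cfsg.Agent.S0733

open MulAction PM

/-- A permutation group of affine type — generated by the translations of a finite vector space `V` over `ZMod p` together with a group `G₀` of linear automorphisms — is primitive on `V` if and only if `G₀` is irreducible on `V`. -/
theorem result {p : ℕ} [Fact p.Prime] {V : Type*} [AddCommGroup V] [Module (ZMod p) V] [Finite V] [Nontrivial V] (G₀ : Subgroup (V ≃ₗ[ZMod p] V)) (G : Subgroup (Equiv.Perm V)) (hG : ∀ σ : Equiv.Perm V, σ ∈ G ↔ ∃ g ∈ G₀, ∃ b : V, ∀ x : V, σ x = (g : V ≃ₗ[ZMod p] V) x + b) : MulAction.IsPreprimitive G V ↔ ∀ W : Submodule (ZMod p) V, (∀ g ∈ G₀, ∀ v ∈ W, (g : V ≃ₗ[ZMod p] V) v ∈ W) → W = ⊥ ∨ W = ⊤ := by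
  have htr : ∀ b : V, ∃ σ : G, ∀ x, σ • x = x + b := fun b =>
    ⟨⟨Equiv.addRight b, (hG _).2 ⟨1, one_mem _, b, fun x => rfl⟩⟩, fun x => rfl⟩
  have hg : ∀ g ∈ G₀, ∃ σ : G, ∀ x, σ • x = g x := fun g hg =>
    ⟨⟨g.toEquiv, (hG _).2 ⟨g, hg, 0, fun x => by simp⟩⟩, fun x => rfl⟩
  constructor
  · intro h W hW
    rcases prim_rel (G := G) (fun x y : V => x - y ∈ W) ⟨fun x => by simp,
      fun h => by simpa using W.neg_mem h, fun h1 h2 => by simpa using W.add_mem h1 h2⟩
      (fun σ x y h => by
        obtain ⟨g, hg, b, e⟩ := (hG σ).1 σ.2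
        change (σ : Equiv.Perm V) x - (σ : Equiv.Perm V) y ∈ W
        rw [e, e, add_sub_add_right_eq_sub, ← map_sub]
        exact hW g hg _ h) with h1 | h1
    · exact Or.inl (eq_bot_iff.2 fun v hv => h1 v 0 (by simpa))
    · exact Or.inr (eq_top_iff.2 fun v _ => by simpa using h1 v 0)
  · intro h
    haveI : IsPretransitive G V := ⟨fun x y => by
      obtain ⟨σ, e⟩ := htr (y - x)
      exact ⟨σ, by rw [e]; simp⟩⟩
    refine prim_of_rel fun r hr hi => ?_
    have ht : ∀ x y b, r x y → r (x + b) (y + b) := fun x y b h => by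
      obtain ⟨σ, e⟩ := htr b
      rw [← e, ← e]; exact hi σ _ _ h
    let A : AddSubgroup V :=
      { carrier := {v | r v 0}
        zero_mem' := hr.refl 0
        add_mem' := fun {a b} ha hb => hr.trans (by simpa using ht _ _ b ha) hb
        neg_mem' := fun {a} ha => hr.symm (by simpa using ht _ _ (-a) ha) }
    rcases h (AddSubgroup.toZModSubmodule p A) (fun g hg' v hv => by
      obtain ⟨σ, e⟩ := hg g hg'
      have := hi σ _ _ (show r v 0 from hv)
      rw [e, e, map_zero] at this
      exact this) with h1 | h1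
    · left
      intro x y hxy
      have : x - y ∈ AddSubgroup.toZModSubmodule p A := by
        change r (x - y) 0
        simpa [sub_eq_add_neg] using ht _ _ (-y) hxy
      rw [h1, Submodule.mem_bot, sub_eq_zero] at this
      exact this
    · right
      intro x y
      have : x - y ∈ AddSubgroup.toZModSubmodule p A := h1 ▸ Submodule.mem_top
      simpa using ht _ _ y (show r (x - y) 0 from this)

end Cfsg.Agent.S0733
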