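import Cfsg.Statements.S0734
import Cfsg.Agent.PM.B

set_option autoImplicit false
open Cfsg

namespace Cfsg.Agent.S0734

open MulAction PM

/-- Higman's criterion for primitivity: a transitive action on a finite set is primitive if and only if every non-trivial orbital graph (edges = images of a fixed pair of distinct points) is connected. -/
theorem result {G : Type*} [Group G] {Ω : Type*} [Finite Ω] [MulAction G Ω] [MulAction.IsPretransitive G Ω] [Nontrivial Ω] : MulAction.IsPreprimitive G Ω ↔ ∀ a b : Ω, a ≠ b → (SimpleGraph.fromRel fun x y : Ω => ∃ g : G, g • a = x ∧ g • b = y).Connected := by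
  constructor
  · intro h a b hab
    rcases prim_rel (G := G) (SimpleGraph.fromRel fun x y : Ω => ∃ g : G, g • a = x ∧ g • b = y).Reachable
      (SimpleGraph.reachable_is_equivalence _) (fun g x y hr => by
        let φ : (SimpleGraph.fromRel fun x y : Ω => ∃ g : G, g • a = x ∧ g • b = y) →g
            (SimpleGraph.fromRel fun x y : Ω => ∃ g : G, g • a = x ∧ g • b = y) :=
          ⟨fun x => g • x, fun {x y} h => by
            rw [SimpleGraph.fromRel_adj] at h ⊢
            refine ⟨fun e => h.1 (MulAction.injective g e), ?_⟩
            rcases h.2 with ⟨u, rfl, rfl⟩ | ⟨u, rfl, rfl⟩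
            · exact Or.inl ⟨g * u, mul_smul _ _ _, mul_smul _ _ _⟩
            · exact Or.inr ⟨g * u, mul_smul _ _ _, mul_smul _ _ _⟩⟩
        exact hr.map φ) with h1 | h1
    · exact absurd (h1 a b (SimpleGraph.Adj.reachable (by
        rw [SimpleGraph.fromRel_adj]; exact ⟨hab, Or.inl ⟨1, by simp, by simp⟩⟩))) hab
    · exact ⟨h1⟩
  · intro h
    refine prim_of_rel fun r hr hi => ?_
    by_cases h1 : ∀ x y, r x y → x = y
    · exact Or.inl h1
    push Not at h1
    obtain ⟨a, b, hab, hne⟩ := h1
    right
    intro x y
    have := (h a b hne).preconnected x y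
    rw [SimpleGraph.reachable_iff_reflTransGen] at this
    induction this with
    | refl => exact hr.refl _
    | tail _ h2 ih =>
      rw [SimpleGraph.fromRel_adj] at h2
      refine hr.trans ih ?_
      rcases h2.2 with ⟨u, rfl, rfl⟩ | ⟨u, rfl, rfl⟩
      · exact hi u _ _ hab
      · exact hr.symm (hi u _ _ hab)

end Cfsg.Agent.S0734
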