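import Cfsg.Statements.S0735
import Cfsg.Agent.PM.E

set_option autoImplicit false
open Cfsg

namespace Cfsg.Agent.S0735

open MulAction PM
open scoped Pointwise

/-- A 2-homogeneous permutation group (transitive on 2-subsets) of even order is doubly transitive; a non-trivial 2-homogeneous group is primitive. -/
theorem result {α : Type*} [Fintype α] [DecidableEq α] (G : Subgroup (Equiv.Perm α)) (h2 : MulAction.IsPretransitive G (Set.powersetCard α 2)) (hα : 3 ≤ Fintype.card α) : (Even (Nat.card G) → MulAction.IsMultiplyPretransitive G α 2) ∧ (G ≠ ⊥ → MulAction.IsPreprimitive G α) := by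
  have hh : ∀ a b c d : α, a ≠ b → c ≠ d → ∃ g : G, (g • a = c ∧ g • b = d) ∨ (g • a = d ∧ g • b = c) := by
    intro a b c d hab hcd
    obtain ⟨g, e⟩ := hom_iff.1 h2 {a, b} {c, d} (Finset.card_pair hab) (Finset.card_pair hcd)
    refine ⟨g, ?_⟩
    rw [Finset.smul_finset_insert, Finset.smul_finset_singleton] at e
    have := congrArg (fun s : Finset α => (s : Set α)) e
    simpa [Set.pair_eq_pair_iff] using this
  constructor
  · intro he
    obtain ⟨t, ht⟩ := exists_prime_orderOf_dvd_card' (G := G) 2 he.two_dvd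
    have t1 : t ≠ 1 := by rintro rfl; simp at ht
    obtain ⟨x, hx⟩ := exists_move (α := α) t1
    have tt : t • t • x = x := by rw [← mul_smul, ← sq, ← ht, pow_orderOf_eq_one, one_smul]
    refine two_iff.2 fun a b c d hab hcd => ?_
    obtain ⟨g, h | h⟩ := hh a b c d hab hcd
    · exact ⟨g, h⟩
    obtain ⟨u, hu | hu⟩ := hh x (t • x) c d hx.symm hcd
    · exact ⟨u * t * u⁻¹ * g, by simp [mul_smul, h, ← hu.2, tt, hu.1], by simp [mul_smul, h, ← hu.1, hu.2]⟩
    · exact ⟨u * t * u⁻¹ * g, by simp [mul_smul, h, ← hu.1, hu.2], by simp [mul_smul, h, ← hu.2, tt, hu.1]⟩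
  · intro h0
    have key : ∀ (r : α → α → Prop), Equivalence r →
        (∀ (g : G) x y, r x y → r (g • x) (g • y)) → (∀ x y, r x y → x = y) ∨ ∀ x y, r x y := by
      intro r hr hi
      by_cases h1 : ∀ x y, r x y → x = y
      · exact Or.inl h1
      push Not at h1
      obtain ⟨a, b, hab, hne⟩ := h1
      refine Or.inr fun x y => ?_
      by_cases hxy : x = y
      · exact hxy ▸ hr.refl x
      obtain ⟨g, ⟨rfl, rfl⟩ | ⟨rfl, rfl⟩⟩ := hh a b x y hne hxy
      · exact hi g _ _ hab
      · exact hr.symm (hi g _ _ hab)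
    haveI : IsPretransitive G α := by
      rcases key (fun x y => ∃ g : G, g • x = y) ⟨fun x => ⟨1, one_smul _ _⟩,
        fun ⟨g, e⟩ => ⟨g⁻¹, by rw [← e, inv_smul_smul]⟩,
        fun ⟨g, e⟩ ⟨u, e'⟩ => ⟨u * g, by rw [mul_smul, e, e']⟩⟩
        (fun g x y ⟨u, e⟩ => ⟨g * u * g⁻¹, by simp [mul_smul, e]⟩) with h | h
      · obtain ⟨n, hn⟩ := (Subgroup.ne_bot_iff_exists_ne_one).1 h0
        obtain ⟨x, hx⟩ := exists_move (α := α) hn
        exact absurd (h _ _ ⟨n, rfl⟩).symm hx
      · exact ⟨h⟩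
    exact prim_of_rel key

end Cfsg.Agent.S0735
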