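import Cfsg.Statements.S0737
import Cfsg.Agent.S0735
import Cfsg.Agent.S3360
import Cfsg.Agent.H9.QP
import Cfsg.Agent.H1.Lin3
import Cfsg.Agent.FT.Final
import Cfsg.Agent.PM.C
import Cfsg.Agent.PM.D
import Mathlib.FieldTheory.Finite.GaloisField

set_option autoImplicit false
open Cfsg

namespace Cfsg.Agent.S0737

section
open H9 Subgroup
open scoped commutatorElement
open MulAction in
theorem affine {G α : Type*} [Group G] [Finite G] [MulAction G α] [FaithfulSMul G α] [Nontrivial α]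
    (hs : Group.IsSolvable G) {N : Subgroup G} [N.Normal] {p : ℕ} [Fact p.Prime] (hE : IsElementaryAbelian p N)
    (ht : IsPretransitive N α)
    (hh : ∀ a b c d : α, a ≠ b → c ≠ d → ∃ g : G, (g • a = c ∧ g • b = d) ∨ (g • a = d ∧ g • b = c)) :
    (∃ (F : Type) (_ : Field F) (_ : Fintype F) (e : α ≃ F), (∀ g : G, ∃ (a : Fˣ) (b : F) (σ : F ≃+* F),
      ∀ x, e (g • x) = a * σ (e x) + b) ∧ ∀ b, ∃ g : G, ∀ x, e (g • x) = e x + b) ∨
      Nat.card α ∈ ({9, 25, 49, 121, 529, 81} : Set ℕ) := by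
  obtain ⟨a, a', ha⟩ := exists_pair_ne α
  have hc : ∀ m ∈ N, ∀ n ∈ N, n * m = m * n := fun m hm n hn =>
    congrArg Subtype.val (hE.1.1.1 ⟨n, hn⟩ ⟨m, hm⟩)
  have hr : stabilizer N a = ⊥ := PM.sub_stab_bot.2 fun n hn e => PM.eq_one_of_comm ht (hc n hn) e
  let _ : CommGroup N := { (inferInstance : Group N) with mul_comm := hE.1.1.1 }
  obtain ⟨_, ρ, hρ⟩ := exists_zmod_rep (p := p) (M := N) (fun v => Subtype.ext (hE.2 v v.2)) (MulAut.conjNormal (H := N))
  replace hρ : ∀ (x : G) (v : Additive N), ((ρ x v).toMul : G) = x * v.toMul * x⁻¹ :=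
    fun x v => congrArg Subtype.val (hρ x v)
  let τ : G →* (Additive N ≃ₗ[ZMod p] Additive N) :=
    (LinearMap.GeneralLinearGroup.generalLinearEquiv (ZMod p) (Additive N)).toMonoidHom.comp ρ.toHomUnits
  have hτ : ∀ x v, τ x v = ρ x v := fun _ _ => rfl
  let ν : ℤˣ →* (Additive N ≃ₗ[ZMod p] Additive N) := DistribMulAction.toModuleAut (ZMod p) (Additive N)
  have hν : ∀ u v, ν u v = u • v := fun _ _ => rfl
  let ψ : G × ℤˣ →* (Additive N ≃ₗ[ZMod p] Additive N) := τ.noncommCoprod ν fun x u => LinearEquiv.ext fun v => by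
    show τ x (ν u v) = ν u (τ x v)
    rw [hν, hν, Units.smul_def, Units.smul_def, map_zsmul]
  have hψ : ∀ x u v, ψ (x, u) v = ρ x (u • v) := fun _ _ _ => rfl
  let ε : Additive N ≃ α := Equiv.ofBijective (fun v => (v.toMul : G) • a)
    ⟨fun v w e => Additive.toMul.injective (Subtype.ext (PM.reg_eq hr v.toMul.2 w.toMul.2 e)),
      fun x => let ⟨n, e⟩ := ht.exists_smul_eq a x; ⟨Additive.ofMul n, e⟩⟩
  have hε : ∀ v, ε v = (v.toMul : G) • a := fun _ => rfl
  have h0 : ε 0 = a := one_smul G a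
  have h1 : ∀ (g : G) v, g • ε v = ε (ρ g v + ε.symm (g • a)) := fun g v => by
    rw [hε, hε, toMul_add, coe_mul, mul_smul, ← hε (ε.symm _), Equiv.apply_symm_apply, hρ]
    simp [mul_smul]
  have : Nontrivial (Additive N) := ε.nontrivial
  have : Finite ψ.range := .of_surjective _ ψ.rangeRestrict_surjective
  have hs' : Group.IsSolvable ψ.range := Group.isSolvable_of_surjective ψ.rangeRestrict_surjective
  rcases Cfsg.Agent.S3360.result p hs' ψ.range.subtype Subtype.val_injective (fun v w hv hw => by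
    obtain ⟨g, ⟨e1, e2⟩ | ⟨e1, e2⟩⟩ := hh (ε 0) (ε v) (ε 0) (ε w) (ε.injective.ne hv.symm) (ε.injective.ne hw.symm)
    · rw [h1, ← h0, e1, Equiv.symm_apply_apply, add_zero] at e2
      exact ⟨⟨ψ (g, 1), _, rfl⟩, by simpa [hψ] using e2⟩
    · rw [h1, ← h0, e1, Equiv.symm_apply_apply] at e2
      refine ⟨⟨ψ (g, -1), _, rfl⟩, ?_⟩
      simpa [hψ, neg_eq_iff_add_eq_zero] using e2) with ⟨F, _, _, e, he⟩ | h
  · refine Or.inl ⟨F, inferInstance, inferInstance, ε.symm.trans e.toEquiv, fun g => ?_, fun b => ?_⟩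
    · obtain ⟨c, σ, hσ⟩ := he ⟨ψ (g, 1), _, rfl⟩
      replace hσ : ∀ v, e (ρ g v) = c * σ (e v) := fun v => by simpa [hψ] using hσ v
      have c0 : c ≠ 0 := by
        rintro rfl
        obtain ⟨v, hv⟩ := exists_ne (0 : Additive N)
        exact hv ((τ g).map_eq_zero_iff.1 (by simpa [hτ] using hσ v))
      refine ⟨Units.mk0 c c0, e (ε.symm (g • a)), σ, fun x => ?_⟩
      obtain ⟨v, rfl⟩ := ε.surjective x
      simp [h1, hσ]
    · refine ⟨(e.symm b).toMul, fun x => ?_⟩
      obtain ⟨v, rfl⟩ := ε.surjective x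
      rw [hε v, ← mul_smul, ← coe_mul, ← toMul_add, ← hε, ← hε]
      simp [add_comm]
  · exact Or.inr (Nat.card_congr ε ▸ h)
end

/-- A non-trivial 2-homogeneous permutation group that is not doubly transitive has odd order and degree `p^f ≡ 3 (mod 4)`, and is permutation-isomorphic to a group of semi-affine transformations `x ↦ a φ(x) + b` of the field with `p^f` elements containing all translations. -/
theorem result {α : Type*} [Fintype α] [DecidableEq α] (G : Subgroup (Equiv.Perm α)) (hne : G ≠ ⊥) (h2 : MulAction.IsPretransitive G (Set.powersetCard α 2)) (hn2 : ¬ MulAction.IsMultiplyPretransitive G α 2) : Odd (Nat.card G) ∧ ∃ (p f : ℕ) (_ : Fact p.Prime), p ≠ 2 ∧ Fintype.card α = p ^ f ∧ p ^ f % 4 = 3 ∧ ∃ e : α ≃ GaloisField p f, (∀ g : G, e.symm.trans (((g : Equiv.Perm α)).trans e) ∈ Cfsg.semiaffineGroup (GaloisField p f)) ∧ ∀ b : GaloisField p f, ∃ g : G, ∀ x : α, e ((g : Equiv.Perm α) x) = e x + b := by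
  open H9 Subgroup in open scoped commutatorElement in
  have hh : ∀ a b c d : α, a ≠ b → c ≠ d → ∃ g : G, (g • a = c ∧ g • b = d) ∨ (g • a = d ∧ g • b = c) := by
    intro a b c d hab hcd
    obtain ⟨g, e⟩ := PM.hom_iff.1 h2 {a, b} {c, d} (Finset.card_pair hab) (Finset.card_pair hcd)
    refine ⟨g, ?_⟩
    rw [Finset.smul_finset_insert, Finset.smul_finset_singleton] at e
    have := congrArg (fun s : Finset α => (s : Set α)) e
    simpa [Set.pair_eq_pair_iff] using this
  have h3 : 3 ≤ Fintype.card α := by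
    by_contra h
    have k : ∀ a b c : α, a ≠ b → a ≠ c → b = c := fun a b c h1 h2 =>
      by_contra fun h3 => h (Fintype.two_lt_card_iff.2 ⟨a, b, c, h1, h2, h3⟩)
    obtain ⟨t, ht⟩ := (Subgroup.ne_bot_iff_exists_ne_one).1 hne
    obtain ⟨x, hx⟩ := PM.exists_move (α := α) ht
    have k2 : ∀ y, t • y ≠ y := fun y e => by
      by_cases h1 : y = x
      · exact hx (h1 ▸ e)
      · exact hx (k y _ _ (fun e' => h1 (smul_left_cancel t (e.trans e'))) h1)
    refine hn2 (PM.two_iff.2 fun a b c d hab hcd => ?_)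
    obtain ⟨g, h | h⟩ := hh a b c d hab hcd
    · exact ⟨g, h⟩
    · exact ⟨t * g, by rw [mul_smul, h.1]; exact k d _ _ (k2 d).symm hcd.symm,
        by rw [mul_smul, h.2]; exact k c _ _ (k2 c).symm hcd⟩
  obtain ⟨r1, r2⟩ := Cfsg.Agent.S0735.result G h2 h3
  have ho : Odd (Nat.card G) := Nat.not_even_iff_odd.1 fun h => hn2 (r1 h)
  have hs := FT.feit_thompson G ho
  have := r2 hne
  have : Nontrivial G := (nontrivial_iff_ne_bot G).2 hne
  obtain ⟨N, -, n1, n2, p, hp, hE⟩ := H1.exists_elem_normal (A := (⊤ : Subgroup G)) (M := ⊤)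
    (by rw [normalizer_eq_top]) inferInstance top_ne_bot
  have : Fact p.Prime := ⟨hp⟩
  have : N.Normal := normalizer_eq_top_iff.1 (top_le_iff.1 (le_sup_left.trans n2))
  have ht : MulAction.IsPretransitive N α := PM.tr_iff.2 (PM.normal_tr' N n1)
  have : Nontrivial α := Fintype.one_lt_card_iff_nontrivial.1 (by omega)
  obtain ⟨a⟩ : Nonempty α := inferInstance
  have hr : MulAction.stabilizer N a = ⊥ := PM.sub_stab_bot.2 fun n hn e => PM.eq_one_of_comm ht
    (fun m hm => congrArg Subtype.val (hE.1.1.1 ⟨m, hm⟩ ⟨n, hn⟩)) e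
  obtain ⟨f, hf⟩ := PM.card_of_pow (N := N) hp fun n => Subtype.ext (hE.2 n n.2)
  have hN := PM.card_reg ht a hr
  rw [hf, Nat.card_eq_fintype_card] at hN
  have f0 : f ≠ 0 := by rintro rfl; simp at hN; omega
  have o1 : Odd (Fintype.card α) := hN ▸ hf ▸ ho.of_dvd_nat (card_subgroup_dvd_card N)
  have h4 : Fintype.card α % 4 = 3 := by
    obtain ⟨b, hb⟩ := exists_ne a
    have o2 := ho.of_dvd_nat (Dvd.intro _ (PM.card_mul_stab (G := G) (⟨{b, a}, Finset.card_pair hb⟩ : Set.powersetCard α 2)))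
    rw [Set.powersetCard.card, Nat.card_eq_fintype_card, Nat.choose_two_right] at o2
    obtain ⟨k, hk⟩ := o1
    rw [hk, Nat.add_sub_cancel, mul_left_comm, Nat.mul_div_cancel_left _ two_pos] at o2
    obtain ⟨l, rfl⟩ := (Nat.odd_mul.1 o2).2
    omega
  refine ⟨ho, p, f, ⟨hp⟩, fun h => ?_, hN.symm, hN ▸ h4, ?_⟩
  · rw [← hN, h, Nat.odd_pow_iff f0] at o1
    exact absurd o1 (by decide)
  rcases affine hs hE ht hh with ⟨F, _, _, e, h1, h2⟩ | h
  · have := Fintype.ofFinite (GaloisField p f)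
    let φ : F ≃+* GaloisField p f := FiniteField.ringEquivOfCardEq (by
      rw [← Fintype.card_congr e, ← hN, ← Nat.card_eq_fintype_card, GaloisField.card p f f0])
    refine ⟨e.trans φ.toEquiv, fun g => ?_, fun b => ?_⟩
    · obtain ⟨c, b, σ, h⟩ := h1 g
      refine ⟨Units.map (φ : F →* GaloisField p f) c, φ b, φ.symm.trans (σ.trans φ), fun x => ?_⟩
      have := congrArg φ (h (e.symm (φ.symm x)))
      simpa [Subgroup.smul_def] using this
    · obtain ⟨g, h⟩ := h2 (φ.symm b)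
      exact ⟨g, fun x => by simpa [Subgroup.smul_def] using congrArg φ (h x)⟩
  · rw [Nat.card_eq_fintype_card] at h
    simp only [Set.mem_insert_iff, Set.mem_singleton_iff] at h
    omega

end Cfsg.Agent.S0737
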