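import Cfsg.Statements.S0739
import Cfsg.Agent.H3.Zass4

set_option autoImplicit false
open Cfsg

namespace Cfsg.Agent.S0739

/-- In a finite Zassenhaus group whose two-point stabiliser `H = G_{a,b}` has odd order `d`, and which has no normal `q`-complement for any prime `q ∣ d`, `H` is cyclic, `C_G(H) = H`, and every element swapping `a` and `b` inverts each element of `H`. -/
theorem result {G Ω : Type*} [Group G] [Finite G] [MulAction G Ω] [Fintype Ω] (hZ : Cfsg.IsZassenhausGroup G Ω) {a b : Ω} (hab : a ≠ b) (hodd : Odd (Nat.card ↥(MulAction.stabilizer G a ⊓ MulAction.stabilizer G b))) (hnil : ∀ q : ℕ, q.Prime → q ∣ Nat.card ↥(MulAction.stabilizer G a ⊓ MulAction.stabilizer G b) → ¬ ∃ N : Subgroup G, N.Normal ∧ N.index = q ^ (Nat.card G).factorization q) : IsCyclic ↥(MulAction.stabilizer G a ⊓ MulAction.stabilizer G b) ∧ Subgroup.centralizer ((MulAction.stabilizer G a ⊓ MulAction.stabilizer G b : Subgroup G) : Set G) = MulAction.stabilizer G a ⊓ MulAction.stabilizer G b ∧ ∀ s : G, s • a = b → s • b = a → ∀ h ∈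 MulAction.stabilizer G a ⊓ MulAction.stabilizer G b, s * h * s⁻¹ = h⁻¹ := by
  obtain ⟨H, h⟩ := H3.exists_ZG hZ hab
  have hp : commutator G = ⊤ := by
    obtain ⟨L, n, HL, p, q⟩ := h.exists_perfect hZ
    have l : L ≤ commutator G := by
      rw [← L.range_subtype, MonoidHom.range_eq_map, ← p, Subgroup.map_subtype_commutator]
      exact Subgroup.commutator_mono le_top le_top
    have t : H3.St2 G a b ⊔ commutator G = ⊤ := eq_top_iff.2 fun g _ => by
      obtain ⟨x, x1, x2⟩ := q.two hab (show g • a ≠ g • b from (MulAction.injective g).ne hab)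
      rw [← mul_inv_cancel_left (x : G) g]
      exact mul_mem (Subgroup.mem_sup_right (l x.2)) (Subgroup.mem_sup_left
        ⟨by simp [mul_smul, ← x1, Subgroup.smul_def], by simp [mul_smul, ← x2, Subgroup.smul_def]⟩)
    by_contra e
    obtain ⟨r, r1, r2⟩ := Nat.exists_prime_and_dvd (mt Subgroup.index_eq_one.1 e)
    have := Fact.mk r1
    have r3 : r ∣ Nat.card (H3.St2 G a b) := r2.trans (by
      rw [← Subgroup.relIndex_top_right, ← t, Subgroup.relIndex_sup_right]; exact Subgroup.relIndex_dvd_card _ _)
    have z := FT.t3_9 (inf_le_left.trans h.norm) h.fpf h.ntH hodd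
    obtain ⟨P⟩ : Nonempty (Sylow r (H3.St2 G a b)) := inferInstance
    have i : ¬ r ∣ ((P : Subgroup (H3.St2 G a b)).map (Subgroup.subtype _)).index := by
      rw [Subgroup.index_map_subtype]
      exact fun d => (r1.dvd_mul.1 d).elim P.not_dvd_index fun d => r1.one_lt.ne' (Nat.eq_one_of_dvd_coprimes (h.cop hodd) r3 d)
    let S := (P.2.map _).toSylow i
    have : IsCyclic P := IsZGroup.isZGroup r r1 P
    have : IsCyclic S := show IsCyclic ((P : Subgroup (H3.St2 G a b)).map (Subgroup.subtype _)) from
      ((P : Subgroup (H3.St2 G a b)).equivMapOfInjective _ (Subgroup.subtype_injective _)).isCyclic.1 this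
    refine S.normalizer_le_centralizer_or_le_commutator.elim (fun d => hnil r r1 r3 ⟨_, inferInstance,
      (MonoidHom.ker_transferSylow_isComplement' S d).symm.index_eq_card.trans S.card_eq_multiplicity⟩)
      fun d => S.not_dvd_index (r2.trans (Subgroup.index_dvd_of_le d))
  refine ⟨h.cyc hodd hp, le_antisymm (fun g e => ?_) fun g e x f => h.comm hodd hp f e, fun s p q x => h.inverts hodd hp p q⟩
  refine (h.mem_norm.1 (Subgroup.centralizer_le_normalizer _ e)).resolve_right fun f => h.nt (eq_bot_iff.2 fun x k => ?_)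
  exact h.eq_one_of_swap hodd hp f.1 f.2 k (e x k).symm

end Cfsg.Agent.S0739
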