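import Cfsg.Statements.S0740
import Cfsg.Agent.H3.Zass4

set_option autoImplicit false
open Cfsg

namespace Cfsg.Agent.S0740

/-- In a finite Zassenhaus group any two points `a ≠ b` are swapped by an involution; every such involution has exactly one fixed point when the degree is odd and 0 or 2 fixed points when the degree is even; and if the two-point stabiliser has even order, some such involution has exactly 2 fixed points. -/
theorem result {G Ω : Type*} [Group G] [Finite G] [MulAction G Ω] [Fintype Ω] (hZ : Cfsg.IsZassenhausGroup G Ω) {a b : Ω} (hab : a ≠ b) : (∃ s : G, orderOf s = 2 ∧ s • a = b ∧ s • b = a) ∧ (∀ s : G, orderOf s = 2 → s • a = b → s • b = a → (Odd (Fintype.card Ω) → Nat.card (MulAction.fixedBy Ω s) = 1) ∧ (Even (Fintype.card Ω) → Nat.card (MulAction.fixedBy Ω s) = 0 ∨ Nat.card (MulAction.fixedBy Ω s) = 2)) ∧ (Even (Fintype.card Ω) → Even (Nat.card ↥(MulAction.stabilizer G a ⊓ MulAction.stabilizer G b)) → ∃ s : G, orderOf s = 2 ∧ s • a = b ∧ s • b = a ∧ Nat.card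 (MulAction.fixedBy Ω s) = 2) := by
  classical
  obtain ⟨H, h⟩ := H3.exists_ZG hZ hab
  have n : ∀ s : G, s • a = b → s ≠ 1 := fun s e f => hab (by simpa [f] using e)
  have k : ∀ s : G, orderOf s = 2 → Nat.card (MulAction.fixedBy Ω s) ≤ 2 ∧ Fintype.card Ω % 2 = Nat.card (MulAction.fixedBy Ω s) % 2 :=
    fun s o => ⟨by
      by_contra! l
      rw [Nat.card_eq_fintype_card] at l
      obtain ⟨c, d, f, p, q, r⟩ := Fintype.two_lt_card_iff.1 l
      exact H4.ne_one_of_two o (h.three s c d f (Subtype.coe_ne_coe.2 p) (Subtype.coe_ne_coe.2 r) (Subtype.coe_ne_coe.2 q) c.2 d.2 f.2), by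
      have := Fact.mk Nat.prime_two
      rw [Nat.card_eq_fintype_card]
      exact Equiv.Perm.card_fixedPoints_modEq (p := 2) (n := 1) (f := (s • ·)) (funext fun c => by
        change s • s • c = c
        rw [← mul_smul, H4.mul_self_of_two o, one_smul])⟩
  have e : Even (Nat.card (H3.St2 G a b)) → ∃ s : G, orderOf s = 2 ∧ s • a = b ∧ s • b = a ∧ ∃ c : Ω, s • c = c := fun e => by
    obtain ⟨c, p, q, -⟩ := H3.exists_notMem3 (by have := h.card; have := h.lt; have := h.one_lt; omega) a b b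
    obtain ⟨s, s1, s2, s3, s4⟩ := h.exists_fix e p q
    exact ⟨s, H4.orderOf_two_of s1 (n s s2), s2, s3, c, s4⟩
  refine ⟨(Nat.even_or_odd _).elim (fun f => (e f).imp fun _ f => ⟨f.1, f.2.1, f.2.2.1⟩) fun o => ?_, fun s o _ _ => ?_, fun f g => ?_⟩
  · obtain ⟨L, -, -, p, q⟩ := h.exists_perfect hZ
    obtain ⟨w, w1, w2⟩ := q.exists_swap
    exact ⟨w, (Subgroup.orderOf_coe w).trans (q.swap_order (o.of_dvd_nat
      (Subgroup.card_comap_dvd_of_injective (H3.St2 G a b) L.subtype (Subgroup.subtype_injective _))) p w1 w2), w1, w2⟩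
  · have := k s o
    simp only [Nat.odd_iff, Nat.even_iff]; omega
  · obtain ⟨s, o, p, q, c, r⟩ := e g
    have := k s o
    have : Nonempty (MulAction.fixedBy Ω s) := ⟨⟨c, r⟩⟩
    have := Nat.card_pos (α := MulAction.fixedBy Ω s)
    exact ⟨s, o, p, q, by rw [Nat.even_iff] at f; omega⟩

end Cfsg.Agent.S0740
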