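import Cfsg.Statements.S0742
import Cfsg.Agent.H3.Zass4

set_option autoImplicit false
open Cfsg

namespace Cfsg.Agent.S0742

/-- A finite Zassenhaus group of degree `n + 1` with two-point stabilisers of even order `d` satisfying `2d ≤ n - 1` has `n = p^f` for an odd prime `p` and is isomorphic to `PSL(2, p^f)`. -/
theorem result {G Ω : Type*} [Group G] [Finite G] [MulAction G Ω] [Fintype Ω] (hZ : Cfsg.IsZassenhausGroup G Ω) {a b : Ω} (hab : a ≠ b) (heven : Even (Nat.card ↥(MulAction.stabilizer G a ⊓ MulAction.stabilizer G b))) (hd : 2 * Nat.card ↥(MulAction.stabilizer G a ⊓ MulAction.stabilizer G b) ≤ Fintype.card Ω - 2) : ∃ (p f : ℕ) (K : Type) (_ : Field K) (_ : Fintype K), p.Prime ∧ p ≠ 2 ∧ Fintype.card K = p ^ f ∧ Fintype.card Ω = p ^ f + 1 ∧ Nonempty (G ≃* Matrix.ProjectiveSpecialLinearGroup (Fin 2) K) := by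
  obtain ⟨H, h⟩ := H3.exists_ZG hZ hab
  have l := h.one_lt
  rw [← Nat.card_eq_fintype_card, ← h.card] at hd ⊢
  have n : Nat.card H ≠ Nat.card (H3.St2 G a b) + 1 := by unfold H3.St2 at *; omega
  obtain ⟨K, _, _, k, i⟩ := h.psl_of_even heven n
  obtain ⟨-, p, f, a, -, b⟩ := h.elem (h.le_of_even heven)
  refine ⟨p, f, K, _, _, a, ?_, k.trans b, b ▸ rfl, i⟩
  rintro rfl
  have := (h.card_cases (h.le_of_even heven)).resolve_left n
  rw [b] at this
  cases f <;> omega

end Cfsg.Agent.S0742
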