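import Cfsg.Statements.S0744
import Cfsg.Agent.PM.E

set_option autoImplicit false
open Cfsg

namespace Cfsg.Agent.S0744

open MulAction PM

/-- If for some `k > 1` the pointwise stabilisers of all `(k-1)`-subsets have the same order `> 1` and those of all `k`-subsets have the same order, then the group is `(k-1)`-transitive. -/
theorem result {α : Type*} [Fintype α] [DecidableEq α] (G : Subgroup (Equiv.Perm α)) {k : ℕ} (hk : 1 < k) (hkn : k ≤ Fintype.card α) (l m : ℕ) (hl : 1 < l) (hkm1 : ∀ s : Finset α, s.card = k - 1 → Nat.card (fixingSubgroup G (s : Set α)) = l) (hkm : ∀ s : Finset α, s.card = k → Nat.card (fixingSubgroup G (s : Set α)) = m) : MulAction.IsMultiplyPretransitive G α (k - 1) := by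
  have horb : ∀ s : Finset α, s.card = k - 1 → ∀ a, a ∉ s →
      Nat.card (orbit (fixingSubgroup G (s : Set α)) a) * m = l := fun s hs a ha => by
    rw [← hkm1 s hs, ← hkm (insert a s) (by rw [Finset.card_insert_of_notMem ha]; omega), fix_insert]
    exact card_orbit_sub _ a
  have hm : m ≠ l := by
    rintro rfl
    obtain ⟨s, -, hs⟩ := Finset.exists_subset_card_eq (s := (Finset.univ : Finset α)) (n := k - 1)
      (by rw [Finset.card_univ]; omega)
    have : fixingSubgroup G (s : Set α) = ⊥ := by
      rw [eq_bot_iff]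
      intro g hg
      ext a
      by_cases ha : a ∈ s
      · exact (mem_fixingSubgroup_iff G).1 hg a ha
      have h1 : Nat.card (orbit (fixingSubgroup G (s : Set α)) a) = 1 :=
        Nat.eq_of_mul_eq_mul_right (by omega) ((horb s hs a ha).trans (one_mul m).symm)
      have := (Nat.card_eq_one_iff_unique.1 h1).1
      exact congrArg Subtype.val (this.elim (⟨_, mem_orbit a ⟨g, hg⟩⟩ : orbit (fixingSubgroup G (s : Set α)) a) ⟨a, mem_orbit_self a⟩)
    have h2 := hkm1 s hs
    rw [this, Subgroup.card_bot] at h2
    omega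
  obtain ⟨s0, -, hs0⟩ := Finset.exists_subset_card_eq (s := (Finset.univ : Finset α)) (n := k - 1)
      (by rw [Finset.card_univ]; omega)
  obtain ⟨a0, ha0⟩ := exists_notMem (s := s0) (by omega)
  have h0 := horb s0 hs0 a0 ha0
  obtain ⟨p, hp, hd⟩ := Nat.exists_prime_and_dvd (n := Nat.card (orbit (fixingSubgroup G (s0 : Set α)) a0))
    (by intro e; rw [e, one_mul] at h0; exact hm h0)
  haveI := Fact.mk hp
  have hm0 : 0 < m := by rcases m with _ | m <;> omega
  refine gleason' hp (by omega) (by omega) fun s hs => ?_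
  obtain ⟨P⟩ : Nonempty (Sylow p (fixingSubgroup G (s : Set α))) := inferInstance
  refine ⟨(P : Subgroup (fixingSubgroup G (s : Set α))).map (Subgroup.subtype _), P.2.map _, ?_⟩
  ext a
  constructor
  · intro ha
    by_contra hc
    have h1 : (P : Subgroup (fixingSubgroup G (s : Set α))) ≤ stabilizer (fixingSubgroup G (s : Set α)) a := fun g hg =>
      ha ⟨g, g, hg, rfl⟩
    have h2 := Subgroup.index_dvd_of_le h1
    rw [index_stabilizer, ← Nat.card_coe_set_eq] at h2
    have h3 := Nat.eq_of_mul_eq_mul_right hm0 ((horb s hs a hc).trans h0.symm)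
    exact P.not_dvd_index (hd.trans (h3 ▸ h2))
  · rintro ha ⟨_, g, hg, rfl⟩
    exact (mem_fixingSubgroup_iff G).1 g.2 a ha

end Cfsg.Agent.S0744
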