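import Cfsg.Statements.S0752
import Cfsg.Agent.H5.Geo

set_option autoImplicit false
open Cfsg

namespace Cfsg.Agent.S0752

open H5 H5.Form Module

/-- Classification of alternating forms: for an alternating bilinear form B on a finite-dimensional space over any field there is a basis indexed by (Fin m ⊕ Fin m) ⊕ Fin k such that B (e_i, f_j) = δ_ij, the e's are pairwise orthogonal, the f's are pairwise orthogonal, and the last k basis vectors are orthogonal to everything (they span the radical). -/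
theorem result {F V : Type*} [Field F] [AddCommGroup V] [Module F V] [FiniteDimensional F V] (B : LinearMap.BilinForm F V) (hA : B.IsAlt) : ∃ (m k : ℕ) (b : Module.Basis ((Fin m ⊕ Fin m) ⊕ Fin k) F V), (∀ i j : Fin m, B (b (Sum.inl (Sum.inl i))) (b (Sum.inl (Sum.inr j))) = if i = j then 1 else 0) ∧ (∀ i j : Fin m, B (b (Sum.inl (Sum.inl i))) (b (Sum.inl (Sum.inl j))) = 0) ∧ (∀ i j : Fin m, B (b (Sum.inl (Sum.inr i))) (b (Sum.inl (Sum.inr j))) = 0) ∧ (∀ (j : Fin k) (v : V), B (b (Sum.inr j)) v = 0) := by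
  obtain ⟨U, hU⟩ := (LinearMap.ker B).exists_isCompl
  have n : ((ofAlt B hA).res U).Nondeg := (res_nondeg_iff _ _).2 (eq_bot_iff.2 (le_trans (b := LinearMap.ker B ⊓ U) (fun x hx => ⟨LinearMap.ext fun y => by
    obtain ⟨r, u, rfl⟩ := exists_add_of_isCompl hU y
    have := hA.neg_eq r x
    rw [show B r = 0 from r.2] at this
    have h : B x u = 0 := hx.2 u u.2
    simp_all [← this], hx.1⟩) hU.inf_eq_bot.le))
  obtain ⟨m, hm, -⟩ := n.symp_hasTS
  obtain ⟨e, he⟩ := symp_iso (sympF_nondeg (F := F) m) n (by simp [hm, two_mul])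
  let b := ((((Pi.basisFun F _).reindex (Equiv.sumComm _ _)).map e).prod (finBasis F (LinearMap.ker B))).map
    (Submodule.prodEquivOfIsCompl _ _ hU.symm)
  have k : ∀ i j, B (b (.inl i)) (b (.inl j)) = Cfsg.sympForm m F (Pi.single i.swap 1) (Pi.single j.swap 1) := fun i j => by
    simp [b]; exact (he.1 (Pi.single i.swap 1) (Pi.single j.swap 1)).trans (sympF_B ..)
  refine ⟨m, _, b, fun i j => ?_, fun i j => ?_, fun i j => ?_, fun j v => ?_⟩
  · simp [k, sympForm_eq, Pi.single_apply, eq_comm]
  · simp [k, sympForm_eq, Pi.single_apply]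
  · simp [k, sympForm_eq, Pi.single_apply]
  · simp [b]


end Cfsg.Agent.S0752
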