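import Cfsg.Statements.S0753
import Cfsg.Agent.H5.Kinds

set_option autoImplicit false
open Cfsg

namespace Cfsg.Agent.S0753

/-- If σ is a ring endomorphism of the field F other than the identity and B is a σ-sesquilinear conjugate-symmetric form with B v v = 0 for every v, then B = 0. -/
theorem result {F V : Type*} [Field F] [AddCommGroup V] [Module F V] (σ : F →+* F) (hσ : σ ≠ RingHom.id F) (B : V →ₛₗ[σ] V →ₗ[F] F) (hS : B.IsSymm) (h0 : ∀ v : V, B v v = 0) : B = 0 := by
  ext x y
  have h1 : ∀ c : F, c * B x y + σ c * σ (B x y) = 0 := by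
    intro c
    have := h0 (x + c • y)
    simp only [map_add, map_smulₛₗ, LinearMap.add_apply, LinearMap.smul_apply, h0, smul_eq_mul, RingHom.id_apply, ← hS.eq x y] at this
    linear_combination this
  by_contra hne
  apply hσ
  ext c
  have h2 := h1 1
  have h3 := h1 c
  simp only [map_one, one_mul] at h2
  simp only [LinearMap.zero_apply] at hne
  apply mul_right_cancel₀ hne
  simp only [RingHom.id_apply]
  linear_combination σ c * h2 - h3


end Cfsg.Agent.S0753
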