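import Cfsg.Statements.S0754
import Cfsg.Agent.H5.FF

set_option autoImplicit false
open Cfsg

namespace Cfsg.Agent.S0754

/-- In a field F with q^2 elements, every non-zero μ with μ^q = μ (that is, μ in the subfield of order q) has exactly q + 1 solutions λ of λ^(q+1) = μ. -/
theorem result {F : Type*} [Field F] [Fintype F] {q : ℕ} (hF : Fintype.card F = q ^ 2) (μ : F) (hμ : μ ≠ 0) (hμq : μ ^ q = μ) : Nat.card {x : F // x ^ (q + 1) = μ} = q + 1 := by
  refine Eq.trans ?_ (H5.card_norm_fiber hF hμ hμq)
  exact Nat.card_congr (Equiv.subtypeEquivRight fun x => by rw [H5.norm_eq_pow])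


end Cfsg.Agent.S0754
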