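import Cfsg.Statements.S0756
import Cfsg.Agent.H5.Geo

set_option autoImplicit false
open Cfsg

namespace Cfsg.Agent.S0756

open H5 H5.Form Module

/-- Classification of symmetric bilinear forms over finite fields of odd characteristic: if B is non-degenerate symmetric on V of dimension n + 1 and α is a fixed non-square of F, there is an orthogonal basis b_0, ..., b_n with B(b_i, b_i) = 1 for i < n and B(b_n, b_n) ∈ {1, α}. -/
theorem result {F V : Type*} [Field F] [Finite F] [AddCommGroup V] [Module F V] [FiniteDimensional F V] (h2 : (2 : F) ≠ 0) (B : LinearMap.BilinForm F V) (hS : B.IsSymm) (hB : B.Nondegenerate) {n : ℕ} (hn : Module.finrank F V = n + 1) (α : F) (hα : ¬ IsSquare α) : ∃ b : Module.Basis (Fin (n + 1)) F V, (∀ i j, i ≠ j → B (b i) (b j) = 0) ∧ (∀ i, i ≠ Fin.last n → B (b i) (b i) = 1) ∧ (B (b (Fin.last n)) (b (Fin.last n)) = 1 ∨ B (b (Fin.last n)) (b (Fin.last n)) = α) := by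
  classical
  let b := (finBasisOfFinrankEq F V hn)
  have h := ofSym_nondeg (hS := hS) (h2 := h2) hB
  obtain ⟨c, hc, c0, k⟩ : ∃ c, (c = 1 ∨ c = α) ∧ c ≠ 0 ∧ IsSquare (((ofSym B hS h2).gram b).det * c) := by
    by_cases k : IsSquare ((ofSym B hS h2).gram b).det
    · exact ⟨1, Or.inl rfl, one_ne_zero, by simpa⟩
    · exact ⟨α, Or.inr rfl, by rintro rfl; simp at hα, isSquare_mul_of_not k hα⟩
  let d : Fin (n + 1) → F := fun i => if i = Fin.last n then c else 1
  obtain ⟨e, he⟩ := iso_of_det' h (diagB_nondeg (h2 := h2) (d := d) fun i => by simp only [d]; split_ifs <;> simp [c0]) h2 b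
    (Pi.basisFun F _) (by rw [gram_diagB]; simpa [d, Finset.prod_ite_eq'] using k)
  have : ∀ i j, B ((Pi.basisFun F _).map e.symm i) ((Pi.basisFun F _).map e.symm j) = if i = j then d i else 0 := fun i j => by
    rw [← Matrix.diagonal_apply, ← gram_diagB (h2 := h2)]; exact he.symm.1 _ _
  exact ⟨(Pi.basisFun F _).map e.symm, fun i j h => by rw [this, if_neg h], fun i h => by simp only [this, d, if_neg h, if_true],
    by simpa only [this, d, if_true] using hc⟩


end Cfsg.Agent.S0756
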