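import Cfsg.Statements.S0757
import Cfsg.Agent.H5.Geo

set_option autoImplicit false
open Cfsg

namespace Cfsg.Agent.S0757

open H5 H5.Form Module

/-- The two diagonal forms Σ x_i^2 and Σ_(i<n) x_i^2 + α x_n^2 on F^(n+1), with α a non-square and 2 ≠ 0 in F, are inequivalent quadratic forms (so over a finite field of odd order there are exactly two classes of non-singular symmetric bilinear forms in each dimension). -/
theorem result {F : Type*} [Field F] (h2 : (2 : F) ≠ 0) (n : ℕ) (α : F) (hα : ¬ IsSquare α) : ¬ (QuadraticMap.weightedSumSquares F (fun _ : Fin (n + 1) => (1 : F))).Equivalent (QuadraticMap.weightedSumSquares F (fun i : Fin (n + 1) => if i = Fin.last n then α else (1 : F))) := by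
  rintro ⟨e⟩
  let d : Fin (n + 1) → F := fun i => 2 * if i = Fin.last n then α else 1
  have h : (ofSym (diagB fun _ : Fin (n + 1) => (2 : F)) (diagB_symm _) h2).IsIso (ofSym (diagB d) (diagB_symm _) h2) e.toLinearEquiv :=
    isIso_orth fun x => by
      have := e.map_app x
      simp only [QuadraticMap.weightedSumSquares_apply, smul_eq_mul] at this
      change diagB _ _ _ / 2 = diagB _ _ _ / 2
      simp only [diagB_apply, d, mul_assoc, ← Finset.mul_sum]; erw [this]; simp
  have := congrArg Matrix.det ((ofSym (diagB d) (diagB_symm _) h2).gram_comp (Pi.basisFun F _) (Pi.basisFun F _) e.toLinearEquiv.toLinearMap)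
  erw [show gram _ _ = gram _ (Pi.basisFun F _) from funext₂ fun i j => h.1 _ _] at this
  rw [gram_diagB, gram_diagB, Matrix.det_mul, Matrix.det_mul,
    Matrix.det_transpose, show ∀ M : Matrix _ _ F, M.map (Kind.orth F).σ = M from fun M => rfl] at this
  generalize Matrix.det (LinearMap.toMatrix (Pi.basisFun F _) (Pi.basisFun F _) e.toLinearEquiv.toLinearMap) = x at this
  simp only [Matrix.det_diagonal, d, Finset.prod_mul_distrib, Finset.prod_ite_eq', Finset.mem_univ, if_true] at this
  have n : ∏ _i : Fin (n + 1), (2 : F) ≠ 0 := by simp [h2]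
  have k : x * x * α = 1 := mul_left_cancel₀ n (by linear_combination -this)
  exact hα ((isSquare_sq_mul (c := x) (by rintro rfl; simp at k)).1 (k ▸ IsSquare.one))


end Cfsg.Agent.S0757
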