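import Cfsg.Statements.S0758
import Cfsg.Agent.H5.Geo

set_option autoImplicit false
open Cfsg

namespace Cfsg.Agent.S0758

open H5 H5.Form Module

/-- For a finite field F of odd order q and a non-square α: the form x² + y² is isotropic iff q ≡ 1 mod 4, and the form x² + α y² is isotropic iff q ≡ 3 mod 4. -/
theorem result {F : Type*} [Field F] [Fintype F] (h2 : (2 : F) ≠ 0) (α : F) (hα : ¬ IsSquare α) : ((∃ x y : F, (x ≠ 0 ∨ y ≠ 0) ∧ x ^ 2 + y ^ 2 = 0) ↔ Fintype.card F % 4 = 1) ∧ ((∃ x y : F, (x ≠ 0 ∨ y ≠ 0) ∧ x ^ 2 + α * y ^ 2 = 0) ↔ Fintype.card F % 4 = 3) := by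
  have k : ∀ β : F, β ≠ 0 → ((∃ x y : F, (x ≠ 0 ∨ y ≠ 0) ∧ x ^ 2 + β * y ^ 2 = 0) ↔ IsSquare (-1 * β)) := fun β β0 => by
    refine ⟨fun ⟨x, y, h, e⟩ => ?_, fun ⟨r, e⟩ => ⟨r, 1, Or.inr one_ne_zero, by linear_combination -e⟩⟩
    have y0 : y ≠ 0 := by rintro rfl; simp_all
    exact ⟨x / y, by field_simp; linear_combination -e⟩
  have s := isSquare_neg_one_pow_iff h2 1
  have o := Nat.odd_iff.1 (odd_of_two_ne_zero h2)
  simp only [pow_one] at s
  refine ⟨by simpa [s] using k 1 one_ne_zero, ?_⟩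
  rw [k α (by rintro rfl; simp at hα), isSquare_mul_iff_of_not (by simp) hα, s]; omega


end Cfsg.Agent.S0758
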