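import Cfsg.Statements.S0759
import Cfsg.Agent.H5.Geo

set_option autoImplicit false
open Cfsg

namespace Cfsg.Agent.S0759

open H5 H5.Form Module

/-- Type of the orthonormal form: over a finite field of odd order q and for m ≥ 1, the quadratic form Σ_(i<2m) x_i² on F^(2m) admits an m-dimensional subspace on which it vanishes identically if and only if it is not the case that q ≡ 3 (mod 4) and m is odd. -/
theorem result {F : Type*} [Field F] [Fintype F] (h2 : (2 : F) ≠ 0) (m : ℕ) (hm : 1 ≤ m) : (∃ W : Submodule F (Fin (2 * m) → F), Module.finrank F W = m ∧ ∀ w ∈ W, ∑ i, w i ^ 2 = 0) ↔ ¬ (Fintype.card F % 4 = 3 ∧ Odd m) := by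
  have := (diagB_nondeg (h2 := h2) (d := fun _ : Fin (2 * m) => (1 : F)) (by simp)).hasTS_iff_det h2 (m := m) (by simp) (Pi.basisFun F _)
  rw [gram_diagB, Matrix.diagonal_one, Matrix.det_one, mul_one, isSquare_neg_one_pow_iff h2] at this
  refine Iff.trans (exists_congr fun W => and_congr_right' ?_) (this.trans ?_)
  · rw [orth_ts]; refine forall₂_congr fun w _ => ?_
    change _ ↔ diagB _ _ _ / 2 = 0
    simp [diagB_apply, h2, sq]
  have o := Nat.odd_iff.1 (odd_of_two_ne_zero h2)
  obtain ⟨k, rfl | rfl⟩ := m.even_or_odd'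
  all_goals rcases (show Fintype.card F % 4 = 1 ∨ Fintype.card F % 4 = 3 by omega) with e | e <;> simp [Nat.pow_mod, pow_succ, pow_mul, Nat.mul_mod, e]


end Cfsg.Agent.S0759
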