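import Cfsg.Statements.S0761
import Cfsg.Agent.H5.Kinds

set_option autoImplicit false
open Cfsg

namespace Cfsg.Agent.S0761

/-- Hyperbolic partners: let B be a non-degenerate bilinear form on a finite-dimensional space, either alternating, or symmetric with 2 ≠ 0. If Z is a subspace on which B vanishes, x ∉ Z is isotropic and orthogonal to Z, then there is an isotropic y with B x y = 1 which is orthogonal to Z. -/
theorem result {F V : Type*} [Field F] [AddCommGroup V] [Module F V] [FiniteDimensional F V] (B : LinearMap.BilinForm F V) (hB : B.Nondegenerate) (hform : B.IsAlt ∨ (B.IsSymm ∧ (2 : F) ≠ 0)) (x : V) (Z : Submodule F V) (hxZ : x ∉ Z) (hx : B x x = 0) (hxz : ∀ z ∈ Z, B x z = 0) (hZ : ∀ z ∈ Z, ∀ z' ∈ Z, B z z' = 0) : ∃ y : V, B y y = 0 ∧ B x y = 1 ∧ ∀ z ∈ Z, B z y = 0 := by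
  rcases hform with hA | ⟨hS, h2⟩
  · obtain ⟨y, -, h2, h3⟩ := H5.Form.Nondeg.exists_partner (Φ := H5.Form.ofAlt B hA) hB.2 (p := x) rfl hxZ
      (fun z hz => (H5.Form.ofAlt B hA).B_zero_symm (hxz z hz))
    exact ⟨y, hA y, h2, h3⟩
  · let Φ : H5.Form (H5.Kind.orth F) V := H5.Form.ofQuadFun (fun x => 2⁻¹ * B x x) B
      (fun c x => by simp; ring) (fun x y => by simp [hS.eq y x]; field_simp; ring)
    obtain ⟨y, h1, h2', h3⟩ := H5.Form.Nondeg.exists_partner (Φ := Φ) hB.2 (p := x) (by simp [Φ, hx]) hxZ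
      (fun z hz => Φ.B_zero_symm (hxz z hz))
    exact ⟨y, Φ.B_self_of_Q h1, h2', h3⟩


end Cfsg.Agent.S0761
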