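import Cfsg.Statements.S0765
import Cfsg.Agent.H5.Br

set_option autoImplicit false
open Cfsg

namespace Cfsg.Agent.S0765

open H5 H5.Form

/-- Generation of the symplectic group by symplectic transvections: the subgroup of Sp_2m(F) generated by all matrices of maps x ↦ x + c f(x, w) w is the whole group. -/
theorem result {F : Type*} [Field F] (m : ℕ) : Subgroup.closure {A : Matrix.symplecticGroup (Fin m) F | ∃ (w : Fin m ⊕ Fin m → F) (c : F), (A : Matrix (Fin m ⊕ Fin m) (Fin m ⊕ Fin m) F) = Cfsg.sympTransvection m w c} = ⊤ := by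
  refine closure_eq_top_of_equiv (spEquiv m) (T := _) (sympF_nondeg m).symp_TG.ge ?_
  rintro _ ⟨u, a, hu, ha, rfl⟩
  refine ⟨(spEquiv m).symm ⟨_, (sympF F m).eich_mem (v := 0) hu (by simp [-sympF_B]) ha⟩,
    Subgroup.subset_closure ⟨u, a, ?_⟩, by simp⟩
  refine matrix_ext_mulVec fun x => ?_
  rw [sympTransvection_mulVec, spEquiv_symm_mulVec, eich_apply]
  simp [-sympF_B]


end Cfsg.Agent.S0765
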