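import Cfsg.Statements.S0767
import Cfsg.Agent.H5.Br

set_option autoImplicit false
open Cfsg

namespace Cfsg.Agent.S0767

open H5 H5.Form

/-- The root group of a point: T_v(c) T_v(d) = T_v(c + d), and for A in the symplectic group with A v = a v, the conjugate A T_v(c) A⁻¹ is again some T_v(d). -/
theorem result {F : Type*} [Field F] (m : ℕ) (v : Fin m ⊕ Fin m → F) : (∀ c d : F, Cfsg.sympTransvection m v c * Cfsg.sympTransvection m v d = Cfsg.sympTransvection m v (c + d)) ∧ ∀ (A : Matrix (Fin m ⊕ Fin m) (Fin m ⊕ Fin m) F) (a : F), A ∈ Matrix.symplecticGroup (Fin m) F → A.mulVec v = a • v → ∀ c : F, ∃ d : F, A * Cfsg.sympTransvection m v c * A⁻¹ = Cfsg.sympTransvection m v d := by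
  refine ⟨fun c d => matrix_ext_mulVec fun x => ?_, fun A a hA hv c => ⟨c * a * a, ?_⟩⟩
  · simp only [← Matrix.mulVec_mulVec, sympTransvection_mulVec, map_add, map_smul, LinearMap.add_apply,
      LinearMap.smul_apply, symp_self]
    module
  · have hu : IsUnit A.det := SymplecticGroup.symplectic_det hA
    have := A.invertibleOfIsUnitDet hu
    rw [Matrix.mul_inv_eq_iff_eq_mul_of_invertible]
    refine matrix_ext_mulVec fun x => ?_
    have := (mem_symplectic_iff m A).1 hA x v
    rw [hv, ← sympF_B, ← sympF_B, B_smul_right, Kind.symp_σ] at this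
    simp only [← Matrix.mulVec_mulVec, sympTransvection_mulVec, Matrix.mulVec_add, Matrix.mulVec_smul, hv,
      ← this]
    module


end Cfsg.Agent.S0767
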