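import Cfsg.Statements.S0768
import Cfsg.Agent.H5.Simple

set_option autoImplicit false
open scoped LinearAlgebra.Projectivization
open Cfsg

namespace Cfsg.Agent.S0768

open H5 Module Projectivization
open H5.Form hiding mk

/-- Primitivity: for m ≥ 1 and F finite, the symplectic group of the form sympForm (as a subgroup of the general linear group) acts primitively on the projective space of F^(2m). -/
theorem result {F : Type*} [Field F] [Finite F] (m : ℕ) (hm : 1 ≤ m) : MulAction.IsPreprimitive ↥(Cfsg.spGL m F) (ℙ F (Fin m ⊕ Fin m → F)) := by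
  have h := sympF_nondeg (F := F) m
  have sm : ∀ (g : (sympF F m).isom) v hv, ((spGLEquiv m).symm g) • mk F v hv = mk F (g.1 v) (by simpa) := fun g v hv => by
    rw [Subgroup.smul_def, smul_mk]; congr 1; exact glEquiv_symm_mulVec _ _
  haveI : MulAction.IsPretransitive ↥(Cfsg.spGL m F) (ℙ F (Fin m ⊕ Fin m → F)) := ⟨fun x y => by
    induction x using Projectivization.ind with | h x hx
    induction y using Projectivization.ind with | h y hy
    obtain ⟨g, hg, e, -⟩ := h.symp_exists_map (H := ⊥) (x := x) (y := y) (by simpa) (by simpa) (by simp [-sympF_B])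
    exact ⟨_, (sm ⟨g, hg⟩ x hx).trans (by simp only [e])⟩⟩
  refine ⟨fun {B} hB => (Set.subsingleton_or_nontrivial B).imp_right fun ⟨x, hx, y, hy, n⟩ => Set.eq_univ_of_forall fun z => ?_⟩
  induction x using Projectivization.ind with | h x x0
  induction y using Projectivization.ind with | h y y0
  induction z using Projectivization.ind with | h z z0
  refine (h.block_cases (Or.inl symp_ker) (P := fun v => ∃ hv, mk F v hv ∈ B) (fun v ⟨a, _⟩ => ⟨a, symp_Q _ _⟩)
    (fun v c c0 ⟨a, b⟩ => ⟨smul_ne_zero c0 a, by rwa [(mk_eq_mk_iff' _ _ _ _ a).2 ⟨c, rfl⟩]⟩) (fun g hg x y e ⟨a, b⟩ ⟨a', b'⟩ => ⟨by simpa, ?_⟩)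
    ⟨x0, hx⟩ ⟨y0, hy⟩ (fun e => n ((mk_eq_mk_iff' _ _ _ _ _).2 (Submodule.mem_span_singleton.1 e))) z z0 (symp_Q _ _)).2
  have := hB.smul_eq_of_mem (g := (spGLEquiv m).symm ⟨g, EG_le_isom hg⟩) b (by rw [sm]; simpa only [e])
  rw [← this, ← sm ⟨g, EG_le_isom hg⟩ y a']
  exact Set.smul_mem_smul_set b'


end Cfsg.Agent.S0768
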