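import Cfsg.Statements.S0770
import Cfsg.Agent.H5.Para

set_option autoImplicit false
open Cfsg

namespace Cfsg.Agent.S0770

open H5 Matrix

/-- For a field with at least 3 elements, an invertible matrix normalises the subgroup of invertible diagonal matrices of GL_n if and only if it is monomial (exactly one non-zero entry in each row). -/
theorem result {F : Type*} [Field F] (hF : ∃ a : F, a ≠ 0 ∧ a ≠ 1) (n : ℕ) (g : Matrix.GeneralLinearGroup (Fin n) F) : g ∈ Subgroup.normalizer ((Units.map (Matrix.diagonalRingHom (Fin n) F).toMonoidHom).range : Subgroup (Matrix.GeneralLinearGroup (Fin n) F)) ↔ ∀ i : Fin n, ∃! j : Fin n, (g : Matrix (Fin n) (Fin n) F) i j ≠ 0 := by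
  have row : ∀ i, ∃ j, g.1 i j ≠ 0 := fun i => by
    by_contra! h; exact g.det_ne_zero (det_eq_zero_of_row_eq_zero i h)
  let D : (Fin n → Fˣ) → GL (Fin n) F := fun d => Units.map (diagonalRingHom (Fin n) F).toMonoidHom (MulEquiv.piUnits.symm d)
  have hD : ∀ x, x ∈ (Units.map (diagonalRingHom (Fin n) F).toMonoidHom).range ↔ ∃ d, D d = x :=
    fun x => MulEquiv.piUnits.symm.surjective.exists
  have k : ∀ d d', D d' = g * D d * g⁻¹ ↔ ∀ i j, g.1 i j ≠ 0 → d' i = d j := fun d d' => by
    rw [eq_mul_inv_iff_mul_eq, Units.ext_iff, ← Matrix.ext_iff]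
    refine forall₂_congr fun i j => ?_
    change (diagonal (fun i => (d' i : F)) * g.1 : Matrix _ _ F) i j = (g.1 * diagonal (fun i => (d i : F)) : Matrix _ _ F) i j ↔ _
    rw [diagonal_mul, mul_diagonal, mul_comm, Units.ext_iff]
    by_cases h : g.1 i j = 0 <;> simp [h]
  simp only [Subgroup.mem_normalizer_iff, hD]
  constructor
  · intro h i
    obtain ⟨j, hj⟩ := row i
    obtain ⟨a, a0, a1⟩ := hF
    refine ⟨j, hj, fun l hl => ?_⟩
    obtain ⟨d, e⟩ := (h _).1 ⟨Function.update 1 j (Units.mk0 a a0), rfl⟩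
    by_contra n
    have := ((k _ _).1 e i j hj).symm.trans ((k _ _).1 e i l hl)
    simp [n, Units.ext_iff, a1] at this
  · intro h x
    choose s hs hs' using h
    have : Function.Surjective s := fun j => by
      by_contra! n; exact g.det_ne_zero (det_eq_zero_of_column_eq_zero j fun i => by by_contra e; exact n i (hs' i j e).symm)
    let e := Equiv.ofBijective s (Finite.surjective_iff_bijective.1 this)
    refine ⟨by rintro ⟨d, rfl⟩; exact ⟨d ∘ s, (k _ _).2 fun i j h => by simp [hs' i j h]⟩, fun ⟨d, hd⟩ => ⟨d ∘ e.symm, ?_⟩⟩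
    rw [(k (d ∘ e.symm) d).2 fun i j h => by rw [hs' i j h]; exact congrArg d (e.symm_apply_apply i).symm] at hd
    simpa using hd


end Cfsg.Agent.S0770
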