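import Cfsg.Statements.S0771
import Cfsg.Agent.H5.Para

set_option autoImplicit false
open Cfsg

namespace Cfsg.Agent.S0771

open H5 Module

/-- Maximal parabolic of GL_n(q): the stabiliser of the coordinate subspace spanned by the first k basis vectors has order q^(k(n-k)) · |GL_k(q)| · |GL_(n-k)(q)| (unipotent radical of order q^(k(n-k)) and Levi complement GL_k × GL_(n-k)). -/
theorem result {F : Type*} [Field F] [Fintype F] {q : ℕ} (hF : Fintype.card F = q) (n k : ℕ) (hk : k ≤ n) : Nat.card ↥(Cfsg.stabilizing (Cfsg.glToMat (Fin n) F) {v : Fin n → F | ∀ i : Fin n, k ≤ (i : ℕ) → v i = 0}) = q ^ (k * (n - k)) * (∏ i : Fin k, (q ^ k - q ^ (i : ℕ))) * ∏ i : Fin (n - k), (q ^ (n - k) - q ^ (i : ℕ)) := by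
  let W : Submodule F (Fin n → F) := coordSub F (Fin.castLE hk)
  have hW : finrank F W = k := by simp [W, finrank_coordSub (Fin.castLE_injective hk)]
  rw [show {v : Fin n → F | ∀ i : Fin n, k ≤ (i : ℕ) → v i = 0} = W from Set.ext fun v => by simp [W, mem_coordSub, Fin.range_castLE],
    Nat.card_congr (subEquiv glEquiv _ (stabSub W) fun _ => Iff.rfl).toEquiv, card_stabSub, card_aut, card_aut,
    show finrank F ((Fin n → F) ⧸ W) = n - k by have := W.finrank_quotient_add_finrank; simp at this; omega, hW]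
  simp [hF]


end Cfsg.Agent.S0771
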