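import Cfsg.Statements.S0772
import Cfsg.Agent.H5.Para

set_option autoImplicit false
open Cfsg

namespace Cfsg.Agent.S0772

open H5 Module

/-- Maximal parabolics are maximal: over a finite field, for 0 < k < n the stabiliser in GL_n of the span of the first k coordinate vectors is a maximal proper subgroup. -/
theorem result {F : Type*} [Field F] [Finite F] (n k : ℕ) (hk0 : 0 < k) (hkn : k < n) : IsCoatom (Cfsg.stabilizing (Cfsg.glToMat (Fin n) F) {v : Fin n → F | ∀ i : Fin n, k ≤ (i : ℕ) → v i = 0}) := by
  let W : Submodule F (Fin n → F) := coordSub F (Fin.castLE hkn.le)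
  have hW : finrank F W = k := by simp [W, finrank_coordSub (Fin.castLE_injective hkn.le)]
  rw [show {v : Fin n → F | ∀ i : Fin n, k ≤ (i : ℕ) → v i = 0} = W from Set.ext fun v => by simp [W, mem_coordSub, Fin.range_castLE],
    show Cfsg.stabilizing (Cfsg.glToMat (Fin n) F) W = (stabSub W).comap glEquiv.toMonoidHom from rfl]
  refine (Subgroup.isCoatom_comap_of_surjective glEquiv.surjective ⟨fun e => ?_, fun K hK => ?_⟩)
  · have := eq_of_stab_le (U := ⊤) (W := W) (e ▸ le_top) (by rintro h; rw [h] at hW; simp at hW; omega) (by rintro h; rw [h] at hW; simp at hW; omega)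
    rw [this] at hW; simp at hW; omega
  · have := SLG_le (full_of_sub (inf_le_left.trans hK.le) hK.not_ge)
    refine eq_top_iff.2 fun g _ => ?_
    let d : GL (Fin n) F := Matrix.GeneralLinearGroup.mkOfDetNeZero (Matrix.diagonal (Function.update 1 ⟨0, by omega⟩ (LinearEquiv.det g : F)))
      (by simpa [Finset.prod_update_of_mem] using (LinearEquiv.det g).ne_zero)
    have hd : glEquiv d ∈ K := hK.le (mem_stabSub'.2 fun v hv i hi => by simp [d, Matrix.mulVec_diagonal, hv i hi])
    refine (mul_mem_cancel_right (inv_mem hd)).1 (this ?_)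
    rw [SLG, MonoidHom.mem_ker, map_mul, map_inv, det_glEquiv', mul_inv_eq_one]
    ext; simp [d, Finset.prod_update_of_mem]


end Cfsg.Agent.S0772
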