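import Cfsg.Statements.S0773
import Cfsg.Agent.H5.Para

set_option autoImplicit false
open Cfsg

namespace Cfsg.Agent.S0773

open H5 Module

/-- The stabilisers in GL_n(F), F finite, of the coordinate subspaces of dimensions k and n − k are isomorphic groups, but when 2k ≠ n (and 0 < k < n) no element of GL_n conjugates one onto the other. -/
theorem result {F : Type*} [Field F] [Finite F] (n k : ℕ) (hk0 : 0 < k) (hkn : k < n) (h2 : 2 * k ≠ n) : Nonempty (↥(Cfsg.stabilizing (Cfsg.glToMat (Fin n) F) {v : Fin n → F | ∀ i : Fin n, k ≤ (i : ℕ) → v i = 0}) ≃* ↥(Cfsg.stabilizing (Cfsg.glToMat (Fin n) F) {v : Fin n → F | ∀ i : Fin n, n - k ≤ (i : ℕ) → v i = 0})) ∧ ∀ g : Matrix.GeneralLinearGroup (Fin n) F, (Cfsg.stabilizing (Cfsg.glToMat (Fin n) F) {v : Fin n → F | ∀ i : Fin n, k ≤ (i : ℕ) → v i = 0}).map (MulAut.conj g).toMonoidHom ≠ Cfsg.stabilizing (Cfsg.glToMat (Fin n) F) {v : Fin n → F | ∀ i : Fin n, n - k ≤ (i : ℕ) → v i = 0} := by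
  constructor
  · refine ⟨subEquiv (invT.trans (glCongr Fin.revPerm)) _ _ fun g => ?_⟩
    rw [← inv_mem_iff (x := (invT.trans (glCongr Fin.revPerm)) g), ← map_inv]
    refine mem_stab_coord.trans (Iff.trans ?_ mem_stab_coord.symm)
    exact ⟨fun h i j hi hj => h j.rev i.rev (by simp; omega) (by simp; omega), fun h i j hi hj => by
      have : g.1 i.rev.rev j.rev.rev = 0 := h j.rev i.rev (by simp; omega) (by simp; omega)
      simpa using this⟩
  intro g e
  have k' : ∀ l (h : l ≤ n), {v : Fin n → F | ∀ i : Fin n, l ≤ (i : ℕ) → v i = 0} = coordSub F (Fin.castLE h) :=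
    fun l h => Set.ext fun v => by simp [mem_coordSub, Fin.range_castLE]
  have r : ∀ l (h : l ≤ n), finrank F (coordSub F (Fin.castLE h)) = l := fun l h => by simp [finrank_coordSub (Fin.castLE_injective h)]
  rw [k' _ hkn.le, k' _ (Nat.sub_le _ _)] at e
  have r1 := r _ hkn.le
  have r2 := r _ (Nat.sub_le n k)
  have := eq_of_stab_le (U := (coordSub F (Fin.castLE hkn.le)).map (glEquiv g).toLinearMap) (W := coordSub F (Fin.castLE (Nat.sub_le n k)))
    (fun x hx => by
      obtain ⟨x, rfl⟩ := glEquiv.surjective x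
      refine (e.le (show x ∈ _ from ⟨g⁻¹ * x * g, (show glEquiv (g⁻¹ * x * g) ∈ stabSub (coordSub F (Fin.castLE hkn.le)) from mem_stabSub'.2 fun v hv => ?_), by simp [mul_assoc]⟩) :)
      obtain ⟨w, hw, e⟩ := mem_stabSub'.1 hx.1 _ ⟨v, hv, rfl⟩
      rwa [map_mul, map_mul, map_inv, LinearEquiv.mul_apply, LinearEquiv.mul_apply, show glEquiv x (glEquiv g v) = _ from e.symm,
        show (glEquiv g)⁻¹ ((glEquiv g).toLinearMap w) = w from (glEquiv g).symm_apply_apply w])
    (by rintro h; rw [h] at r2; simp at r2; omega) (by rintro h; rw [h] at r2; simp at r2; omega)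
  rw [this, LinearEquiv.finrank_map_eq] at r2; omega


end Cfsg.Agent.S0773
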