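import Cfsg.Statements.S0774
import Cfsg.Agent.H5.Para

set_option autoImplicit false
open Cfsg

namespace Cfsg.Agent.S0774

open H5 H5.Form Module

/-- Borel subgroup of the symplectic group: the elements of Sp_2m(q) stabilising each of the totally isotropic coordinate subspaces ⟨e_0, ..., e_k⟩ (k < m) form a subgroup of order q^(m²) (q − 1)^m. -/
theorem result {F : Type*} [Field F] [Fintype F] {q : ℕ} (hF : Fintype.card F = q) (m : ℕ) : Nat.card ↥(⨅ k : Fin m, Cfsg.stabilizing (Cfsg.spToMat m F) {v : Fin m ⊕ Fin m → F | (∀ i : Fin m, (k : ℕ) < (i : ℕ) → v (Sum.inl i) = 0) ∧ ∀ i : Fin m, v (Sum.inr i) = 0}) = q ^ (m ^ 2) * (q - 1) ^ m := by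
  have h := sympF_nondeg (F := F) m
  let T : Submodule F (Fin m ⊕ Fin m → F) := coordSub F Sum.inl
  have mT : ∀ v, v ∈ T ↔ ∀ i, v (.inr i) = 0 := by simp [T, mem_coordSub]
  have t : (sympF F m).TS T := symp_ts.2 fun x hx y hy => by simp [sympForm_eq, (mT x).1 hx, (mT y).1 hy]
  have r : finrank F T = m := by simp [T, finrank_coordSub Sum.inl_injective]
  let c : T ≃ₗ[F] (Fin m → F) := coordSubEquiv Sum.inl_injective
  have hc : ∀ (v : T) i, c v i = v.1 (.inl i) := fun _ _ => rfl
  let ρ := (glEquiv.symm.toMonoidHom.comp (autCongr c).toMonoidHom).comp (resHom (sympF F m).isom T)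
  have hρ : ∀ g (v : T) i, (ρ g).1.mulVec (c v) i = g.1 v (.inl i) := fun g v i => by
    simp [ρ, glEquiv_symm_mulVec, hc, resHom_apply]
  let B : Subgroup (GL (Fin m) F) := ⨅ k : Fin m, Cfsg.stabilizing (Cfsg.glToMat _ F) {v | ∀ i, k < i → v i = 0}
  have cB : Nat.card B = q ^ (m * (m - 1) / 2) * (q - 1) ^ m := by
    have := card_upper (F := F) (ι := Fin m)
    rw [hF, Fintype.card_fin] at this
    refine (Nat.card_congr (Equiv.subtypeEquivRight fun g => ?_)).trans this
    refine Subgroup.mem_iInf.trans ((forall_congr' fun k => mem_stab_coord).trans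
      ⟨fun h i j l => h j i j l (lt_irrefl _), fun h k i j a b => h i j ((not_lt.1 b).trans_lt a)⟩)
  have s : Function.Surjective ρ := (glEquiv.symm.surjective.comp (autCongr c).surjective).comp (h.resHom_surjective t)
  have k := card_mul_index_inf (B.comap ρ) ρ
  have k1 := card_inf_stabSub (sympF F m).isom T
  have k2 := card_mul_index_inf ⊤ ρ
  rw [Subgroup.map_comap_eq_self_of_surjective s, inf_eq_right.2 (Subgroup.ker_le_comap _ _), cB] at k
  rw [Subgroup.map_top_of_surjective _ s, top_inf_eq, Subgroup.card_top, Subgroup.card_top, k1, MonoidHom.range_eq_top.2 (h.resHom_surjective t),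
    Subgroup.card_top, Nat.card_congr ((autCongr c).trans glEquiv.symm).toEquiv, Nat.mul_right_inj Nat.card_pos.ne',
    card_fix_ts 0 1 (fun _ _ _ _ _ _ e => card_isom_zero e) m _ _ h (by simp [two_mul]) T t r, card_ker_symp, Nat.card_eq_fintype_card, hF] at k2
  rw [← k2] at k
  refine Eq.trans ?_ (k.trans ?_)
  · have key : ∀ (A : Matrix.symplecticGroup (Fin m) F) (hA : (spEquiv m A).1 ∈ (sympF F m).isom ⊓ stabSub T) (k : Fin m),
        ρ ⟨_, hA⟩ ∈ Cfsg.stabilizing (Cfsg.glToMat _ F) {v | ∀ i, k < i → v i = 0} ↔ A ∈ Cfsg.stabilizing (Cfsg.spToMat m F)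
          {v | (∀ i : Fin m, (k : ℕ) < (i : ℕ) → v (Sum.inl i) = 0) ∧ ∀ i : Fin m, v (Sum.inr i) = 0} := fun A hA k => by
      refine c.surjective.forall.trans ⟨fun H v => ?_, fun H v => ?_⟩
      · have := hA.2 v
        simp only [mT] at this
        refine (and_congr_left fun hv => ?_).trans (and_congr_right' this)
        simpa [hρ, hc] using H ⟨v, (mT v).2 hv⟩
      · have := H v
        have a := (mT _).1 v.2
        have b := (mT _).1 ((hA.2 v).1 v.2)
        simp only [Set.mem_setOf_eq, a, implies_true, and_true] at this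
        erw [and_iff_left b] at this
        simpa [hρ, hc] using this
    have st : ∀ A ∈ ⨅ k : Fin m, Cfsg.stabilizing (Cfsg.spToMat m F) {v : Fin m ⊕ Fin m → F |
        (∀ i : Fin m, (k : ℕ) < (i : ℕ) → v (Sum.inl i) = 0) ∧ ∀ i : Fin m, v (Sum.inr i) = 0}, (spEquiv m A).1 ∈ (sympF F m).isom ⊓ stabSub T :=
      fun A hA => ⟨(spEquiv m A).2, fun v => by
        rcases m with _ | m
        · simp [mT]
        · simpa [mT, Nat.lt_succ_iff.1 (Fin.is_lt _), not_lt.2] using Subgroup.mem_iInf.1 hA (Fin.last m) v⟩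
    refine Nat.card_eq_of_bijective (fun A => ⟨⟨_, st _ A.2⟩, Subgroup.mem_iInf.2 fun k => (key _ _ k).2 (Subgroup.mem_iInf.1 A.2 k)⟩)
      ⟨fun A A' e => Subtype.ext ((spEquiv m).injective (Subtype.ext (congrArg (·.1.1) e))), fun ⟨⟨g, hg⟩, hg'⟩ => ?_⟩
    obtain ⟨A, e⟩ := (spEquiv m).surjective ⟨g, hg.1⟩
    obtain rfl : (spEquiv m A).1 = g := congrArg Subtype.val e
    exact ⟨⟨A, Subgroup.mem_iInf.2 fun k => (key _ hg k).1 (Subgroup.mem_iInf.1 hg' k)⟩, rfl⟩
  · rw [show m ^ 2 = m * (m - 1) / 2 + m * (m - 1) / 2 + m by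
      rw [← two_mul, Nat.two_mul_div_two_of_even (Nat.even_mul_pred_self m)]; cases m <;> simp; ring]
    ring


end Cfsg.Agent.S0774
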