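import Cfsg.Statements.S0775
import Cfsg.Agent.H5.Det

set_option autoImplicit false
open Cfsg

namespace Cfsg.Agent.S0775

/-- Maximal parabolics of the symplectic group: if W is a k-dimensional subspace of F^(2m) on which the symplectic form vanishes identically, its stabiliser in Sp_2m(q) has order q^(k(k+1)/2 + 2k(m−k)) · |Sp_(2m−2k)(q)| · |GL_k(q)|. -/
theorem result {F : Type*} [Field F] [Fintype F] {q : ℕ} (hF : Fintype.card F = q) (m k : ℕ) (hk : k ≤ m) (W : Submodule F (Fin m ⊕ Fin m → F)) (hWk : Module.finrank F W = k) (hW : ∀ u ∈ W, ∀ v ∈ W, Cfsg.sympForm m F u v = 0) : Nat.card ↥(Cfsg.stabilizing (Cfsg.spToMat m F) (W : Set (Fin m ⊕ Fin m → F))) = q ^ (k * (k + 1) / 2 + 2 * k * (m - k)) * (q ^ ((m - k) ^ 2) * ∏ i ∈ Finset.range (m - k), (q ^ (2 * (i + 1)) - 1)) * ∏ i : Fin k, (q ^ k - q ^ (i : ℕ)) := by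
  have h := H5.sympF_nondeg (F := F) m
  have t : (H5.sympF F m).TS W := H5.symp_ts.2 (by simpa using hW)
  rw [Nat.card_congr (H5.stabilizingEquiv _ (H5.spEquiv m) (fun _ _ => rfl) W).toEquiv,
    h.card_stab_ts t, H5.Form.card_fix_ts (2 * (m - k)) (H5.spOrd q (m - k))
      (fun W _ _ _ Ψ h1 h2 => H5.Form.card_isom_symp hF h1 h2) k _ _ h (by simp; omega) W t hWk,
    H5.card_aut, H5.card_ker_symp, Nat.card_eq_fintype_card, hF, H5.spOrd]
  subst hWk
  rw [mul_comm (Module.finrank F W) (Module.finrank F W + 1),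
    show (Module.finrank F W + 1) * Module.finrank F W / 2 = _ from Nat.triangle_succ _]
  ring


end Cfsg.Agent.S0775
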