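import Cfsg.Statements.S0776
import Cfsg.Agent.H5.Det

set_option autoImplicit false
open Cfsg

namespace Cfsg.Agent.S0776

/-- If W ≤ F^(2m) is a 2k-dimensional subspace on which the symplectic form is non-degenerate, then the stabiliser of W in Sp_2m(F) is isomorphic to Sp_2k(F) × Sp_(2m−2k)(F). -/
theorem result {F : Type*} [Field F] (m k : ℕ) (hk : k ≤ m) (W : Submodule F (Fin m ⊕ Fin m → F)) (hWk : Module.finrank F W = 2 * k) (hW : ∀ u ∈ W, (∀ v ∈ W, Cfsg.sympForm m F u v = 0) → u = 0) : Nonempty (↥(Cfsg.stabilizing (Cfsg.spToMat m F) (W : Set (Fin m ⊕ Fin m → F))) ≃* Matrix.symplecticGroup (Fin k) F × Matrix.symplecticGroup (Fin (m - k)) F) := by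
  have h := H5.sympF_nondeg (F := F) m
  have hU : ((H5.sympF F m).res W).Nondeg := fun y hy => Subtype.ext (hW y y.2 fun v hv => by
    simpa using (H5.sympF F m).B_zero_symm (hy ⟨v, hv⟩))
  have hd := h.finrank_perp W
  obtain ⟨e1, h1⟩ := H5.Form.symp_iso hU (H5.sympF_nondeg k) (by simp; omega)
  obtain ⟨e2, h2⟩ := H5.Form.symp_iso (h.perp_nondeg hU) (H5.sympF_nondeg (m - k))
    (by simp at hd ⊢; omega)
  exact ⟨(H5.stabilizingEquiv _ (H5.spEquiv m) (fun _ _ => rfl) W).trans ((h.stabEquiv hU).symm.trans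
    ((h1.isomCongr.trans (H5.spEquiv k).symm).prodCongr
      (h2.isomCongr.trans (H5.spEquiv (m - k)).symm)))⟩


end Cfsg.Agent.S0776
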