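import Cfsg.Statements.S0778
import Cfsg.Agent.H5.Para

set_option autoImplicit false
open Cfsg

namespace Cfsg.Agent.S0778

open H5 Matrix

/-- The elements of Sp_2m(F) stabilising both W = ⟨e_1..e_m⟩ and U = ⟨f_1..f_m⟩ form a subgroup isomorphic to GL_m(F) (block-diagonal matrices diag(X, X^(−ᵀ)) up to the sign convention of J), for m ≥ 1 or m = 0 alike. -/
theorem result {F : Type*} [Field F] (m : ℕ) : Nonempty (↥(Cfsg.stabilizing (Cfsg.spToMat m F) {v : Fin m ⊕ Fin m → F | ∀ i : Fin m, v (Sum.inr i) = 0} ⊓ Cfsg.stabilizing (Cfsg.spToMat m F) {v : Fin m ⊕ Fin m → F | ∀ i : Fin m, v (Sum.inl i) = 0}) ≃* Matrix.GeneralLinearGroup (Fin m) F) := by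
  let φ : GL (Fin m) F →* symplecticGroup (Fin m) F := ⟨⟨fun g => ⟨fromBlocks g.1 0 0 (invT g).1, by
    simp [SymplecticGroup.mem_iff, J, fromBlocks_transpose, fromBlocks_multiply, invT_coe, ← transpose_mul]⟩, by ext1; simp⟩,
    fun a b => by ext1; simp [fromBlocks_multiply]⟩
  have hφ : Function.Injective φ := fun a b e => Units.ext (fromBlocks_inj.1 (congrArg Subtype.val e)).1
  refine ⟨((MonoidHom.ofInjective hφ).trans (MulEquiv.subgroupCongr (Subgroup.ext fun A => ?_))).symm⟩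
  have k1 := mem_stab_coord (p := fun i => i.isRight) (g := spToGL m A)
  have k2 := mem_stab_coord (p := fun i => i.isLeft) (g := spToGL m A)
  simp only [Sum.forall, Sum.isRight_inl, Sum.isRight_inr, Sum.isLeft_inl, Sum.isLeft_inr, spToGL_coe] at k1 k2
  simp only [Bool.false_eq_true, false_imp_iff, implies_true, forall_const, true_and, and_true, not_false_iff, not_true] at k1 k2
  refine Iff.trans ?_ (and_congr k1 k2).symm
  constructor
  · rintro ⟨g, rfl⟩; simp [φ]
  · rintro ⟨h1, h2⟩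
    obtain ⟨A, hA⟩ := A
    obtain ⟨a, b, c, d, rfl⟩ : ∃ a b c d, A = fromBlocks a b c d := ⟨_, _, _, _, (fromBlocks_toBlocks A).symm⟩
    obtain rfl : c = 0 := Matrix.ext h1
    obtain rfl : b = 0 := Matrix.ext h2
    have : a * dᵀ = 1 := by
      simp [SymplecticGroup.mem_iff, J, fromBlocks_transpose, fromBlocks_multiply] at hA; exact hA.1
    exact ⟨⟨a, dᵀ, this, mul_eq_one_comm.1 this⟩, rfl⟩


end Cfsg.Agent.S0778
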