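import Cfsg.Statements.S0779
import Cfsg.Agent.H5.Br

set_option autoImplicit false
open Cfsg

namespace Cfsg.Agent.S0779

open H5 H5.Form

/-- Unitary transvections: let |F| = q², h the standard Hermitian form Σ x_i y_i^q and v ≠ 0 with h(v, v) = 0. The linear map x ↦ x + c h(x, v) v is an isometry of h if and only if c = 0 or c^(q−1) = −1. -/
theorem result {F : Type*} [Field F] [Fintype F] {q : ℕ} (hF : Fintype.card F = q ^ 2) (n : ℕ) (v : Fin n → F) (hv : v ≠ 0) (hv0 : Cfsg.hermForm n F q v v = 0) (c : F) : (∀ x y : Fin n → F, Cfsg.hermForm n F q ((Cfsg.unitaryTransvection n q v c).mulVec x) ((Cfsg.unitaryTransvection n q v c).mulVec y) = Cfsg.hermForm n F q x y) ↔ (c = 0 ∨ c ^ (q - 1) = -1) := by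
  have hq := two_le_of_card_sq hF
  have hv1 : (hermF n hF).B v v = 0 := hv0
  have k : ∀ x y : Fin n → F, Cfsg.hermForm n F q ((Cfsg.unitaryTransvection n q v c).mulVec x)
      ((Cfsg.unitaryTransvection n q v c).mulVec y) = Cfsg.hermForm n F q x y +
        (c + conj hF c) * ((hermF n hF).B x v * (hermF n hF).B v y) := fun x y => by
    simp only [unitaryTransvection_mulVec hF, ← hermF_B n hF, map_add, map_smul, LinearMap.add_apply,
      LinearMap.smul_apply, B_smul_right, hv1, Kind.unit_σ, smul_eq_mul, map_mul,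
      (hermF n hF).unit_symm y v]
    ring
  have k2 : c + conj hF c = 0 ↔ (c = 0 ∨ c ^ (q - 1) = -1) := by
    rw [conj_apply, show c + c ^ q = c * (c ^ (q - 1) + 1) by
      conv_lhs => rw [show q = q - 1 + 1 by omega, pow_succ]
      ring, mul_eq_zero, add_eq_zero_iff_eq_neg]
  rw [← k2]
  refine ⟨fun h => ?_, fun h x y => by simp [k, h]⟩
  obtain ⟨x, hx⟩ := (hermF_nondeg n hF).exists_ne hv
  have := h x x
  rw [k, add_eq_left, mul_eq_zero, mul_eq_zero, (hermF n hF).B_eq_zero_comm (x := v)] at this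
  tauto


end Cfsg.Agent.S0779
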