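import Cfsg.Statements.S0780
import Cfsg.Agent.H5.Br

set_option autoImplicit false
open Cfsg

namespace Cfsg.Agent.S0780

open H5 H5.Form

/-- Generation of SU_n(q), n ≥ 3, (n, q) ≠ (3, 2), by unitary transvections: the subgroup generated by the elements whose matrix is x ↦ x + c h(x, v) v with v isotropic is all of SU_n(q). -/
theorem result {F : Type*} [Field F] [Fintype F] {q : ℕ} (hF : Fintype.card F = q ^ 2) (n : ℕ) (hn : 3 ≤ n) (h32 : ¬ (n = 3 ∧ q = 2)) : Subgroup.closure {A : ↥(Cfsg.SU n F q) | ∃ (v : Fin n → F) (c : F), Cfsg.hermForm n F q v v = 0 ∧ ((A : Matrix.SpecialLinearGroup (Fin n) F) : Matrix (Fin n) (Fin n) F) = Cfsg.unitaryTransvection n q v c} = ⊤ := by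
  refine closure_eq_top_of_equiv (suEquiv n hF) (T := _) ((hermF_nondeg n hF).unit_TG (by simpa using h32)).ge ?_
  rintro _ ⟨u, a, hu, ha, rfl⟩
  have hv : (hermF n hF).B 0 u = 0 := by simp [-hermF_B]
  refine ⟨(suEquiv n hF).symm ⟨_, EG_le_sisom (eich_mem_EG hu hv ha)⟩,
    Subgroup.subset_closure ⟨u, -a, hu, ?_⟩, by simp⟩
  rw [mat_eq_iff (suEquiv_apply n hF _) (t := (hermF n hF).eich u 0 a hu hv ha)]
  · simp
  · intro x
    rw [unitaryTransvection_mulVec hF, eich_apply]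
    simp [-hermF_B, sub_eq_add_neg]


end Cfsg.Agent.S0780
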