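import Cfsg.Statements.S0781
import Cfsg.Agent.H5.Br
import Cfsg.Agent.S0779

set_option autoImplicit false
open Cfsg

namespace Cfsg.Agent.S0781

open H5 H5.Form

/-- In SU_n(q) with n ≥ 4, or n = 3 and q > 2, every element whose matrix is a unitary transvection x ↦ x + c h(x, v) v (v isotropic) is a commutator ⁅B, C⁆ of two elements of SU_n(q). -/
theorem result {F : Type*} [Field F] [Fintype F] {q : ℕ} (hF : Fintype.card F = q ^ 2) (n : ℕ) (hn : 4 ≤ n ∨ (n = 3 ∧ 3 ≤ q)) (A : ↥(Cfsg.SU n F q)) (v : Fin n → F) (c : F) (hv0 : Cfsg.hermForm n F q v v = 0) (hA : ((A : Matrix.SpecialLinearGroup (Fin n) F) : Matrix (Fin n) (Fin n) F) = Cfsg.unitaryTransvection n q v c) : A ∈ commutatorSet ↥(Cfsg.SU n F q) := by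
  by_cases hv : v = 0
  · have : A = 1 := Subtype.ext (SL_ext (by simp [hA, hv, unitaryTransvection]))
    rw [this]; exact one_mem_commutatorSet _
  have hq := two_le_of_card_sq hF
  have h1 := (S0779.result hF n v hv hv0 c).1 (by rw [← hA]; exact A.2)
  have h2 : (unitK hF).π (-c) = (hermF n hF).Q 0 := by
    rw [Q_zero, Kind.unit_π, map_neg, conj_apply, show q = q - 1 + 1 by omega, pow_succ]
    rcases h1 with h1 | h1 <;> simp [h1]
  obtain ⟨g, hg, g', hg', e⟩ := (hermF_nondeg n hF).unit_transv_comm (u := v) (a := -c) (by simp; omega)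
    (show (hermF n hF).Q v = 0 from hv0) (by simp [-hermF_B]) h2
  refine ⟨(suEquiv n hF).symm ⟨g, EG_le_sisom hg⟩, (suEquiv n hF).symm ⟨g', EG_le_sisom hg'⟩, ?_⟩
  rw [← map_commutatorElement, MulEquiv.symm_apply_eq]
  refine Subtype.ext (e.trans ((mat_eq_iff (suEquiv_apply n hF _) fun x => ?_).1 hA).symm)
  rw [unitaryTransvection_mulVec hF, eich_apply]
  simp [-hermF_B, sub_eq_add_neg]


end Cfsg.Agent.S0781
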