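import Cfsg.Statements.S0782
import Cfsg.Agent.H5.Para

set_option autoImplicit false
open Cfsg

namespace Cfsg.Agent.S0782

open H5 H5.Form Module

/-- Maximal parabolics of SU_n(q): if W is a k-dimensional subspace of F^n (n ≥ 1, |F| = q²) on which the Hermitian form vanishes, then (q + 1) times the order of its stabiliser in SU_n(q) equals q^(k(2n−3k)) · |GL_k(q²)| · |GU_(n−2k)(q)|, where |GU_m(q)| = q^(m(m−1)/2) Π_(i=1..m) (q^i − (−1)^i). -/
theorem result {F : Type*} [Field F] [Fintype F] {q : ℕ} (hF : Fintype.card F = q ^ 2) (n k : ℕ) (hn : 1 ≤ n) (hk : 2 * k ≤ n) (W : Submodule F (Fin n → F)) (hWk : Module.finrank F W = k) (hW : ∀ u ∈ W, ∀ v ∈ W, Cfsg.hermForm n F q u v = 0) : (q + 1) * Nat.card ↥((Cfsg.stabilizing (Cfsg.slToMat n F) (W : Set (Fin n → F))).subgroupOf (Cfsg.SU n F q)) = q ^ (k * (2 * n - 3 * k)) * (∏ i : Fin k, ((q ^ 2) ^ k - (q ^ 2) ^ (i : ℕ))) * (q ^ ((n - 2 * k) * ((n - 2 * k) - 1) / 2) * ∏ i ∈ Finset.range (n - 2 * k),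 (if Even i then q ^ (i + 1) + 1 else q ^ (i + 1) - 1)) := by
  have h := hermF_nondeg n hF
  have t : (hermF n hF).TS W := unit_ts.2 (by simpa using hW)
  set Φ := hermF n hF
  have e1 : Nat.card ↥((Cfsg.stabilizing (Cfsg.slToMat n F) (W : Set (Fin n → F))).subgroupOf (Cfsg.SU n F q)) =
      Nat.card ↥((Φ.isom ⊓ stabSub W) ⊓ LinearEquiv.det.ker) := by
    rw [inf_right_comm]
    exact Nat.card_congr (stabilizingEquiv ((Cfsg.slToMat n F).comp (Subgroup.subtype _)) (suEquiv n hF) (fun _ _ => rfl) W).toEquiv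
  have e2 : (Φ.isom ⊓ stabSub W).map LinearEquiv.det = (powMonoidHom (q + 1) : Fˣ →* Fˣ).ker := by
    refine le_antisymm ((Subgroup.map_mono inf_le_left).trans (map_det_unit h (by simpa)).le) fun c hc => ?_
    rcases eq_or_ne W ⊥ with rfl | W0
    · obtain ⟨g, hg, e⟩ := (map_det_unit h (by simpa)).ge hc
      exact ⟨g, ⟨hg, mem_stabSub'.2 (by simp)⟩, e⟩
    obtain ⟨e, he, e0⟩ := W.ne_bot_iff.1 W0
    obtain ⟨f, U, hef, hU, rfl, -⟩ := h.exists_split t he e0
    obtain ⟨a, a0, ha⟩ := exists_eq_div_conj hF (x := c) (by rw [norm_eq_pow]; exact congrArg Units.val hc)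
    obtain ⟨g, hg, g1, g2⟩ := h.hyp_trans hef (hef.smul a0)
    have me : e ∈ Submodule.span F {e, f} := Submodule.subset_span (by simp)
    have mf : f ∈ Submodule.span F {e, f} := Submodule.subset_span (by simp)
    have st : ∀ u ∈ Submodule.span F {e, f}, g u ∈ Submodule.span F {e, f} := fun u hu => by
      obtain ⟨x, y, rfl⟩ := Submodule.mem_span_pair.1 hu
      simp only [map_add, map_smul, g1, g2]
      exact add_mem (Submodule.smul_mem _ _ (Submodule.smul_mem _ _ me)) (Submodule.smul_mem _ _ (Submodule.smul_mem _ _ mf))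
    have hc := h.isCompl_perp hef.nondeg
    refine ⟨sumAut hc (resAut g _ st, 1), ⟨(Φ.sumAut_mem_iff hc le_rfl _).2 ⟨Φ.resAut_mem hg st, one_mem _⟩, mem_stabSub'.2 fun w hw => ?_⟩, ?_⟩
    · obtain ⟨u, hu, _, hv, rfl⟩ := Submodule.mem_sup.1 hw
      obtain ⟨x, rfl⟩ := Submodule.mem_span_singleton.1 hv
      rw [map_add, map_smul, sumAut_right hc _ ⟨u, hU hu⟩, sumAut_left hc _ ⟨e, me⟩, resAut_apply, g1]
      exact add_mem (Submodule.mem_sup_left hu) (Submodule.smul_mem _ _ (Submodule.smul_mem _ _ he))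
    · have := Hyp.det_of_two (Φ := Φ.res (Submodule.span F {e, f})) (e := ⟨e, me⟩) (f := ⟨f, mf⟩) ⟨hef.1, hef.2, hef.3⟩ hef.finrank_span
        (g := resAut g _ st) (a := a) (b := 0) (c := 0) (d := (conj hF a)⁻¹) (Subtype.ext (by simp [g1])) (Subtype.ext (by simp [g2]))
      rw [det_sumAut, map_one, mul_one]
      refine Units.ext (this.trans ?_)
      have : conj hF a ≠ 0 := by simpa
      field_simp; linear_combination -ha
  rw [e1, ← card_units_pow_succ hF, ← e2, ← card_mul_index_inf, h.card_stab_ts t, card_fix_ts (n - 2 * k) _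
    (fun W _ _ _ Ψ h1 h2 => card_isom_unit h1 h2) k _ _ h (by simp; omega) W t hWk, card_aut, card_trace_ker, hWk, Nat.card_eq_fintype_card, hF,
    ← pow_mul q 2 (_ + _), ← pow_add, guOrd, show 2 * (k * (n - 2 * k) + k * (k - 1) / 2) + k = k * (2 * n - 3 * k) by
      obtain ⟨d, rfl⟩ := Nat.exists_eq_add_of_le hk
      rw [mul_add, Nat.two_mul_div_two_of_even (Nat.even_mul_pred_self k), show 2 * (2 * k + d) - 3 * k = k + 2 * d by omega,
        Nat.add_sub_cancel_left]
      cases k <;> simp; ring]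
  simp only [uf]; ring


end Cfsg.Agent.S0782
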