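import Cfsg.Statements.S0783
import Cfsg.Agent.H5.Br

set_option autoImplicit false
open Cfsg

namespace Cfsg.Agent.S0783

open H5 H5.Form Module

/-- PGU_n(q)/PSU_n(q) is cyclic of order (n, q+1): for n ≥ 2 and |F| = q² there is a surjective homomorphism from GU_n(q) onto the cyclic group of order gcd(n, q + 1) whose kernel is generated by the determinant-one elements together with the centre. -/
theorem result {F : Type*} [Field F] [Fintype F] {q : ℕ} (hF : Fintype.card F = q ^ 2) (n : ℕ) (hn : 2 ≤ n) : ∃ φ : ↥(Cfsg.GU n F q) →* Multiplicative (ZMod (Nat.gcd n (q + 1))), Function.Surjective φ ∧ φ.ker = (Matrix.GeneralLinearGroup.det : Matrix.GeneralLinearGroup (Fin n) F →* Fˣ).ker.subgroupOf (Cfsg.GU n F q) ⊔ Subgroup.center ↥(Cfsg.GU n F q) := by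
  have h := hermF_nondeg n hF
  let C := (powMonoidHom (q + 1) : Fˣ →* Fˣ).ker
  have hd := map_det_unit h (by simp; omega)
  obtain ⟨ψ, h1, h2⟩ := exists_hom_zmod_gcd (C := C) n (d := Nat.gcd n (q + 1)) (by rw [card_units_pow_succ hF])
  let δ : Cfsg.GU n F q →* C := ((LinearEquiv.det.comp (Subgroup.subtype _)).comp (guEquiv n hF).toMonoidHom).codRestrict C
    fun g => hd.le ⟨_, (guEquiv n hF g).2, rfl⟩
  have hδ : ∀ g, (δ g : Fˣ) = Matrix.GeneralLinearGroup.det g.1 := fun g => det_glEquiv' _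
  haveI : Nontrivial (Fin n → F) := Module.nontrivial_of_finrank_pos (R := F) (by simp; omega)
  have z : ∀ g, g ∈ Subgroup.center (Cfsg.GU n F q) ↔ ∃ c : Fˣ, (guEquiv n hF g).1 = scal _ c := fun g =>
    (mem_center_congr (guEquiv n hF) g).trans (mem_center_iff_scalar (fun g _ k => unit_center h (by simpa) fun t ht => k t (sisom_le_isom ht)) _)
  refine ⟨ψ.comp δ, h1.comp fun c => ?_, Subgroup.ext fun g => ?_⟩
  · obtain ⟨g, hg, e⟩ := hd.ge c.2
    exact ⟨(guEquiv n hF).symm ⟨g, hg⟩, Subtype.ext (by simpa [δ] using e)⟩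
  rw [MonoidHom.mem_ker, MonoidHom.comp_apply, h2, Subgroup.mem_sup_of_normal_right]
  constructor
  · rintro ⟨y, e⟩
    let s := (guEquiv n hF).symm ⟨scal _ y.1, (scal_mem_iff h).2 (by
      rw [Kind.unit_σ, norm_eq_pow]; exact congrArg Units.val y.2)⟩
    have : δ s = y ^ n := Subtype.ext (by simp [δ, s, det_scal])
    exact ⟨g * s⁻¹, by rw [Subgroup.mem_subgroupOf, MonoidHom.mem_ker, ← hδ, map_mul, map_inv, this, e]; simp, s,
      (z s).2 ⟨y, by simp [s]⟩, by simp⟩
  · rintro ⟨a, ha, s, hs, rfl⟩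
    obtain ⟨c, e⟩ := (z s).1 hs
    have := (scal_mem_iff h).1 (e ▸ (guEquiv n hF s).2)
    rw [Kind.unit_σ, norm_eq_pow] at this
    refine ⟨⟨c, Units.ext this⟩, Subtype.ext ?_⟩
    rw [map_mul, Subgroup.coe_mul, hδ, show Matrix.GeneralLinearGroup.det a.1 = 1 from ha]; simp [δ, e, det_scal]


end Cfsg.Agent.S0783
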