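import Cfsg.Statements.S0784
import Cfsg.Agent.H5.Br

set_option autoImplicit false
open Cfsg

namespace Cfsg.Agent.S0784

open H5 H5.Form

/-- Reflections: if Q(v) ≠ 0 then the matrix R = 1 − Q(v)⁻¹ · v f(v, ·)ᵀ preserves Q, maps v to −v, fixes each x with f(v, x) = 0, and has determinant −1 (in characteristic two, −1 = 1 and R is the orthogonal transvection of v). -/
theorem result {F : Type*} [Field F] {n : ℕ} (Q : QuadraticForm F (Fin n → F)) (v : Fin n → F) (hv : Q v ≠ 0) : (∀ x, Q ((Cfsg.reflectionMatrix ⇑Q v).mulVec x) = Q x) ∧ (Cfsg.reflectionMatrix ⇑Q v).mulVec v = -v ∧ (∀ x, QuadraticMap.polar ⇑Q v x = 0 → (Cfsg.reflectionMatrix ⇑Q v).mulVec x = x) ∧ (Cfsg.reflectionMatrix ⇑Q v).det = -1 := by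
  have k := reflectionMatrix_mulVec (ofQuad Q) v
  simp only [ofQuad_Q] at k
  refine ⟨fun x => ?_, ?_, fun x hx => ?_, ?_⟩
  · rw [k]; exact isom_Q ((ofQuad Q).r_mem v) x
  · rw [k]; exact r_self hv
  · rw [k]; exact r_of_perp ((ofQuad Q).B_zero_symm hx)
  · have : Matrix.toLin' (reflectionMatrix Q v) = ((ofQuad Q).r v : _ →ₗ[F] _) := LinearMap.ext k
    rw [← LinearMap.det_toLin', this, ← LinearEquiv.coe_det, det_r hv]; simp


end Cfsg.Agent.S0784
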