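import Cfsg.Statements.S0787
import Cfsg.Agent.H5.Br

set_option autoImplicit false
open Cfsg

namespace Cfsg.Agent.S0787

open H5 H5.Form

/-- Existence and uniqueness of Ω: if F is finite, n ≥ 2, Q is a quadratic form on F^n with non-degenerate polar form and (|F|, n) ≠ (2, 4), then the group of isometries of determinant one has a unique subgroup of index 2. -/
theorem result {F : Type*} [Field F] [Fintype F] {n : ℕ} (hn : 2 ≤ n) (Q : QuadraticForm F (Fin n → F)) (hQ : (QuadraticMap.polarBilin Q).Nondegenerate) (h : Fintype.card F ≠ 2 ∨ n ≠ 4) : ∃! H : Subgroup ↥(Cfsg.specialIsometryGroup F ⇑Q), H.index = 2 := by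
  have h1 := ofQuad_nondeg hQ
  have hR := h1.orth_RG (h.imp exists_ne_zero_one (by simp))
  refine existsUnique_index_congr (soEquiv (ofQuad Q)) ?_
  have hle : (ofQuad Q).Om ≤ (ofQuad Q).sisom := Om_le_of_sq hR fun v w hv hw =>
    mul_mem (rr_mem_sisom hv hw) (rr_mem_sisom hv hw)
  have k : ((ofQuad Q).Om.subgroupOf (ofQuad Q).sisom).index = 2 := by
    have e1 : (ofQuad Q).Om.relIndex (ofQuad Q).isom = (commutator (ofQuad Q).isom).index :=
      (index_eq_of_equiv (MulEquiv.refl _) mem_commutator_iff).symm
    have e2 := Subgroup.relIndex_mul_relIndex _ _ _ hle (sisom_le_isom (Φ := ofQuad Q))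
    change Subgroup.relIndex _ _ = 2
    by_cases h2 : (2 : F) = 0
    · have : (ofQuad Q).sisom = (ofQuad Q).isom := le_antisymm sisom_le_isom fun g hg => ⟨hg, by
        have := h1.det_mul_conj hg
        refine Units.ext ((mul_self_eq_one_iff.1 this).elim id fun e => e.trans ?_)
        rw [Units.val_one]; linear_combination -h2⟩
      rw [this, e1, h1.index_even hR (FiniteField.isSquare_of_char_two (ringChar_eq_two h2)) (by simp; omega)]
    · have : (ofQuad Q).sisom.relIndex (ofQuad Q).isom = 2 := by
        have e : (ofQuad Q).sisom.subgroupOf (ofQuad Q).isom = (h1.dickHom hR).ker := by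
          ext g; exact h1.mem_sisom_iff_dick h2 g.2
        have := Module.nontrivial_of_finrank_pos (R := F) (M := Fin n → F) (by simp; omega)
        obtain ⟨v, hv⟩ := h1.orth_exists_Q_ne
        rw [Subgroup.relIndex, e, Subgroup.index_ker, MonoidHom.range_eq_top.2 fun x => ?_]
        · simp
        · rcases Int.units_eq_one_or x with rfl | rfl
          · exact ⟨1, map_one _⟩
          · exact ⟨⟨_, r_mem _ v⟩, h1.dick_r hv⟩
      rw [this, e1, h1.index_odd h2 (by simpa)] at e2
      omega
  refine ⟨_, k, fun H hH => (eq_of_le_of_index_eq (fun g hg => ?_) (k.trans hH.symm) (by simp [hH])).symm⟩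
  have := Om_le_of_sq hR (K := H.map (Subgroup.subtype _)) (fun v w hv hw =>
    ⟨_, Subgroup.mul_self_mem_of_index_two hH ⟨_, rr_mem_sisom hv hw⟩, rfl⟩) hg
  simpa using this


end Cfsg.Agent.S0787
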