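import Cfsg.Statements.S0790
import Cfsg.Agent.H5.Br

set_option autoImplicit false
open Cfsg

namespace Cfsg.Agent.S0790

open H5 H5.Form

/-- −1 ∈ Ω⁺_2m(q) iff q^m ≡ 1 (mod 4), for q odd and m ≥ 1 (so that in the other case SO⁺_2m(q) = 2 × Ω⁺_2m(q)). -/
theorem result {F : Type*} [Field F] [Fintype F] {q : ℕ} (hF : Fintype.card F = q) (hodd : Odd q) (m : ℕ) (hm : 1 ≤ m) : (∃ g : ↥(Cfsg.isometryGroup F (Cfsg.quadFormPlus m F)), g ∈ Cfsg.Omega F (Cfsg.quadFormPlus m F) ∧ ((g : Matrix.GeneralLinearGroup (Fin m ⊕ Fin m) F) : Matrix (Fin m ⊕ Fin m) (Fin m ⊕ Fin m) F) = -1) ↔ q ^ m % 4 = 1 := by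
  have h2 := two_ne_zero_of_odd (F := F) (hF ▸ hodd)
  rw [← hF, ← neg_mem_Om_plus (plusF_nondeg m) h2 (by simp; omega) (plusF_hasTS m)]
  have k : ∀ g : isometryGroup F (plusF F m).Q, g.1.1 = -1 ↔ (oEquiv (plusF F m) g).1 = scal _ (-1 : Fˣ) := fun g =>
    mat_eq_iff (oEquiv_apply _ g) fun v => by rw [Matrix.neg_mulVec, Matrix.one_mulVec, scal_apply]; simp
  constructor
  · rintro ⟨g, h3, h4⟩
    rw [← (k g).1 h4]; exact (mem_Omega_iff (plusF F m) g).1 h3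
  · intro h
    exact ⟨(oEquiv (plusF F m)).symm ⟨_, neg_mem_isom⟩, (mem_Omega_iff (plusF F m) _).2 (by rwa [MulEquiv.apply_symm_apply]),
      (k _).2 (by rw [MulEquiv.apply_symm_apply])⟩


end Cfsg.Agent.S0790
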