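import Cfsg.Statements.S0791
import Cfsg.Agent.H5.Br

set_option autoImplicit false
open Cfsg

namespace Cfsg.Agent.S0791

open H5 H5.Form

/-- −1 ∈ Ω⁻_2m(q) iff q^m ≡ −1 (mod 4), for q odd and m ≥ 1; for the minus-type form quadFormMinus (m−1) with anisotropic binary part. -/
theorem result {F : Type*} [Field F] [Fintype F] {q : ℕ} (hF : Fintype.card F = q) (hodd : Odd q) (m : ℕ) (hm : 1 ≤ m) (a b : F) (hab : ∀ z₁ z₂ : F, z₁ ^ 2 + a * z₁ * z₂ + b * z₂ ^ 2 = 0 → z₁ = 0 ∧ z₂ = 0) : (∃ g : ↥(Cfsg.isometryGroup F (Cfsg.quadFormMinus (m - 1) F a b)), g ∈ Cfsg.Omega F (Cfsg.quadFormMinus (m - 1) F a b) ∧ ((g : Matrix.GeneralLinearGroup ((Fin (m - 1) ⊕ Fin (m - 1)) ⊕ Fin 2) F) : Matrix ((Fin (m - 1) ⊕ Fin (m - 1)) ⊕ Fin 2) ((Fin (m - 1) ⊕ Fin (m - 1)) ⊕ Fin 2) F) = -1) ↔ q ^ m % 4 = 3 := by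
  have h2 := two_ne_zero_of_odd (F := F) (hF ▸ hodd)
  obtain ⟨m, rfl⟩ : ∃ k, m = k + 1 := ⟨m - 1, by omega⟩
  rw [← hF, ← neg_mem_Om_minus (minusF_nondeg m (disc_ne_zero_of_aniso hab)) h2 (by simp; omega)
    (minusF_not_hasTS m hab)]
  have k : ∀ g : isometryGroup F (minusF m a b).Q, g.1.1 = -1 ↔ (oEquiv (minusF m a b) g).1 = scal _ (-1 : Fˣ) := fun g =>
    mat_eq_iff (oEquiv_apply _ g) fun v => by rw [Matrix.neg_mulVec, Matrix.one_mulVec, scal_apply]; simp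
  constructor
  · rintro ⟨g, h3, h4⟩
    rw [← (k g).1 h4]; exact (mem_Omega_iff (minusF m a b) g).1 h3
  · intro h
    exact ⟨(oEquiv (minusF m a b)).symm ⟨_, neg_mem_isom⟩, (mem_Omega_iff (minusF m a b) _).2 (by rwa [MulEquiv.apply_symm_apply]),
      (k _).2 (by rw [MulEquiv.apply_symm_apply])⟩


end Cfsg.Agent.S0791
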