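import Cfsg.Statements.S0792
import Cfsg.Agent.H5.Br

set_option autoImplicit false
open Cfsg

namespace Cfsg.Agent.S0792

open H5 H5.Form

/-- For q odd and Q with non-degenerate polar form on F^n, the determinant-one isometries form the subgroup generated by all products r_u r_v of two reflections (Q(u), Q(v) ≠ 0). -/
theorem result {F : Type*} [Field F] [Fintype F] (h2 : (2 : F) ≠ 0) {n : ℕ} (Q : QuadraticForm F (Fin n → F)) (hQ : (QuadraticMap.polarBilin Q).Nondegenerate) : Cfsg.specialIsometryGroup F ⇑Q = Subgroup.closure {g : ↥(Cfsg.isometryGroup F ⇑Q) | ∃ u v : Fin n → F, Q u ≠ 0 ∧ Q v ≠ 0 ∧ ((g : Matrix.GeneralLinearGroup (Fin n) F) : Matrix (Fin n) (Fin n) F) = Cfsg.reflectionMatrix ⇑Q u * Cfsg.reflectionMatrix ⇑Q v} := by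
  ext g
  rw [mem_closure_iff_of_equiv (qEquiv Q)
    (T := {g | ∃ u v, Q u ≠ 0 ∧ Q v ≠ 0 ∧ g = (ofQuad Q).r u * (ofQuad Q).r v})
    (by rintro _ ⟨u, v, -, -, rfl⟩; exact mul_mem (r_mem _ u) (r_mem _ v)) fun g => ?_, q_mem_SO]
  · refine ⟨fun h => (ofQuad_nondeg hQ).sisom_le h2 (fun u v hu hv => ?_) h,
      fun h => (Subgroup.closure_le _).2 ?_ h⟩
    · exact Subgroup.subset_closure ⟨u, v, hu, hv, rfl⟩
    rintro _ ⟨u, v, hu, hv, rfl⟩; exact rr_mem_sisom hu hv
  · simp only [Set.mem_setOf_eq]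
    refine exists₂_congr fun u v => and_congr_right' (and_congr_right' (mat_eq_iff (qEquiv_apply Q g) ?_))
    intro x; rw [← Matrix.mulVec_mulVec, q_refl, q_refl]; rfl


end Cfsg.Agent.S0792
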