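import Cfsg.Statements.S0793
import Cfsg.Agent.H5.Br

set_option autoImplicit false
open Cfsg

namespace Cfsg.Agent.S0793

open H5 H5.Form

/-- Root elements: if Q(u) = Q(v) = 0 and f(u, v) = 0 (f the polar form), then for every c the Siegel matrix T_(u,v)(c) preserves Q, fixes u and v, and T(c) T(d) = T(c + d). -/
theorem result {F : Type*} [Field F] {n : ℕ} (Q : QuadraticForm F (Fin n → F)) (u v : Fin n → F) (hu : Q u = 0) (hv : Q v = 0) (huv : QuadraticMap.polar ⇑Q u v = 0) : (∀ c x, Q ((Cfsg.siegelMatrix ⇑Q u v c).mulVec x) = Q x) ∧ (∀ c, (Cfsg.siegelMatrix ⇑Q u v c).mulVec u = u ∧ (Cfsg.siegelMatrix ⇑Q u v c).mulVec v = v) ∧ ∀ c d, Cfsg.siegelMatrix ⇑Q u v c * Cfsg.siegelMatrix ⇑Q u v d = Cfsg.siegelMatrix ⇑Q u v (c + d) := by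
  have h1 : (ofQuad Q).B u v = 0 := huv
  have h2 := (ofQuad Q).B_zero_symm h1
  have h3 := (ofQuad Q).B_self_of_Q hu
  have h4 := (ofQuad Q).B_self_of_Q hv
  refine ⟨fun c x => ?_, fun c => ?_, fun c d => matrix_ext_mulVec fun x => ?_⟩
  · have := isom_Q ((ofQuad Q).eich_mem (u := u) (v := c • v) (a := 0) (show (ofQuad Q).Q u = 0 from hu) (by simp [-ofQuad_B, h2])
      ((Kind.orth_π _).trans ((ofQuad Q).Q_smul_zero hv c).symm)) x
    rw [eich_apply] at this
    rw [q_siegel]; simpa [-ofQuad_B] using this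
  · simp [q_siegel, h1, h2, h3, h4, -ofQuad_B]
  · simp only [← Matrix.mulVec_mulVec, q_siegel, map_add, map_sub, map_smul, LinearMap.add_apply,
      LinearMap.sub_apply, LinearMap.smul_apply, h1, h2, h3, h4]
    module


end Cfsg.Agent.S0793
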