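import Cfsg.Statements.S0794
import Cfsg.Agent.H5.Br

set_option autoImplicit false
open Cfsg

namespace Cfsg.Agent.S0794

open H5 H5.Form

/-- For q odd, n ≥ 5 and Q with non-degenerate polar form: an isometry whose matrix is a Siegel transformation T_(u,v)(c) (u, v singular and orthogonal) is a commutator in the isometry group, so lies in Ω. -/
theorem result {F : Type*} [Field F] [Fintype F] (h2 : (2 : F) ≠ 0) {n : ℕ} (hn : 5 ≤ n) (Q : QuadraticForm F (Fin n → F)) (hQ : (QuadraticMap.polarBilin Q).Nondegenerate) (u v : Fin n → F) (hu : Q u = 0) (hv : Q v = 0) (huv : QuadraticMap.polar ⇑Q u v = 0) (c : F) (g : ↥(Cfsg.isometryGroup F ⇑Q)) (hg : ((g : Matrix.GeneralLinearGroup (Fin n) F) : Matrix (Fin n) (Fin n) F) = Cfsg.siegelMatrix ⇑Q u v c) : g ∈ commutatorSet ↥(Cfsg.isometryGroup F ⇑Q) ∧ g ∈ Cfsg.Omega F ⇑Q := by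
  suffices k : g ∈ commutatorSet _ from ⟨k, by
    obtain ⟨a, b, rfl⟩ := k
    exact Subgroup.commutator_mem_commutator trivial trivial⟩
  have h1 : (ofQuad Q).B (c • v) u = 0 := by
    simp [-ofQuad_B, (ofQuad Q).B_zero_symm (x := u) (y := v) huv]
  have h3 : (ofQuad Q).Q (c • v) = 0 := (ofQuad Q).Q_smul_zero hv c
  obtain ⟨a, ha, b, hb, e⟩ := (ofQuad_nondeg hQ).siegel_comm (by simpa) (u := u) (a := 0) hu h1
    ((Kind.orth_π _).trans h3.symm) h3
  refine ⟨(qEquiv Q).symm ⟨a, EG_le_isom ha⟩, (qEquiv Q).symm ⟨b, EG_le_isom hb⟩, ?_⟩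
  rw [← map_commutatorElement, MulEquiv.symm_apply_eq]
  exact Subtype.ext (e.trans ((q_siegel_iff Q g u v c 0 _ _ _ rfl).1 hg).symm)


end Cfsg.Agent.S0794
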