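import Cfsg.Statements.S0795
import Cfsg.Agent.H5.Br
import Cfsg.Agent.S0794

set_option autoImplicit false
open Cfsg

namespace Cfsg.Agent.S0795

open H5 H5.Form

/-- Generation of Ω by root elements: for q odd, n ≥ 5 and Q with non-degenerate polar form on F^n, the commutator subgroup of the isometry group equals the subgroup generated by the isometries whose matrices are Siegel transformations T_(u,v)(c) with u, v singular and orthogonal. -/
theorem result {F : Type*} [Field F] [Fintype F] (h2 : (2 : F) ≠ 0) {n : ℕ} (hn : 5 ≤ n) (Q : QuadraticForm F (Fin n → F)) (hQ : (QuadraticMap.polarBilin Q).Nondegenerate) : Cfsg.Omega F ⇑Q = Subgroup.closure {g : ↥(Cfsg.isometryGroup F ⇑Q) | ∃ (u v : Fin n → F) (c : F), Q u = 0 ∧ Q v = 0 ∧ QuadraticMap.polar ⇑Q u v = 0 ∧ ((g : Matrix.GeneralLinearGroup (Fin n) F) : Matrix (Fin n) (Fin n) F) = Cfsg.siegelMatrix ⇑Q u v c} := by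
  refine le_antisymm (fun g hg => ?_) ((Subgroup.closure_le _).2 ?_)
  · have h1 := ofQuad_nondeg hQ
    rw [q_mem_Omega, h1.Om_eq_EG (by simp; omega) (Or.inr (by simp; omega))] at hg
    refine (Subgroup.mem_map_iff_mem (f := ((ofQuad Q).isom.subtype).comp (qEquiv Q).toMonoidHom)
      (Subtype.val_injective.comp (qEquiv Q).injective)).1
      (h1.EG_le_of_siegel (by simpa) (fun u w hw a hu hv ha => ?_) hg)
    refine ⟨(qEquiv Q).symm ⟨_, eich_mem _ hu hv ha⟩, Subgroup.subset_closure
      ⟨u, w, 1, hu, hw, (ofQuad Q).B_zero_symm hv, ?_⟩, by simp⟩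
    rw [q_siegel_iff Q _ u w 1 a hu (by simpa using hv) (by simpa using ha) (ha.trans hw)]
    simp
  · rintro g ⟨u, v, c, hu, hv, huv, hg⟩
    exact (S0794.result h2 hn Q hQ u v hu hv huv c g hg).2


end Cfsg.Agent.S0795
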