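import Cfsg.Statements.S0796
import Cfsg.Agent.H5.Br

set_option autoImplicit false
open Cfsg

namespace Cfsg.Agent.S0796

open MulAction

/-- If G is finite and acts faithfully and primitively on X, H is the stabiliser of a point, A is a normal subgroup of H whose normal closure in G is G, then for every non-trivial normal subgroup K of G the quotient G ⧸ K is isomorphic to A ⧸ B for some normal subgroup B of A. -/
theorem result {G X : Type*} [Group G] [Finite G] [MulAction G X] [FaithfulSMul G X] (hprim : MulAction.IsPreprimitive G X) (x : X) (A : Subgroup G) (hA : A ≤ MulAction.stabilizer G x) (hAn : (A.subgroupOf (MulAction.stabilizer G x)).Normal) (hgen : Subgroup.normalClosure (A : Set G) = ⊤) (K : Subgroup G) [K.Normal] (hK : K ≠ ⊥) : ∃ (B : Subgroup A) (_ : B.Normal), Nonempty (G ⧸ K ≃* A ⧸ B) := by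
  have tr : ∀ y : X, ∃ k ∈ K, k • x = y := fun y => by
    haveI := hprim
    have := IsQuasiPreprimitive.isPretransitive_of_normal (G := G) (X := X) (N := K) fun e => hK ((Subgroup.eq_bot_iff_forall _).2 fun k hk =>
      eq_of_smul_eq_smul (α := X) fun y => by simpa using (e.ge trivial : y ∈ fixedPoints K X) ⟨k, hk⟩)
    obtain ⟨k, e⟩ := this.exists_smul_eq x y
    exact ⟨k, k.2, e⟩
  haveI : (K ⊔ A).Normal := by
    refine Subgroup.normalizer_eq_top_iff.1 (eq_top_iff.2 fun g _ => ?_)
    obtain ⟨k, hk, e⟩ := tr (g • x)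
    have hs : k⁻¹ * g ∈ stabilizer G x := by simp [mul_smul, inv_smul_eq_iff, e]
    rw [show g = k * (k⁻¹ * g) by simp]
    exact mul_mem (Subgroup.le_normalizer (Subgroup.mem_sup_left hk)) (Subgroup.normalizer_inf_normalizer_le_normalizer_sup K A
      ⟨Subgroup.normalizer_eq_top (H := K) ▸ trivial, (Subgroup.normal_subgroupOf_iff_le_normalizer hA).1 hAn hs⟩)
  have t : K ⊔ A = ⊤ := eq_top_iff.2 (hgen ▸ Subgroup.normalClosure_le_normal fun a ha => Subgroup.mem_sup_right ha)
  refine ⟨((QuotientGroup.mk' K).comp A.subtype).ker, inferInstance, ⟨(QuotientGroup.quotientKerEquivOfSurjective _ fun g => ?_).symm⟩⟩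
  induction g using QuotientGroup.induction_on with | H g
  obtain ⟨k, hk, a, ha, rfl⟩ := Subgroup.mem_sup_of_normal_left.1 (t.ge (Subgroup.mem_top g))
  exact ⟨⟨a, ha⟩, by simp [(QuotientGroup.eq_one_iff k).2 hk]⟩


end Cfsg.Agent.S0796
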