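import Cfsg.Statements.S0798
import Cfsg.Agent.H5.Br

set_option autoImplicit false
open Cfsg

namespace Cfsg.Agent.S0798

open H5 H5.Form

/-- For q odd, n ≥ 2 even, Q with non-degenerate polar form (n, |F|) ≠ (4, 3), and a fixed c ≠ 0: the subgroup of the isometry group generated by the reflections r_v with Q(v) ∈ c·(F^×)² has index 2. -/
theorem result {F : Type*} [Field F] [Fintype F] (h2 : (2 : F) ≠ 0) {n : ℕ} (hn : 2 ≤ n) (heven : Even n) (Q : QuadraticForm F (Fin n → F)) (hQ : (QuadraticMap.polarBilin Q).Nondegenerate) (h43 : ¬ (n = 4 ∧ Fintype.card F = 3)) (c : F) (hc : c ≠ 0) : (Subgroup.closure {g : ↥(Cfsg.isometryGroup F ⇑Q) | ∃ (v : Fin n → F) (t : F), t ≠ 0 ∧ Q v = c * t ^ 2 ∧ ((g : Matrix.GeneralLinearGroup (Fin n) F) : Matrix (Fin n) (Fin n) F) = Cfsg.reflectionMatrix ⇑Q v}).index = 2 := by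
  have h3 := odd_of_two_ne_zero h2
  have h4 := Fintype.one_lt_card (α := F)
  refine Eq.trans ?_ ((ofQuad_nondeg hQ).index_Rc h2 hc (by
    simp only [Module.finrank_fin_fun]
    rw [Nat.odd_iff] at h3; rw [Nat.even_iff] at heven; omega))
  refine index_eq_of_equiv (qEquiv Q) fun g => mem_closure_iff_of_equiv (qEquiv Q) ?_ ?_ g
  · rintro _ ⟨v, t, -, -, rfl⟩; exact r_mem _ v
  · simp [q_refl_iff]


end Cfsg.Agent.S0798
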