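import Cfsg.Statements.S0800
import Cfsg.Agent.H5.SL2Cl

set_option autoImplicit false
open Cfsg

namespace Cfsg.Agent.S0800

open H5

/-- Tori of SL_2(q): if g ∈ SL_2(q) has order coprime to the characteristic p, then the order of g divides q − 1 or q + 1. -/
theorem result {F : Type*} [Field F] [Fintype F] {q : ℕ} (hF : Fintype.card F = q) (p : ℕ) [Fact p.Prime] [CharP F p] (g : Matrix.SpecialLinearGroup (Fin 2) F) (hg : Nat.Coprime (orderOf g) p) : orderOf g ∣ q - 1 ∨ orderOf g ∣ q + 1 := by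
  subst hF
  obtain ⟨n, T, D, hT, h⟩ := exists_tor_of_orderOf p (g := mkS g) fun e => by
    have := (e ▸ orderOf_map_dvd mkS g : p ∣ orderOf g)
    exact (Fact.out : p.Prime).one_lt.ne' (Nat.eq_one_of_dvd_coprimes hg this dvd_rfl)
  have : orderOf g ∣ n := hT.card_SL ▸ Subgroup.orderOf_dvd_natCard (T.comap mkS) h
  rcases hT.eq with rfl | rfl
  exacts [Or.inl this, Or.inr this]


end Cfsg.Agent.S0800
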