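import Cfsg.Statements.S0801
import Cfsg.Agent.H5.SL2Cl

set_option autoImplicit false
open Cfsg

namespace Cfsg.Agent.S0801

open H5

/-- Let F be a finite field of odd characteristic and λ ≠ 0 an element generating F as a field. Then the lower and upper unitriangular matrices with off-diagonal entries 1 and λ generate SL_2(F), unless |F| = 9 and λ² = −1, in which case they generate a subgroup of order 120. -/
theorem result {F : Type*} [Field F] [Fintype F] (h2 : (2 : F) ≠ 0) (lam : F) (hlam : lam ≠ 0) (hgen : Subfield.closure ({lam} : Set F) = ⊤) : (Subgroup.closure {g : Matrix.SpecialLinearGroup (Fin 2) F | (g : Matrix (Fin 2) (Fin 2) F) = !![1, 0; 1, 1] ∨ (g : Matrix (Fin 2) (Fin 2) F) = !![1, lam; 0, 1]} = ⊤ ∧ ¬ (Fintype.card F = 9 ∧ lam ^ 2 = -1)) ∨ (Fintype.card F = 9 ∧ lam ^ 2 = -1 ∧ Nat.card ↥(Subgroup.closure {g : Matrix.SpecialLinearGroup (Fin 2) F | (g : Matrix (Fin 2) (Fin 2) F) = !![1, 0; 1, 1] ∨ (g : Matrix (Fin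 2) (Fin 2) F) = !![1, lam; 0, 1]}) = 120) := by
  obtain ⟨p, hp⟩ := CharP.exists F
  have : Fact p.Prime := ⟨CharP.char_is_prime F p⟩
  have hp2 := (char_ne_two p).2 h2
  generalize hH : Subgroup.closure (G := SL2 F) _ = H
  have ha : sl2 1 0 1 1 (by simp) ∈ H := hH ▸ Subgroup.subset_closure (Or.inl rfl)
  have hb : up lam ∈ H := hH ▸ Subgroup.subset_closure (Or.inr rfl)
  have k1 : kap (mkS (sl2 1 0 1 1 (by simp) * up lam)) = (lam + 2) ^ 2 := by rw [kap_mkS, sl2_mul]; simp; ring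
  have k2 : kap (mkS (sl2 1 0 1 1 (by simp) * (up lam)⁻¹)) = (lam - 2) ^ 2 := by rw [kap_mkS, sl2_inv, sl2_mul]; simp; ring
  have m1 : mkS (sl2 1 0 1 1 (by simp) * up lam) ∈ H.map mkS := ⟨_, mul_mem ha hb, rfl⟩
  have m2 : mkS (sl2 1 0 1 1 (by simp) * (up lam)⁻¹) ∈ H.map mkS := ⟨_, mul_mem ha (inv_mem hb), rfl⟩
  have htop : ∀ k0 : Subfield F, lam ∈ k0 → k0 = ⊤ := fun k0 h => top_le_iff.1 (hgen ▸ Subfield.closure_le.2 (by simpa))
  have hd : p ∣ Nat.card (H.map mkS) := by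
    rw [← orderOf_aff_one p hlam, ← mkS_up]; exact Subgroup.orderOf_dvd_natCard _ ⟨_, hb, rfl⟩
  have hf : ¬ ∃ x : OnePoint F, ∀ g ∈ H.map mkS, g • x = x := fun ⟨x, hx⟩ => by
    have h3 := fix_eq_of_UP (mem_UP_infty.2 ⟨lam, rfl⟩) (by simp [aff_eq_one, hlam]) (hx _ ⟨_, hb, mkS_up _⟩)
    have h4 := hx _ ⟨_, ha, rfl⟩
    rw [h3, mkS_sl2, pg_infty_eq_iff] at h4
    exact one_ne_zero h4
  rcases dickson_unip p _ hd hf with ⟨h, -⟩ | ⟨rfl, ⟨e⟩⟩ | ⟨c, k0, -, h⟩
  · exact (hp2 h).elim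
  · have h3 : (3 : F) = 0 := CharP.cast_eq_zero F 3
    have hk : ∀ g ∈ H.map mkS, kap g = 0 ∨ kap g = 1 ∨ kap g ^ 2 = -1 := fun g hg => by
      have h4 : ∀ a : A5, a ^ 2 = 1 ∨ a ^ 3 = 1 ∨ a ^ 5 = 1 := by decide +kernel
      have h5 : ∀ n, e ⟨g, hg⟩ ^ n = 1 → g ^ n = 1 := fun n h => congrArg Subtype.val (e.injective (h.trans (map_one e).symm |>
        ((map_pow e _ _).trans ·)))
      by_cases h1 : g = 1
      · rw [h1, kap_one]; exact Or.inr (Or.inl (by linear_combination h3))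
      rcases h4 (e ⟨g, hg⟩) with h | h | h
      · exact Or.inl ((pow_two_eq_one_iff.1 (h5 _ h)).resolve_left h1)
      · exact Or.inr (Or.inl ((pow_three_eq_one_iff.1 (h5 _ h)).resolve_left h1))
      · exact Or.inr (Or.inr (by linear_combination (pow_five_eq_one_iff.1 (h5 _ h)).resolve_left h1 + kap g * h3))
    have hc := Subgroup.card_subgroup_dvd_card (H.map mkS)
    rw [card_equiv e, KB.card_A5, card_PG] at hc
    have h9 : Fintype.card F ≠ 3 := fun h => by rw [h] at hc; omega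
    have h4 : lam ^ 2 ≠ 1 := fun h => by
      obtain ⟨k0, hk0⟩ := exists_prime_subfield (F := F) 3
      refine h9 ((subfield_eq_top_iff.1 (htop k0 ?_)).symm.trans hk0)
      rcases sq_eq_one_iff.1 h with rfl | rfl
      exacts [one_mem _, neg_mem (one_mem _)]
    have h5 := hk _ m1
    have h6 := hk _ m2
    rw [k1] at h5
    rw [k2] at h6
    have h7 : lam ^ 2 = -1 := by grind
    refine Or.inr ⟨?_, h7, ?_⟩
    · have h8 := (card_fixField_le (F := F) (p := 3) two_ne_zero).2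
      rw [subfield_eq_top_iff.1 (htop _ (mem_fixField.2 (by grind)))] at h8
      obtain ⟨n, -, hn⟩ := FiniteField.card F 3
      rw [hn] at h8 h9 ⊢
      obtain ⟨_ | _ | _ | n, h0⟩ := n
      · simp at h0
      · simp at h9
      · rfl
      · have := Nat.pow_le_pow_right (show 0 < 3 by norm_num) (show 3 ≤ n + 1 + 1 + 1 by omega)
        change 3 ^ (n + 1 + 1 + 1) ≤ _ at h8
        omega
    · obtain ⟨⟨_, s, hs, rfl⟩, h8⟩ := exists_prime_orderOf_dvd_card' (G := H.map mkS) 2 (by rw [card_equiv e, KB.card_A5]; norm_num)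
      rw [← Subgroup.orderOf_coe] at h8
      have h10 : s * s = -1 := sq_eq_neg_one (fun h => by simp [h] at h8) ((sq _).symm.trans (orderOf_dvd_iff_pow_eq_one.1 h8.dvd))
      rw [card_eq_map_mkS (h10 ▸ mul_mem hs hs), card_equiv e, KB.card_A5,
        gcd_two_of_odd (Nat.not_even_iff_odd.1 (mt even_iff_two_eq_zero.1 h2))]
  · have h3 : H.map mkS ≤ cj c (subPGL k0) := by
      rcases h with h | ⟨-, h⟩ <;> rw [h]
      exact cj_le_cj.2 (subPSL_le k0)
    have h4 : lam ∈ k0 := by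
      have := k0.div_mem (k0.sub_mem (kap_mem (h3 m1)) (kap_mem (h3 m2))) (k0.pow_mem (natCast_mem k0 2) 3)
      rwa [k1, k2, show ((lam + 2) ^ 2 - (lam - 2) ^ 2) / ((2 : ℕ) : F) ^ 3 = lam by push_cast; field_simp; ring] at this
    obtain rfl := htop k0 h4
    have h5 : PS F ≤ H.map mkS := by
      rcases h with h | ⟨-, h⟩ <;> rw [h]
      · rw [subPGL_top, cj_of_normal]; exact le_top
      · rw [subPSL_top, cj_of_normal]
    have ho := (Fact.out : p.Prime).odd_of_ne_two hp2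
    refine Or.inl ⟨SL2_eq_top H (fun b => mem_of_pow_odd (h5 (mkS_mem_PS _)) ho ?_)
      (fun b => mem_of_pow_odd (h5 (mkS_mem_PS _)) ho ?_), fun ⟨h9, hl⟩ => ?_⟩
    · rw [upper_pow, CharP.cast_eq_zero, zero_mul, ← one_eq_sl2]
    · rw [lower_pow, CharP.cast_eq_zero, zero_mul, ← one_eq_sl2]
    · have : CharP F 3 := char_of_card (n := 2) Nat.prime_three h9
      have h3 : (3 : F) = 0 := CharP.cast_eq_zero F 3
      have hd : (1 + lam) * (2 + 2 * lam) - (1 + lam) * lam ≠ 0 := by grind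
      have hT : IsTri (-lam) (pg (1 + lam) (1 + lam) lam (2 + 2 * lam) hd) (pg 1 0 1 1 (by simp)) :=
        ⟨by rw [kap_pg]; grind, by rw [kap_pg]; grind, by rw [pg_mul, kap_pg]; grind⟩
      obtain ⟨e⟩ := hT.A5 (by grind) (by rw [ne_eq, pg_eq_one_iff]; tauto)
      refine not_PS_le_small (by omega) (by rw [card_equiv e, KB.card_A5]) (h5.trans ?_)
      rw [← hH, MonoidHom.map_closure, Subgroup.closure_le]
      have a1 := Subgroup.subset_closure (k := {pg (1 + lam) (1 + lam) lam (2 + 2 * lam) hd, pg 1 0 1 1 (by simp)}) (Or.inl rfl)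
      have a2 := Subgroup.subset_closure (k := {pg (1 + lam) (1 + lam) lam (2 + 2 * lam) hd, pg 1 0 1 1 (by simp)}) (Or.inr rfl)
      rintro _ ⟨g, hg | hg, rfl⟩
      · obtain rfl : g = sl2 1 0 1 1 (by simp) := Subtype.ext hg
        rw [mkS_sl2]; exact a2
      · obtain rfl : g = up lam := Subtype.ext hg
        have := mul_mem (mul_mem (mul_mem (mul_mem a2 a1) a2) a1) (inv_mem a2)
        rw [pg_inv, pg_mul, pg_mul, pg_mul, pg_mul] at this
        rw [mkS_sl2]
        refine Set.mem_of_eq_of_mem (pg_eq_iff.2 ⟨-1, by simp, ?_, ?_, ?_, ?_⟩) this <;> grind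


end Cfsg.Agent.S0801
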