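import Cfsg.Statements.S0802
import Cfsg.Agent.H5.PSL2

set_option autoImplicit false
open Cfsg

namespace Cfsg.Agent.S0802

open H5

/-- PSL_2(p^n) has a subgroup isomorphic to A_4 if and only if it is not the case that p = 2 and n is odd. -/
theorem result {F : Type*} [Field F] [Fintype F] (p n : ℕ) [Fact p.Prime] [CharP F p] (hF : Fintype.card F = p ^ n) : (∃ H : Subgroup (Matrix.ProjectiveSpecialLinearGroup (Fin 2) F), Nonempty (H ≃* alternatingGroup (Fin 4))) ↔ ¬ (p = 2 ∧ Odd n) := by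
  have hp : p.Prime := Fact.out
  rw [exists_psl_sub]
  constructor
  · rintro ⟨H, -, ⟨e⟩⟩ ⟨rfl, j, rfl⟩
    have h1 : orderOf (emb e KB.b4) = 3 := by
      rw [orderOf_injective _ (emb_inj e)]; exact orderOf_eq_prime (by decide) (by decide)
    obtain ⟨x, hx⟩ := le_UP_of_isPGroup 2 (P := Subgroup.closure {emb e KB.a4, emb e (KB.b4 * KB.a4 * KB.b4⁻¹)}) (by
      rw [← Set.image_pair, ← MonoidHom.map_closure]
      refine IsPGroup.map (IsPGroup.to_le (K := ⟨⟨⟨{g : A4 | g * g = 1}, by decide +kernel⟩, by decide⟩, by decide +kernel⟩)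
        (fun g => ⟨1, Subtype.ext ((sq _).trans g.2)⟩) ((Subgroup.closure_le _).2 ?_)) _
      rintro _ (rfl | rfl) <;> show _ * _ = 1 <;> decide +kernel)
    have h2 := hx (Subgroup.subset_closure (Or.inl rfl))
    have h3 := hx (Subgroup.subset_closure (Or.inr rfl))
    have h4 : emb e KB.b4 • x = x := by
      refine fix_eq_of_UP h3 (by rw [Ne, map_eq_one_iff _ (emb_inj e)]; decide) ?_
      simp [mul_smul, show emb e KB.a4 • x = x from UP_le _ h2]
    have h5 := Subgroup.orderOf_dvd_natCard (MulAction.stabilizer (PG F) x) h4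
    rw [h1, card_stab, hF, Nat.Prime.dvd_mul Nat.prime_three] at h5
    have h6 : 2 ^ (2 * j + 1) % 3 = 2 := by rw [pow_succ, pow_mul, Nat.mul_mod, Nat.pow_mod]; simp
    generalize 2 ^ (2 * j + 1) = a at h5 h6
    omega
  · intro h
    suffices ∃ H : Subgroup (PG F), Nonempty (H ≃* A4) by
      obtain ⟨H, ⟨e⟩⟩ := this
      exact ⟨H, A4_le_PS e, ⟨e⟩⟩
    by_cases h2 : (2 : F) = 0
    · obtain rfl : p = 2 := (Nat.prime_dvd_prime_iff_eq hp Nat.prime_two).1 ((CharP.cast_eq_zero_iff F p 2).1 h2)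
      obtain ⟨j, rfl⟩ : Even n := by simpa using h
      have : Fact (Nat.Prime 3) := ⟨Nat.prime_three⟩
      classical
      obtain ⟨a, ha⟩ := exists_prime_orderOf_dvd_card' (G := Fˣ) 3 (by
        rw [Nat.card_eq_fintype_card, Fintype.card_units, hF, ← two_mul, pow_mul]
        exact Nat.sub_one_dvd_pow_sub_one 4 j)
      have h3 : (a : F) ^ 3 = 1 := by rw [← Units.val_pow_eq_pow_val, ← ha, pow_orderOf_eq_one, Units.val_one]
      have h4 : (a : F) - 1 ≠ 0 := fun e => by
        rw [sub_eq_zero, Units.val_eq_one] at e; simp [e] at ha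
      obtain ⟨x, y, h, h1, -⟩ := exists_tri_of one_ne_zero (a := (a : F)) (c := 0)
        (mul_left_cancel₀ h4 (by linear_combination h3 - (a ^ 2 - a) * h2))
      exact ⟨_, h.A4 rfl h1⟩
    · exact exists_A4 h2


end Cfsg.Agent.S0802
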