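import Cfsg.Statements.S0803
import Cfsg.Agent.H5.PSL2

set_option autoImplicit false
open Cfsg

namespace Cfsg.Agent.S0803

open H5

/-- PSL_2(q) has a subgroup isomorphic to S_4 iff q² ≡ 1 (mod 16). -/
theorem result {F : Type*} [Field F] [Fintype F] {q : ℕ} (hF : Fintype.card F = q) : (∃ H : Subgroup (Matrix.ProjectiveSpecialLinearGroup (Fin 2) F), Nonempty (H ≃* Equiv.Perm (Fin 4))) ↔ q ^ 2 % 16 = 1 := by
  subst hF
  rw [exists_psl_sub]
  have k : Fintype.card F ^ 2 % 16 = 1 ↔ Fintype.card F % 8 = 1 ∨ Fintype.card F % 8 = 7 := by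
    rw [Nat.pow_mod, ← Nat.mod_mod_of_dvd _ (by norm_num : 8 ∣ 16)]
    have := Nat.mod_lt (Fintype.card F) (by norm_num : 16 > 0)
    interval_cases Fintype.card F % 16 <;> simp
  rw [k]
  constructor
  · rintro ⟨H, h, ⟨e⟩⟩
    exact (isSquare_two_iff (two_ne_of_S4 e)).1 ((S4_le_PS e).1 h)
  · intro h
    have h2 := two_ne_zero_of_odd (F := F) (Nat.odd_iff.2 (by omega))
    obtain ⟨H, ⟨e⟩⟩ := exists_S4 h2
    exact ⟨H, (S4_le_PS e).2 ((isSquare_two_iff h2).2 h), ⟨e⟩⟩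


end Cfsg.Agent.S0803
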