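import Cfsg.Statements.S0805
import Cfsg.Agent.H5.PSL2

set_option autoImplicit false
open Cfsg

namespace Cfsg.Agent.S0805

open H5

/-- Subfield subgroups: let F be a finite field of odd order q and K a finite field with |K|^m = q, m ≥ 1. Then PSL_2(F) has a subgroup isomorphic to PSL_2(K), and has a subgroup isomorphic to PGL_2(K) if and only if m is even. -/
theorem result {F K : Type*} [Field F] [Fintype F] [Field K] [Fintype K] {q : ℕ} (hF : Fintype.card F = q) (hodd : Odd q) (m : ℕ) (hm : 1 ≤ m) (hK : Fintype.card K ^ m = q) : (∃ H : Subgroup (Matrix.ProjectiveSpecialLinearGroup (Fin 2) F), Nonempty (H ≃* Matrix.ProjectiveSpecialLinearGroup (Fin 2) K)) ∧ ((∃ H : Subgroup (Matrix.ProjectiveSpecialLinearGroup (Fin 2) F), Nonempty (H ≃* Matrix.ProjGenLinGroup (Fin 2) K)) ↔ Even m) := by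
  subst hF
  obtain ⟨k0, hk⟩ := exists_subfield_of_field hK.symm
  rw [exists_psl_sub, exists_psl_sub]
  refine ⟨⟨_, subPSL_le_PS k0, subPSL_equiv k0 hk.symm⟩, ?_, fun h =>
    ⟨_, subPGL_le_PS (hk ▸ hK.symm) h, subPGL_equiv k0 hk.symm⟩⟩
  rintro ⟨H, hH, ⟨e⟩⟩
  obtain ⟨T, D, h⟩ := exists_tor (F := K) (Or.inr rfl)
  obtain ⟨r, -, hr⟩ := h.exists_gen
  obtain ⟨p, hc⟩ := CharP.exists F
  have hp : Fact p.Prime := ⟨CharP.char_is_prime F p⟩
  have h1 := orderOf_PS p (hH (emb_mem e r))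
  have h2 := dvd_card_subfield p k0
  rw [orderOf_injective _ (emb_inj e), hr, gcd_two_of_odd hodd, ← hK] at h1
  rw [← hK, Nat.odd_pow_iff (by omega)] at hodd
  have h3 := Fintype.one_lt_card (α := K)
  rw [hk] at h2
  generalize Fintype.card K = a at *
  by_contra hm
  obtain ⟨j, rfl⟩ := Nat.not_even_iff_odd.1 hm
  obtain ⟨b, rfl⟩ := hodd
  have h4 : (2 * b + 1) ^ (2 * j + 1) ≡ 2 * b + 1 [MOD 2 * (2 * b + 1 + 1)] := by
    have : (2 * b + 1) ^ 2 ≡ 1 [MOD 2 * (2 * b + 1 + 1)] := (Nat.modEq_iff_dvd' (Nat.one_le_pow _ _ (by omega))).2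
      ⟨b, by rw [Nat.sub_eq_iff_eq_add (Nat.one_le_pow _ _ (by omega))]; ring⟩ |>.symm
    simpa [pow_succ, pow_mul] using (this.pow j).mul_right (2 * b + 1)
  have h5 : Odd ((2 * b + 1) ^ (2 * j + 1)) := Odd.pow ⟨b, rfl⟩
  generalize (2 * b + 1) ^ (2 * j + 1) = Q at *
  obtain ⟨c, rfl⟩ := h5
  rcases h1 with h1 | h1 | h1
  · have := Nat.le_of_dvd (by omega) h2; omega
  · have := (h4.add_right (4 * b + 3)).dvd_iff dvd_rfl |>.1 (by
      rw [show 2 * c + 1 + (4 * b + 3) = 2 * c + 2 * (2 * b + 1 + 1) by ring]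
      exact dvd_add (Nat.mul_dvd_mul_left 2 (by simpa using h1)) dvd_rfl)
    rw [show 2 * b + 1 + (4 * b + 3) = 2 * b + 2 * (2 * b + 1 + 1) by ring, Nat.dvd_add_left dvd_rfl] at this
    have := Nat.le_of_dvd (by omega) this; omega
  · have := (h4.add_right 1).dvd_iff dvd_rfl |>.1 (by
      rw [show 2 * c + 1 + 1 = 2 * (c + 1) by ring]
      exact Nat.mul_dvd_mul_left 2 (by rwa [show (2 * c + 1 + 1) / 2 = c + 1 by omega] at h1))
    have := Nat.le_of_dvd (by omega) this; omega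


end Cfsg.Agent.S0805
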