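import Cfsg.Statements.S0806
import Cfsg.Agent.H5.PSL2Max

set_option autoImplicit false
open Cfsg

namespace Cfsg.Agent.S0806

open H5 OnePoint

/-- Minimal index (Galois): if q ∉ {2, 3, 5, 7, 9, 11} then every proper subgroup of PSL_2(q) has index ≥ q + 1, and some subgroup has index exactly q + 1. -/
theorem result {F : Type*} [Field F] [Fintype F] {q : ℕ} (hF : Fintype.card F = q) (hq : q ∉ ({2, 3, 5, 7, 9, 11} : Finset ℕ)) : (∀ H : Subgroup (Matrix.ProjectiveSpecialLinearGroup (Fin 2) F), H ≠ ⊤ → q + 1 ≤ H.index) ∧ ∃ H : Subgroup (Matrix.ProjectiveSpecialLinearGroup (Fin 2) F), H.index = q + 1 := by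
  subst hF
  simp only [Finset.mem_insert, Finset.mem_singleton, not_or] at hq
  have h1 := Fintype.one_lt_card (α := F)
  have h6 := card_ne_six (F := F)
  refine ⟨fun H hH => ?_, (MulAction.stabilizer (PG F) (∞ : OnePoint F)).comap psl, by
    rw [Subgroup.index_comap, range_psl_toPGL, relIndex_stab_PS]⟩
  obtain ⟨p, hc⟩ := CharP.exists F
  have hp : Fact p.Prime := ⟨CharP.char_is_prime F p⟩
  have hP : ¬ PS F ≤ H.map psl := fun k => hH (Subgroup.map_injective psl_inj
    (le_antisymm (Subgroup.map_mono le_top) ((map_psl_le _).trans k)))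
  have e1 := H.card_mul_index
  have e2 := card_PS (k := F)
  have e3 := Subgroup.card_dvd_of_le (map_psl_le H)
  rw [card_equiv (pslSub H), card_PSL2] at e1
  have hle := map_psl_le H
  generalize H.map psl = L at *
  have hd := card_PS_cases (F := F)
  simp only [Nat.odd_iff, Nat.even_iff] at hd
  suffices Nat.gcd 2 (Fintype.card F - 1) * Nat.card L ≤ Fintype.card F * (Fintype.card F - 1) by
    by_contra! k
    have h2 : 0 < Fintype.card F * (Fintype.card F - 1) := Nat.mul_pos (by omega) (by omega)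
    rw [← e1, ← mul_assoc] at e2
    exact (Nat.mul_lt_mul_of_le_of_lt this k h2).ne e2
  have small : Nat.card L ≤ 60 → Nat.card L ≤ 12 ∨ Nat.card L = 24 ∨ Nat.card L = 60 →
      Nat.gcd 2 (Fintype.card F - 1) * Nat.card L ≤ Fintype.card F * (Fintype.card F - 1) := fun k1 k2 => by
    by_cases h12 : 12 ≤ Fintype.card F
    · have : 12 * 11 ≤ Fintype.card F * (Fintype.card F - 1) := by gcongr; omega
      rcases hd with ⟨-, e⟩ | ⟨-, e⟩ <;> rw [e] <;> omega
    have h10 : Fintype.card F ≠ 10 := fun h => by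
      obtain ⟨p, -, n, hp, hn⟩ := FiniteField.card' F
      have h2 := (Nat.prime_dvd_prime_iff_eq Nat.prime_two hp).1 (Nat.prime_two.dvd_of_dvd_pow (n := n) (by omega))
      have h3 := (Nat.prime_dvd_prime_iff_eq Nat.prime_five hp).1 (Nat.prime_five.dvd_of_dvd_pow (n := n) (by omega))
      omega
    rcases (by omega : Fintype.card F = 4 ∨ Fintype.card F = 8) with h | h
    · have := card_PS_of h (N := 60) rfl
      have : Nat.card L ≠ 60 := fun k => hP (le_of_card_le hle (by omega))
      have : Nat.card L ≠ 24 := fun k => by rw [k] at e3; omega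
      rw [h]; simp; omega
    · have := card_PS_of h (N := 504) rfl
      have : Nat.card L ≠ 60 := fun k => by rw [k] at e3; omega
      rw [h]; simp; omega
  rcases dickson_proper p hP with ⟨x, hx⟩ | ⟨n, T, D, h, hl⟩ | ⟨-, ⟨e⟩⟩ | ⟨-, ⟨e⟩⟩ | ⟨-, ⟨e⟩⟩ | ⟨c, k0, k, h3, k'⟩
  · rw [← card_stab_PS x]
    exact Nat.mul_le_mul_left _ (Subgroup.card_le_of_le (le_inf hx hle))
  · have h5 := Subgroup.card_le_of_le (le_inf hl hle)
    rw [h.inf_PS_dihedral.1] at h5
    have h4 : Fintype.card F * 3 ≤ Fintype.card F * (Fintype.card F - 1) := by gcongr; omega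
    have := h.eq
    rcases hd with ⟨-, e⟩ | ⟨-, e⟩ <;> rw [e] at h5 ⊢ <;> omega
  · rw [card_equiv e, KB.card_A4] at small ⊢; exact small (by omega) (by omega)
  · rw [card_equiv e, KB.card_S4] at small ⊢; exact small (by omega) (by omega)
  · rw [card_equiv e, KB.card_A5] at small ⊢; exact small (by omega) (by omega)
  · have h4 := Nat.le_of_dvd (Nat.mul_pos (by omega) (Nat.sub_pos_of_lt (Nat.one_lt_pow two_ne_zero (by omega))))
      (card_dvd_sub k')
    have h5 := sq_le_card_of_ne_top k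
    calc _ ≤ 2 * (Nat.card k0 * (Nat.card k0 ^ 2 - 1)) := Nat.mul_le_mul (Nat.gcd_le_left _ two_pos) h4
      _ = 2 * Nat.card k0 * (Nat.card k0 ^ 2 - 1) := by ring
      _ ≤ _ := Nat.mul_le_mul (by nlinarith) (by omega)


end Cfsg.Agent.S0806
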