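import Cfsg.Statements.S0807
import Cfsg.Agent.H5.SL2Cl

set_option autoImplicit false
open Cfsg

namespace Cfsg.Agent.S0807

open H5

/-- For q odd, twelve times the number of Klein four-subgroups of PSL_2(q) equals the order of PSL_2(q). -/
theorem result {F : Type*} [Field F] [Fintype F] {q : ℕ} (hF : Fintype.card F = q) (hodd : Odd q) : 12 * Nat.card {V : Subgroup (Matrix.ProjectiveSpecialLinearGroup (Fin 2) F) // IsKleinFour V} = Nat.card (Matrix.ProjectiveSpecialLinearGroup (Fin 2) F) := by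
  subst hF
  have h2 := two_ne_of_odd hodd
  obtain ⟨X, ⟨e⟩⟩ := exists_A4 h2
  have hV : IsKleinFour (V4.map (emb e)) := isKleinFour_of_equiv (V4.equivMapOfInjective _ (emb_inj e)).symm isKleinFour_V4
  have hle : V4.map (emb e) ≤ PS F := (Subgroup.map_le_range _ _).trans ((emb_range e).le.trans (A4_le_PS e))
  have h1 := card_family (fun W : Subgroup (PG F) => IsKleinFour W ∧ W ≤ PS F) (V := V4.map (emb e)) fun W =>
    ⟨fun h => klein_conj h2 hV h.1 hle h.2, by
      rintro ⟨c, rfl⟩
      exact ⟨isKleinFour_of_equiv (cjEquiv c _).symm hV, (cj_le_cj.2 hle).trans (cj_of_normal c _).le⟩⟩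
  obtain ⟨e2⟩ := normalizer_klein h2 hV hle
  have h3 := (Subgroup.normalizer (V4.map (emb e) : Set (PG F))).card_mul_index
  rw [card_equiv e2, KB.card_S4, ← h1, ← (PS F).card_mul_index, index_PS_odd hodd, ← card_PSL2] at h3
  have h4 : Nat.card {V : Subgroup (PSL2 F) // IsKleinFour V} = Nat.card {W : Subgroup (PG F) // IsKleinFour W ∧ W ≤ PS F} :=
    Nat.card_congr (Equiv.ofBijective (fun V => ⟨V.1.map psl, isKleinFour_of_equiv (pslSub _).symm V.2, map_psl_le _⟩)
      ⟨fun V W h => Subtype.ext (Subgroup.map_injective psl_inj (congrArg Subtype.val h)), fun ⟨W, h, h'⟩ => by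
        obtain ⟨K, rfl⟩ := exists_map_psl h'
        exact ⟨⟨K, isKleinFour_of_equiv (pslSub _) h⟩, rfl⟩⟩)
  rw [h4]
  change _ = Nat.card (PSL2 F)
  omega


end Cfsg.Agent.S0807
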