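import Cfsg.Statements.S0808
import Cfsg.Agent.H5.SL2Cl

set_option autoImplicit false
open Cfsg

namespace Cfsg.Agent.S0808

open H5

theorem key {F : Type*} [Field F] {V W : Subgroup (PSL2 F)} {c : PG F} (hc : c ∈ PS F) (h : cj c (V.map psl) = W.map psl) :
    ∃ g : PSL2 F, W = V.map (MulAut.conj g).toMonoidHom := by
  obtain ⟨g, rfl⟩ := exists_psl hc
  exact ⟨g, Subgroup.map_injective psl_inj (h.symm.trans (map_cj psl g V).symm)⟩

/-- Conjugacy classes of four-groups in PSL_2(q), q odd: if q ≡ 3 or 5 (mod 8) all Klein four-subgroups are conjugate; if q ≡ 1 or 7 (mod 8) there are two Klein four-subgroups which are not conjugate, and every Klein four-subgroup is conjugate to one of them. -/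
theorem result {F : Type*} [Field F] [Fintype F] {q : ℕ} (hF : Fintype.card F = q) (hodd : Odd q) : ((q % 8 = 3 ∨ q % 8 = 5) → ∀ V W : Subgroup (Matrix.ProjectiveSpecialLinearGroup (Fin 2) F), IsKleinFour V → IsKleinFour W → ∃ g : Matrix.ProjectiveSpecialLinearGroup (Fin 2) F, W = V.map (MulAut.conj g).toMonoidHom) ∧ ((q % 8 = 1 ∨ q % 8 = 7) → ∃ V₁ V₂ : Subgroup (Matrix.ProjectiveSpecialLinearGroup (Fin 2) F), IsKleinFour V₁ ∧ IsKleinFour V₂ ∧ (¬ ∃ g : Matrix.ProjectiveSpecialLinearGroup (Fin 2) F, V₂ = V₁.map (MulAut.conj g).toMonoidHom) ∧ ∀ W : Subgroup (Matrix.ProjectiveSpecialLinearGroup (Fin 2) F), IsKleinFour W → (∃ g : Matrix.ProjectiveSpecialLinearGroup (Fin 2) F, W = V₁.map (MulAut.conj g).toMonoidHom) ∨ (∃ g : Matrix.ProjectiveSpecialLinearGroup (Fin 2) F, W = V₂.map (MulAut.conj g).toMonoidHom)) := by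
  subst hF
  have h2 := two_ne_of_odd hodd
  have hk : ∀ V : Subgroup (PSL2 F), IsKleinFour V → IsKleinFour (V.map psl) := fun V => isKleinFour_of_equiv (pslSub _).symm
  have hi := index_PS_odd hodd
  refine ⟨fun h V W hV hW => ?_, fun h => ?_⟩
  · obtain ⟨c, hc⟩ := klein_conj h2 (hk V hV) (hk W hW) (map_psl_le _) (map_psl_le _)
    obtain ⟨e⟩ := normalizer_klein h2 (hk V hV) (map_psl_le _)
    have h3 : ¬ _ ≤ PS F := fun h' => by have := (isSquare_two_iff h2).1 ((S4_le_PS e).1 h'); omega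
    obtain ⟨n, hn, hn'⟩ := SetLike.not_le_iff_exists.1 h3
    obtain ⟨d, hd, e⟩ := exists_cj_mem hi hn hn' c
    exact key hd (e.trans hc)
  · obtain ⟨X, ⟨e⟩⟩ := exists_A4 h2
    have hV : IsKleinFour (V4.map (emb e)) := isKleinFour_of_equiv (V4.equivMapOfInjective _ (emb_inj e)).symm isKleinFour_V4
    have hle : V4.map (emb e) ≤ PS F := (Subgroup.map_le_range _ _).trans ((emb_range e).le.trans (A4_le_PS e))
    obtain ⟨d, hd⟩ := exists_not_mem_PS hodd
    obtain ⟨e2⟩ := normalizer_klein h2 hV hle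
    have h3 := (S4_le_PS e2).2 ((isSquare_two_iff h2).2 h)
    obtain ⟨V₂, h4⟩ := exists_map_psl ((cj_le_cj.2 hle).trans (cj_of_normal d _).le)
    obtain ⟨V₁, h5⟩ := exists_map_psl hle
    rw [← h5] at hV h3 h4
    refine ⟨V₁, V₂, isKleinFour_of_equiv (pslSub _) hV, isKleinFour_of_equiv (pslSub _)
      (h4 ▸ isKleinFour_of_equiv (cjEquiv d _).symm hV), ?_, fun W hW => ?_⟩
    · rintro ⟨g, rfl⟩
      exact not_cj_two h3 hd (psl_mem g) ((map_cj psl g V₁).symm.trans h4)
    · obtain ⟨c, hc⟩ := klein_conj h2 hV (hk W hW) (map_psl_le _) (map_psl_le _)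
      obtain ⟨g, hg, h6 | h6⟩ := exists_cj_two hi (V₁.map psl) hd c
      · exact Or.inl (key hg (h6.trans hc))
      · exact Or.inr (key hg (by rw [h4, h6, hc]))


end Cfsg.Agent.S0808
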