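import Cfsg.Statements.S0809
import Cfsg.Agent.H5.SL2Cl

set_option autoImplicit false
open Cfsg

namespace Cfsg.Agent.S0809

open H5

theorem gen {F : Type*} [Field F] [Fintype F] (h2 : (2 : F) ≠ 0) {A : Subgroup (SL2 F)} (hA : Nat.card A = 4) :
    ∃ a, Subgroup.zpowers a = A ∧ a * a = -1 ∧ mkS a ≠ 1 := by
  have : IsCyclic A := by
    rcases two_subgroup_SL h2 (IsPGroup.of_card (n := 2) hA) with h | ⟨k, hk, ⟨e⟩⟩
    · exact h
    · have : NeZero (2 ^ k) := ⟨by positivity⟩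
      rw [card_equiv e, Nat.card_eq_fintype_card, QuaternionGroup.card] at hA
      have := Nat.pow_le_pow_right two_pos hk
      omega
  obtain ⟨a, rfl⟩ := exists_zpowers_eq A
  rw [Nat.card_zpowers] at hA
  have h3 : a * a ≠ 1 := fun e => by have := orderOf_dvd_of_pow_eq_one ((sq a).trans e); rw [hA] at this; omega
  refine ⟨a, rfl, (sl2_sq_eq_one h2 ?_).resolve_left h3, fun e => h3 ?_⟩
  · rw [← pow_orderOf_eq_one a, hA]; simp [pow_succ, mul_assoc]
  · rcases mkS_eq_one_iff.1 e with rfl | rfl <;> simp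

/-- In SL_2(q), q odd: any two subgroups of order 4 are conjugate, and the normaliser of a subgroup of order 4 has order 2(q − 1) if q ≡ 1 (mod 4) and 2(q + 1) if q ≡ 3 (mod 4); consequently all involutions of PSL_2(q) are conjugate. -/
theorem result {F : Type*} [Field F] [Fintype F] {q : ℕ} (hF : Fintype.card F = q) (hodd : Odd q) (A : Subgroup (Matrix.SpecialLinearGroup (Fin 2) F)) (hA : Nat.card A = 4) : (∀ B : Subgroup (Matrix.SpecialLinearGroup (Fin 2) F), Nat.card B = 4 → ∃ g : Matrix.SpecialLinearGroup (Fin 2) F, B = A.map (MulAut.conj g).toMonoidHom) ∧ (q % 4 = 1 → Nat.card ↥(Subgroup.normalizer (A : Set (Matrix.SpecialLinearGroup (Fin 2) F))) = 2 * (q - 1)) ∧ (q % 4 = 3 → Nat.card ↥(Subgroup.normalizer (A : Set (Matrix.SpecialLinearGroup (Fin 2) F))) = 2 * (q + 1)) ∧ (∀ x y : Matrix.ProjectiveSpecialLinearGroup (Fin 2) F, orderOf x = 2 → orderOf y = 2 → IsConj x y) := by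
  subst hF
  have h2 := two_ne_of_odd hodd
  have h4 : (0 : F) ^ 2 ≠ 4 := fun h => h2 ((mul_self_eq_zero (a := (2 : F))).1 (by linear_combination -h))
  obtain ⟨a, rfl, ha, ha1⟩ := gen h2 hA
  have hN : ∃ n, (n = Fintype.card F - 1 ∨ n = Fintype.card F + 1) ∧ 4 ∣ n ∧
      Nat.card (Subgroup.normalizer (Subgroup.zpowers a : Set (SL2 F))) = 2 * n := by
    rcases pg_cases (mkS a) with h | ⟨-, x, h⟩ | ⟨-, n, T, D, hT, h⟩
    · exact (ha1 h).elim
    · exact (ha1 (eq_one_of_UP h2 h (by rw [← map_mul, ha, mkS_neg, map_one]))).elim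
    · have hle : Subgroup.zpowers a ≤ T.comap mkS := (Subgroup.zpowers_le ..).2 h
      exact ⟨n, hT.eq, hA ▸ hT.card_SL ▸ Subgroup.card_dvd_of_le hle, by
        rw [hT.normalizer_SL hle (Subgroup.mem_zpowers a) ha1, hT.card_D_SL]⟩
  obtain ⟨n, hn, hn4, hN⟩ := hN
  have := Fintype.one_lt_card (α := F)
  refine ⟨fun B hB => ?_, fun h => by rw [hN]; omega, fun h => by rw [hN]; omega, fun x y hx hy => ?_⟩
  · obtain ⟨b, rfl, hb, hb1⟩ := gen h2 hB
    have h5 := (sq_eq_neg_one_iff ha1).1 ha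
    obtain ⟨g, hg⟩ := isConj_iff.1 (isConj_of_trace (h5.trans ((sq_eq_neg_one_iff hb1).1 hb).symm) (h5 ▸ h4))
    exact ⟨g, by rw [MonoidHom.map_zpowers, ← hg]; rfl⟩
  · have key : ∀ x : SL2 F, orderOf (QuotientGroup.mk x : PSL2 F) = 2 → x.1.trace = 0 := fun x hx => by
      rw [← orderOf_psl] at hx
      change orderOf (mkS x) = 2 at hx
      have h1 : mkS x ≠ 1 := fun e => by simp [e] at hx
      exact (sq_eq_neg_one_iff h1).1 (sq_eq_neg_one h1 ((sq _).symm.trans (orderOf_dvd_iff_pow_eq_one.1 hx.dvd)))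
    obtain ⟨x, rfl⟩ := QuotientGroup.mk_surjective x
    obtain ⟨y, rfl⟩ := QuotientGroup.mk_surjective y
    exact (QuotientGroup.mk' _).map_isConj (isConj_of_trace ((key x hx).trans (key y hy).symm) (key x hx ▸ h4))


end Cfsg.Agent.S0809
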