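import Cfsg.Statements.S0810
import Cfsg.Agent.H5.PSL2Max

set_option autoImplicit false
open Cfsg

namespace Cfsg.Agent.S0810

open H5

/-- PSL_2(q) is minimal simple iff q is 2^r (r prime), 3^r (r an odd prime), a prime greater than 5 congruent to 2 or 3 mod 5, or 5. -/
theorem result {F : Type*} [Field F] [Fintype F] {q : ℕ} (hF : Fintype.card F = q) : Cfsg.IsMinimalSimple (Matrix.ProjectiveSpecialLinearGroup (Fin 2) F) ↔ ((∃ r : ℕ, r.Prime ∧ q = 2 ^ r) ∨ (∃ r : ℕ, r.Prime ∧ r ≠ 2 ∧ q = 3 ^ r) ∨ (q.Prime ∧ 5 < q ∧ (q % 5 = 2 ∨ q % 5 = 3)) ∨ q = 5) := by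
  subst hF
  have h1 := Fintype.one_lt_card (α := F)
  have nsol : ∀ (K : Type _) [Field K] [Fintype K], 4 ≤ Fintype.card K →
      IsSimpleGroup (PSL2 K) ∧ ¬ Group.IsSolvable (PSL2 K) := fun K _ _ h => by
    have hs : IsSimpleGroup (PSL2 K) :=
      Matrix.ProjectiveSpecialLinearGroup.rank_two_simple (by rwa [Nat.card_eq_fintype_card])
    refine ⟨hs, fun k => ?_⟩
    obtain ⟨x, hx⟩ := exists_psl (aff_mem_PS.2 (by simp) : aff 1 1 ∈ PS K)
    obtain ⟨y, hy⟩ := exists_psl (pg_mem_PS.2 (by simp) : pg 1 0 1 1 (by simp) ∈ PS K)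
    have := congrArg psl (IsSimpleGroup.comm_iff_isSolvable.2 k x y)
    simp [hx, hy, aff, pg_mul, pg_eq_iff] at this
  have s3 : ∀ (K : Type _) [Field K] [Fintype K], Fintype.card K ≤ 3 → Group.IsSolvable (PG K) := fun K _ _ h => by
    have : Group.IsSolvable (Equiv.Perm (OnePoint K)) := by
      obtain ⟨f⟩ : Nonempty (OnePoint K ↪ Fin 4) :=
        Function.Embedding.nonempty_of_card_le (by rw [← Nat.card_eq_fintype_card, card_onePoint, Fintype.card_fin]; omega)
      have := isSolvable_S4
      classical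
      exact Group.isSolvable_of_isSolvable_injective (Equiv.Perm.viaEmbeddingHom_injective f)
    refine Group.isSolvable_of_isSolvable_injective (f := MulAction.toPermHom (PG K) (OnePoint K)) fun g h e => ?_
    exact pg_ext (Equiv.congr_fun e _) (Equiv.congr_fun e _) (Equiv.congr_fun e _)
  obtain ⟨p, hc, ⟨n, hn0⟩, hp, hn⟩ := FiniteField.card' F
  have := Fact.mk hp
  simp only [PNat.mk_coe] at hn
  constructor
  · rintro ⟨h2, h3, h4⟩
    have h5 : 4 ≤ Fintype.card F := by
      by_contra! k
      have := s3 F (by omega)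
      exact h3 ⟨⟨IsSimpleGroup.comm_iff_isSolvable.2 (Group.isSolvable_of_isSolvable_injective psl_inj)⟩⟩
    have h6 : ∀ L ≤ PS F, ¬ PS F ≤ L → Group.IsSolvable L := fun L h k => by
      obtain ⟨H, rfl⟩ := exists_map_psl h
      exact isSolvable_of_equiv (pslSub H).symm (h4 H (by
        rintro rfl; exact k (by rw [← MonoidHom.range_eq_map, range_psl_toPGL])))
    have h7 : ∀ a m, 2 ≤ m → Fintype.card F = a ^ m → a ≤ 3 := fun a m hm h => by
      obtain ⟨k0, rfl⟩ := exists_subfield h
      by_contra! k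
      have := Fintype.ofFinite k0
      exact (nsol k0 (by rwa [← Nat.card_eq_fintype_card])).2 (isSolvable_of_equiv ((psEquiv k0).trans (subPSLEquiv k0))
        (h6 _ (subPSL_le_PS _) fun k => not_PS_le_sub (ne_top_of_card h hm) (k.trans (subPSL_le _))))
    have h8 : 7 ≤ Fintype.card F → ¬ (Fintype.card F % 5 = 0 ∨ Fintype.card F % 5 = 1 ∨ Fintype.card F % 5 = 4) :=
      fun h k => by
      obtain ⟨X, ⟨e⟩⟩ := exists_A5_iff.2 (five_dvd_iff.2 k)
      exact not_isSolvable_A5 (isSolvable_of_equiv e.symm (h6 X (A5_le_PS e)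
        (not_PS_le_small h (by rw [card_equiv e, KB.card_A5]))))
    by_cases hn1 : n = 1
    · subst hn1
      rw [pow_one] at hn
      have := card_ne_six (F := F)
      have : Fintype.card F ≠ 4 := fun e => by rw [← hn, e] at hp; exact absurd hp (by decide)
      by_cases h9 : Fintype.card F = 5
      · exact Or.inr (Or.inr (Or.inr h9))
      · exact Or.inr (Or.inr (Or.inl ⟨hn ▸ hp, by omega, by have := h8 (by omega); omega⟩))
    have h9 : n.Prime := by
      by_contra k
      obtain ⟨a, b, ha, hb, rfl⟩ := (Nat.not_prime_iff_exists_mul_eq (by omega)).1 k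
      have hb2 : 2 ≤ b := by
        rcases b with _ | _ | b <;> simp_all
      have ha2 : 2 ≤ a := by
        rcases a with _ | _ | a <;> simp_all
      have := h7 (p ^ a) b hb2 (by rw [hn, pow_mul])
      have := Nat.pow_le_pow_left hp.two_le a
      have := Nat.pow_le_pow_right two_pos ha2
      omega
    have h10 := h7 p n h9.two_le hn
    have := hp.two_le
    rcases (by omega : p = 2 ∨ p = 3) with rfl | rfl
    · exact Or.inl ⟨n, h9, hn⟩
    · refine Or.inr (Or.inl ⟨n, h9, ?_, hn⟩)
      rintro rfl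
      exact h8 (by omega) (by omega)
  · intro h
    have h5 : 4 ≤ Fintype.card F := by
      rcases h with ⟨r, hr, h⟩ | ⟨r, hr, -, h⟩ | h | h
      · have := Nat.pow_le_pow_right two_pos hr.two_le; omega
      · have := Nat.pow_le_pow_right (by norm_num : 0 < 3) hr.two_le; omega
      · omega
      · omega
    obtain ⟨h2, h3⟩ := nsol F h5
    refine ⟨h2, fun k => h3 (IsSimpleGroup.comm_iff_isSolvable.1 k.1.1), fun H hH => ?_⟩
    have hP : ¬ PS F ≤ H.map psl := fun k => hH (Subgroup.map_injective psl_inj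
      (le_antisymm (Subgroup.map_mono le_top) ((map_psl_le _).trans k)))
    refine isSolvable_of_equiv (pslSub H) ?_
    have hle := map_psl_le H
    generalize H.map psl = L at *
    rcases dickson_proper p hP with ⟨x, hx⟩ | ⟨n, T, D, h, hl⟩ | ⟨-, ⟨e⟩⟩ | ⟨-, ⟨e⟩⟩ | ⟨-, ⟨e⟩⟩ | ⟨c, k0, k, h3, k'⟩
    · exact isSolvable_of_le hx (isSolvable_stabilizer x)
    · exact isSolvable_of_le hl h.isSolvable
    · exact isSolvable_of_equiv e isSolvable_A4
    · exact isSolvable_of_equiv e isSolvable_S4
    · have h6 := exists_A5_iff.1 ⟨L, ⟨e⟩⟩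
      refine absurd (le_of_card_le hle (le_of_eq ?_)) hP
      rw [card_equiv e, KB.card_A5]
      rcases h with ⟨r, hr, h⟩ | ⟨r, hr, hr2, h⟩ | h | h
      · rcases hr.eq_two_or_odd' with rfl | ⟨j, rfl⟩
        · exact card_PS_of (q := 4) h rfl
        · have : 2 ^ (2 * j + 1) % 5 = 3 ∨ 2 ^ (2 * j + 1) % 5 = 2 := by
            clear h hr
            induction j with
            | zero => simp
            | succ j ih => rw [show 2 * (j + 1) + 1 = 2 * j + 1 + 2 by ring, pow_add]; omega
          rw [five_dvd_iff, h] at h6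
          generalize 2 ^ (2 * j + 1) = a at *
          omega
      · exact absurd (h ▸ h6) (five_dvd_three_pow (hr.odd_of_ne_two hr2))
      · rw [five_dvd_iff] at h6; omega
      · exact card_PS_of h rfl
    · have := Fintype.ofFinite k0
      have h6 : L ≤ cj c (subPGL k0) := by
        rcases k' with rfl | ⟨-, rfl⟩
        exacts [le_rfl, cj_le_cj.2 (subPSL_le _)]
      refine isSolvable_of_le h6 (isSolvable_of_equiv ((cjEquiv c _).symm.trans (subPGLEquiv k0).symm) (s3 k0 ?_))
      rw [← Nat.card_eq_fintype_card]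
      have k1 : ∀ a r, r.Prime → Fintype.card F = a ^ r → a.Prime → Nat.card k0 = a := fun a r hr h ha => by
        obtain ⟨k1, rfl⟩ := exists_subfield h
        have := Fact.mk ha
        have := char_of_card ha h
        obtain ⟨m, -, hm⟩ := card_subfield_pow (Nat.card k1) k0
        rw [(subfield_prime_deg hr h (subfield_le hm)).resolve_right k]
      rcases h with ⟨r, hr, h⟩ | ⟨r, hr, hr2, h⟩ | h | h
      · have := k1 2 r hr h Nat.prime_two; omega
      · have := k1 3 r hr h Nat.prime_three; omega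
      · exact absurd (subfield_eq_top_of_prime h.1 k0) k
      · exact absurd (subfield_eq_top_of_prime (h ▸ Nat.prime_five) k0) k


end Cfsg.Agent.S0810
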