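import Cfsg.Statements.S0813
import Cfsg.Agent.H6.CA11

set_option autoImplicit false
open Cfsg

namespace Cfsg.Agent.S0813

/-- |Aut(PSL_n(q))|, q = p^f: for n ≥ 3 it is 2 f |PGL_n(q)|, and for n = 2 (q ≥ 4) it is f |PGL_2(q)|. -/
theorem result {F : Type*} [Field F] [Fintype F] (p f : ℕ) [Fact p.Prime] (hf : 1 ≤ f) (hF : Fintype.card F = p ^ f) (n : ℕ) (hn : 2 ≤ n) (h2 : n = 2 → 4 ≤ p ^ f) : Nat.card (MulAut (Matrix.ProjectiveSpecialLinearGroup (Fin n) F)) = (if n = 2 then 1 else 2) * f * Nat.card (Matrix.ProjGenLinGroup (Fin n) F) := by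
  obtain ⟨l, rfl⟩ := Nat.exists_eq_add_of_le' hn
  rcases l with _ | l
  · obtain ⟨Ψ, -, a, b⟩ := H6.CA.exists_Psi2 (F := F)
    rw [H6.CA.card_hom Ψ, b, H6.CA.card_piL, MonoidHom.range_eq_top.2 a, Subgroup.card_top, H6.CA.card_ra hF]
    simp
  · obtain ⟨Ψ, -, -, a, b⟩ := H6.CA.exists_Psi (F := F) (l := l)
    rw [H6.CA.card_hom Ψ, b, H6.CA.card_piL, MonoidHom.range_eq_top.2 a, Subgroup.card_top, Nat.card_prod,
      H6.CA.card_ra hF, if_neg (by omega), mul_comm f]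
    simp

end Cfsg.Agent.S0813
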