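import Cfsg.Statements.S0814
import Cfsg.Agent.H6.Rep3

set_option autoImplicit false
open Cfsg

namespace Cfsg.Agent.S0814

/-- |Aut(PSp_2m(q))| = gcd(2, q−1) · f · |PSp_2m(q)| for q = p^f, m ≥ 2, (m, q) ≠ (2, 2), with an extra factor 2 exactly when m = 2 and p = 2. -/
theorem result {F : Type*} [Field F] [Fintype F] (p f : ℕ) [Fact p.Prime] (hf : 1 ≤ f) (hF : Fintype.card F = p ^ f) (m : ℕ) (hm : 2 ≤ m) (h22 : m = 2 → 3 ≤ p ^ f) : Nat.card (MulAut (Cfsg.PSp m F)) = (if m = 2 ∧ p = 2 then 2 else 1) * Nat.gcd 2 (p ^ f - 1) * f * Nat.card (Cfsg.PSp m F) := by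
  have N := (H6.CA.bigSp (F := F) hm).nm'
  have := N.nt
  have h2 := H6.CA.two_eq_iff hF
  have hc := H6.CA.card_ra hF
  split_ifs with a
  · obtain ⟨rfl, rfl⟩ := a
    rw [N.card_out (H6.CA.spE F 2), (H6.Rep.out_sp4 (h2.2 rfl)).2, hc, ← hF, H6.Rep.gcd_two, if_pos (h2.2 rfl), mul_one]
  have nd := H5.sympF_nondeg (F := F) m
  have h1 := H6.CA.card_aut_sm nd N _ (H6.CA.surSp hm fun b c => a ⟨b, h2.1 c⟩)
    (N.fa_sur fun σ => ⟨_, _, H6.CA.sim_fm_sp σ⟩)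
  have h3 := H6.CA.NM.card_G (H6.CA.spE F m)
  rw [nd.symp_EG, H5.Form.card_center_symp nd (by simp; omega), hF] at h3
  rw [MonoidHom.range_eq_top.2 (H6.CA.mu_sp nd), Subgroup.card_top, hc, h3] at h1
  refine Nat.eq_of_mul_eq_mul_left (Nat.card_pos (α := Fˣ)) (h1.trans ?_)
  ring

end Cfsg.Agent.S0814
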