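import Cfsg.Statements.S0817
import Cfsg.Agent.H6.Rep3

set_option autoImplicit false
open Cfsg

namespace Cfsg.Agent.S0817

/-- |Aut(PΩ⁺_2m(q))| for q = p^f, m ≥ 4: |PΩ⁺_2m(q)| times f, times 3 when m = 4, times 2 if p = 2, and times 8 or 4 if p is odd according as m(q−1)/2 is even or odd. -/
theorem result {F : Type*} [Field F] [Fintype F] (p f : ℕ) [Fact p.Prime] (hf : 1 ≤ f) (hF : Fintype.card F = p ^ f) (m : ℕ) (hm : 4 ≤ m) : Nat.card (MulAut (Cfsg.POmega F (Cfsg.quadFormPlus m F))) = (if m = 4 then 3 else 1) * (if p = 2 then 2 else (if Even (m * (p ^ f - 1) / 2) then 8 else 4)) * f * Nat.card (Cfsg.POmega F (Cfsg.quadFormPlus m F)) := by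
  have nd := H5.plusF_nondeg (F := F) m
  have h' := (H6.CA.bigO nd (H6.CA.c5_plus (by omega))).nm'.card_out (H6.CA.omE nd (H6.CA.c5_plus (by omega)))
  refine h'.trans (congrArg (· * _) ?_)
  have h2 := H6.CA.two_eq_iff hF
  have hc := H6.CA.card_ra hF
  by_cases a : p = 2
  · rw [if_pos a]
    split_ifs with b
    · subst b
      obtain ⟨e⟩ := H6.Rep.out_eight.1 (h2.2 a)
      exact (Nat.card_congr e.toEquiv).trans (by simp [hc, Fintype.card_perm, Nat.factorial])
    · obtain ⟨e⟩ := (H6.Rep.out_plus (m := m) (by omega)).1 (h2.2 a)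
      exact (Nat.card_congr e.toEquiv).trans (by simp [hc])
  simp only [if_neg a, H6.CA.even_half ((Nat.Prime.odd_of_ne_two Fact.out a).pow)]
  by_cases b : m = 4
  · subst b
    obtain ⟨e⟩ := H6.Rep.out_eight.2 (h2.not.2 a)
    exact (Nat.card_congr e.toEquiv).trans (by simp [hc, Fintype.card_perm, Nat.factorial, Nat.odd_iff])
  have h := (H6.Rep.out_plus (m := m) (by omega)).2 (h2.not.2 a)
  rw [hF] at h
  rw [if_neg b]
  split_ifs with c
  · obtain ⟨e⟩ := h.1 c
    exact (Nat.card_congr e.toEquiv).trans (by simp [hc]; ring)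
  · obtain ⟨e⟩ := h.2 c
    exact (Nat.card_congr e.toEquiv).trans (by simp [hc, DihedralGroup.card])

end Cfsg.Agent.S0817
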