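import Cfsg.Statements.S0820
import Cfsg.Agent.H5.Spec

set_option autoImplicit false
open Cfsg

namespace Cfsg.Agent.S0820

open H5 Matrix

/-- Any two elements of order 2 of PSL_3(4) are conjugate. -/
theorem result {F : Type*} [Field F] [Fintype F] (hF : Fintype.card F = 4) (x y : Matrix.ProjectiveSpecialLinearGroup (Fin 3) F) (hx : orderOf x = 2) (hy : orderOf y = 2) : IsConj x y := by
  obtain ⟨p, hp⟩ := CharP.exists F
  obtain ⟨f, pp, hf⟩ := FiniteField.card F p
  obtain rfl : p = 2 := (Nat.prime_dvd_prime_iff_eq pp Nat.prime_two).1 (pp.dvd_of_dvd_pow (n := 2) (by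
    rw [show 2 ^ 2 = 4 from rfl, ← hF, hf]; exact dvd_pow_self p f.ne_zero))
  have key : ∀ x : ProjectiveSpecialLinearGroup (Fin 3) F, orderOf x = 2 → ∃ g : Matrix.SpecialLinearGroup (Fin 3) F, g = x ∧
      (g.1 - 1) * (g.1 - 1) = 0 ∧ (g.1 - 1).rank = 1 := fun x hx => by
    obtain ⟨g, rfl, hg⟩ := psl_lift x (hx ▸ cop_char 2)
    rw [hx] at hg
    have h1 : (g.1 - 1) * (g.1 - 1) = 0 := by
      rw [← sq, sub_pow_char_of_commute _ (Commute.one_right _), show g.1 ^ 2 = 1 from congrArg Subtype.val hg]; simp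
    have h2 := rank_add_rank_le_card_of_mul_eq_zero h1
    have h3 : (g.1 - 1).rank ≠ 0 := by simpa [rank_eq_zero', sub_eq_zero] using lift_ne (g := g) (t := 1) (by simp [hx])
    exact ⟨g, rfl, h1, by simp at h2; omega⟩
  obtain ⟨a, rfl, a1, a2⟩ := key x hx
  obtain ⟨b, rfl, b1, b2⟩ := key y hy
  refine (QuotientGroup.mk' _).map_isConj (isConj_SL (isConj_of_sq a1 b1 (a2.trans b2.symm)) fun c _ => ?_)
  obtain ⟨c, rfl⟩ := FiniteField.isSquare_of_char_two (ringChar.eq F 2) c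
  obtain ⟨x, h1, h2⟩ := exists_comm_det_sq a1 (by rintro e; simp [e] at a2) c
  exact ⟨x, comm_of_sub_one h1, h2⟩


end Cfsg.Agent.S0820
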