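import Cfsg.Statements.S0821
import Cfsg.Agent.H5.NonIso
import Cfsg.Agent.H5.Geo

set_option autoImplicit false
open Cfsg

namespace Cfsg.Agent.S0821

open H5 H5.Form Module

/-- PSp_2m(q) ≇ PΩ_(2m+1)(q) for q odd and m ≥ 3 (they have the same order). -/
theorem result {F : Type*} [Field F] [Fintype F] (hodd : Odd (Fintype.card F)) (m : ℕ) (hm : 3 ≤ m) : IsEmpty (Cfsg.PSp m F ≃* Cfsg.POmega F (Cfsg.quadFormOdd m F)) := by
  refine ⟨fun e0 => ?_⟩
  obtain ⟨k, rfl⟩ : ∃ k, m = k + 3 := ⟨m - 3, by omega⟩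
  have h2 := two_ne_zero_of_odd (F := F) hodd
  have n := oddF_nondeg h2 (k + 3)
  have n' := sympF_nondeg (F := F) (k + 3)
  have d : finrank F (Unit ⊕ (Fin (k + 3) ⊕ Fin (k + 3)) → F) = 2 * (k + 3) + 1 := by simp; omega
  have e := (quotCenterCongr (spEquiv (k + 3))).symm.trans (e0.trans (quotCenterCongr (omegaEquiv (oddF F (k + 3)))))
  obtain ⟨v, hv, hz⟩ := exists_neg_r_mem n (d ▸ odd_two_mul_add_one _) (by omega)
  obtain ⟨t, ht⟩ := QuotientGroup.mk_surjective (e.symm ((⟨_, hz⟩ : (oddF F (k + 3)).Om) : _ ⧸ Subgroup.center _))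
  haveI := finite_aut (F := F) (V := Unit ⊕ (Fin (k + 3) ⊕ Fin (k + 3)) → F)
  haveI := finite_aut (F := F) (V := Fin (k + 3) ⊕ Fin (k + 3) → F)
  obtain ⟨c, hc⟩ := symp_center n' (by simp) (g := (t * t).1) fun s hs => congrArg Subtype.val
    ((Subgroup.mem_center_iff.1 ((QuotientGroup.eq_one_iff _).1 (by
      rw [QuotientGroup.mk_mul, ht, ← map_mul, ← QuotientGroup.mk_mul, show (⟨_, hz⟩ * ⟨_, hz⟩ : (oddF F (k + 3)).Om) = 1 by ext x; simp]
      simp)) ⟨s, hs⟩).symm)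
  obtain ⟨a, ha⟩ : ∃ a, t.1 a ∉ F ∙ a := by
    by_contra! h
    obtain ⟨x, y, hxy⟩ := n'.symp_hyp (by simp)
    obtain ⟨u, hu⟩ := scalar_of_fix_sing (g := t.1) (fun x _ => (Submodule.mem_span_singleton.1 (h x)).imp fun _ => Eq.symm) hxy
      fun _ _ _ => .inl ⟨1, one_ne_zero, rfl⟩
    rw [(QuotientGroup.eq_one_iff t).2 (Subgroup.mem_center_iff.2 fun s => by ext x; simp [hu]), eq_comm, map_eq_one_iff _ e.symm.injective,
      QuotientGroup.eq_one_iff] at ht
    classical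
    have := n.card_center_Om (by omega)
    rw [if_neg fun h => neg_notMem_Om_odd n (d ▸ odd_two_mul_add_one _) h.2, Subgroup.card_eq_one] at this
    rw [this, Subgroup.mem_bot] at ht
    have := n.finrank_perp_singleton (v := v) (by rintro rfl; simp at hv)
    obtain ⟨⟨x, hx⟩, x0⟩ := exists_ne_zero_of_pos (F := F) (V := (oddF F (k + 3)).perp (F ∙ v)) (by omega)
    have := congrArg (fun g => g.1 x) ht
    simp [r_of_perp ((mem_perp_singleton _).1 hx)] at this
    exact x0 (Subtype.ext ((smul_eq_zero.1 (show (2 : F) • x = 0 by linear_combination (norm := module) -this)).resolve_left h2))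
  have k1 := cl_symp rfl n' h2 (n := 2 * k + 1) (by simp; omega) t (ε := c) (fun x => LinearEquiv.congr_fun hc x) ha
  have k2 := cl_le_mul (Subgroup.center _) t
  rw [ht, cl_congr, card_center_symp n' (by simp)] at k2
  have k3 := cl_quot_le (Subgroup.center _) (⟨_, hz⟩ : (oddF F (k + 3)).Om)
  have k4 := (cl_neg_r h2 hv ⟨_, hz⟩ rfl).trans (numQ_odd_le rfl n d _)
  have k5 := Nat.gcd_le_left (Fintype.card F - 1) two_pos
  have k6 := k1.trans (k2.trans ((Nat.mul_le_mul k5 k3).trans k4))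
  obtain ⟨r, hr⟩ : ∃ r, Fintype.card F = r + 3 := ⟨Fintype.card F - 3, by have := Fintype.one_lt_card (α := F); obtain ⟨_, h⟩ := hodd; omega⟩
  rw [hr, show r + 3 - 1 = r + 2 by omega] at k6
  have a1 : (r + 3) ^ (2 * (k + 3)) ≤ (r + 3) ^ (2 * (2 * k + 1) + 3) * (r + 3) := by
    rw [← pow_succ]; exact Nat.pow_le_pow_right (by omega) (by omega)
  have a2 : (r + 3) ^ (k + 3) < (r + 3) ^ (2 * (2 * k + 1) + 3) := Nat.pow_lt_pow_right (by omega) (by omega)
  nlinarith [Nat.zero_le ((r * r + 3 * r) * (r + 3) ^ (2 * (2 * k + 1) + 3))]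


end Cfsg.Agent.S0821
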