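import Cfsg.Statements.S0823
import Cfsg.Agent.H5.PermMod

set_option autoImplicit false
open Cfsg

namespace Cfsg.Agent.S0823

open H5 H5.Form Module Pointwise

/-- SO_3(3) ≅ S_4: the determinant-one isometries of the form x_0² + x_1y_1 over the field with 3 elements form a group isomorphic to the symmetric group on 4 letters. -/
theorem result {F : Type*} [Field F] [Fintype F] (hF : Fintype.card F = 3) : Nonempty (↥(Cfsg.specialIsometryGroup F (Cfsg.quadFormOdd 1 F)) ≃* Equiv.Perm (Fin 4)) := by
  have h2 := two_ne_zero_of_odd (F := F) (by rw [hF]; decide)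
  have n := oddF_nondeg h2 1
  obtain ⟨φ⟩ := perm_of_faithful_set (G := (oddF F 1).sisom) (X := Submodule F _) (S := {L | finrank F L = 1 ∧ (oddF F 1).TS L}) (n := 4)
    (fun g L h => ⟨(LinearEquiv.finrank_map_eq g.1 L).trans h.1, h.2.map_iso (isIso_of_mem (sisom_le_isom g.2))⟩)
    (fun g h => by
      have k : ∀ v, v ≠ 0 → (oddF F 1).Q v = 0 → ∃ c : F, c • v = g.1 v := fun v v0 hv => Submodule.mem_span_singleton.1
        ((h _ ⟨finrank_span_singleton v0, ts_singleton hv⟩).le (Submodule.mem_map_of_mem (Submodule.mem_span_singleton_self v)))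
      let b := Pi.basisFun F (Unit ⊕ (Fin 1 ⊕ Fin 1))
      have nz : ∀ x y z : F, x • b (.inl ()) + y • b (.inr (.inl 0)) + z • b (.inr (.inr 0)) = 0 → x = 0 ∧ y = 0 ∧ z = 0 := fun x y z e =>
        ⟨by simpa [b] using congrFun e (.inl ()), by simpa [b] using congrFun e (.inr (.inl 0)), by simpa [b] using congrFun e (.inr (.inr 0))⟩
      obtain ⟨c1, e1⟩ := k (b (.inr (.inl 0))) (b.ne_zero _) (by simp [b, Cfsg.quadFormOdd])
      obtain ⟨c2, e2⟩ := k (b (.inr (.inr 0))) (b.ne_zero _) (by simp [b, Cfsg.quadFormOdd])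
      obtain ⟨c3, e3⟩ := k (b (.inl ()) + b (.inr (.inl 0)) - b (.inr (.inr 0))) (fun e => by simpa [b] using congrFun e (.inl ()))
        (by simp [b, Cfsg.quadFormOdd])
      obtain ⟨c4, e4⟩ := k (-b (.inl ()) + b (.inr (.inl 0)) - b (.inr (.inr 0))) (fun e => by simpa [b] using congrFun e (.inl ()))
        (by simp [b, Cfsg.quadFormOdd])
      simp only [map_add, map_sub, map_neg, ← e1, ← e2] at e3 e4
      obtain ⟨h1, h3, h4⟩ := nz (c3 - c4) (c3 + c4 - 2 * c1) (2 * c2 - c3 - c4) (by linear_combination (norm := module) e3 + e4)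
      obtain rfl : c4 = c3 := by linear_combination -h1
      obtain rfl : c1 = c4 := mul_left_cancel₀ h2 (by linear_combination -h3)
      obtain rfl : c2 = c1 := mul_left_cancel₀ h2 (by linear_combination h4)
      obtain ⟨u, hu⟩ := exists_scal (g := g.1) (c := c2) fun x => LinearMap.congr_fun (b.ext (f₁ := g.1.toLinearMap) (f₂ := c2 • LinearMap.id) (by
        rintro (_ | i | i)
        · change g.1 _ = c2 • b _; linear_combination (norm := module) -e3
        all_goals rw [Subsingleton.elim i 0]
        exacts [e1.symm, e2.symm])) x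
      have d : LinearEquiv.det g.1 = 1 := g.2.2
      rw [hu, det_scal, show finrank F (Unit ⊕ (Fin 1 ⊕ Fin 1) → F) = 2 + 1 by simp, pow_succ, show u ^ 2 = 1 by
        have := pow_card_eq_one' (x := u); rwa [card_units_eq, hF] at this, one_mul] at d
      exact Subtype.ext (by rw [hu, d, map_one]; rfl)) (Set.toFinite _)
    (by
      have := card_points (Φ := oddF F 1)
      rw [numSing_odd hF n (m := 1) (by simp), hF] at this
      rw [← Nat.card_coe_set_eq]; exact Nat.eq_of_mul_eq_mul_right two_pos this)
    (by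
      have := card_mul_index_inf (oddF F 1).isom LinearEquiv.det
      rw [card_isom_odd hF n (m := 1) (by simp), show (oddF F 1).isom.map LinearEquiv.det = ⊤ from eq_top_iff.2 fun u _ => by
        rcases As.sq_three hF u with e | e
        · exact (u.ne_zero e).elim
        rcases mul_self_eq_one_iff.1 e with e | e
        · exact ⟨1, one_mem _, by ext; simp [e]⟩
        · exact ⟨_, neg_mem_isom, by rw [det_scal]; ext; simp [e]; norm_num⟩, Subgroup.card_top, card_units_eq, hF] at this
      exact Nat.eq_of_mul_eq_mul_left two_pos this.symm)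
  exact ⟨(soEquiv (oddF F 1)).trans φ⟩


end Cfsg.Agent.S0823
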