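import Cfsg.Statements.S0824
import Cfsg.Agent.H5.Iso2

set_option autoImplicit false
open Cfsg

namespace Cfsg.Agent.S0824

open H5 H5.Form Matrix

/-- O⁻_4(2) ≅ S_5: the isometry group of the form x y + z_1² + z_1 z_2 + z_2² over the field with 2 elements is isomorphic to the symmetric group on 5 letters. -/
theorem result {F : Type*} [Field F] [Fintype F] (hF : Fintype.card F = 2) : Nonempty (↥(Cfsg.isometryGroup F (Cfsg.quadFormMinus 1 F 1 1)) ≃* Equiv.Perm (Fin 5)) := by
  have a : ∀ z₁ z₂ : F, z₁ ^ 2 + 1 * z₁ * z₂ + 1 * z₂ ^ 2 = 0 → z₁ = 0 ∧ z₂ = 0 := fun x y => by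
    have h2 : (2 : F) = 0 := by simpa [hF] using FiniteField.cast_card_eq_zero F
    have k : ∀ x : F, x = 0 ∨ x = 1 := fun x => by
      have := FiniteField.pow_card x; rw [hF] at this
      exact (mul_eq_zero.1 (show x * (x - 1) = 0 by linear_combination this)).imp id sub_eq_zero.1
    rcases k x with rfl | rfl <;> rcases k y with rfl | rfl <;> simp [one_add_one_eq_two, h2]
  have n := minusF_nondeg 1 (disc_ne_zero_of_aniso a)
  have t := minusF_not_hasTS 1 a
  obtain ⟨e, f, hef⟩ := n.orth_hyp (by simp)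
  obtain ⟨φ⟩ := perm_of_faithful_set (G := (minusF 1 (1 : F) 1).isom) (S := {v | (minusF 1 (1 : F) 1).Q v = 0 ∧ v ≠ 0}) (n := 5)
    (fun g v hv => ⟨(isom_Q g.2 v).trans hv.1, (map_ne_zero_iff _ g.1.injective).2 hv.2⟩)
    (fun g h => Subtype.ext (LinearEquiv.toLinearMap_injective (LinearMap.ext_on hef.span_sing fun v hv => by
      by_cases v0 : v = 0
      exacts [by simp [v0], h v ⟨hv, v0⟩]))) (Set.toFinite _)
    (by rw [← Nat.card_coe_set_eq]; exact card_ne_zero_sing.trans (numSing_minus' hF n (m := 1) (by simp) t))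
    (by rw [card_isom_minus hF n (m := 1) (by simp) t]; decide)
  exact ⟨(oEquiv (minusF 1 1 1)).trans φ⟩


end Cfsg.Agent.S0824
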