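import Cfsg.Statements.S0828
import Cfsg.Agent.H5.Geo

set_option autoImplicit false
open Cfsg

namespace Cfsg.Agent.S0828

open H5 H5.Form Module

/-- The symplectic generalised quadrangle over a field with q elements: the number of 2-dimensional subspaces of F^4 on which the symplectic form vanishes is (q + 1)(q² + 1), and every non-zero vector lies in exactly q + 1 of them. -/
theorem result {F : Type*} [Field F] [Fintype F] {q : ℕ} (hF : Fintype.card F = q) : Nat.card {W : Submodule F (Fin 2 ⊕ Fin 2 → F) // Module.finrank F W = 2 ∧ ∀ u ∈ W, ∀ v ∈ W, Cfsg.sympForm 2 F u v = 0} = (q + 1) * (q ^ 2 + 1) ∧ ∀ v : Fin 2 ⊕ Fin 2 → F, v ≠ 0 → Nat.card {W : Submodule F (Fin 2 ⊕ Fin 2 → F) // Module.finrank F W = 2 ∧ v ∈ W ∧ ∀ u ∈ W, ∀ w ∈ W, Cfsg.sympForm 2 F u w = 0} = q + 1 := by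
  have h := sympF_nondeg (F := F) 2
  have q2 : 2 ≤ q := hF ▸ Fintype.one_lt_card
  obtain ⟨r, rfl⟩ : ∃ r, q = r + 2 := ⟨q - 2, by omega⟩
  constructor
  · obtain ⟨m, hm, ht⟩ := h.symp_hasTS
    obtain rfl : m = 2 := by simp at hm; omega
    have := h.card_ts (d := 0) (N := 1) (fun _ _ _ _ _ _ e => card_isom_zero e) hm ht
    rw [card_isom_symp hF h hm, card_ker_symp, Nat.card_eq_fintype_card (α := F), hF] at this
    simp only [symp_ts, sympF_B] at this
    generalize Nat.card _ = N at this
    simp only [spOrd, Finset.prod_range_succ, Fin.prod_univ_two, Finset.range_zero, Finset.prod_empty, Fin.val_zero, Fin.val_one, pow_zero] at this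
    zify [Nat.one_le_pow, show (r + 2) ^ 1 ≤ (r + 2) ^ 2 from Nat.pow_le_pow_right (by omega) (by omega), show 0 < r + 2 by omega] at this ⊢
    refine mul_right_cancel₀ (b := ((r + 2) ^ 4 * (r + 1) * ((r + 1) * (r + 3)) : ℤ)) (by positivity) ?_
    linear_combination -this
  · intro v hv
    have hU : (sympF F 2).TS (F ∙ v) := ts_singleton (symp_Q _ _)
    obtain ⟨H, d, e, n, k⟩ := h.exists_levi hU
    have := card_ts_over hU d e 1
    rw [finrank_span_singleton hv] at this k
    have c := card_points (Φ := (sympF F 2).res H)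
    haveI hf : Finite H := finite_of_fd (F := F)
    rw [← this, numSing, Nat.card_congr (Equiv.subtypeUnivEquiv fun x => symp_Q _ x), Module.natCard_eq_pow_finrank (K := F) (V := H),
      show finrank F H = 2 by simp at k; omega, Nat.card_eq_fintype_card (α := F), hF] at c
    simp only [symp_ts, sympF_B, Submodule.span_singleton_le_iff_mem, and_comm (b := v ∈ _)] at c
    exact Nat.eq_of_mul_eq_mul_right (show 0 < r + 2 - 1 by omega) (c.trans (Nat.sq_sub_sq _ 1))


end Cfsg.Agent.S0828
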