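import Cfsg.Statements.S0829
import Cfsg.Agent.H5.Geo

set_option autoImplicit false
open Cfsg

namespace Cfsg.Agent.S0829

open H5 H5.Form Module

/-- The unitary quadrangle of PSU_4(q): with |F| = q², the number of 2-dimensional subspaces of F^4 on which the Hermitian form Σ x_i y_i^q vanishes is (q + 1)(q³ + 1). -/
theorem result {F : Type*} [Field F] [Fintype F] {q : ℕ} (hF : Fintype.card F = q ^ 2) : Nat.card {W : Submodule F (Fin 4 → F) // Module.finrank F W = 2 ∧ ∀ u ∈ W, ∀ v ∈ W, Cfsg.hermForm 4 F q u v = 0} = (q + 1) * (q ^ 3 + 1) := by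
  have h := hermF_nondeg 4 hF
  obtain ⟨r, rfl⟩ : ∃ r, q = r + 2 := ⟨q - 2, by have := two_le_of_card_sq hF; omega⟩
  have := h.card_ts (k := 2) (d := 0) (N := 1) (fun _ _ _ _ _ _ e => card_isom_zero e) (by simp) (h.unit_hasTS (by simp))
  rw [card_isom_unit h (n := 4) (by simp), card_trace_ker, hF] at this
  simp only [unit_ts, hermF_B] at this
  generalize Nat.card _ = N at this
  simp only [guOrd, uf, Finset.prod_range_succ, Fin.prod_univ_two, Finset.range_zero, Finset.prod_empty, Fin.val_zero, Fin.val_one] at this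
  norm_num [show ¬ Even 3 by decide] at this
  zify [Nat.one_le_pow, show 1 ≤ ((r + 2) ^ 2) ^ 2 from Nat.one_le_pow _ _ (by positivity), show (r + 2) ^ 2 ≤ ((r + 2) ^ 2) ^ 2 from Nat.le_self_pow (by omega) _, show 0 < r + 2 by omega] at this ⊢
  refine mul_right_cancel₀ (b := ((r + 2) ^ 6 * ((r + 1) * (r + 3)) * ((r + 1) * (r + 3) * ((r + 2) ^ 2 + 1)) : ℤ)) (by positivity) ?_
  linear_combination -this


end Cfsg.Agent.S0829
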