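import Cfsg.Statements.S0831
import Cfsg.Agent.H5.Geo

set_option autoImplicit false
open Cfsg

namespace Cfsg.Agent.S0831

open H5 H5.Form Module

/-- The two families of maximal totally singular subspaces of the hyperbolic quadric: for the form Σ x_i y_i on F^(2m), m ≥ 1, and m-dimensional subspaces U, W, X on which it vanishes, the parities of m − dim(U ∩ W), m − dim(W ∩ X) and m − dim(U ∩ X) sum to an even number (so 'even codimension of the intersection' is an equivalence relation), and there exist two such subspaces meeting in codimension 1 (so there are exactly two classes). -/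
theorem result {F : Type*} [Field F] (m : ℕ) (hm : 1 ≤ m) : (∀ U W X : Submodule F (Fin m ⊕ Fin m → F), (Module.finrank F U = m ∧ ∀ w ∈ U, Cfsg.quadFormPlus m F w = 0) → (Module.finrank F W = m ∧ ∀ w ∈ W, Cfsg.quadFormPlus m F w = 0) → (Module.finrank F X = m ∧ ∀ w ∈ X, Cfsg.quadFormPlus m F w = 0) → Even ((m - Module.finrank F ↥(U ⊓ W)) + (m - Module.finrank F ↥(W ⊓ X)) + (m - Module.finrank F ↥(U ⊓ X)))) ∧ ∃ U W : Submodule F (Fin m ⊕ Fin m → F), (Module.finrank F U = m ∧ ∀ w ∈ U, Cfsg.quadFormPlus m F w = 0) ∧ (Module.finrank F W = m ∧ ∀ w ∈ W, Cfsg.quadFormPlus m F w = 0) ∧ Module.finrank F ↥(U ⊓ W) + 1 = m := by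
  have h := plusF_nondeg (F := F) m
  have d : finrank F (Fin m ⊕ Fin m → F) = 2 * m := by simp [two_mul]
  constructor
  · rintro U W X ⟨eU, hU⟩ ⟨eW, hW⟩ ⟨eX, hX⟩
    replace hU : (plusF F m).TS U := orth_ts.2 hU
    replace hW : (plusF F m).TS W := orth_ts.2 hW
    replace hX : (plusF F m).TS X := orth_ts.2 hX
    obtain ⟨g, hg, e⟩ := h.exists_RG_map hW hU (by omega) (by omega)
    have h1 := h.parity hU hU (by omega) (by omega) hg
    have h2 := h.parity hX hU (by omega) (by omega) hg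
    rw [e, inf_idem, eU] at h1
    rw [e, inf_comm X, inf_comm X] at h2
    have l1 := Submodule.finrank_mono (inf_le_left : U ⊓ W ≤ U)
    have l2 := Submodule.finrank_mono (inf_le_left : W ⊓ X ≤ W)
    have l3 := Submodule.finrank_mono (inf_le_left : U ⊓ X ≤ U)
    have : (-1 : ℤˣ) ^ (finrank F ↥(U ⊓ W) + finrank F ↥(W ⊓ X) + (finrank F ↥(U ⊓ X) + m)) = 1 := by
      rw [pow_add, pow_add, pow_add, h1, h2]
      generalize (-1 : ℤˣ) ^ m = a; generalize (-1 : ℤˣ) ^ finrank F ↥(U ⊓ X) = b; generalize dick g = c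
      revert a b c; decide
    rw [neg_one_pow_eq_one_iff_even (by decide), Nat.even_iff] at this
    rw [Nat.even_iff]; omega
  · obtain ⟨T, eT, hT⟩ := (plusF_hasTS (F := F) m).mono (show m - 1 ≤ m by omega)
    obtain ⟨H, d', e, n, k⟩ := h.exists_levi hT
    obtain ⟨X, l, eX, hX⟩ := h.ts_extend hT (plusF_hasTS m) (by omega)
    obtain ⟨x, hx, x0⟩ := SetLike.exists_of_lt (lt_of_le_of_ne l fun e => by subst e; omega)
    have px : x ∈ (plusF F m).perp T := (mem_perp _).2 fun w hw => hX.2 _ hx _ (l hw)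
    obtain ⟨y, y1, y2, y3⟩ := h.exists_partner (hX.1 x hx) x0 ((mem_perp' _).1 px)
    have y0 : y ∉ X := fun e => by simp [hX.2 _ hx _ e] at y2
    have hY := hT.sup_singleton y1 ((mem_perp' _).2 y3)
    have eY : finrank F ↥(T ⊔ F ∙ y) = m := by rw [Submodule.finrank_sup_span_singleton (fun e => y0 (l e))]; omega
    refine ⟨X, T ⊔ F ∙ y, ⟨eX, hX.1⟩, ⟨eY, hY.1⟩, ?_⟩
    have := Submodule.finrank_mono (le_inf l le_sup_left : T ≤ X ⊓ (T ⊔ F ∙ y))
    have := Submodule.finrank_lt_finrank_of_lt (lt_of_le_of_ne (inf_le_right : X ⊓ (T ⊔ F ∙ y) ≤ _) fun e =>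
      y0 (e.ge (Submodule.mem_sup_right (Submodule.mem_span_singleton_self y))).1)
    omega


end Cfsg.Agent.S0831
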