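import Cfsg.Statements.S0832
import Cfsg.Agent.H5.Geo

set_option autoImplicit false
open Cfsg

namespace Cfsg.Agent.S0832

open H5 H5.Form Module

/-- For the form Σ x_i y_i on F^(2m) over a finite field, m ≥ 1: an (m−1)-dimensional subspace on which the form vanishes is contained in exactly two m-dimensional subspaces on which it vanishes. -/
theorem result {F : Type*} [Field F] [Finite F] (m : ℕ) (hm : 1 ≤ m) (U : Submodule F (Fin m ⊕ Fin m → F)) (hU : Module.finrank F U + 1 = m ∧ ∀ u ∈ U, Cfsg.quadFormPlus m F u = 0) : Nat.card {W : Submodule F (Fin m ⊕ Fin m → F) // Module.finrank F W = m ∧ (∀ w ∈ W, Cfsg.quadFormPlus m F w = 0) ∧ U ≤ W} = 2 := by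
  haveI := Fintype.ofFinite F
  have h := plusF_nondeg (F := F) m
  have d : finrank F (Fin m ⊕ Fin m → F) = 2 * m := by simp [two_mul]
  have hT : (plusF F m).TS U := orth_ts.2 hU.2
  obtain ⟨H, d', e, n, k⟩ := h.exists_levi hT
  have := card_ts_over hT d' e 1
  rw [hU.1] at this
  have p : ((plusF F m).res H).HasTS 1 := by
    obtain ⟨X, l, eX, hX⟩ := h.ts_extend hT (plusF_hasTS m) (by omega)
    obtain ⟨⟨L, hL⟩⟩ := (Nat.card_ne_zero.1 (this.symm.trans_ne (Nat.card_ne_zero.2 ⟨⟨⟨X, eX, hX, l⟩⟩, inferInstance⟩))).1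
    exact ⟨L, hL⟩
  have c := card_points (Φ := (plusF F m).res H)
  rw [← this, numSing_plus' rfl n (m := 0) (by omega) p] at c
  simp only [orth_ts, plusF_Q] at c
  exact Nat.eq_of_mul_eq_mul_right (show 0 < Fintype.card F - 1 by have := Fintype.one_lt_card (α := F); omega) (by rw [c]; simp [mul_comm])


end Cfsg.Agent.S0832
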