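import Cfsg.Statements.S0833
import Cfsg.Agent.H5.Geo

set_option autoImplicit false
open Cfsg

namespace Cfsg.Agent.S0833

open H5 H5.Form Module

/-- If B₁, B₂ are non-degenerate alternating forms on U (dim 2k) and W (dim 2l), then B₁ ⊗ B₂ on U ⊗ W is symmetric, non-degenerate, and vanishes identically on some subspace of dimension 2kl (half of dim U ⊗ W). -/
theorem result {F U W : Type*} [Field F] [Fintype F] [AddCommGroup U] [Module F U] [FiniteDimensional F U] [AddCommGroup W] [Module F W] [FiniteDimensional F W] (B₁ : LinearMap.BilinForm F U) (B₂ : LinearMap.BilinForm F W) (h₁ : B₁.Nondegenerate) (h₂ : B₂.Nondegenerate) (hA₁ : B₁.IsAlt) (hA₂ : B₂.IsAlt) (k l : ℕ) (hU : Module.finrank F U = 2 * k) (hW : Module.finrank F W = 2 * l) : (B₁.tmul B₂).IsSymm ∧ (B₁.tmul B₂).Nondegenerate ∧ (∃ X : Submodule F (TensorProduct F U W), Module.finrank F X = 2 * k * l ∧ ∀ x ∈ X, ∀ y ∈ X, (B₁.tmul B₂) x y = 0) := by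
  refine ⟨⟨fun x y => ?_⟩, tmul_nondeg h₁ h₂, ?_⟩
  · induction x with
    | zero => simp
    | add x x' h h' => simp only [map_add, LinearMap.add_apply, h, h']
    | tmul a b =>
      induction y with
      | zero => simp
      | add x x' h h' => simp only [map_add, LinearMap.add_apply, h, h']
      | tmul c d => simp [LinearMap.BilinForm.tensorDistrib_tmul, ← hA₁.neg_eq a c, ← hA₂.neg_eq b d]
  obtain ⟨m, hm, T, eT, hT⟩ := (show (ofAlt B₁ hA₁).Nondeg from fun y hy => h₁.2 y hy).symp_hasTS
  refine ⟨LinearMap.range (T.subtype.rTensor W), ?_, ?_⟩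
  · rw [LinearMap.finrank_range_of_inj (Module.Flat.rTensor_preserves_injective_linearMap _ T.subtype_injective), finrank_tensorProduct,
      eT, hW, show m = k by omega]; ring
  · rintro _ ⟨x, rfl⟩ _ ⟨y, rfl⟩
    induction x with
    | zero => simp
    | add x x' h h' => simp only [map_add, LinearMap.add_apply, h, h', add_zero]
    | tmul a b =>
      induction y with
      | zero => simp
      | add x x' h h' => simp only [map_add, h, h', add_zero]
      | tmul c d => simp [LinearMap.BilinForm.tensorDistrib_tmul, show B₁ a c = 0 from hT.2 _ a.2 _ c.2]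


end Cfsg.Agent.S0833
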