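import Cfsg.Statements.S0835
import Cfsg.Agent.H5.Geo

set_option autoImplicit false
open Cfsg

namespace Cfsg.Agent.S0835

open H5 H5.Form Module

/-- Over a finite field with 2 ≠ 0: if B₁ on U (dim 2k, k ≥ 1) is non-degenerate symmetric of minus type (no totally isotropic k-subspace) and B₂ on W (dim 2l + 1) is non-degenerate symmetric, then B₁ ⊗ B₂ (dimension 2k(2l+1)) admits no totally isotropic subspace of dimension k(2l+1) (minus type). -/
theorem result {F U W : Type*} [Field F] [Fintype F] [AddCommGroup U] [Module F U] [FiniteDimensional F U] [AddCommGroup W] [Module F W] [FiniteDimensional F W] (h2 : (2 : F) ≠ 0) (B₁ : LinearMap.BilinForm F U) (B₂ : LinearMap.BilinForm F W) (h₁ : B₁.Nondegenerate) (h₂ : B₂.Nondegenerate) (hS₁ : B₁.IsSymm) (hS₂ : B₂.IsSymm) (k l : ℕ) (hk : 1 ≤ k) (hU : Module.finrank F U = 2 * k) (hW : Module.finrank F W = 2 * l + 1) (hm₁ : ¬ (∃ X : Submodule F (U), Module.finrank F X = k ∧ ∀ x ∈ X, ∀ y ∈ X, (B₁) x y = 0)) : ¬ (∃ X : Submodule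 F (TensorProduct F U W), Module.finrank F X = k * (2 * l + 1) ∧ ∀ x ∈ X, ∀ y ∈ X, (B₁.tmul B₂) x y = 0) := by
  intro h
  have := (((ofSym_nondeg (tmul_nondeg h₁ h₂)).hasTS_iff_det h2 (by rw [finrank_tensorProduct, hU, hW]; ring)
    ((finBasis F U).tensorProduct (finBasis F W))).1 ((ofSym_hasTS (hS := LinearMap.BilinForm.isSymm_iff.2 (LinearMap.IsSymm.tmul (LinearMap.BilinForm.isSymm_iff.1 hS₁) (LinearMap.BilinForm.isSymm_iff.1 hS₂))) (h2 := h2)).2 h))
  refine hm₁ ((ofSym_hasTS (hS := hS₁) (h2 := h2)).1 (((ofSym_nondeg h₁).hasTS_iff_det h2 hU (finBasis F U)).2 ?_))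
  erw [det_tmul] at this
  have n1 := (nondeg_iff_det (finBasis F U)).1 h₁
  have n2 := (nondeg_iff_det (finBasis F W)).1 h₂
  simp only [Fintype.card_fin, hU, hW] at this
  change IsSquare (_ * (Matrix.of fun i j => B₁ (finBasis F U i) (finBasis F U j)).det)
  generalize (Matrix.of fun i j => B₁ (finBasis F U i) (finBasis F U j)).det = a at n1 this ⊢
  generalize (Matrix.of fun i j => B₂ (finBasis F W i) (finBasis F W j)).det = b at n2 this
  exact (isSquare_sq_mul (c := (-1) ^ (k * l) * a ^ l * b ^ k) (by simp [n1, n2])).1 (by convert this using 1; ring)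


end Cfsg.Agent.S0835
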