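import Cfsg.Statements.S0836
import Cfsg.Agent.H5.SL

set_option autoImplicit false
open Cfsg

namespace Cfsg.Agent.S0836

open H5 Matrix

/-- For i ≠ j and any scalar c, the elementary transvection 1 + c E_ij is a commutator ⁅g, h⁆ of two elements of SL_n(F) provided n ≥ 3, or n = 2 and F contains x ≠ 0 with x² ≠ 1. -/
theorem result {F : Type*} [Field F] (n : ℕ) (hn : 3 ≤ n ∨ (n = 2 ∧ ∃ x : F, x ≠ 0 ∧ x ^ 2 ≠ 1)) (i j : Fin n) (hij : i ≠ j) (c : F) (t : Matrix.SpecialLinearGroup (Fin n) F) (ht : (t : Matrix (Fin n) (Fin n) F) = Matrix.transvection i j c) : t ∈ commutatorSet (Matrix.SpecialLinearGroup (Fin n) F) := by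
  obtain rfl : t = SpecialLinearGroup.transvection hij c := Subtype.ext ht
  rcases hn with hn | ⟨rfl, x, x0, x1⟩
  · obtain ⟨k, h1, h3⟩ := exists_third (ι := Fin n) (by simpa) i j
    exact ⟨_, _, by rw [commutator_transvection h1.symm h3 hij c 1, mul_one]⟩
  · refine ⟨SpecialLinearGroup.diag2n hij x x0, SpecialLinearGroup.transvection hij (c / (x ^ 2 - 1)), ?_⟩
    rw [commutatorElement_def, mul_inv_eq_iff_eq_mul, mul_inv_eq_iff_eq_mul]
    have := sub_ne_zero.2 x1
    refine Subtype.ext ?_
    change diagonal _ * (1 + single i j _) = (1 + single i j _) * (1 + single i j _) * diagonal _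
    ext k l
    fin_cases i <;> fin_cases j <;> (try exact absurd rfl hij) <;> fin_cases k <;> fin_cases l <;>
      simp [Matrix.mul_apply, Fin.sum_univ_two, SpecialLinearGroup.diag2n_coe] <;> field_simp <;> ring_nf


end Cfsg.Agent.S0836
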