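import Cfsg.Statements.S0837
import Cfsg.Agent.H5.Det

set_option autoImplicit false
open Cfsg

namespace Cfsg.Agent.S0837

/-- If W ≤ F^n (|F| = q²) is a k-dimensional subspace on which the Hermitian form Σ x_i y_i^q is non-degenerate, then the stabiliser of W in GU_n(q) is isomorphic to GU_k(q) × GU_(n−k)(q). -/
theorem result {F : Type*} [Field F] [Fintype F] {q : ℕ} (hF : Fintype.card F = q ^ 2) (n k : ℕ) (hk : k ≤ n) (W : Submodule F (Fin n → F)) (hWk : Module.finrank F W = k) (hW : ∀ u ∈ W, (∀ v ∈ W, Cfsg.hermForm n F q u v = 0) → u = 0) : Nonempty (↥((Cfsg.stabilizing (Cfsg.glToMat (Fin n) F) (W : Set (Fin n → F))).subgroupOf (Cfsg.GU n F q)) ≃* ↥(Cfsg.GU k F q) × ↥(Cfsg.GU (n - k) F q)) := by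
  have h := H5.hermF_nondeg n hF
  have hU : ((H5.hermF n hF).res W).Nondeg := fun y hy => Subtype.ext (hW y y.2 fun v hv =>
    (H5.hermF n hF).B_zero_symm (hy ⟨v, hv⟩))
  have hd := h.finrank_perp W
  obtain ⟨e1, h1⟩ := H5.Form.unit_iso hU (H5.hermF_nondeg k hF) (by simp; omega)
  obtain ⟨e2, h2⟩ := H5.Form.unit_iso (h.perp_nondeg hU) (H5.hermF_nondeg (n - k) hF)
    (by simp at hd ⊢; omega)
  exact ⟨(H5.stabilizingEquiv ((Cfsg.glToMat (Fin n) F).comp (Cfsg.GU n F q).subtype)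
    (H5.guEquiv n hF) (fun _ _ => rfl) W).trans ((h.stabEquiv hU).symm.trans
    ((h1.isomCongr.trans (H5.guEquiv k hF).symm).prodCongr
      (h2.isomCongr.trans (H5.guEquiv (n - k) hF).symm)))⟩


end Cfsg.Agent.S0837
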