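import Cfsg.Statements.S0839
import Cfsg.Agent.H5.Para

set_option autoImplicit false
open Cfsg

namespace Cfsg.Agent.S0839

open H5 Matrix

/-- Every transvection t ∈ SL_(n+2)(F) (rank(t − 1) = 1, (t − 1)² = 0) is conjugate in SL_(n+2)(F) to 1 + v·e_0ᵀ for some column vector v with v_0 = 0 (the group A of matrices that are the identity except in the first column below the diagonal); the dimension is written n + 2 ≥ 2. -/
theorem result {F : Type*} [Field F] (n : ℕ) (t : Matrix.SpecialLinearGroup (Fin (n + 2)) F) (ht : Cfsg.IsTransvection (t : Matrix (Fin (n + 2)) (Fin (n + 2)) F)) : ∃ (g : Matrix.SpecialLinearGroup (Fin (n + 2)) F) (v : Fin (n + 2) → F), v 0 = 0 ∧ ((g⁻¹ * t * g : Matrix.SpecialLinearGroup (Fin (n + 2)) F) : Matrix (Fin (n + 2)) (Fin (n + 2)) F) = 1 + Matrix.vecMulVec v (Pi.single 0 1) := by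
  obtain ⟨u, φ, u0, φ0, e⟩ := exists_vecMulVec ht.1
  have h2 := ht.2
  rw [e, vecMulVec_mul_vecMulVec, vecMulVec_eq_zero, smul_eq_zero] at h2
  replace h2 : φ ⬝ᵥ u = 0 := by tauto
  obtain ⟨h, e'⟩ := MulAction.exists_smul_eq (SpecialLinearGroup (Fin (n + 2)) F) (Projectivization.mk F φ φ0)
    (Projectivization.mk F (Pi.single (0 : Fin (n + 2)) (1 : F)) (by simp))
  rw [Projectivization.smul_mk, Projectivization.mk_eq_mk_iff'] at e'
  obtain ⟨c, e'⟩ := e'
  replace e' : φ ᵥ* (h.transpose : Matrix (Fin (n + 2)) (Fin (n + 2)) F) = c • Pi.single 0 1 := by rw [e']; exact vecMul_transpose _ _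
  generalize h.transpose = g at e'
  refine ⟨g, c • ((g⁻¹ : Matrix.SpecialLinearGroup _ F) : Matrix (Fin (n + 2)) (Fin (n + 2)) F) *ᵥ u, ?_, ?_⟩
  · have : φ ᵥ* (g : Matrix (Fin (n + 2)) (Fin (n + 2)) F) ⬝ᵥ ((g⁻¹ : Matrix.SpecialLinearGroup _ F) : Matrix (Fin (n + 2)) (Fin (n + 2)) F) *ᵥ u = 0 := by
      rw [← dotProduct_mulVec, mulVec_mulVec, ← Matrix.SpecialLinearGroup.coe_mul, mul_inv_cancel]; simpa
    simpa [e'] using this
  · rw [Matrix.SpecialLinearGroup.coe_mul, Matrix.SpecialLinearGroup.coe_mul, sub_eq_iff_eq_add'.1 e, mul_add, add_mul, mul_one, ← Matrix.SpecialLinearGroup.coe_mul,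
      inv_mul_cancel, mul_vecMulVec, vecMulVec_mul, e', vecMulVec_smul, smul_vecMulVec]; rfl


end Cfsg.Agent.S0839
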