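import Cfsg.Statements.S0840
import Cfsg.Agent.H3.Linear

set_option autoImplicit false
open scoped ComplexConjugate
open Cfsg

namespace Cfsg.Agent.S0840

/-- Class multiplication coefficients from the character table: for elements a, b, c of a finite group G, the number of ordered pairs (x, y) with x conjugate to a, y conjugate to b and x * y = c equals the product of the sizes of the conjugacy classes of a and b, divided by the order of G, times the sum over the irreducible characters χ of χ a * χ b * conj (χ c) / χ 1. -/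
theorem result {G : Type*} [Group G] [Finite G] (a b c : G) : (Nat.card {p : G × G // IsConj a p.1 ∧ IsConj b p.2 ∧ p.1 * p.2 = c} : ℂ) = (Nat.card {x : G // IsConj a x} : ℂ) * (Nat.card {x : G // IsConj b x} : ℂ) / (Nat.card G : ℂ) * ∑ᶠ χ : Cfsg.IrrCharacter G, (χ : G → ℂ) a * (χ : G → ℂ) b * conj ((χ : G → ℂ) c) / (χ : G → ℂ) 1 := by
  classical
  have := Fintype.ofFinite G
  let f : G → ℂ := fun g => ∑ x, H3.classInd a x * H3.classInd b (x⁻¹ * g⁻¹)
  have hf : Cfsg.IsClassFunction G f := by
    intro g h
    simp only [f]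
    refine Fintype.sum_equiv (MulAut.conj h⁻¹).toEquiv _ _ fun x => ?_
    simp only [MulEquiv.toEquiv_eq_coe, EquivLike.coe_coe, MulAut.conj_apply]
    rw [H3.class_classInd a x, ← H3.class_classInd b _ h⁻¹]
    congr 2; group
  have h1 := H3.class_apply_eq_sum hf c⁻¹
  have h2 : f c⁻¹ = (Nat.card {p : G × G // IsConj a p.1 ∧ IsConj b p.2 ∧ p.1 * p.2 = c} : ℂ) := by
    simp only [f, H3.classInd, inv_inv, mul_ite, mul_one, mul_zero, ← ite_and, Finset.sum_boole]
    rw [Nat.card_eq_fintype_card, Fintype.card_subtype]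
    congr 1
    refine Finset.card_bij (fun x _ => (x, x⁻¹ * c)) ?_ ?_ ?_
    · intro x hx; simpa [and_comm, -isConj_iff] using hx
    · intro x _ y _ e; exact congrArg Prod.fst e
    · rintro ⟨x, y⟩ h
      simp only [Finset.mem_filter, Finset.mem_univ, true_and] at h ⊢
      obtain ⟨k1, k2, rfl⟩ := h
      exact ⟨x, by simpa [-isConj_iff] using And.intro k2 k1, by simp⟩
  rw [← h2, h1, finsum_eq_sum_of_fintype, Finset.mul_sum, H3.card_class_eq_index,
    H3.card_class_eq_index]
  refine Finset.sum_congr rfl fun χ _ => ?_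
  rw [H3.inner_char_eq (H3.irr_char χ.2), H3.char_inv (H3.irr_char χ.2) c]
  have h3 : ∑ g, f g * χ.1 g⁻¹ = ∑ y, H3.classInd b y * ∑ x, H3.classInd a x * χ.1 (x * y) := by
    simp only [f, Finset.sum_mul, Finset.mul_sum]
    rw [Finset.sum_comm]
    conv_rhs => rw [Finset.sum_comm]
    refine Finset.sum_congr rfl fun x _ => ?_
    refine Fintype.sum_equiv ((Equiv.inv G).trans (Equiv.mulLeft x⁻¹)) _ _ fun g => ?_
    simp; ring
  have h0 := H3.irr_one_ne_zero χ.2
  have h4 : ∀ y, ∑ x, H3.classInd a x * χ.1 (x * y) =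
      (Subgroup.centralizer ({a} : Set G)).index * χ.1 a / χ.1 1 * χ.1 y := by
    intro y
    have := H3.sum_class_mul_char χ.2 (H3.class_classInd a) y
    rw [H3.sum_classInd_mul a (H3.irr_class χ.2)] at this
    field_simp; linear_combination this
  simp only [h3, h4, mul_left_comm (H3.classInd b _), ← Finset.mul_sum,
    H3.sum_classInd_mul b (H3.irr_class χ.2)]
  ring

end Cfsg.Agent.S0840
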