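import Cfsg.Statements.S0841
import Cfsg.Agent.H3.Basic

set_option autoImplicit false
open Cfsg

namespace Cfsg.Agent.S0841

/-- If the commutator subgroup of G lies in the centre, then for all x, y in G and every natural number n one has (x * y) ^ n = x ^ n * y ^ n * c ^ (n * (n - 1) / 2) with c = y⁻¹ * x⁻¹ * y * x. -/
theorem result {G : Type*} [Group G] (hG : commutator G ≤ Subgroup.center G) (x y : G) (n : ℕ) : (x * y) ^ n = x ^ n * y ^ n * (y⁻¹ * x⁻¹ * y * x) ^ (n * (n - 1) / 2) := by
  set c := y⁻¹ * x⁻¹ * y * x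
  have hc : c ∈ Subgroup.center G := hG (by
    simpa [c, commutatorElement_def, commutator_def] using Subgroup.commutator_mem_commutator
      (Subgroup.mem_top y⁻¹) (Subgroup.mem_top x⁻¹))
  have hc' : ∀ g, Commute c g := fun g => (Subgroup.mem_center_iff.mp hc g).symm
  have h1 : y * x = x * y * c := by simp [c, mul_assoc]
  have h2 : ∀ n : ℕ, y ^ n * x = x * y ^ n * c ^ n := fun n => by
    induction n with
    | zero => simp
    | succ n ih =>
      rw [pow_succ', mul_assoc, ih, ← mul_assoc, ← mul_assoc, h1, mul_assoc (x * y),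
        (hc' _).eq, pow_succ' c]
      simp only [mul_assoc]
  induction n with
  | zero => simp
  | succ n ih =>
    have e : (n + 1) * (n + 1 - 1) / 2 = n * (n - 1) / 2 + n := by
      rw [← Nat.choose_two_right, ← Nat.choose_two_right, Nat.choose_succ_succ' , Nat.choose_one_right,
        add_comm]
    rw [pow_succ, ih, e, mul_assoc, ((hc' _).pow_left _).eq, ← mul_assoc, ← mul_assoc,
      mul_assoc (x ^ n), h2, pow_add c, pow_succ x, pow_succ y]
    simp only [mul_assoc]
    rw [← mul_assoc (c ^ n), ((hc' y).pow_left n).eq, mul_assoc, pow_mul_comm c]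

end Cfsg.Agent.S0841
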