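import Cfsg.Statements.S0842
import Cfsg.Agent.H3.Qd

set_option autoImplicit false
open Cfsg

namespace Cfsg.Agent.S0842

open H3 Subgroup

/-- Suppose a Sylow 2-subgroup S of the finite group G is generalized quaternion of order at least 16, and let D be the commutator subgroup of S, C its centralizer and N its normalizer in G. Then there is a subgroup K of odd order, contained in C and normalized by N, with K ⊔ S = N and K ⊔ (S ⊓ C) = C, and C has index 2 in N. -/
theorem result {G : Type*} [Group G] [Finite G] (S : Sylow 2 G) (n : ℕ) (e : (S : Subgroup G) ≃* QuaternionGroup (2 ^ (n + 2))) (D : Subgroup G) (hD : D = ⁅(S : Subgroup G), (S : Subgroup G)⁆) : ∃ K : Subgroup G, Odd (Nat.card K) ∧ K ≤ Subgroup.centralizer (D : Set G) ∧ Subgroup.normalizer (D : Set G) ≤ Subgroup.normalizer (K : Set G) ∧ K ⊔ (S : Subgroup G) = Subgroup.normalizer (D : Set G) ∧ K ⊔ ((S : Subgroup G) ⊓ Subgroup.centralizer (D : Set G)) = Subgroup.centralizer (D : Set G) ∧ ((Subgroup.centralizer (D : Set G)).subgroupOf (Subgroup.normalizer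 (D : Set G))).index = 2 := by
  obtain ⟨a, h1, h2, h3, h4, h5⟩ := qd_setup S n e
  rw [h1] at hD
  subst hD
  set C := centralizer (zpowers (a ^ 2) : Set G)
  have hp : IsPGroup 2 (zpowers (a ^ 2)) := h5.pgroup.to_le (H1.zpowers_pow_le a 2)
  have k1 : normalizer (zpowers (a ^ 2) : Set G) ≤ normalizer (C : Set G) := H1.centralizer_normalizer _
  have k2 : H2.Op 2 C ⊔ (S : Subgroup G) = normalizer (zpowers (a ^ 2) : Set G) := by
    refine le_antisymm (sup_le ((H2.Op_le 2 C).trans (centralizer_le_normalizer _)) h4) ?_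
    refine ((H2.isSylowIn_top S).of_le h4 le_top).Op_sup.ge.trans (sup_le ?_ le_sup_right)
    exact H2.Op_le_iff.2 fun g hg ho => mem_sup_left
      (H2.mem_Op (H1.cent_of_isCyclic_two hp inferInstance hg ho) ho)
  refine ⟨H2.Op 2 C, ?_, H2.Op_le 2 C, k1.trans (H2.normalizer_le_normalizer_Op 2 C), k2,
    h2 ▸ h5.Op_sup, ?_⟩
  · exact Nat.coprime_two_right.1 (H2.hasNPC_iff_Op.1 (H1.hasNPC_two_of_isCyclic h5 inferInstance))
  · have : normalizer (zpowers (a ^ 2) : Set G) = (S : Subgroup G) ⊔ C :=
      le_antisymm (k2.ge.trans (sup_le ((H2.Op_le 2 C).trans le_sup_right) le_sup_left))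
        (sup_le h4 (centralizer_le_normalizer _))
    show C.relIndex _ = 2
    rw [this, H1.relIndex_sup_of_le_normalizer (h4.trans k1), ← inf_relIndex_right, inf_comm, h2, h3]

end Cfsg.Agent.S0842
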