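import Cfsg.Statements.S0843
import Cfsg.Agent.H3.Qd
import Cfsg.Agent.H1.Misc

set_option autoImplicit false
open Cfsg

namespace Cfsg.Agent.S0843

open H3 Subgroup
open scoped Pointwise

/-- Suppose a Sylow 2-subgroup S of the finite group G is generalized quaternion of order at least 16; let D be the commutator subgroup of S and X the set of elements of the centralizer of D whose order is divisible by the order of D. Then D is contained in the cyclic subgroup generated by any element of X; an element of G conjugating some element of X into the centralizer of D normalizes D; and the normalizer of D maps X to itself under conjugation. -/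
theorem result {G : Type*} [Group G] [Finite G] (S : Sylow 2 G) (n : ℕ) (e : (S : Subgroup G) ≃* QuaternionGroup (2 ^ (n + 2))) (D : Subgroup G) (hD : D = ⁅(S : Subgroup G), (S : Subgroup G)⁆) : (∀ y : G, y ∈ Subgroup.centralizer (D : Set G) → Nat.card D ∣ orderOf y → D ≤ Subgroup.zpowers y) ∧ (∀ g y : G, y ∈ Subgroup.centralizer (D : Set G) → Nat.card D ∣ orderOf y → g * y * g⁻¹ ∈ Subgroup.centralizer (D : Set G) → g ∈ Subgroup.normalizer (D : Set G)) ∧ (∀ g y : G, g ∈ Subgroup.normalizer (D : Set G) → y ∈ Subgroup.centralizer (D : Set G) → Nat.card D ∣ orderOf y → g * y * g⁻¹ ∈ Subgroup.centralizer (D : Set G) ∧ Nat.card D ∣ orderOf (g * y * g⁻¹)) := by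
  obtain ⟨a, h1, -, -, -, h5⟩ := qd_setup S n e
  rw [h1] at hD
  subst hD
  have hp : IsPGroup 2 (zpowers (a ^ 2)) := h5.pgroup.to_le (H1.zpowers_pow_le a 2)
  have k1 : ∀ y : G, y ∈ centralizer (zpowers (a ^ 2) : Set G) → Nat.card (zpowers (a ^ 2)) ∣ orderOf y →
      zpowers (a ^ 2) ≤ zpowers y := by
    intro y hy hd
    obtain ⟨u, hu, v, hv, e, ⟨k, hk⟩, h2⟩ := H1.exists_p_part 2 y
    have hc : Commute u v := by
      obtain ⟨i, rfl⟩ := hu
      obtain ⟨j, rfl⟩ := hv
      exact (Commute.refl y).zpow_zpow i j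
    have hd' : Nat.card (zpowers (a ^ 2)) ∣ orderOf u :=
      (H1.isPGroup_coprime' hp h2).dvd_of_dvd_mul_right (hd.trans (e ▸ hc.orderOf_mul_dvd_mul_orderOf))
    obtain ⟨c, hc, h3⟩ := (H1.IsSylowIn.mk h5.1 h5.2.1 h5.2.2).exists_conj_le
      (IsPGroup.of_card ((Nat.card_zpowers u).trans hk)) (zpowers_le.2 (zpowers_le.2 hy hu))
    have h4 := le_of_cyc inferInstance (H1.zpowers_pow_le a 2) h3
      (by rwa [H1.card_conj_smul, Nat.card_zpowers u])
    refine fun x hx => zpowers_le.2 hu ?_
    have := H1.mem_conj_smul.1 (h4 hx)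
    rwa [mul_assoc, hc x hx, inv_mul_cancel_left] at this
  have ho : ∀ g y : G, orderOf (g * y * g⁻¹) = orderOf y := fun g y =>
    (MulAut.conj g).orderOf_eq y
  refine ⟨k1, fun g y hy hd hg => ?_, fun g y hg hy hd => ⟨?_, by rwa [ho]⟩⟩
  · rw [← H1.conj_smul_eq_self_iff]
    have h2 := k1 _ hg (by rwa [ho])
    have h3 : MulAut.conj g • zpowers (a ^ 2) ≤ zpowers (g * y * g⁻¹) :=
      H1.conj_smul_le_iff.2 fun x hx => by
        obtain ⟨i, rfl⟩ := k1 y hy hd hx
        exact ⟨i, conj_zpow⟩
    exact H1.eq_of_le_of_card_eq (le_of_cyc inferInstance h3 h2 (by rw [H1.card_conj_smul]))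
      (H1.card_conj_smul _ _)
  · exact H1.conj_mem_of_mem_normalizer (H1.centralizer_normalizer _ hg) hy

end Cfsg.Agent.S0843
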