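import Cfsg.Statements.S0845
import Cfsg.Agent.H4.Inv2

set_option autoImplicit false
open Cfsg

namespace Cfsg.Agent.S0845

open H4 H1 MonoidAlgebra
open scoped Pointwise commutatorElement


/-- Suppose a Sylow 2-subgroup S of the finite group G is generalized quaternion of order at least 16. Then G has a normal subgroup M of even order such that G / M is non-abelian, that is, M does not contain the commutator subgroup of G. -/
theorem result {G : Type*} [Group G] [Finite G] (S : Sylow 2 G) (n : ℕ) (e : (S : Subgroup G) ≃* QuaternionGroup (2 ^ (n + 2))) : ∃ M : Subgroup G, M.Normal ∧ Even (Nat.card M) ∧ ¬ commutator G ≤ M := by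
  obtain ⟨a, ha⟩ := exists_GQ e
  have h := ha.isolated (isSylowIn_top S) ha.ord_pow
  have ho := ha.ord_pow
  generalize a ^ 2 ^ (n + 2) = t at h ho
  have := normal_of_le_center (Subgroup.zpowers_le.2 h.mk_mem_center)
  refine ⟨(Subgroup.zpowers (t : G ⧸ Cfsg.pPrimeCore 2 G)).comap (QuotientGroup.mk' _),
    inferInstance, even_iff_two_dvd.2 ?_, fun h1 => ?_⟩
  · rw [← ho]; exact Subgroup.orderOf_dvd_natCard _ (Subgroup.mem_zpowers _)
  obtain ⟨s, hs, h2⟩ := ha.ex
  obtain ⟨k, hk⟩ := h1 (Subgroup.commutator_mem_commutator (Subgroup.mem_top a) (Subgroup.mem_top s))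
  have h3 : ⁅a, s⁆ ^ 2 ∈ Cfsg.pPrimeCore 2 G := by
    rw [← QuotientGroup.eq_one_iff, ← QuotientGroup.mk'_apply, map_pow, ← hk]
    simp only
    rw [← zpow_natCast, ← zpow_mul, mul_comm, zpow_mul, zpow_natCast, ← QuotientGroup.mk_pow, sq, h.mul_self]
    simp
  rw [commutatorElement_def, mul_assoc, mul_assoc, ← mul_assoc s, conj_inv.symm, (ha.inv s hs h2).1, inv_inv, ← sq,
    ← pow_mul] at h3
  have h4 := ((isPElt_of_mem Nat.prime_two S.isPGroup' ha.mem).pow Nat.prime_two _).eq_one Nat.prime_two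
    (not_dvd_orderOf_of_mem not_dvd_card_pPrimeCore h3)
  have := Nat.le_of_dvd (by norm_num) (orderOf_dvd_of_pow_eq_one h4)
  rw [ha.ord, pow_succ, pow_succ] at this
  have := Nat.one_le_two_pow (n := n)
  omega

end Cfsg.Agent.S0845
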