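import Cfsg.Statements.S0846
import Cfsg.Agent.H4.Inv2

set_option autoImplicit false
open Cfsg

namespace Cfsg.Agent.S0846

open H4 H1 MonoidAlgebra
open scoped Pointwise


/-- Suppose a Sylow 2-subgroup S of the finite group G is generalized quaternion of order at least 16. Then every Sylow 2-subgroup of the subgroup generated by the involutions of G is cyclic. -/
theorem result {G : Type*} [Group G] [Finite G] (S : Sylow 2 G) (n : ℕ) (e : (S : Subgroup G) ≃* QuaternionGroup (2 ^ (n + 2))) (Q : Sylow 2 ↥(Subgroup.closure {g : G | orderOf g = 2})) : IsCyclic Q := by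
  obtain ⟨a, ha⟩ := exists_GQ e
  have h := ha.isolated (isSylowIn_top S) ha.ord_pow
  generalize hb : a ^ 2 ^ (n + 2) = t at h
  have h1 : Subgroup.closure {g : G | orderOf g = 2} ≤
      (Subgroup.zpowers (t : G ⧸ Cfsg.pPrimeCore 2 G)).comap (QuotientGroup.mk' _) :=
    (Subgroup.closure_le _).2 fun r hr => by
      obtain ⟨g, -, h1, -⟩ := exists_conj_mem (isSylowIn_top S) ⟨1, hr⟩ ⟨1, hr⟩ trivial trivial (Commute.refl r)
      have h2 := (ha.eq_pow h1 (by rw [orderOf_conj, hr])).trans hb
      rw [show r = g⁻¹ * t * g⁻¹⁻¹ by rw [← h2]; group, SetLike.mem_coe, Subgroup.mem_comap, map_mul, map_mul,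
        QuotientGroup.mk'_apply _ t, Subgroup.mem_center_iff.1 h.mk_mem_center, map_inv _ g⁻¹, mul_inv_cancel_right]
      exact Subgroup.mem_zpowers _
  refine isCyclic_of_injective (((QuotientGroup.mk' _).comp ((Subgroup.subtype _).comp (Subgroup.subtype _))).codRestrict
    (Subgroup.zpowers (t : G ⧸ Cfsg.pPrimeCore 2 G)) fun x => h1 (SetLike.coe_mem _)) ((injective_iff_map_eq_one _).2 fun x hx => ?_)
  exact Subtype.ext (Subtype.ext ((isPElt_coe.2 (isPElt_of_mem Nat.prime_two Q.isPGroup' x.2)).eq_one Nat.prime_two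
    (not_dvd_orderOf_of_mem not_dvd_card_pPrimeCore ((QuotientGroup.eq_one_iff _).1 (congrArg Subtype.val hx)))))

end Cfsg.Agent.S0846
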