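import Cfsg.Statements.S0848
import Cfsg.Agent.H3.Dih

set_option autoImplicit false
open Cfsg

namespace Cfsg.Agent.S0848

/-- If a finite group equals its own commutator subgroup and contains an involution whose centralizer is isomorphic to the dihedral group of order 8, then the group has order 168 or 360. -/
theorem result {G : Type*} [Group G] [Finite G] (hperf : commutator G = ⊤) (t : G) (ht : orderOf t = 2) (e : Subgroup.centralizer ({t} : Set G) ≃* DihedralGroup 4) : Nat.card G = 168 ∨ Nat.card G = 360 := by
  obtain ⟨⟨f⟩⟩ | ⟨F, _, _, c, ⟨f⟩⟩ := H3.psl_of_d8 ht e fun H h => by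
    have := hperf ▸ H5.commutator_le_of_index_two h
    rw [top_le_iff.1 this] at h; simp at h
  · exact Or.inr (by rw [Nat.card_congr f.toEquiv, nat_card_alternatingGroup]; simp [Nat.factorial])
  · have := H5.card_PS (k := F)
    rw [c, ← Nat.card_congr (f.trans (H5.psEquiv F)).toEquiv] at this
    exact Or.inl (by simp at this; omega)

end Cfsg.Agent.S0848
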