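import Cfsg.Statements.S0849
import Cfsg.Agent.H3.Ind

set_option autoImplicit false
open Cfsg

namespace Cfsg.Agent.S0849

open H3

/-- Let H be a subgroup of a finite group G and S a subset of H that is mapped to itself under conjugation by H, is disjoint from its conjugate by any element outside H, and is closed under inverses. Let φ be a class function of H vanishing on H away from S, and let u, v be involutions of G. Then the sum of the induced function of φ over all products a * b with a conjugate to u and b conjugate to v equals the index of H times the sum of φ (a * b) over such pairs with a and b in H. -/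
theorem result {G : Type*} [Group G] [Fintype G] (H : Subgroup G) (S : Set G) (hSH : S ⊆ H) (hHS : ∀ h ∈ H, ∀ s ∈ S, h * s * h⁻¹ ∈ S) (hTI : ∀ g : G, g ∉ H → ∀ s ∈ S, g * s * g⁻¹ ∉ S) (hinv : ∀ s ∈ S, s⁻¹ ∈ S) (φ : H → ℂ) (hφ : Cfsg.IsClassFunction H φ) (hφS : ∀ x : H, (x : G) ∉ S → φ x = 0) (u v : G) (hu : orderOf u = 2) (hv : orderOf v = 2) : ∑ᶠ p ∈ {p : G × G | IsConj u p.1 ∧ IsConj v p.2}, Cfsg.indFun H φ (p.1 * p.2) = (H.index : ℂ) * ∑ᶠ p ∈ {p : H × H | IsConj u (p.1 : G) ∧ IsConj v (p.2 : G)}, φ (p.1 * p.2) := by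
  classical
  have := Fintype.ofFinite H
  let F : G → ℂ := fun g => ∑ a : G, if IsConj u a ∧ IsConj v (a⁻¹ * g) then 1 else 0
  have hF : IsClassFunction G F := fun g x => by
    refine (Fintype.sum_equiv (MulAut.conj x).toEquiv _ _ fun a => ?_).symm
    have : ∀ w y : G, IsConj w (x * y * x⁻¹) ↔ IsConj w y := fun w y =>
      ⟨fun h => h.trans (isConj_iff.2 ⟨x, rfl⟩).symm, fun h => h.trans (isConj_iff.2 ⟨x, rfl⟩)⟩
    have e : (x * a * x⁻¹)⁻¹ * (x * g * x⁻¹) = x * (a⁻¹ * g) * x⁻¹ := by group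
    simp only [MulEquiv.toEquiv_eq_coe, EquivLike.coe_coe, MulAut.conj_apply, e, this]
  have key : ∀ (K : Type _) [Group K] [Fintype K] (f : K →* G) (ψ : K → ℂ),
      ∑ᶠ p ∈ {p : K × K | IsConj u (f p.1) ∧ IsConj v (f p.2)}, ψ (p.1 * p.2) =
      ∑ g, ψ g * ∑ a : K, if IsConj u (f a) ∧ IsConj v ((f a)⁻¹ * f g) then 1 else 0 := by
    intro K _ _ f ψ
    rw [finsum_mem_def, finsum_eq_sum_of_fintype, Fintype.sum_prod_type]
    simp only [Finset.mul_sum]
    rw [Finset.sum_comm (f := fun g a => ψ g * _)]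
    refine Finset.sum_congr rfl fun a _ => Fintype.sum_equiv (Equiv.mulLeft a) _ _ fun b => ?_
    simp [Set.indicator_apply]
  refine (key G (MonoidHom.id G) _).trans ((sum_indFun_mul H φ hF).trans ?_)
  congr 1
  refine Eq.trans (Finset.sum_congr rfl fun h _ => ?_) (key H H.subtype φ).symm
  by_cases hs : (h : G) ∈ S
  swap
  · simp [hφS h hs]
  congr 1
  refine Eq.trans ?_ (Finset.sum_subtype (Finset.univ.filter (· ∈ H)) (by simp)
    fun a : G => if IsConj u a ∧ IsConj v (a⁻¹ * h) then (1 : ℂ) else 0)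
  refine (Finset.sum_filter_of_ne fun a _ ha => ?_).symm
  obtain ⟨h1, h2⟩ : IsConj u a ∧ IsConj v (a⁻¹ * h) := by
    by_contra e; exact ha (if_neg e)
  have sq : ∀ {w y : G}, orderOf w = 2 → IsConj w y → y * y = 1 := fun {w y} e c => by
    have := c.pow 2
    rwa [← e, pow_orderOf_eq_one, e, isConj_one_right, sq] at this
  by_contra e
  refine hTI a⁻¹ (fun c => e (inv_mem_iff.1 c)) h hs ?_
  convert hinv _ hs using 1
  rw [inv_inv, ← inv_eq_of_mul_eq_one_right (sq hv h2), mul_inv_rev, inv_inv, mul_assoc, sq hu h1,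
    mul_one]

end Cfsg.Agent.S0849
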