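import Cfsg.Statements.S0850
import Cfsg.Agent.H3.Tifn2

set_option autoImplicit false
open Cfsg

namespace Cfsg.Agent.S0850

/-- Let K be a subgroup of the finite group G that meets each conjugate by an element outside its normalizer N trivially, is properly contained in N, and contains the centralizer of each of its non-identity elements (a T.I. subgroup with Frobenius normalizer). Then no element of N outside K is conjugate in G to an element of K, and for every class function ϑ of N that vanishes on N away from K and at the identity, the function induced from ϑ to G agrees with ϑ on all of N. -/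
theorem result {G : Type*} [Group G] [Fintype G] (K : Subgroup G) (hTI : ∀ g : G, g ∉ Subgroup.normalizer (K : Set G) → ∀ k ∈ K, g * k * g⁻¹ ∈ K → k = 1) (hlt : K < Subgroup.normalizer (K : Set G)) (hC : ∀ k ∈ K, k ≠ 1 → Subgroup.centralizer ({k} : Set G) ≤ K) : (∀ x ∈ Subgroup.normalizer (K : Set G), x ∉ K → ∀ g : G, g * x * g⁻¹ ∉ K) ∧ ∀ (ϑ : Subgroup.normalizer (K : Set G) → ℂ), Cfsg.IsClassFunction (Subgroup.normalizer (K : Set G)) ϑ → (∀ x : Subgroup.normalizer (K : Set G), (x : G) ∉ K → ϑ x = 0) → ϑ 1 = 0 → ∀ x : Subgroup.normalizer (K : Set G), Cfsg.indFun (Subgroup.normalizer (K : Set G)) ϑ x = ϑ x := by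
  obtain ⟨a, b, c⟩ := H3.tifn_bridge hTI hlt hC
  refine ⟨fun x u v g w => v ?_, fun ϑ h1 h2 h3 x => H3.indFun_ti_apply _ h1 x fun g u w => by_contra fun n => ?_⟩
  · exact H3.mem_of_coprime_index (P := K.subgroupOf (Subgroup.normalizer (K : Set G))) (x := ⟨x, u⟩)
      (by simpa [Subgroup.relIndex_bot_left] using b.coprime.symm) (by
        rw [H9.card_subgroupOf hlt.le, ← Subgroup.orderOf_coe]
        exact (show orderOf (g * x * g⁻¹) = orderOf x from (MulAut.conj g).orderOf_eq x) ▸ H9.orderOf_dvd_card_of_mem w)
  · have k : g * x * g⁻¹ ∈ K := by_contra fun e => n (h2 _ e)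
    have k' : (x : G) ∈ K := H3.mem_of_coprime_index (P := K.subgroupOf (Subgroup.normalizer (K : Set G)))
      (by simpa [Subgroup.relIndex_bot_left] using b.coprime.symm) (by
        rw [H9.card_subgroupOf hlt.le, ← Subgroup.orderOf_coe]
        exact (show orderOf (g * x * g⁻¹) = orderOf (x : G) from (MulAut.conj g).orderOf_eq x) ▸ H9.orderOf_dvd_card_of_mem k)
    obtain rfl : x = 1 := Subtype.ext (hTI g u x k' k)
    exact n (h3 ▸ congrArg ϑ (Subtype.ext (by simp)))

end Cfsg.Agent.S0850
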