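import Cfsg.Statements.S0851
import Cfsg.Agent.H3.Tifn2

set_option autoImplicit false
open Cfsg

namespace Cfsg.Agent.S0851

/-- Let K be a subgroup of the finite group G that meets each conjugate by an element outside its normalizer N trivially, is properly contained in N, and contains the centralizer of each of its non-identity elements (a T.I. subgroup with Frobenius normalizer). Suppose K is abelian, let e be the index of K in N, and call an irreducible character of N relevant when it takes at some element of K a value different from its degree. Then either there is exactly one relevant character and K is an elementary abelian p-group of order e + 1 for some prime p, or there are a sign ε and an injective map f from the relevant characters to the irreducible characters of G such that inducing χ - ξ to G gives ε (f χ - f ξ) for all relevant χ and ξ. -/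
theorem result {G : Type*} [Group G] [Fintype G] (K : Subgroup G) (hTI : ∀ g : G, g ∉ Subgroup.normalizer (K : Set G) → ∀ k ∈ K, g * k * g⁻¹ ∈ K → k = 1) (hlt : K < Subgroup.normalizer (K : Set G)) (hC : ∀ k ∈ K, k ≠ 1 → Subgroup.centralizer ({k} : Set G) ≤ K) (hab : ∀ a ∈ K, ∀ b ∈ K, a * b = b * a) : (Nat.card {χ : Cfsg.IrrCharacter (Subgroup.normalizer (K : Set G)) // ∃ k : Subgroup.normalizer (K : Set G), (k : G) ∈ K ∧ (χ : ↥(Subgroup.normalizer (K : Set G)) → ℂ) k ≠ (χ : ↥(Subgroup.normalizer (K : Set G)) → ℂ) 1} = 1 ∧ ∃ p : ℕ, p.Prime ∧ Cfsg.IsElementaryAbelian p K ∧ Nat.card K = (K.subgroupOf (Subgroup.normalizer (K : Set G))).index + 1) ∨ ∃ (ε : ℂ) (f : {χ : Cfsg.IrrCharacter (Subgroup.normalizer (K : Set G)) // ∃ k : Subgroup.normalizer (K : Set G), (k : G) ∈ K ∧ (χ : ↥(Subgroup.normalizer (K : Set G)) → ℂ) k ≠ (χ : ↥(Subgroup.normalizer (K : Set G)) → ℂ) 1} → Cfsg.IrrCharacter G), (ε = 1 ∨ ε = -1) ∧ Function.Injective f ∧ ∀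 χ ξ, Cfsg.indFun (Subgroup.normalizer (K : Set G)) ((χ.1 : ↥(Subgroup.normalizer (K : Set G)) → ℂ) - (ξ.1 : ↥(Subgroup.normalizer (K : Set G)) → ℂ)) = ε • ((f χ : G → ℂ) - (f ξ : G → ℂ)) := by
  classical
  obtain ⟨a, b, c⟩ := H3.tifn_bridge hTI hlt hC
  have hc : IsMulCommutative (K.subgroupOf (Subgroup.normalizer (K : Set G))) :=
    ⟨⟨fun x y => Subtype.ext (Subtype.ext (hab _ x.2 _ y.2))⟩⟩
  by_cases d : K.subgroupOf (Subgroup.normalizer (K : Set G)) = ⊥
  · have : IsEmpty {χ : Cfsg.IrrCharacter (Subgroup.normalizer (K : Set G)) // ∃ k : Subgroup.normalizer (K : Set G),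
        (k : G) ∈ K ∧ (χ : ↥(Subgroup.normalizer (K : Set G)) → ℂ) k ≠ (χ : ↥(Subgroup.normalizer (K : Set G)) → ℂ) 1} :=
      ⟨fun ⟨_, k, u, v⟩ => v (by rw [show k = 1 from d.le u])⟩
    exact Or.inr ⟨1, isEmptyElim, Or.inl rfl, fun x => isEmptyElim x, fun x => isEmptyElim x⟩
  have e := H9.card_subgroupOf hlt.le
  refine (em (Nat.card K = (K.subgroupOf (Subgroup.normalizer (K : Set G))).index + 1)).imp (fun h => ?_) fun h => ?_
  · obtain ⟨q, f, g, g'⟩ := b.elem c d (e.trans h)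
    refine ⟨?_, q, f, ⟨⟨⟨fun x y => Subtype.ext (hab _ x.2 _ y.2)⟩⟩, fun x u => congrArg Subtype.val (g' ⟨x, hlt.le u⟩ u)⟩, h⟩
    rw [← b.card_SI d (e.trans h), b.SI_eq]
    exact Nat.card_congr ⟨fun x => ⟨x.1.1, x.1.2, x.2⟩, fun x => ⟨⟨x.1, x.2.1⟩, x.2.2⟩, fun _ => rfl, fun _ => rfl⟩
  obtain ⟨χ₀, h0⟩ := H3.SI_nonempty (K := K.subgroupOf (Subgroup.normalizer (K : Set G))) le_rfl bot_le (mt le_bot_iff.1 d)
  have k := (Subgroup.commutator_eq_bot_iff_le_centralizer.2 (Subgroup.le_centralizer (K.subgroupOf (Subgroup.normalizer (K : Set G))))).le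
  obtain ⟨ε, h1, μ, h2, h3, h4⟩ := H3.IsoOn.uniform' ((a.isTau (Subgroup.subtype_injective _)).isoOn_SI (fun _ a b => ⟨a, b⟩)
    fun _ a => a.1) (fun _ a => H3.irr_of_frobMod b a.1 a.2.1) h0 fun φ u =>
      (H3.SI.degree_der u.1 (u.2.2.mono k)).trans (H3.SI.degree_der h0.1 (h0.2.2.mono k)).symm
  have m := fun (χ : {χ : Cfsg.IrrCharacter (Subgroup.normalizer (K : Set G)) // ∃ k : Subgroup.normalizer (K : Set G),
        (k : G) ∈ K ∧ (χ : ↥(Subgroup.normalizer (K : Set G)) → ℂ) k ≠ (χ : ↥(Subgroup.normalizer (K : Set G)) → ℂ) 1}) =>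
      b.SI_eq.ge (show χ.1.1 ∈ {χ | IsIrrCharacter _ χ ∧ ∃ k ∈ K.subgroupOf (Subgroup.normalizer (K : Set G)), χ k ≠ χ 1} from ⟨χ.1.2, χ.2⟩)
  refine ⟨ε, fun χ => ⟨μ ⟨_, m χ⟩, h2 _⟩, h1, fun χ ξ u => Subtype.ext (Subtype.ext
    (Subtype.mk.inj (h3 (congrArg Subtype.val u)))), fun χ ξ => ?_⟩
  rw [← H3.indH_subtype, ← sub_sub_sub_cancel_right _ _ χ₀, map_sub, h4 ⟨_, m χ⟩, h4 ⟨_, m ξ⟩, ← smul_sub, sub_sub_sub_cancel_right]

end Cfsg.Agent.S0851
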