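import Cfsg.Statements.S0852
import Cfsg.Agent.H3.Tifn2

set_option autoImplicit false
open Cfsg

namespace Cfsg.Agent.S0852

/-- Let K be a subgroup of the finite group G that meets each conjugate by an element outside its normalizer N trivially, is properly contained in N, and contains the centralizer of each of its non-identity elements (a T.I. subgroup with Frobenius normalizer). Let S be the set of irreducible characters of N taking at some element of K a value different from their degree, suppose S has at least two members, and let star be a linear isometry on the integer span of S into the generalized characters of G that agrees with induction on the members vanishing at the identity (so S is coherent, with star as the extending isometry). Then an irreducible character ψ of G is of the form star χ or -star χ for some χ in S if and only if ψ is not constant on the non-identity elements of K. -/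
theorem result {G : Type*} [Group G] [Fintype G] (K : Subgroup G) (hTI : ∀ g : G, g ∉ Subgroup.normalizer (K : Set G) → ∀ k ∈ K, g * k * g⁻¹ ∈ K → k = 1) (hlt : K < Subgroup.normalizer (K : Set G)) (hC : ∀ k ∈ K, k ≠ 1 → Subgroup.centralizer ({k} : Set G) ≤ K) [Fintype ↥(Subgroup.normalizer (K : Set G))] (S : Set (↥(Subgroup.normalizer (K : Set G)) → ℂ)) (hS : S = {χ : ↥(Subgroup.normalizer (K : Set G)) → ℂ | Cfsg.IsIrrCharacter ↥(Subgroup.normalizer (K : Set G)) χ ∧ ∃ k : ↥(Subgroup.normalizer (K : Set G)), (k : G) ∈ K ∧ χ k ≠ χ 1}) (htwo : ∃ χ ∈ S, ∃ ξ ∈ S, χ ≠ ξ) (star : (↥(Subgroup.normalizer (K : Set G)) → ℂ) → (G → ℂ)) (hstar : Cfsg.IsLinearIsometryOn (Cfsg.zspan S) star) (hext : ∀ α ∈ Cfsg.zspanOn S ({1}ᶜ : Set ↥(Subgroup.normalizer (K : Set G))), star α = Cfsg.indFun (Subgroup.normalizer (K : Set G)) α) (ψ : G → ℂ) (hψ : Cfsg.IsIrrCharacter G ψ) : (∃ χ ∈ S, ψ = star χ ∨ ψ = -star χ) ↔ ∃ a ∈ K, ∃ b ∈ K, a ≠ 1 ∧ b ≠ 1 ∧ ψ a ≠ ψ b := by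
  obtain ⟨a, b, c⟩ := H3.tifn_bridge hTI hlt hC
  obtain rfl : S = H3.SI _ _ ⊥ := hS.trans b.SI_eq.symm
  obtain ⟨ν, h, e⟩ := H3.coh_of_frozen (τ := H3.indH (Subgroup.subtype _)) (fun _ u => H3.AI.char u.1)
    (fun α _ => H3.indH_subtype _ α) hstar hext
  refine ⟨fun ⟨χ, u, v⟩ => ?_, fun ⟨x, x1, y, y1, x2, y2, n⟩ => by_contra fun o => n ?_⟩
  · obtain ⟨ξ, w, n⟩ : ∃ ξ ∈ H3.SI _ _ ⊥, ξ ≠ χ := by
      obtain ⟨α, a1, β, b1, n⟩ := htwo
      exact (eq_or_ne α χ).elim (fun k => ⟨β, b1, k ▸ n.symm⟩) fun k => ⟨α, a1, k⟩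
    obtain ⟨x, x1, y, y1, x2, y2, k⟩ := H3.tifn_not_const b h u w n
    rw [e _ (Submodule.subset_span u)] at k
    refine ⟨x, x1, y, y1, by simpa using x2, by simpa using y2, ?_⟩
    rcases v with rfl | rfl
    · exact k
    · exact fun t => k (neg_injective t)
  · refine H3.tifn_const (j := Subgroup.subtype _) (x := ⟨x, hlt.le x1⟩) (y := ⟨y, hlt.le y1⟩) b h (H3.irr_class hψ) (fun χ u => ?_) x1
      (by simpa using x2) y1 (by simpa using y2)
    have k := h.sirr u (H3.irr_of_frobMod b u.1 u.2.1)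
    rw [e _ (Submodule.subset_span u)] at k ⊢
    rcases k with k | k
    · exact H3.irr_inner_ne hψ k fun t => o ⟨χ, u, Or.inl t⟩
    · rw [← neg_neg (star χ), H3.inner_neg_right, H3.irr_inner_ne hψ k fun t => o ⟨χ, u, Or.inr t⟩, neg_zero]

end Cfsg.Agent.S0852
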