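import Cfsg.Statements.S0855
import Cfsg.Agent.H3.Ext2
import Cfsg.Agent.H1.Basic

set_option autoImplicit false
open Cfsg

namespace Cfsg.Agent.S0855

/-- For a finite group G and a prime p: every irreducible character of G has degree a power of p if and only if G has an abelian normal subgroup whose order is prime to p and whose index is a power of p. -/
theorem result {G : Type*} [Group G] [Finite G] (p : ℕ) (hp : p.Prime) : (∀ χ : Cfsg.IrrCharacter G, ∃ k : ℕ, (χ : G → ℂ) 1 = (p : ℂ) ^ k) ↔ ∃ A : Subgroup G, A.Normal ∧ (∀ a ∈ A, ∀ b ∈ A, a * b = b * a) ∧ Nat.Coprime (Nat.card A) p ∧ ∃ k : ℕ, A.index = p ^ k := by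
  constructor
  · refine H1.group_induction (P := fun G _ _ => (∀ χ : Cfsg.IrrCharacter G, ∃ k : ℕ,
      (χ : G → ℂ) 1 = (p : ℂ) ^ k) → ∃ A : Subgroup G, A.Normal ∧ (∀ a ∈ A, ∀ b ∈ A, a * b = b * a) ∧
        Nat.Coprime (Nat.card A) p ∧ ∃ k : ℕ, A.index = p ^ k) (fun G _ _ ih => ?_) G
    intro h
    by_cases hpG : p ∣ Nat.card G
    · have := Fact.mk hp
      have h1 : p ∣ Nat.card (G →* ℂˣ) := by
        classical
        have := Fintype.ofFinite G
        choose k hk using h
        have h2 : ∑ χ : Cfsg.IrrCharacter G, (p ^ k χ) ^ 2 = Nat.card G := by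
          have := H3.sum_sq_degree (G := G)
          simp only [hk] at this
          exact_mod_cast this
        rw [← h2, ← Finset.sum_filter_add_sum_filter_not _ (fun χ => k χ = 0),
          Nat.dvd_add_left (Finset.dvd_sum fun χ hχ => (dvd_pow_self p
            (Finset.mem_filter.mp hχ).2).trans (dvd_pow_self _ two_ne_zero)),
          Finset.sum_congr rfl (g := fun _ => 1) fun χ hχ => by simp [(Finset.mem_filter.mp hχ).2],
          Finset.sum_const, smul_eq_mul, mul_one] at hpG
        convert hpG using 1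
        rw [Nat.card_eq_fintype_card, ← Finset.card_univ]
        refine Finset.card_bij (fun f _ => ⟨_, H3.isIrr_hom f⟩) (fun f _ => ?_)
          (fun _ _ _ _ e => H3.hom_fun_injective (congrArg Subtype.val e)) fun χ hχ => ?_
        · have := hk ⟨_, H3.isIrr_hom f⟩
          simp only [map_one, Units.val_one] at this
          have h3 : 1 = p ^ k ⟨_, H3.isIrr_hom f⟩ := by exact_mod_cast this
          simpa [hp.ne_one] using h3.symm
        · obtain ⟨f, hf⟩ := H3.exists_hom_of_degree_one (H3.irr_char χ.2)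
            (by rw [hk, (Finset.mem_filter.mp hχ).2, pow_zero])
          exact ⟨f, Finset.mem_univ _, Subtype.ext hf.symm⟩
      obtain ⟨f, hf⟩ := exists_prime_orderOf_dvd_card' p h1
      have hK : f.ker ≠ ⊤ := fun e => by
        rw [(MonoidHom.ker_eq_top_iff).mp e, orderOf_one] at hf; exact hp.ne_one hf.symm
      obtain ⟨m, hm⟩ : ∃ m, f.ker.index = p ^ m := by
        rw [Subgroup.index_ker]
        have : Finite f.range := Finite.of_surjective _ f.rangeRestrict_surjective
        refine IsPGroup.iff_card.mp fun ⟨x, g, hg⟩ => ⟨1, Subtype.ext ?_⟩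
        rw [pow_one, Subgroup.coe_pow, ← hf, OneMemClass.coe_one]
        change x ^ orderOf f = 1
        rw [← hg, ← MonoidHom.pow_apply, pow_orderOf_eq_one]; rfl
      obtain ⟨A, h2, h3, h4, k, h5⟩ := ih f.ker (H1.card_subgroup_lt hK) fun ψ => by
        have := Fintype.ofFinite G
        have := Fintype.ofFinite f.ker
        obtain ⟨χ, a, b⟩ := H3.exists_irr_over f.ker ψ.2
        obtain ⟨e, c, -⟩ := H3.degree_ratio_dvd _ ψ.2 a b
        obtain ⟨j, hj⟩ := h ⟨χ, a⟩
        obtain ⟨d, -, hd⟩ := H3.irr_one_nat ψ.2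
        have : p ^ j = e * d := by rw [hd] at c; exact_mod_cast hj.symm.trans c
        obtain ⟨i, -, hi⟩ := (Nat.dvd_prime_pow hp).mp (this ▸ Dvd.intro_left e rfl : d ∣ p ^ j)
        exact ⟨i, by rw [hd, hi]; simp⟩
      refine ⟨A.map f.ker.subtype, ⟨?_⟩, ?_, ?_, k + m, ?_⟩
      · rintro _ ⟨a, ha, rfl⟩ g
        refine ⟨H3.cjAut _ g a, H1.mem_of_coprime_index ?_, rfl⟩
        rw [MulEquiv.orderOf_eq, h5]
        exact (h4.coprime_dvd_left (H1.orderOf_dvd_card_of_mem ha)).pow_right k
      · rintro _ ⟨a, ha, rfl⟩ _ ⟨b, hb, rfl⟩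
        rw [← map_mul, h3 a ha b hb, map_mul]
      · rwa [Subgroup.card_map_of_injective f.ker.subtype_injective]
      · rw [Subgroup.index_map_subtype, h5, hm, pow_add]
    · refine ⟨⊤, inferInstance, fun a _ b _ => ?_, by
        rw [Subgroup.card_top]; exact ((Nat.Prime.coprime_iff_not_dvd hp).mpr hpG).symm, 0, by simp⟩
      by_contra hab
      obtain ⟨χ, h1, h2⟩ := H3.exists_irr_ne_of_ne_one (g := a * b * a⁻¹ * b⁻¹)
        (by rwa [Ne, mul_inv_eq_one, mul_inv_eq_iff_eq_mul])
      obtain ⟨k, hk⟩ := h ⟨χ, h1⟩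
      have h3 := H3.degree_dvd_card h1 (d := p ^ k) (by simpa using hk)
      have h4 : k = 0 := by
        by_contra h4; exact hpG ((dvd_pow_self p h4).trans h3)
      exact h2 ((H3.mem_charKer (H3.irr_char h1) _).mp ((H3.degree_one_iff_commutator_le h1).mp
        (by simpa [h4] using hk) (Subgroup.commutator_mem_commutator (Subgroup.mem_top _)
          (Subgroup.mem_top _))))
  · rintro ⟨A, h1, h2, -, k, hk⟩ χ
    obtain ⟨d, -, hd⟩ := H3.irr_one_nat χ.2
    obtain ⟨i, -, hi⟩ := (Nat.dvd_prime_pow hp).mp (hk ▸ H3.ito A h2 χ.2 hd)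
    exact ⟨i, by rw [hd, hi]; simp⟩

end Cfsg.Agent.S0855
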