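import Cfsg.Statements.S0858
import Cfsg.Agent.H3.Mono

set_option autoImplicit false
open Cfsg

namespace Cfsg.Agent.S0858

/-- Let N be a normal subgroup of the finite group G with G / N solvable, and suppose that for every subgroup H containing N and all subgroups L < K between N and H that are normal in H with no subgroup normal in H strictly between them, the index of L in K is not a perfect square. Then every irreducible character χ of G is induced from an irreducible character ψ of some subgroup H containing N such that the restriction of ψ to N is irreducible. -/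
theorem result {G : Type*} [Group G] [Fintype G] (N : Subgroup G) [N.Normal] (hsolv : Group.IsSolvable (G ⧸ N)) (hchief : ∀ (H K L : Subgroup G), N ≤ L → L < K → K ≤ H → (∀ h ∈ H, ∀ k ∈ K, h * k * h⁻¹ ∈ K) → (∀ h ∈ H, ∀ l ∈ L, h * l * h⁻¹ ∈ L) → (∀ M : Subgroup G, L ≤ M → M ≤ K → (∀ h ∈ H, ∀ m ∈ M, h * m * h⁻¹ ∈ M) → M = L ∨ M = K) → ¬ IsSquare (L.relIndex K)) (χ : G → ℂ) (hχ : Cfsg.IsIrrCharacter G χ) : ∃ (H : Subgroup G) (hNH : N ≤ H) (ψ : H → ℂ), Cfsg.IsIrrCharacter H ψ ∧ Cfsg.indFun H ψ = χ ∧ Cfsg.IsIrrCharacter N (fun n : N => ψ ⟨(n : G), hNH n.2⟩) := by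
  classical
  obtain ⟨U, ⟨hNU, θ, h1, h2⟩, hmin⟩ := (measure fun U : Subgroup G => Nat.card U).wf.has_min
    {U | N ≤ U ∧ ∃ θ : U → ℂ, IsIrrCharacter U θ ∧ indFun U θ = χ}
    ⟨⊤, le_top, fun x => χ x, H3.irr_comp_equiv hχ Subgroup.topEquiv, H3.indFun_top (H3.irr_class hχ)⟩
  refine ⟨U, hNU, θ, h1, h2, ?_⟩
  obtain ⟨K, ⟨hK, hNK, h3⟩, hminK⟩ := (measure fun K : Subgroup U => Nat.card K).wf.has_min
    {K | K.Normal ∧ N.subgroupOf U ≤ K ∧ IsIrrCharacter K fun k => θ k}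
    ⟨⊤, inferInstance, le_top, H3.irr_comp_equiv h1 Subgroup.topEquiv⟩
  by_cases hKN : K = N.subgroupOf U
  · subst hKN
    exact H3.irr_comp_equiv h3 (Subgroup.subgroupOfEquivOfLe hNU).symm
  exfalso
  obtain ⟨L, ⟨hL, hNL, hLK⟩, hmaxL⟩ := (measure fun L : Subgroup U => L.index).wf.has_min
    {L | L.Normal ∧ N.subgroupOf U ≤ L ∧ L < K} ⟨_, inferInstance, le_rfl, lt_of_le_of_ne hNK (Ne.symm hKN)⟩
  have hch : ∀ M : Subgroup U, M.Normal → L ≤ M → M ≤ K → M = L ∨ M = K := fun M a b c => by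
    by_contra h
    push Not at h
    exact hmaxL M ⟨a, hNL.trans b, lt_of_le_of_ne c h.2⟩
      (Subgroup.index_strictAnti (lt_of_le_of_ne b h.1.symm))
  have hs : ∃ k, derivedSeries U k ≤ L := by
    obtain ⟨k, hk⟩ := hsolv
    rw [← map_derivedSeries_eq (QuotientGroup.mk'_surjective N), Subgroup.map_eq_bot_iff,
      QuotientGroup.ker_mk'] at hk
    exact ⟨k, ((Subgroup.map_le_iff_le_comap.mp
      (map_derivedSeries_le_derivedSeries U.subtype k)).trans (Subgroup.comap_mono hk)).trans hNL⟩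
  obtain ⟨E, q, -, a, b, c, d, -, -⟩ := H3.exists_chief L K hLK hs
  obtain rfl : E = K := (hch E a b.le c).resolve_left b.ne'
  have hab : ⁅E, E⁆ ≤ L := Subgroup.commutator_le.mpr fun x hx y hy => d x hx y hy
  rcases H3.going_down E L hLK.le hch hab h3 (H3.cj_restrict E (H3.irr_class h1)) with
    h | ⟨φ, e, -, -, h⟩ | ⟨F, h4, h5, h6⟩
  · exact hminK L ⟨hL, hNL, h⟩ (H1.card_lt_of_lt hLK)
  · have hc : ∀ M : Subgroup U, M.Normal → ∀ h ∈ U, ∀ m ∈ M.map U.subtype,
        h * m * h⁻¹ ∈ M.map U.subtype := by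
      rintro M hM h hh _ ⟨m, hm, rfl⟩
      exact ⟨_, hM.conj_mem m hm ⟨h, hh⟩, rfl⟩
    refine hchief U (E.map U.subtype) (L.map U.subtype)
      (fun n hn => ⟨⟨n, hNU hn⟩, hNL hn, rfl⟩)
      ((Subgroup.map_lt_map_iff_of_injective U.subtype_injective).mpr hLK)
      (Subgroup.map_subtype_le _) (hc E hK) (hc L hL) (fun M h1 h2 h3 => ?_)
      ⟨e, by rw [Subgroup.relIndex_map_map_of_injective _ _ U.subtype_injective, ← h, sq]⟩
    have hMU := h2.trans (Subgroup.map_subtype_le _)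
    rcases hch (M.subgroupOf U) ⟨fun m hm g => h3 g g.2 m hm⟩
      (Subgroup.map_le_iff_le_comap.mp h1)
      (by rw [← H1.subgroupOf_map_subtype_self E]; exact Subgroup.comap_mono h2) with h | h
    · left; rw [← h, Subgroup.map_subgroupOf_eq_of_le hMU]
    · right; rw [← h, Subgroup.map_subgroupOf_eq_of_le hMU]
  · have h7 : 1 < F.card := by
      rw [h5]
      refine Nat.lt_of_le_of_ne (Nat.pos_of_ne_zero Subgroup.index_ne_zero_of_finite) fun e => ?_
      exact hLK.not_ge (Subgroup.relIndex_eq_one.mp e.symm)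
    obtain ⟨φ, hφ, φ', hφ', hne⟩ := Finset.one_lt_card.mp h7
    have h8 : ∀ φ ∈ F, classInner (fun x : L => θ x) φ ≠ 0 := fun φ hφ => by
      rw [show (fun x : L => θ x) = _ from h6, H3.inner_sum_left,
        Finset.sum_congr rfl fun a ha => H3.irr_inner (h4 a ha) (h4 φ hφ), Finset.sum_ite_eq',
        if_pos hφ]
      exact one_ne_zero
    obtain ⟨g, hg⟩ := H3.cj_of_inner_ne_zero L h1 (h4 φ hφ) (h4 φ' hφ') (h8 φ hφ) (h8 φ' hφ')
    have hLT := H3.le_inertia L (H3.irr_class (h4 φ hφ))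
    obtain ⟨ψ, h9, h10, -⟩ := H3.clifford_corr_surj L (h4 φ hφ) rfl hLT h1 (h8 φ hφ)
    refine hmin ((H3.inertia L φ).map U.subtype) ⟨fun n hn => ⟨⟨n, hNU hn⟩, hLT (hNL hn), rfl⟩, _,
      H3.irr_comp_equiv h9 _, by rw [← H3.indFun_trans', h10, h2]⟩ ?_
    change Nat.card _ < Nat.card _
    rw [Subgroup.card_map_of_injective U.subtype_injective]
    refine H1.card_subgroup_lt fun e => hne ?_
    rw [hg, (H3.mem_inertia L).mp (e ▸ Subgroup.mem_top g)]

end Cfsg.Agent.S0858
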