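import Cfsg.Statements.S0859
import Cfsg.Agent.H3.Mono
import Cfsg.Agent.H1.SylowIn

set_option autoImplicit false
open Cfsg

namespace Cfsg.Agent.S0859

/-- Let G be a finite solvable group and N a normal subgroup such that for every prime p every Sylow p-subgroup of N is abelian. Suppose every irreducible character of G is induced from an irreducible character of some subgroup containing N whose restriction to N is irreducible. Then every irreducible character of G is induced from a character of degree 1 of some subgroup. -/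
theorem result {G : Type*} [Group G] [Fintype G] [Group.IsSolvable G] (N : Subgroup G) [N.Normal] (hab : ∀ (p : ℕ) [Fact p.Prime] (P : Sylow p N), ∀ a ∈ P, ∀ b ∈ P, a * b = b * a) (hrel : ∀ χ : G → ℂ, Cfsg.IsIrrCharacter G χ → ∃ (H : Subgroup G) (hNH : N ≤ H) (ψ : H → ℂ), Cfsg.IsIrrCharacter H ψ ∧ Cfsg.indFun H ψ = χ ∧ Cfsg.IsIrrCharacter N (fun n : N => ψ ⟨(n : G), hNH n.2⟩)) (χ : G → ℂ) (hχ : Cfsg.IsIrrCharacter G χ) : ∃ (U : Subgroup G) (lam : U → ℂ), Cfsg.IsCharacter U lam ∧ lam 1 = 1 ∧ Cfsg.indFun U lam = χ := by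
  classical
  obtain ⟨H, hNH, ψ, h1, h2, h3⟩ := hrel χ hχ
  obtain ⟨U, θ, h4, h5, h6⟩ := H3.exists_prim h1
  suffices θ 1 = 1 from ⟨U.map H.subtype, _, H3.char_comp (H3.irr_char h4)
    (Subgroup.equivMapOfInjective U H.subtype H.subtype_injective).symm.toMonoidHom,
      by simpa using this, by rw [← h2, ← h5, H3.indFun_trans']; rfl⟩
  set N' := N.subgroupOf H
  have h3' : IsIrrCharacter N' fun n => ψ n := H3.irr_subgroupOf N hNH h3
  have h7 : N' ⊔ U = ⊤ := by
    have a := H3.indFun_trans U (N' ⊔ U) le_sup_right θ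
    have b := H3.char_indFun _ (H3.char_comp (H3.irr_char h4)
      (Subgroup.subgroupOfEquivOfLe (le_sup_right : U ≤ N' ⊔ U)).toMonoidHom)
    have c : IsIrrCharacter (N' ⊔ U : Subgroup H) fun x => ψ x :=
      H3.irr_of_comp_irr (Subgroup.inclusion le_sup_left) (H3.char_restrict (H3.irr_char h1) _) h3'
    obtain ⟨m, hm⟩ := H3.char_one_nat b
    obtain ⟨n, hn0, hn⟩ := H3.irr_one_nat h1
    have d := H3.degree_le_of_constituent b c (by
      erw [← H3.inner_indFun_left _ _ (H3.irr_class h1), a, h5, H3.irr_inner_self h1]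
      exact one_ne_zero) hm hn
    have e := congrFun a 1
    erw [H3.indFun_one, hm, h5, hn] at e
    have e' : (N' ⊔ U).index * m = n := by exact_mod_cast e
    have := Nat.pos_of_ne_zero (N' ⊔ U).index_ne_zero_of_finite
    exact Subgroup.index_eq_one.mp (by nlinarith)
  have h8 := H3.irr_of_indFun_irr _ (H3.char_comp (H3.irr_char h4)
    ((N'.subtype.comp (U.subgroupOf N').subtype).codRestrict U fun x => x.2)) (by
      erw [← H3.restrict_indFun_of_sup U N' h7 (H3.irr_class h4), h5]; exact h3')
  set M := N'.subgroupOf U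
  have h9 : IsIrrCharacter M fun x => θ x := H3.irr_of_comp_irr
    (((N'.subtype.comp (U.subgroupOf N').subtype).codRestrict U fun x => x.2).codRestrict M
      fun x => x.1.2) (H3.char_restrict (H3.irr_char h4) _) h8
  refine H3.degree_one_of_charCenter_eq_top (χ := fun x : M => θ x) h9 fun m => ?_
  rw [H3.mem_charCenter (H3.irr_char h9)]
  refine (H3.mem_charCenter (H3.irr_char h4) _).mp ?_
  have := H3.charKer_normal (H3.irr_class h4)
  rw [H3.mem_charCenter_iff_center h4]
  let f := QuotientGroup.mk' (H3.charKer θ)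
  have := Subgroup.Normal.map (H := M) inferInstance f (QuotientGroup.mk'_surjective _)
  have h10 : (fittingSubgroup (M.map f)).map (M.map f).subtype ≤ Subgroup.center _ := by
    rw [H1.fitting_eq_iSup_pCore, Subgroup.map_iSup, iSup_le_iff]
    intro p
    have := Fact.mk p.2
    have := H1.map_char_normal (M.map f) (pCore p (M.map f))
    refine H3.abelian_normal_central h4 h6 _ fun a ha b hb => ?_
    obtain ⟨P, hP⟩ := H1.exists_isSylowIn (p := p) M
    have hle := (hP.map f).ge_of_normal (H1.map_subtype_pCore_isPGroup _) (Subgroup.map_subtype_le _)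
      (by rw [Subgroup.normalizer_eq_top]; exact le_top)
    obtain ⟨a, ha', rfl⟩ := hle ha
    obtain ⟨b, hb', rfl⟩ := hle hb
    let i : P →* N := (H.subtype.comp (U.subtype.comp P.subtype)).codRestrict N fun x => hP.1 x.2
    obtain ⟨S, hS⟩ := (hP.2.of_surjective _ i.rangeRestrict_surjective).exists_le_sylow
    have := congrArg Subtype.val (hab p S _ (hS ⟨⟨a, ha'⟩, rfl⟩) _ (hS ⟨⟨b, hb'⟩, rfl⟩))
    rw [← map_mul, ← map_mul, show a * b = b * a from Subtype.ext (Subtype.ext this)]
  refine h10 (H1.centralizer_map_fitting_le inferInstance ⟨⟨m, m.2, rfl⟩, fun y hy => ?_⟩)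
  exact (Subgroup.mem_center_iff.mp (h10 hy) _).symm

end Cfsg.Agent.S0859
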