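import Cfsg.Statements.S0861
import Cfsg.Agent.H3.Cw

set_option autoImplicit false
open Cfsg

namespace Cfsg.Agent.S0861

open H3

/-- Let P be a normal abelian Sylow p-subgroup of the finite group G and suppose some element g of P has centralizer exactly P. Then the number of irreducible characters of G is at most the order of P, and if equality holds then G / P is abelian (the commutator subgroup lies in P). -/
theorem result {G : Type*} [Group G] [Finite G] (p : ℕ) [Fact p.Prime] (P : Sylow p G) [(P : Subgroup G).Normal] (hab : ∀ a ∈ P, ∀ b ∈ P, a * b = b * a) (g : G) (hg : g ∈ P) (hC : Subgroup.centralizer ({g} : Set G) = P) : Nat.card (Cfsg.IrrCharacter G) ≤ Nat.card P ∧ (Nat.card (Cfsg.IrrCharacter G) = Nat.card P → commutator G ≤ P) := by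
  classical
  have a := kgv_bound (P : Subgroup G) P.2 P.not_dvd_index hab hg
  rw [hC] at a
  have b := sum_deg_sq_ker (P : Subgroup G)
  have c : ∀ χ : IrrCharacter G, 1 ≤ charDegree χ.1 ^ 2 := fun χ => pow_pos (deg_pos χ.2) 2
  have d := Finset.card_nsmul_le_sum (Finset.univ.filter fun χ : IrrCharacter G =>
    ∀ n ∈ (P : Subgroup G), χ.1 n = χ.1 1) _ 1 fun χ _ => c χ
  rw [Nat.card_eq_fintype_card (α := {χ : IrrCharacter G // _}), Fintype.card_subtype
    (fun χ : IrrCharacter G => ∀ n ∈ (P : Subgroup G), χ.1 n = χ.1 1)] at a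
  rw [smul_eq_mul, mul_one] at d
  refine ⟨by omega, fun e => comm_le_of_deg _ fun χ hχ h => ?_⟩
  have := (Finset.sum_eq_sum_iff_of_le (s := Finset.univ.filter fun χ : IrrCharacter G =>
    ∀ n ∈ (P : Subgroup G), χ.1 n = χ.1 1) fun χ _ => c χ).1 (by
      rw [Finset.sum_const, smul_eq_mul, mul_one]; omega) ⟨χ, hχ⟩ (by simpa using h)
  exact (Nat.pow_eq_one.1 this.symm).resolve_right two_ne_zero

end Cfsg.Agent.S0861
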