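import Cfsg.Statements.S0862
import Cfsg.Agent.H3.Ext2

set_option autoImplicit false
open Cfsg

namespace Cfsg.Agent.S0862

/-- Let N be a normal subgroup of the finite group G and ϑ an irreducible character of N of degree d coprime to the index of N, which is the restriction of some irreducible character of G. Let μ be a character of G of degree 1 whose restriction to N is the determinantal character of ϑ. Then there is exactly one irreducible character χ of G restricting to ϑ whose determinantal character is μ. -/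
theorem result {G : Type*} [Group G] [Finite G] (N : Subgroup G) [N.Normal] (ϑ : N → ℂ) (hϑ : Cfsg.IsIrrCharacter N ϑ) (d : ℕ) (hd : ϑ 1 = d) (hcop : Nat.Coprime N.index d) (hext : ∃ η : G → ℂ, Cfsg.IsIrrCharacter G η ∧ (∀ n : N, η n = ϑ n)) (μ : G → ℂ) (hμ : Cfsg.IsCharacter G μ ∧ μ 1 = 1) (hμN : ∀ n : N, μ n = Cfsg.detChar ϑ n) : ∃! χ : G → ℂ, Cfsg.IsIrrCharacter G χ ∧ (∀ n : N, χ n = ϑ n) ∧ Cfsg.detChar χ = μ := by
  obtain ⟨η, h1, h2⟩ := hext
  obtain ⟨f, rfl⟩ := H3.exists_hom_of_degree_one hμ.1 hμ.2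
  obtain ⟨χ, h3, h4, h5⟩ := H3.exists_ext_det N h1 (d := d) (hd ▸ h2 1) hcop f (by rwa [funext h2])
  have h6 : ∀ n : N, χ n = ϑ n := fun n => (h4 n).trans (h2 n)
  refine ⟨χ, ⟨h3, h6, h5⟩, fun χ' ⟨a, b, c⟩ => ?_⟩
  exact H3.ext_det_unique N (H3.irr_char h3) (H3.irr_char a) (by rwa [funext h6])
    (fun n => (b n).trans (h6 n).symm) (d := d) (m := 1) (hd ▸ h6 1) (by rwa [one_mul])
    (by rw [c, h5])

end Cfsg.Agent.S0862
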