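import Cfsg.Statements.S0865
import Cfsg.Agent.H3.Ext2

set_option autoImplicit false
open Cfsg

namespace Cfsg.Agent.S0865

/-- Let N be a normal subgroup of the finite group G and λ a character of N of degree 1, invariant under conjugation by G, whose order (under pointwise multiplication) is coprime to the index of N. Then there is a character μ of G of degree 1 restricting to λ with the same order as λ, and μ is the only degree-1 character of G restricting to λ whose order is coprime to the index of N. -/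
theorem result {G : Type*} [Group G] [Finite G] (N : Subgroup G) [hN : N.Normal] (lam : N → ℂ) (hlam : Cfsg.IsCharacter N lam ∧ lam 1 = 1) (hinv : ∀ (g : G) (n : N), lam ⟨g * n * g⁻¹, hN.conj_mem (n : G) n.2 g⟩ = lam n) (hcop : Nat.Coprime N.index (orderOf lam)) : ∃ μ : G → ℂ, (Cfsg.IsCharacter G μ ∧ μ 1 = 1 ∧ (∀ n : N, μ n = lam n) ∧ orderOf μ = orderOf lam) ∧ ∀ μ' : G → ℂ, Cfsg.IsCharacter G μ' ∧ μ' 1 = 1 → (∀ n : N, μ' n = lam n) → Nat.Coprime N.index (orderOf μ') → μ' = μ := by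
  obtain ⟨f, rfl⟩ := H3.exists_hom_of_degree_one hlam.1 hlam.2
  have hinv' : ∀ g (n : N), f (H3.cjAut N g n) = f n := fun g n => Units.ext (hinv g n)
  rw [H3.orderOf_hom_fun] at hcop ⊢
  obtain ⟨μ, h1, h2⟩ := H3.ext_hom_coprime N f hinv' hcop
    (ne_zero_of_dvd_ne_zero Nat.card_pos.ne' (H3.orderOf_hom_dvd_card f))
  refine ⟨_, ⟨H3.char_hom μ, by simp, fun n => congrArg Units.val (h1 n),
    by rw [H3.orderOf_hom_fun, h2]⟩, fun μ' h3 h4 h5 => ?_⟩
  obtain ⟨ν, rfl⟩ := H3.exists_hom_of_degree_one h3.1 h3.2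
  rw [H3.orderOf_hom_fun] at h5
  have h6 : ν * μ⁻¹ = 1 := by
    refine H3.eq_one_of_pow_coprime (Nat.Coprime.mul_right h5 (h2 ▸ hcop))
      (H3.hom_pow_index N _ fun n hn => ?_) ?_
    · rw [MonoidHom.mul_apply, MonoidHom.inv_apply, mul_inv_eq_one, h1 ⟨n, hn⟩]
      exact Units.ext (h4 ⟨n, hn⟩)
    · rw [mul_pow, pow_mul ν, pow_orderOf_eq_one, mul_comm (orderOf ν), pow_mul, inv_pow,
        pow_orderOf_eq_one]; simp
  obtain rfl : ν = μ := mul_inv_eq_one.mp h6
  rfl

end Cfsg.Agent.S0865
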