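import Cfsg.Statements.S0875
import Cfsg.Agent.H3.Brauer2

set_option autoImplicit false
open Cfsg

namespace Cfsg.Agent.S0875

/-- Let G be a finite group of order m * n with m and n coprime, and g an element whose order is coprime to m. Every x in G factors uniquely as x = u * v with u, v commuting, the order of u coprime to n and the order of v coprime to m; let ϑ be the function on G equal to n at those x whose factor v is conjugate to g and equal to 0 elsewhere. Then ϑ is a linear combination of the irreducible characters of G with algebraic-integer coefficients. -/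
theorem result {G : Type*} [Group G] [Fintype G] (m n : ℕ) (hmn : Nat.card G = m * n) (hcop : Nat.Coprime m n) (g : G) (hg : Nat.Coprime (orderOf g) m) (ϑ : G → ℂ) (hϑ1 : ∀ x : G, (∃ v : G, IsConj v g ∧ (∃ u : G, x = u * v ∧ Commute u v ∧ Nat.Coprime (orderOf u) n ∧ Nat.Coprime (orderOf v) m)) → ϑ x = n) (hϑ0 : ∀ x : G, (¬ ∃ v : G, IsConj v g ∧ (∃ u : G, x = u * v ∧ Commute u v ∧ Nat.Coprime (orderOf u) n ∧ Nat.Coprime (orderOf v) m)) → ϑ x = 0) : ∃ c : Cfsg.IrrCharacter G → ℂ, (∀ χ, c χ ∈ Cfsg.AlgInt) ∧ ϑ = ∑ᶠ χ : Cfsg.IrrCharacter G, c χ • (χ : G → ℂ) := by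
  classical
  obtain ⟨k, hk0, hk1⟩ := Nat.chineseRemainder hcop 0 1
  replace hk0 : m ∣ k := (Nat.modEq_zero_iff_dvd).mp hk0
  have key : ϑ = fun x => n * H3.classInd g (x ^ k) := by
    ext x
    unfold H3.classInd
    split_ifs with h
    · rw [hϑ1 x ⟨x ^ k, h.symm, x * (x ^ k)⁻¹, by simp, ?_, ?_, ?_⟩, mul_one]
      · exact (((Commute.refl x).pow_right k).mul_left (Commute.refl _).inv_left)
      · exact hcop.coprime_dvd_left (H3.orderOf_mul_pow_inv_dvd hmn hk1 x)
      · exact hcop.symm.coprime_dvd_left (H3.orderOf_pow_dvd_right hmn hk0 x)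
    · rw [hϑ0 x, mul_zero]
      rintro ⟨v, hv, u, rfl, hc, h1, h2⟩
      exact h (by rw [H3.pow_eq_of_decomp hmn hk0 hk1 hc h1 h2]; exact hv.symm)
  refine ⟨fun χ => classInner ϑ χ, fun χ => ?_, ?_⟩
  · rw [key]; exact H3.section_integral hmn hcop hk0 hk1 g (H3.irr_gen χ.2)
  · rw [finsum_eq_sum_of_fintype]
    refine H3.class_eq_sum fun a b => ?_
    simp only [key, conj_pow, H3.class_classInd g _ b]

end Cfsg.Agent.S0875
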