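import Cfsg.Statements.S0876
import Cfsg.Agent.H3.Brauer2

set_option autoImplicit false
open Cfsg

namespace Cfsg.Agent.S0876

/-- Let G be a finite group, p a prime and M a maximal ideal of the ring of algebraic integers containing p. Let x, y be elements with p-parts a and b (so a⁻¹ * x and b⁻¹ * y are their p-regular parts). Then a⁻¹ * x and b⁻¹ * y are conjugate in G if and only if, for every irreducible character χ, the difference χ x - χ y lies in the local ideal at M. -/
theorem result {G : Type*} [Group G] [Finite G] (p : ℕ) (M : Ideal Cfsg.AlgInt) (hM : Cfsg.IsPModular p M) (x y a b : G) (ha : Cfsg.IsPPart p x a) (hb : Cfsg.IsPPart p y b) : IsConj (a⁻¹ * x) (b⁻¹ * y) ↔ ∀ χ : Cfsg.IrrCharacter G, Cfsg.MemLocalIdeal M ((χ : G → ℂ) x - (χ : G → ℂ) y) := by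
  classical
  have := Fintype.ofFinite G
  have hp := hM.1
  have e1 : a⁻¹ * x = H4.pq p x := by
    rw [H4.eq_pp_of_isPPart hp ha, inv_mul_eq_iff_eq_mul, H4.pp_mul_pq]
  have e2 : b⁻¹ * y = H4.pq p y := by
    rw [H4.eq_pp_of_isPPart hp hb, inv_mul_eq_iff_eq_mul, H4.pp_mul_pq]
  rw [e1, e2]
  have hi : ∀ (χ : IrrCharacter G) g, IsIntegral ℤ (χ.1 g) := fun χ g =>
    H3.char_integral (H3.irr_char χ.2) g
  have key : ∀ χ : IrrCharacter G, MemLocalIdeal M (χ.1 x - χ.1 y) ↔
      H4.red M (χ.1 x) = H4.red M (χ.1 y) := fun χ =>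
    H4.memLocalIdeal_sub_iff hM (H4.mem_Alg_of_isIntegral (hi _ _))
      (H4.mem_Alg_of_isIntegral (hi _ _)) (H4.mem_O_of_isIntegral (hi _ _))
      (H4.mem_O_of_isIntegral (hi _ _))
  simp only [key]
  constructor
  · intro h χ
    rw [H4.red_char_eq_pq hM (H3.irr_char χ.2) x, H4.red_char_eq_pq hM (H3.irr_char χ.2) y,
      H3.class_isConj (H3.irr_class χ.2) h]
  · intro h
    have hmn := (Nat.ordProj_mul_ordCompl_eq_self (Nat.card G) p).symm
    have hc := Nat.coprime_ordCompl hp (Nat.card_pos (α := G)).ne'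
    have hcop := hc.pow_left ((Nat.card G).factorization p)
    obtain ⟨k, hk0, hk1⟩ := Nat.chineseRemainder hcop 0 1
    replace hk0 := (Nat.modEq_zero_iff_dvd).mp hk0
    have hq : ∀ z : G, z ^ k = H4.pq p z := fun z => by
      obtain ⟨j, hj⟩ := H4.isPElt_pp hp z
      conv_lhs => rw [← H4.pp_mul_pq (p := p) z]
      exact H3.pow_eq_of_decomp hmn hk0 hk1 (H4.commute_pp_pq z) (hj ▸ hc.pow_left j)
        (((Nat.Prime.coprime_iff_not_dvd hp).mpr (H4.not_dvd_orderOf_pq hp z)).symm.pow_right _)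
    set n := Nat.card G / p ^ (Nat.card G).factorization p
    let θ : G → ℂ := fun z => n * H3.classInd (H4.pq p x) (z ^ k)
    have hθ : IsClassFunction G θ := fun a b => by
      simp only [θ, conj_pow, H3.class_classInd _ _ b]
    have hc' : ∀ χ : IrrCharacter G, classInner θ χ ∈ H4.O M := fun χ => H4.mem_O_of_isIntegral
      (H3.section_integral hmn hcop hk0 hk1 _ (H3.irr_gen χ.2))
    have : H4.red M (θ x) = H4.red M (θ y) := by
      simp only [H3.class_apply_eq_sum hθ]
      rw [H4.red_sum _ _ fun χ _ => mul_mem (hc' χ) (H4.mem_O_of_isIntegral (hi _ _)),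
        H4.red_sum _ _ fun χ _ => mul_mem (hc' χ) (H4.mem_O_of_isIntegral (hi _ _))]
      refine Finset.sum_congr rfl fun χ _ => ?_
      rw [H4.red_mul (hc' χ) (H4.mem_O_of_isIntegral (hi _ _)),
        H4.red_mul (hc' χ) (H4.mem_O_of_isIntegral (hi _ _)), h]
    by_contra hn
    simp only [θ, hq, H3.classInd, if_neg hn, if_pos (IsConj.refl _), mul_one, mul_zero] at this
    exact H4.red_natCast_ne_zero hM ((Nat.Prime.coprime_iff_not_dvd hp).mp hc) (by simpa using this)

end Cfsg.Agent.S0876
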