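import Cfsg.Statements.S0882
import Cfsg.Agent.H3.Zass2

set_option autoImplicit false
open Cfsg

namespace Cfsg.Agent.S0882

/-- Let G be a finite simple Zassenhaus group on Ω with n = h + 1 points whose two-point stabilizer E has odd order e with 2e < h - 1. Then any two involutions of G are conjugate, and the number of involutions is e * (h + 1) if h is even and e * h if h is odd. -/
theorem result {G Ω : Type*} [Group G] [Finite G] [MulAction G Ω] [Fintype Ω] (hZ : Cfsg.IsZassenhausGroup G Ω) {a b : Ω} (hab : a ≠ b) [IsSimpleGroup G] (h e : ℕ) (hh : Fintype.card Ω = h + 1) (he : Nat.card ↥(MulAction.stabilizer G a ⊓ MulAction.stabilizer G b : Subgroup G) = e) (hodd : Odd e) (hlt : 2 * e < h - 1) : (∀ x y : G, orderOf x = 2 → orderOf y = 2 → IsConj x y) ∧ Nat.card {x : G // orderOf x = 2} = (if Even h then e * (h + 1) else e * h) := by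
  obtain ⟨H, k⟩ := H3.exists_ZG hZ hab
  subst he
  have p := H3.zass_perfect k
  obtain rfl : Nat.card H = h := by have := k.card; rw [Nat.card_eq_fintype_card (α := Ω)] at this; omega
  refine ⟨fun x y => k.isConj_inv hodd p, (k.card_inv hodd p).trans ?_⟩
  rw [k.card_inv_H hodd p]
  split_ifs <;> ring

end Cfsg.Agent.S0882
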