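import Cfsg.Statements.S0893
import Cfsg.Agent.H3.Cx

set_option autoImplicit false
open Cfsg

namespace Cfsg.Agent.S0893

open H3

/-- Let P be an extraspecial p-group of order p ^ (2 * n + 1), A an abelian subgroup of order p ^ (n + 1), and λ a character of A of degree 1 that is not identically 1 on the elements of A lying in the centre of P. Then the function induced from λ to P is an irreducible character of P and vanishes at every element outside the centre. -/
theorem result {P : Type*} [Group P] [Fintype P] (p n : ℕ) [Fact p.Prime] (hP : Cfsg.IsExtraspecial p P) (hcard : Nat.card P = p ^ (2 * n + 1)) (A : Subgroup P) (hab : ∀ a ∈ A, ∀ b ∈ A, a * b = b * a) (hA : Nat.card A = p ^ (n + 1)) (lam : A → ℂ) (hlam : Cfsg.IsCharacter A lam ∧ lam 1 = 1) (hZ : ∃ a : A, (a : P) ∈ Subgroup.center P ∧ lam a ≠ 1) : Cfsg.IsIrrCharacter P (Cfsg.indFun A lam) ∧ ∀ x : P, x ∉ Subgroup.center P → Cfsg.indFun A lam x = 0 := by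
  classical
  obtain ⟨⟨h1, h2, h3⟩, h4⟩ := hP
  have hp : p.Prime := Fact.out
  have := h1.isNilpotent
  have hz : (Nat.card (Subgroup.center P)).Prime := h4.symm ▸ hp
  have hi : (Subgroup.center P).index = (p ^ n) ^ 2 := by
    have := (Subgroup.center P).card_mul_index
    rw [h4, hcard] at this
    exact Nat.eq_of_mul_eq_mul_left hp.pos (by rw [this]; ring)
  have hA' : A.index = p ^ n := by
    have := A.card_mul_index
    rw [hA, hcard] at this
    exact Nat.eq_of_mul_eq_mul_left (pow_pos hp.pos (n + 1)) (by rw [this]; ring)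
  have hl := isIrr_of_degree_one hlam.1 hlam.2
  obtain ⟨χ, hχ, hc⟩ := exists_irr_over A hl
  obtain ⟨a, ha, ha'⟩ := hZ
  have h5 : χ 1 ≠ 1 := fun e => ha' <| by
    rw [← hlam.2]
    exact ker_of_constituent (char_restrict (irr_char hχ) A) hl hc
      ((mem_charKer (irr_char hχ) _).1 ((degree_one_iff_commutator_le hχ).1 e (h3 ▸ ha)))
  obtain ⟨-, b, c⟩ := es_nonlin h3 hz hχ h5
  rw [hi, Nat.pow_left_inj two_ne_zero] at c
  have : indFun A lam = χ := eq_of_sub_char_of_degree
    (char_sub_of_inner_ne_zero (char_indFun A hlam.1) hχ (by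
      rwa [inner_indFun_left A _ (irr_class hχ), Ne, H3.inner_eq_zero_symm]))
    (by rw [indFun_one, hlam.2, mul_one, ideg_eq hχ, c, hA'])
  rw [this]
  exact ⟨hχ, b⟩

end Cfsg.Agent.S0893
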