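import Cfsg.Statements.S0894
import Cfsg.Agent.H3.Cx

set_option autoImplicit false
open Cfsg

namespace Cfsg.Agent.S0894

open H3

/-- Let P be an extraspecial p-group of order p ^ (2 * n + 1). Then every irreducible character of P has degree 1 or p ^ n, and exactly p - 1 of them have degree p ^ n. -/
theorem result {P : Type*} [Group P] [Finite P] (p n : ℕ) [Fact p.Prime] (hP : Cfsg.IsExtraspecial p P) (hcard : Nat.card P = p ^ (2 * n + 1)) : (∀ χ : Cfsg.IrrCharacter P, (χ : P → ℂ) 1 = 1 ∨ (χ : P → ℂ) 1 = (p : ℂ) ^ n) ∧ Nat.card {χ : Cfsg.IrrCharacter P // (χ : P → ℂ) 1 = (p : ℂ) ^ n} = p - 1 := by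
  obtain ⟨⟨h1, h2, h3⟩, h4⟩ := hP
  have hp : p.Prime := Fact.out
  have := h1.isNilpotent
  have hz : (Nat.card (Subgroup.center P)).Prime := h4.symm ▸ hp
  have hi : (Subgroup.center P).index = (p ^ n) ^ 2 := by
    have := (Subgroup.center P).card_mul_index
    rw [h4, hcard] at this
    exact Nat.eq_of_mul_eq_mul_left hp.pos (by rw [this]; ring)
  have hd : ∀ χ : IrrCharacter P, χ.1 1 ≠ 1 → χ.1 1 = (p : ℂ) ^ n := fun χ h => by
    have := (es_nonlin h3 hz χ.2 h).2.2
    rw [hi, Nat.pow_left_inj two_ne_zero] at this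
    rw [ideg, this]; simp
  have hc := es_count h3 hz
  refine ⟨fun χ => (em _).imp id (hd χ), ?_⟩
  rw [h4] at hc
  refine (Nat.card_congr (Equiv.subtypeEquivRight fun χ => ⟨fun h e => ?_, hd χ⟩)).trans
    (Nat.eq_sub_of_add_eq hc)
  have : Nonempty {χ : IrrCharacter P // χ.1 1 ≠ 1} :=
    (Nat.card_pos_iff.1 (by have := hp.two_le; omega)).1
  obtain ⟨ψ, hψ⟩ := this
  exact hψ ((hd ψ hψ).trans (h.symm.trans e))

end Cfsg.Agent.S0894
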