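import Cfsg.Statements.S0897
import Cfsg.Agent.H3.Brauer2

set_option autoImplicit false
open Cfsg

namespace Cfsg.Agent.S0897

/-- Let N be a normal subgroup of the finite group G with the index of N a power of the prime p, and P a Sylow p-subgroup of G such that P ⊓ N lies in the centre of P and every character of degree 1 of P ⊓ N is the restriction of a character of degree 1 of P. Then every irreducible character of N invariant under conjugation by G is the restriction of an irreducible character of G. -/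
theorem result {G : Type*} [Group G] [Fintype G] (p : ℕ) [Fact p.Prime] (N : Subgroup G) [hN : N.Normal] (hind : ∃ k : ℕ, N.index = p ^ k) (P : Sylow p G) (hcent : ∀ x ∈ (P : Subgroup G) ⊓ N, ∀ y ∈ (P : Subgroup G), x * y = y * x) (hlin : ∀ lam : ↥((P : Subgroup G) ⊓ N) → ℂ, Cfsg.IsCharacter ↥((P : Subgroup G) ⊓ N) lam → lam 1 = 1 → ∃ μ : ↥(P : Subgroup G) → ℂ, Cfsg.IsCharacter ↥(P : Subgroup G) μ ∧ μ 1 = 1 ∧ ∀ x : ↥((P : Subgroup G) ⊓ N), μ ⟨(x : G), x.2.1⟩ = lam x) (ϑ : N → ℂ) (hϑ : Cfsg.IsIrrCharacter N ϑ) (hinv : ∀ (g : G) (n : N), ϑ ⟨g * n * g⁻¹, hN.conj_mem (n : G) n.2 g⟩ = ϑ n) : ∃ χ : G → ℂ, Cfsg.IsIrrCharacter G χ ∧ ∀ n : N, χ n = ϑ n := by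
  classical
  have hp : p.Prime := Fact.out
  obtain ⟨k, hk⟩ := hind
  have hinv' : ∀ g, H3.cj N ϑ g = ϑ := fun g => funext (hinv g)
  obtain ⟨E, φ, hE, hEN, hφ, -, m, hm, h⟩ := H3.dade_elem hp N hk hϑ hinv'
  have := H3.elem_nilpotent hp hE
  let f₀ : E →* G := E.subtype.comp (H3.ppHom hp)
  have hf₀ : IsPGroup p f₀.range := by
    rintro ⟨_, x, rfl⟩
    obtain ⟨j, hj⟩ := (H4.isPElt_iff hp).mp ((H4.isPElt_pp hp x).map hp E.subtype)
    exact ⟨j, Subtype.ext hj⟩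
  obtain ⟨Q, hQ⟩ := hf₀.exists_le_sylow
  obtain ⟨c, rfl⟩ := MulAction.exists_smul_eq G Q P
  let π : E →* (c • Q : Sylow p G) := ((MulAut.conj c).toMonoidHom.comp f₀).codRestrict _ fun x =>
    Subgroup.smul_mem_pointwise_smul _ (MulAut.conj c) _ (hQ ⟨x, rfl⟩)
  have hπ : ∀ x, (π x : G) = c * (H4.pp p x : E) * c⁻¹ := fun x => rfl
  have hπN : ∀ x : E, (x : G) ∈ N → (π x : G) ∈ N := fun x hx =>
    hN.conj_mem _ (H4.pp_mem (H := N.subgroupOf E) hx) c
  have hcen : ∀ x : E, (x : G) ∈ N → x ∈ Subgroup.center E := fun x hx => by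
    rw [← H4.pp_mul_pq (p := p) x]
    refine mul_mem (Subgroup.mem_center_iff.mpr fun y => ?_) (H3.elem_pq_mem_center hp hE x)
    have h1 := hcent _ ⟨(π x).2, hπN x hx⟩ _ (π y).2
    have h2 : H4.pp p y * H4.pp p x = H4.pp p x * H4.pp p y := by
      simp only [hπ, conj_mul, mul_left_inj, mul_right_inj] at h1
      exact Subtype.ext h1.symm
    rw [← H4.pp_mul_pq (p := p) y, mul_assoc,
      ← Subgroup.mem_center_iff.mp (H3.elem_pq_mem_center hp hE y), ← mul_assoc, h2, mul_assoc]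
  obtain ⟨f, rfl⟩ := H3.irr_exists_hom_of_comm hφ fun a b =>
    Subtype.ext (Subgroup.mem_center_iff.mp (hcen _ b.2) a)
  have hqN : ∀ x : E, H4.pq p x ∈ N.subgroupOf E := fun x => by
    change (_ : G) ∈ N
    refine H3.mem_of_coprime_index_B _ (hk ▸ Nat.Coprime.pow_right k ?_)
    rw [Subgroup.subtype_apply, Subgroup.orderOf_coe]
    exact ((Nat.Prime.coprime_iff_not_dvd hp).mpr (H4.not_dvd_orderOf_pq hp x)).symm
  let q : E →* N.subgroupOf E := MonoidHom.mk' (fun x => ⟨_, hqN x⟩) fun a b =>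
    Subtype.ext (H3.elem_pq_mul hp hE a b)
  let A : Subgroup ↥((c • Q : Sylow p G) ⊓ N : Subgroup G) :=
    E.comap (H3.cjHom _ c)
  let α : A →* N.subgroupOf E := MonoidHom.mk' (fun x => ⟨⟨_, x.2⟩, by
    simpa [Subgroup.mem_subgroupOf] using hN.conj_mem _ x.1.2.2 c⁻¹⟩) fun a b => by ext; simp [mul_assoc]
  obtain ⟨β, hβ⟩ := H3.exists_hom_extend_comm (fun a b => Subtype.ext (hcent _ a.2 _ b.2.1)) A
    (f.comp α)
  obtain ⟨μ, hμ, hμ1, hμ2⟩ := hlin _ (H3.char_hom β) (by simp)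
  obtain ⟨μ, rfl⟩ := H3.exists_hom_of_degree_one hμ hμ1
  let F : E →* ℂˣ := (μ.comp π) * (f.comp q)
  have hF : ∀ x : N.subgroupOf E, F x = f x := fun x => by
    have h1 := Units.ext (hμ2 ⟨π x, (π x).2, hπN _ x.2⟩)
    have h2 := hβ ⟨⟨π x, (π x).2, hπN _ x.2⟩, by simp [A, Subgroup.mem_comap, hπ, mul_assoc]⟩
    change μ (π x) * f (q x) = _
    rw [show μ (π x) = _ from h1.trans h2, MonoidHom.comp_apply, ← map_mul]
    congr 1; ext
    simp [α, q, hπ, mul_assoc, ← Subgroup.coe_mul, H4.pp_mul_pq]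
  have := Fintype.ofFinite N
  have := Fintype.ofFinite (N.subgroupOf E)
  have h1 := H3.inner_restrict_indFun_invariant N E hinv' fun x => F x
  simp only [hF, hEN, Subgroup.index_top, Nat.cast_one, one_mul] at h1
  rw [← H3.inner_conj_symm (fun x : N.subgroupOf E => ϑ ⟨x, x.2⟩), h, map_natCast] at h1
  obtain ⟨a, -, ha⟩ := H3.char_eq_sum_nat (H3.char_indFun E (H3.char_hom F))
  choose b hb using fun χ : IrrCharacter G =>
    H3.inner_char_nat (H3.char_restrict (H3.irr_char χ.2) N) (H3.irr_char hϑ)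
  have h2 : m = ∑ χ, a χ * b χ := by
    apply Nat.cast_injective (R := ℂ)
    rw [← h1, ha]
    simp only [Nat.cast_sum, Nat.cast_mul, ← hb, ← H3.inner_smul_left, ← H3.inner_sum_left]
    congr 1; ext; simp
  obtain ⟨χ, hχ⟩ : ∃ χ, ¬ p ∣ b χ := by
    by_contra h3
    push Not at h3
    exact hm (h2 ▸ Finset.dvd_sum fun χ _ => (h3 χ).mul_left _)
  obtain ⟨e, -, he1, he⟩ := H3.clifford_invariant_nat N χ.2 hϑ hinv' (by
    rw [hb]; rintro h0; exact hχ (by simp [Nat.cast_eq_zero.mp h0]))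
  obtain ⟨j, -, hj⟩ := (Nat.dvd_prime_pow hp).mp
    (hk ▸ H3.degree_ratio_dvd_of_invariant N hϑ hinv' χ.2 he)
  rw [hb, Nat.cast_inj] at he1
  rcases j with _ | j
  · exact ⟨χ, χ.2, fun n => by simp [he, hj]⟩
  · exact absurd (he1 ▸ hj ▸ dvd_pow_self p j.succ_ne_zero) hχ

end Cfsg.Agent.S0897
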