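import Cfsg.Statements.S0898
import Cfsg.Agent.H3.Tf3
import Cfsg.Agent.H3.Chr

set_option autoImplicit false
open Cfsg

namespace Cfsg.Agent.S0898

open H3 Subgroup
open scoped ComplexConjugate

theorem partA {G : Type*} [Group G] [Fintype G] (H : Subgroup G) [Fintype H] (hab : ∀ a ∈ H, ∀ b ∈ H, a * b = b * a)
    (hZ : H ⊓ center G = ⊥) (hkey : ∀ g, g ∉ center G → ∀ a, ∀ h ∈ H, h ≠ 1 → g * h = h * g → ∀ k ∈ H, k ≠ 1 →
      a⁻¹ * g * a * k = k * (a⁻¹ * g * a) → a ∈ normalizer (H : Set G)) (χ : G → ℂ) (hχ : IsIrrCharacter G χ)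
    (hker : ∃ h ∈ H, χ h ≠ χ 1) :
    (χ 1).re ^ 2 > (Nat.card H : ℝ) * (classInner (fun h : H => χ h) (fun _ => 1)).re ^ 2 := by
  classical
  set N := normalizer (H : Set G)
  set Z := center G
  have := Fintype.ofFinite N
  have := Fintype.ofFinite Z
  let S : Finset G := Finset.univ.filter fun g => g ∉ Z ∧ ∃ h ∈ H, h ≠ 1 ∧ g * h = h * g
  have hS : ∀ g, g ∈ S ↔ g ∉ Z ∧ ∃ h ∈ H, h ≠ 1 ∧ g * h = h * g := fun g => by simp [S]
  have hk : ∀ g ∈ S, ∀ a, a⁻¹ * g * a ∈ S → a ∈ N := fun g hg a ha => by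
    obtain ⟨h1, h, h2, h3, h4⟩ := (hS g).1 hg
    obtain ⟨-, k, k2, k3, k4⟩ := (hS _).1 ha
    exact hkey g h1 a h h2 h3 h4 k k2 k3 k4
  have hSN : ∀ g ∈ S, g ∈ N := fun g hg => hk g hg g (by simpa using hg)
  have hZN : Z ≤ N := center_le_normalizer _
  have hHN : H ≤ N := le_normalizer
  let α := cavg H χ
  obtain ⟨n, n0, hn⟩ := irr_one_nat hχ
  obtain ⟨c, hc⟩ := inner_char_nat (char_restrict (irr_char hχ) H) char_one
  have hα1 : α 1 = c := by rw [← hc]; simp [α, cavg, classInner]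
  have hα : IsCharacter N fun g : N => α g := by
    have : (H.subgroupOf N).Normal := normal_in_normalizer
    have := Fintype.ofFinite (H.subgroupOf N)
    convert char_cavg (H.subgroupOf N) (char_restrict (irr_char hχ) N) using 2 with g
    simp only [α, cavg, Nat.card_congr (subgroupOfEquivOfLe hHN).toEquiv]
    exact congrArg _ (Fintype.sum_equiv (subgroupOfEquivOfLe hHN).symm.toEquiv _ _ fun _ => rfl)
  have hβ := gen_sub (char_gen (char_restrict (irr_char hχ) N)) (char_gen hα)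
  set β := (fun g : N => χ g) - fun g : N => α g with hβd
  have h1 : 1 ≤ (classInner β β).re := by
    obtain ⟨m, hm⟩ := inner_gen_int hβ hβ
    have h2 := H3.inner_self_re_nonneg β
    have h3 : m ≠ 0 := by
      rintro rfl
      obtain ⟨h, hh, e⟩ := hker
      have h4 := H3.inner_self_eq_zero (hm.trans Int.cast_zero)
      have h5 := sub_eq_zero.1 (congrFun h4 ⟨h, hHN hh⟩)
      have h6 := sub_eq_zero.1 (congrFun h4 1)
      have h7 := cavg_mul H χ hh 1
      rw [mul_one] at h7
      exact e (h5.trans (h7.trans h6.symm))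
    rw [hm] at h2 ⊢
    have : (0 : ℤ) ≤ m := by simpa using h2
    have h4 : (1 : ℤ) ≤ m := by omega
    rw [Complex.intCast_re]
    exact_mod_cast h4
  have h2 : classInner (fun g : N => α g) β = 0 := by
    have h3 : ∀ g : N, ∑ h : H, β (⟨h, hHN h.2⟩ * g) = 0 := fun g => by
      have h4 : ∀ h : H, α (h * g) = α g := fun h => cavg_mul H χ h.2 g
      simp only [hβd, Pi.sub_apply, coe_mul, h4, Finset.sum_sub_distrib, Finset.sum_const, Finset.card_univ,
        nsmul_eq_mul, ← Nat.card_eq_fintype_card]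
      simp only [α, cavg]
      rw [mul_inv_cancel_left₀ (card_ne_zero' H), sub_self]
    have h5 : ∀ h : H, ∑ g : N, α g * conj (β g) = ∑ g : N, α g * conj (β (⟨h, hHN h.2⟩ * g)) := fun h => by
      rw [← Equiv.sum_comp (Equiv.mulLeft (⟨h, hHN h.2⟩ : N))]
      exact Finset.sum_congr rfl fun g _ => congrArg (· * _) (cavg_mul H χ h.2 g)
    have h6 := Finset.sum_congr (rfl : (Finset.univ : Finset H) = _) fun h _ => h5 h
    rw [Finset.sum_const, Finset.sum_comm, nsmul_eq_mul, Finset.card_univ] at h6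
    simp only [← Finset.mul_sum, ← map_sum, h3, map_zero, mul_zero, Finset.sum_const_zero] at h6
    have h7 := (mul_eq_zero.1 h6).resolve_left (Nat.cast_ne_zero.2 Fintype.card_ne_zero)
    rw [classInner, h7, mul_zero]
  have h3 : ∑ g : N, ‖α g‖ ^ 2 + Nat.card N ≤ ∑ g : N, ‖χ g‖ ^ 2 := by
    have e : (fun g : N => χ g) = (fun g : N => α g) + β := by rw [hβd]; ring
    have h4 : classInner (fun g : N => χ g) (fun g : N => χ g) =
        classInner (fun g : N => α g) (fun g : N => α g) + classInner β β := by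
      rw [e, H3.inner_add_left, H3.inner_add_right, H3.inner_add_right, h2, H3.inner_eq_zero_symm.1 h2]; ring
    have h5 := congrArg Complex.re h4
    rw [Complex.add_re, H3.inner_self_eq, H3.inner_self_eq, Complex.ofReal_re, Complex.ofReal_re] at h5
    have h6 : (0 : ℝ) < Nat.card N := by exact_mod_cast Nat.card_pos
    field_simp at h5
    nlinarith
  let T : Finset G := S ∪ Finset.univ.filter (· ∈ Z)
  have h4 : ∑ g ∈ T, ‖α g‖ ^ 2 + Nat.card N ≤ ∑ g ∈ T, ‖χ g‖ ^ 2 := by
    have h5 : ∀ F : G → ℝ, ∑ g : N, F g = ∑ g ∈ T, F g + ∑ g ∈ Finset.univ.filter (· ∈ N) \ T, F g := fun F => by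
      rw [add_comm, Finset.sum_sdiff fun g hg => ?_, Finset.sum_subtype (p := (· ∈ N)) _ (by simp)]
      rcases Finset.mem_union.1 hg with h | h
      · simpa using hSN g h
      · simpa using hZN (by simpa using h)
    rw [h5 fun g => ‖α g‖ ^ 2, h5 fun g => ‖χ g‖ ^ 2] at h3
    have h6 : ∀ g ∈ Finset.univ.filter (· ∈ N) \ T, α g = χ g := fun g hg => by
      simp only [T, Finset.mem_sdiff, Finset.mem_filter, Finset.mem_univ, true_and, Finset.mem_union, not_or, hS,
        not_and, not_exists] at hg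
      have h7 : ∀ h : H, χ (h * g) = χ g := fun h => by
        obtain ⟨x, -, e⟩ := frob_conj H (h := g) (fun k hk => (mem_normalizer_iff.1 hg.1 k).1 hk)
          (fun k hk e => by_contra fun k1 => hg.2.1 hg.2.2 k hk k1 e) h.2
        rw [e, class_conj' (irr_class hχ)]
      simp only [α, cavg, h7, Finset.sum_const, Finset.card_univ, nsmul_eq_mul, ← Nat.card_eq_fintype_card]
      rw [inv_mul_cancel_left₀ (card_ne_zero' H)]
    have h8 : ∑ g ∈ Finset.univ.filter (· ∈ N) \ T, ‖α g‖ ^ 2 = ∑ g ∈ Finset.univ.filter (· ∈ N) \ T, ‖χ g‖ ^ 2 :=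
      Finset.sum_congr rfl fun g hg => by rw [h6 g hg]
    linarith
  obtain ⟨f, hf⟩ := exists_hom_charCenter (irr_one_ne_zero hχ)
  have hfz : ∀ z : Z, ∃ w : ℂ, ‖w‖ = 1 ∧ ∀ x, χ (x * z) = w * χ x := fun z =>
    ⟨_, norm_hom f ⟨z, center_le_charCenter hχ z.2⟩, hf ⟨z, center_le_charCenter hχ z.2⟩⟩
  have h5 : Nat.card H * Nat.card Z * (c : ℝ) ^ 2 ≤ ∑ g ∈ T, ‖α g‖ ^ 2 := by
    have h6 : Function.Injective fun x : H × Z => (x.1 * x.2 : G) := fun x y e => by
      have e' : (y.1 : G)⁻¹ * x.1 = y.2 * (x.2 : G)⁻¹ := by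
        rw [inv_mul_eq_iff_eq_mul, ← mul_assoc, eq_mul_inv_iff_mul_eq]; exact e
      have h7 : (y.1 : G)⁻¹ * x.1 = 1 := mem_bot.1 (hZ ▸ mem_inf.2 ⟨mul_mem (inv_mem y.1.2) x.1.2,
        e' ▸ mul_mem y.2.2 (inv_mem x.2.2)⟩)
      exact Prod.ext (Subtype.ext (inv_mul_eq_one.1 h7).symm) (Subtype.ext (mul_inv_eq_one.1 (e'.symm.trans h7)).symm)
    refine le_trans (le_of_eq ?_) (Finset.sum_le_sum_of_subset_of_nonneg
      (s := Finset.univ.image fun x : H × Z => (x.1 * x.2 : G)) (fun g hg => ?_) fun _ _ _ => by positivity)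
    · rw [Finset.sum_image fun x _ y _ e => h6 e, Finset.sum_congr rfl (g := fun _ => (c : ℝ) ^ 2) fun x _ => ?_]
      · simp [Nat.card_eq_fintype_card]
      obtain ⟨w, w1, w2⟩ := hfz x.2
      have h8 : α (x.1 * x.2) = w * c := by
        rw [show α (x.1 * x.2) = α x.2 from cavg_mul H χ x.1.2 _, ← hα1]
        simp only [α, cavg, w2, mul_one, ← Finset.mul_sum]; ring
      rw [h8, norm_mul, w1]; simp
    · obtain ⟨x, -, rfl⟩ := Finset.mem_image.1 hg
      by_cases h9 : (x.1 * x.2 : G) ∈ Z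
      · exact Finset.mem_union_right _ (by simpa using h9)
      · refine Finset.mem_union_left _ ((hS _).2 ⟨h9, x.1, x.1.2, fun e => h9 (by rw [e, one_mul]; exact x.2.2), ?_⟩)
        rw [mul_assoc, mem_center_iff.1 x.2.2]
  have hZs : ∑ g ∈ Finset.univ.filter (· ∈ Z), ‖χ g‖ ^ 2 = Nat.card Z * (n : ℝ) ^ 2 := by
    rw [Finset.sum_subtype (F := ‹Fintype Z›) (p := (· ∈ Z)) _ (by simp), Finset.sum_congr rfl (g := fun _ => (n : ℝ) ^ 2) fun z _ => ?_]
    · simp [Nat.card_eq_fintype_card]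
    obtain ⟨w, w1, w2⟩ := hfz z
    have := w2 1
    rw [one_mul] at this
    rw [this, norm_mul, w1, hn]; simp
  rw [Finset.sum_union (f := fun g => ‖χ g‖ ^ 2) (Finset.disjoint_left.2 fun g h1 h2 => ((hS g).1 h1).1
    (by simpa using h2)), hZs] at h4
  have h6 : Nat.card G * ∑ g ∈ S, ‖χ g‖ ^ 2 ≤ Nat.card N * (Nat.card G - Nat.card Z * (n : ℝ) ^ 2) := by
    have h7 : ∀ a : G, ∑ g ∈ S, ‖χ g‖ ^ 2 = ∑ g, if a⁻¹ * g * a ∈ S then ‖χ g‖ ^ 2 else 0 := fun a => by
      rw [← Equiv.sum_comp (MulAut.conj a).toEquiv]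
      have : ∀ g, (MulAut.conj a).toEquiv g = a * g * a⁻¹ := fun _ => rfl
      have h : ∀ g, a⁻¹ * (a * g * a⁻¹) * a = g := fun g => by group
      simp only [this, h, irr_class hχ _ a, ← Finset.sum_filter]
      simp
    have h8 := Finset.sum_congr (rfl : (Finset.univ : Finset G) = _) fun a _ => h7 a
    rw [Finset.sum_const, Finset.card_univ, nsmul_eq_mul, ← Nat.card_eq_fintype_card, Finset.sum_comm] at h8
    rw [h8, ← hZs, ← sum_norm_sq_irr hχ, ← Finset.sum_filter_add_sum_filter_not Finset.univ (· ∈ Z)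
      (fun g => ‖χ g‖ ^ 2), add_sub_cancel_left, Finset.mul_sum, Finset.sum_filter]
    refine Finset.sum_le_sum fun g _ => ?_
    rw [← Finset.sum_filter, Finset.sum_const, nsmul_eq_mul]
    rcases (Finset.univ.filter fun a => a⁻¹ * g * a ∈ S).eq_empty_or_nonempty with e | ⟨b, hb⟩
    · rw [e]; split_ifs <;> simp <;> positivity
    have hb' := (Finset.mem_filter.1 hb).2
    rw [if_pos fun h => ((hS _).1 hb').1 (by simpa using (inferInstance : Z.Normal).conj_mem g h b⁻¹)]
    refine mul_le_mul_of_nonneg_right (Nat.cast_le.2 ?_) (by positivity)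
    rw [Nat.card_eq_fintype_card, ← Finset.card_univ]
    refine Finset.card_le_card_of_injOn (fun a => if h : b⁻¹ * a ∈ N then ⟨_, h⟩ else 1) (fun _ _ => Finset.mem_univ _)
      fun a ha a' ha' e => ?_
    have k : ∀ a ∈ Finset.univ.filter fun a => a⁻¹ * g * a ∈ S, b⁻¹ * a ∈ N := fun a ha =>
      hk _ hb' _ (by simpa [mul_assoc] using (Finset.mem_filter.1 ha).2)
    simp only [dif_pos (k a ha), dif_pos (k a' ha')] at e
    exact mul_left_cancel (congrArg Subtype.val e)
  rw [hc, hn]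
  simp only [Complex.natCast_re]
  have p1 : (0 : ℝ) < Nat.card G := by exact_mod_cast Nat.card_pos
  have p2 : (0 : ℝ) < Nat.card N := by exact_mod_cast Nat.card_pos
  have p3 : (0 : ℝ) < Nat.card Z := by exact_mod_cast Nat.card_pos
  have p4 : (0 : ℝ) < n := by exact_mod_cast n0
  by_contra! h9
  have q1 := mul_le_mul_of_nonneg_left h9 p3.le
  have q2 : (Nat.card N : ℝ) ≤ ∑ g ∈ S, ‖χ g‖ ^ 2 := by nlinarith
  have q3 := mul_le_mul_of_nonneg_left q2 p1.le
  have q4 : 0 < (Nat.card N : ℝ) * (Nat.card Z * n ^ 2) := by positivity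
  nlinarith

/-- Let H be an abelian subgroup of the finite group G meeting the centre of G trivially, such that for every non-central g the centralizer of g has nontrivial intersection with at most one conjugate of H. Let χ be an irreducible character of G with χ h ≠ χ 1 for some h in H, and let c be the inner product of the restriction of χ to H with the principal character. Then χ(1)² > (order of H)·c²; and if in addition χ 1 ≠ 1 and no proper normal subgroup of G contains H, then (1 + χ 1)² > order of H (both sides read as real numbers). -/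
theorem result {G : Type*} [Group G] [Fintype G] (H : Subgroup G) [Fintype H] (hab : ∀ a ∈ H, ∀ b ∈ H, a * b = b * a) (hZ : H ⊓ Subgroup.center G = ⊥) (hone : ∀ g : G, g ∉ Subgroup.center G → ∀ a b : G, Subgroup.centralizer ({g} : Set G) ⊓ H.map (MulAut.conj a).toMonoidHom ≠ ⊥ → Subgroup.centralizer ({g} : Set G) ⊓ H.map (MulAut.conj b).toMonoidHom ≠ ⊥ → H.map (MulAut.conj a).toMonoidHom = H.map (MulAut.conj b).toMonoidHom) (χ : G → ℂ) (hχ : Cfsg.IsIrrCharacter G χ) (hker : ∃ h ∈ H, χ h ≠ χ 1) : (χ 1).re ^ 2 > (Nat.card H : ℝ) * (Cfsg.classInner (fun h : H => χ h) (fun _ => 1)).re ^ 2 ∧ (χ 1 ≠ 1 → (∀ M : Subgroup G, M.Normal → H ≤ M → M = ⊤) → (1 + (χ 1).re) ^ 2 > (Nat.card H : ℝ)) := by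
  classical
  have hA := partA H hab hZ fun g hg a h hh h1 e k hk k1 e' => by
    have := hone g hg 1 a (fun h0 => h1 (mem_bot.1 (h0 ▸ mem_inf.2 ⟨mem_centralizer_singleton_iff.2 e.symm,
      h, hh, by simp⟩))) fun h0 => k1 (by
        have : a * k * a⁻¹ = 1 := mem_bot.1 (h0 ▸ mem_inf.2 ⟨mem_centralizer_singleton_iff.2 (by
          calc a * k * a⁻¹ * g = a * (k * (a⁻¹ * g * a)) * a⁻¹ := by group
            _ = _ := by rw [← e']; group), k, hk, rfl⟩)
        simpa using this)
    refine mem_normalizer_iff.2 fun x => ⟨fun hx => ?_, fun hx => ?_⟩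
    · obtain ⟨y, hy, e⟩ : a * x * a⁻¹ ∈ H.map (MulAut.conj (1 : G)).toMonoidHom := this ▸ ⟨x, hx, rfl⟩
      exact e ▸ (by simpa using hy)
    · obtain ⟨y, hy, e⟩ : a * x * a⁻¹ ∈ H.map (MulAut.conj a).toMonoidHom := this ▸ ⟨_, hx, by simp⟩
      exact (MulAut.conj a).injective e ▸ hy
  refine ⟨hA χ hχ hker, fun h1 hM => ?_⟩
  obtain ⟨n, n0, hn⟩ := irr_one_nat hχ
  have hin : ∀ {K : Type _} [Group K] [Fintype K] (a : K → ℂ),
      classInner a a = classInner (fun g => a g * conj (a g)) (fun _ => 1) := fun a => by simp [classInner]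
  have hΨ : IsCharacter G fun g => χ g * conj (χ g) := char_mul (irr_char hχ) (char_conj (irr_char hχ))
  have hΨ1 : classInner (fun g => χ g * conj (χ g)) (fun _ => 1) = 1 := by rw [← hin, irr_inner_self hχ]
  have hΨ' := char_sub_of_inner_ne_zero hΨ isIrr_one (by rw [hΨ1]; exact one_ne_zero)
  have h4 := char_ind_con (Q := fun Θ : G → ℂ => Θ 1 = 0 ∧ (classInner (fun c : H => Θ c) (fun _ => 1)).re = 0 ∨
      √(Nat.card H) * (classInner (fun c : H => Θ c) (fun _ => 1)).re < (Θ 1).re)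
    (by simp [classInner]) (fun a b ha hb => by
      have := H3.inner_add_left (fun c : H => a c) (fun c : H => b c) (fun _ => 1)
      simp only [Pi.add_def] at this
      simp only [Pi.add_apply, this, Complex.add_re]
      rcases ha with ⟨h, h'⟩ | h <;> rcases hb with ⟨k, k'⟩ | k
      · simp [h, h', k, k']
      · right; rw [h, h']; simpa only [zero_add, Complex.zero_re] using k
      · right; rw [k, k']; simpa only [add_zero, Complex.zero_re] using h
      · right; linarith) hΨ' fun ψ hψ h => by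
      have h2 : ψ ≠ fun _ => 1 := by
        rintro rfl; exact h (by rw [H3.inner_sub_left, hΨ1, irr_inner_self isIrr_one, sub_self])
      have h3 := hA ψ hψ (by
        by_contra! k
        exact charKer_ne_top hψ h2 (hM _ (charKer_normal (irr_class hψ)) fun t ht =>
          (mem_charKer (irr_char hψ) t).2 (k t ht)))
      obtain ⟨d, -, hd⟩ := irr_one_nat hψ
      right
      refine lt_of_pow_lt_pow_left₀ 2 (by simp [hd]) ?_
      rwa [mul_pow, Real.sq_sqrt (by positivity)]
  have h5 := H3.inner_sub_left (fun c : H => χ c * conj (χ c)) (fun _ => 1) (fun _ => 1)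
  rw [← hin, irr_inner_self isIrr_one] at h5
  simp only [Pi.sub_def] at h5
  have n1 : (2 : ℝ) ≤ n := by
    have : n ≠ 1 := by rintro rfl; exact h1 (by simpa using hn)
    exact_mod_cast (by omega : 2 ≤ n)
  have h6 : (n : ℝ) ≤ (classInner (fun c : H => χ c) (fun c : H => χ c)).re := by
    have hχH := char_restrict (irr_char hχ) H
    obtain ⟨c, c1, c2⟩ := char_eq_sum_nat hχH
    rw [parseval_norm (char_class hχH)]
    have h7 := congrArg Complex.re (congrFun c2 1)
    simp only [coe_one, hn, Finset.sum_apply, Pi.smul_apply, smul_eq_mul, Complex.re_sum,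
      fun θ : IrrCharacter H => irr_degree_one_of_comm θ.2 fun a b => Subtype.ext (hab _ a.2 _ b.2), mul_one,
      Complex.natCast_re] at h7
    rw [h7]
    refine Finset.sum_le_sum fun θ _ => ?_
    rw [c1, Complex.norm_natCast]
    exact_mod_cast Nat.le_self_pow two_ne_zero _
  simp only [Pi.sub_apply, h5, hn, map_natCast, Complex.sub_re, Complex.natCast_re, Complex.one_re, Complex.mul_re,
    Complex.natCast_im, mul_zero, sub_zero] at h4 ⊢
  rcases h4 with ⟨h, -⟩ | h
  · have := congrArg Complex.re h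
    simp at this
    nlinarith
  have h8 : √(Nat.card H) < 1 + (n : ℝ) := by
    by_contra! h9
    nlinarith
  have := Real.sq_sqrt (Nat.cast_nonneg (α := ℝ) (Nat.card H))
  have := Real.sqrt_nonneg (Nat.card H)
  nlinarith

end Cfsg.Agent.S0898
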