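import Cfsg.Statements.S4468
import Cfsg.Agent.H3.Chr2

set_option autoImplicit false
open Cfsg

namespace Cfsg.Agent.S4468

/-- Let the finite p-solvable group G have a faithful character χ of degree n ≤ p − 1 and suppose that a Sylow p-subgroup of G is not normal. Then n = p − 1, n is a power of 2, and χ is irreducible. -/
theorem result {G : Type*} [Group G] [Finite G] (χ : G → ℂ) (hχ : Cfsg.IsCharacter G χ) (hfaith : ∀ g : G, χ g = χ 1 → g = 1) (n : ℕ) (hn : Cfsg.charDegree χ = n) (p : ℕ) (hp : p.Prime) (hsolv : Cfsg.IsPSolvable p G) (hnp : n + 1 ≤ p) (P : Sylow p G) (hP : ¬ (P : Subgroup G).Normal) : n + 1 = p ∧ (∃ k : ℕ, n = 2 ^ k) ∧ Cfsg.IsIrrCharacter G χ := by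
  classical
  have : Fact p.Prime := ⟨hp⟩
  obtain ⟨q, Q, s, hq, hQ, h1, h2, h3, k, a, b⟩ := H3.exists_pq_action hsolv P hP
  have hsL : s ∈ Q ⊔ Subgroup.zpowers s := Subgroup.mem_sup_right (Subgroup.mem_zpowers _)
  obtain ⟨c, d, e⟩ := H3.sub_setup h1 rfl hsL
  have := Fintype.ofFinite (Q ⊔ Subgroup.zpowers s : Subgroup G)
  obtain ⟨ψ, f1, -, f2, f3, f4⟩ := H3.exists_constituent_ne (H3.char_restrict hχ _)
    (g := ⟨k, Subgroup.mem_sup_left a⟩ * ⟨s, hsL⟩ * ⟨k, Subgroup.mem_sup_left a⟩⁻¹ * ⟨s, hsL⟩⁻¹)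
    fun h => b (mul_inv_eq_iff_eq_mul.1 (mul_inv_eq_one.1 (hfaith _ h)))
  obtain ⟨h4, h5⟩ := H3.prime_deg _ d (by rwa [e, Subgroup.orderOf_mk]) hp
    (fun k hk => Subtype.ext (h3 k hk)) f1 f2
  have h6 : charDegree (fun x : (Q ⊔ Subgroup.zpowers s : Subgroup G) => χ x) = n := hn
  rw [h6] at f3 f4
  have h7 : charDegree ψ = n := by omega
  have h8 := H3.deg_pos f1
  refine ⟨by omega, ?_, H3.irr_of_restrict_irr _ hχ (f4 h7.ge ▸ f1)⟩
  rcases h5 with h5 | ⟨h5, -⟩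
  · exact absurd (Nat.le_of_dvd h8 h5) (by omega)
  have : Fact q.Prime := ⟨hq⟩
  obtain ⟨m, hm⟩ := hQ.exists_card_eq
  rw [e, hm, h7] at h5
  obtain ⟨j, -, hj⟩ := (Nat.dvd_prime_pow hq).1 h5
  rcases hp.eq_two_or_odd' with rfl | ho
  · exact ⟨0, by omega⟩
  have : 2 ∣ q ^ j := by rw [← hj]; obtain ⟨t, ht⟩ := ho; omega
  obtain rfl := (Nat.prime_dvd_prime_iff_eq Nat.prime_two hq).1 (Nat.prime_two.dvd_of_dvd_pow this)
  exact ⟨j, hj⟩

end Cfsg.Agent.S4468
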