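import Cfsg.Statements.S4503
import Cfsg.Agent.H3.Tf4

set_option autoImplicit false
open Cfsg

namespace Cfsg.Agent.S4503

open H3 Subgroup

/-- Let G be a finite group whose order is divisible by the prime p exactly once and which has no normal subgroup of order p. Then every faithful character χ of G has degree at least (p − 1)/2: 2·χ(1) + 1 ≥ p. -/
theorem result {G : Type*} [Group G] [Finite G] (p : ℕ) (hp : p.Prime) (hdiv : p ∣ Nat.card G) (hsq : ¬ p ^ 2 ∣ Nat.card G) (hnn : ∀ H : Subgroup G, H.Normal → Nat.card H ≠ p) (χ : G → ℂ) (hχ : Cfsg.IsCharacter G χ) (hfaith : ∀ g : G, χ g = χ 1 → g = 1) : p ≤ 2 * Cfsg.charDegree χ + 1 := by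
  classical
  have := Fact.mk hp
  have := Fintype.ofFinite G
  obtain ⟨P⟩ : Nonempty (Sylow p G) := inferInstance
  have hP : Nat.card (P : Subgroup G) = p := by
    rw [P.card_eq_multiplicity, show (Nat.card G).factorization p = 1 from le_antisymm (by
      by_contra h
      exact hsq ((hp.pow_dvd_iff_le_factorization Nat.card_pos.ne').2 (by omega)))
      ((hp.dvd_iff_one_le_factorization Nat.card_pos.ne').1 hdiv), pow_one]
  let K := normalClosure ((P : Subgroup G) : Set G)
  have := Fintype.ofFinite K
  have hPK : (P : Subgroup G) ≤ K := le_normalClosure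
  have hQ : Nat.card (P.subtype hPK : Subgroup K) = p := (Nat.card_congr (subgroupOfEquivOfLe hPK).toEquiv).trans hP
  have hK : normalClosure ((P.subtype hPK : Subgroup K) : Set K) = ⊤ := by
    set L := normalClosure ((P.subtype hPK : Subgroup K) : Set K)
    have h1 : K ≤ L.map K.subtype := (closure_le _).2 fun y hy => by
      have hyK : y ∈ K := subset_closure hy
      obtain ⟨u, hu, hc⟩ := Group.mem_conjugatesOfSet_iff.1 hy
      have h2 : H4.IsPElt p (⟨y, hyK⟩ : K) := by
        obtain ⟨g, rfl⟩ := isConj_iff.1 hc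
        exact H4.isPElt_coe.1 ((H4.isPElt_of_mem hp P.isPGroup' hu).conj g)
      obtain ⟨Q, hQ⟩ := (H4.isPGroup_zpowers hp h2).exists_le_sylow
      obtain ⟨k, rfl⟩ := MulAction.exists_smul_eq K (P.subtype hPK) Q
      obtain ⟨z, hz, e⟩ := (mem_smul_pointwise_iff_exists _ _ _).1 (hQ (mem_zpowers _))
      exact ⟨_, normalClosure_normal.conj_mem z (subset_normalClosure hz) k, congrArg Subtype.val e⟩
    exact eq_top_iff.2 fun y _ => by
      obtain ⟨z, hz, e⟩ := h1 y.2
      exact (Subtype.ext e : z = y) ▸ hz
  obtain ⟨n, hn⟩ := char_one_nat hχ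
  rw [H4.charDegree_of_eq hn]
  by_contra hlt
  have hab : ∀ a b : K, a * b * a⁻¹ * b⁻¹ = 1 := fun a b => Subtype.ext (hfaith _
    (ker_of_forall_constituent (char_class (char_restrict hχ K)) (g := a * b * a⁻¹ * b⁻¹) fun ψ hψ h => by
      obtain ⟨m, -, hm⟩ := irr_one_nat hψ
      have h1 := degree_le_of_constituent (char_restrict hχ K) hψ h (m := n) hn hm
      obtain rfl : m = 1 := by
        by_contra h2
        have := brauer_half _ hQ hK hψ hm h2
        omega
      exact (mem_charKer (irr_char hψ) _).1 ((degree_one_iff_commutator_le hψ).1 (by simpa using hm)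
        (commutator_mem_commutator (mem_top _) (mem_top _)))))
  have h3 : (P.subtype hPK : Subgroup K).Normal := ⟨fun y hy g => by
    rw [mul_inv_eq_one.1 (hab g y)]; exact hy⟩
  have := Sylow.characteristic_of_normal _ h3
  have h4 : ((P.subtype hPK : Subgroup K).map K.subtype).Normal := inferInstance
  rw [Sylow.coe_subtype, subgroupOf_map_subtype, inf_eq_left.2 hPK] at h4
  exact hnn _ h4 hP

end Cfsg.Agent.S4503
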