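import Cfsg.Statements.S0899
import Cfsg.Agent.H3.Tf4
import Cfsg.Agent.S0898
import Cfsg.Agent.S4503
import Cfsg.Agent.S4468
import Cfsg.Agent.H1.Tr
import Cfsg.Agent.H3.Chr3

set_option autoImplicit false
open Cfsg

namespace Cfsg.Agent.S0899

open H3 Subgroup
open scoped Pointwise

universe u

theorem aux (p : ℕ) [hp : Fact p.Prime] (n : ℕ) (hnp : n + 1 < p) (m : ℕ) : ∀ (G : Type u) [Group G] [Finite G],
    Nat.card G = m → ∀ χ, IsCharacter G χ → (∀ g, χ g = χ 1 → g = 1) → χ 1 = n →
    (∀ (K : Type u) [Group K] [Finite K] (f : K →* G), Function.Injective f → ¬ p ^ 2 ∣ Nat.card K →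
      ∀ Q : Sylow p K, (Q : Subgroup K).Normal) → ∀ P : Sylow p G, (P : Subgroup G).Normal := by
  induction m using Nat.strong_induction_on with | _ m ih => ?_
  intro G _ _ hm χ hχ hf hn hK P
  classical
  have := Fintype.ofFinite G
  by_contra hP
  have hsub : ∀ L : Subgroup G, L ≠ ⊤ → ∀ Q : Sylow p L, (Q : Subgroup L).Normal := fun L hL =>
    ih _ (hm ▸ (Finite.card_subtype_lt (p := (· ∈ L)) (not_forall.1 fun h => hL (eq_top_iff.2 fun y _ =>
      h y)).choose_spec)) L rfl _ (char_restrict hχ L) (fun g h => Subtype.ext (hf g h)) hn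
      fun K _ _ f hf' => hK K (L.subtype.comp f) (L.subtype_injective.comp hf')
  have hM : ∀ M : Subgroup G, M.Normal → ((∃ k, M.index = p ^ k) ∨ M.index.Coprime p) → M = ⊤ := fun M _ h => by
    by_contra hM
    obtain ⟨Q⟩ : Nonempty (Sylow p M) := inferInstance
    have := Sylow.characteristic_of_normal Q (hsub M hM Q)
    refine absurd (S4468.result χ hχ hf n (deg_of_eq hn) p hp.out ⟨3, ![⊥, (Q : Subgroup M).map M.subtype, M, ⊤],
      rfl, rfl, Fin.monotone_iff_le_succ.2 fun i => ?_, fun i => ?_, fun i => ?_⟩ hnp.le P hP).1 hnp.ne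
    · fin_cases i
      exacts [bot_le, map_subtype_le _, le_top]
    · fin_cases i <;> simp only [Fin.zero_eta, Fin.mk_one, Fin.reduceFinMk, Matrix.cons_val] <;> infer_instance
    · fin_cases i
      · refine Or.inl ?_
        change ∃ m, (⊥ : Subgroup G).relIndex ((Q : Subgroup M).map M.subtype) = p ^ m
        rw [relIndex_bot_left, card_subtype]
        exact IsPGroup.iff_card.1 Q.isPGroup'
      · refine Or.inr ?_
        change (((Q : Subgroup M).map M.subtype).relIndex M).Coprime p
        rw [relIndex, subgroupOf, comap_map_eq_self_of_injective M.subtype_injective]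
        exact (hp.out.coprime_iff_not_dvd.2 Q.not_dvd_index).symm
      · simpa using h
  have hM' : ∀ M : Subgroup G, M.Normal → (P : Subgroup G) ≤ M → M = ⊤ := fun M hn h => hM M hn (Or.inr
    (hp.out.coprime_iff_not_dvd.2 fun c => P.not_dvd_index (c.trans (index_dvd_of_le h))).symm)
  have hG' : commutator G = ⊤ := hM _ inferInstance (Or.inl (by
    have h1 := hM' (commutator G ⊔ P) (Normal.of_commutator_le _ le_sup_left) le_sup_right
    obtain ⟨k, hk⟩ := IsPGroup.iff_card.1 P.isPGroup'
    have h2 : (commutator G).index ∣ p ^ k := by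
      rw [← relIndex_top_right, ← h1, relIndex_sup_left, ← hk]; exact index_dvd_card _
    exact ((Nat.dvd_prime_pow hp.out).1 h2).imp fun _ h => h.2))
  have hcomm : ∀ L : Subgroup G, (∀ ψ, IsIrrCharacter L ψ → charDegree ψ ≤ n → ψ 1 = 1) →
      ∀ a ∈ L, ∀ b ∈ L, a * b = b * a := fun L h a ha b hb => by
    have := Fintype.ofFinite L
    have h1 := hf _ (ker_of_forall_constituent (char_class (char_restrict hχ L))
      (g := ⟨a, ha⟩ * ⟨b, hb⟩ * ⟨a, ha⟩⁻¹ * ⟨b, hb⟩⁻¹) fun ψ hψ h2 => (mem_charKer (irr_char hψ) _).1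
        ((degree_one_iff_commutator_le hψ).1 (h ψ hψ (degree_le_of_constituent (char_restrict hχ L) hψ h2 hn
          (ideg_eq hψ))) (commutator_mem_commutator (mem_top _) (mem_top _))))
    exact mul_inv_eq_iff_eq_mul.1 (mul_inv_eq_one.1 h1)
  have hab : ∀ Q : Sylow p G, ∀ a ∈ (Q : Subgroup G), ∀ b ∈ (Q : Subgroup G), a * b = b * a := fun Q =>
    hcomm Q fun ψ hψ h => (deg_eq_one_iff (irr_char hψ)).1 (pdeg_one Q.isPGroup' hψ fun c =>
      absurd (Nat.le_of_dvd (deg_pos hψ) c) (by omega))
  have hZ : ∀ Q : Sylow p G, (Q : Subgroup G) ⊓ center G = ⊥ := fun Q => by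
    have := H1.sylow_inf_commutator_inf_center Q
    rw [hG', inf_top_eq] at this
    exact eq_bot_iff.2 (this.trans (commutator_le.2 fun a ha b hb => mem_bot.2
      (commutatorElement_eq_one_iff_mul_comm.2 (hab Q a ha b hb))))
  have hC : ∀ g, g ∉ center G → centralizer ({g} : Set G) ≠ ⊤ := fun g hg h => hg (mem_center_iff.2 fun y =>
    mem_centralizer_singleton_iff.1 (show y ∈ centralizer ({g} : Set G) from h ▸ mem_top y))
  have hti : ∀ Q R : Sylow p G, ∀ x ∈ (Q : Subgroup G), x ∈ (R : Subgroup G) → x ≠ 1 → Q = R :=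
    fun Q R x h1 h2 h3 => by
      have h4 : ∀ Q : Sylow p G, x ∈ (Q : Subgroup G) → (Q : Subgroup G) ≤ centralizer ({x} : Set G) :=
        fun Q h y hy => mem_centralizer_singleton_iff.2 (hab Q y hy x h)
      have := Sylow.unique_of_normal _ (hsub _ (hC x fun h => h3 (mem_bot.1 (hZ Q ▸ mem_inf.2 ⟨h1, h⟩)))
        (Q.subtype (h4 Q h1)))
      exact Sylow.subtype_injective (Subsingleton.elim (Q.subtype (h4 Q h1)) (R.subtype (h4 R h2)))
  have hone : ∀ g, g ∉ center G → ∀ Q R : Sylow p G, centralizer ({g} : Set G) ⊓ Q ≠ ⊥ →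
      centralizer ({g} : Set G) ⊓ R ≠ ⊥ → Q = R := fun g hg Q R h1 h2 => by
    obtain ⟨S⟩ : Nonempty (Sylow p (centralizer ({g} : Set G))) := inferInstance
    have := Sylow.unique_of_normal S (hsub _ (hC g hg) S)
    obtain ⟨T, hT⟩ := (S.isPGroup'.map (centralizer ({g} : Set G)).subtype).exists_le_sylow
    have key : ∀ Q : Sylow p G, centralizer ({g} : Set G) ⊓ Q ≠ ⊥ → Q = T := fun Q h => by
      obtain ⟨x, hx, h3⟩ := ((centralizer ({g} : Set G) ⊓ Q).bot_or_exists_ne_one).resolve_left h
      obtain ⟨S', hS'⟩ := (Q.isPGroup'.comap_of_injective (centralizer ({g} : Set G)).subtype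
        (subtype_injective _)).exists_le_sylow
      obtain rfl : S' = S := Subsingleton.elim _ _
      exact hti Q T x hx.2 (hT ⟨⟨x, hx.1⟩, hS' hx.2, rfl⟩) h3
    rw [key Q h1, key R h2]
  obtain ⟨ψ, hψ, h1, h2⟩ : ∃ ψ, IsIrrCharacter G ψ ∧ charDegree ψ ≤ n ∧ ψ 1 ≠ 1 := by
    by_contra! h
    refine hP ⟨fun y hy g => ?_⟩
    rw [hcomm ⊤ (fun ψ hψ h1 => by
      simpa using h _ (irr_comp_equiv hψ topEquiv.symm) (by simpa [charDegree] using h1)) g trivial y trivial,
      mul_inv_cancel_right]
    exact hy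
  have := Fintype.ofFinite (P : Subgroup G)
  have h3 := (S0898.result (P : Subgroup G) (hab P) (hZ P) (fun g hg a b h3 h4 =>
    congrArg (fun Q : Sylow p G => (Q : Subgroup G)) (hone g hg (a • P) (b • P) h3 h4)) ψ hψ (by
      by_contra! k
      exact charKer_ne_top hψ (by rintro rfl; exact h2 rfl) (hM' _ (charKer_normal (irr_class hψ)) fun t ht =>
        (mem_charKer (irr_char hψ) t).2 (k t ht)))).2 h2 hM'
  have h4 : p ^ 2 ≤ Nat.card (P : Subgroup G) := Nat.le_of_dvd Nat.card_pos (by
    by_contra h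
    refine hP (hK G (MonoidHom.id G) Function.injective_id (fun c => h ?_) P)
    rw [P.card_eq_multiplicity]
    exact pow_dvd_pow _ ((hp.out.pow_dvd_iff_le_factorization Nat.card_pos.ne').1 c))
  rw [ideg_eq hψ, Complex.natCast_re] at h3
  have h5 : Nat.card (P : Subgroup G) < (1 + charDegree ψ) ^ 2 := by exact_mod_cast h3
  nlinarith

/-- Let G be a finite group with a faithful complex representation of degree n (on Fin n → ℂ) and p a prime. Suppose either that (n + 1) ^ 2 ≤ p, or that n + 1 < p and every subgroup of G whose order is not divisible by p ^ 2 has a normal Sylow p-subgroup. Then every Sylow p-subgroup of G is normal. -/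
theorem result {G : Type*} [Group G] [Finite G] (n : ℕ) (ρ : Representation ℂ G (Fin n → ℂ)) (hρ : Function.Injective ρ) (p : ℕ) [Fact p.Prime] (h : (n + 1) ^ 2 ≤ p ∨ (n + 1 < p ∧ ∀ K : Subgroup G, ¬ p ^ 2 ∣ Nat.card K → ∀ Q : Sylow p K, (Q : Subgroup K).Normal)) (P : Sylow p G) : (P : Subgroup G).Normal := by
  have hn : ρ.character 1 = n := by simp
  have hχ : IsCharacter G ρ.character := ⟨n, ρ, rfl⟩
  have hf : ∀ g, ρ.character g = ρ.character 1 → g = 1 := fun g hg =>
    mem_bot.1 ((charKer_eq_bot_iff ρ).2 hρ ▸ (mem_charKer hχ g).2 hg)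
  rcases Nat.eq_zero_or_pos n with rfl | n0
  · exact ⟨fun y hy g => by
      rw [hf g (by rw [char_eq_zero_of_degree_zero hχ (by simpa using hn)]; rfl)]; simpa using hy⟩
  refine aux p n (by rcases h with h | h; exacts [by nlinarith, h.1]) _ G rfl _ hχ hf hn (fun K _ _ f hf' hK Q => ?_) P
  rcases h with h | ⟨-, h⟩
  · by_cases hd : p ∣ Nat.card K
    · by_contra hQ
      have := S4503.result p Fact.out hd hK (fun H hH hc => hQ (by
        obtain ⟨R, hR⟩ := (IsPGroup.of_card (hc.trans (pow_one p).symm)).exists_le_sylow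
        have h1 : (R : Subgroup K) = H := by
          refine (eq_of_le_of_card_ge hR ?_).symm
          rw [hc, R.card_eq_multiplicity]
          refine (Nat.pow_le_pow_right (Fact.out : p.Prime).pos (j := 1) ?_).trans (pow_one p).le
          by_contra c
          exact hK (((Fact.out : p.Prime).pow_dvd_iff_le_factorization Nat.card_pos.ne').2 (by omega))
        have := Sylow.unique_of_normal R (h1 ▸ hH)
        rw [Subsingleton.elim Q R, h1]; exact hH)) _ (char_comp hχ f) fun g hg =>
          hf' (by rw [hf (f g) (by simpa using hg), map_one])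
      rw [deg_comp, deg_of_eq hn] at this
      nlinarith
    · rw [(Q.isPGroup'.card_eq_or_dvd).resolve_right (fun c => hd (c.trans (card_subgroup_dvd_card _))) |> card_eq_one.1]
      infer_instance
  · have e := f.rangeRestrict_surjective
    have := (h f.range (by rwa [← Nat.card_congr (MonoidHom.ofInjective hf').toEquiv]) (Q.mapSurjective e)).comap
      f.rangeRestrict
    rwa [Sylow.coe_mapSurjective, comap_map_eq_self_of_injective (by simpa using hf')] at this

end Cfsg.Agent.S0899
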