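import Cfsg.Statements.S0900
import Cfsg.Agent.H3.Ext2

set_option autoImplicit false
open Cfsg

namespace Cfsg.Agent.S0900

/-- Let N be a normal subgroup of the finite group G, χ an irreducible character of G and ϑ an irreducible character of N having nonzero inner product with the restriction of χ. Consider: (a) the restriction of χ to N is e • ϑ for a natural number e with e ^ 2 equal to the index of N; (b) χ vanishes outside N and ϑ is invariant under conjugation by G; (c) ϑ is invariant and every irreducible character of G having nonzero inner product with the function induced from ϑ equals χ. Then (a) ↔ (b) and (a) ↔ (c). -/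
theorem result {G : Type*} [Group G] [Fintype G] (N : Subgroup G) [hN : N.Normal] [Fintype N] (χ : G → ℂ) (hχ : Cfsg.IsIrrCharacter G χ) (ϑ : N → ℂ) (hϑ : Cfsg.IsIrrCharacter N ϑ) (hcon : Cfsg.classInner (fun n : N => χ n) ϑ ≠ 0) : ((∃ e : ℕ, (fun n : N => χ n) = (e : ℂ) • ϑ ∧ e ^ 2 = N.index) ↔ ((∀ g : G, g ∉ N → χ g = 0) ∧ ∀ (g : G) (n : N), ϑ ⟨g * n * g⁻¹, hN.conj_mem (n : G) n.2 g⟩ = ϑ n)) ∧ ((∃ e : ℕ, (fun n : N => χ n) = (e : ℂ) • ϑ ∧ e ^ 2 = N.index) ↔ (∀ (g : G) (n : N), ϑ ⟨g * n * g⁻¹, hN.conj_mem (n : G) n.2 g⟩ = ϑ n ∧ ∀ ψ : G → ℂ, Cfsg.IsIrrCharacter G ψ → Cfsg.classInner (Cfsg.indFun N ϑ) ψ ≠ 0 → ψ = χ)) := by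
  have h0 : ∀ e : ℕ, (fun n : N => χ n) = (e : ℂ) • ϑ → (e : ℂ) ≠ 0 := fun e h1 h =>
    H3.irr_one_ne_zero hχ (by simpa [h] using congrFun h1 1)
  have h1 : ∀ e : ℕ, (fun n : N => χ n) = (e : ℂ) • ϑ → ∀ g, H3.cj N ϑ g = ϑ := fun e h =>
    H3.invariant_of_restrict N (H3.irr_class hχ) (h0 e h) (congrFun h)
  refine ⟨⟨fun ⟨e, a, b⟩ => ⟨H3.vanish_of_sq_eq_index N hχ hϑ (congrFun a) b,
    fun g => congrFun (h1 e a g)⟩, fun ⟨a, b⟩ => ?_⟩,
    ⟨fun ⟨e, a, b⟩ g n => ⟨congrFun (h1 e a g) n, fun ψ hψ h => ?_⟩, fun h => ?_⟩⟩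
  · obtain ⟨e, -, -, he⟩ := H3.clifford_invariant_nat N hχ hϑ (fun g => funext (b g)) hcon
    exact ⟨e, funext he, H3.sq_eq_index_of_vanish N hχ hϑ he a⟩
  · refine H3.irr_eq_of_inner_ne_zero hψ hχ fun h2 => ?_
    have h3 := H3.inner_of_vanish N ψ χ fun g hg =>
      Or.inr (H3.vanish_of_sq_eq_index N hχ hϑ (congrFun a) b g hg)
    rw [h2, mul_zero, a, H3.inner_smul_right, map_natCast, eq_comm, mul_eq_zero,
      H3.inner_eq_zero_symm, ← H3.inner_indFun_left N _ (H3.irr_class hψ)] at h3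
    exact h3.elim (h0 e a) h
  · have hinv : ∀ g, H3.cj N ϑ g = ϑ := fun g => funext fun n => (h g n).1
    obtain ⟨e, -, h2, he⟩ := H3.clifford_invariant_nat N hχ hϑ hinv hcon
    refine ⟨e, funext he, ?_⟩
    have h3 : Cfsg.indFun N ϑ = (e : ℂ) • χ := by
      refine H3.class_ext (H3.class_indFun N ϑ) (H3.class_smul _ (H3.irr_class hχ)) fun ψ hψ => ?_
      by_cases h4 : ψ = χ
      · rw [h4, H3.inner_smul_left, H3.irr_inner_self hχ, mul_one,
          H3.inner_indFun_left N _ (H3.irr_class hχ), H3.inner_char_symm (H3.irr_char hϑ)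
            (H3.char_restrict (H3.irr_char hχ) N), h2]
      · rw [H3.inner_smul_left, H3.irr_inner_ne hχ hψ (Ne.symm h4), mul_zero]
        by_contra h5
        exact h4 ((h 1 1).2 ψ hψ h5)
    have h4 := H3.inner_indFun_invariant N hϑ hinv
    rw [h3, H3.inner_smul_left, H3.inner_smul_right, H3.irr_inner_self hχ, map_natCast] at h4
    exact_mod_cast (by rw [← h4]; ring : (e : ℂ) ^ 2 = N.index)

end Cfsg.Agent.S0900
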