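import Cfsg.Statements.S0901
import Mathlib


set_option autoImplicit false
open Cfsg

namespace Cfsg.Agent.S0901

open scoped Pointwise


/-- Let M be a maximal ideal of the ring of algebraic integers containing the prime p, and let U be the set of complex roots of unity of order prime to p. Then reduction modulo M is injective on U, and every algebraic integer not in M is congruent modulo M to an element of U (so U maps bijectively onto the nonzero residues). -/
theorem result (p : ℕ) [Fact p.Prime] (M : Ideal Cfsg.AlgInt) (hM : Cfsg.IsPModular p M) : (∀ ε₁ ε₂ : Cfsg.AlgInt, (∃ m : ℕ, ¬ p ∣ m ∧ (ε₁ : ℂ) ^ m = 1) → (∃ m : ℕ, ¬ p ∣ m ∧ (ε₂ : ℂ) ^ m = 1) → ε₁ - ε₂ ∈ M → ε₁ = ε₂) ∧ (∀ a : Cfsg.AlgInt, a ∉ M → ∃ ε : Cfsg.AlgInt, (∃ m : ℕ, ¬ p ∣ m ∧ (ε : ℂ) ^ m = 1) ∧ a - ε ∈ M) := by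
  haveI := hM.2.1
  have hp : p.Prime := Fact.out
  letI := Ideal.Quotient.field M
  let π := Ideal.Quotient.mk M
  have hp0 : ((p : ℕ) : Cfsg.AlgInt ⧸ M) = 0 := by
    have := Ideal.Quotient.eq_zero_iff_mem.2 hM.2.2
    rwa [map_natCast] at this
  haveI : CharP (Cfsg.AlgInt ⧸ M) p := (CharP.charP_iff_prime_eq_zero hp).2 hp0
  constructor
  · rintro a b ⟨m, hm, ha⟩ ⟨n, hn, hb⟩ h
    by_contra hne
    have ha' : a ^ (m * n) = 1 := Subtype.ext (by push_cast; rw [pow_mul, ha, one_pow])
    have hb' : b ^ (m * n) = 1 := Subtype.ext (by push_cast; rw [mul_comm, pow_mul, hb, one_pow])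
    have h1 := (Commute.all a b).geom_sum₂_mul (m * n)
    rw [ha', hb', sub_self, mul_eq_zero] at h1
    have h2 := congrArg π (h1.resolve_right (sub_ne_zero.2 hne))
    have e : π a = π b := Ideal.Quotient.eq.2 h
    simp only [map_sum, map_mul, map_pow, e, map_zero] at h2
    rw [geom_sum₂_self, mul_eq_zero] at h2
    rcases h2 with h2 | h2
    · rw [CharP.cast_eq_zero_iff _ p, hp.dvd_mul] at h2
      exact h2.elim hm hn
    · have h3 := congrArg π hb'
      have h4 : π b = 0 := pow_eq_zero_iff'.1 h2 |>.1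
      have h0 : m * n ≠ 0 := mul_ne_zero (fun h => hm (h ▸ dvd_zero _)) (fun h => hn (h ▸ dvd_zero _))
      rw [map_pow, h4, zero_pow h0, map_one] at h3
      exact zero_ne_one h3
  · intro a ha
    letI : Algebra (ZMod p) (Cfsg.AlgInt ⧸ M) := ZMod.algebra _ p
    have i1 : IsIntegral ℤ (π a) := (integralClosure.isIntegral a).map π.toIntAlgHom
    have i2 : IsIntegral (ZMod p) (π a) := i1.tower_top
    let L := IntermediateField.adjoin (ZMod p) {π a}
    haveI : FiniteDimensional (ZMod p) L := IntermediateField.adjoin.finiteDimensional i2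
    haveI : Finite L := Module.finite_of_finite (ZMod p)
    letI := Fintype.ofFinite L
    let x : L := ⟨π a, IntermediateField.mem_adjoin_simple_self _ _⟩
    have x0 : x ≠ 0 := fun h => ha (Ideal.Quotient.eq_zero_iff_mem.1 (congrArg Subtype.val h))
    have h1 := congrArg Subtype.val (FiniteField.pow_card_sub_one_eq_one x x0)
    obtain ⟨n, -, hn⟩ := FiniteField.card L p
    set m := Fintype.card L - 1 with hm
    have hpm : ¬ p ∣ m := fun h => by
      have h2 : p ∣ Fintype.card L := hn ▸ dvd_pow_self p n.ne_zero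
      have h3 : p ∣ Fintype.card L - m := Nat.dvd_sub h2 h
      have : 0 < Fintype.card L := Fintype.card_pos
      rw [show Fintype.card L - m = 1 by omega] at h3
      exact hp.one_lt.ne' (Nat.dvd_one.1 h3)
    have m0 : m ≠ 0 := fun h => hpm (h ▸ dvd_zero _)
    have hζ := Complex.isPrimitiveRoot_exp m m0
    let ζ : Cfsg.AlgInt := ⟨_, hζ.isIntegral (Nat.pos_of_ne_zero m0)⟩
    have hζ' : IsPrimitiveRoot ζ m := IsPrimitiveRoot.of_map_of_injective (f := Cfsg.AlgInt.val) hζ Subtype.val_injective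
    have h2 := congrArg (Polynomial.eval a) (X_pow_sub_C_eq_prod hζ' (Nat.pos_of_ne_zero m0) (one_pow m))
    simp only [Polynomial.eval_sub, Polynomial.eval_pow, Polynomial.eval_X, Polynomial.eval_C, Polynomial.eval_prod, mul_one] at h2
    have h3 := congrArg π h2
    rw [map_sub, map_pow, map_one, show π a ^ m = 1 from h1, sub_self, map_prod, eq_comm, Finset.prod_eq_zero_iff] at h3
    obtain ⟨i, -, hi⟩ := h3
    refine ⟨ζ ^ i, ⟨m, hpm, ?_⟩, Ideal.Quotient.eq_zero_iff_mem.1 hi⟩
    push_cast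
    rw [← pow_mul, mul_comm, pow_mul, show (ζ : ℂ) ^ m = 1 from hζ.pow_eq_one, one_pow]

end Cfsg.Agent.S0901
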