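import Cfsg.Statements.S0903
import Cfsg.Agent.H9.Syl

set_option autoImplicit false
open Cfsg

namespace Cfsg.Agent.S0903

open Subgroup

/-- Let P be a p-subgroup of the finite group G, let c centralize P and let g, h ∈ G. The number of pairs (x, y) with x conjugate to g, y conjugate to h and x * y = c is congruent modulo p to the number of such pairs in which x and y both centralize P. (This is why the Brauer map on class sums is multiplicative.) -/
theorem result {G : Type*} [Group G] [Finite G] (p : ℕ) [Fact p.Prime] (P : Subgroup G) (hP : IsPGroup p P) (c : G) (hc : c ∈ Subgroup.centralizer (P : Set G)) (g h : G) : Nat.card {xy : G × G // IsConj g xy.1 ∧ IsConj h xy.2 ∧ xy.1 * xy.2 = c} ≡ Nat.card {xy : G × G // IsConj g xy.1 ∧ IsConj h xy.2 ∧ xy.1 * xy.2 = c ∧ xy.1 ∈ Subgroup.centralizer (P : Set G) ∧ xy.2 ∈ Subgroup.centralizer (P : Set G)} [MOD p] := by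
  let X := {xy : G × G // IsConj g xy.1 ∧ IsConj h xy.2 ∧ xy.1 * xy.2 = c}
  letI : MulAction P X :=
    { smul := fun u x => ⟨(u * x.1.1 * (u : G)⁻¹, u * x.1.2 * (u : G)⁻¹), x.2.1.trans (isConj_iff.2 ⟨u, rfl⟩),
        x.2.2.1.trans (isConj_iff.2 ⟨u, rfl⟩), by
          have := hc u u.2
          show (u : G) * x.1.1 * (u : G)⁻¹ * (u * x.1.2 * (u : G)⁻¹) = c
          rw [show (u : G) * x.1.1 * (u : G)⁻¹ * (u * x.1.2 * (u : G)⁻¹) = u * (x.1.1 * x.1.2) * (u : G)⁻¹ by group,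
            x.2.2.2, this, mul_inv_cancel_right]⟩
      one_smul := fun x => Subtype.ext (Prod.ext (by show (1 : G) * _ * 1⁻¹ = _; simp) (by show (1 : G) * _ * 1⁻¹ = _; simp))
      mul_smul := fun a b x => Subtype.ext (Prod.ext
        (by show (a : G) * b * x.1.1 * ((a : G) * b)⁻¹ = a * (b * x.1.1 * (b : G)⁻¹) * (a : G)⁻¹; group)
        (by show (a : G) * b * x.1.2 * ((a : G) * b)⁻¹ = a * (b * x.1.2 * (b : G)⁻¹) * (a : G)⁻¹; group)) }
  have h1 := hP.card_modEq_card_fixedPoints X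
  refine h1.trans (congrArg (· % p) (Nat.card_congr ⟨fun x => ⟨x.1.1, x.1.2.1, x.1.2.2.1, x.1.2.2.2,
    fun u hu => mul_inv_eq_iff_eq_mul.1 (congrArg (fun y : X => y.1.1) (x.2 ⟨u, hu⟩)),
    fun u hu => mul_inv_eq_iff_eq_mul.1 (congrArg (fun y : X => y.1.2) (x.2 ⟨u, hu⟩))⟩,
    fun y => ⟨⟨y.1, y.2.1, y.2.2.1, y.2.2.2.1⟩, fun u => Subtype.ext (Prod.ext
      (mul_inv_eq_iff_eq_mul.2 (y.2.2.2.2.1 u u.2)) (mul_inv_eq_iff_eq_mul.2 (y.2.2.2.2.2 u u.2)))⟩,
    fun _ => rfl, fun _ => rfl⟩))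

end Cfsg.Agent.S0903
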