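import Cfsg.Statements.S0904
import Cfsg.Agent.H3.BT

set_option autoImplicit false
open Cfsg

namespace Cfsg.Agent.S0904

/-- Let G be a finite simple group of order p ^ a * q ^ b * r with p, q, r distinct primes. Then every Sylow r-subgroup S of G satisfies C_G(S) = S. -/
theorem result {G : Type*} [Group G] [Finite G] [IsSimpleGroup G] (p q r a b : ℕ) (hp : p.Prime) (hq : q.Prime) [Fact r.Prime] (hpq : p ≠ q) (hpr : p ≠ r) (hqr : q ≠ r) (hcard : Nat.card G = p ^ a * q ^ b * r) (S : Sylow r G) : Subgroup.centralizer (S : Set G) = (S : Subgroup G) := by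
  exact H3.cen_eq_of_card hp hq hpr hqr hcard (by
    have hr : r.Prime := Fact.out
    rw [S.card_eq_multiplicity, hcard, Nat.factorization_mul (mul_pos (pow_pos hp.pos a) (pow_pos hq.pos b)).ne' hr.ne_zero,
      Nat.factorization_mul (pow_pos hp.pos a).ne' (pow_pos hq.pos b).ne']
    simp [hp.factorization_pow, hq.factorization_pow, hr.factorization, Finsupp.single_apply, hpr, hqr])

end Cfsg.Agent.S0904
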