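import Cfsg.Statements.S0905
import Cfsg.Agent.H4.Defect

set_option autoImplicit false
open Cfsg

namespace Cfsg.Agent.S0905

open H4 H1 MonoidAlgebra
open scoped Pointwise


/-- Let F be a field of characteristic p and let g be an element of the finite group G no conjugate of which centralizes O_p(G). Then the class sum of g is a nilpotent element of the group algebra F[G]. -/
theorem result {G : Type*} [Group G] [Finite G] (p : ℕ) [Fact p.Prime] (F : Type*) [Field F] [CharP F p] (g : G) (hg : ∀ x : G, IsConj g x → x ∉ Subgroup.centralizer (Cfsg.pCore p G : Set G)) : IsNilpotent (∑ᶠ x ∈ ConjClasses.carrier (ConjClasses.mk g), MonoidAlgebra.single x (1 : F) : MonoidAlgebra F G) := by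
  have e : (∑ᶠ x ∈ ConjClasses.carrier (ConjClasses.mk g), MonoidAlgebra.single x (1 : F) : MonoidAlgebra F G) = cls F g := by
    classical
    refine ext_coeff fun y => ?_
    rw [finsum_mem_eq_fs, coeff_sum', coeff_cls]
    simp only [coeff_single', Finset.sum_ite_eq', mem_fs, ConjClasses.mem_carrier_iff_mk_eq,
      ConjClasses.mk_eq_mk_iff_isConj]
    exact if_congr isConj_comm rfl rfl
  rw [e]
  refine isNilpotent_of_Br_eq_zero (pCore_isPGroup (p := p)) (Z_le_Fix _ (cls_mem_Z g))
    (trunc_eq_zero_iff.2 fun x hx => ?_)
  by_contra h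
  exact hg x (isConj_of_coeff_cls h) hx

end Cfsg.Agent.S0905
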