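import Cfsg.Statements.S0910
import Cfsg.Agent.H4.Prin

set_option autoImplicit false
open Cfsg

namespace Cfsg.Agent.S0910

open H4 H1 MonoidAlgebra
open scoped Pointwise


/-- Let G be a non-abelian finite simple group and p a prime. If an irreducible character χ lies in the principal block (relative to a maximal ideal of the algebraic integers containing p) and χ 1 is a power of p, then χ is the principal character. -/
theorem result {G : Type*} [Group G] [Finite G] (p : ℕ) [Fact p.Prime] (M : Ideal Cfsg.AlgInt) (hM : Cfsg.IsPModular p M) [IsSimpleGroup G] (hna : ∃ a b : G, a * b ≠ b * a) (χ : Cfsg.IrrCharacter G) (hχ : χ ∈ Cfsg.principalBlock M G) (k : ℕ) (hdeg : (χ : G → ℂ) 1 = (p : ℂ) ^ k) : (χ : G → ℂ) = fun _ => 1 := by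
  by_contra h
  have h1 : H3.charKer χ.1 = ⊥ :=
    ((H3.charKer_normal (H3.irr_class χ.2)).eq_bot_or_eq_top).resolve_right (H3.charKer_ne_top χ.2 h)
  have h2 : Subgroup.center G = ⊥ := ((inferInstance : (Subgroup.center G).Normal).eq_bot_or_eq_top).resolve_right fun e => by
    obtain ⟨a, b, hab⟩ := hna
    exact hab (Subgroup.mem_center_iff.1 (e ▸ Subgroup.mem_top b) a)
  have hp : p.Prime := Fact.out
  obtain ⟨P⟩ : Nonempty (Sylow p G) := inferInstance
  by_cases h3 : (P : Subgroup G) = ⊥
  · rw [(isSylowIn_top P).eq_bot_iff, Subgroup.card_top] at h3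
    rw [block_eq_of_mem hM isPBlock_principal (isPBlock_singleton hM h3 (triv G)) (triv_mem_principal hM) rfl] at hχ
    exact h (by rw [Set.mem_singleton_iff.1 hχ]; rfl)
  obtain ⟨z, h4, h5, h6⟩ := exists_center_elt P.isPGroup' h3
  have h7 : ¬ p ∣ (C1 z).index := by
    rw [← Subgroup.relIndex_top_right]
    exact (isSylowIn_top P).not_dvd_relIndex_of_le (le_centralizer_singleton.2 h5)
  obtain h8 | h8 := H3.burnside_zero_or_center χ.2 (d := p ^ k) (by rw [hdeg]; simp) z
    ((hp.coprime_iff_not_dvd.2 h7).pow_left k)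
  · refine irr_ne_zero_of_lamB_cls hM isPBlock_principal hχ ?_ h8
    rw [lamB_cls hM isPBlock_principal (triv_mem_principal hM), ← om_cls (H3.irr_class (triv G).2), om_apply,
      ev_cls (H3.irr_class (triv G).2)]
    simpa using red_natCast_ne_zero hM h7
  · have : z ∈ H3.charCenter χ.1 := (H3.mem_charCenter (H3.irr_char χ.2) z).2 (by rw [h8, hdeg]; simp)
    rw [H3.charCenter_eq_center χ.2 h1, h2, Subgroup.mem_bot] at this
    exact hp.ne_one (by rw [← h6, this, orderOf_one])

end Cfsg.Agent.S0910
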