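import Cfsg.Statements.S0911
import Cfsg.Agent.H4.Defect

set_option autoImplicit false
open Cfsg

namespace Cfsg.Agent.S0911

open H4 H1 MonoidAlgebra
open scoped Pointwise


/-- The min–max Theorem for defect classes. Let B be a block of the finite group G relative to a maximal ideal M of the algebraic integers containing the prime p, let g represent a defect class of B and let D be a Sylow p-subgroup of the centralizer of g (viewed in G). For any h: (a) if the idempotent coefficient of B at h is a local integer outside the local ideal, then some conjugate of D contains a Sylow p-subgroup of the centralizer of h; (b) if the central character of some member of B at h is outside the local ideal, then some conjugate of D is contained in a Sylow p-subgroup of the centralizer of h. -/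
theorem result {G : Type*} [Group G] [Finite G] (p : ℕ) [Fact p.Prime] (M : Ideal Cfsg.AlgInt) (hM : Cfsg.IsPModular p M) (B : Set (Cfsg.IrrCharacter G)) (hB : Cfsg.IsPBlock M B) (g : G) (hg : Cfsg.IsDefectClass M B g) (D : Sylow p (Subgroup.centralizer ({g} : Set G))) (h : G) : (Cfsg.MemLocalRing M (Cfsg.blockCoeff B h) → ¬ Cfsg.MemLocalIdeal M (Cfsg.blockCoeff B h) → ∃ (x : G) (Q : Sylow p (Subgroup.centralizer ({h} : Set G))), (Q : Subgroup (Subgroup.centralizer ({h} : Set G))).map (Subgroup.centralizer ({h} : Set G)).subtype ≤ ((D : Subgroup (Subgroup.centralizer ({g} : Set G))).map (Subgroup.centralizer ({g} : Set G)).subtype).map (MulAut.conj x).toMonoidHom) ∧ ((∃ χ ∈ B, ¬ Cfsg.MemLocalIdeal M (Cfsg.centralChar (χ : G → ℂ) h)) → ∃ (x : G) (Q : Sylow p (Subgroup.centralizer ({h} : Set G))), ((D : Subgroup (Subgroup.centralizer ({g} : Set G))).map (Subgroup.centralizer ({g} : Set G)).subtype).map (MulAut.conj x).toMonoidHom ≤ (Q : Subgroup (Subgroup.centralizer ({h} : Set G))).map (Subgroup.centralizer ({h} :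 Set G)).subtype) := by
  obtain ⟨h1, h2⟩ := (isDefectClass_iff hM hB).1 hg
  have hD := isSylowIn_map_subtype D
  obtain ⟨Q, hQ⟩ := exists_isSylowIn p (C1 h)
  obtain ⟨Q', hQ'⟩ := hQ.exists_sylow
  refine ⟨fun h3 h4 => ?_, fun ⟨χ, hχ, h3⟩ => ?_⟩
  · obtain ⟨x, hx⟩ := exists_conj_le_of_lamB_cls hM hB h2 hQ.2
      (Br_ne_zero_of_coeff ((eB_ne_zero_iff hM).2 ⟨h3, h4⟩) hQ.1) hD
    exact ⟨x⁻¹, Q', by rw [hQ']; exact conj_smul_le_iff_le.1 hx⟩
  · obtain ⟨x, hx⟩ := exists_conj_le_of_lamB_cls hM hB ((lamB_cls_ne_zero_iff hM hB hχ).2 h3) hD.2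
      (Br_ne_zero_of_coeff h1 hD.1) hQ
    exact ⟨x, Q', by rw [hQ']; exact hx⟩

end Cfsg.Agent.S0911
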