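import Cfsg.Statements.S0916
import Cfsg.Agent.H9.Syl

set_option autoImplicit false
open Cfsg

namespace Cfsg.Agent.S0916

open H9 Subgroup

/-- Let P be a p-subgroup of the finite group G, C its centralizer and N its normalizer. Say that a conjugacy class (of G, or of N) has defect group P when P is a Sylow p-subgroup of the centralizer (in G, respectively in N) of some element of the class. Then: (i) if the class of g in G has defect group P, the elements of that class lying in C form a single N-class, again with defect group P; (ii) every N-class with defect group P arises this way from exactly one G-class with defect group P. -/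
theorem result {G : Type*} [Group G] [Finite G] (p : ℕ) [Fact p.Prime] (P : Subgroup G) (hP : IsPGroup p P) : (∀ g : G, (∃ S : Sylow p (Subgroup.centralizer ({g} : Set G)), (S : Subgroup (Subgroup.centralizer ({g} : Set G))).map (Subgroup.centralizer ({g} : Set G)).subtype = P) → (∃ c : G, IsConj g c ∧ c ∈ Subgroup.centralizer (P : Set G)) ∧ (∀ c₁ c₂ : G, IsConj g c₁ → IsConj g c₂ → c₁ ∈ Subgroup.centralizer (P : Set G) → c₂ ∈ Subgroup.centralizer (P : Set G) → ∃ n ∈ Subgroup.normalizer (P : Set G), n * c₁ * n⁻¹ = c₂)) ∧ (∀ c : G, c ∈ Subgroup.centralizer (P : Set G) → (∃ S : Sylow p (Subgroup.centralizer ({c} : Set G) ⊓ Subgroup.normalizer (P : Set G) : Subgroup G), (S : Subgroup ↥(Subgroup.centralizer ({c} : Set G) ⊓ Subgroup.normalizer (P : Set G))).map (Subgroup.centralizer ({c} : Set G) ⊓ Subgroup.normalizer (P : Set G)).subtype = P) → ∃ S : Sylow p (Subgroup.centralizer ({c} : Set G)), (S : Subgroup (Subgroup.centralizer ({c} : Set G))).map (Subgroup.centralizer ({c} : Set G)).subtype = P) := by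
  refine ⟨fun g ⟨S, hS⟩ => ?_, fun c _ ⟨S, hS⟩ => ?_⟩
  swap
  · have := syl_of_sylow S
    rw [hS] at this
    exact (Syl.of_normalizer this).exists_sylow
  have h1 : Syl p P (centralizer {g}) := hS ▸ syl_of_sylow S
  have key : ∀ c, IsConj g c → c ∈ centralizer (P : Set G) → Syl p P (centralizer {c}) := fun c h2 h3 => by
    obtain ⟨x, rfl⟩ := isConj_iff.1 h2
    have h4 := h1.cj x
    rw [cj_centralizer_singleton] at h4
    exact syl_of_card_le hP (fun u hu y hy => by rw [hy]; exact (h3 u hu).symm) h4 (card_cj x P).le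
  refine ⟨⟨g, IsConj.refl g, fun u hu => (h1.le hu g rfl).symm⟩, fun c₁ c₂ h2 h3 h4 h5 => ?_⟩
  obtain ⟨x, hx⟩ := isConj_iff.1 (h2.symm.trans h3)
  have h6 := (key c₁ h2 h4).cj x
  rw [cj_centralizer_singleton, hx] at h6
  obtain ⟨y, hy, e⟩ := h6.conj (key c₂ h3 h5)
  refine ⟨y * x, mem_normalizer_iff_cj.2 (by rw [cj_mul, e]), ?_⟩
  rw [show y * x * c₁ * (y * x)⁻¹ = y * (x * c₁ * x⁻¹) * y⁻¹ by group, hx, ← hy c₂ rfl, mul_inv_cancel_right]

end Cfsg.Agent.S0916
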