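import Cfsg.Statements.S0918
import Cfsg.Agent.H4.Defect

set_option autoImplicit false
open Cfsg

namespace Cfsg.Agent.S0918

open H4 H1 MonoidAlgebra
open scoped Pointwise


/-- Let P be a p-subgroup of the finite group G and H a subgroup with P·C_G(P) ≤ H ≤ N_G(P); let b be a block of H and B a block of G relative to a maximal ideal M of the algebraic integers containing p. Then b induces B if and only if, for every g ∈ G, every ξ ∈ b and every χ ∈ B, the central character of χ at g is congruent modulo the local ideal at M to the sum of ξ h / ξ 1 over the elements h of H conjugate in G to g and centralizing P. -/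
theorem result {G : Type*} [Group G] [Finite G] (p : ℕ) [Fact p.Prime] (M : Ideal Cfsg.AlgInt) (hM : Cfsg.IsPModular p M) (P H : Subgroup G) (hP : IsPGroup p P) (hPH : P ≤ H) (hCH : Subgroup.centralizer (P : Set G) ≤ H) (hHN : H ≤ Subgroup.normalizer (P : Set G)) (b : Set (Cfsg.IrrCharacter H)) (hb : Cfsg.IsPBlock M b) (B : Set (Cfsg.IrrCharacter G)) (hB : Cfsg.IsPBlock M B) : Cfsg.IsInducedBlock M H b B ↔ ∀ ξ ∈ b, ∀ χ ∈ B, ∀ g : G, Cfsg.MemLocalIdeal M (Cfsg.brauerCentralChar P H (ξ : H → ℂ) g - Cfsg.centralChar (χ : G → ℂ) g) := by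
  have key : ∀ ξ ∈ b, ∀ χ ∈ B, ∀ g : G, MemLocalIdeal M (brauerCentralChar P H (ξ : H → ℂ) g -
      centralChar (χ : G → ℂ) g) ↔ MemLocalIdeal M (inducedCentralChar H (ξ : H → ℂ) g -
      centralChar (χ : G → ℂ) g) := fun ξ hξ χ hχ g => by
    rw [memLocalIdeal_ind_iff hM hb hB hξ hχ, brauerCentralChar_eq, memLocalIdeal_om_sub_iff hM hb hB
      hξ hχ (resA_Br_mem_Z hHN (Z_le_Fix H (cls_mem_Z g)))
      (resA_mem_IntA H (trunc_mem_IntA _ (cls_mem_IntA g)))
      (fun h => by rw [coeff_resA]; exact coeff_trunc_mem_Alg _ (coeff_cls_mem_Alg _) _),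
      redA_resA, redA_trunc, redA_cls, lamB_resA_Br hM hP hPH hHN hb (Z_le_Fix H (cls_mem_Z g))]
  exact ⟨fun h ξ hξ χ hχ g => (key ξ hξ χ hχ g).2 (h.2.2 ξ hξ χ hχ g),
    fun h => ⟨hb, hB, fun ξ hξ χ hχ g => (key ξ hξ χ hχ g).1 (h ξ hξ χ hχ g)⟩⟩

end Cfsg.Agent.S0918
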