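import Cfsg.Statements.S0921
import Cfsg.Agent.H4.Cover
import Cfsg.Agent.H1.Cores

set_option autoImplicit false
open Cfsg

namespace Cfsg.Agent.S0921

open H4 H1 MonoidAlgebra
open scoped Pointwise


/-- Let N = O_p'(G) be the largest normal subgroup of the finite group G of order prime to p, and fix a maximal ideal M of the algebraic integers containing p. If two irreducible characters χ, ψ of G lie in the same block relative to M, then an irreducible character of N occurs in the restriction of χ exactly when it occurs in the restriction of ψ. -/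
theorem result {G : Type*} [Group G] [Finite G] (p : ℕ) [Fact p.Prime] (M : Ideal Cfsg.AlgInt) (hM : Cfsg.IsPModular p M) [Fintype G] (χ ψ : Cfsg.IrrCharacter G) (h : Cfsg.SameBlock M (χ : G → ℂ) (ψ : G → ℂ)) (θ : Cfsg.IrrCharacter (Cfsg.pPrimeCore p G)) [Fintype (Cfsg.pPrimeCore p G)] : Cfsg.classInner (fun n : Cfsg.pPrimeCore p G => (χ : G → ℂ) n) (θ : Cfsg.pPrimeCore p G → ℂ) ≠ 0 ↔ Cfsg.classInner (fun n : Cfsg.pPrimeCore p G => (ψ : G → ℂ) n) (θ : Cfsg.pPrimeCore p G → ℂ) ≠ 0 := by
  have hb := isPBlock_singleton hM not_dvd_card_pPrimeCore θ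
  have hB := isPBlock_blockOf (M := M) χ.2
  have h1 := mem_blockOf_self hM χ
  have h2 : ψ ∈ blockOf M (χ : G → ℂ) := h
  constructor <;> intro h3
  · obtain ⟨_, rfl, h4⟩ := exists_under_of_cov hM hB hb ((cov_iff hM hB hb).1 ⟨χ, h1, θ, rfl, h3⟩) h2
    exact h4
  · obtain ⟨_, rfl, h4⟩ := exists_under_of_cov hM hB hb ((cov_iff hM hB hb).1 ⟨ψ, h2, θ, rfl, h3⟩) h1
    exact h4

end Cfsg.Agent.S0921
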