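import Cfsg.Statements.S0923
import Cfsg.Agent.H4.Second

set_option autoImplicit false
open Cfsg

namespace Cfsg.Agent.S0923

open H4 H1 MonoidAlgebra
open scoped Pointwise


/-- Brauer's Second Main Theorem, in terms of ordinary characters. Let x be a p-element of the finite group G with centralizer C, let χ lie in the block B of G and let b be a block of C that does not induce B (relative to a maximal ideal M of the algebraic integers containing p). Form the class function ϑ(c) = χ(x c) on C and its b-part (the sum over ψ ∈ b of the inner product of ϑ with ψ, times ψ). Then the b-part of ϑ vanishes at every p-regular element of C. (Equivalently, the generalized decomposition numbers of χ with respect to b are zero.) -/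
theorem result {G : Type*} [Group G] [Finite G] (p : ℕ) [Fact p.Prime] (M : Ideal Cfsg.AlgInt) (hM : Cfsg.IsPModular p M) (x : G) (hx : ∃ k : ℕ, orderOf x = p ^ k) (B : Set (Cfsg.IrrCharacter G)) (hB : Cfsg.IsPBlock M B) (χ : Cfsg.IrrCharacter G) (hχ : χ ∈ B) (b : Set (Cfsg.IrrCharacter (Subgroup.centralizer ({x} : Set G)))) (hb : Cfsg.IsPBlock M b) (hnot : ¬ Cfsg.IsInducedBlock M (Subgroup.centralizer ({x} : Set G)) b B) (y : Subgroup.centralizer ({x} : Set G)) (hy : ¬ p ∣ orderOf y) : Cfsg.blockPart b (fun c : Subgroup.centralizer ({x} : Set G) => (χ : G → ℂ) (x * (c : G))) y = 0 := by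
  haveI := Fintype.ofFinite (C1 x)
  obtain ⟨B', h⟩ := defined_C1 hM hx hb
  have hxy := mem_centralizer_singleton.1 y.2
  have hx1 : x ∈ C1 x := mem_centralizer_singleton.2 (Commute.refl x)
  have := second_main hM h (⟨x, hx1⟩ * y) (by
    rw [Subgroup.coe_mul, pp_mul_of_commute hM.1 hxy hx (by rwa [Subgroup.orderOf_coe])])
    (χ := χ) (fun h' => hnot (block_eq_of_mem hM h.2.1 hB h' hχ ▸ h))
  rw [blockPart_eq_ev (H3.class_restrict (H3.irr_class χ.2) _), ev_mul_single] at this
  rw [blockPart_eq_ev, ev_mul_single, ← this]
  · refine Finset.sum_congr rfl fun g _ => ?_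
    simp only [Subgroup.coe_mul]
    rw [← mul_assoc x, (mem_centralizer_singleton.1 g.2).eq, mul_assoc (g : G)]
  · intro g c
    simp only [Subgroup.coe_mul, InvMemClass.coe_inv]
    rw [← H3.irr_class χ.2 (x * g) c, ← mul_assoc x, ← mul_assoc x, (mem_centralizer_singleton.1 c.2).eq,
      mul_assoc (c : G) x]

end Cfsg.Agent.S0923
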