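import Cfsg.Statements.S0926
import Cfsg.Agent.H4.Second

set_option autoImplicit false
open Cfsg

namespace Cfsg.Agent.S0926

open H4 H1 MonoidAlgebra
open scoped Pointwise


/-- Let B be a block of the finite group G with defect group D (relative to a maximal ideal M of the algebraic integers containing p), let χ ∈ B have height zero, and let x be a p-element. Then some conjugate of x lies in D if and only if χ does not vanish on the whole p-section of x (the elements whose p-part is conjugate to x). -/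
theorem result {G : Type*} [Group G] [Finite G] (p : ℕ) [Fact p.Prime] (M : Ideal Cfsg.AlgInt) (hM : Cfsg.IsPModular p M) (B : Set (Cfsg.IrrCharacter G)) (hB : Cfsg.IsPBlock M B) (D : Subgroup G) (hD : Cfsg.IsDefectGroup p M B D) (χ : Cfsg.IrrCharacter G) (hχ : χ ∈ B) (h0 : Cfsg.blockHeight p B (χ : G → ℂ) = 0) (x : G) (hx : ∃ k : ℕ, orderOf x = p ^ k) : (∃ g : G, g * x * g⁻¹ ∈ D) ↔ ∃ u : G, (∃ z : G, Cfsg.IsPPart p u z ∧ IsConj x z) ∧ (χ : G → ℂ) u ≠ 0 := by
  constructor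
  · rintro ⟨g, hg⟩
    obtain ⟨y, h1, h2, h3⟩ := (isDefectGroup_iff hM hB).1 hD
    have hc := (mem_centralizer_singleton.1 (h3.1 hg)).symm
    have hp := isPElt_of_mem hM.1 h3.2 hg
    refine ⟨g * x * g⁻¹ * y, ⟨g * x * g⁻¹, ⟨y, rfl, hc, hp, not_dvd_of_eB_ne_zero hM hB h1⟩,
      isConj_iff.2 ⟨g, rfl⟩⟩, ne_zero_of_red_ne_zero (red_ne_zero_mul hM hB h1 h2 hp hc hχ h0)⟩
  · rintro ⟨u, ⟨z, h1, h2⟩, h3⟩
    obtain ⟨E, h4, h5⟩ := exists_dg_of_ne_zero hM hB hχ h3
    rw [← eq_pp_of_isPPart hM.1 h1] at h5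
    obtain ⟨g, rfl⟩ := dg_exists_conj_eq hM hB h4 hD
    obtain ⟨c, rfl⟩ := isConj_iff.1 h2
    exact ⟨g * c, by simpa only [mul_assoc, mul_inv_rev] using conj_mem_conj_smul (g := g) h5⟩

end Cfsg.Agent.S0926
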