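import Cfsg.Statements.S0927
import Cfsg.Agent.H4.Second

set_option autoImplicit false
open Cfsg

namespace Cfsg.Agent.S0927

open H4 H1 MonoidAlgebra
open scoped Pointwise


/-- Let B be a block of the finite group G relative to a maximal ideal M of the algebraic integers containing p, let y represent a defect class of B and let P be a Sylow p-subgroup of the centralizer of y. (a) If x ∈ P and χ ∈ B has height zero, then χ (x * y) is not in the local ideal at M. (b) If x lies in the centre of P, then for every χ ∈ B the central character of χ at x * y is not in the local ideal at M. -/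
theorem result {G : Type*} [Group G] [Finite G] (p : ℕ) [Fact p.Prime] (M : Ideal Cfsg.AlgInt) (hM : Cfsg.IsPModular p M) (B : Set (Cfsg.IrrCharacter G)) (hB : Cfsg.IsPBlock M B) (y : G) (hy : Cfsg.IsDefectClass M B y) (P : Sylow p (Subgroup.centralizer ({y} : Set G))) (x : Subgroup.centralizer ({y} : Set G)) (hx : x ∈ (P : Subgroup (Subgroup.centralizer ({y} : Set G)))) : (∀ χ ∈ B, Cfsg.blockHeight p B (χ : G → ℂ) = 0 → ¬ Cfsg.MemLocalIdeal M ((χ : G → ℂ) ((x : G) * y))) ∧ ((∀ w ∈ (P : Subgroup (Subgroup.centralizer ({y} : Set G))), x * w = w * x) → ∀ χ ∈ B, ¬ Cfsg.MemLocalIdeal M (Cfsg.centralChar (χ : G → ℂ) ((x : G) * y))) := by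
  obtain ⟨h1, h2⟩ := (isDefectClass_iff hM hB).1 hy
  have hP := isSylowIn_map_subtype P
  have hx' : (x : G) ∈ (P : Subgroup (C1 y)).map (C1 y).subtype := ⟨x, hx, rfl⟩
  refine ⟨fun χ hχ h0 => ?_, fun hc χ hχ => ?_⟩
  · rw [memLocalIdeal_iff hM (irr_mem_Alg χ _) (irr_mem_O χ _)]
    exact red_ne_zero_mul hM hB h1 h2 (isPElt_of_mem hM.1 hP.2 hx')
      (mem_centralizer_singleton.1 x.2).symm hχ h0
  · refine (lamB_cls_ne_zero_iff hM hB hχ).1 (lamB_cls_mul_ne_zero hM hB h1 h2 hP hx' ?_)
    rintro _ ⟨w, hw, rfl⟩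
    exact (congrArg Subtype.val (hc w hw)).symm

end Cfsg.Agent.S0927
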