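import Cfsg.Statements.S0928
import Cfsg.Agent.H4.Second

set_option autoImplicit false
open Cfsg

namespace Cfsg.Agent.S0928

open H4 H1 MonoidAlgebra
open scoped Pointwise


/-- Let χ be an irreducible character of the finite group G and p a prime. If χ g = 0 for every element g of order p, then the exponent of p in the degree χ(1) equals the exponent of p in the order of G (χ has p-defect zero). -/
theorem result {G : Type*} [Group G] [Finite G] (p : ℕ) [Fact p.Prime] (χ : Cfsg.IrrCharacter G) (hvan : ∀ g : G, orderOf g = p → (χ : G → ℂ) g = 0) : (Cfsg.charDegree (χ : G → ℂ)).factorization p = (Nat.card G).factorization p := by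
  classical
  have hp : p.Prime := Fact.out
  obtain ⟨M, hM⟩ := exists_isPModular hp
  have hB := isPBlock_blockOf (M := M) χ.2
  have hχ := mem_blockOf_self hM χ
  refine nu_eq_of_blockDefect_eq_zero (B := blockOf M (χ : G → ℂ)) ?_ hχ
  obtain ⟨D, hD⟩ := exists_dg hM hB
  obtain ⟨b, h1, h2⟩ := first_main_exists hM hB hD
  let s : ℂ[G] := mk fun x => if x ^ p = 1 then 1 else 0
  have hs : s ∈ Z ℂ G := mk_mem_Z fun g h => if_congr (by rw [conj_pow, conj_eq_one_iff]) rfl rfl
  have hs' : s ∈ IntA G M := mk_mem_IntA fun g => by split_ifs; exacts [one_mem _, zero_mem _]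
  have h3 : lamB M (blockOf M (χ : G → ℂ)) (redA M s) = 1 := by
    haveI := Fintype.ofFinite G
    rw [lamB_redA hM hB hχ hs hs', om_apply_sum, Finset.sum_eq_single 1 (fun g _ hg => ?_) (by simp)]
    · simp [s, H3.irr_one_ne_zero χ.2]
    · simp only [s, coeff_mk]
      split_ifs with h
      · rw [hvan g (orderOf_eq_prime h hg), mul_zero, zero_div]
      · simp
  let A : Subgroup G :=
    { carrier := {x | x ∈ D ∧ x ∈ Subgroup.centralizer (D : Set G) ∧ x ^ p = 1}
      mul_mem' := fun {a b} ha hb => ⟨mul_mem ha.1 hb.1, mul_mem ha.2.1 hb.2.1, by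
        rw [Commute.mul_pow (hb.2.1 a ha.1), ha.2.2, hb.2.2, one_mul]⟩
      one_mem' := ⟨one_mem _, one_mem _, one_pow _⟩
      inv_mem' := fun {a} ha => ⟨inv_mem ha.1, inv_mem ha.2.1, by rw [inv_pow, ha.2.2, inv_one]⟩ }
  have hA : ∀ x, x ∈ A ↔ x ∈ D ∧ x ∈ Subgroup.centralizer (D : Set G) ∧ x ^ p = 1 := fun _ => Iff.rfl
  let N := Subgroup.normalizer (D : Set G)
  have hAN : A ≤ N := fun x hx => Subgroup.le_normalizer hx.1
  haveI : (A.subgroupOf N).Normal := (Subgroup.normal_subgroupOf_iff_le_normalizer hAN).2 fun n hn =>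
    mem_normalizer_iff_conj_mem.2 fun x hx => ⟨conj_mem_of_mem_normalizer hn hx.1,
      (mem_centralizer_conj_iff hn x).2 hx.2.1, by rw [conj_pow, hx.2.2]; simp⟩
  have hsZ := redA_mem_Z (M := M) hs
  have h4 : lamB M b (sig (k M) (A.subgroupOf N)) = 1 := by
    rw [← h3, ← ind_lamB hM h1 hsZ, ← lamB_resA_Br hM (dg_isPGroup hD) Subgroup.le_normalizer le_rfl
      h1.1 (Z_le_Fix _ hsZ), ← sub_eq_zero, ← map_sub]
    by_contra h5
    obtain ⟨x, h6, h7⟩ := exists_cls_ne_zero (sub_mem (sig_mem_Z _) (resA_Br_mem_Z le_rfl (Z_le_Fix _ hsZ))) h5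
    have h8 : pp p (x : G) ∈ D := by
      rw [← coe_pp hp]; exact pp_mem_of_normal' hM h1.1 h2 h7
    apply h6
    simp only [coeff_sub, Finsupp.sub_apply, coeff_sig, coeff_resA, coeff_trunc, coeff_redA, s, coeff_mk,
      Subgroup.mem_subgroupOf, hA, SetLike.mem_coe]
    by_cases h9 : (x : G) ^ p = 1
    · rw [pp_of_isPElt hp ((isPElt_iff hp).2 ⟨1, by rwa [pow_one]⟩)] at h8
      simp [h8, h9]
    · simp [h9]
  have h5 := lamB_mul hM h1.1 (sig_mem_Z (A.subgroupOf N)) (sig_mem_Z (A.subgroupOf N))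
  rw [sig_mul_sig, map_smul, h4, one_mul, smul_eq_mul, mul_one, card_subgroupOf hAN] at h5
  have h6 : ¬ p ∣ Nat.card A := by
    rw [← natCast_eq_zero_iff hM, h5]; exact one_ne_zero
  by_contra h7
  have h8 : D ≠ ⊥ := fun h => by
    have := dg_card hM hB hD
    rw [h, Subgroup.card_bot, eq_comm, Nat.pow_eq_one] at this
    exact this.elim hp.ne_one h7
  haveI := (Subgroup.nontrivial_iff_ne_bot D).2 h8
  haveI := (dg_isPGroup hD).center_nontrivial
  obtain ⟨x, hx⟩ := exists_prime_orderOf_dvd_card' (G := Subgroup.center D) p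
    (((dg_isPGroup hD).to_subgroup _).card_eq_or_dvd.resolve_left Finite.one_lt_card.ne')
  have h9 : (x.1.1 : G) ∈ A := ⟨x.1.2, fun w hw => congrArg Subtype.val (Subgroup.mem_center_iff.1 x.2 ⟨w, hw⟩),
    by rw [← hx, ← Subgroup.orderOf_coe, ← Subgroup.orderOf_coe, pow_orderOf_eq_one]⟩
  exact h6 (by rw [← hx, ← Subgroup.orderOf_coe, ← Subgroup.orderOf_coe]; exact orderOf_dvd_card_of_mem h9)

end Cfsg.Agent.S0928
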