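import Cfsg.Statements.S0931
import Cfsg.Agent.H4.Second

set_option autoImplicit false
open Cfsg

namespace Cfsg.Agent.S0931

open H4 H1 MonoidAlgebra
open scoped Pointwise


/-- Let H be a subgroup of the finite group G and fix a maximal ideal M of the algebraic integers containing the prime p. If the block b of H induces the block B of G, then b has defect 0 if and only if B has defect 0. -/
theorem result {G : Type*} [Group G] [Finite G] (p : ℕ) [Fact p.Prime] (M : Ideal Cfsg.AlgInt) (hM : Cfsg.IsPModular p M) (H : Subgroup G) (b : Set (Cfsg.IrrCharacter H)) (B : Set (Cfsg.IrrCharacter G)) (hind : Cfsg.IsInducedBlock M H b B) : Cfsg.blockDefect p b = 0 ↔ Cfsg.blockDefect p B = 0 := by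
  obtain ⟨D, hD⟩ := exists_dg hM hind.1
  obtain ⟨P, hP, hDP⟩ := ind_dg_le hM hind hD
  have h1 := dg_card hM hind.1 hD
  have h2 := dg_card hM hind.2.1 hP
  have h3 : ∀ n, p ^ n = 1 ↔ n = 0 := fun n => by simp [hM.1.ne_one]
  rw [← h3, ← h3, ← h1, ← h2, Subgroup.card_eq_one, Subgroup.card_eq_one]
  refine ⟨fun h => ?_, fun h => ?_⟩
  · by_contra h4
    haveI := (Subgroup.nontrivial_iff_ne_bot P).2 h4
    haveI := (dg_isPGroup hP).center_nontrivial
    obtain ⟨x, hx⟩ := exists_ne (1 : Subgroup.center P)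
    obtain ⟨u, h5, h6, -⟩ := ind_center_dg hM hind hD hP x.1.2
      fun w hw => congrArg Subtype.val (Subgroup.mem_center_iff.1 x.2 ⟨w, hw⟩)
    rw [h, Subgroup.mem_bot] at h6
    rw [h6, OneMemClass.coe_one, isConj_one_left] at h5
    exact hx (Subtype.ext (Subtype.ext h5))
  · rw [h, le_bot_iff, Subgroup.map_eq_bot_iff_of_injective _ H.subtype_injective] at hDP
    exact hDP

end Cfsg.Agent.S0931
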