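import Cfsg.Statements.S0932
import Cfsg.Agent.H4.Cover

set_option autoImplicit false
open Cfsg

namespace Cfsg.Agent.S0932

open H4 H1 MonoidAlgebra
open scoped Pointwise


/-- Let H be a subgroup of the finite group G and ξ a character of H. For every g ∈ G, the sum of ξ h / ξ 1 over the elements h ∈ H that are conjugate in G to g equals the central character at g of the character of G induced from ξ (class size times value divided by degree). -/
theorem result {G : Type*} [Group G] [Fintype G] (H : Subgroup G) (ξ : H → ℂ) (hξ : Cfsg.IsCharacter H ξ) (g : G) : Cfsg.inducedCentralChar H ξ g = Cfsg.centralChar (Cfsg.indFun H ξ) g := by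
  rw [inducedCentralChar_eq, ← om_cls (H3.class_indFun H ξ), om_indFun H ξ (cls_mem_Z g)]

end Cfsg.Agent.S0932
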