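import Cfsg.Statements.S0938
import Cfsg.Agent.H4.Cover2

set_option autoImplicit false
open Cfsg

namespace Cfsg.Agent.S0938

open H4 H1 MonoidAlgebra
open scoped Pointwise


/-- Let B be a block of the finite group G relative to a maximal ideal M of the algebraic integers containing the prime p, and let χ ∈ B. Then the kernel of B (the set of g with ψ g = ψ 1 for all ψ ∈ B) is a normal subgroup of order prime to p contained in the kernel of χ, and it contains every normal subgroup of order prime to p on which χ takes the value χ(1); that is, it is O_p' of the kernel of χ. -/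
theorem result {G : Type*} [Group G] [Finite G] (p : ℕ) [Fact p.Prime] (M : Ideal Cfsg.AlgInt) (hM : Cfsg.IsPModular p M) (B : Set (Cfsg.IrrCharacter G)) (hB : Cfsg.IsPBlock M B) (χ : Cfsg.IrrCharacter G) (hχ : χ ∈ B) : ∃ K : Subgroup G, K.Normal ∧ (K : Set G) = Cfsg.blockKer B ∧ ¬ p ∣ Nat.card K ∧ (∀ g ∈ K, (χ : G → ℂ) g = (χ : G → ℂ) 1) ∧ ∀ N : Subgroup G, N.Normal → ¬ p ∣ Nat.card N → (∀ g ∈ N, (χ : G → ℂ) g = (χ : G → ℂ) 1) → N ≤ K := by
  have h1 : ∀ g, g ∈ (⨅ ψ ∈ B, H3.charKer (ψ : G → ℂ)) ↔ g ∈ blockKer B := fun g => by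
    simp only [Subgroup.mem_iInf, blockKer, Set.mem_setOf_eq]
    exact forall₂_congr fun ψ _ => H3.mem_charKer (H3.irr_char ψ.2) g
  refine ⟨⨅ ψ ∈ B, H3.charKer (ψ : G → ℂ), Subgroup.normal_iInf_normal fun ψ =>
    Subgroup.normal_iInf_normal fun _ => H3.charKer_normal (H3.irr_class ψ.2), Set.ext h1, fun h => ?_,
    fun g hg => (h1 g).1 hg χ hχ, fun N _ h2 h3 g hg => (h1 g).2 fun ψ hψ => ker_of_mem hM h2 hB hχ hψ h3 g hg⟩
  obtain ⟨g, hg⟩ := exists_prime_orderOf_dvd_card' p h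
  exact not_dvd_of_ker hM hB ((h1 g).1 g.2) (by rw [Subgroup.orderOf_coe, hg])

end Cfsg.Agent.S0938
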