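import Cfsg.Statements.S0940
import Cfsg.Agent.H4.Maj2

set_option autoImplicit false
open Cfsg

namespace Cfsg.Agent.S0940

open H4 H1 MonoidAlgebra
open scoped Pointwise


/-- Let G be a finite group and M a maximal ideal of the algebraic integers containing the prime p. For every p-regular g, the idempotent coefficient of the principal block at g (the inverse of the group order times the sum over χ in the principal block of χ 1 * conj (χ g)) is congruent modulo the local ideal at M to N / R, where N is the number of pairs (x, y) with x of p-power order, y of order prime to p and x * y = g, and R is the number of elements of G of order prime to p. -/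
theorem result {G : Type*} [Group G] [Finite G] (p : ℕ) [Fact p.Prime] (M : Ideal Cfsg.AlgInt) (hM : Cfsg.IsPModular p M) (g : G) (hg : ¬ p ∣ orderOf g) : Cfsg.MemLocalIdeal M (Cfsg.blockCoeff (Cfsg.principalBlock M G) g - (Nat.card {xy : G × G // (∃ k : ℕ, orderOf xy.1 = p ^ k) ∧ ¬ p ∣ orderOf xy.2 ∧ xy.1 * xy.2 = g} : ℂ) / (Nat.card {y : G // ¬ p ∣ orderOf y} : ℂ)) := by
  classical
  have := Fintype.ofFinite G
  have hp : p.Prime := Fact.out
  have hB := isPBlock_principal (M := M) (G := G)
  have hc := H3.card_ne_zero' G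
  set δ : G → ℂ := (Nat.card G : ℂ)⁻¹ • H3.regChar G with hδ
  have d1 : ∀ x, δ x = if x = 1 then 1 else 0 := fun x => by
    split_ifs with h
    · simp [hδ, h, H3.regChar_one]
    · simp [hδ, H3.regChar_ne h]
  have hδc : IsClassFunction G δ := H3.class_smul _ (H3.char_class H3.char_regChar)
  have hφ : (fun x => δ (pq p x)) ∈ OC G M := mem_OC_of_inner (class_pq hδc) fun χ =>
    inner_pq (O M).toSubring.toAddSubgroup hδc (fun B _ hB χ hχ => by
      simp only [classInner, d1, OneMemClass.coe_eq_one, ite_mul, one_mul, zero_mul, Finset.sum_ite_eq',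
        Finset.mem_univ, if_true]
      exact (O M).mul_mem _ _ (inv_mem_O_of_red_ne_zero (red_natCast_ne_zero hM hB))
        (H3.char_inv (H3.irr_char hχ) 1 ▸ char_mem_O (H3.irr_char hχ) _)) (H3.irr_gen χ.2)
  have h1 := red_ev_Z_single hM hφ (zR_mem_Z (p := p) (H3.irr_class (triv G).2))
    (zR_mem_IntA fun g => irr_mem_O _ g) g⁻¹
  rw [Finset.sum_eq_single_of_mem _ (mem_blocks.2 hB) fun B h h' => by
    rw [lamB_zR_eq_zero hM (mem_blocks.1 h) fun h2 =>
      h' (block_eq_of_mem hM (mem_blocks.1 h) hB h2 (triv_mem_principal hM)), zero_mul]] at h1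
  have h2 := (lamB_zR_ne_zero_iff hM hB).2 ⟨triv_mem_principal hM, height_triv _⟩
  have h3 : lamB M (principalBlock M G) (redA M (zR p (triv G).1)) = red M (Nat.card {y : G // ¬ p ∣ orderOf y}) := by
    rw [lamB_eq hM hB (triv_mem_principal hM), lam_triv (redA_mem_Z (zR_mem_Z (H3.irr_class (triv G).2)))]
    simp [coeff_zR, reg, apply_ite (red M), Fintype.card_subtype, Finset.sum_ite]
  have h4 : blockPart (principalBlock M G) (fun x => δ (pq p x)) g⁻¹ = blockCoeff (principalBlock M G) g := by
    rw [blockPart_congr_section hM hB (ϑ' := δ) fun x hx => by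
      rw [pp_of_not_dvd hp (by simpa using hg), isConj_one_right, pp_eq_one_iff hp] at hx
      rw [pq_of_not_dvd hp hx], blockPart_eq_KB, blockCoeff_eq_KB, ← KB_inv _ g 1]
    simp [d1]
  have h5 : ev (fun x => δ (pq p x)) (zR p (triv G).1 * single g⁻¹ 1) =
      Nat.card {xy : G × G // (∃ k : ℕ, orderOf xy.1 = p ^ k) ∧ ¬ p ∣ orderOf xy.2 ∧ xy.1 * xy.2 = g} := by
    have e : Nat.card {y : G // ¬ p ∣ orderOf y ∧ IsPElt p (y * g⁻¹)} =
        Nat.card {xy : G × G // (∃ k : ℕ, orderOf xy.1 = p ^ k) ∧ ¬ p ∣ orderOf xy.2 ∧ xy.1 * xy.2 = g} :=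
      Nat.card_eq_of_bijective (fun y => ⟨((y.1 * g⁻¹)⁻¹, y.1), y.2.2.inv, y.2.1, by simp⟩)
        ⟨fun a b e => Subtype.ext (congrArg (fun x => x.1.2) e), by
          rintro ⟨⟨a, b⟩, h7, h8, rfl⟩
          exact ⟨⟨b, h8, by simpa using IsPElt.inv (p := p) h7⟩, by simp⟩⟩
    rw [ev_mul_single, ← e]
    simp only [coeff_zR, reg, d1, pq_eq_one_iff hp, orderOf_inv, triv_apply, Nat.card_eq_fintype_card,
      Fintype.card_subtype, Finset.card_filter, Nat.cast_sum]
    exact Finset.sum_congr rfl fun y _ => by split_ifs <;> simp_all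
  rw [h3] at h2
  rw [h3, h4, h5] at h1
  rw [memLocalIdeal_sub_iff hM (blockCoeff_mem_Alg _ _) (div_mem (natCast_mem _ _) (natCast_mem _ _))
    (blockCoeff_mem_O hM hB _) (div_mem_O (natCast_mem _ _) h2), red_div (natCast_mem _ _) h2, h1,
    mul_div_cancel_left₀ _ h2]

end Cfsg.Agent.S0940
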