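import Cfsg.Statements.S0942
import Cfsg.Agent.H4.Cons

set_option autoImplicit false
open Cfsg

namespace Cfsg.Agent.S0942

open H4 H1 MonoidAlgebra
open scoped Pointwise


/-- Let u be a p-element of the finite group G, let v lie in the largest normal subgroup of C_G(u) of order prime to p, and let χ belong to the principal block (relative to a maximal ideal M of the algebraic integers containing p). Then χ (u * v) = χ u. -/
theorem result {G : Type*} [Group G] [Finite G] (p : ℕ) [Fact p.Prime] (M : Ideal Cfsg.AlgInt) (hM : Cfsg.IsPModular p M) (u : G) (hu : ∃ k : ℕ, orderOf u = p ^ k) (v : G) (hv : v ∈ Cfsg.centralizerPPrimeCore p u) (χ : Cfsg.IrrCharacter G) (hχ : χ ∈ Cfsg.principalBlock M G) : (χ : G → ℂ) (u * v) = (χ : G → ℂ) u := by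
  cases nonempty_fintype G
  obtain ⟨w, hw, rfl⟩ := hv
  have hu' : IsPElt p u := hu
  have h0 : u ∈ C1 u := mem_centralizer_singleton.2 (Commute.refl u)
  have h1 : ¬ p ∣ orderOf (w : G) := by
    rw [Subgroup.orderOf_coe]; exact not_dvd_orderOf_of_mem not_dvd_card_pPrimeCore hw
  have key := fun (h : C1 u) (hh : pp p (h : G) = u) => second_main_principal hM (fun b => defined_C1 hM hu') h
    (by rw [hh]) (H3.irr_class χ.2)
  rw [blockPart_irr_of_mem hχ] at key
  refine (key (⟨u, h0⟩ * w) (pp_mul_of_commute hM.1 (mem_centralizer_singleton.1 w.2) hu' h1)).trans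
    (Eq.trans ?_ (key ⟨u, h0⟩ (pp_of_isPElt hM.1 hu')).symm)
  cases nonempty_fintype (C1 u)
  rw [blockPart_apply, blockPart_apply]
  exact Finset.sum_congr rfl fun ψ hψ => by
    rw [H3.char_mul_ker (H3.irr_char ψ.2) (ker_of_principal hM not_dvd_card_pPrimeCore (mem_fs.1 hψ) w hw)]

end Cfsg.Agent.S0942
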