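import Cfsg.Statements.S0944
import Cfsg.Agent.H4.ZStar

set_option autoImplicit false
open Cfsg

namespace Cfsg.Agent.S0944

open H4 H1 MonoidAlgebra
open scoped Pointwise


/-- Let χ be an irreducible character of the finite group G and u an involution. Then χ u is a rational integer n with n ≡ χ 1 (mod 2). -/
theorem result {G : Type*} [Group G] [Finite G] (χ : Cfsg.IrrCharacter G) (u : G) (hu : orderOf u = 2) : ∃ n : ℤ, (χ : G → ℂ) u = (n : ℂ) ∧ (2 : ℤ) ∣ (Cfsg.charDegree (χ : G → ℂ) : ℤ) - n := by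
  obtain ⟨M, hM⟩ := exists_isPModular Nat.prime_two
  obtain ⟨n, hn⟩ := char_int_of_sq (H3.irr_gen χ.2) (t := u) (by rw [← hu, pow_orderOf_eq_one])
  exact ⟨n, hn, int_even_of_red hM (by
    rw [← hn, red_char_pElt hM (H3.irr_char χ.2) ⟨1, hu⟩, irr_one_eq, Int.cast_natCast])⟩

end Cfsg.Agent.S0944
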