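import Cfsg.Statements.S0945
import Cfsg.Agent.H9.LE1
import Cfsg.Agent.H9.SPE
import Cfsg.Agent.H9.Sec
import Cfsg.Agent.H9.MS1
import Cfsg.Agent.H1.MC
import Cfsg.Agent.H1.SZ
import Cfsg.Agent.L.PG4

set_option autoImplicit false
open Cfsg

namespace Cfsg.Agent.S0945

open H9 FT Subgroup

theorem card_omega {G : Type*} [Group G] [Finite G] {P : Subgroup G} {m : ℕ} (hm : 1 ≤ m)
    (e : P ≃* Multiplicative (ZMod (2 ^ m) × ZMod (2 ^ m))) (hc : IsMulCommutative P) :
    Nat.card (omegaOne 2 P) = 4 := by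
  have hE := el_omegaOne_of_comm (p := 2) hc
  have h1 : Nat.card {x : ZMod (2 ^ m) // x + x = 0} = 2 := by
    have := IsCyclic.card_powMonoidHom_ker (Multiplicative (ZMod (2 ^ m))) 2
    rw [Nat.card_congr (Multiplicative.toAdd (α := ZMod (2 ^ m))), Nat.card_zmod,
      Nat.gcd_eq_right (dvd_pow_self 2 (by omega))] at this
    refine Eq.trans ?_ this
    refine Nat.card_congr ⟨fun x => ⟨Multiplicative.ofAdd x.1, ?_⟩, fun x => ⟨x.1.toAdd, ?_⟩,
      fun x => rfl, fun x => rfl⟩
    · rw [MonoidHom.mem_ker, powMonoidHom_apply, pow_two, ← ofAdd_add, x.2, ofAdd_zero]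
    · have := x.2
      rw [MonoidHom.mem_ker, powMonoidHom_apply, pow_two] at this
      rw [← toAdd_mul, this, toAdd_one]
  have h2 : Nat.card (omegaOne 2 P) =
      Nat.card ({x : ZMod (2 ^ m) // x + x = 0} × {x : ZMod (2 ^ m) // x + x = 0}) := by
    have k : ∀ x : omegaOne 2 P, (e ⟨x, hE.le x.2⟩).toAdd + (e ⟨x, hE.le x.2⟩).toAdd = 0 := fun x => by
      rw [← toAdd_mul, ← map_mul, toAdd_eq_zero, map_eq_one_iff _ e.injective]
      exact Subtype.ext (by rw [← pow_two]; exact hE.pow x.2)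
    refine Nat.card_congr ⟨fun x => (⟨(e ⟨x, hE.le x.2⟩).toAdd.1, congrArg Prod.fst (k x)⟩,
      ⟨(e ⟨x, hE.le x.2⟩).toAdd.2, congrArg Prod.snd (k x)⟩), fun y =>
        ⟨e.symm (Multiplicative.ofAdd (y.1.1, y.2.1)), L.mem_omegaOne (Subtype.property _) ?_⟩,
      fun x => by simp, fun y => by simp⟩
    rw [← coe_pow, ← map_pow, pow_two, ← ofAdd_add, Prod.mk_add_mk, y.1.2, y.2.2]
    simp
  rw [h2, Nat.card_prod, h1]

theorem comm_of {G : Type*} [Group G] {P : Subgroup G} {m : ℕ}
    (e : P ≃* Multiplicative (ZMod (2 ^ m) × ZMod (2 ^ m))) : IsMulCommutative P :=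
  ⟨⟨fun a b => e.injective (by rw [map_mul, map_mul, mul_comm])⟩⟩

theorem klein {G : Type*} [Group G] [Finite G] {P : Subgroup G} {m : ℕ} (hm : 1 ≤ m)
    (e : P ≃* Multiplicative (ZMod (2 ^ m) × ZMod (2 ^ m))) : IsKleinFour (omegaOne 2 P) :=
  H1.isKleinFour_of (card_omega hm e (comm_of e)) fun x hx => by
    rw [← pow_two]; exact (el_omegaOne_of_comm (p := 2) (comm_of e)).pow hx

theorem le_cent {G : Type*} [Group G] [Finite G] {P M : Subgroup G} (hP : Syl 2 P ⊤) (hc : IsMulCommutative P)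
    (h1 : P ≤ M) (h2 : M ≤ normalizer (P : Set G))
    (h : ∀ g ∈ M, (orderOf g).Coprime 2 → g ∈ centralizer (omegaOne 2 P : Set G)) :
    M ≤ centralizer (P : Set G) := by
  rw [← (hP.mono h1 le_top).Ores_sup]
  refine sup_le (Ores_le_iff'.2 fun g hg ho => ?_) (le_centralizer P)
  refine zpowers_le.1 (le_centralizer_iff.1 (le_centralizer_of_omega_comm (p := 2) (by rwa [Nat.card_zpowers])
    hP.isP hc (zpowers_le.2 (h2 hg)) (le_centralizer_iff.1 (zpowers_le.2 (h g hg ho)))))

/-- Let P be a Sylow 2-subgroup of the finite group G isomorphic to Z/2^m × Z/2^m with m ≥ 1. Then (i) the index of C_G(P) in N_G(P) is 1 or 3, and (ii) if it is not 1, then for every z ≠ 1 in P, C_G(z) ∩ N_G(P) = C_G(P). -/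
theorem result {G : Type*} [Group G] [Finite G] (P : Sylow 2 G) (m : ℕ) (hm : 1 ≤ m) (e : (P : Subgroup G) ≃* Multiplicative (ZMod (2 ^ m) × ZMod (2 ^ m))) : ((Subgroup.centralizer (P : Set G)).relIndex (Subgroup.normalizer (P : Set G)) = 1 ∨ (Subgroup.centralizer (P : Set G)).relIndex (Subgroup.normalizer (P : Set G)) = 3) ∧ ((Subgroup.centralizer (P : Set G)).relIndex (Subgroup.normalizer (P : Set G)) ≠ 1 → ∀ z ∈ (P : Subgroup G), z ≠ 1 → Subgroup.centralizer ({z} : Set G) ⊓ Subgroup.normalizer (P : Set G) = Subgroup.centralizer (P : Set G)) := by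
  have hP := syl_top_of_sylow P
  have hc := comm_of e
  have hK := klein hm e
  have hPC : (P : Subgroup G) ≤ centralizer (P : Set G) := le_centralizer (P : Subgroup G)
  have hT : centralizer (P : Set G) ≤ centralizer (omegaOne 2 (P : Subgroup G) : Set G) :=
    centralizer_le (el_omegaOne_of_comm (p := 2) hc).le
  have hn : normalizer (P : Set G) ≤ normalizer (omegaOne 2 (P : Subgroup G) : Set G) := L.normalizer_omegaOne le_rfl
  have hE : centralizer (omegaOne 2 (P : Subgroup G) : Set G) ⊓ normalizer (P : Set G) = centralizer (P : Set G) :=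
    le_antisymm (le_cent hP hc (le_inf (hPC.trans hT) (P : Subgroup G).le_normalizer) inf_le_right fun g hg _ => hg.1)
      (le_inf hT (centralizer_le_normalizer _))
  refine ⟨?_, fun _ z hz h1 => le_antisymm (le_cent hP hc (le_inf (hPC.trans (centralizer_le (Set.singleton_subset_iff.2 hz)))
    (P : Subgroup G).le_normalizer) inf_le_right fun g hg ho => ?_)
    (le_inf (centralizer_le (Set.singleton_subset_iff.2 hz)) (centralizer_le_normalizer _))⟩
  · have h6 : (centralizer (P : Set G)).relIndex (normalizer (P : Set G)) ∣ 6 := by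
      rw [← hE, inf_relIndex_right]
      exact (H1.relIndex_dvd_relIndex_of_le_normalizer hn (normalizer_centralizer le_rfl)).trans
        (H1.klein_relIndex_dvd hK)
    have h2 : ¬ 2 ∣ (centralizer (P : Set G)).relIndex (normalizer (P : Set G)) :=
      (hP.mono (P : Subgroup G).le_normalizer le_top).not_dvd_of_le' hPC
    have := Nat.le_of_dvd (by norm_num) h6
    generalize (centralizer (P : Set G)).relIndex (normalizer (P : Set G)) = k at *
    interval_cases k <;> omega
  · by_contra hg'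
    obtain ⟨k, hk⟩ := IsPGroup.iff_orderOf.1 P.isPGroup' ⟨z, hz⟩
    rw [orderOf_mk] at hk
    have hd : 2 ∣ orderOf z := by
      rw [hk]; refine dvd_pow_self 2 ?_
      rintro rfl; exact h1 (orderOf_eq_one_iff.1 (by simpa using hk))
    have ho2 := orderOf_pow_orderOf_div (orderOf_pos z).ne' hd
    refine H1.klein_not_fix hK (hn hg.2) ho hg' (x := z ^ (orderOf z / 2))
      (L.mem_omegaOne (pow_mem hz _) (orderOf_dvd_iff_pow_eq_one.1 ho2.dvd))
      (fun h => by rw [h, orderOf_one] at ho2; omega) ?_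
    have : Commute z g := hg.1 z rfl
    rw [← (this.pow_left _).eq, mul_inv_cancel_right]

end Cfsg.Agent.S0945
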