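import Cfsg.Statements.S0946
import Cfsg.Agent.S0945
import Cfsg.Agent.H1.Misc

set_option autoImplicit false
open Cfsg

namespace Cfsg.Agent.S0946

open H9 FT Subgroup

/-- Let P be a Sylow 2-subgroup of the finite group G isomorphic to Z/2^m × Z/2^m with m ≥ 1. Then either P has a normal complement in G, or all involutions of G are conjugate. -/
theorem result {G : Type*} [Group G] [Finite G] (P : Sylow 2 G) (m : ℕ) (hm : 1 ≤ m) (e : (P : Subgroup G) ≃* Multiplicative (ZMod (2 ^ m) × ZMod (2 ^ m))) : (∃ N : Subgroup G, N.Normal ∧ Subgroup.IsComplement' N (P : Subgroup G)) ∨ ∀ s t : G, orderOf s = 2 → orderOf t = 2 → IsConj s t := by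
  have hP := syl_top_of_sylow P
  have hc := S0945.comm_of e
  have hK := S0945.klein hm e
  by_cases h : normalizer (P : Set G) ≤ centralizer (P : Set G)
  · exact Or.inl ⟨_, inferInstance, MonoidHom.ker_transferSylow_isComplement' P h⟩
  right
  have hn : normalizer (P : Set G) ≤ normalizer (omegaOne 2 (P : Subgroup G) : Set G) := L.normalizer_omegaOne le_rfl
  obtain ⟨g, hg, ho, hg'⟩ : ∃ g ∈ normalizer (P : Set G), (orderOf g).Coprime 2 ∧
      g ∉ centralizer (omegaOne 2 (P : Subgroup G) : Set G) := by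
    by_contra hh
    push Not at hh
    exact h (S0945.le_cent hP hc (P : Subgroup G).le_normalizer le_rfl hh)
  have key : ∀ s : G, orderOf s = 2 → ∃ x ∈ omegaOne 2 (P : Subgroup G), x ≠ 1 ∧ IsConj s x := fun s hs => by
    obtain ⟨a, -, ha⟩ := hP.exists_cj_le (Q := zpowers s)
      (IsPGroup.of_card (n := 1) (by rw [Nat.card_zpowers, hs]; rfl)) le_top
    have h1 : a * s * a⁻¹ ∈ (P : Subgroup G) := ha (by rw [mem_cj]; simp [mul_assoc])
    refine ⟨a * s * a⁻¹, L.mem_omegaOne h1 (by rw [conj_pow, ← hs, pow_orderOf_eq_one]; simp), fun h => ?_,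
      isConj_iff.2 ⟨a, rfl⟩⟩
    rw [mul_inv_eq_one, mul_eq_left] at h
    rw [h, orderOf_one] at hs; omega
  intro s t hs ht
  obtain ⟨x, hx, h1, hx'⟩ := key s hs
  obtain ⟨y, hy, h2, hy'⟩ := key t ht
  obtain ⟨k, -, hk⟩ := H1.klein_trans hK (hn hg) ho hg' hx hy h1 h2
  exact hx'.trans ((isConj_iff.2 ⟨k, hk⟩).trans hy'.symm)

end Cfsg.Agent.S0946
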