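import Cfsg.Statements.S0947
import Cfsg.Agent.H4.Cons

set_option autoImplicit false
open Cfsg

namespace Cfsg.Agent.S0947

open H4 H1 MonoidAlgebra
open scoped Pointwise
theorem KB_self {G : Type*} [Group G] [Finite G] (B : Set (IrrCharacter G)) (g : G) :
    KB B g g = ((∑ᶠ χ ∈ B, ‖(χ : G → ℂ) g‖ ^ 2 : ℝ) : ℂ) := by
  rw [finsum_mem_eq_fs, KB]; push_cast
  exact Finset.sum_congr rfl fun χ _ => Complex.mul_conj' _

/-- Let z ≠ 1 be a p-element of the finite group G with centralizer H, and fix a maximal ideal M of the algebraic integers containing p. (i) For every y ∈ H of order prime to p, the sum over ζ in the principal block of G of |ζ (z * y)|² equals the sum over χ in the principal block of H of |χ y|². (ii) If moreover H has a normal p-complement (its largest normal subgroup of order prime to p has p-power index), that common value is the largest power of p dividing the order of H. -/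
theorem result {G : Type*} [Group G] [Finite G] (p : ℕ) [Fact p.Prime] (M : Ideal Cfsg.AlgInt) (hM : Cfsg.IsPModular p M) (z : G) (hz : ∃ k : ℕ, orderOf z = p ^ k) (hz1 : z ≠ 1) (y : Subgroup.centralizer ({z} : Set G)) (hy : ¬ p ∣ orderOf y) : (∑ᶠ ζ ∈ Cfsg.principalBlock M G, ‖(ζ : G → ℂ) (z * (y : G))‖ ^ 2 = ∑ᶠ χ ∈ Cfsg.principalBlock M (Subgroup.centralizer ({z} : Set G)), ‖(χ : Subgroup.centralizer ({z} : Set G) → ℂ) y‖ ^ 2) ∧ ((∃ k : ℕ, (Cfsg.pPrimeCore p (Subgroup.centralizer ({z} : Set G))).index = p ^ k) → ∑ᶠ ζ ∈ Cfsg.principalBlock M G, ‖(ζ : G → ℂ) (z * (y : G))‖ ^ 2 = ((p ^ (Nat.card (Subgroup.centralizer ({z} : Set G))).factorization p : ℕ) : ℝ)) := by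
  have hz' : IsPElt p z := hz
  have h0 : z ∈ C1 z := mem_centralizer_singleton.2 (Commute.refl z)
  have h1 : pp p (z * y) = z := pp_mul_of_commute hM.1 (mem_centralizer_singleton.1 y.2) hz'
    (by rwa [Subgroup.orderOf_coe])
  have h2 := KB_principal hM hz' (⟨z, h0⟩ * y) (⟨z, h0⟩ * y) h1 h1
  rw [KB_self, KB_self, Complex.ofReal_inj] at h2
  have h3 : ∑ᶠ ζ ∈ principalBlock M G, ‖(ζ : G → ℂ) (z * (y : G))‖ ^ 2 =
      ∑ᶠ χ ∈ principalBlock M (C1 z), ‖(χ : C1 z → ℂ) y‖ ^ 2 := by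
    refine h2.trans (finsum_mem_congr rfl fun χ _ => ?_)
    obtain ⟨f, hf⟩ := H3.exists_hom_charCenter (H3.irr_one_ne_zero χ.2)
    have h4 : (⟨z, h0⟩ : C1 z) ∈ H3.charCenter (χ : C1 z → ℂ) := H3.center_le_charCenter χ.2
      (Subgroup.mem_center_iff.2 fun g => Subtype.ext (mem_centralizer_singleton.1 g.2).symm)
    rw [H3.class_mul_comm (H3.irr_class χ.2), hf ⟨_, h4⟩ y, norm_mul, H3.norm_hom, one_mul]
  refine ⟨h3, fun ⟨n, hn⟩ => ?_⟩
  have h4 := KB_ker fun χ => principal_of_complement hM not_dvd_card_pPrimeCore hn (χ := χ)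
  have h5 : y ∈ pPrimeCore p (C1 z) := mem_of_coprime_index
    (hn ▸ ((Nat.Prime.coprime_iff_not_dvd hM.1).2 hy).symm.pow_right n)
  have h6 : (Nat.card (C1 z)).factorization p = n := by
    rw [← factorization_index_add (pPrimeCore p (C1 z)), hn, hM.1.factorization_pow,
      Nat.factorization_eq_zero_of_not_dvd not_dvd_card_pPrimeCore]; simp
  rw [KB_self, hn, ← Complex.ofReal_natCast, Complex.ofReal_inj] at h4
  rw [h3, h6, ← h4]
  exact finsum_mem_congr rfl fun χ hχ => by rw [ker_of_principal hM not_dvd_card_pPrimeCore hχ y h5]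

end Cfsg.Agent.S0947
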