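import Cfsg.Statements.S0949
import Cfsg.Agent.H4.Homo
import Cfsg.Agent.H4.BS
import Cfsg.Agent.S0945

set_option autoImplicit false
open Cfsg

namespace Cfsg.Agent.S0949

open H4 H1 MonoidAlgebra
open scoped Pointwise


theorem top_of_npc {G : Type*} [Group G] [Finite G] (P : Sylow 2 G) (h : HasNormalPComplement 2 G)
    (hO : ∀ N : Subgroup G, N.Normal → Odd (Nat.card N) → N = ⊥) : (P : Subgroup G) = ⊤ := by
  obtain ⟨Q, N, h1, h2⟩ := h
  have h3 := hO N h1 (Nat.odd_iff.2 (Nat.two_dvd_ne_zero.1 (h2.index_eq_card ▸ Q.not_dvd_index)))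
  rw [← Subgroup.index_eq_one, ← Nat.mul_right_inj (Nat.card_pos (α := P)).ne', mul_one, Subgroup.card_mul_index,
    Nat.card_congr (P.equiv Q).toEquiv, ← h2.card_mul, h3, Subgroup.card_bot, one_mul]

theorem core_sub {G : Type*} [Group G] [Finite G] (hO : ∀ N : Subgroup G, N.Normal → Odd (Nat.card N) → N = ⊥)
    (K : Subgroup G) [K.Normal] (N : Subgroup K) (h : N.Normal) (h' : Odd (Nat.card N)) : N = ⊥ := by
  have h1 := hO ((pPrimeCore 2 K).map K.subtype) inferInstance (by
    rw [Subgroup.card_subtype]; exact Nat.coprime_two_right.1 H1.pPrimeCore_coprime)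
  rw [Subgroup.map_eq_bot_iff_of_injective _ K.subtype_injective] at h1
  exact le_bot_iff.1 (h1 ▸ H1.le_pPrimeCore (Nat.coprime_two_right.2 h'))

universe u in
theorem normal (m : ℕ) (hm : 2 ≤ m) (n : ℕ) : ∀ {G : Type u} [Group G] [Finite G], Nat.card G ≤ n → ∀ (P : Sylow 2 G)
    (_ : (P : Subgroup G) ≃* Multiplicative (ZMod (2 ^ m) × ZMod (2 ^ m)))
    (_ : ∀ N : Subgroup G, N.Normal → Odd (Nat.card N) → N = ⊥), (P : Subgroup G).Normal := by
  induction n with
  | zero => intro G _ _ h; exact absurd (Nat.card_pos (α := G)) (by omega)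
  | succ n ih =>
    intro G _ _ h P e hO
    obtain ⟨h1, h2⟩ := S0945.result P m (by omega) e
    rcases h1 with h1 | h1
    · rw [top_of_npc P (⟨P, _, inferInstance, MonoidHom.ker_transferSylow_isComplement' P (Subgroup.relIndex_eq_one.1 h1)⟩) hO]; infer_instance
    obtain ⟨K, h3, h4, h5⟩ := homo_lin P (S0945.comm_of e) h1 (by
      rw [Nat.card_congr e.toEquiv, Nat.card_congr Multiplicative.toAdd, Nat.card_prod, Nat.card_zmod]
      have := Nat.pow_le_pow_right two_pos hm
      nlinarith) (h2 (by omega))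
    have h6 := ih (G := K) (by 
      have := K.card_mul_index; have := Subgroup.one_lt_index_of_ne_top h4; have := Nat.card_pos (α := K); nlinarith) (P.subtype h5)
      ((Subgroup.subgroupOfEquivOfLe h5).trans e) (core_sub hO K)
    have := Sylow.characteristic_of_normal _ h6
    rw [← Subgroup.map_subgroupOf_eq_of_le h5]
    exact ConjAct.normal_of_characteristic_of_normal (K := (P.subtype h5 : Subgroup K))

/-- Let the finite group G have a Sylow 2-subgroup P isomorphic to Z/2^m × Z/2^m with m ≥ 2, and suppose G has no nontrivial normal subgroup of odd order. Then P is normal in G, C_G(P) = P, and the index of P is 1 or 3. -/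
theorem result {G : Type*} [Group G] [Finite G] (P : Sylow 2 G) (m : ℕ) (hm : 2 ≤ m) (e : (P : Subgroup G) ≃* Multiplicative (ZMod (2 ^ m) × ZMod (2 ^ m))) (hO : ∀ N : Subgroup G, N.Normal → Odd (Nat.card N) → N = ⊥) : (P : Subgroup G).Normal ∧ Subgroup.centralizer (P : Set G) = (P : Subgroup G) ∧ ((P : Subgroup G).index = 1 ∨ (P : Subgroup G).index = 3) := by
  have h1 := normal m hm _ le_rfl P e hO
  have h2 : (P : Subgroup G) ≤ Subgroup.centralizer (P : Set G) := Subgroup.le_centralizer_iff_isMulCommutative.2 (S0945.comm_of e)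
  have h3 : Subgroup.centralizer (P : Set G) = (P : Subgroup G) := by
    have := top_of_npc (P.subtype h2) (NPC_of_central (P.subtype h2) fun x hx => Subgroup.mem_center_iff.2 fun y =>
      Subtype.ext (y.2 x hx).symm) (@core_sub _ _ _ hO _ (Subgroup.normal_centralizer (H := (P : Subgroup G))))
    exact le_antisymm (Subgroup.subgroupOf_eq_top.1 this) h2
  have h4 := (S0945.result P m (by omega) e).1
  rw [h3, show Subgroup.normalizer (P : Set G) = ⊤ from Subgroup.normalizer_eq_top (P : Subgroup G), Subgroup.relIndex_top_right] at h4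
  exact ⟨h1, h3, h4⟩

end Cfsg.Agent.S0949
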