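import Cfsg.Statements.S0950
import Cfsg.Agent.H4.Inv2

set_option autoImplicit false
open Cfsg

namespace Cfsg.Agent.S0950

open H4 H1 MonoidAlgebra
open scoped Pointwise


/-- Let S be a Sylow 2-subgroup of the finite group G that is isomorphic to the quaternion group of order 8, and suppose S has no normal complement in G. Then any two subgroups of order 4 of S are conjugate by an element of the normalizer of S. -/
theorem result {G : Type*} [Group G] [Finite G] (S : Sylow 2 G) (e : (S : Subgroup G) ≃* QuaternionGroup 2) (hnc : ∀ N : Subgroup G, N.Normal → ¬ Subgroup.IsComplement' N (S : Subgroup G)) (A B : Subgroup G) (hA : A ≤ S) (hB : B ≤ S) (hA4 : Nat.card A = 4) (hB4 : Nat.card B = 4) : ∃ n ∈ Subgroup.normalizer ((S : Subgroup G) : Set G), B = A.map (MulAut.conj n).toMonoidHom := by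
  obtain ⟨x, hx, h1, h2⟩ := q8_fusion S e fun h => hnc _ inferInstance (isComplement'_of_NPC h S)
  obtain ⟨b, hb⟩ := exists_GQ e
  have key : ∀ A : Subgroup G, A ≤ S → Nat.card A = 4 → ∃ c ∈ NS (S : Subgroup G),
      A = Subgroup.zpowers (c * x * c⁻¹) := fun A hA h4 => by
    obtain ⟨a, ha, h5⟩ : ∃ a ∈ A, a ^ 2 ≠ 1 := by
      by_contra hc
      push Not at hc
      have := Subgroup.card_le_of_le (H := A) (K := Subgroup.zpowers (b ^ 2)) fun a ha =>
        (mem_zpowers_two hb.ord_pow).2 (or_iff_not_imp_left.2 fun h => hb.eq_pow (hA ha) (orderOf_eq_prime (hc a ha) h))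
      rw [h4, Nat.card_zpowers, hb.ord_pow] at this
      omega
    obtain ⟨c, hc, rfl⟩ := h2 a (hA ha) h5
    refine ⟨c, hc, (Subgroup.eq_of_le_of_card_ge (Subgroup.zpowers_le.2 ha) ?_).symm⟩
    rw [h4, Nat.card_zpowers, orderOf_eq_prime_pow (p := 2) (n := 1) h5 (congrArg Subtype.val (q8_four e ⟨_, hA ha⟩))]
    norm_num
  obtain ⟨c, hc, rfl⟩ := key A hA hA4
  obtain ⟨d, hd, rfl⟩ := key B hB hB4
  refine ⟨d * c⁻¹, mul_mem hd (inv_mem hc), ?_⟩
  rw [MonoidHom.map_zpowers]
  congr 1
  simp [mul_assoc]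

end Cfsg.Agent.S0950
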