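import Cfsg.Statements.S0951
import Cfsg.Agent.H4.ZStar
import Cfsg.Agent.H4.Ctr

set_option autoImplicit false
open Cfsg

namespace Cfsg.Agent.S0951

open H4 H1 MonoidAlgebra
open scoped Pointwise


open scoped ComplexConjugate in
theorem card7 {H : Type*} [Group H] [Finite H] {M : Ideal AlgInt} {t x : H} (h : QH t x) (hM : IsPModular 2 M) :
    Nat.card (principalBlock M H) = 7 := by
  classical
  cases nonempty_fintype H
  have k1 : ∀ F : H → ℂ, (∀ g, F (t * g) = F g) → (∀ g, IsConj x (pp 2 g) → F g = 4) → ∑ g, F g = 2 * ∑ g, reg 2 F g +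
      4 * ∑ g, if 2 ∣ orderOf g ∧ 2 ∣ orderOf (t * g) then 1 else 0 := fun F h1 h2 => by
    rw [two_mul, Finset.mul_sum]
    conv_rhs => rw [← sum_shift t (reg 2 F)]; enter [1, 1]; rw [sum_shift t (reg 2 F)]
    rw [← Finset.sum_add_distrib, ← Finset.sum_add_distrib]
    refine Finset.sum_congr rfl fun g _ => ?_
    rcases h.cases g with ⟨a, b⟩ | ⟨a, b⟩ | ⟨a, b, c⟩
    · simp [reg, *]
    · simp [reg, *]
    · simp [reg, a, b, h2 g c]
  obtain ⟨a, b, c, -, -, -, -, -, -, h1⟩ := h.plus_eq hM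
  set s := (fs (principalBlock M H)).filter (fun ζ : IrrCharacter H => ∀ g, (ζ : H → ℂ) (t * g) = (ζ : H → ℂ) g) with hs
  have h4 : KB (principalBlock M H) x x = 4 := by rw [KB_principal_self hM h.px h.idx]; norm_num
  have h5 : ∀ g, IsConj x (pp 2 g) → ∀ y, KB (principalBlock M H) g y = KB (principalBlock M H) x y := fun g hg y =>
    Finset.sum_congr rfl fun ζ hζ => by rw [principal_eq_of_conj hM h.idx hg (mem_fs.1 hζ)]
  have h6 : ∀ g, IsConj x (pp 2 g) → KB (principalBlock M H) g g = 4 := fun g hg => by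
    rw [h5 g hg, ← conj_KB, h5 g hg, h4]; simp [map_ofNat]
  have h7 : ∀ g y, 2 * ∑ ζ ∈ s, ζ.1 g * conj (ζ.1 y) = KB (principalBlock M H) g y + KB (principalBlock M H) (t * g) y :=
    fun g y => by
      rw [KB, KB, ← Finset.sum_add_distrib, Finset.mul_sum, Finset.sum_filter]
      refine Finset.sum_congr rfl fun ζ _ => ?_
      split_ifs with e
      · rw [e]; ring
      · rw [((h.plus_or ζ.2).resolve_left e).1]; ring
  have h8 : ∀ g, KB (principalBlock M H) (t * g) x = KB (principalBlock M H) g x := fun g =>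
    Finset.sum_congr rfl fun ζ _ => by rcases h.plus_or ζ.2 with e | e <;> simp [e]
  have e1 := k1 (fun g => KB (principalBlock M H) g g) (fun g => Finset.sum_congr rfl fun ζ _ => by
    rcases h.plus_or ζ.2 with e | e <;> simp [e]) h6
  have e2 := k1 (fun g => ∑ ζ ∈ s, ζ.1 g * conj (ζ.1 g)) (fun g => Finset.sum_congr rfl fun ζ hζ => by
    rw [(Finset.mem_filter.1 hζ).2]) fun g hg => by
      have := h7 g g
      rw [← conj_KB _ g (t * g), h5 g hg (t * g), conj_KB, h8, h6 g hg, ← conj_KB, ← h5 g hg, h6 g hg] at this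
      simp only [map_ofNat] at this
      linear_combination this / 2
  have e3 := k1 (fun g => KB (principalBlock M H) g x) h8 fun g hg => (h5 g hg x).trans h4
  have e4 : ∑ g, reg 2 (fun g => KB (principalBlock M H) g x) g = 0 := Finset.sum_eq_zero fun g _ => by
    by_cases e : 2 ∣ orderOf g
    · exact reg_of_dvd _ e
    · rw [reg_of_not_dvd _ e, KB_eq_zero_weak hM isPBlock_principal e (by rw [h.ord]; decide)]
  have e5 : ∑ g, reg 2 (fun g => KB (principalBlock M H) g g) g = 2 * ∑ g, reg 2 (fun g => ∑ ζ ∈ s, ζ.1 g * conj (ζ.1 g)) g := by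
    rw [Finset.mul_sum]
    refine Finset.sum_congr rfl fun g _ => ?_
    by_cases e : 2 ∣ orderOf g
    · simp [reg_of_dvd _ e]
    · rw [reg_of_not_dvd _ e, reg_of_not_dvd _ e, h7, KB_eq_zero_weak' hM isPBlock_principal (h.even e) e, add_zero]
  have e6 := inner_KB x (triv_mem_principal (G := H) hM)
  rw [classInner, inv_mul_eq_iff_eq_mul₀ (H3.card_ne_zero' H)] at e6
  simp only [triv_apply, map_one, mul_one] at e6
  have e7 : ∀ ζ : IrrCharacter H, ∑ g, ζ.1 g * conj (ζ.1 g) = Nat.card H := fun ζ => by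
    have := H3.irr_inner_self ζ.2
    rwa [classInner, inv_mul_eq_iff_eq_mul₀ (H3.card_ne_zero' H), mul_one] at this
  have e8 := congrFun (h1 fun ζ _ => ∑ g, ζ.1 g * conj (ζ.1 g)) 1
  simp only [Finset.sum_apply, Pi.add_apply] at e8
  replace e8 : ∑ ζ ∈ s, ∑ g, ζ.1 g * conj (ζ.1 g) = _ := Eq.trans (Finset.sum_congr (by ext; simp [hs]) fun _ _ => rfl) e8
  rw [Finset.sum_comm, e8, e7, e7, e7, e7] at e2
  rw [← card_mul_card] at e1
  apply Nat.cast_injective (R := ℂ)
  apply mul_left_cancel₀ (H3.card_ne_zero' H)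
  push_cast
  linear_combination e1 + 2 * e5 - 2 * e2 + e3 - e6 + 2 * e4 + 0

/-- Let S be a Sylow 2-subgroup of the finite group G isomorphic to the quaternion group of order 8. Suppose G has no nontrivial normal subgroup of odd order and G ≠ S. Then, relative to any maximal ideal M of the algebraic integers containing 2, the principal block of G consists of exactly 7 irreducible characters. -/
theorem result {G : Type*} [Group G] [Finite G] (M : Ideal Cfsg.AlgInt) (hM : Cfsg.IsPModular 2 M) (S : Sylow 2 G) (e : (S : Subgroup G) ≃* QuaternionGroup 2) (hO : ∀ N : Subgroup G, N.Normal → Odd (Nat.card N) → N = ⊥) (hG : (S : Subgroup G) ≠ ⊤) : Nat.card (Cfsg.principalBlock M G) = 7 := by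
  have h0 : pPrimeCore 2 G = ⊥ := hO _ inferInstance (Nat.coprime_two_right.1 H1.pPrimeCore_coprime)
  obtain ⟨t, x, hx, -, ht, h, hc⟩ := q8_QH S e fun ⟨Q, N, h1, h2⟩ => hG (by
    have h3 := hO N h1 (Nat.odd_iff.2 (Nat.two_dvd_ne_zero.1 (h2.index_eq_card ▸ Q.not_dvd_index)))
    rw [← Subgroup.index_eq_one, ← Nat.mul_right_inj (Nat.card_pos (α := S)).ne', mul_one, Subgroup.card_mul_index,
      Nat.card_congr (S.equiv Q).toEquiv, ← h2.card_mul, h3, Subgroup.card_bot, one_mul])
  obtain ⟨b, hb⟩ := exists_GQ e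
  have h1 := zstar_center (hb.isolated (isSylowIn_top S) ht) h0
  have h2 : ∀ u, u ∈ C1 t := fun u => mem_centralizer_singleton.2 (Subgroup.mem_center_iff.1 h1 u).symm
  refine card7 (t := t) (x := x) ⟨h1, by rw [← h.ord, Subgroup.orderOf_mk], congrArg Subtype.val h.sq, fun u hu => ?_, hc⟩ hM
  rcases h.cls ⟨u, h2 u⟩ (isPElt_coe.1 hu) with e | e | e
  · exact .inl (congrArg Subtype.val e)
  · exact .inr (.inl (congrArg Subtype.val e))
  · exact .inr (.inr ((C1 t).subtype.map_isConj e))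

end Cfsg.Agent.S0951
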