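import Cfsg.Statements.S0952
import Cfsg.Agent.H4.Defect

set_option autoImplicit false
open scoped ComplexConjugate
open Cfsg

namespace Cfsg.Agent.S0952

open H4 H1 MonoidAlgebra
open scoped Pointwise


/-- Let χ and ψ be irreducible characters of the finite group G lying in different blocks relative to a maximal ideal M of the algebraic integers containing the prime p. Then the sum of χ x * conj (ψ x) over the elements x of order prime to p is zero. -/
theorem result {G : Type*} [Group G] [Finite G] (p : ℕ) [Fact p.Prime] (M : Ideal Cfsg.AlgInt) (hM : Cfsg.IsPModular p M) (χ ψ : Cfsg.IrrCharacter G) (h : ¬ Cfsg.SameBlock M (χ : G → ℂ) (ψ : G → ℂ)) : ∑ᶠ x ∈ {x : G | ¬ p ∣ orderOf x}, (χ : G → ℂ) x * conj ((ψ : G → ℂ) x) = 0 := by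
  classical
  haveI := Fintype.ofFinite G
  have hB := isPBlock_blockOf (M := M) χ.2
  let ϑ : G → ℂ := fun x => if p ∣ orderOf x then 0 else (χ : G → ℂ) x
  have hϑ : IsClassFunction G ϑ := fun g h => by
    simp only [ϑ, orderOf_conj, H3.irr_class χ.2 g h]
  have e : blockPart (blockOf M (χ : G → ℂ)) ϑ = ϑ := by
    funext u
    by_cases hu : p ∣ orderOf u
    · rw [blockPart_eq_zero_of_section hM hB fun g hg => if_pos (by
        by_contra h; exact not_isConj_pp hM.1 h hu hg.symm)]
      exact (if_pos hu).symm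
    · rw [blockPart_congr_section hM hB (ϑ' := χ) fun g hg => if_neg fun h => not_isConj_pp hM.1 hu h hg,
        blockPart_eq_ev (H3.irr_class χ.2), ev_fI_mul_of_mem (mem_blockOf_self hM χ), ev_single, one_mul]
      exact (if_neg hu).symm
  have h2 := inner_blockPart (blockOf M (χ : G → ℂ)) ϑ ψ
  rw [e, if_neg (show ψ ∉ blockOf M (χ : G → ℂ) from h), classInner, mul_eq_zero] at h2
  rw [finsum_mem_eq_fs, sum_fs_eq_ite]
  refine Eq.trans (Finset.sum_congr rfl fun x _ => ?_) (h2.resolve_left (inv_ne_zero (H3.card_ne_zero' G)))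
  simp only [ϑ, Set.mem_setOf_eq]
  split_ifs <;> simp

end Cfsg.Agent.S0952
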