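import Cfsg.Statements.S0953
import Cfsg.Agent.H4.Maj2

set_option autoImplicit false
open Cfsg

namespace Cfsg.Agent.S0953

open H4 H1 MonoidAlgebra
open scoped Pointwise


/-- Let P be a Sylow p-subgroup of the finite group G with normalizer N, and fix a maximal ideal M of the algebraic integers containing p. The number of blocks of G having P as a defect group equals the number of conjugacy classes of N consisting of elements of order prime to p that centralize P. -/
theorem result {G : Type*} [Group G] [Finite G] (p : ℕ) [Fact p.Prime] (M : Ideal Cfsg.AlgInt) (hM : Cfsg.IsPModular p M) (P : Sylow p G) : Nat.card {B : Set (Cfsg.IrrCharacter G) // Cfsg.IsPBlock M B ∧ Cfsg.IsDefectGroup p M B (P : Subgroup G)} = Nat.card {C : ConjClasses (Subgroup.normalizer ((P : Subgroup G) : Set G)) // ∀ n : Subgroup.normalizer ((P : Subgroup G) : Set G), ConjClasses.mk n = C → ¬ p ∣ orderOf n ∧ (n : G) ∈ Subgroup.centralizer ((P : Subgroup G) : Set G)} := by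
  classical
  have hp : p.Prime := Fact.out
  rw [card_first_main hM P.isPGroup']
  set N := NS (P : Subgroup G)
  set Q := (P : Subgroup G).subgroupOf N
  have hQ : IsSylowIn p Q ⊤ := by
    have := ((isSylowIn_top P).of_le (M := N) Subgroup.le_normalizer le_top).subgroupOf (le_refl N)
    rwa [Subgroup.subgroupOf_self] at this
  have hN : Q.Normal := Subgroup.normal_in_normalizer
  have hC : ∀ n : N, (n : G) ∈ CS (P : Subgroup G) ↔ n ∈ CS Q := fun n =>
    ⟨fun h u hu => Subtype.ext (h u hu), fun h u hu =>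
      congrArg Subtype.val (h ⟨u, Subgroup.le_normalizer hu⟩ hu)⟩
  have hT : ∀ g : N, ¬ p ∣ orderOf g → g ∈ CS Q → ∀ n : N, ConjClasses.mk n = ConjClasses.mk g →
      ¬ p ∣ orderOf n ∧ (n : G) ∈ CS (P : Subgroup G) := fun g h1 h2 n e => by
    obtain ⟨c, rfl⟩ := isConj_iff.1 (ConjClasses.mk_eq_mk_iff_isConj.1 e).symm
    exact ⟨by rwa [orderOf_conj], (hC _).2 ((mem_centralizer_conj_iff (mem_NS_of_normal Q c) g).2 h2)⟩
  refine le_antisymm (blocks_le_classes hM _ _ fun B B' hB h1 hB' h2 g h3 h4 =>
    hT g (not_dvd_of_eB_ne_zero hM hB' h3) ?_) ?_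
  · rw [← Br_eB_normal hM hB' hQ.isPGroup] at h3
    exact mem_of_coeff_ne_zero (Br_mem_Sup _ _) h3
  · set T := {C : ConjClasses N // ∀ n : N, ConjClasses.mk n = C → ¬ p ∣ orderOf n ∧ (n : G) ∈ CS (P : Subgroup G)}
    have := Fintype.ofFinite T
    have h1 := fun C : T => C.2 _ (Quotient.out_eq C.1)
    obtain ⟨B, h2, h3, -⟩ := sep_blocks hM (D := Q) (fun C : T => Quotient.out C.1)
      (fun i j e => Subtype.ext ((isConj_out_iff _ _).1 e |>.trans (Quotient.out_eq _)))
      (fun C => hQ.of_le (le_centralizer_singleton.2 ((hC _).1 (h1 C).2)) le_top) fun i j g hg h => by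
        have h4 := j.2 g ((isConj_out_iff _ _).1 hg).symm
        have h5 : g * (Quotient.out i.1)⁻¹ ∈ Q := Subgroup.zpowers_le.1
          (hQ.le_of_le_normalizer (isPGroup_zpowers hp h) le_top (le_top.trans (NS_eq_top Q).ge))
        have h6 : Commute (g * (Quotient.out i.1)⁻¹) (Quotient.out i.1) := (hC _).1 (h1 i).2 _ h5
        have h7 := pp_mul_of_commute hp h6 h (h1 i).1
        rw [inv_mul_cancel_right, pp_of_not_dvd hp h4.1] at h7
        exact mul_inv_eq_one.1 h7.symm
    exact Nat.card_le_card_of_injective (fun C => ⟨B C, h3 C⟩) fun a b e => h2 (congrArg Subtype.val e)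

end Cfsg.Agent.S0953
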