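import Cfsg.Statements.S0954
import Cfsg.Agent.H4.Cover

set_option autoImplicit false
open Cfsg

namespace Cfsg.Agent.S0954

open H4 H1 MonoidAlgebra
open scoped Pointwise


/-- Let N be a normal subgroup of the finite group G of order prime to p and of p-power index (a normal p-complement), and fix a maximal ideal M of the algebraic integers containing p. Then two irreducible characters χ, ψ of G lie in the same block if and only if some irreducible character of N has nonzero inner product with both the restriction of χ and the restriction of ψ. -/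
theorem result {G : Type*} [Group G] [Fintype G] (p : ℕ) [Fact p.Prime] (M : Ideal Cfsg.AlgInt) (hM : Cfsg.IsPModular p M) (N : Subgroup G) [N.Normal] [Fintype N] (hN : ¬ p ∣ Nat.card N) (hidx : ∃ k : ℕ, N.index = p ^ k) (χ ψ : Cfsg.IrrCharacter G) : Cfsg.SameBlock M (χ : G → ℂ) (ψ : G → ℂ) ↔ ∃ θ : Cfsg.IrrCharacter N, Cfsg.classInner (fun n : N => (χ : G → ℂ) n) (θ : N → ℂ) ≠ 0 ∧ Cfsg.classInner (fun n : N => (ψ : G → ℂ) n) (θ : N → ℂ) ≠ 0 := by
  have hB := isPBlock_blockOf (M := M) χ.2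
  have h1 := mem_blockOf_self hM χ
  constructor
  · intro h
    obtain ⟨θ, h2, h3⟩ := H3.exists_irr_under N χ.2
    have hb := isPBlock_singleton hM hN ⟨θ, h2⟩
    obtain ⟨θ', h5, h4⟩ := exists_under_of_cov hM hB hb ((cov_iff hM hB hb).1 ⟨χ, h1, ⟨θ, h2⟩, rfl, h3⟩) (χ := ψ) h
    exact ⟨θ', by rw [Set.mem_singleton_iff.1 h5]; exact h3, h4⟩
  · rintro ⟨θ, h2, h3⟩
    obtain ⟨n, hn⟩ := hidx
    have hb := isPBlock_singleton hM hN θ
    have hB' := isPBlock_blockOf (M := M) ψ.2
    have h4 := mem_blockOf_self hM ψ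
    exact sameBlock_of_mem hM hB h1 (cov_unique hM hn (isBI_aE hM hb) hB hB'
      ((cov_iff hM hB hb).1 ⟨χ, h1, θ, rfl, h2⟩) ((cov_iff hM hB' hb).1 ⟨ψ, h4, θ, rfl, h3⟩) ▸ h4)

end Cfsg.Agent.S0954
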