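import Cfsg.Statements.S0957
import Cfsg.Agent.H4.Misc

set_option autoImplicit false
open Cfsg

namespace Cfsg.Agent.S0957

open H4 H1 MonoidAlgebra
open scoped Pointwise


/-- Let P be a Sylow p-subgroup of the finite group G, let g, h ∈ G and let p ^ d be the order of a Sylow p-subgroup of the centralizer of g. Then the number of pairs (y, z) with y conjugate to g, z conjugate to h and z * y⁻¹ ∈ P is divisible by the order of P divided by p ^ d. -/
theorem result {G : Type*} [Group G] [Finite G] (p : ℕ) [Fact p.Prime] (P : Sylow p G) (g h : G) (S : Sylow p (Subgroup.centralizer ({g} : Set G))) : Nat.card P / Nat.card S ∣ Nat.card {yz : G × G // IsConj g yz.1 ∧ IsConj h yz.2 ∧ yz.2 * yz.1⁻¹ ∈ (P : Subgroup G)} := by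
  let X := {yz : G × G // IsConj g yz.1 ∧ IsConj h yz.2 ∧ yz.2 * yz.1⁻¹ ∈ (P : Subgroup G)}
  letI : MulAction P X :=
    { smul := fun u x => ⟨(u * x.1.1 * (u : G)⁻¹, u * x.1.2 * (u : G)⁻¹), x.2.1.trans (isConj_iff.2 ⟨_, rfl⟩),
        x.2.2.1.trans (isConj_iff.2 ⟨_, rfl⟩), by
          have := (P : Subgroup G).mul_mem ((P : Subgroup G).mul_mem u.2 x.2.2.2) ((P : Subgroup G).inv_mem u.2)
          convert this using 1; group⟩
      one_smul := fun x => Subtype.ext (Prod.ext (by change _ * _ * _ = _; simp) (by change _ * _ * _ = _; simp))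
      mul_smul := fun a b x => Subtype.ext (Prod.ext (by change _ * _ * _ = _ * (_ * _ * _) * _; simp [mul_assoc])
        (by change _ * _ * _ = _ * (_ * _ * _) * _; simp [mul_assoc])) }
  refine dvd_card_of_orbit (A := P) (X := X) fun x => ?_
  obtain ⟨c, hc⟩ := isConj_iff.1 x.2.1
  have h1 := (isSylowIn_map_subtype S).smul' c
  rw [← C1_conj, hc] at h1
  have h2 := h1.card_dvd (U := (MulAction.stabilizer P x).map (P : Subgroup G).subtype)
    (P.isPGroup'.to_le (Subgroup.map_subtype_le _)) (by
      rintro _ ⟨u, hu, rfl⟩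
      exact mem_centralizer_singleton.2 (mul_inv_eq_iff_eq_mul.1 (congrArg (fun y : X => y.1.1) hu)).symm)
  rw [card_conj_smul, Subgroup.card_subtype, Subgroup.card_subtype] at h2
  obtain ⟨m, hm⟩ := h2
  have h3 := (isSylowIn_top P).card_dvd (isSylowIn_map_subtype S).2 le_top
  rw [Subgroup.card_subtype] at h3
  obtain ⟨d, hd⟩ := h3
  have h4 := (MulAction.stabilizer P x).card_mul_index
  refine ⟨m, Nat.eq_of_mul_eq_mul_left (Nat.card_pos (α := MulAction.stabilizer P x)) ?_⟩
  change Nat.card P = Nat.card S * d at hd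
  change Nat.card S = _ at hm
  rw [h4, hd, Nat.mul_div_cancel_left _ Nat.card_pos, hm]; ring

end Cfsg.Agent.S0957
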