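import Cfsg.Statements.S0959
import Cfsg.Agent.H4.Defect

set_option autoImplicit false
open Cfsg

namespace Cfsg.Agent.S0959

open H4 H1 MonoidAlgebra
open scoped Pointwise


/-- Let B be a block of the finite group G with defect group D (relative to a maximal ideal M of the algebraic integers containing the prime p), and let P be a p-subgroup. Then there is an element g whose idempotent coefficient for B is a local integer outside the local ideal at M and which has a conjugate centralizing P, if and only if some conjugate of P is contained in D. -/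
theorem result {G : Type*} [Group G] [Finite G] (p : ℕ) [Fact p.Prime] (M : Ideal Cfsg.AlgInt) (hM : Cfsg.IsPModular p M) (B : Set (Cfsg.IrrCharacter G)) (hB : Cfsg.IsPBlock M B) (D : Subgroup G) (hD : Cfsg.IsDefectGroup p M B D) (P : Subgroup G) (hP : IsPGroup p P) : (∃ g : G, Cfsg.MemLocalRing M (Cfsg.blockCoeff B g) ∧ ¬ Cfsg.MemLocalIdeal M (Cfsg.blockCoeff B g) ∧ ∃ c : G, IsConj g c ∧ c ∈ Subgroup.centralizer (P : Set G)) ↔ ∃ x : G, P.map (MulAut.conj x).toMonoidHom ≤ D := by
  refine ⟨fun ⟨g, h1, h2, c, h3, h4⟩ => ?_, fun ⟨x, hx⟩ => ?_⟩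
  · refine dg_exists_conj_le hM hB hD hP (Br_ne_zero_of_coeff (g := c) ?_ (le_centralizer_singleton.2 h4))
    rw [← Z_coeff_isConj (eB_mem_Z B) h3]
    exact (eB_ne_zero_iff hM).2 ⟨h1, h2⟩
  · have := Br_conj_ne_zero (eB_mem_Z B) (Br_ne_zero_of_le hx (dg_Br_ne_zero hM hD)) x⁻¹
    rw [← conj_smul_eq_map, conj_inv_smul_smul] at this
    obtain ⟨g, h1, h2⟩ := exists_coeff_of_Br this
    have h3 := (eB_ne_zero_iff hM).1 h1
    exact ⟨g, h3.1, h3.2, g, IsConj.refl g, le_centralizer_singleton.1 h2⟩

end Cfsg.Agent.S0959
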