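import Cfsg.Statements.S4441
import Cfsg.Agent.H3.Df

set_option autoImplicit false
open Cfsg

namespace Cfsg.Agent.S4441

open H4 H1 H3

/-- Let p be an odd prime and G a finite group whose Sylow p-subgroup P has order p; let C = C_G(P), N = N_G(P), e the index of C in N and t = (p − 1)/e; fix a maximal ideal M of the algebraic integers containing p and let B₀ be the principal block. Then B₀ is the disjoint union of a set X of e characters and a set Y of t characters such that: each χ ∈ X has a sign ε_χ with χ(1) ≡ ε_χ (mod p) and χ(x y) = ε_χ for every non-identity x ∈ P and every p-regular y ∈ C; all members of Y agree on the p-regular elements of G; there is one sign ε with θ(1) ≡ ε e (mod p) for every θ ∈ Y; and for every θ ∈ Y and every p-regular g, ε θ(g) = Σ_{χ ∈ X} ε_χ χ(g). -/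
theorem result {G : Type*} [Group G] [Fintype G] (p : ℕ) [Fact p.Prime] (M : Ideal Cfsg.AlgInt) (hM : Cfsg.IsPModular p M) (hodd : p ≠ 2) (P : Sylow p G) (hP : Nat.card P = p) (e : ℕ) (he : (Subgroup.centralizer ((P : Subgroup G) : Set G)).relIndex (Subgroup.normalizer ((P : Subgroup G) : Set G)) = e) : ∃ X Y : Set (Cfsg.IrrCharacter G), Cfsg.principalBlock M G = X ∪ Y ∧ Disjoint X Y ∧ Nat.card X = e ∧ Nat.card Y = (p - 1) / e ∧ ∃ (εX : Cfsg.IrrCharacter G → ℤ) (ε : ℤ), (∀ χ ∈ X, (εX χ = 1 ∨ εX χ = -1) ∧ (Cfsg.charDegree (χ : G → ℂ) : ℤ) ≡ εX χ [ZMOD p] ∧ ∀ x : G, x ∈ (P : Subgroup G) → x ≠ 1 → ∀ y : G, y ∈ Subgroup.centralizer ((P : Subgroup G) : Set G) → ¬ p ∣ orderOf y → (χ : G → ℂ) (x * y) = (εX χ : ℂ)) ∧ (ε = 1 ∨ ε = -1) ∧ (∀ θ ∈ Y, (Cfsg.charDegree (θ : G → ℂ) : ℤ) ≡ ε * (e : ℤ) [ZMOD p]) ∧ (∀ θ ∈ Y, ∀ θ' ∈ Y, ∀ g : G, ¬ p ∣ orderOf g → (θ : G → ℂ) g = (θ' : G → ℂ) g) ∧ ∀ θ ∈ Y,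 ∀ g : G, ¬ p ∣ orderOf g → (ε : ℂ) * (θ : G → ℂ) g = ∑ᶠ χ ∈ X, (εX χ : ℂ) * (χ : G → ℂ) g := by
  classical
  haveI := Fintype.ofFinite P
  haveI : Nontrivial P := Finite.one_lt_card_iff_nontrivial.1 (hM.1.one_lt.trans_eq hP.symm)
  obtain ⟨x, ζ, a, δ, h0, h1, h2, h3, h4⟩ := principal_dade hM P hP
  have h5 := (card_ga le_rfl).trans he
  have h6 := h0.card_OS
  have h7 : 0 < e := h5 ▸ Nat.card_pos
  rw [h5] at h3 h6
  obtain ⟨t, ht⟩ := exists_ne (1 : P)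
  have hpt := isPElt_of_mem hM.1 P.isPGroup' t.2
  refine ⟨_, _, h2.union, Set.disjoint_sdiff_left, h3, ?_, a, δ, fun χ hχ => ⟨h4 χ hχ, ?_, fun z hz h8 y hy h9 => ?_⟩,
    h2.sign, ?_, ?_, ?_⟩
  · rw [h2.card_image, show p - 1 = e * (OS (ga (P : Subgroup G) (NS P))).card from
      Nat.sub_eq_of_eq_add (h6.trans hP).symm, Nat.mul_div_cancel_left _ h7]
  · refine modEq_of_red hM (irr_char χ.2) ?_
    rw [red_char_pelt hM (irr_char χ.2) hpt, h1 χ hχ.1 t ht t (pp_of_isPElt hM.1 hpt), (h2.val' χ hχ).2 t ht, red_intCast]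
  · have h10 : (⟨z, hz⟩ : P) ≠ 1 := fun e => h8 (congrArg Subtype.val e)
    rw [h1 χ hχ.1 ⟨z, hz⟩ h10 _ (pp_mul_of_commute hM.1 (hy z hz) (isPElt_of_mem hM.1 P.isPGroup' hz) h9),
      (h2.val' χ hχ).2 _ h10]
  · rintro _ ⟨o, ho, rfl⟩
    refine modEq_of_red hM (irr_char (ζ o).2) ?_
    rw [red_char_pelt hM (irr_char (ζ o).2) hpt, h1 _ (h2.mem o ho) t ht t (pp_of_isPElt hM.1 hpt), h2.val o ho t ht,
      Int.cast_zero, zero_add, red_mul (intCast_mem _ _) (os_mem_O ho t), red_intCast, red_os hM P.isPGroup' ho, h5]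
    push_cast; rfl
  · rintro _ ⟨o, ho, rfl⟩ _ ⟨o', ho', rfl⟩
    exact h2.reg o ho o' ho'
  · rintro _ ⟨o, ho, rfl⟩ g hg
    have := h2.rel o ho g hg
    rw [finsum_mem_eq_fs]
    linear_combination (exp := 1) -this

end Cfsg.Agent.S4441
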