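import Cfsg.Statements.S0963
import Cfsg.Agent.H4.Cover

set_option autoImplicit false
open Cfsg

namespace Cfsg.Agent.S0963

open H4 H1 MonoidAlgebra
open scoped Pointwise


/-- Let N be a normal subgroup of the finite group G, χ an irreducible character of G and θ an irreducible character of N. Then θ occurs in the restriction of χ to N if and only if, for every n ∈ N, the central character of χ at n (class size in G times χ n over χ 1) equals the sum of θ m / θ 1 over the elements m of N conjugate in G to n. -/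
theorem result {G : Type*} [Group G] [Fintype G] (N : Subgroup G) [N.Normal] [Fintype N] (χ : Cfsg.IrrCharacter G) (θ : Cfsg.IrrCharacter N) : Cfsg.classInner (fun n : N => (χ : G → ℂ) n) (θ : N → ℂ) ≠ 0 ↔ ∀ n : N, Cfsg.centralChar (χ : G → ℂ) (n : G) = Cfsg.inducedCentralChar N (θ : N → ℂ) (n : G) := by
  constructor
  · intro h n
    have h1 : fI {χ} * aF N {θ} ≠ 0 := (cov_iff_F N.subtype).2 ⟨χ, rfl, θ, rfl, h⟩
    have h2 : cls ℂ (n : G) ∈ Sup ℂ (N : Set G) := acls_top (R := ℂ) (n : G) ▸ acls_mem_Sup (NS_eq_top N).ge n.2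
    have h3 := mul_fI_single (resA_mem_Z' N (cls_mem_Z (n : G))) θ
    have h4 := congrArg (incA N) h3
    rw [map_mul, incA_resA_of_Sup h2, map_smul] at h4
    have h5 : om (χ : G → ℂ) (cls ℂ (n : G)) • (fI {χ} * aF N {θ}) =
        om (θ : N → ℂ) (resA N (cls ℂ (n : G))) • (fI {χ} * aF N {θ}) := by
      rw [← smul_mul_assoc, ← mul_fI_single (cls_mem_Z _), Z_comm (cls_mem_Z _), mul_assoc, aF, h4, mul_smul_comm]
    rw [inducedCentralChar_eq, ← om_cls (H3.irr_class χ.2)]
    exact smul_left_injective ℂ h1 h5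
  · intro h h0
    have ha : mk (fun g => (starRingEnd ℂ) (indFun N (θ : N → ℂ) g)) ∈ Z ℂ G :=
      mk_mem_Z fun g x => congrArg _ (H3.class_indFun N _ g x)
    have h1 : om (χ : G → ℂ) (mk fun g => (starRingEnd ℂ) (indFun N (θ : N → ℂ) g)) =
        om (θ : N → ℂ) (resA N (mk fun g => (starRingEnd ℂ) (indFun N (θ : N → ℂ) g))) := by
      by_contra h2
      obtain ⟨g, h3, h4⟩ := exists_cls_ne_zero (f := om (χ : G → ℂ) - om (θ : N → ℂ) ∘ₗ resA N) ha
        (sub_ne_zero.2 h2)
      have h5 : g ∈ N := by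
        by_contra h5
        rw [coeff_mk, H3.indFun_normal_of_not_mem N _ h5, map_zero] at h3
        exact h3 rfl
      exact h4 (sub_eq_zero.2 ((om_cls (H3.irr_class χ.2) g).trans ((h ⟨g, h5⟩).trans
        (inducedCentralChar_eq _ _ _))))
    have k : ∀ ψ : G → ℂ, ev ψ (mk fun g => (starRingEnd ℂ) (indFun N (θ : N → ℂ) g)) =
        Nat.card G * classInner ψ (indFun N (θ : N → ℂ)) := fun ψ => by
      rw [classInner, mul_inv_cancel_left₀ (H3.card_ne_zero' G), ev_apply]
      simp [mul_comm]
    rw [← om_indFun N _ ha, om_apply, om_apply, k, k, H3.inner_indFun_right N _ (H3.irr_class χ.2), h0,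
      H3.inner_indFun_normal_self N θ.2, mul_zero, zero_div, eq_comm, H3.indFun_one] at h1
    simp [H3.irr_one_ne_zero θ.2, Nat.card_pos.ne', N.index_ne_zero_of_finite] at h1

end Cfsg.Agent.S0963
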