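import Cfsg.Statements.S0965
import Cfsg.Agent.H4.Cover

set_option autoImplicit false
open Cfsg

namespace Cfsg.Agent.S0965

open H4 H1 MonoidAlgebra
open scoped Pointwise


/-- Let N be a normal subgroup of the finite group G and let B, b be blocks of G and of N relative to a maximal ideal M of the algebraic integers containing the prime p. Then some χ ∈ B has a constituent in b on restriction to N if and only if, for all χ ∈ B, θ ∈ b and n ∈ N, the central character of χ at n is congruent modulo the local ideal at M to the sum of θ m / θ 1 over the elements m ∈ N conjugate in G to n. -/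
theorem result {G : Type*} [Group G] [Fintype G] (p : ℕ) [Fact p.Prime] (M : Ideal Cfsg.AlgInt) (hM : Cfsg.IsPModular p M) (N : Subgroup G) [N.Normal] [Fintype N] (B : Set (Cfsg.IrrCharacter G)) (hB : Cfsg.IsPBlock M B) (b : Set (Cfsg.IrrCharacter N)) (hb : Cfsg.IsPBlock M b) : (∃ χ ∈ B, ∃ θ ∈ b, Cfsg.classInner (fun n : N => (χ : G → ℂ) n) (θ : N → ℂ) ≠ 0) ↔ ∀ χ ∈ B, ∀ θ ∈ b, ∀ n : N, Cfsg.MemLocalIdeal M (Cfsg.centralChar (χ : G → ℂ) (n : G) - Cfsg.inducedCentralChar N (θ : N → ℂ) (n : G)) := by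
  have k : ∀ χ ∈ B, ∀ θ ∈ b, ∀ n : N, MemLocalIdeal M (centralChar (χ : G → ℂ) (n : G) -
      inducedCentralChar N (θ : N → ℂ) (n : G)) ↔ aL M N b (cls (k M) (n : G)) = lamB M B (cls (k M) (n : G)) :=
    fun χ hχ θ hθ n => by
      rw [aL_apply, ← memLocalIdeal_ind_iff hM hb hB hθ hχ]
      constructor <;> rintro ⟨a, c, h1, h2, h3⟩ <;>
        exact ⟨-a, c, M.neg_mem h1, h2, by rw [← neg_sub, ← h3]; simp [neg_div]⟩
  rw [cov_iff hM hB hb]
  constructor
  · intro h χ hχ θ hθ n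
    exact (k χ hχ θ hθ n).2 (lamB_eq_aL hM hb hB h (cls_mem_Z _)
      (acls_top (R := H4.k M) (n : G) ▸ acls_mem_Sup (NS_eq_top N).ge n.2)).symm
  · intro h
    obtain ⟨χ, hχ⟩ := block_nonempty hM hB
    obtain ⟨θ, hθ⟩ := block_nonempty hM hb
    have he := isBI_aE hM hb
    have h1 := orb_mem_ZA (NS_eq_top N).ge he
    have h2 : orb ⊤ (aE M N b) ∈ Z (H4.k M) G := by rw [Z_eq_Fix]; exact orb_mem_Fix _ _
    have h3 : aL M N b (orb ⊤ (aE M N b)) = lamB M B (orb ⊤ (aE M N b)) := by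
      by_contra h3
      obtain ⟨g, h4, h5⟩ := exists_cls_ne_zero (f := aL M N b - lamB M B) h2 (sub_ne_zero.2 h3)
      exact h5 (sub_eq_zero.2 ((k χ hχ θ hθ ⟨g, mem_of_coeff_ne_zero h1.2 h4⟩).1 (h χ hχ θ hθ _)))
    rw [(aL_eq_one_iff hM hb h1 (orb_idem (NS_eq_top N).ge he)).2 (orb_mul_self (NS_eq_top N).ge he)] at h3
    refine mul_ne_zero_of_orb (K := ⊤) (Z_le_Fix _ (eB_mem_Z B)) ?_
    rw [Z_comm (eB_mem_Z B), idem_mul_eB_eq hM hB h2 (orb_idem (NS_eq_top N).ge he) (h3 ▸ one_ne_zero)]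
    exact eB_ne_zero hM hB

end Cfsg.Agent.S0965
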