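import Cfsg.Statements.S0969
import Cfsg.Agent.H4.Cent

set_option autoImplicit false
open Cfsg

namespace Cfsg.Agent.S0969

open H4 H1 MonoidAlgebra
open scoped Pointwise


/-- Let D be a central p-subgroup of the finite group G and χ an irreducible character with the exponent of p in χ(1) equal to the exponent of p in the index of D; fix a maximal ideal M of the algebraic integers containing p. Then D is a defect group of the block of χ, and χ g = 0 whenever the p-part of g does not lie in D. -/
theorem result {G : Type*} [Group G] [Finite G] (p : ℕ) [Fact p.Prime] (M : Ideal Cfsg.AlgInt) (hM : Cfsg.IsPModular p M) (D : Subgroup G) (hD : IsPGroup p D) (hDZ : D ≤ Subgroup.center G) (χ : Cfsg.IrrCharacter G) (hdeg : (Cfsg.charDegree (χ : G → ℂ)).factorization p = D.index.factorization p) : Cfsg.IsDefectGroup p M (Cfsg.blockOf M (χ : G → ℂ)) D ∧ ∀ g x : G, Cfsg.IsPPart p g x → x ∉ D → (χ : G → ℂ) g = 0 := by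
  have := H3.normal_of_le_center hDZ
  have h1 : ∀ y, ¬ p ∣ orderOf y → y ∈ CS D := fun y _ x hx => (Subgroup.mem_center_iff.1 (hDZ hx) y).symm
  have h2 := hDZ.trans (H3.center_le_charCenter χ.2)
  have h3 : (Nat.card G).factorization p ≤ nu p χ.1 + (Nat.card D).factorization p := by
    rw [nu, hdeg, ← D.index_mul_card, Nat.factorization_mul D.index_ne_zero_of_finite Nat.card_pos.ne', Finsupp.add_apply]
  have h4 := isPBlock_blockOf (M := M) χ.2
  exact ⟨dg_of_rel_defect hM h4 (mem_blockOf_self hM χ) hD h1 h2 h3, fun g x hx hx' =>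
    (rel_defect hM h4 (mem_blockOf_self hM χ) hD h1 h2 h3).1 g (eq_pp_of_isPPart Fact.out hx ▸ hx')⟩

end Cfsg.Agent.S0969
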