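import Cfsg.Statements.S0970
import Cfsg.Agent.H4.Cover

set_option autoImplicit false
open Cfsg

namespace Cfsg.Agent.S0970

open H4 H1 MonoidAlgebra
open scoped Pointwise


/-- Let N be a normal subgroup of the finite group G and fix a maximal ideal M of the algebraic integers containing the prime p. Let b be a block of N that is invariant under conjugation by G, and B a block of G covering b (some χ ∈ B has a constituent in b) whose defect is at least that of every block covering b. If P is a defect group of B, then p does not divide the index of P ⊔ N, the subgroup P ∩ N of N is a defect group of b, and the defect of B equals the defect of b plus the exponent of p in the index of N. -/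
theorem result {G : Type*} [Group G] [Fintype G] (p : ℕ) [Fact p.Prime] (M : Ideal Cfsg.AlgInt) (hM : Cfsg.IsPModular p M) (N : Subgroup G) [hN : N.Normal] [Fintype N] (b : Set (Cfsg.IrrCharacter N)) (hb : Cfsg.IsPBlock M b) (hinv : ∀ g : G, ∀ θ ∈ b, ∀ θ' : Cfsg.IrrCharacter N, (∀ n : N, (θ' : N → ℂ) n = (θ : N → ℂ) ⟨g * n * g⁻¹, hN.conj_mem n n.2 g⟩) → θ' ∈ b) (B : Set (Cfsg.IrrCharacter G)) (hB : Cfsg.IsPBlock M B) (hcov : ∃ χ ∈ B, ∃ θ ∈ b, Cfsg.classInner (fun n : N => (χ : G → ℂ) n) (θ : N → ℂ) ≠ 0) (hmax : ∀ B' : Set (Cfsg.IrrCharacter G), Cfsg.IsPBlock M B' → (∃ χ ∈ B', ∃ θ ∈ b, Cfsg.classInner (fun n : N => (χ : G → ℂ) n) (θ : N → ℂ) ≠ 0) → Cfsg.blockDefect p B' ≤ Cfsg.blockDefect p B) (P : Subgroup G) (hP : Cfsg.IsDefectGroup p M B P) : ¬ p ∣ (P ⊔ N).index ∧ Cfsg.IsDefectGroup p M b ((P ⊓ N).subgroupOf N) ∧ Cfsg.blockDefect p B = Cfsg.blockDefect p b + N.index.factorization p := by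
  haveI := charP_k hM
  have he := isBI_aE hM hb
  have h1 : aE M N b ∈ Fix (k M) ⊤ := mem_Fix.2 fun g _ => (stable_iff' hM hb).1 (hinv g)
  have h1' : aE M N b ∈ Z (k M) G := by rw [Z_eq_Fix]; exact h1
  obtain ⟨D, h2, -, -⟩ := exists_ADG_stable hM le_top (NS_eq_top N).ge he h1
  have h3 := (isBI_eB hM hB).mul_orb le_top (NS_eq_top N).ge he ((cov_iff hM hB hb).1 hcov)
  rw [orb_of_Fix h1] at h3
  have h4 : ADG p ⊤ (aE M N b) P := by
    refine h2.of_card_le le_top (dg_isPGroup hP) (Br_mul_ne_zero_right (dg_isPGroup hP) (Z_le_Fix _ (eB_mem_Z B))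
      (Z_le_Fix _ h1') (h3.symm ▸ dg_Br_ne_zero hM hP)) ?_
    obtain ⟨B', h5, h6⟩ : ∃ B', IsPBlock M B' ∧ Br D (eB M B' * aE M N b) ≠ 0 := by
      by_contra h5
      push Not at h5
      refine h2.ne ?_
      rw [← one_mul (aE M N b), ← sum_eB hM, Finset.sum_mul, map_sum]
      exact Finset.sum_eq_zero fun B' h => h5 B' (mem_blocks.1 h)
    obtain ⟨E, hE, h7⟩ := dg_exists_ge hM h5 h2.isP
      (Br_mul_ne_zero_left h2.isP (Z_le_Fix _ (eB_mem_Z _)) (Z_le_Fix _ h1') h6)
    refine (Subgroup.card_le_of_le h7).trans ?_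
    rw [dg_card hM h5 hE, dg_card hM hB hP]
    exact Nat.pow_le_pow_right (Nat.Prime.pos Fact.out)
      (hmax B' h5 ((cov_iff hM h5 hb).2 fun h => h6 (by rw [h, map_zero])))
  obtain ⟨h5, h6⟩ := h4.stable hM le_top (NS_eq_top N).ge he h1
  have h7 := (dg_iff_ADG hM hb inf_le_right).2 h5
  rw [Subgroup.relIndex_top_right] at h6
  refine ⟨h6, h7, ?_⟩
  rw [← dg_factorization hM hB hP, ← dg_factorization hM hb h7, card_subgroupOf inf_le_right,
    card_eq_card_inf_mul_relIndex (N := N) (le_top.trans (NS_eq_top N).ge),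
    ← Subgroup.relIndex_mul_index (le_sup_right : N ≤ P ⊔ N),
    Nat.factorization_mul Nat.card_pos.ne' relIndex_pos.ne',
    Nat.factorization_mul relIndex_pos.ne' Subgroup.index_ne_zero_of_finite]
  simp [Nat.factorization_eq_zero_of_not_dvd h6]

end Cfsg.Agent.S0970
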