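import Cfsg.Statements.S0972
import Cfsg.Agent.H4.Dade

set_option autoImplicit false
open Cfsg

namespace Cfsg.Agent.S0972

open H4 H1 MonoidAlgebra
open scoped Pointwise
theorem eq_one_of_irr {G : Type*} [Group G] [Finite G] {g : G} (h : ∀ χ : Cfsg.IrrCharacter G, χ.1 g = χ.1 1) :
    g = 1 := by
  classical
  cases nonempty_fintype G
  have h1 : Cfsg.IsClassFunction G fun x => if x = 1 then 1 else 0 := fun x y => by simp [mul_inv_eq_iff_eq_mul]
  have h2 := H3.class_apply_eq_sum h1 g
  simp only [h, ← H3.class_apply_eq_sum h1 1] at h2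
  simpa using h2

/-- Let B be a block of the finite group G (relative to a maximal ideal M of the algebraic integers containing the prime p) with a defect group P that is normal in G. Then P is commutative if and only if every member of B has height zero. -/
theorem result {G : Type*} [Group G] [Finite G] (p : ℕ) [Fact p.Prime] (M : Ideal Cfsg.AlgInt) (hM : Cfsg.IsPModular p M) (B : Set (Cfsg.IrrCharacter G)) (hB : Cfsg.IsPBlock M B) (P : Subgroup G) [P.Normal] (hP : Cfsg.IsDefectGroup p M B P) : (∀ a ∈ P, ∀ c ∈ P, a * c = c * a) ↔ ∀ χ ∈ B, Cfsg.blockHeight p B (χ : G → ℂ) = 0 := by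
  cases nonempty_fintype G
  cases nonempty_fintype P
  have h0 := dg_isPGroup hP
  refine ⟨fun h χ hχ => ?_, fun h a ha c hc => ?_⟩
  · have h1 := nu_add_blockDefect (p := p) hχ
    have h2 := (Nat.factorization_le_iff_dvd (charDegree_ne_zero χ.2) Subgroup.index_ne_zero_of_finite).2
      (H3.ito P h χ.2 (irr_one_eq χ)) p
    have h3 := factorization_index_add (p := p) P
    rw [dg_factorization hM hB hP] at h3
    unfold nu at h1
    omega
  have h1 : ∀ θ : Cfsg.IrrCharacter P, θ.1 1 = 1 := fun θ => by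
    obtain ⟨n, hn⟩ := IsPGroup.iff_card.1 h0
    have h2 : ∀ θ : Cfsg.IrrCharacter P, θ ∈ Cfsg.principalBlock M P := fun θ =>
      (principal_of_complement (N := ⊥) hM (by simp [(Fact.out : p.Prime).ne_one]) (by simpa using hn)).2 (by simp)
    obtain ⟨b, h3, h4⟩ := exists_mul_aE_ne_zero hM P (eB_ne_zero hM hB)
    obtain ⟨θ', h5⟩ := block_nonempty hM h3
    obtain ⟨χ, hχ, h6⟩ := exists_over_of_cov hM hB h3 h4 (block_eq_of_mem hM h3 isPBlock_principal h5 (h2 _) ▸ h2 θ)
    obtain ⟨g, h7, h8⟩ := exists_cls_ne_zero (f := lamB M B) (eB_mem_Z B) (by rw [lamB_eB_self hM hB]; exact one_ne_zero)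
    obtain ⟨x, h9, hx, -⟩ := exists_conj_of_lamB_cls hM hB hP h8
    have h10 := red_ne_zero_of_defectClass hM hB h7 h8 hχ (h χ hχ)
    rw [H3.class_isConj (H3.irr_class χ.2) h9] at h10
    by_contra e
    have h11 : p ∣ Cfsg.charDegree θ.1 := by
      obtain ⟨i, -, hi⟩ := (Nat.dvd_prime_pow Fact.out).1 (hn ▸ charDegree_dvd_card θ.2)
      rw [hi]
      exact dvd_pow_self p fun e' => e (by rw [irr_one_eq, hi, e']; simp)
    cases nonempty_fintype (Subgroup.zpowers x)
    let f : P × Subgroup.zpowers x →* G := P.subtype.noncommCoprod (Subgroup.zpowers x).subtype fun u y => by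
      obtain ⟨_, m, rfl⟩ := y
      exact (show Commute u.1 x from hx _ u.2).zpow_right m
    obtain ⟨m, h12, h13⟩ := H3.char_eq_sum_nat (H3.char_comp (H3.irr_char χ.2) f)
    have h14 := congrFun h13 (1, ⟨x, Subgroup.mem_zpowers x⟩)
    simp only [f, MonoidHom.noncommCoprod_apply, map_one, one_mul, Subgroup.coe_subtype, Finset.sum_apply, Pi.smul_apply,
      smul_eq_mul] at h14
    rw [h14, red_sum _ _ fun ξ _ => mul_mem (natCast_mem _ _) (irr_mem_O _ _)] at h10
    obtain ⟨ξ, -, h15⟩ := Finset.exists_ne_zero_of_sum_ne_zero h10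
    obtain ⟨φ, μ, h16, h17, h18⟩ := H3.irr_prod_exists ξ.2
    have h19 := inner_trans (MonoidHom.inl P (Subgroup.zpowers x)) (H3.char_comp (H3.irr_char χ.2) f) ξ.2
      (H3.irr_char h16) (fun e => h15 (by rw [← h12, e, zero_mul, red_zero])) (by
        rw [h18, show (fun u : P => φ (MonoidHom.inl P (Subgroup.zpowers x) u).1 * μ (MonoidHom.inl P _ u).2) =
          μ 1 • φ from funext fun u => mul_comm _ _, H3.inner_smul_left, H3.irr_inner_self h16, mul_one]
        exact H3.irr_one_ne_zero h17)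
    simp only [f, MonoidHom.noncommCoprod_apply, MonoidHom.inl_apply, map_one, mul_one, Subgroup.coe_subtype] at h19
    obtain ⟨y, rfl⟩ := H3.cj_of_inner_ne_zero P χ.2 θ.2 h16 h6 h19
    refine h15 ?_
    rw [h18, red_mul (natCast_mem _ _) (h18 ▸ irr_mem_O ξ _)]
    dsimp only
    rw [H3.cj_apply_one, irr_one_eq, red_mul (natCast_mem _ _) (char_mem_O (H3.irr_char h17) _), red_natCast _,
      red_natCast, (natCast_eq_zero_iff hM _).2 h11, zero_mul, mul_zero]
  open scoped commutatorElement in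
  have := eq_one_of_irr (g := ⁅(⟨a, ha⟩ : P), (⟨c, hc⟩ : P)⁆) fun θ => (H3.mem_charKer (H3.irr_char θ.2) _).1
    ((H3.degree_one_iff_commutator_le θ.2).1 (h1 θ) (Subgroup.commutator_mem_commutator trivial trivial))
  exact congrArg Subtype.val (commutatorElement_eq_one_iff_mul_comm.1 this)

end Cfsg.Agent.S0972
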