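import Cfsg.Statements.S0973
import Cfsg.Agent.H4.Cons

set_option autoImplicit false
open Cfsg

namespace Cfsg.Agent.S0973

open H4 H1 MonoidAlgebra
open scoped Pointwise


/-- Let B be a block of the finite group G with defect group P (relative to a maximal ideal M of the algebraic integers containing p), and let L = P ⊔ C_G(P). Then (i) some block b of L with defect group P (viewed in L) induces B, and (ii) if b and b' are blocks of L both inducing B, there is n ∈ N_G(P) carrying b to b': for every θ ∈ b there is θ' ∈ b' with θ' x = θ (n x n⁻¹) for all x ∈ L. -/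
theorem result {G : Type*} [Group G] [Finite G] (p : ℕ) [Fact p.Prime] (M : Ideal Cfsg.AlgInt) (hM : Cfsg.IsPModular p M) (B : Set (Cfsg.IrrCharacter G)) (hB : Cfsg.IsPBlock M B) (P : Subgroup G) (hP : Cfsg.IsDefectGroup p M B P) : (∃ b : Set (Cfsg.IrrCharacter ↥(P ⊔ Subgroup.centralizer (P : Set G))), Cfsg.IsDefectGroup p M b (P.subgroupOf (P ⊔ Subgroup.centralizer (P : Set G))) ∧ Cfsg.IsInducedBlock M (P ⊔ Subgroup.centralizer (P : Set G)) b B) ∧ ∀ b b' : Set (Cfsg.IrrCharacter ↥(P ⊔ Subgroup.centralizer (P : Set G))), Cfsg.IsInducedBlock M (P ⊔ Subgroup.centralizer (P : Set G)) b B → Cfsg.IsInducedBlock M (P ⊔ Subgroup.centralizer (P : Set G)) b' B → ∃ n ∈ Subgroup.normalizer (P : Set G), ∀ θ ∈ b, ∃ θ' ∈ b', ∀ x : ↥(P ⊔ Subgroup.centralizer (P : Set G)), ∀ hx : n * (x : G) * n⁻¹ ∈ P ⊔ Subgroup.centralizer (P : Set G), (θ' : ↥(P ⊔ Subgroup.centralizer (P : Set G)) → ℂ) x = (θ : ↥(P ⊔ Subgroup.centralizer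 (P : Set G)) → ℂ) ⟨n * (x : G) * n⁻¹, hx⟩ := by
  have h0 := (dg_iff_ADG_top hM hB).1 hP
  have hz := isBI_eB hM hB
  have h1 : P ⊔ CS P ≤ NS P := sup_le Subgroup.le_normalizer (CS_le_NS P)
  have key := fun b (hb : IsPBlock M b) => ind_iff_mul hM h0.isP le_sup_left le_sup_right h1 hb hB
  refine ⟨?_, fun b b' h h' => ?_⟩
  · obtain ⟨f, hf, h2⟩ := exists_pair hM h0.isP (Z_le_Fix _ hz.mem_Z) (Z_le_Fix _ hz.mem_Z) hz.idem h0.ne
    obtain ⟨b, hb, rfl⟩ := (hf.sup_CS hM h0.isP).exists_block hM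
    exact ⟨b, (dg_iff_ADG hM hb le_sup_left).2 ((MaxP.ADG_stab hM ⟨hz, h0, hf, h2⟩).mono le_sup_left
      (sup_CS_le_Stab hf)), (key b hb).2 h2⟩
  · obtain ⟨x, h2, h3⟩ := exists_cj_eq_of_ADG hM hz h0 le_top ((isBI_aE hM h'.1).of_sup_CS hM h0.isP)
      ((isBI_aE hM h.1).of_sup_CS hM h0.isP) ((key _ h'.1).1 h') ((key _ h.1).1 h)
    have h4 := (conj_smul_eq_self_iff.2 (NS_le_NS_sup_CS P h2.1)).symm
    refine ⟨x⁻¹, (NS P).inv_mem h2.1, fun θ hθ => ?_⟩
    obtain ⟨θ', h5⟩ := exists_conj_irr h4 θ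
    exact ⟨θ', mem_of_aE_eq_cj hM h4 h.1 h'.1 h3.symm hθ h5, fun y hy => h5 _ _ (by simp [mul_assoc])⟩

end Cfsg.Agent.S0973
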