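import Cfsg.Statements.S0986
import Cfsg.Agent.H1.Simp

set_option autoImplicit false
open Cfsg

namespace Cfsg.Agent.S0986

open H1

/-- Let P and Q be distinct Sylow p-subgroups of a finite group G chosen so that the order of P ∩ Q is as large as possible among intersections of two distinct Sylow p-subgroups, and let N be the normalizer of P ∩ Q. Then N has more than one Sylow p-subgroup, any two distinct Sylow p-subgroups of N intersect exactly in P ∩ Q, and each Sylow p-subgroup of N lies in exactly one Sylow p-subgroup of G. -/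
theorem result {G : Type*} [Group G] [Finite G] (p : ℕ) [Fact p.Prime] (P Q : Sylow p G) (hPQ : P ≠ Q) (hmax : ∀ P' Q' : Sylow p G, P' ≠ Q' → Nat.card ↥((P' : Subgroup G) ⊓ (Q' : Subgroup G)) ≤ Nat.card ↥((P : Subgroup G) ⊓ (Q : Subgroup G))) : 1 < Nat.card (Sylow p ↥(Subgroup.normalizer (((P : Subgroup G) ⊓ (Q : Subgroup G) : Subgroup G) : Set G))) ∧ (∀ S T : Sylow p ↥(Subgroup.normalizer (((P : Subgroup G) ⊓ (Q : Subgroup G) : Subgroup G) : Set G)), S ≠ T → (S : Subgroup _) ⊓ (T : Subgroup _) = ((P : Subgroup G) ⊓ (Q : Subgroup G)).subgroupOf (Subgroup.normalizer (((P : Subgroup G) ⊓ (Q : Subgroup G) : Subgroup G) : Set G))) ∧ ∀ S : Sylow p ↥(Subgroup.normalizer (((P : Subgroup G) ⊓ (Q : Subgroup G) : Subgroup G) : Set G)), ∃! T : Sylow p G, (S : Subgroup _).map (Subgroup.normalizer (((P : Subgroup G) ⊓ (Q : Subgroup G) : Subgroup G) : Set G)).subtype ≤ (T : Subgroup G) := by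
  open Subgroup in
  set D := (P : Subgroup G) ⊓ Q
  set N := normalizer (D : Set G)
  have h1 : ∀ R : Sylow p G, D < R → D < N ⊓ R := fun R h => lt_normalizer_inf_of_isPGroup
    R.isPGroup' h
  have h2 : ∀ (U : Subgroup G) (R T : Sylow p G), Nat.card D < Nat.card U → U ≤ R → U ≤ T → R = T :=
    fun U R T h h3 h4 => by_contra fun e =>
      absurd ((card_le_of_le (le_inf h3 h4)).trans (hmax R T e)) h.not_ge
  have hP : D < P := lt_of_le_of_ne inf_le_left fun e => hPQ (Sylow.ext
    (P.is_maximal' Q.isPGroup' (inf_eq_left.1 e)).symm)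
  have hQ : D < Q := lt_of_le_of_ne inf_le_right fun e => hPQ (Sylow.ext
    (Q.is_maximal' P.isPGroup' (inf_eq_right.1 e)))
  have h3 : ∀ S : Sylow p N, ∃! T : Sylow p G, (S : Subgroup N).map N.subtype ≤ T := fun S => by
    obtain ⟨T, hT⟩ := (S.isPGroup'.map N.subtype).exists_le_sylow
    refine ⟨T, hT, fun R hR => h2 _ R T ((card_lt_of_lt (h1 P hP)).trans_le (Nat.le_of_dvd
      Nat.card_pos ((isSylowIn_map_subtype S).card_dvd P.isPGroup'.to_inf_right inf_le_left))) hR hT⟩
  refine ⟨?_, fun S T hST => ?_, h3⟩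
  · by_contra! h
    have : Subsingleton (Sylow p N) := Finite.card_le_one_iff_subsingleton.1 h
    obtain ⟨A, h4, h5⟩ := exists_isSylowIn_ge P.isPGroup'.to_inf_right (inf_le_left (a := N))
    obtain ⟨B, h6, h7⟩ := exists_isSylowIn_ge Q.isPGroup'.to_inf_right (inf_le_left (a := N))
    obtain ⟨T, hT, -⟩ := h3 h4.toSylow
    have h8 := hT
    rw [Subsingleton.elim h4.toSylow h6.toSylow, h6.map_toSylow] at h8
    rw [h4.map_toSylow] at hT
    exact hPQ ((h2 _ P T (card_lt_of_lt (h1 P hP)) inf_le_right (h5.trans hT)).trans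
      (h2 _ T Q (card_lt_of_lt (h1 Q hQ)) (h7.trans h8) inf_le_right))
  · obtain ⟨A, hA, -⟩ := h3 S
    obtain ⟨B, hB, -⟩ := h3 T
    have h4 : ∀ (S : Sylow p N) (A : Sylow p G), (S : Subgroup N).map N.subtype ≤ A →
        (A : Subgroup G).subgroupOf N = S := fun S A h =>
      S.is_maximal' A.isPGroup'.comap_subtype (map_le_iff_le_comap.1 h)
    have h5 : ∀ S : Sylow p N, D ≤ (S : Subgroup N).map N.subtype := fun S =>
      (isSylowIn_map_subtype S).ge_of_normal P.isPGroup'.to_inf_left le_normalizer (map_subtype_le _)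
    have h6 : A ≠ B := by rintro rfl; exact hST (Sylow.ext ((h4 S A hA).symm.trans (h4 T A hB)))
    have h7 : D ≤ (A : Subgroup G) ⊓ B := le_inf ((h5 S).trans hA) ((h5 T).trans hB)
    rw [← h4 S A hA, ← h4 T B hB, eq_of_le_of_card_eq h7 ((card_le_of_le h7).antisymm (hmax A B h6))]
    rfl

end Cfsg.Agent.S0986
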