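import Cfsg.Statements.S0987
import Cfsg.Agent.H1.Simp

set_option autoImplicit false
open Cfsg

namespace Cfsg.Agent.S0987

open H1

/-- If a finite group has order pqr for primes p < q < r, then its Sylow r-subgroups are normal. -/
theorem result {G : Type*} [Group G] [Finite G] (p q r : ℕ) (hp : p.Prime) (hq : q.Prime) [Fact r.Prime] (hpq : p < q) (hqr : q < r) (hG : Nat.card G = p * q * r) (R : Sylow r G) : (R : Subgroup G).Normal := by
  open Subgroup in
  have hr : r.Prime := Fact.out
  have := Fact.mk hp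
  obtain ⟨P⟩ : Nonempty (Sylow p G) := inferInstance
  have h1 : ¬ p ∣ q * r := fun h => by
    rcases (hp.dvd_mul).1 h with h | h
    · exact hpq.ne ((Nat.prime_dvd_prime_iff_eq hp hq).1 h)
    · exact (hpq.trans hqr).ne ((Nat.prime_dvd_prime_iff_eq hp hr).1 h)
  obtain ⟨P, K, hK, h2⟩ := hasNPC_of_card_le P (d := 1) (by
    rw [P.card_eq_multiplicity, hG, mul_assoc, Nat.factorization_mul hp.ne_zero
      (mul_ne_zero hq.ne_zero hr.ne_zero), Finsupp.add_apply, hp.factorization_self,
      Nat.factorization_eq_zero_of_not_dvd h1]) fun s i h2 h3 h4 h5 h6 h7 => by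
    obtain rfl : i = 1 := by omega
    rw [pow_one] at h7
    have := Nat.le_of_dvd (by have := hp.two_le; omega) h7
    rw [hG, h2.dvd_mul, h2.dvd_mul, Nat.prime_dvd_prime_iff_eq h2 hp,
      Nat.prime_dvd_prime_iff_eq h2 hq, Nat.prime_dvd_prime_iff_eq h2 hr] at h4
    omega
  have h3 : Nat.card K = q * r := by
    have := h2.card_mul
    rw [P.card_eq_multiplicity, hG, mul_assoc, Nat.factorization_mul hp.ne_zero
      (mul_ne_zero hq.ne_zero hr.ne_zero), Finsupp.add_apply, hp.factorization_self,
      Nat.factorization_eq_zero_of_not_dvd h1, pow_one, mul_comm] at this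
    exact Nat.eq_of_mul_eq_mul_left hp.pos this
  have h4 : (R : Subgroup G) ≤ K := le_of_coprime_index (by
    rw [h2.symm.index_eq_card]
    exact IsPGroup.coprime_card_of_ne r p (hpq.trans hqr).ne' _ _ R.isPGroup' P.isPGroup')
  have h5 := (isSylowIn_top R).of_le h4 le_top
  have h6 : Nat.card (Sylow r K) = 1 := by
    have h6 := card_sylow_modEq_one r K
    have h7 := h5.toSylow.card_dvd_index
    have h8 := (hr.coprime_iff_not_dvd.2 h5.toSylow.not_dvd_index).symm.dvd_of_dvd_mul_right
      (h3 ▸ index_dvd_card _)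
    rcases (Nat.dvd_prime hq).1 (h7.trans h8) with h | h
    · exact h
    · rw [h, Nat.ModEq, Nat.mod_eq_of_lt hqr, Nat.mod_eq_of_lt hr.one_lt] at h6
      exact absurd h6 hq.ne_one
  rw [h5.card_sylow_rel, relIndex_eq_one] at h6
  exact normalizer_eq_top_iff.1 (top_le_iff.1 (le_normalizer_of_normal.trans
    (h5.normalizer_le_of_normal h6)))

end Cfsg.Agent.S0987
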