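import Cfsg.Statements.S0988
import Cfsg.Agent.H1.Simp
import Cfsg.Agent.H3.Galois

set_option autoImplicit false
open Cfsg

namespace Cfsg.Agent.S0988

open H1

/-- If a finite simple group has order p^2 * q * r with p, q and r prime, then its order is 60. -/
theorem result {G : Type*} [Group G] [Finite G] [IsSimpleGroup G] (p q r : ℕ) (hp : p.Prime) (hq : q.Prime) (hr : r.Prime) (hG : Nat.card G = p ^ 2 * q * r) : Nat.card G = 60 := by
  have h0 : ¬ (Nat.card G).Prime := by
    rw [hG, sq, mul_assoc, mul_assoc]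
    exact Nat.not_prime_mul hp.ne_one (mul_ne_one.2 (Or.inl hp.ne_one))
  have hb : ∀ {s t a b : ℕ}, s.Prime → t.Prime → Nat.card G ≠ s ^ a * t ^ b := fun h1 h2 e =>
    h0 (prime_card_of_solvable (H3.burnside_paqb h1 h2 e.dvd))
  have h1 : p ≠ q := by rintro rfl; exact hb (a := 3) (b := 1) hp hr (by rw [hG]; ring)
  have h2 : p ≠ r := by rintro rfl; exact hb (a := 3) (b := 1) hp hq (by rw [hG]; ring)
  have h3 : q ≠ r := by rintro rfl; exact hb (a := 2) (b := 2) hp hq (by rw [hG]; ring)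
  have hd : ∀ s : ℕ, s.Prime → s ∣ Nat.card G → s = p ∨ s = q ∨ s = r := fun s hs h => by
    rwa [hG, hs.dvd_mul, hs.dvd_mul, hs.prime.dvd_pow_iff_dvd two_ne_zero,
      Nat.prime_dvd_prime_iff_eq hs hp, Nat.prime_dvd_prime_iff_eq hs hq,
      Nat.prime_dvd_prime_iff_eq hs hr, or_assoc] at h
  have key : ∀ s d : ℕ, s.Prime → (Nat.card G).factorization s = d → 0 < d →
      ∃ t i, t.Prime ∧ t ≠ s ∧ t ∣ Nat.card G ∧ 1 ≤ i ∧ i ≤ d ∧ t ∣ s ^ i - 1 := by
    intro s d hs e h
    have := Fact.mk hs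
    obtain ⟨P⟩ : Nonempty (Sylow s G) := inferInstance
    by_contra! hh
    exact h0 (prime_card_of_isPGroup (isPGroup_of_hasNPC_of_simple (hasNPC_of_card_le P
      (by rw [P.card_eq_multiplicity, e]) hh) (Nat.dvd_of_factorization_pos (by omega))))
  have hf : ∀ s, (Nat.card G).factorization s = (if p = s then 2 else 0) + (if q = s then 1 else 0)
      + if r = s then 1 else 0 := fun s => by
    rw [hG, Nat.factorization_mul (mul_ne_zero (pow_ne_zero _ hp.ne_zero) hq.ne_zero) hr.ne_zero,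
      Nat.factorization_mul (pow_ne_zero _ hp.ne_zero) hq.ne_zero, hp.factorization_pow,
      hq.factorization, hr.factorization]
    simp [Finsupp.single_apply]
  have h4 : ∀ s, s.Prime → (Nat.card G).factorization s = 1 → ∃ t, t < s ∧ (t = p ∨ t = q ∨ t = r) :=
    fun s hs e => by
      obtain ⟨t, i, h5, -, h6, h7, h8, h9⟩ := key s 1 hs e one_pos
      obtain rfl : i = 1 := by omega
      have := hs.two_le
      exact ⟨t, by have := Nat.le_of_dvd (by simp; omega) h9; simp at this; omega, hd t h5 h6⟩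
  obtain ⟨a, h5, h6⟩ := h4 q hq (by simp [hf, h1, h3.symm])
  obtain ⟨b, h7, h8⟩ := h4 r hr (by simp [hf, h2, h3])
  obtain ⟨t, i, h9, h10, h11, h12, h13, h14⟩ := key p 2 hp (by simp [hf, h1.symm, h2.symm]) two_pos
  have := Fact.mk hp
  obtain ⟨rfl, rfl, -⟩ := small_prime_aux h9 (by have := hd _ h9 h11; omega) h12 h13 h14
  obtain ⟨s, hs, h15, h16⟩ : ∃ s : ℕ, s.Prime ∧ Nat.card G = 12 * s ∧ 3 < s := by
    have := hq.two_le
    have := hr.two_le
    rcases hd _ h9 h11 with e | rfl | rfl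
    · omega
    · exact ⟨r, hr, by rw [hG]; ring, by omega⟩
    · exact ⟨q, hq, by rw [hG]; ring, by omega⟩
  have := Fact.mk hs
  obtain ⟨P⟩ : Nonempty (Sylow s G) := inferInstance
  have h17 := card_sylow_ne_one' (p := s) h0 (h15 ▸ dvd_mul_left _ _)
  have h18 := (Nat.modEq_iff_dvd' Nat.card_pos).1 (card_sylow_modEq_one s G).symm
  have h19 := P.card_dvd_index.trans ((hs.coprime_iff_not_dvd.2 P.not_dvd_index
    ).symm.dvd_of_dvd_mul_right (h15 ▸ P.1.index_dvd_card))
  have h20 := card_sylow_mul P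
  have h21 := Nat.le_of_dvd (by omega) h19
  have h22 : Nat.card (Sylow s G) ≠ 12 := fun e => not_norm_le_cent h0 (h15 ▸ dvd_mul_left _ _) P (by
    rw [e, h15] at h20
    have h23 := P.dvd_card_of_dvd_card (h15 ▸ dvd_mul_left _ _)
    have h24 := eq_of_le_of_card_eq (Subgroup.le_normalizer (H := P.1)) ((Subgroup.card_le_of_le
      Subgroup.le_normalizer).antisymm (by have := Nat.le_of_dvd Nat.card_pos h23; omega))
    rw [← h24] at h20 ⊢
    have := isCyclic_of_prime_card (α := P) (p := s) (by omega)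
    exact L.le_centralizer_of_comm inferInstance)
  generalize Nat.card (Sylow s G) = n at *
  have h23 := Nat.le_of_dvd (by have := Nat.pos_of_dvd_of_pos h19; omega) h18
  interval_cases n <;> try omega
  obtain rfl : s = 5 := by interval_cases s <;> omega
  exact h15

end Cfsg.Agent.S0988
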