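import Cfsg.Statements.S0991
import Cfsg.Agent.H1.Simp

set_option autoImplicit false
open Cfsg

namespace Cfsg.Agent.S0991

open H1

/-- Embedding Theorem: if a non-abelian finite simple group has a proper subgroup of index n, then it is isomorphic to a subgroup of the alternating group of degree n. -/
theorem result {G : Type*} [Group G] [Finite G] [IsSimpleGroup G] (hG : ¬ IsMulCommutative G) (H : Subgroup G) (hH : H ≠ ⊤) : ∃ f : G →* ↥(alternatingGroup (Fin H.index)), Function.Injective f := by
  refine exists_inj_alt (fun h => hG ?_) hH
  have := isCyclic_of_prime_card (p := 2) h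
  infer_instance

end Cfsg.Agent.S0991
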