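import Cfsg.Statements.S0992
import Cfsg.Agent.H1.Simp
import Cfsg.Agent.H1.MC

set_option autoImplicit false
open Cfsg

namespace Cfsg.Agent.S0992

open H1

/-- Let G be a non-abelian finite simple group of even order not divisible by 8, and T a Sylow 2-subgroup. Then T is a Klein four-group and the centralizer of T has index 3 in the normalizer of T. -/
theorem result {G : Type*} [Group G] [Finite G] [IsSimpleGroup G] (hG : ¬ IsMulCommutative G) (h2 : Even (Nat.card G)) (h8 : ¬ 8 ∣ Nat.card G) (T : Sylow 2 G) : IsKleinFour ↥(T : Subgroup G) ∧ (Subgroup.centralizer ((T : Subgroup G) : Set G)).relIndex (Subgroup.normalizer ((T : Subgroup G) : Set G)) = 3 := by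
  open Subgroup in
  have h0 : ¬ (Nat.card G).Prime := fun h => hG (by
    have := Fact.mk h; have := isCyclic_of_prime_card (α := G) rfl; infer_instance)
  have h1 : ¬ IsCyclic T := fun h => h0 (prime_card_of_isPGroup (isPGroup_of_hasNPC_of_simple
    (MonoidHom.ker_transferSylow_isComplement' T (h.normalizer_le_centralizer
      ((Nat.minFac_eq_two_iff _).2 h2.two_dvd)) |> fun h => ⟨T, _, inferInstance, h⟩) h2.two_dvd))
  obtain ⟨k, hk⟩ := L.exists_card_eq_pow T.isPGroup'
  have h3 : Nat.card T = 4 := by
    rcases k with _ | _ | _ | k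
    · have := (Nat.card_eq_one_iff_unique.1 hk).1; exact absurd isCyclic_of_subsingleton h1
    · exact absurd (isCyclic_of_prime_card (p := 2) hk) h1
    · exact hk
    · exact absurd ((hk ▸ pow_dvd_pow 2 (show 3 ≤ k + 1 + 1 + 1 by omega) : 2 ^ 3 ∣ Nat.card T).trans
        (card_subgroup_dvd_card _)) h8
  have h4 : IsKleinFour T := ⟨h3, ((not_isCyclic_iff_exponent_eq_prime Nat.prime_two h3).1 h1)⟩
  refine ⟨h4, ?_⟩
  have h5 := klein_relIndex_dvd h4
  have h6 := ((isSylowIn_top T).of_le le_normalizer le_top).not_dvd_relIndex_of_le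
    (L.le_centralizer_of_comm (IsKleinFour.isMulCommutative (G := T)))
  have h7 := mt relIndex_eq_one.1 (not_norm_le_cent h0 h2.two_dvd T)
  have := Nat.le_of_dvd (by omega) h5
  generalize (centralizer ((T : Subgroup G) : Set G)).relIndex _ = m at *
  interval_cases m <;> omega

end Cfsg.Agent.S0992
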