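import Cfsg.Statements.S0995
import Cfsg.Agent.H1.Simp

set_option autoImplicit false
open Cfsg

namespace Cfsg.Agent.S0995

open H1

/-- Let G be a finite perfect group containing an element z of prime order p whose centralizer is the cyclic group it generates. Let t be the number of conjugacy classes of elements of order p. Then t divides p - 1, the number of Sylow p-subgroups has the form 1 + n * p, and |G| * t = (p - 1) * p * (1 + n * p). -/
theorem result {G : Type*} [Group G] [Finite G] (hperf : commutator G = ⊤) (p : ℕ) [Fact p.Prime] (z : G) (hz : orderOf z = p) (hC : Subgroup.centralizer ({z} : Set G) = Subgroup.zpowers z) : ∃ n t : ℕ, t = Nat.card {c : ConjClasses G // ∃ g : G, ConjClasses.mk g = c ∧ orderOf g = p} ∧ t ∣ p - 1 ∧ Nat.card (Sylow p G) = 1 + n * p ∧ Nat.card G * t = (p - 1) * p * (1 + n * p) := by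
  obtain ⟨P, hP, h⟩ := card_formula hz hC
  have h0 : p.Prime := Fact.out
  obtain ⟨n, hn⟩ := (Nat.modEq_iff_dvd' Nat.card_pos).1 (card_sylow_modEq_one p G).symm
  have h1 : Nat.card (Sylow p G) = 1 + n * p := by
    have := Nat.card_pos (α := Sylow p G); rw [mul_comm]; omega
  refine ⟨n, _, rfl, ?_, h1, h1 ▸ h⟩
  obtain ⟨e, he⟩ := Subgroup.card_dvd_of_le (Subgroup.le_normalizer (H := P.1))
  rw [← card_sylow_mul P, he, hP, Nat.card_zpowers, hz] at h
  exact ⟨e, Nat.eq_of_mul_eq_mul_right (Nat.mul_pos h0.pos (Nat.card_pos (α := Sylow p G)))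
    (by linarith)⟩

end Cfsg.Agent.S0995
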