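import Cfsg.Statements.S0996
import Cfsg.Agent.H3.BR3

set_option autoImplicit false
open Cfsg

namespace Cfsg.Agent.S0996

open H3 H4 Subgroup

/-- Let G be a finite perfect group containing an element z of prime order p whose centralizer is the cyclic group it generates, and suppose the number 1 + n * p of Sylow p-subgroups satisfies n < (p + 3) / 2. Then p > 3 and G is isomorphic to the projective special linear group of dimension 2 over the field with p elements, or p - 1 is a power of 2 and G is isomorphic to that group over the field with p - 1 elements. -/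
theorem result {G : Type*} [Group G] [Finite G] (hperf : commutator G = ⊤) (p : ℕ) [Fact p.Prime] (z : G) (hz : orderOf z = p) (hC : Subgroup.centralizer ({z} : Set G) = Subgroup.zpowers z) (hn : 2 * Nat.card (Sylow p G) < (p + 1) * (p + 2)) : (∃ (F : Type) (_ : Field F) (_ : Fintype F), Fintype.card F = p ∧ 3 < p ∧ Nonempty (G ≃* Matrix.ProjectiveSpecialLinearGroup (Fin 2) F)) ∨ (∃ (m : ℕ) (F : Type) (_ : Field F) (_ : Fintype F), Fintype.card F = 2 ^ m ∧ p = 2 ^ m + 1 ∧ 3 < p ∧ Nonempty (G ≃* Matrix.ProjectiveSpecialLinearGroup (Fin 2) F)) := by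
  have hp : p.Prime := Fact.out
  have h : SC p z := ⟨hz, hC⟩
  obtain ⟨P, hP⟩ := h.syl.exists_sylow_top
  obtain ⟨n, hn⟩ := exists_eq_one_add (card_sylow_mod (p := p) G)
  obtain ⟨a, b, c⟩ := brauer_reynolds hperf P (hP ▸ h.card) fun a => by
    have := (hn ▸ a).le hp.one_lt
    nlinarith [Nat.mul_le_mul_right p this]
  have d := hp.coprime_iff_not_dvd.1 (H9.pPrimeCore_cop (G := G) p).symm
  have : pPrimeCore p G = ⊥ := card_eq_one.1 (by
    have k := relIndex_mul_index (le_sup_left : NS (P : Subgroup G) ≤ NS (P : Subgroup G) ⊔ pPrimeCore p G)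
    have l := H1.card_sup_of_disjoint (le_normalizer_of_normal (H := pPrimeCore p G)) (h.inf_N d)
    rw [← hP, ← H1.card_mul_relIndex le_sup_left, Nat.mul_right_inj Nat.card_pos.ne'] at l
    rw [l, ← card_sylow_eq] at k
    obtain ⟨u, e⟩ := exists_eq_one_add (Eq.trans ((H1.fpf_iff.2 fun x x1 y y1 e => or_iff_not_imp_left.2 fun f =>
      (h.inf_bot d).le ⟨y1, hC.le ((C1_eq_prime h.card x1 f).trans (H4.centralizer_zpowers z) ▸
        mem_centralizer_singleton_iff.2 e.symm)⟩).card_modEq (K := pPrimeCore p G) le_normalizer_of_normal) (by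
          rw [h.card]; exact Nat.mod_eq_of_lt hp.one_lt))
    rw [h.card] at e
    obtain rfl | u0 := u.eq_zero_or_pos
    · simpa using e
    · have := Nat.mul_le_mul (show p + 1 ≤ Nat.card (pPrimeCore p G) by nlinarith) a
      nlinarith)
  have E := (QuotientGroup.quotientBot.symm.trans (QuotientGroup.quotientMulEquivOfEq this.symm) : G ≃* _)
  rcases c with ⟨⟨f⟩⟩ | ⟨m, F, _, _, c, d, ⟨f⟩⟩
  · exact Or.inl ⟨ZMod p, inferInstance, inferInstance, ZMod.card p, b, ⟨E.trans f⟩⟩
  · exact Or.inr ⟨m, F, inferInstance, inferInstance, c, d, b, ⟨(E.trans f).trans (slPsl F (two_eq_zero (by rintro rfl; omega) c))⟩⟩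

end Cfsg.Agent.S0996
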