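import Cfsg.Statements.S0997
import Cfsg.Agent.H3.Ord5

set_option autoImplicit false
open Cfsg

namespace Cfsg.Agent.S0997

/-- Let G be a non-cyclic finite simple group of order p * q^b * g₀, where p and q are distinct primes and g₀ < p - 1. Then either p has the form 2^m + 1 or 2^m - 1 and G is isomorphic to the projective special linear group of dimension 2 over the field with p elements, or p = 2^m + 1 > 3 and G is isomorphic to that group over the field with 2^m elements. -/
theorem result {G : Type*} [Group G] [Finite G] [IsSimpleGroup G] (hG : ¬ IsCyclic G) (p q b g₀ : ℕ) (hp : p.Prime) (hq : q.Prime) (hpq : p ≠ q) (hG' : Nat.card G = p * q ^ b * g₀) (hg : g₀ < p - 1) : (∃ (m : ℕ) (F : Type) (_ : Field F) (_ : Fintype F), Fintype.card F = p ∧ (p = 2 ^ m + 1 ∨ p = 2 ^ m - 1) ∧ Nonempty (G ≃* Matrix.ProjectiveSpecialLinearGroup (Fin 2) F)) ∨ (∃ (m : ℕ) (F : Type) (_ : Field F) (_ : Fintype F), Fintype.card F = 2 ^ m ∧ p = 2 ^ m + 1 ∧ 3 < p ∧ Nonempty (G ≃* Matrix.ProjectiveSpecialLinearGroup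 (Fin 2) F)) := by
  have := Fact.mk hp
  have := Fintype.ofFinite G
  have nc : ¬ IsMulCommutative G := fun a => hG (by
    have := Fact.mk (H1.prime_card_of_comm a.1.1)
    exact isCyclic_of_prime_card (α := G) rfl)
  have g0 : g₀ ≠ 0 := by rintro rfl; exact (Nat.card_pos (α := G)).ne' (by simpa using hG')
  obtain ⟨c, g, h1, rfl⟩ := Nat.exists_eq_pow_mul_and_not_dvd g0 q hq.ne_one
  have := Nat.le_mul_of_pos_left g (pow_pos hq.pos c)
  obtain ⟨a, m, hm⟩ := H3.brauer_tuan nc (b := b + c) (g := g) hq hpq.symm (by rw [hG']; ring) (by omega) h1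
  rcases Cfsg.Agent.S0999.result hG p hp (by rw [hG', mul_assoc]; exact dvd_mul_right _ _) a with ⟨F, _, _, a, -, b⟩ | a
  · exact Or.inl ⟨m, F, inferInstance, inferInstance, a, by omega, b⟩
  · exact Or.inr a

end Cfsg.Agent.S0997
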