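import Cfsg.Statements.S0998
import Cfsg.Agent.H3.Ord5
import Cfsg.Agent.S0499
import Cfsg.Agent.S0494
import Cfsg.Agent.FT.Final

set_option autoImplicit false
open Cfsg

namespace Cfsg.Agent.S0998

open H3

theorem aux {G : Type*} [Group G] [Finite G] [IsSimpleGroup G] (hG : ¬ IsCyclic G) (p q r b : ℕ) (hp : p.Prime) (hq : q.Prime) (hr : r.Prime) (hpq : p ≠ q) (hpr : r < p) (hqr : q ≠ r) (hG' : Nat.card G = p * r * q ^ b) : (∃ (F : Type) (_ : Field F) (_ : Fintype F), Fintype.card F = 5 ∧ Nonempty (G ≃* Matrix.ProjectiveSpecialLinearGroup (Fin 2) F)) ∨ (∃ (F : Type) (_ : Field F) (_ : Fintype F), Fintype.card F = 7 ∧ Nonempty (G ≃* Matrix.ProjectiveSpecialLinearGroup (Fin 2) F)) := by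
  have := Fact.mk hp
  have := Fintype.ofFinite G
  have np : ¬ (Nat.card G).Prime := fun a => hG (by have := Fact.mk a; exact isCyclic_of_prime_card (α := G) rfl)
  have nc : ¬ IsMulCommutative G := fun a => np (H1.prime_card_of_comm a.1.1)
  have h4 : 4 ∣ Nat.card G := by
    have := Cfsg.Agent.S0499.result nc (Nat.not_odd_iff_even.1 fun e => np (H1.prime_card_of_solvable (FT.feit_thompson G e)))
    omega
  have p2 : Odd p := hp.odd_of_ne_two (by have := hr.two_le; omega)
  obtain rfl : q = 2 := by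
    by_contra a
    have o := (p2.mul (hq.odd_of_ne_two a).pow : Odd (p * q ^ b))
    rw [hG', mul_right_comm] at h4
    have := (Nat.Coprime.pow_left 2 (Nat.coprime_two_left.2 o)).dvd_of_dvd_mul_left h4
    rcases (Nat.dvd_prime hr).1 this with c | c
    · omega
    · rw [← c] at hr; norm_num at hr
  have r2 : Odd r := hr.odd_of_ne_two hqr.symm
  have r3 := hr.two_le
  obtain ⟨a, -⟩ := brauer_tuan nc (b := b) (g := r) hq hpq.symm (by rw [hG']; ring)
    (by obtain ⟨x, rfl⟩ := p2; obtain ⟨y, rfl⟩ := r2; omega) fun e => hqr ((Nat.prime_dvd_prime_iff_eq hq hr).1 e)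
  have k3 : ∀ x, Odd x → x ∣ r * 2 ^ b → x = 1 ∨ x = r := fun x o d =>
    (Nat.dvd_prime hr).1 (((Nat.coprime_two_right.2 o).pow_right b).dvd_of_dvd_mul_right d)
  have p3 : ¬ 3 ∣ p := fun e => by have := (Nat.prime_dvd_prime_iff_eq Nat.prime_three hp).1 e; obtain ⟨y, rfl⟩ := r2; omega
  obtain ⟨x, rfl⟩ := p2
  rcases ord_big.{_, 0, 0} np _ hp (by rw [hG', mul_assoc]; exact dvd_mul_right _ _) a with ⟨c, d⟩ | ⟨c, -⟩
  · have e : r * 2 ^ b = 2 * (x * (x + 1)) := by
      rw [hG', add_tsub_cancel_right] at c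
      refine Nat.eq_of_mul_eq_mul_left (show 0 < 2 * (2 * x + 1) by omega) (by linarith)
    obtain rfl : 3 = r := (k3 3 (by decide) (by
      rw [e]; refine Dvd.dvd.mul_left ?_ 2
      by_cases f : 3 ∣ x
      · exact f.mul_right _
      · exact Dvd.dvd.mul_left (by rcases (by omega : x % 3 = 0 ∨ x % 3 = 1 ∨ x % 3 = 2) with i | i | i <;> omega) _)).resolve_left (by omega)
    rcases Nat.even_or_odd x with f | f
    · have := k3 (x + 1) f.add_one (by rw [e]; exact (dvd_mul_left _ _).mul_left _)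
      obtain rfl : x = 2 := by omega
      exact Or.inl ⟨ZMod 5, inferInstance, inferInstance, ZMod.card 5, d _ (ZMod.card 5)⟩
    · have := k3 x f (by rw [e]; exact (dvd_mul_right _ _).mul_left _)
      obtain rfl : x = 3 := by omega
      exact Or.inr ⟨ZMod 7, inferInstance, inferInstance, ZMod.card 7, d _ (ZMod.card 7)⟩
  · obtain ⟨x, rfl⟩ := Nat.exists_eq_add_of_lt (show 0 < x by omega)
    rw [show 2 * (0 + x + 1) + 1 - 1 = 2 * x + 2 by omega, show 2 * (0 + x + 1) + 1 - 2 = 2 * x + 1 by omega] at c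
    have e : r * 2 ^ b = (2 * x + 2) * (2 * x + 1) := by
      rw [hG'] at c
      refine Nat.eq_of_mul_eq_mul_left (show 0 < 2 * (0 + x + 1) + 1 by omega) (by linarith)
    obtain rfl : 3 = r := (k3 3 (by decide) (by
      rw [e]
      by_cases f : 3 ∣ 2 * x + 1
      · exact f.mul_left _
      · exact Dvd.dvd.mul_right (by rcases (by omega : x % 3 = 0 ∨ x % 3 = 1 ∨ x % 3 = 2) with i | i | i <;> omega) _)).resolve_left (by omega)
    have := k3 (2 * x + 1) ⟨x, rfl⟩ (by rw [e]; exact dvd_mul_left _ _)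
    obtain rfl : x = 1 := by omega
    have : Fact (Nat.Prime 5) := ⟨by norm_num⟩
    have s := Matrix.ProjectiveSpecialLinearGroup.rank_two_simple (F := ZMod 5) (by simp)
    have t := H5.card_PSL2_mul (F := ZMod 5)
    rw [ZMod.card] at t
    obtain ⟨e1⟩ := Cfsg.Agent.S0494.result (G := G) c
    obtain ⟨e2⟩ := Cfsg.Agent.S0494.result (G := H5.PSL2 (ZMod 5)) (by rw [show Nat.gcd 2 (5 - 1) = 2 by decide] at t; omega)
    exact Or.inl ⟨ZMod 5, inferInstance, inferInstance, ZMod.card 5, ⟨e1.trans e2.symm⟩⟩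

/-- A non-cyclic finite simple group whose order has the form p * r * q^b for distinct primes p, q, r is isomorphic to the projective special linear group of dimension 2 over the field with 5 or with 7 elements. -/
theorem result {G : Type*} [Group G] [Finite G] [IsSimpleGroup G] (hG : ¬ IsCyclic G) (p q r b : ℕ) (hp : p.Prime) (hq : q.Prime) (hr : r.Prime) (hpq : p ≠ q) (hpr : p ≠ r) (hqr : q ≠ r) (hG' : Nat.card G = p * r * q ^ b) : (∃ (F : Type) (_ : Field F) (_ : Fintype F), Fintype.card F = 5 ∧ Nonempty (G ≃* Matrix.ProjectiveSpecialLinearGroup (Fin 2) F)) ∨ (∃ (F : Type) (_ : Field F) (_ : Fintype F), Fintype.card F = 7 ∧ Nonempty (G ≃* Matrix.ProjectiveSpecialLinearGroup (Fin 2) F)) := by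
  rcases lt_or_gt_of_ne hpr with a | a
  · exact aux hG r q p b hr hq hp hqr.symm a hpq.symm (by rw [hG', mul_comm p])
  · exact aux hG p q r b hp hq hr hpq a hqr hG'

end Cfsg.Agent.S0998
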