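import Cfsg.Statements.S1001
import Cfsg.Agent.H3.BT

set_option autoImplicit false
open Cfsg

namespace Cfsg.Agent.S1001

/-- In a finite simple group whose order has the form p * 3^a * 2^b with p prime, the centralizer of any element of order p is the cyclic group it generates. -/
theorem result {G : Type*} [Group G] [Finite G] [IsSimpleGroup G] (p a b : ℕ) (hp : p.Prime) (hG : Nat.card G = p * 3 ^ a * 2 ^ b) (x : G) (hx : orderOf x = p) : Subgroup.centralizer ({x} : Set G) = Subgroup.zpowers x := by
  have := Fact.mk hp
  by_cases h : p = 3 ∨ p = 2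
  · have : Group.IsSolvable G := H3.burnside_paqb (a := a + 1) (b := b + 1) Nat.prime_three Nat.prime_two (by
      rcases h with rfl | rfl
      exacts [Dvd.intro 2 (by rw [hG]; ring), Dvd.intro 3 (by rw [hG]; ring)])
    letI : CommGroup G := { (inferInstance : Group G) with mul_comm := IsSimpleGroup.comm_iff_isSolvable.2 this }
    rw [(Subgroup.Normal.eq_bot_or_eq_top (H := Subgroup.zpowers x) inferInstance).resolve_left fun e => hp.ne_one (by
      rw [← hx, Subgroup.zpowers_eq_bot.1 e, orderOf_one])]
    exact Subgroup.centralizer_eq_top_iff_subset.2 fun x _ => Subgroup.mem_center_iff.2 fun y => mul_comm y x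
  · rw [not_or] at h
    rw [← H4.centralizer_zpowers]
    exact H3.cen_eq_of_card (a := a) (b := b) Nat.prime_three Nat.prime_two (Ne.symm h.1) (Ne.symm h.2) (by rw [hG]; ring)
      ((Nat.card_zpowers x).trans hx)

end Cfsg.Agent.S1001
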