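import Cfsg.Statements.S1002
import Cfsg.Agent.H1.Simp
import Cfsg.Agent.FT.Final

set_option autoImplicit false
open Cfsg

namespace Cfsg.Agent.S1002

open H1

/-- No finite simple group has order 1004913 = 3^3 * 7 * 13 * 409. -/
theorem result {G : Type*} [Group G] [Finite G] [IsSimpleGroup G] : Nat.card G ≠ 1004913 := by
  intro h
  have := prime_card_of_solvable (FT.feit_thompson G (by rw [h]; decide))
  rw [h] at this
  exact absurd this (by norm_num)

end Cfsg.Agent.S1002
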