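import Cfsg.Statements.S1010
import Cfsg.Agent.H1.SylAct
import Cfsg.Agent.H1.MaxNil

set_option autoImplicit false
open Cfsg

namespace Cfsg.Agent.S1010

open scoped commutatorElement
open scoped Pointwise
open H1
open Subgroup Cfsg Pointwise MulAction H1
universe u

theorem aux1 {G : Type u} [Group G] [Finite G] {p : ℕ} [hp : Fact p.Prime] {P : Subgroup G} (hP : Nat.card P = p) :
    IsCyclic (MulAut P) := by
  haveI := isCyclic_of_prime_card hP
  haveI : IsCyclic (ZMod (Nat.card P))ˣ := by rw [hP]; exact ZMod.isCyclic_units_prime hp.out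
  exact isCyclic_of_surjective _ (IsCyclic.mulAutMulEquiv P).symm.surjective

theorem aux2 {G : Type u} [Group G] [Finite G] [IsSimpleGroup G] : Nat.card (Sylow 5 G) ≠ 21 := by
  classical
  intro hn
  haveI : Fact (Nat.Prime 5) := ⟨by norm_num⟩
  haveI : Fact (Nat.Prime 2) := ⟨by norm_num⟩
  have := Fintype.ofFinite (Sylow 5 G)
  have hn' : Fintype.card (Sylow 5 G) = 21 := by rwa [← Nat.card_eq_fintype_card]
  obtain ⟨P⟩ : Nonempty (Sylow 5 G) := inferInstance
  have hc := card_sylow_mul P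
  rw [hn] at hc
  have hG : ¬ (Nat.card G).Prime := fun h => by
    rcases h.eq_one_or_self_of_dvd 3 ⟨7 * _, by rw [← hc]; ring⟩ with e | e <;> omega
  have adj : ∀ R T : Sylow 5 G, R ≠ T → (R : Subgroup G).relIndex T = 5 := fun R T h => by
    obtain ⟨k, hk⟩ := L.exists_relIndex_eq_pow (N := (R : Subgroup G)) T.isPGroup'
    have h1 := relIndex_sylow_le T R
    rcases k with _ | _ | k
    · exact (h (relIndex_sylow_eq_one hk)).elim
    · simpa using hk
    · rw [hk, hn, pow_succ, pow_succ] at h1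
      have : 0 < 5 ^ k := by positivity
      omega
  haveI : Nontrivial (Sylow 5 G) := Finite.one_lt_card_iff_nontrivial.1 (by omega)
  have hP : ∀ P : Sylow 5 G, Nat.card P = 5 := fun P => by
    obtain ⟨R, hR⟩ := exists_ne P
    have hD : (P : Subgroup G) ⊓ R = ⊥ := eq_bot_of_le_sylows (p := 5) (by omega) fun T => by
      by_cases h1 : T = P
      · exact h1 ▸ inf_le_left
      by_cases h2 : R = T
      · exact h2 ▸ inf_le_right
      exact (no_triangle (adj R P hR) (adj T P h1) (adj R T h2)).le.trans inf_le_right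
    have := adj R P hR
    rwa [← inf_relIndex_left, hD, relIndex_bot_left] at this
  have h4 := four_dvd_card_of_simple hG
  have hG2 : Nat.card G ≠ 2 := by omega
  have hf := sylow_faithful (G := G) (p := 5) (by omega)
  haveI := aux1 (hP P)
  set N := normalizer ((P : Subgroup G) : Set G) with hN
  set C := centralizer ((P : Subgroup G) : Set G) with hC
  have hNi : N.index = 21 := by rw [← (isSylowIn_top P).card_sylow, hn]
  have hker : ∀ g : N, (P : Subgroup G).normalizerMonoidHom g = 1 ↔ (g : G) ∈ C := fun g => by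
    rw [← MonoidHom.mem_ker, normalizerMonoidHom_ker, mem_subgroupOf]
  obtain ⟨T, hT⟩ := exists_isSylowIn (p := 2) N
  have hTG : IsSylowIn 2 T ⊤ := hT.trans le_top (by rw [relIndex_top_right, hNi]; norm_num)
  by_cases h2 : 2 ∣ Nat.card C
  swap
  · have h1 : IsCyclic T := by
      refine isCyclic_of_injective ((P : Subgroup G).normalizerMonoidHom.comp (inclusion hT.le)) ?_
      rw [injective_iff_map_eq_one]
      intro t ht
      exact Subtype.ext ((H1.inf_eq_bot_of_coprime (isPGroup_coprime hT.isPGroup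
        ((Nat.Prime.coprime_iff_not_dvd Nat.prime_two).2 h2).symm)).le ⟨t.2, (hker _).1 ht⟩)
    exact hG (prime_card_of_isPGroup (p := 2) (isPGroup_of_hasNPC_of_simple (hasNPC_top_iff.1
      (hasNPC_two_of_isCyclic ⟨hTG.le, hTG.isPGroup, hTG.not_dvd⟩ h1)) (by omega)))
  have hfix : ∀ (R : Sylow 5 G) (u : G), u ∈ centralizer ((R : Subgroup G) : Set G) → u • R = R := fun R u hu =>
    Sylow.smul_eq_iff_mem_normalizer.2 (centralizer_le_normalizer _ hu)
  have huniq : ∀ (R : Sylow 5 G) (v : G), v ∈ centralizer ((R : Subgroup G) : Set G) → orderOf v = 2 →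
      ∀ X, v • X = X → X = R := fun R v hv ho X hX => by
    have h1 := sp_of_mem_centralizer (hP R) hv
    have h3 := four_dvd_card_sp (α := Sylow 5 G) hG2 (ho ▸ pow_orderOf_eq_one v)
    have h5 := sp_card_pos hf (two_ne ho)
    have h6 : (sp (Sylow 5 G) v)ᶜ.card ≤ 1 := by rw [Finset.card_compl, hn']; omega
    exact Finset.card_le_one.1 h6 _ (Finset.mem_compl.2 fun e => mem_sp.1 e hX) _
      (Finset.mem_compl.2 fun e => mem_sp.1 e (hfix R v hv))
  have hcomm : ∀ (R : Sylow 5 G) (v : G), v ∈ centralizer ((R : Subgroup G) : Set G) → orderOf v = 2 →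
      ∀ w, Commute w v → w • R = R := fun R v hv ho w hw =>
    huniq R v hv ho _ (by rw [← mul_smul, ← hw.eq, mul_smul, hfix R v hv])
  have hinv : ∀ (R : Sylow 5 G) (b : G), IsPGroup 2 (zpowers b) → b • R = R →
      ∃ v ∈ centralizer ((R : Subgroup G) : Set G), orderOf v = 2 ∧ Commute b v := fun R b hb hR => by
    obtain ⟨U, hU, hbU⟩ := exists_isSylowIn_ge (L := normalizer ((R : Subgroup G) : Set G)) hb
      (zpowers_le.2 (Sylow.smul_eq_iff_mem_normalizer.1 hR))
    have h1 := hU.inf_normal (centralizer_le_normalizer _) (hU.le.trans (centralizer_normalizer _))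
    have h3 : U ⊓ centralizer ((R : Subgroup G) : Set G) ≠ ⊥ := fun e => h1.eq_bot_iff.1 e (by
      obtain ⟨g, rfl⟩ := exists_smul_eq G P R
      rwa [Sylow.coe_subgroup_smul, centralizer_conj_smul, card_conj_smul])
    obtain ⟨v, hv, ho⟩ := H9.exists_orderOf_eq_of_isPGroup (h1.isPGroup.to_inf_left)
      (inf_centralizer_ne_bot_of_isPGroup h1.isPGroup hU.isPGroup
        (le_normalizer_inf le_normalizer (hU.le.trans (centralizer_normalizer _))) h3)
    exact ⟨v, hv.1.2, ho, hv.2 b (hbU (mem_zpowers b))⟩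
  have hfus : ∀ (R : Sylow 5 G) (b : G), IsPGroup 2 (zpowers b) → b • P = P → b • R = R →
      ∃ c, Commute b c ∧ c • P = R := fun R b hb h1 h3 => by
    obtain ⟨v, v1, v2, v3⟩ := hinv P b hb h1
    obtain ⟨w, w1, w2, w3⟩ := hinv R b hb h3
    have hz : ∀ t ∈ zpowers (v * w), Commute b t := by
      rintro _ ⟨k, rfl⟩; exact (v3.mul_right w3).zpow_right k
    have key : ∀ t ∈ zpowers (v * w), ∀ u, t * v * t⁻¹ = u → u • R = R → ∃ c, Commute b c ∧ c • P = R :=
      fun t ht u e hu => ⟨t, hz t ht, (huniq (t • P) u (by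
        rw [Sylow.coe_subgroup_smul, centralizer_conj_smul, ← e]; exact conj_mem_conj_smul v1)
        (by rw [← e, orderOf_conj, v2]) R hu).symm⟩
    by_cases ho : Odd (orderOf (v * w))
    · obtain ⟨t, ht, e⟩ := pair_odd (two_sq v2) (two_sq w2) ho
      exact key t ht w e (hfix R w w1)
    by_contra hne
    have hPR : P ≠ R := fun e => hne ⟨1, Commute.one_right b, by rw [one_smul, e]⟩
    obtain ⟨z, z1, z2, z3, z4⟩ := pair_even (two_sq v2) (two_sq w2) ho
    have z5 := hcomm P v v1 v2 z z3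
    have z6 := hcomm R w w1 w2 z z4
    obtain ⟨k, hk⟩ := z1
    simp only at hk
    rcases Int.even_or_odd' k with ⟨j, e | e⟩
    · have h5 := pair_conj (two_sq v2) (two_sq w2) (zpow_mem (mem_zpowers _) j)
      rw [← zpow_add, ← two_mul, ← e, hk] at h5
      have h6 := huniq ((v * w) ^ j • P) (z * v) (by
        rw [Sylow.coe_subgroup_smul, centralizer_conj_smul, ← h5]; exact conj_mem_conj_smul v1)
        (by rw [← h5, orderOf_conj, v2]) P (by rw [mul_smul, hfix P v v1, z5])
      have h7 : z * v ∈ C := by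
        rw [hC, h6, Sylow.coe_subgroup_smul, centralizer_conj_smul, ← h5]; exact conj_mem_conj_smul v1
      exact hPR (huniq P z ((C.mul_mem_cancel_right v1).1 h7) z2 R z6).symm
    · have h5 : (v * w) ^ (j + 1) * w * ((v * w) ^ (j + 1))⁻¹ = z * v := by
        have := pair_inverts' (two_sq v2) (two_sq w2) (zpow_mem (mem_zpowers (v * w)) (-(j + 1)))
        rw [← hk, e, mul_assoc, ← zpow_neg, mul_inv_eq_iff_eq_mul.1 this, ← zpow_neg, neg_neg, ← mul_assoc,
          ← zpow_add, show j + 1 + (j + 1) = 2 * j + 1 + 1 by ring, zpow_add_one, mul_assoc, mul_assoc,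
          two_sq w2, mul_one]
      have h6 := huniq ((v * w) ^ (j + 1) • R) (z * v) (by
        rw [Sylow.coe_subgroup_smul, centralizer_conj_smul, ← h5]; exact conj_mem_conj_smul w1)
        (by rw [← h5, orderOf_conj, w2]) P (by rw [mul_smul, hfix P v v1, z5])
      have h7 : z * v ∈ C := by
        rw [hC, h6, Sylow.coe_subgroup_smul, centralizer_conj_smul, ← h5]; exact conj_mem_conj_smul w1
      exact hPR (huniq P z ((C.mul_mem_cancel_right v1).1 h7) z2 R z6).symm
  have hNN : ⁅N, N⁆ ≤ C := commutator_le.2 fun a ha b hb => (hker ⁅(⟨a, ha⟩ : N), ⟨b, hb⟩⁆).1 (by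
    rw [map_commutatorElement, commutatorElement_eq_one_iff_mul_comm]
    exact mul_comm' _ _)
  obtain ⟨K, k1, k2, -, -, k3⟩ := H2.exists_transfer_kernel hNN
  have hK : K = ⊤ := (IsSimpleGroup.eq_bot_or_eq_top_of_normal K k1).resolve_left fun e =>
    hG (prime_card_of_comm fun a b => commutatorElement_eq_one_iff_mul_comm.1
      ((e ▸ k2 : commutator G ≤ ⊥) (commutator_mem_commutator (mem_top a) (mem_top b))))
  have hTC : ¬ T ≤ C := fun e => by
    obtain ⟨j, j1, j2, j3⟩ := card_norm_eq (hP P)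
    have h1 := hT.not_dvd_relIndex_of_le e
    have h3 := relIndex_cent_dvd (hP P)
    refine not_norm_le_cent hG (by rw [← hP P]; exact card_subgroup_dvd_card _) P (relIndex_eq_one.1 ?_)
    have h5 := Nat.le_of_dvd (by norm_num) h3
    change ¬ 2 ∣ C.relIndex N at h1
    change C.relIndex N ∣ 4 at h3
    change C.relIndex N ≤ 4 at h5
    change C.relIndex N = 1
    generalize C.relIndex N = i at *
    interval_cases i <;> omega
  obtain ⟨g, hg, hgC⟩ := SetLike.not_le_iff_exists.1 hTC
  have h1 := (k3 g (hT.le hg) fun k a ha => ?_).1 (hK ▸ mem_top g)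
  · rw [hNi] at h1
    obtain ⟨k, hk⟩ := exists_orderOf_eq_pow hT.isPGroup hg
    refine hgC ((zpowers_le.2 h1) (mem_zpowers_pow_iff.2 ?_))
    rw [hk]; exact Nat.Coprime.pow_right k (by norm_num)
  have hb := pow_mem hg k
  obtain ⟨c, c1, c2⟩ := hfus (a⁻¹ • P) (g ^ k) (hT.isPGroup.to_le (zpowers_le.2 hb))
    (Sylow.smul_eq_iff_mem_normalizer.2 (hT.le hb)) (by
      have : (a * g ^ k * a⁻¹) • P = P := Sylow.smul_eq_iff_mem_normalizer.2 ha
      rw [eq_inv_smul_iff, ← mul_smul, ← mul_smul, this])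
  have h3 : a * c ∈ N := Sylow.smul_eq_iff_mem_normalizer.1 (by rw [mul_smul, c2, smul_inv_smul])
  have h5 := hNN (commutator_mem_commutator h3 (hT.le hb))
  rwa [commutatorElement_def, mul_assoc a, ← c1.eq, mul_inv_rev, ← mul_assoc, ← mul_assoc,
    mul_inv_cancel_right] at h5

/-- No finite group has exactly twenty-one Sylow 5-subgroups. -/
theorem result {G : Type*} [Group G] [Finite G] : Nat.card (Sylow 5 G) ≠ 21 := by
  intro h
  haveI : Fact (Nat.Prime 5) := ⟨by norm_num⟩
  obtain ⟨l, h1, h2⟩ := sylow_list (p := 5) G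
  rw [h] at h1
  have h3 : ∀ m ∈ l, m = 1 := fun m hm => by
    have h4 : m ∣ 21 := h1 ▸ List.dvd_prod hm
    have h5 := Nat.le_of_dvd (by norm_num) h4
    have h6 : m % 5 = 1 ∧ m ≠ 21 := by
      rcases h2 m hm with ⟨e1, e2⟩ | ⟨S, _, _, _, rfl, -⟩
      · exact ⟨e2, by
          rintro rfl
          obtain ⟨q, k, hq, -, e⟩ := (isPrimePow_nat_iff _).1 e1
          have a1 := (Nat.prime_dvd_prime_iff_eq (by norm_num) hq).1
            (Nat.Prime.dvd_of_dvd_pow (p := 3) (by norm_num) (e ▸ by norm_num : 3 ∣ q ^ k))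
          have a2 := (Nat.prime_dvd_prime_iff_eq (by norm_num) hq).1
            (Nat.Prime.dvd_of_dvd_pow (p := 7) (by norm_num) (e ▸ by norm_num : 7 ∣ q ^ k))
          omega⟩
      · exact ⟨card_sylow_modEq_one 5 S, aux2⟩
    interval_cases m <;> omega
  rw [List.prod_eq_one h3] at h1
  omega

end Cfsg.Agent.S1010
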