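import Cfsg.Statements.S1013
import Cfsg.Agent.H1.Simp

set_option autoImplicit false
open Cfsg

namespace Cfsg.Agent.S1013

open H1

/-- Let G be a transitive permutation group of prime degree p having more than one Sylow p-subgroup, and suppose a Sylow p-subgroup P has prime index in its normalizer. Then G is simple. -/
theorem result {α : Type*} [Fintype α] [DecidableEq α] {p : ℕ} [Fact p.Prime] (hα : Fintype.card α = p) (G : Subgroup (Equiv.Perm α)) [MulAction.IsPretransitive ↥G α] (P : Sylow p ↥G) (hn : 1 < Nat.card (Sylow p ↥G)) (ht : (((P : Subgroup ↥G).subgroupOf (Subgroup.normalizer ((P : Subgroup ↥G) : Set ↥G))).index).Prime) : IsSimpleGroup ↥G := by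
  open Subgroup MulAction in
  have hp : p.Prime := Fact.out
  have hd : ∀ K : Subgroup G, K.Normal → K ≠ ⊥ → p ∣ Nat.card K := fun K hK h => by
    have : IsPreprimitive G α := IsPreprimitive.of_prime_card (by simpa [hα] using hp)
    have h1 : IsPretransitive K α := IsQuasiPreprimitive.isPretransitive_of_normal fun e => h ?_
    · have : Nonempty α := Fintype.card_pos_iff.1 (hα ▸ hp.pos)
      obtain ⟨a⟩ := this
      have := (stabilizer K a).index_dvd_card
      rwa [index_stabilizer_of_transitive, Nat.card_eq_fintype_card, hα] at this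
    refine eq_bot_iff.2 fun g hg => Subtype.ext (Equiv.ext fun a => ?_)
    exact (e.ge (Set.mem_univ a) : a ∈ fixedPoints K α) ⟨g, hg⟩
  have h1 : Nat.card P ≤ p := by
    obtain ⟨Q, hQ⟩ := (P.isPGroup'.map G.subtype).exists_le_sylow
    obtain ⟨k, hk⟩ := L.exists_card_eq_pow P.isPGroup'
    have h4 := (card_dvd_of_le hQ).trans (card_dvd_of_le (le_normalizer (H := Q.1)))
    rw [card_norm_perm (Or.inl hα) Q, card_map_of_injective G.subtype_injective, hk] at h4
    rw [hk]
    have := hp.two_le
    rcases k with _ | _ | k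
    · simp; omega
    · simp
    · rw [pow_succ', Nat.mul_dvd_mul_iff_left (by omega)] at h4
      have := Nat.le_of_dvd (by omega) ((dvd_pow_self p (by omega)).trans h4)
      omega
  have h0 : ¬ (P : Subgroup G).Normal := fun h => by
    have := Sylow.unique_of_normal P h
    simp at hn
  have : Nontrivial G := by
    by_contra! h
    exact h0 (Subsingleton.elim P.1 ⊥ ▸ inferInstance)
  refine ⟨fun K hK => or_iff_not_imp_left.2 fun h => ?_⟩
  have h2 := sylow_inf_normal P K
  have h3 : (P : Subgroup G) ⊓ K = P := eq_of_le_of_card_eq inf_le_left ((card_le_of_le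
    inf_le_left).antisymm (h1.trans (Nat.le_of_dvd Nat.card_pos (((h2.isPGroup.card_eq_or_dvd
      ).resolve_left (mt card_eq_one.1 (mt h2.eq_bot_iff.1 (not_not.2 (hd K hK h)))))))))
  rw [h3] at h2
  rcases L.eq_or_eq_of_relIndex_prime ht (le_inf h2.le le_normalizer) inf_le_right with e | e
  · have : IsCyclic P := isCyclic_of_card_dvd_prime (p := p) (by
      obtain ⟨k, hk⟩ := L.exists_card_eq_pow P.isPGroup'
      rw [hk] at h1 ⊢
      simpa using pow_dvd_pow p ((Nat.pow_le_pow_iff_right hp.one_lt).1 (h1.trans_eq (pow_one p).symm)))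
    obtain ⟨Q, M, hM, h4⟩ := H2.burnside_rel ⟨h2.le, h2.isPGroup, h2.not_dvd⟩
      (e.le.trans (L.le_centralizer_of_comm inferInstance))
    have h5 : ¬ p ∣ Nat.card M := h4.index_eq_card ▸ Q.not_dvd_index
    have h6 : M.Characteristic := characteristic_iff_map_le.2 fun φ => le_of_coprime_index (by
      rw [card_map_of_injective φ.injective, h4.symm.index_eq_card, ← h4.index_eq_card]
      exact Q.card_coprime_index.symm)
    have h7 : M.map K.subtype = ⊥ := by_contra fun h7 => h5 (card_map_of_injective
      K.subtype_injective ▸ hd _ inferInstance h7)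
    rw [map_eq_bot_iff_of_injective _ K.subtype_injective] at h7
    subst h7
    have h8 := Q.isPGroup'
    rw [isComplement'_bot_left.1 h4] at h8
    exact absurd (h2.eq_of_isPGroup (h8.of_equiv topEquiv) ▸ hK) h0
  · rw [← h2.frattini_top, sup_eq_left.2 (inf_eq_right.1 e)]

end Cfsg.Agent.S1013
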