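import Cfsg.Statements.S1014
import Cfsg.Agent.H1.Simp

set_option autoImplicit false
open Cfsg

namespace Cfsg.Agent.S1014

open H1

/-- No finite simple group has order 1104 = 2^4 * 3 * 23. -/
theorem result {G : Type*} [Group G] [Finite G] [IsSimpleGroup G] : Nat.card G ≠ 1104 := by
  intro h
  have : Fact (Nat.Prime 23) := ⟨by norm_num⟩
  have h0 : ¬ (Nat.card G).Prime := by rw [h]; norm_num
  obtain ⟨P⟩ : Nonempty (Sylow 23 G) := inferInstance
  have h1 : Nat.card P = 23 := by rw [P.card_eq_multiplicity, h]; decide +kernel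
  have h2 := card_sylow_ne_one' (p := 23) h0 (by rw [h]; norm_num)
  have h3 := card_sylow_modEq_one 23 G
  have h4 := P.card_dvd_index
  have h5 := P.1.card_mul_index
  rw [h1, h] at h5
  have h6 := card_sylow_mul P
  rw [h] at h6
  rw [show P.1.index = 48 by omega] at h4
  have := Nat.le_of_dvd (by omega) h4
  unfold Nat.ModEq at h3
  have h7 : Nat.card (Sylow 23 G) = 24 := by
    generalize Nat.card (Sylow 23 G) = n at *
    interval_cases n <;> omega
  have := norm_dvd_of_index (by norm_num) (by rw [h]; norm_num)
    (Or.inr (P.card_eq_index_normalizer.symm.trans h7)) P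
  rw [h7] at h6
  generalize Nat.card (Subgroup.normalizer ((P : Subgroup G) : Set G)) = m at *
  obtain rfl : m = 46 := by omega
  norm_num at this

end Cfsg.Agent.S1014
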