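import Cfsg.Statements.S1018
import Cfsg.Agent.H1.Simp

set_option autoImplicit false
open Cfsg

namespace Cfsg.Agent.S1018

open scoped Pointwise
open H1

/-- Let P be a Sylow p-subgroup of order p of a finite group G, and consider the action of G on the left cosets of the normalizer N of P. Then every element of order p fixes exactly one coset, and an element of N that does not centralize P fixes at most as many cosets as there are orbits of P. -/
theorem result {G : Type*} [Group G] [Finite G] (p : ℕ) [Fact p.Prime] (P : Sylow p G) (hP : Nat.card ↥(P : Subgroup G) = p) : (∀ y : G, orderOf y = p → Nat.card (MulAction.fixedBy (G ⧸ Subgroup.normalizer ((P : Subgroup G) : Set G)) y) = 1) ∧ ∀ x : G, x ∈ Subgroup.normalizer ((P : Subgroup G) : Set G) → x ∉ Subgroup.centralizer ((P : Subgroup G) : Set G) → Nat.card (MulAction.fixedBy (G ⧸ Subgroup.normalizer ((P : Subgroup G) : Set G)) x) ≤ Nat.card (MulAction.orbitRel.Quotient ↥(P : Subgroup G) (G ⧸ Subgroup.normalizer ((P : Subgroup G) : Set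 G))) := by
  open Subgroup MulAction in
  have hp : p.Prime := Fact.out
  set N := normalizer ((P : Subgroup G) : Set G)
  have h1 : ∀ y g : G, orderOf y = p → (y • (g : G ⧸ N) = g ↔ g⁻¹ * y * g ∈ (P : Subgroup G)) :=
    fun y g hy => by
      change ((y * g : G) : G ⧸ N) = g ↔ _
      rw [eq_comm, QuotientGroup.eq, ← mul_assoc]
      exact ⟨fun h => (isSylowIn_top P).le_of_le_normalizer (IsPGroup.of_card (n := 1) (by
        rw [Nat.card_zpowers, orderOf_conj', hy, pow_one])) le_top (zpowers_le.2 h) (mem_zpowers _),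
          fun h => le_normalizer h⟩
  have h2 : ∀ y ∈ (P : Subgroup G), orderOf y = p → zpowers y = P := fun y h hy =>
    eq_of_le_of_card_eq (zpowers_le.2 h) (by rw [Nat.card_zpowers, hy, hP])
  have h3 : ∀ y g : G, y ∈ (P : Subgroup G) → orderOf y = p → g⁻¹ * y * g ∈ (P : Subgroup G) →
      g ∈ N := fun y g h hy hg => inv_mem_iff.1 (conj_smul_eq_self_iff.1 (by
    refine (congrArg _ (h2 y h hy).symm).trans (.trans ?_ (h2 _ hg ((orderOf_conj' g y).trans hy)))
    rw [conj_smul_eq_map, MonoidHom.map_zpowers]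
    simp))
  refine ⟨fun y hy => ?_, fun x hx hx' => ?_⟩
  · obtain ⟨u, -, hu⟩ := (isSylowIn_top P).exists_conj_le (U := zpowers y)
      (IsPGroup.of_card (n := 1) (by simpa using hy)) le_top
    have h4 := conj_smul_le_iff.1 hu y (mem_zpowers y)
    refine card_subtype_eq_one (a := ((u⁻¹ : G) : G ⧸ N)) fun g => ?_
    obtain ⟨g, rfl⟩ := QuotientGroup.mk_surjective g
    refine ⟨fun h => (QuotientGroup.eq.2 (h3 _ _ h4 ((orderOf_conj u y).trans hy) ?_)).symm,
      fun h => h ▸ (h1 y _ hy).2 (by simpa using h4)⟩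
    simpa [mul_assoc] using (h1 y g hy).1 h
  · refine Nat.card_le_card_of_injective (fun w => Quotient.mk _ w.1) fun ⟨a, ha⟩ ⟨b, hb⟩ h => ?_
    obtain ⟨⟨u, hu⟩, rfl : u • b = a⟩ := Quotient.exact h
    obtain ⟨g, rfl⟩ := QuotientGroup.mk_surjective b
    refine Subtype.ext ?_
    by_cases h0 : u = 1
    · simp [h0]
    have ho : ∀ v ∈ (P : Subgroup G), v ≠ 1 → orderOf v = p := fun v hv h =>
      ((Nat.dvd_prime hp).1 (hP ▸ orderOf_dvd_natCard (⟨v, hv⟩ : P.1))).resolve_left
        (by simpa using h) ▸ (orderOf_coe (⟨v, hv⟩ : P.1))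
    have h4 : u⁻¹ * (x * u * x⁻¹) ∈ (P : Subgroup G) :=
      mul_mem (inv_mem hu) (conj_mem_of_mem_normalizer hx hu)
    have h5 : u⁻¹ * (x * u * x⁻¹) ≠ 1 := fun e => hx' (by
      rw [← h2 u hu (ho u hu h0), zpowers_eq_closure, centralizer_closure,
        mem_centralizer_singleton_iff, ← mul_inv_eq_iff_eq_mul]
      exact (inv_mul_eq_one.1 e).symm)
    have h6 := h3 _ g h4 (ho _ h4 h5) ((h1 _ g (ho _ h4 h5)).1 (by
      rw [mul_smul, mul_smul, mul_smul, inv_smul_eq_iff.2 (show x • _ = _ from hb).symm,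
        show x • u • _ = _ from ha, inv_smul_smul]))
    exact (h1 u g (ho u hu h0)).2 (by
      simpa using conj_mem_of_mem_normalizer (inv_mem h6) hu)

end Cfsg.Agent.S1018
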