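import Cfsg.Statements.S1019
import Cfsg.Agent.H1.Simp

set_option autoImplicit false
open Cfsg

namespace Cfsg.Agent.S1019

open H1

/-- Let H be a subgroup of a finite group G and x an element of H. In the action of G on the left cosets of H, the number of cosets fixed by x, multiplied by the size of the conjugacy class of x, equals the index of H multiplied by the number of conjugates of x that lie in H. -/
theorem result {G : Type*} [Group G] [Finite G] (H : Subgroup G) (x : G) (hx : x ∈ H) : Nat.card (MulAction.fixedBy (G ⧸ H) x) * Nat.card {g : G // IsConj x g} = H.index * Nat.card {g : G // IsConj x g ∧ g ∈ H} := by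
  open Subgroup MulAction in
  have := Fintype.ofFinite {g : G // IsConj x g ∧ g ∈ H}
  have h1 : Nat.card {g : G // g⁻¹ * x * g ∈ H} = Nat.card H * Nat.card (fixedBy (G ⧸ H) x) := by
    rw [← QuotientGroup.card_preimage_mk]
    refine Nat.card_congr (Equiv.subtypeEquivRight fun g => ?_)
    change _ ↔ ((x * g : G) : G ⧸ H) = g
    rw [eq_comm, QuotientGroup.eq, mul_assoc]
  have h2 : Nat.card {g : G // g⁻¹ * x * g ∈ H} =
      Nat.card {g : G // IsConj x g ∧ g ∈ H} * Nat.card (centralizer {x}) := by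
    rw [Nat.card_congr (Equiv.sigmaFiberEquiv fun g : {g : G // g⁻¹ * x * g ∈ H} =>
      (⟨_, isConj_iff.2 ⟨g.1⁻¹, by simp⟩, g.2⟩ : {g : G // IsConj x g ∧ g ∈ H})).symm, Nat.card_sigma,
      Nat.card_eq_fintype_card (α := Subtype _), ← smul_eq_mul, ← Finset.card_univ,
      ← Finset.sum_const]
    refine Finset.sum_congr rfl fun ⟨y, hy, hy'⟩ _ => ?_
    obtain ⟨u, rfl⟩ := isConj_iff.1 hy
    have e : ∀ c : centralizer {x}, (c * u⁻¹ : G)⁻¹ * x * (c * u⁻¹) = u * x * u⁻¹ := fun c => by
      rw [mul_inv_rev, inv_inv, mul_assoc, ← mul_assoc x, ← mem_centralizer_singleton_iff.1 c.2]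
      group
    refine (Nat.card_eq_of_bijective (fun c : centralizer {x} => (⟨⟨c * u⁻¹, (e c).symm ▸ hy'⟩,
      Subtype.ext (e c)⟩ : {g : {g : G // g⁻¹ * x * g ∈ H} // (⟨_, isConj_iff.2 ⟨g.1⁻¹, by simp⟩,
        g.2⟩ : {g : G // IsConj x g ∧ g ∈ H}) = ⟨_, hy, hy'⟩})) ⟨fun a b h => Subtype.ext
          (mul_right_cancel (congrArg (·.1.1) h)), fun ⟨⟨g, _⟩, h⟩ => ⟨⟨g * u, ?_⟩, by simp⟩⟩).symm
    have : g⁻¹ * x * g = u * x * u⁻¹ := congrArg Subtype.val h
    rw [mem_centralizer_singleton_iff]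
    calc _ = g * (u * x * u⁻¹) * u := by group
      _ = _ := by rw [← this]; group
  refine Nat.eq_of_mul_eq_mul_right (Nat.mul_pos (Nat.card_pos (α := H))
    (Nat.card_pos (α := centralizer {x}))) ?_
  have h3 := (centralizer {x}).index_mul_card
  rw [H5.index_centralizer_eq, ← H.index_mul_card] at h3
  change Nat.card {g : G // IsConj x g} * _ = _ at h3
  calc _ = Nat.card H * Nat.card (fixedBy (G ⧸ H) x) * (Nat.card {g : G // IsConj x g} *
        Nat.card (centralizer {x})) := by ring
    _ = _ := by rw [h3, ← h1, h2]; ring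

end Cfsg.Agent.S1019
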