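import Cfsg.Statements.S1022
import Cfsg.Agent.H3.Ord3
import Cfsg.Agent.H1.MC
import Cfsg.Agent.H1.Schmidt

set_option autoImplicit false
open Cfsg

namespace Cfsg.Agent.S1022

open H3 H4 Subgroup Finset
open scoped Classical

theorem aux {G : Type*} [Group G] [Fintype G] [IsSimpleGroup G] [Fact (Nat.Prime 19)] (hG : Nat.card G = 459648) (P : Sylow 19 G) {t : ℕ}
    {B V : Finset (IrrCharacter G)} {r : IrrCharacter G → IrrCharacter G} {σ : IrrCharacter G → ℤ} {T : IrrCharacter G → ℕ}
    (h : BD 19 (P : Subgroup G) 6 t B V r σ T) (hc : Nat.card (CS (P : Subgroup G)) = 19 * 4) (hm : (NS (P : Subgroup G)).index = 1008)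
    {v : IrrCharacter G} (hv : v ∈ V) (v1 : v ≠ triv G) (hd : charDegree v.1 = 56) : False := by
  have nc : ¬ IsMulCommutative G := fun e => absurd (H1.prime_card_of_comm e.1.1) (by rw [hG]; norm_num)
  have : Fact (Nat.Prime 2) := ⟨Nat.prime_two⟩
  have k1 : ∀ j ∈ CS (P : Subgroup G), orderOf j = 2 → v.1 j = -20 := fun j a b => by
    obtain ⟨c, c1, ⟨u, rfl⟩, c3, c4⟩ := h.inv_val (ord_perfect nc) (h.sub hv) (by norm_num) a b
    rw [hd] at c1 c4
    have u0 : u ≠ 0 := by
      rintro rfl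
      exact H1.two_ne b ((BD.ker_bot v1).le ((mem_charKer (irr_char v.2) j).2 (by rw [c1, ideg, hd]; simp)))
    obtain rfl : u = 2 := by obtain ⟨w, hw⟩ := c3; omega
    rw [c1]; norm_num
  have k2 : ∀ K ≤ CS (P : Subgroup G), Nat.card K = 4 → ∃ z ∈ K, orderOf z = 4 := fun K a b => by
    by_contra! c
    obtain ⟨m, hm⟩ := sum_nz_nat K (irr_char v.2)
    rw [sum_nz_const K (c := -20) fun y d e => k1 y (a d) (by
      have := b ▸ Subgroup.orderOf_dvd_natCard K d
      have := c y d
      have := mt orderOf_eq_one_iff.1 e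
      have := Nat.le_of_dvd (by norm_num) ‹_ ∣ 4›
      generalize orderOf y = n at *
      interval_cases n <;> simp_all), ideg, hd, b] at hm
    have : ((-4 : ℤ) : ℂ) = (4 * m : ℤ) := by push_cast at hm ⊢; linear_combination hm
    have := Int.cast_injective this
    omega
  obtain ⟨K, K1⟩ := Sylow.exists_subgroup_card_pow_prime 2 (G := CS (P : Subgroup G)) (n := 2) (by rw [hc]; norm_num)
  obtain ⟨z, z1, z2⟩ := k2 (K.map (Subgroup.subtype _)) (map_subtype_le _) (by
    rw [card_map_of_injective (subtype_injective _), K1]; norm_num)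
  replace z1 := map_subtype_le _ z1
  have j2 : orderOf (z ^ 2) = 2 := by rw [orderOf_pow' _ two_ne_zero, z2]; rfl
  have cC : (P : Subgroup G) ⊔ zpowers z = CS (P : Subgroup G) := by
    have a := sup_le (le_CS_prime h.card) (zpowers_le.2 z1)
    refine eq_of_le_of_card_ge a (Nat.le_of_dvd Nat.card_pos ?_)
    rw [hc]
    exact Nat.Coprime.mul_dvd_of_dvd_of_dvd (by norm_num) ((dvd_of_eq h.card.symm).trans (card_dvd_of_le le_sup_left))
      (z2 ▸ Nat.card_zpowers z ▸ card_dvd_of_le le_sup_right)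
  have k3 : ∀ i ∈ CS (P : Subgroup G), orderOf i = 2 → i = z ^ 2 := fun i a b => by
    by_contra c
    have d : CS (P : Subgroup G) ≤ C1 (z ^ 2) := cC ▸ sup_le (fun y a => mem_centralizer_singleton_iff.2 (pow_mem z1 2 y a))
      (zpowers_le.2 (mem_centralizer_singleton_iff.2 (Commute.pow_right rfl 2)))
    have e := H1.isKleinFour_sup b j2 c (mem_centralizer_singleton_iff.1 (d a))
    obtain ⟨w, w1, w2⟩ := k2 _ (sup_le (zpowers_le.2 a) (zpowers_le.2 (pow_mem z1 2))) e.card_four
    have := orderOf_dvd_of_pow_eq_one (n := 2) (x := w) (by rw [sq]; exact H1.klein_sq e w1)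
    rw [w2] at this; omega
  have nC := Subgroup.normal_subgroupOf_centralizer_normalizer ((P : Subgroup G) : Set G)
  have k4 : NS (P : Subgroup G) ≤ C1 (z ^ 2) := fun g a => mem_centralizer_singleton_iff.2 (by
    have := k3 (g * z ^ 2 * g⁻¹) (nC.conj_mem ⟨z ^ 2, CS_le_NS _ (pow_mem z1 2)⟩ (pow_mem z1 2) ⟨g, a⟩) (by rw [orderOf_conj, j2])
    exact mul_inv_eq_iff_eq_mul.1 this)
  have k5 : C1 (z ^ 2) ≤ NS (P : Subgroup G) := by
    have a := ((H1.isSylowIn_top P).of_le (le_normalizer.trans k4) le_top).relIndex_normalizer_modEq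
    have b := relIndex_mul_index k4
    have c : (C1 (z ^ 2)).index ≠ 1 := fun e => H1.two_ne j2 (by
      have : z ^ 2 ∈ center G := mem_center_iff.2 fun g => mem_centralizer_singleton_iff.1 ((index_eq_one.1 e).ge (mem_top g))
      rwa [(Normal.eq_bot_or_eq_top inferInstance).resolve_right fun e => nc (center_eq_top_iff.1 e)] at this)
    rw [hm] at b
    refine relIndex_eq_one.1 ?_
    have d : ∀ n ∈ Nat.divisors 1008, n % 19 = 1 → n = 1 ∨ n = 1008 := by decide +kernel
    rcases d _ (Nat.mem_divisors.2 ⟨Dvd.intro _ b, by norm_num⟩) a with d | d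
    · exact d
    · rw [d] at b; omega
  obtain ⟨S, hS⟩ := (IsPGroup.of_card (p := 2) (n := 2) (G := zpowers z) (by rw [Nat.card_zpowers, z2]; rfl)).exists_le_sylow
  have cS := card_sylow_of S hG (k := 7) (by norm_num) (by norm_num)
  have cN := card_mul_index (NS (P : Subgroup G))
  rw [hm, hG] at cN
  obtain ⟨x, ⟨x1, x2⟩, x3⟩ := SetLike.exists_of_lt (H1.lt_normalizer_inf_of_isPGroup S.isPGroup'
    (lt_of_le_of_ne (inf_le_left : (S : Subgroup G) ⊓ NS (P : Subgroup G) ≤ S) fun e => by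
      have := card_dvd_of_le (inf_eq_left.1 e)
      rw [cS, show Nat.card (NS (P : Subgroup G)) = 456 by omega] at this
      norm_num at this))
  refine x3 ⟨x2, k5 (mem_centralizer_singleton_iff.2 ?_)⟩
  have a := ((mem_normalizer_iff.1 x1 z).1 ⟨hS (mem_zpowers z), CS_le_NS _ z1⟩).2
  have b : (x * z * x⁻¹) ^ (CS (P : Subgroup G)).relIndex (NS (P : Subgroup G)) ∈ CS (P : Subgroup G) :=
    pow_index_mem ((CS (P : Subgroup G)).subgroupOf (NS (P : Subgroup G))) ⟨_, a⟩
  rw [h.he, conj_pow, show z ^ 6 = z ^ 2 by rw [show 6 = 4 + 2 from rfl, pow_add, ← z2, pow_orderOf_eq_one, one_mul]] at b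
  have := k3 _ b (by rw [orderOf_conj, j2])
  exact mul_inv_eq_iff_eq_mul.1 this

/-- No finite simple group has order 459648 = 2^7 * 3^3 * 7 * 19. -/
theorem result {G : Type*} [Group G] [Finite G] [IsSimpleGroup G] : Nat.card G ≠ 459648 := by
  intro h
  have := Fintype.ofFinite G
  have : Fact (Nat.Prime 19) := ⟨by norm_num⟩
  have nc : ¬ IsMulCommutative G := fun e => absurd (H1.prime_card_of_comm e.1.1) (by rw [h]; norm_num)
  obtain ⟨P⟩ : Nonempty (Sylow 19 G) := inferInstance
  have := ochk_of nc P (card_sylow_of P h (k := 1) (by norm_num) (by norm_num)) (by rw [h]; norm_num) (three := false) (by simp)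
    (F := fun m e c => ofeas 459648 19 m e c 2 0 678 fun d => !(m == 1008 && e == 6 && c == 4 && d == 56))
    fun e t B V r σ T c a b => h ▸ a.ofeas_of nc b Nat.prime_two (by norm_num) (by simp) (by rw [h]; norm_num) fun v v1 v2 => by
      by_contra! i
      simp only [ne_eq, Bool.not_eq_true', Bool.not_eq_false, Bool.and_eq_true, beq_iff_eq] at i
      obtain ⟨⟨⟨i1, rfl⟩, rfl⟩, i2⟩ := i
      exact aux h P a b i1 v1 v2 i2
  rw [h] at this
  revert this
  decide +kernel

end Cfsg.Agent.S1022
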