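import Cfsg.Statements.S1026
import Cfsg.Agent.H6.ChevAll

set_option autoImplicit false
open Cfsg

namespace Cfsg.Agent.S1026

/-- Every element of `U` has a unique expression `∏_{r ∈ Φ⁺} x_r(t_r)`, the product over the positive roots in increasing index order (the coefficient family `t`, supported on the positive roots, exists and is unique); and conversely every such ordered product is the matrix of an element of `U`. -/
theorem result {F : Type*} [Field F] (D : Cfsg.Lie.ChevalleyDatum) (hD : D ∈ [Cfsg.Lie.chevG2, Cfsg.Lie.chevB2, Cfsg.Lie.chevD4, Cfsg.Lie.chevF4, Cfsg.Lie.chevE6, Cfsg.Lie.chevE7, Cfsg.Lie.chevE8]) :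
    (∀ g : GL D.Idx F, g ∈ D.posUnipotent F →
      ∃! t : ℕ → F, (∀ r, ¬ D.IsPosRoot r → t r = 0) ∧
        (g : Matrix D.Idx D.Idx F) = D.wordMat F (D.posRoots.map fun r => (r, t r))) ∧
    (∀ t : ℕ → F, ∃ g : GL D.Idx F, g ∈ D.posUnipotent F ∧
      (g : Matrix D.Idx D.Idx F) = D.wordMat F (D.posRoots.map fun r => (r, t r))) := by
  obtain ⟨C⟩ := H6.Chev.cert_of_mem hD
  classical
  rw [C.posUnipotent_eq]
  set L := (List.finRange D.nroots).filter fun r : Fin D.nroots => decide (D.IsPosRoot r) with hLdef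
  have hL : L.Nodup := (List.nodup_finRange _).filter _
  have hL' : ∀ r, r ∈ L ↔ r ∈ {r | C.R.Pos r} := fun r => by simp [hLdef, C.isPosRoot_iff]
  have hv : D.posRoots = L.map Fin.val := by
    rw [Cfsg.Lie.ChevalleyDatum.posRoots, ← List.map_coe_finRange_eq_range, List.filter_map]; rfl
  have key : ∀ t : ℕ → F, D.wordMat F (D.posRoots.map fun r => (r, t r)) =
      ((C.sys F).pr L fun r => t r : GL D.Idx F) := fun t => by
    rw [C.sys_pr, hv, List.map_map]; rfl
  refine ⟨fun g hg => ?_, fun t => ⟨_, (C.sys F).pr_mem fun r hr => Or.inl ((hL' r).1 hr),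
    (key t).symm⟩⟩
  obtain ⟨t, rfl⟩ := (C.sys F).exists_nf C.R.closed_pos (fun _ => C.R.fv_one_pos) hL hL' hg
  have e : (C.sys F).pr L t = (C.sys F).pr L fun r =>
      (fun r : ℕ => if h : D.IsPosRoot r then t ⟨r, h.1⟩ else 0) r :=
    (C.sys F).pr_congr fun r hr => by simp [(C.isPosRoot_iff r).2 ((hL' r).1 hr)]
  refine ⟨fun r : ℕ => if h : D.IsPosRoot r then t ⟨r, h.1⟩ else 0,
    ⟨fun r hr => dif_neg hr, by rw [key, e]⟩, ?_⟩
  rintro t' ⟨h1, h2⟩
  rw [key] at h2
  have := (C.sys F).inj.nf_unique hL (fun r hr => C.R.fv_one_pos ((hL' r).1 hr)) (Units.ext h2)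
  ext r
  split_ifs with h
  · exact (this ⟨r, h.1⟩ ((hL' _).2 ((C.isPosRoot_iff ⟨r, h.1⟩).1 h))).symm
  · exact h1 r h

end Cfsg.Agent.S1026
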