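import Cfsg.Statements.S1028
import Cfsg.Agent.H6.ChevAll

set_option autoImplicit false
open Cfsg

namespace Cfsg.Agent.S1028

lemma pow_eq_zero {n F : Type*} [Fintype n] [DecidableEq n] [Field F] (w : n → ℤ)
    (A : Matrix n n F) (h : ∀ a b, w a ≤ w b → A a b = 0) : IsNilpotent A := by
  have key : ∀ k : ℕ, ∀ a b, w a < w b + k → (A ^ k) a b = 0 := by
    intro k
    induction k with
    | zero =>
      intro a b hab
      have : a ≠ b := by rintro rfl; simp at hab
      simp [this]
    | succ k ih =>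
      intro a b hab
      rw [pow_succ, Matrix.mul_apply]
      refine Finset.sum_eq_zero fun c _ => ?_
      by_cases h1 : w a < w c + k
      · rw [ih a c h1, zero_mul]
      · rw [h c b (by push_cast at hab; omega), mul_zero]
  refine ⟨2 * ∑ a, (w a).natAbs + 1, ?_⟩
  ext a b
  have h1 := Finset.single_le_sum (f := fun a => (w a).natAbs) (fun _ _ => Nat.zero_le _)
    (Finset.mem_univ a)
  have h2 := Finset.single_le_sum (f := fun a => (w a).natAbs) (fun _ _ => Nat.zero_le _)
    (Finset.mem_univ b)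
  exact key _ a b (by omega)

/-- Elements of `U` (the subgroup generated by the root elements of the positive roots) are unipotent linear maps: `(u - 1)^n = 0` with `n = rank + nroots` the dimension of the module. -/
theorem result {F : Type*} [Field F] (D : Cfsg.Lie.ChevalleyDatum) (hD : D ∈ [Cfsg.Lie.chevG2, Cfsg.Lie.chevB2, Cfsg.Lie.chevD4, Cfsg.Lie.chevF4, Cfsg.Lie.chevE6, Cfsg.Lie.chevE7, Cfsg.Lie.chevE8]) (g : GL D.Idx F) (hg : g ∈ D.posUnipotent F) :
    ((g : Matrix D.Idx D.Idx F) - 1) ^ (D.rank + D.nroots) = 0 := by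
  obtain ⟨C⟩ := H6.Chev.cert_of_mem hD
  rw [C.posUnipotent_eq, H6.StSys.Up, ← C.R.pos_set_eq] at hg
  have h := pow_eq_zero _ _ (C.strict_of_mem_U _ hg)
  have h2 := Matrix.aeval_self_charpoly ((g : Matrix D.Idx D.Idx F) - 1)
  have h3 := (Matrix.isNilpotent_charpoly_sub_pow_of_isNilpotent h).eq_zero
  rw [sub_eq_zero] at h3
  simpa [h3] using h2

end Cfsg.Agent.S1028
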