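import Cfsg.Statements.S1030
import Cfsg.Agent.H6.Ree1

set_option autoImplicit false
open Cfsg

namespace Cfsg.Agent.S1030

/-- There is a homomorphism `SL₂(F) → GL` with image `⟨X_r, X_{-r}⟩` sending `[[1,t],[0,1]]` to `x_r(t)` and `[[1,0],[t,1]]` to `x_{-r}(t)`. -/
theorem result {F : Type*} [Field F] (D : Cfsg.Lie.ChevalleyDatum) (hD : D ∈ [Cfsg.Lie.chevG2, Cfsg.Lie.chevB2, Cfsg.Lie.chevD4, Cfsg.Lie.chevF4, Cfsg.Lie.chevE6, Cfsg.Lie.chevE7, Cfsg.Lie.chevE8]) (r : ℕ) (hr : r < D.nroots) :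
    ∃ φ : Matrix.SpecialLinearGroup (Fin 2) F →* GL D.Idx F,
      φ.range = D.rootSubgroup F r ⊔ D.rootSubgroup F (D.neg r) ∧
      ∀ (g : Matrix.SpecialLinearGroup (Fin 2) F) (t : F),
        ((g : Matrix (Fin 2) (Fin 2) F) = !![1, t; 0, 1] → ((φ g : GL D.Idx F) : Matrix D.Idx D.Idx F) = D.x F r t) ∧
        ((g : Matrix (Fin 2) (Fin 2) F) = !![1, 0; t, 1] → ((φ g : GL D.Idx F) : Matrix D.Idx D.Idx F) = D.x F (D.neg r) t) := by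
  obtain ⟨C⟩ := H6.Chev.cert_of_mem hD
  obtain ⟨φ, h1, h2⟩ := (C.sys F).nconj.exists_sl2 C.r3 ⟨r, hr⟩
  have e1 := C.rootSubgroup_eq (F := F) ⟨r, hr⟩
  have e2 := C.rootSubgroup_eq (F := F) (C.R.neg ⟨r, hr⟩)
  refine ⟨φ, le_antisymm ?_ (sup_le ?_ ?_), fun g t => ⟨fun e => ?_, fun e => ?_⟩⟩
  · rintro _ ⟨g, rfl⟩
    exact H6.hom_mem (fun t => Subgroup.mem_sup_left (e1.ge (h1 t ▸ (C.sys F).x_mem_U (Set.mem_singleton _) t)))
      (fun t => Subgroup.mem_sup_right (e2.ge (h2 t ▸ (C.sys F).x_mem_U (Set.mem_singleton _) t))) g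
  · refine e1.le.trans ((Subgroup.closure_le _).2 ?_)
    rintro _ ⟨_, rfl, t, rfl⟩
    exact ⟨_, h1 t⟩
  · refine e2.le.trans ((Subgroup.closure_le _).2 ?_)
    rintro _ ⟨_, rfl, t, rfl⟩
    exact ⟨_, h2 t⟩
  · rw [show g = H5.up t from Subtype.ext e, h1]; exact C.sys_x _ _
  · rw [show g = H6.lo t from Subtype.ext e, h2]; exact C.sys_x _ _

end Cfsg.Agent.S1030
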