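import Cfsg.Statements.S1033
import Cfsg.Agent.H6.ChevAll

set_option autoImplicit false
open Cfsg

namespace Cfsg.Agent.S1033

/-- `h_p(c)` (for a fundamental root `p = p_{i+1}` and `c ≠ 0`) is diagonal: it fixes each `h_{p_j}` and scales `e_s` by `c^{A_{p,s}}`. -/
theorem result {F : Type*} [Field F] (D : Cfsg.Lie.ChevalleyDatum) (hD : D ∈ [Cfsg.Lie.chevG2, Cfsg.Lie.chevB2, Cfsg.Lie.chevD4, Cfsg.Lie.chevF4, Cfsg.Lie.chevE6, Cfsg.Lie.chevE7, Cfsg.Lie.chevE8]) (i : ℕ) (hi : i < D.rank) (c : F) (hc : c ≠ 0) :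
    D.hMat F (D.simple i) c = Matrix.diagonal (Sum.elim (fun _ => (1 : F)) (fun s : Fin D.nroots => c ^ (D.cartan i s))) := by
  obtain ⟨C⟩ := H6.Chev.cert_of_mem hD
  obtain ⟨c, rfl⟩ : ∃ u : Fˣ, c = u := ⟨Units.mk0 c hc, rfl⟩
  have := congrArg Units.val (C.st_h_simple (F := F) ⟨i, hi⟩ c)
  rw [C.st_h, C.tU_val] at this
  refine this.trans ?_
  unfold H6.Chev.tD
  congr 2
  ext s
  beta_reduce
  rw [C.chi_eq, ← Units.val_zpow_eq_zpow_val]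
  congr 1
  rw [← C.R_A ⟨i, hi⟩, C.R.A_eq _ s, ← H6.RS.prod_zpow_sum]
  simp [H6.RS.chi, ← zpow_mul, mul_comm]

end Cfsg.Agent.S1033
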