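import Cfsg.Statements.S1034
import Cfsg.Agent.H6.ChevAll

set_option autoImplicit false
open Cfsg

namespace Cfsg.Agent.S1034

/-- Every element of `H` is a product `h_{p_1}(c_1) ⋯ h_{p_l}(c_l)` over the fundamental roots, with non-zero `c_i`. -/
theorem result {F : Type*} [Field F] (D : Cfsg.Lie.ChevalleyDatum) (hD : D ∈ [Cfsg.Lie.chevG2, Cfsg.Lie.chevB2, Cfsg.Lie.chevD4, Cfsg.Lie.chevF4, Cfsg.Lie.chevE6, Cfsg.Lie.chevE7, Cfsg.Lie.chevE8]) (g : GL D.Idx F) (hg : g ∈ D.diagonalSubgroup F) :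
    ∃ c : ℕ → F, (∀ i < D.rank, c i ≠ 0) ∧
      (g : Matrix D.Idx D.Idx F) = D.wordMat F ((List.range D.rank).flatMap fun i => D.hWord (D.simple i) (c i)) := by
  obtain ⟨C⟩ := H6.Chev.cert_of_mem hD
  rw [C.diagonalSubgroup_eq] at hg
  obtain ⟨c, rfl, -⟩ := (C.sys F).nconj.exists_chi C.r3 hg
  refine ⟨fun i => if h : i < D.rank then (c ⟨i, h⟩ : F) else 1, fun i hi => by simp [hi], ?_⟩
  rw [(C.sys F).nconj.Theta_eq_prod C.r3 c (List.nodup_finRange _) (List.mem_finRange),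
    ← List.map_coe_finRange_eq_range]
  induction (List.finRange D.rank) with
  | nil => simp [H6.Chev.wordMat_nil]
  | cons i L ih =>
    rw [List.map_cons, List.prod_cons, Units.val_mul, ih, List.map_cons, List.flatMap_cons,
      H6.Chev.wordMat_append, C.sys_h]
    simp [Cfsg.Lie.ChevalleyDatum.hMat]

end Cfsg.Agent.S1034
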