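import Cfsg.Statements.S1044
import Cfsg.Agent.H6.ChevAll

set_option autoImplicit false
open Cfsg

namespace Cfsg.Agent.S1044

/-- For a fundamental root `p` the set `B ∪ B n_p B` is (the carrier of) a subgroup of the general linear group. -/
theorem result {F : Type*} [Field F] (D : Cfsg.Lie.ChevalleyDatum) (hD : D ∈ [Cfsg.Lie.chevG2, Cfsg.Lie.chevB2, Cfsg.Lie.chevD4, Cfsg.Lie.chevF4, Cfsg.Lie.chevE6, Cfsg.Lie.chevE7, Cfsg.Lie.chevE8]) (i : ℕ) (hi : i < D.rank) (n : GL D.Idx F)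
    (hn : (n : Matrix D.Idx D.Idx F) = D.nMat F (D.simple i) 1) :
    ∃ P : Subgroup (GL D.Idx F), (P : Set (GL D.Idx F)) =
      (D.borelSubgroup F : Set (GL D.Idx F)) ∪ DoubleCoset.doubleCoset n (D.borelSubgroup F : Set (GL D.Idx F)) (D.borelSubgroup F) := by
  obtain ⟨C⟩ := H6.Chev.cert_of_mem hD
  rw [C.borelSubgroup_eq]
  obtain rfl := (C.eq_n_iff (C.simple_lt hi)).1 hn
  set S := C.sys F
  have ha := S.nconj.acts ⟨i, hi⟩ (one_ne_zero (α := F))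
  have hN := S.n_mem_N (C.R.simple ⟨i, hi⟩) (one_ne_zero (α := F))
  refine ⟨S.P {⟨i, hi⟩}, ?_⟩
  ext g
  simp only [SetLike.mem_coe, S.mem_P_iff, Set.mem_union, DoubleCoset.mem_doubleCoset]
  constructor
  · rintro ⟨b, hb, n, hn, w, hw, hnw, b', hb', rfl⟩
    have : w = 1 ∨ w = C.R.s ⟨i, hi⟩ := by
      refine C.R.WJ_induction (p := fun w => w = 1 ∨ w = C.R.s ⟨i, hi⟩) (Or.inl rfl) ?_ hw
      rintro j rfl w - (rfl | rfl)
      · simp
      · simp [C.R.s_sq]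
    rcases this with rfl | rfl
    · exact Or.inl (mul_mem (mul_mem hb (S.H_le_B (S.mem_H_of_acts hn hnw))) hb')
    · exact Or.inr ⟨b, hb, _, mul_mem (S.H_le_B (S.inv_mul_mem_H hN hn ha hnw)) hb', by
        rw [mul_assoc, mul_assoc, mul_assoc]; exact congrArg _ (mul_inv_cancel_left _ _).symm⟩
  · rintro (hg | ⟨b, hb, b', hb', rfl⟩)
    · exact ⟨g, hg, 1, one_mem _, 1, one_mem _, H6.StSys.Acts.one, 1, one_mem _, by simp⟩
    · exact ⟨b, hb, _, hN, _, C.R.s_mem_WJ rfl, ha, b', hb', rfl⟩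

end Cfsg.Agent.S1044
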