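import Cfsg.Statements.S1045
import Cfsg.Agent.H6.ChevAll

set_option autoImplicit false
open Cfsg

namespace Cfsg.Agent.S1045

/-- For a fundamental root `p`, the subgroup `U_p` generated by the `X_s`, `s` positive and `s ≠ p`, is normalised by `X_p` and `X_{-p}`, and `U = U_p ⊔ X_p`. -/
theorem result {F : Type*} [Field F] (D : Cfsg.Lie.ChevalleyDatum) (hD : D ∈ [Cfsg.Lie.chevG2, Cfsg.Lie.chevB2, Cfsg.Lie.chevD4, Cfsg.Lie.chevF4, Cfsg.Lie.chevE6, Cfsg.Lie.chevE7, Cfsg.Lie.chevE8]) (i : ℕ) (hi : i < D.rank) :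
    D.rootSubgroup F (D.simple i) ⊔ D.rootSubgroup F (D.neg (D.simple i)) ≤
        Subgroup.normalizer (Subgroup.closure {g : GL D.Idx F | ∃ (s : ℕ) (t : F), D.IsPosRoot s ∧ s ≠ D.simple i ∧
          (g : Matrix D.Idx D.Idx F) = D.x F s t} : Set (GL D.Idx F)) ∧
      Subgroup.closure {g : GL D.Idx F | ∃ (s : ℕ) (t : F), D.IsPosRoot s ∧ s ≠ D.simple i ∧
          (g : Matrix D.Idx D.Idx F) = D.x F s t} ⊔ D.rootSubgroup F (D.simple i) = D.posUnipotent F := by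
  obtain ⟨C⟩ := H6.Chev.cert_of_mem hD
  have e := C.closure_eq_U (F := F) (p := fun s => D.IsPosRoot s ∧ s ≠ D.simple i)
    (T := {s | C.R.Pos s ∧ s ≠ C.R.simple ⟨i, hi⟩}) (fun _ h => h.1.1)
    (fun r => by simp [C.isPosRoot_iff, Fin.ext_iff])
  simp only [and_assoc] at e
  rw [e, C.posUnipotent_eq, show D.simple i = (C.R.simple ⟨i, hi⟩ : Fin _) from rfl, ← C.R_neg,
    C.rootSubgroup_eq, C.rootSubgroup_eq]
  refine ⟨(C.sys F).simple_le_normalizer _, ?_⟩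
  rw [← H6.StSys.U_union, H6.StSys.Up]
  congr 1
  ext r
  simp only [Set.mem_union, Set.mem_setOf_eq, Set.mem_singleton_iff]
  constructor
  · rintro (h | rfl)
    exacts [h.1, C.R.pos_simple _]
  · tauto

end Cfsg.Agent.S1045
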