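import Cfsg.Statements.S1058
import Cfsg.Agent.H6.Rep2
import Cfsg.Agent.S0247

set_option autoImplicit false
open Cfsg

namespace Cfsg.Agent.S1058

/-- B₂(2) ≅ S₆. -/
theorem result {F : Type*} [Field F] [Fintype F] (hF : Fintype.card F = 2) :
    Nonempty (↥(Cfsg.Lie.chevB2.group F) ≃* Equiv.Perm (Fin 6)) := by
  have h2 : (2 : F) = 0 := by simpa [hF] using FiniteField.cast_card_eq_zero F
  obtain ⟨a⟩ := H6.Rep.isoC2 h2
  obtain ⟨b⟩ := Cfsg.Agent.S0247.result hF
  exact ⟨a.trans ((QuotientGroup.quotientMulEquivOfEq (H6.Rep.center_sp h2 2 le_rfl)).trans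
    (QuotientGroup.quotientBot.trans b))⟩

end Cfsg.Agent.S1058
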