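import Cfsg.Statements.S1074
import Cfsg.Agent.H8.XTi2
-- import your own Cfsg.Agent.* helpers here

set_option autoImplicit false
set_option maxRecDepth 200000
open Cfsg

namespace Cfsg.Agent.S1074

theorem idx {G : Type*} [Group G] (H : Subgroup G) (h : Nat.card G = 35942400) (h' : Nat.card H = 17971200) : H.index = 2 := by
  have := H.index_mul_card
  rw [h, h'] at this
  omega
theorem ncomm {G : Type*} [Group G] [IsSimpleGroup G] (h' : Nat.card G = 17971200) : ¬ IsMulCommutative G := fun h => by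
  haveI : Finite G := Nat.finite_of_card_ne_zero (by rw [h']; norm_num)
  letI : CommGroup G := { (inferInstance : Group G) with mul_comm := h.is_comm.comm }
  have := IsSimpleGroup.prime_card (α := G)
  rw [h'] at this
  exact absurd this (by norm_num)

/-- ²F₄(2)′ has index 2 in ²F₄(2), is simple, and has order `2¹¹ · 3³ · 5² · 13`. -/
theorem result : (commutator ↥(Cfsg.Lie.twistedF4 (ZMod 2) 1)).index = 2 ∧ IsSimpleGroup Cfsg.Lie.TitsGroup ∧ ¬ IsMulCommutative Cfsg.Lie.TitsGroup ∧
    Nat.card Cfsg.Lie.TitsGroup = 2 ^ 11 * 3 ^ 3 * 5 ^ 2 * 13 := by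
  exact ⟨idx _ H8.Ti.card2 H8.Ti.tcard, H8.Ti.tsimple, @ncomm Lie.TitsGroup _ H8.Ti.tsimple H8.Ti.tcard, H8.Ti.tcard.trans (by norm_num)⟩

end Cfsg.Agent.S1074
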