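import Cfsg.Statements.S1078
import Cfsg.Agent.H6.StGroup
import Cfsg.Agent.H6.ChevAll

set_option autoImplicit false
open Cfsg

namespace Cfsg.Agent.S1078

/-- For G₂, F₄, E₈ the presented group has trivial centre (the universal and adjoint groups coincide). -/
theorem result {K : Type*} [Field K] (D : Cfsg.Lie.ChevalleyDatum) (hD : D ∈ [Cfsg.Lie.chevG2, Cfsg.Lie.chevF4, Cfsg.Lie.chevE8]) :
    Subgroup.center (D.SteinbergGroup K) = ⊥ := by
  have key : ∀ (C : H6.Chev.Cert D) (hR : C.R.Rk2), Function.Injective (C.R.cm Kˣ) →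
      Subgroup.center (D.SteinbergGroup K) = ⊥ := fun C hR h => by
    rw [C.center_eq (C.stSys K hR) (C.stSys_grp hR) C.stSt_r3, (MonoidHom.ker_eq_bot_iff _).2 h,
      Subgroup.map_bot]
  simp only [List.mem_cons, List.not_mem_nil, or_false] at hD
  rcases hD with rfl | rfl | rfl
  · exact key H6.Chev.certG2 (H6.Chev.rk2_of_mem (by simp) _)
      (H6.Chev.certG2.cm_injective H6.Chev.kerG2 _)
  · exact key H6.Chev.certF4 (H6.Chev.rk2_of_mem (by simp) _)
      (H6.Chev.certF4.cm_injective H6.Chev.kerF4 _)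
  · exact key H6.Chev.certE8 (H6.Chev.rk2_of_mem (by simp) _)
      (H6.Chev.certE8.cm_injective H6.Chev.kerE8 _)

end Cfsg.Agent.S1078
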