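import Cfsg.Statements.S1079
import Cfsg.Agent.H6.Graph

set_option autoImplicit false
open Cfsg

namespace Cfsg.Agent.S1079

/-- `|Z(Ḡ)| = gcd(3, q-1)` for E₆ and `gcd(2, q-1)` for E₇ over a field with `q` elements (the centre is dual to the weight lattice modulo the root lattice). -/
theorem result {K : Type*} [Field K] [Fintype K] {q : ℕ} (hq : Fintype.card K = q)
    (p : Cfsg.Lie.ChevalleyDatum × ℕ) (hp : p ∈ [(Cfsg.Lie.chevE6, 3), (Cfsg.Lie.chevE7, 2)]) :
    Nat.card (Subgroup.center (p.1.SteinbergGroup K)) = Nat.gcd p.2 (q - 1) := by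
  subst hq
  simp only [List.mem_cons, List.not_mem_nil, or_false] at hp
  rcases hp with rfl | rfl
  · have hR := H6.Chev.rk2_of_mem (by simp) H6.Chev.certE6
    rw [H6.Chev.certE6.center_eq (H6.Chev.certE6.stSys K hR) (H6.Chev.certE6.stSys_grp hR)
      H6.Chev.certE6.stSt_r3, Subgroup.card_map_of_injective (H6.Chev.thetaE6_injective hR),
      H6.Chev.certE6.card_ker_cm H6.Chev.kerE6, pow_one]
  · have hR := H6.Chev.rk2_of_mem (by simp) H6.Chev.certE7
    rw [H6.Chev.certE7.center_eq (H6.Chev.certE7.stSys K hR) (H6.Chev.certE7.stSys_grp hR)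
      H6.Chev.certE7.stSt_r3, Subgroup.card_map_of_injective (H6.Chev.thetaE7_injective hR),
      H6.Chev.certE7.card_ker_cm H6.Chev.kerE7, pow_one]

end Cfsg.Agent.S1079
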