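import Cfsg.Statements.S1080
import Cfsg.Agent.H6.StGroup
import Cfsg.Agent.H6.ChevAll

set_option autoImplicit false
open Cfsg

namespace Cfsg.Agent.S1080

/-- Field automorphisms: for every field automorphism `f` there is a group automorphism sending each `x_r(t)` to `x_r(f t)`. -/
theorem result {F : Type*} [Field F] (D : Cfsg.Lie.ChevalleyDatum) (hD : D ∈ [Cfsg.Lie.chevG2, Cfsg.Lie.chevB2, Cfsg.Lie.chevD4, Cfsg.Lie.chevF4, Cfsg.Lie.chevE6, Cfsg.Lie.chevE7, Cfsg.Lie.chevE8]) (f : F ≃+* F) :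
    ∃ α : ↥(D.group F) ≃* ↥(D.group F), ∀ (g : ↥(D.group F)) (r : ℕ) (t : F), r < D.nroots →
      ((g : GL D.Idx F) : Matrix D.Idx D.Idx F) = D.x F r t → ((α g : GL D.Idx F) : Matrix D.Idx D.Idx F) = D.x F r (f t) := by
  obtain ⟨C⟩ := H6.Chev.cert_of_mem hD
  obtain ⟨α, hα⟩ := (C.gsys F).exists_fieldAut (H6.Chev.rk2_of_mem hD C) C.gsys_grp C.gsys_adj f
  refine ⟨α, fun g r t hr hg => ?_⟩
  rw [(C.eq_gx_iff hr).1 hg, hα]
  rfl

end Cfsg.Agent.S1080
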