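import Cfsg.Statements.S1081
import Cfsg.Agent.H6.Graph

set_option autoImplicit false
open Cfsg

namespace Cfsg.Agent.S1081

open Cfsg.Lie H6 H6.Chev in
lemma key {F : Type*} [Field F] {D : ChevalleyDatum} {C : Cert D} {m m' : Mor} (h : MorOK C C m)
    (hS : m.chkS C.Z C.Z = true) (h' : MorOK C C m')
    (hS' : m'.chkS C.Z C.Z = true) (hR : C.R.Rk2) (hp : m.p = 0) (hp' : m'.p = 0)
    (hA : m.chkA D D C.Z = true) (hA' : m'.chkA D D C.Z = true)
    (hc : ∀ i : Fin D.rank, m'.π (m.π i) = i) (L : List ℕ) (hL : ∀ i < D.rank, m.π i = L.getD i 0) :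
    ∃ α : ↥(D.group F) ≃* ↥(D.group F), ∀ (g : ↥(D.group F)) (i : ℕ) (t : F), i < D.rank →
      (((g : GL D.Idx F) : Matrix D.Idx D.Idx F) = D.x F (D.simple i) t →
        ((α g : GL D.Idx F) : Matrix D.Idx D.Idx F) = D.x F (D.simple (L.getD i 0)) t) ∧
      (((g : GL D.Idx F) : Matrix D.Idx D.Idx F) = D.x F (D.neg (D.simple i)) t →
        ((α g : GL D.Idx F) : Matrix D.Idx D.Idx F) = D.x F (D.neg (D.simple (L.getD i 0))) t) := by
  obtain ⟨α, hα⟩ := h.exists_autA (K := F) hS h' hS' hR hp hp' hA hA' hc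
  refine ⟨α, fun g i t hi => ?_⟩
  have := h.aut_simple hS (α := α) (fun r t => by rw [hα, MorOK.lam_eq_one hA, pow_one]) g i t hi
  rwa [show m.lam (D.simple i) = 1 from MorOK.lam_eq_one hA (C.R.simple ⟨i, hi⟩), pow_one,
    hL i hi] at this

/-- Graph automorphisms: for E₆ with ρ = (p₁ p₆)(p₃ p₅) and for D₄ with ρ the 3-cycle on the outer nodes there is a group automorphism sending `x_p(t) ↦ x_{ρ(p)}(t)` and `x_{-p}(t) ↦ x_{-ρ(p)}(t)` for every fundamental root `p`. -/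
theorem result {F : Type*} [Field F] (p : Cfsg.Lie.ChevalleyDatum × List ℕ)
    (hp : p ∈ [(Cfsg.Lie.chevE6, [5, 1, 4, 3, 2, 0]), (Cfsg.Lie.chevD4, [2, 1, 3, 0]), (Cfsg.Lie.chevD4, [3, 1, 0, 2])]) :
    ∃ α : ↥(p.1.group F) ≃* ↥(p.1.group F), ∀ (g : ↥(p.1.group F)) (i : ℕ) (t : F), i < p.1.rank →
      (((g : GL p.1.Idx F) : Matrix p.1.Idx p.1.Idx F) = p.1.x F (p.1.simple i) t →
        ((α g : GL p.1.Idx F) : Matrix p.1.Idx p.1.Idx F) = p.1.x F (p.1.simple (p.2.getD i 0)) t) ∧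
      (((g : GL p.1.Idx F) : Matrix p.1.Idx p.1.Idx F) = p.1.x F (p.1.neg (p.1.simple i)) t →
        ((α g : GL p.1.Idx F) : Matrix p.1.Idx p.1.Idx F) = p.1.x F (p.1.neg (p.1.simple (p.2.getD i 0))) t) := by
  simp only [List.mem_cons, List.not_mem_nil, or_false] at hp
  rcases hp with rfl | rfl | rfl
  · exact key H6.Chev.grE6OK H6.Chev.grE6S H6.Chev.grE6OK H6.Chev.grE6S
      (H6.Chev.rk2_of_mem (by simp) _) rfl rfl H6.Chev.grE6A H6.Chev.grE6A (by decide +kernel) _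
      (by decide +kernel)
  · exact key H6.Chev.grD4OK H6.Chev.grD4S H6.Chev.grD4iOK H6.Chev.grD4iS
      (H6.Chev.rk2_of_mem (by simp) _) rfl rfl H6.Chev.grD4A H6.Chev.grD4iA (by decide +kernel) _
      (by decide +kernel)
  · exact key H6.Chev.grD4iOK H6.Chev.grD4iS H6.Chev.grD4OK H6.Chev.grD4S
      (H6.Chev.rk2_of_mem (by simp) _) rfl rfl H6.Chev.grD4iA H6.Chev.grD4A (by decide +kernel) _
      (by decide +kernel)

end Cfsg.Agent.S1081
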