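import Cfsg.Statements.S1092
import Cfsg.Agent.H6.WeylData

set_option autoImplicit false
open Cfsg

namespace Cfsg.Agent.S1092

open Cfsg.Lie H6 H6.Chev in
lemma key {D : ChevalleyDatum} (C : Cert D) {M : CoxeterMatrix (Fin D.rank)}
    (h : ∃ e : C.R.W ≃* M.Group, ∀ i, e (C.R.s i) = M.simple i) :
    Nat.card M.Group = C.R.poin (Sym.triv C.R).W1 1 := by
  obtain ⟨e, -⟩ := h
  rw [RS.poin_one, Sym.triv_W1, ← Nat.card_congr e.toEquiv]
  simp

/-- `|W(B₂)| = 8`, `|W(G₂)| = 12`, `|W(D₄)| = 192`, `|W(F₄)| = 1152` for the groups presented by the Coxeter matrices (the product of the degrees of the basic invariants). -/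
theorem result (p : (Σ n : ℕ, CoxeterMatrix (Fin n)) × ℕ)
    (hp : p ∈ [(⟨2, CoxeterMatrix.B 2⟩, 8), (⟨2, CoxeterMatrix.G₂⟩, 12), (⟨4, Cfsg.Lie.coxeterD4⟩, 192), (⟨4, CoxeterMatrix.F₄⟩, 1152)]) :
    Nat.card p.1.2.Group = p.2 := by
  simp only [List.mem_cons, List.not_mem_nil, or_false] at hp
  rcases hp with rfl | rfl | rfl | rfl
  · exact (key _ H6.Chev.coxB2).trans ((H6.Chev.poinB2 1).trans (by decide))
  · exact (key _ H6.Chev.coxG2).trans ((H6.Chev.poinG2 1).trans (by decide))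
  · exact (key _ H6.Chev.coxD4).trans ((H6.Chev.poinD4 1).trans (by decide))
  · exact (key _ H6.Chev.coxF4).trans ((H6.Chev.poinF4 1).trans (by decide))

end Cfsg.Agent.S1092
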