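import Cfsg.Statements.S1094
import Cfsg.Agent.H6.WeylData

set_option autoImplicit false
open Cfsg

namespace Cfsg.Agent.S1094

open Cfsg.Lie H6 H6.Chev in
lemma key {D : ChevalleyDatum} (C : Cert D) {M : CoxeterMatrix (Fin D.rank)}
    (h : ∃ e : C.R.W ≃* M.Group, ∀ i, e (C.R.s i) = M.simple i) {A : List (List ℤ)}
    (hA : CartOK C.R A) {m : ℕ} (hm : chkOrd A D.rank ((List.finRange D.rank).map Fin.val) m = true) :
    orderOf ((List.finRange D.rank).map M.simple).prod = m := by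
  obtain ⟨e, he⟩ := h
  rw [← hA.orderOf_wp _ hm, ← e.orderOf_eq, InvGen.wp, map_list_prod, List.map_map]
  congr 2
  exact List.map_congr_left fun i _ => (he i).symm

/-- The Coxeter element `s₁ s₂ ⋯ s_l` of the Coxeter group of type B₂, G₂, D₄, F₄, E₆, E₇, E₈ has order `h = 2N/l` = 4, 6, 6, 12, 12, 18, 30. -/
theorem result (p : (Σ n : ℕ, CoxeterMatrix (Fin n)) × ℕ)
    (hp : p ∈ [(⟨2, CoxeterMatrix.B 2⟩, 4), (⟨2, CoxeterMatrix.G₂⟩, 6), (⟨4, Cfsg.Lie.coxeterD4⟩, 6), (⟨4, CoxeterMatrix.F₄⟩, 12),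
      (⟨6, CoxeterMatrix.E₆⟩, 12), (⟨7, CoxeterMatrix.E₇⟩, 18), (⟨8, CoxeterMatrix.E₈⟩, 30)]) :
    orderOf ((List.finRange p.1.1).map p.1.2.simple).prod = p.2 := by
  simp only [List.mem_cons, List.not_mem_nil, or_false] at hp
  rcases hp with rfl | rfl | rfl | rfl | rfl | rfl | rfl
  exacts [key _ H6.Chev.coxB2 H6.Chev.cartB2OK (by decide +kernel),
    key _ H6.Chev.coxG2 H6.Chev.cartG2OK (by decide +kernel),
    key _ H6.Chev.coxD4 H6.Chev.cartD4OK (by decide +kernel),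
    key _ H6.Chev.coxF4 H6.Chev.cartF4OK (by decide +kernel),
    key _ H6.Chev.coxE6 H6.Chev.cartE6OK (by decide +kernel),
    key _ H6.Chev.coxE7 H6.Chev.cartE7OK (by decide +kernel),
    key _ H6.Chev.coxE8 H6.Chev.cartE8OK (by decide +kernel)]

end Cfsg.Agent.S1094
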