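import Cfsg.Statements.S1096
import Cfsg.Agent.H6.ChevAll

set_option autoImplicit false
open Cfsg

namespace Cfsg.Agent.S1096

/-- `n_p h_{p_j}(t) n_p⁻¹ = h_{w_p(p_j)}(t)` for fundamental `p`, `p_j` and `t ≠ 0`, stated as `n_p h_{p_j}(t) = h_{w_p(p_j)}(t) n_p`. -/
theorem result {F : Type*} [Field F] (D : Cfsg.Lie.ChevalleyDatum) (hD : D ∈ [Cfsg.Lie.chevG2, Cfsg.Lie.chevB2, Cfsg.Lie.chevD4, Cfsg.Lie.chevF4, Cfsg.Lie.chevE6, Cfsg.Lie.chevE7, Cfsg.Lie.chevE8]) (i j : ℕ) (hi : i < D.rank) (hj : j < D.rank) (t : F) (ht : t ≠ 0) :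
    D.nMat F (D.simple i) 1 * D.hMat F (D.simple j) t = D.hMat F (D.reflectRoot i (D.simple j)) t * D.nMat F (D.simple i) 1 := by
  obtain ⟨C⟩ := H6.Chev.cert_of_mem hD
  set S := C.sys F
  have ha := S.nconj.actsC ⟨i, hi⟩ (one_ne_zero (α := F))
  have h1 := ha.conj_h (C.R.simple ⟨j, hj⟩) t
  rw [mul_comm _ t, ← C.r3 _ t _ ht (ha.ne _), mul_inv_cancel_right, mul_inv_eq_iff_eq_mul] at h1
  simpa [S, C.sys_h, C.sys_n] using congrArg Units.val h1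

end Cfsg.Agent.S1096
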