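import Cfsg.Statements.S1098
import Cfsg.Agent.H6.Graph

set_option autoImplicit false
open Cfsg

namespace Cfsg.Agent.S1098

/-- Graph automorphisms in characteristic 2 (K perfect): for B₂ (a short, b long) `x_a(t) ↦ x_b(t²)`, `x_b(t) ↦ x_a(t)`, and for F₄ (p₁, p₂ short, p₃, p₄ long) `x_{p₁}(t) ↦ x_{p₄}(t²)`, `x_{p₂}(t) ↦ x_{p₃}(t²)`, `x_{p₃}(t) ↦ x_{p₂}(t)`, `x_{p₄}(t) ↦ x_{p₁}(t)`, likewise on the negatives, extend to an automorphism of the group. -/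
theorem result {K : Type*} [Field K] [CharP K 2] (hperf : ∀ x : K, ∃ y : K, y ^ 2 = x)
    (p : Cfsg.Lie.ChevalleyDatum × List (ℕ × ℕ))
    (hp : p ∈ [(Cfsg.Lie.chevB2, [(1, 2), (0, 1)]), (Cfsg.Lie.chevF4, [(3, 2), (2, 2), (1, 1), (0, 1)])]) :
    ∃ α : ↥(p.1.group K) ≃* ↥(p.1.group K), ∀ (g : ↥(p.1.group K)) (i : ℕ) (t : K), i < p.1.rank →
      (((g : GL p.1.Idx K) : Matrix p.1.Idx p.1.Idx K) = p.1.x K (p.1.simple i) t →
        ((α g : GL p.1.Idx K) : Matrix p.1.Idx p.1.Idx K) = p.1.x K (p.1.simple (p.2.getD i (0, 1)).1) (t ^ (p.2.getD i (0, 1)).2)) ∧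
      (((g : GL p.1.Idx K) : Matrix p.1.Idx p.1.Idx K) = p.1.x K (p.1.neg (p.1.simple i)) t →
        ((α g : GL p.1.Idx K) : Matrix p.1.Idx p.1.Idx K) = p.1.x K (p.1.neg (p.1.simple (p.2.getD i (0, 1)).1)) (t ^ (p.2.getD i (0, 1)).2)) := by
  simp only [List.mem_cons, List.not_mem_nil, or_false] at hp
  rcases hp with rfl | rfl
  · obtain ⟨α, hα⟩ := @H6.Chev.MorOK.exists_autB _ K _ _ _ H6.Chev.grB2OK H6.Chev.grB2S
      (H6.Chev.rk2_of_mem (by simp) _) ⟨Nat.prime_two⟩ ‹_› H6.Chev.grB2B hperf (by decide +kernel)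
    refine ⟨α, fun g i t hi => ?_⟩
    have := H6.Chev.grB2OK.aut_simple H6.Chev.grB2S hα g i t hi
    have h : ∀ i < Cfsg.Lie.chevB2.rank, H6.Chev.grB2.π i = ([(1, 2), (0, 1)].getD i (0, 1)).1 ∧
      H6.Chev.grB2.lam (Cfsg.Lie.chevB2.simple i) = ([(1, 2), (0, 1)].getD i (0, 1)).2 := by
      decide +kernel
    rwa [(h i hi).1, (h i hi).2] at this
  · obtain ⟨α, hα⟩ := @H6.Chev.MorOK.exists_autB _ K _ _ _ H6.Chev.grF4OK H6.Chev.grF4S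
      (H6.Chev.rk2_of_mem (by simp) _) ⟨Nat.prime_two⟩ ‹_› H6.Chev.grF4B hperf (by decide +kernel)
    refine ⟨α, fun g i t hi => ?_⟩
    have := H6.Chev.grF4OK.aut_simple H6.Chev.grF4S hα g i t hi
    have h : ∀ i < Cfsg.Lie.chevF4.rank, H6.Chev.grF4.π i =
      ([(3, 2), (2, 2), (1, 1), (0, 1)].getD i (0, 1)).1 ∧
      H6.Chev.grF4.lam (Cfsg.Lie.chevF4.simple i) =
        ([(3, 2), (2, 2), (1, 1), (0, 1)].getD i (0, 1)).2 := by
      decide +kernel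
    rwa [(h i hi).1, (h i hi).2] at this

end Cfsg.Agent.S1098
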