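import Cfsg.Statements.S1100
import Cfsg.Agent.H6.ChevAll

set_option autoImplicit false
open Cfsg

namespace Cfsg.Agent.S1100

/-- Canonical form `g = b n_w u` (`b ∈ B`, `u ∈ U_w⁻ = ⟨X_r : r > 0, n_w X_r n_w⁻¹ ≤ V⟩`): such a decomposition exists for every element of the group; the coset `n_w H` is determined by `g`; and for a fixed representative `n_w` the factors `b`, `u` are unique. -/
theorem result {F : Type*} [Field F] (D : Cfsg.Lie.ChevalleyDatum) (hD : D ∈ [Cfsg.Lie.chevG2, Cfsg.Lie.chevB2, Cfsg.Lie.chevD4, Cfsg.Lie.chevF4, Cfsg.Lie.chevE6, Cfsg.Lie.chevE7, Cfsg.Lie.chevE8]) :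
    (∀ g ∈ D.group F, ∃ b ∈ D.borelSubgroup F, ∃ n ∈ D.monomialSubgroup F,
      ∃ u ∈ Subgroup.closure {x : GL D.Idx F | ∃ (r : ℕ) (t : F), D.IsPosRoot r ∧
            (D.rootSubgroup F r).map (MulAut.conj n).toMonoidHom ≤ D.negUnipotent F ∧ (x : Matrix D.Idx D.Idx F) = D.x F r t},
        g = b * n * u) ∧
    (∀ (b b' n n' u u' : GL D.Idx F), b ∈ D.borelSubgroup F → b' ∈ D.borelSubgroup F →
      n ∈ D.monomialSubgroup F → n' ∈ D.monomialSubgroup F →
      u ∈ Subgroup.closure {x : GL D.Idx F | ∃ (r : ℕ) (t : F), D.IsPosRoot r ∧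
            (D.rootSubgroup F r).map (MulAut.conj n).toMonoidHom ≤ D.negUnipotent F ∧ (x : Matrix D.Idx D.Idx F) = D.x F r t} →
      u' ∈ Subgroup.closure {x : GL D.Idx F | ∃ (r : ℕ) (t : F), D.IsPosRoot r ∧
            (D.rootSubgroup F r).map (MulAut.conj n').toMonoidHom ≤ D.negUnipotent F ∧ (x : Matrix D.Idx D.Idx F) = D.x F r t} →
      b * n * u = b' * n' * u' → n⁻¹ * n' ∈ D.diagonalSubgroup F ∧ (n = n' → b = b' ∧ u = u')) := by
  obtain ⟨C⟩ := H6.Chev.cert_of_mem hD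
  rw [C.group_eq, C.borelSubgroup_eq, C.monomialSubgroup_eq, C.diagonalSubgroup_eq]
  set S := C.sys F
  have key : ∀ (n : GL D.Idx F) (w : C.R.W), S.Acts n w →
      Subgroup.closure {x : GL D.Idx F | ∃ (r : ℕ) (t : F), D.IsPosRoot r ∧
        (D.rootSubgroup F r).map (MulAut.conj n).toMonoidHom ≤ D.negUnipotent F ∧
        (x : Matrix D.Idx D.Idx F) = D.x F r t} = S.U {r | C.R.Inv w r} := by
    intro n w hw
    have := C.closure_eq_U (F := F) (p := fun r => D.IsPosRoot r ∧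
      (D.rootSubgroup F r).map (MulAut.conj n).toMonoidHom ≤ D.negUnipotent F)
      (T := {r | C.R.Inv w r}) (fun _ h => h.1.1) (fun r => by
        rw [C.isPosRoot_iff, C.rootSubgroup_eq, C.negUnipotent_eq, hw.map_U, Set.image_singleton]
        refine and_congr_right fun _ => ⟨fun h hp => ?_, fun h => S.U_mono (by rintro _ rfl; exact h)⟩
        exact one_ne_zero (S.inj.x_eq_one (S.eq_one_of_mem_Um_B
          (h (S.x_mem_U (Set.mem_singleton _) 1)) (S.Up_le_B (S.x_mem_U hp 1)))))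
    simpa only [and_assoc] using this
  refine ⟨fun g hg => ?_, fun b b' n n' u u' hb hb' hn hn' hu hu' e => ?_⟩
  · obtain ⟨b, hb, n, hn, w, hw, u, hu, e⟩ := S.exists_bruhat hg
    exact ⟨b, hb, n, hn, u, key n w hw ▸ hu, e⟩
  · obtain ⟨w, hw⟩ := S.nconj.exists_acts_of_mem_N hn
    obtain ⟨w', hw'⟩ := S.nconj.exists_acts_of_mem_N hn'
    rw [key n w hw] at hu
    rw [key n' w' hw'] at hu'
    refine ⟨S.inv_mul_mem_H_of_eq hb (S.U_inv_le_B _ hu) hb' (S.U_inv_le_B _ hu') hn hn' e, ?_⟩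
    rintro rfl
    obtain rfl := S.acts_unique hw hw'
    exact S.bruhat_unique hw hb hb' hu hu' e

end Cfsg.Agent.S1100
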