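import Cfsg.Statements.S1117
import Cfsg.Agent.H6.TwG2

set_option autoImplicit false
open Cfsg

namespace Cfsg.Agent.S1117

/-- The normal core of `B¹ = G¹ ∩ B` in ²G₂(3^(2m+1)) is trivial. -/
theorem result {K : Type*} [Field K] [Fintype K] {m : ℕ} (hK : Fintype.card K = 3 ^ (2 * m + 1)) :
    ((Cfsg.Lie.chevG2.borelSubgroup K ⊓ Cfsg.Lie.twistedG2 K (3 ^ m)).subgroupOf (Cfsg.Lie.twistedG2 K (3 ^ m))).normalCore = ⊥ := by
  obtain ⟨X, f, h⟩ := H6.Chev.G2.exists_pack hK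
  rw [H6.Chev.certG2.borelSubgroup_eq]
  exact h.good.normalCore_eq_bot H6.Chev.certG2.adj h.lead

end Cfsg.Agent.S1117
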