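import Cfsg.Statements.S1119
import Cfsg.Agent.SE.Br

set_option autoImplicit false
open Cfsg

namespace Cfsg.Agent.S1119

open SE H9 Subgroup

/-- In the rank-one set-up (`G` finite and doubly transitive on `Ω`, `t` an involution moving `a`, `Q` normal in `G_a` with `G_a = Q D`, `Q ⊓ D = 1` for the two-point stabiliser `D = G_a ⊓ G_{t • a}`, `|Q|` even, `|D|` odd): `Q` acts regularly on `Ω` minus `a`; hence `|Ω| = |Q| + 1`, `|G| = |Q| |D| (|Q| + 1)`, some Sylow 2-subgroup of `G` lies in `Q`, and each `g ∉ G_a` is uniquely `x t y` with `x ∈ G_a`, `y ∈ Q` (canonical form). -/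
theorem result {G Ω : Type*} [Group G] [Finite G] [MulAction G Ω] {a : Ω} {t : G} {Q : Subgroup G}
    (hS : Cfsg.IsRankOneSetup G Ω a t Q) :
    (∀ b c : Ω, b ≠ a → c ≠ a → ∃! x : Q, (x : G) • b = c) ∧
      Nat.card Ω = Nat.card Q + 1 ∧
      Nat.card G = Nat.card Q * Nat.card ↥(MulAction.stabilizer G a ⊓ MulAction.stabilizer G (t • a)) * (Nat.card Q + 1) ∧
      (∃ P : Sylow 2 G, (P : Subgroup G) ≤ Q) ∧
      ∀ g : G, g ∉ MulAction.stabilizer G a → ∃! p : G × G, p.1 ∈ MulAction.stabilizer G a ∧ p.2 ∈ Q ∧ g = p.1 * t * p.2 := by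
  classical
  have h := r1_of hS
  haveI : Fact (Nat.Prime 2) := ⟨Nat.prime_two⟩
  refine ⟨fun b c hb hc => ?_, ?_, ?_, ?_, fun g hg => ?_⟩
  · obtain ⟨x, hx, rfl⟩ := exists_Q hS hb
    obtain ⟨y, hy, rfl⟩ := exists_Q hS hc
    refine ⟨⟨y * x⁻¹, Q.mul_mem hy (Q.inv_mem hx)⟩, by simp [mul_smul], fun z hz => Subtype.ext ?_⟩
    have := Q_inj hS (Q.mul_mem z.2 hx) hy (by rw [mul_smul]; exact hz)
    simp [← this]
  · have e : Nat.card Ω = Nat.card (Option Q) := by
      refine (Nat.card_congr (Equiv.ofBijective (fun p : Option Q => Option.elim p a (fun x : Q => (x : G) • t • a))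
        ⟨?_, fun b => ?_⟩)).symm
      · have hn : ∀ x : Q, (x : G) • t • a ≠ a := fun x e => h.nmem (h.le x.2) (one_mem _) (by
          rw [mul_one, MulAction.mem_stabilizer_iff, mul_smul, e])
        rintro (_ | x) (_ | y) e
        · rfl
        · exact absurd e.symm (hn y)
        · exact absurd e (hn x)
        · exact congrArg _ (Subtype.ext (Q_inj hS x.2 y.2 e))
      · by_cases hb : b = a
        · exact ⟨none, hb.symm⟩
        · obtain ⟨x, hx, e⟩ := exists_Q hS hb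
          exact ⟨some ⟨x, hx⟩, e⟩
    rw [e, Finite.card_option]
  · rw [DD_stab h.tt, h.card_G, h.card_H]
  · obtain ⟨P, hP⟩ := exists_syl (p := 2) Q
    have : Syl 2 P ⊤ := hP.trans_index le_top (by
      rw [relIndex_top_right]; exact fun h1 => Nat.not_even_iff_odd.2 h.odd_index_Q (even_iff_two_dvd.2 h1))
    obtain ⟨S, hS'⟩ := this.exists_sylow_top
    exact ⟨S, hS' ▸ hP.le⟩
  · obtain ⟨x, hx, y, hy, e⟩ := h.bru g hg
    refine ⟨(x, y), ⟨hx, hy, e⟩, fun p hp => ?_⟩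
    obtain ⟨e1, e2⟩ := h.uniq hp.1 hp.2.1 hx hy (hp.2.2.symm.trans e)
    exact Prod.ext e1 e2

end Cfsg.Agent.S1119
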