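import Cfsg.Statements.S1120
import Cfsg.Agent.SE.Br

set_option autoImplicit false
open Cfsg

namespace Cfsg.Agent.S1120

open SE H9 Subgroup

/-- In the rank-one set-up (`G` finite and doubly transitive on `Ω`, `t` an involution moving `a`, `Q` normal in `G_a` with `G_a = Q D`, `Q ⊓ D = 1` for the two-point stabiliser `D = G_a ⊓ G_{t • a}`, `|Q|` even, `|D|` odd), if `G` has 2-rank at least 2 then `O_{2'}(G)` equals the normal core of `G_a`. -/
theorem result {G Ω : Type*} [Group G] [Finite G] [MulAction G Ω] {a : Ω} {t : G} {Q : Subgroup G}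
    (hS : Cfsg.IsRankOneSetup G Ω a t Q)
    (h2 : ∃ x y : G, x ≠ 1 ∧ y ≠ 1 ∧ x ≠ y ∧ x * x = 1 ∧ y * y = 1 ∧ x * y = y * x) :
    Cfsg.pPrimeCore 2 G = (MulAction.stabilizer G a).normalCore := by
  have h := (r1_of hS).emb
  obtain ⟨x, y, h1, h2, h3, h4, h5, h6⟩ := h2
  obtain ⟨x, hx, y, hy, h1, h2, h3, h4⟩ := h.exists_comm ⟨h1, h4⟩ ⟨h2, h5⟩ h3 h6
  haveI : (Cfsg.pPrimeCore 2 G).Normal := by rw [← Op'_top]; exact normalizer_eq_top_iff.1 (top_le_iff.1 (le_normalizer_Op' 2 ⊤))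
  refine le_antisymm (normal_le_normalCore.2 ?_) (H9.le_pPrimeCore h.odd_core.coprime_two_right)
  exact h.odd_le hx hy h1 h2 h3 h4 (Nat.coprime_two_right.1 (pPrimeCore_cop 2)) (by simp [normalizer_eq_top])
    (by simp [normalizer_eq_top])

end Cfsg.Agent.S1120
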