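import Cfsg.Statements.S1124
import Cfsg.Agent.SE.Br

set_option autoImplicit false
open scoped Pointwise
open Cfsg

namespace Cfsg.Agent.S1124

open SE H9 Subgroup

/-- Let `t` be an element of order 2 of a finite group normalising a subgroup `X` of odd order, `Y = C_X(t)` and `Z` the set of elements of `X` inverted by `t`. Then `(y, z) ↦ y z` is a bijection `Y × Z → X`, so `|X| = |Y| |Z|`, and the subgroup generated by `Z` is normal in `X`. -/
theorem result {M : Type*} [Group M] [Finite M]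
    (t : M) (ht : orderOf t = 2) (X : Subgroup M) (hodd : Odd (Nat.card X))
    (hnorm : ∀ x ∈ X, t * x * t⁻¹ ∈ X) :
    (∀ x ∈ X, ∃! p : M × M, p.1 ∈ X ⊓ Subgroup.centralizer {t} ∧ p.2 ∈ Cfsg.invertedBy X t ∧ x = p.1 * p.2) ∧
      Nat.card X = Nat.card ↥(X ⊓ Subgroup.centralizer {t}) * Nat.card (Cfsg.invertedBy X t) ∧
      ∀ x ∈ X, MulAut.conj x • Subgroup.closure (Cfsg.invertedBy X t) = Subgroup.closure (Cfsg.invertedBy X t) := by
  have tt := (inv_iff_orderOf.2 ht).2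
  have ti := inv_eq_self tt
  rw [ti] at hnorm
  have hc : ∀ v : M, v ∈ centralizer {t} ↔ t * v * t = v := fun v => by
    rw [mem_centralizer_singleton_iff]
    exact ⟨fun e => by rw [← e, mul_assoc, tt, mul_one], fun e => by conv_lhs => rw [← e, mul_assoc, tt, mul_one]⟩
  have hk : ∀ v : M, v ∈ Cfsg.invertedBy X t ↔ v ∈ X ∧ t * v * t = v⁻¹ := fun v => by
    simp only [Cfsg.invertedBy, Set.mem_setOf_eq, ti]
  refine ⟨fun x hx => ?_, ?_, fun x hx => ?_⟩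
  · obtain ⟨v, hv, k, hk', e1, e2, e3⟩ := exists_dec hodd tt hnorm hx
    refine ⟨(v, k), ⟨⟨hv, (hc v).2 e1⟩, (hk k).2 ⟨hk', e2⟩, e3⟩, fun p hp => ?_⟩
    obtain ⟨e4, e5⟩ := dec_unique hodd tt ((hk _).1 hp.2.1).1 hk' ((hc _).1 hp.1.2) ((hk _).1 hp.2.1).2 e1 e2
      (hp.2.2.symm.trans e3)
    exact Prod.ext e4 e5
  · rw [← Nat.card_prod]
    refine (Nat.card_congr (Equiv.ofBijective (fun p : ↥(X ⊓ Subgroup.centralizer {t}) × Cfsg.invertedBy X t =>
      (⟨p.1 * p.2, X.mul_mem p.1.2.1 p.2.2.1⟩ : X)) ⟨fun p p' e => ?_, fun x => ?_⟩)).symm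
    · obtain ⟨e4, e5⟩ := dec_unique hodd tt p.2.2.1 p'.2.2.1 ((hc _).1 p.1.2.2) ((hk _).1 p.2.2).2 ((hc _).1 p'.1.2.2)
        ((hk _).1 p'.2.2).2 (congrArg Subtype.val e)
      exact Prod.ext (Subtype.ext e4) (Subtype.ext e5)
    · obtain ⟨v, hv, k, hk', e1, e2, e3⟩ := exists_dec hodd tt hnorm x.2
      exact ⟨(⟨v, hv, (hc v).2 e1⟩, ⟨k, (hk k).2 ⟨hk', e2⟩⟩), Subtype.ext e3.symm⟩
  · have key : ∀ x ∈ X, ∀ k ∈ Cfsg.invertedBy X t, x * k * x⁻¹ ∈ closure (Cfsg.invertedBy X t) := fun x hx k hk1 => by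
      obtain ⟨v, hv, j, hj, e1, e2, rfl⟩ := exists_dec hodd tt hnorm hx
      obtain ⟨k1, k2⟩ := (hk k).1 hk1
      have cv : ∀ k ∈ Cfsg.invertedBy X t, v * k * v⁻¹ ∈ Cfsg.invertedBy X t := fun k hk1 => by
        obtain ⟨k1, k2⟩ := (hk k).1 hk1
        refine (hk _).2 ⟨X.mul_mem (X.mul_mem hv k1) (X.inv_mem hv), ?_⟩
        rw [show t * (v * k * v⁻¹) * t = (t * v * t) * (t * k * t) * (t * v * t)⁻¹ by
          simp only [mul_inv_rev, ti, mul_assoc, tt_cancel tt], e1, k2]; group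
      rw [show v * j * k * (v * j)⁻¹ = (v * j * v⁻¹) * (v * k * v⁻¹) * (v * j * v⁻¹)⁻¹ by group]
      have c1 := subset_closure (cv j ((hk j).2 ⟨hj, e2⟩))
      exact mul_mem (mul_mem c1 (subset_closure (cv k hk1))) (inv_mem c1)
    have : X ≤ normalizer (closure (Cfsg.invertedBy X t) : Set M) := le_normalizer_of_cj_le fun g hg => by
      rw [cj, MonoidHom.map_closure, closure_le]
      rintro _ ⟨k, hk1, rfl⟩
      exact key g hg k hk1
    exact mem_normalizer_iff_cj.1 (this hx)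

end Cfsg.Agent.S1124
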