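import Cfsg.Statements.S1125
import Cfsg.Agent.SE.Sub

set_option autoImplicit false
open Cfsg

namespace Cfsg.Agent.S1125

open SE H9 Subgroup

/-- In the rank-one set-up (`G` finite and doubly transitive on `Ω`, `t` an involution moving `a`, `Q` normal in `G_a` with `G_a = Q D`, `Q ⊓ D = 1` for the two-point stabiliser `D = G_a ⊓ G_{t • a}`, `|Q|` even, `|D|` odd), let `X ⊆ D` fix at least three points of `Ω`. Then `C_G(X)` is doubly transitive on the fixed-point set of `X`, `|C_Q(X)|` is even, and `C_{G_a}(X) = C_Q(X) C_D(X)`. -/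
theorem result {G Ω : Type*} [Group G] [Finite G] [MulAction G Ω] {a : Ω} {t : G} {Q : Subgroup G}
    (hS : Cfsg.IsRankOneSetup G Ω a t Q)
    (X : Set G) (hX : X ⊆ ((MulAction.stabilizer G a ⊓ MulAction.stabilizer G (t • a)) : Set G))
    (h3 : ∃ b c d : Ω, b ≠ c ∧ b ≠ d ∧ c ≠ d ∧ ∀ x ∈ X, x • b = b ∧ x • c = c ∧ x • d = d) :
    (∀ b₁ b₂ c₁ c₂ : Ω, (∀ x ∈ X, x • b₁ = b₁ ∧ x • b₂ = b₂ ∧ x • c₁ = c₁ ∧ x • c₂ = c₂) →
        b₁ ≠ b₂ → c₁ ≠ c₂ → ∃ g ∈ Subgroup.centralizer X, g • b₁ = c₁ ∧ g • b₂ = c₂) ∧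
      Even (Nat.card ↥(Subgroup.centralizer X ⊓ Q)) ∧
      (Subgroup.centralizer X ⊓ Q) ⊔ (Subgroup.centralizer X ⊓ (MulAction.stabilizer G a ⊓ MulAction.stabilizer G (t • a))) = Subgroup.centralizer X ⊓ MulAction.stabilizer G a := by
  have h := r1_of hS
  have hD := DD_stab (a := a) h.tt
  have hX' : ∀ x ∈ X, x ∈ DD (MulAction.stabilizer G a) t := fun x hx => hD ▸ hX hx
  obtain ⟨y, hy, y1, y2⟩ := exists_cent hS hX' h3
  obtain ⟨k, hk, k1⟩ := h.conj_V hX' hy y1 y2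
  have hkD := KK.mem h.tt hk
  have hkt : k⁻¹ • t • a = t • a := (MulAction.stabilizer G _).inv_mem (hD.ge hkD).2
  have hka : k • a = a := hk.1
  have cc : ∀ z : G, (∀ x ∈ X, k⁻¹ * x * k * z = z * (k⁻¹ * x * k)) → k * z * k⁻¹ ∈ centralizer X := fun z hz =>
    mem_centralizer_iff.2 fun x hx => by
      rw [show x * (k * z * k⁻¹) = k * (k⁻¹ * x * k * z) * k⁻¹ by group, hz x hx]; group
  have ct := cc t fun x hx => (mem_VV.1 (k1 x hx)).2
  have tr : ∀ b, b ≠ a → (∀ x ∈ X, x • b = b) → ∃ y ∈ centralizer X, y • a = a ∧ y • t • a = b := fun b hb hb' => by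
    obtain ⟨y, hy, rfl⟩ := exists_Q hS hb
    refine ⟨y, mem_centralizer_iff.2 fun x hx => ?_, h.le hy, rfl⟩
    have hd' : x⁻¹ • t • a = t • a := (MulAction.stabilizer G _).inv_mem (hX hx).2
    have := Q_inj hS (h.cQ (DD_le (hX' x hx)) hy) hy (by rw [mul_smul, mul_smul, hd', hb' x hx])
    conv_rhs => rw [← this]
    group
  have st : ∀ b c, b ≠ c → (∀ x ∈ X, x • b = b) → (∀ x ∈ X, x • c = c) → ∃ g ∈ centralizer X, g • a = b ∧ g • t • a = c := by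
    intro b c hbc hb hc
    obtain ⟨g, hg, e⟩ : ∃ g ∈ centralizer X, g • a = b := by
      by_cases h1 : b = a
      · exact ⟨1, one_mem _, by rw [h1, one_smul]⟩
      obtain ⟨y, hy, -, e⟩ := tr b h1 hb
      refine ⟨y * (k * t * k⁻¹)⁻¹, mul_mem hy (inv_mem ct), ?_⟩
      rw [mul_smul, ← e]; congr 1
      rw [inv_smul_eq_iff, mul_smul, mul_smul, hkt, ← mul_smul t t, h.tt, one_smul, hka]
    obtain ⟨y, hy, e1, e2⟩ := tr (g⁻¹ • c) (fun e1 => hbc (by rw [← e, ← e1, smul_inv_smul])) fun x hx => by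
      rw [← mul_smul, mem_centralizer_iff.1 (inv_mem hg) x hx, mul_smul, hc x hx]
    exact ⟨g * y, mul_mem hg hy, by rw [mul_smul, e1, e], by rw [mul_smul, e2, smul_inv_smul]⟩
  refine ⟨fun b₁ b₂ c₁ c₂ h1 h2 h3 => ?_, ?_, le_antisymm (sup_le (inf_le_inf_left _ h.le) (inf_le_inf_left _ inf_le_left)) ?_⟩
  · obtain ⟨g, hg, e1, e2⟩ := st b₁ b₂ h2 (fun x hx => (h1 x hx).1) (fun x hx => (h1 x hx).2.1)
    obtain ⟨g', hg', e1', e2'⟩ := st c₁ c₂ h3 (fun x hx => (h1 x hx).2.2.1) (fun x hx => (h1 x hx).2.2.2)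
    exact ⟨g' * g⁻¹, mul_mem hg' (inv_mem hg), by rw [← e1, mul_smul, inv_smul_smul, e1'],
      by rw [← e2, mul_smul, inv_smul_smul, e2']⟩
  · obtain ⟨s, r, hs⟩ := h.exists_SR
    exact even_iff_two_dvd.2 (even_of_inv (s := k * s * k⁻¹) ⟨cc s fun x hx => (h.SR_V hs (k1 x hx)).1,
      h.cQ hk.1 (h.invQ hs.1 hs.2.1.2)⟩ (hs.2.1.conj k))
  · rintro g ⟨g1, g2⟩
    obtain ⟨x, hx, d, hd, rfl⟩ := h.dec g g2
    have := fun c (hc : c ∈ X) => h.cent_dec hx hd (hX' c hc) (hX' c hc) (mem_centralizer_iff.1 g1 c hc).symm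
    exact mul_mem (mem_sup_left ⟨mem_centralizer_iff.2 fun c hc => (this c hc).1, hx⟩)
      (mem_sup_right ⟨mem_centralizer_iff.2 fun c hc => (this c hc).2.symm, hD ▸ hd⟩)

end Cfsg.Agent.S1125
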