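import Cfsg.Statements.S1127
import Cfsg.Agent.SE.Sub

set_option autoImplicit false
open Cfsg

namespace Cfsg.Agent.S1127

open SE H9 Subgroup

/-- In the rank-one set-up (`G` finite and doubly transitive on `Ω`, `t` an involution moving `a`, `Q` normal in `G_a` with `G_a = Q D`, `Q ⊓ D = 1` for the two-point stabiliser `D = G_a ⊓ G_{t • a}`, `|Q|` even, `|D|` odd): if `s` is an involution of `G_a` and `r ∈ Q` satisfy `t s t = r⁻¹ t r`, then `C_D(t) = C_D(s)`; moreover `C_D(t) ⊓ C_D(K) = C_D(I ∩ G_a)`, where `K` is the set of elements of `D` inverted by `t` and `I ∩ G_a` the set of involutions of `G_a`. -/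
theorem result {G Ω : Type*} [Group G] [Finite G] [MulAction G Ω] {a : Ω} {t : G} {Q : Subgroup G}
    (hS : Cfsg.IsRankOneSetup G Ω a t Q) :
    (∀ s r : G, s ∈ Cfsg.involutionsIn (MulAction.stabilizer G a : Set G) → r ∈ Q → t * s * t = r⁻¹ * t * r →
        (MulAction.stabilizer G a ⊓ MulAction.stabilizer G (t • a)) ⊓ Subgroup.centralizer {t} = (MulAction.stabilizer G a ⊓ MulAction.stabilizer G (t • a)) ⊓ Subgroup.centralizer {s}) ∧
      (MulAction.stabilizer G a ⊓ MulAction.stabilizer G (t • a)) ⊓ Subgroup.centralizer {t} ⊓ Subgroup.centralizer (Cfsg.invertedBy (MulAction.stabilizer G a ⊓ MulAction.stabilizer G (t • a)) t) =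
        (MulAction.stabilizer G a ⊓ MulAction.stabilizer G (t • a)) ⊓ Subgroup.centralizer (Cfsg.involutionsIn (MulAction.stabilizer G a : Set G)) := by
  have h := r1_of hS
  rw [DD_stab h.tt, invBy_eq h.tt]
  refine ⟨fun s r h1 h2 h3 => ?_, ?_⟩
  · have hs : SR _ Q t s r := ⟨h1.1, h1.2, h2, h3⟩
    ext d
    exact ⟨fun hd => ⟨hd.1, mem_centralizer_singleton_iff.2 (h.SR_V hs hd).1⟩,
      fun hd => h.V_of_s hs hd.1 (mem_centralizer_singleton_iff.1 hd.2)⟩
  · obtain ⟨s, r, hs⟩ := h.exists_SR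
    ext d
    constructor
    · rintro ⟨h1, h2⟩
      refine ⟨h1.1, mem_centralizer_iff.2 fun u hu => ?_⟩
      obtain ⟨k, hk, rfl⟩ := h.emb.K_trans h.tt h.tH hs.1 hs.2.1 hu.1 hu.2
      have e1 := mem_centralizer_iff.1 h2 k hk
      have e2 := mem_centralizer_iff.1 h2 _ (KK.inv h.tt hk)
      rw [mul_assoc, e2, ← mul_assoc, mul_assoc k, ← (h.SR_V hs h1).1, ← mul_assoc, e1]; group
    · rintro ⟨h1, h2⟩
      have c := mem_centralizer_iff.1 h2
      have hv := h.V_of_s hs h1 (c s ⟨hs.1, hs.2.1⟩).symm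
      refine ⟨hv, mem_centralizer_iff.2 fun k hk => ?_⟩
      have := h.emb.K_inj h.tt h.tH hs.1 hs.2.1 (KK.conjV h.tt hk hv) hk (by
        have e1 := c _ ⟨mul_mem (mul_mem hk.1 hs.1) (inv_mem hk.1), hs.2.1.conj k⟩
        have e2 := c s ⟨hs.1, hs.2.1⟩
        rw [show d * k * d⁻¹ * s * (d * k * d⁻¹)⁻¹ = d * k * (d⁻¹ * (s * d)) * k⁻¹ * d⁻¹ by group, e2,
          show d * k * (d⁻¹ * (d * s)) * k⁻¹ * d⁻¹ = d * (k * s * k⁻¹) * d⁻¹ by group, ← e1]; group)
      conv_lhs => rw [← this]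
      group

end Cfsg.Agent.S1127
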