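import Cfsg.Statements.S1132
import Cfsg.Agent.SE.Sg2

set_option autoImplicit false
open Cfsg

namespace Cfsg.Agent.S1132

open SE H9 Subgroup

/-- In the rank-one set-up (`G` finite and doubly transitive on `Ω`, `t` an involution moving `a`, `Q` normal in `G_a` with `G_a = Q D`, `Q ⊓ D = 1` for the two-point stabiliser `D = G_a ⊓ G_{t • a}`, `|Q|` even, `|D|` odd), with the action faithful and `G` containing two distinct commuting involutions: a Sylow 2-subgroup of `Q` is abelian or a Suzuki 2-group. -/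
theorem result {G Ω : Type*} [Group G] [Finite G] [MulAction G Ω] [FaithfulSMul G Ω] {a : Ω} {t : G} {Q : Subgroup G}
    (hS : Cfsg.IsRankOneSetup G Ω a t Q)
    (h2 : ∃ x y : G, x ≠ 1 ∧ y ≠ 1 ∧ x ≠ y ∧ x * x = 1 ∧ y * y = 1 ∧ x * y = y * x)
    (S : Sylow 2 ↥Q) : IsMulCommutative (S : Subgroup ↥Q) ∨ Cfsg.IsSuzukiTwoGroup ↥(S : Subgroup ↥Q) := by
  have h := r2_of hS h2
  have s1 := syl_of_sylow S
  have e : (S : Subgroup Q).map Q.subtype = Op 2 Q := by
    obtain ⟨g, hg, e⟩ := (syl_Op_of_nilpotent h.nil).conj s1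
    rw [← e, ← mem_normalizer_iff_cj]; exact le_normalizer_Op 2 Q hg
  obtain ⟨n, π, ψ, -, -, sg⟩ := h.sg s1.isP (map_subtype_le _) (e ▸ le_Op (Q0_le Q) (normalizer_Q0 le_normalizer) h.Q0_two)
    (e ▸ normalizer_Op ((h.Ks_le.trans DD_le).trans h.nm))
  by_cases hn : ∀ a ∈ (S : Subgroup Q).map Q.subtype, ∀ b ∈ (S : Subgroup Q).map Q.subtype, a * b = b * a
  · exact Or.inl ⟨⟨fun a b => Subtype.ext (Subtype.ext (hn _ (mem_map_of_mem _ a.2) _ (mem_map_of_mem _ b.2)))⟩⟩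
  · exact Or.inr (suz_equiv ((S : Subgroup Q).equivMapOfInjective _ Q.subtype_injective).symm (sg.isSuz hn))

end Cfsg.Agent.S1132
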