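import Cfsg.Statements.S1137
import Cfsg.Agent.SE.Sg2

set_option autoImplicit false
open Cfsg

namespace Cfsg.Agent.S1137

open SE H9 Subgroup

/-- In a Suzuki 2-group `P` (a finite non-abelian 2-group with more than one involution admitting a cyclic group of automorphisms regular on its involutions) the involutions are exactly the non-identity central elements, and `Z(P)` is elementary abelian. -/
theorem result {P : Type*} [Group P] (hP : Cfsg.IsSuzukiTwoGroup P) :
    (∀ x : P, (x ≠ 1 ∧ x * x = 1) ↔ (x ∈ Subgroup.center P ∧ x ≠ 1)) ∧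
      ∀ z ∈ Subgroup.center P, z * z = 1 := by
  obtain ⟨Γ, _, _, i, K, n, π, ψ, hi, -, -, sg, hn⟩ := exists_of_suz hP
  have e := (suz_center hi sg hn).1
  have e2 : ∀ z ∈ center P, z * z = 1 := fun z hz => hi (by rw [map_mul, ((e z).1 hz).2.1, map_one])
  exact ⟨fun x => ⟨fun h => ⟨(e x).2 (sg.inv _ ⟨x, rfl⟩ (by rw [← map_mul, h.2, map_one])), h.1⟩, fun h => ⟨h.2, e2 x h.1⟩⟩, e2⟩

end Cfsg.Agent.S1137
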