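import Cfsg.Statements.S1138
import Cfsg.Agent.SE.Sg2

set_option autoImplicit false
open Cfsg

namespace Cfsg.Agent.S1138

open SE H9 Subgroup

/-- Let `P` be a Suzuki 2-group with `|Z(P)| = q`. Then every square lies in `Z(P)` and `P/Z(P)` is abelian (so elementary abelian), `|P| = q²` or `|P| = q³`, and `P` has exponent 4. -/
theorem result {P : Type*} [Group P] (hP : Cfsg.IsSuzukiTwoGroup P) :
    (∀ x : P, x * x ∈ Subgroup.center P) ∧ (∀ x y : P, x⁻¹ * y⁻¹ * x * y ∈ Subgroup.center P) ∧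
      (Nat.card P = Nat.card (Subgroup.center P) ^ 2 ∨ Nat.card P = Nat.card (Subgroup.center P) ^ 3) ∧
      Monoid.exponent P = 4 := by
  obtain ⟨Γ, _, _, i, K, n, π, ψ, hi, -, -, sg, hn⟩ := exists_of_suz hP
  obtain ⟨e, c1, c2⟩ := suz_center hi sg hn
  have hΦ := sg.higman hn
  have e1 : ∀ x : P, x * x ∈ center P := fun x => (e _).2 (map_mul i x x ▸ sg.sZ hΦ ⟨x, rfl⟩)
  refine ⟨e1, fun x y => (e _).2 ?_, by rw [c1, c2]; exact sg.card23 hn, ?_⟩
  · simpa [commutatorElement_def] using sg.cZ hΦ (x := i x⁻¹) (y := i y⁻¹) ⟨_, rfl⟩ ⟨_, rfl⟩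
  · have h4 : Monoid.exponent P ∣ 2 ^ 2 := Monoid.exponent_dvd_of_forall_pow_eq_one fun x => hi (by
      rw [show x ^ 2 ^ 2 = x * x * (x * x) by simp [pow_succ, mul_assoc], map_mul, ((e _).1 (e1 x)).2.1, map_one])
    have h5 : ¬ Monoid.exponent P ∣ 2 := fun h => hn fun a ha b hb => sg.Zc a (sg.inv a ha (by
      obtain ⟨x, rfl⟩ := ha
      rw [← map_mul, ← pow_two, Monoid.exponent_dvd_iff_forall_pow_eq_one.1 h x, map_one])) b hb
    obtain ⟨m, hm, e4⟩ := (Nat.dvd_prime_pow Nat.prime_two).1 h4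
    rw [e4] at h5 ⊢
    interval_cases m <;> simp at h5 ⊢

end Cfsg.Agent.S1138
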