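import Cfsg.Statements.S1139
import Cfsg.Agent.SE.Sg2

set_option autoImplicit false
open Cfsg

namespace Cfsg.Agent.S1139

open SE H9 Subgroup

/-- A Suzuki 2-group `P` with `|P| = |Z(P)|²` is of type A: for some finite field `F` with `|F| = |Z(P)|` and some field automorphism `φ ≠ 1` of odd order, `P` is isomorphic to the group of lower unitriangular matrices with rows `(1,0,0)`, `(x,1,0)`, `(y, φ x, 1)`. -/
theorem result {P : Type*} [Group P] (hP : Cfsg.IsSuzukiTwoGroup P)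
    (hcard : Nat.card P = Nat.card (Subgroup.center P) ^ 2) :
    ∃ (F : Type) (_ : Field F) (_ : Fintype F) (φ : F ≃+* F), Fintype.card F = Nat.card (Subgroup.center P) ∧
      φ ≠ RingEquiv.refl F ∧ Odd (orderOf φ) ∧ Nonempty (P ≃* Cfsg.suzukiTypeA F (φ : F →+* F)) := by
  obtain ⟨Γ, _, _, i, K, n, π, ψ, hi, -, -, sg, hn⟩ := exists_of_suz hP
  obtain ⟨-, c1, c2⟩ := suz_center hi sg hn
  obtain ⟨θ, α, y, κ, h⟩ := sg.typeA (sg.higman hn) (by rw [← c2, hcard, c1])
  obtain ⟨e⟩ := h.equiv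
  letI := Fintype.ofFinite (GaloisField 2 n)
  exact ⟨_, _, this, θ, by rw [c1, Nat.card_eq_fintype_card], h.ne_refl hn, h.odd, ⟨(MonoidHom.ofInjective hi).trans e⟩⟩

end Cfsg.Agent.S1139
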