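import Cfsg.Statements.S1151
import Cfsg.Agent.H6.Ree2

set_option autoImplicit false
open Cfsg

namespace Cfsg.Agent.S1151

/-- In the small Ree group ²G₂(q), q = 3^(2m+1), realised as G¹ inside the Chevalley group G₂ over the field with q elements (θ the 3^m-th power map), with H¹ = G¹ ∩ H and U¹ = G¹ ∩ U the intersections with the ambient diagonal and positive unipotent subgroups: `H¹` has exactly `(q - 1)/2` elements of odd order, and each non-identity one centralises no non-identity element of `U¹`. -/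
theorem result {K : Type*} [Field K] [Fintype K] {m : ℕ} (hK : Fintype.card K = 3 ^ (2 * m + 1)) :
    2 * Nat.card {h : ↥(Cfsg.Lie.chevG2.diagonalSubgroup K ⊓ Cfsg.Lie.twistedG2 K (3 ^ m)) // Odd (orderOf h)} = 3 ^ (2 * m + 1) - 1 ∧
      ∀ h ∈ (Cfsg.Lie.chevG2.diagonalSubgroup K ⊓ Cfsg.Lie.twistedG2 K (3 ^ m)), h ≠ 1 → Odd (orderOf h) →
        (Cfsg.Lie.chevG2.posUnipotent K ⊓ Cfsg.Lie.twistedG2 K (3 ^ m)) ⊓ Subgroup.centralizer {h} = ⊥ := by
  obtain ⟨f, hf, X, hU, hH, -⟩ := H6.Ree.exists_model hK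
  obtain ⟨t, ht⟩ := H6.Ree.Par.exists_q ⟨m, hK, f, hf⟩
  have hc := H6.Ree.Par.card_units ⟨m, hK, f, hf⟩
  refine ⟨?_, fun h hh h1 ho => eq_bot_iff.2 fun u hu => ?_⟩
  · let e : Kˣ ≃* ↥(Cfsg.Lie.chevG2.diagonalSubgroup K ⊓ Cfsg.Lie.twistedG2 K (3 ^ m)) := MulEquiv.ofBijective
      (((Subgroup.subtype _).comp X.D).codRestrict _ fun k => Subgroup.mem_inf.2 ⟨(hH _).2 ⟨k, rfl⟩, (X.D k).2⟩)
      ⟨fun a b e => X.D_inj (Subtype.ext (congrArg (·.1) e)), fun g =>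
        ((hH ⟨g, g.2.2⟩).1 g.2.1).imp fun _ e => Subtype.ext (congrArg (·.1) e)⟩
    rw [ht] at hc
    rw [show 3 ^ (2 * m + 1) = 24 * t + 3 from ht, ← Nat.card_congr (e.toEquiv.subtypeEquiv
      (p := fun k => k ∈ (powMonoidHom (12 * t + 1) : Kˣ →* Kˣ).ker) fun k => ?_), IsCyclic.card_powMonoidHom_ker, hc,
      Nat.gcd_eq_right ⟨2, by omega⟩]
    · omega
    refine Iff.trans ?_ (show Odd (orderOf k) ↔ _ by rw [← e.orderOf_eq]; rfl)
    refine orderOf_dvd_iff_pow_eq_one.symm.trans ⟨fun h => Odd.of_dvd_nat ⟨6 * t, by omega⟩ h, fun h =>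
      (Odd.coprime_two_right h).dvd_of_dvd_mul_left ?_⟩
    have := orderOf_dvd_natCard k
    rwa [hc, show 24 * t + 3 - 1 = 2 * (12 * t + 1) by omega] at this
  · obtain ⟨k, hk⟩ := (hH ⟨h, hh.2⟩).1 hh.1
    obtain rfl : (X.D k).1 = h := congrArg (·.1) hk
    refine congrArg (·.1) ((H6.Ree.ReS.comm_D (X := X) (u := ⟨u, hu.1.2⟩) (k := k) ((hU _).1 hu.1.1) ?_
      (Subtype.ext (hu.2 _ rfl))).2 ?_)
    · rintro rfl; simp at h1
    · rintro rfl
      rw [Subgroup.orderOf_coe, show orderOf (X.D (-1)) = 2 from X.orderOf_a] at ho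
      exact absurd ho (by decide)

end Cfsg.Agent.S1151
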