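import Cfsg.Statements.S1167
import Cfsg.Agent.H3.Zass4

set_option autoImplicit false
open Cfsg

namespace Cfsg.Agent.S1167

/-- Let `G` be a finite simple Zassenhaus group on `Ω`, `U` a normal subgroup of `G_a` regular on `Ω` minus `a` which is an abelian 2-group, and `v` an involution with `v • a ≠ a`. Then there is a unique `u₀ ∈ U`, `u₀ ≠ 1`, with `v u₀ v = u₀ v u₀`. -/
theorem result {G Ω : Type*} [Group G] [Finite G] [MulAction G Ω] [Finite Ω]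
    (hZ : Cfsg.IsZassenhausGroup G Ω) [IsSimpleGroup G] {a : Ω}
    (U : Subgroup G) (hUle : U ≤ MulAction.stabilizer G a)
    (hUn : ∀ h ∈ MulAction.stabilizer G a, ∀ u ∈ U, h * u * h⁻¹ ∈ U)
    (hreg : ∀ c d : Ω, c ≠ a → d ≠ a → ∃! u : U, (u : G) • c = d)
    (hU2 : IsPGroup 2 U) (hUab : ∀ u ∈ U, ∀ u' ∈ U, u * u' = u' * u)
    (v : G) (hv1 : v ≠ 1) (hv2 : v * v = 1) (hva : v • a ≠ a) :
    ∃! u₀ : G, u₀ ∈ U ∧ u₀ ≠ 1 ∧ v * u₀ * v = u₀ * v * u₀ := by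
  have h := H3.ZG.of_reg hZ hva.symm hUle hreg
  have := Fact.mk Nat.prime_two
  have ev : 2 ∣ Nat.card U := hU2.card_eq_or_dvd.resolve_left (mt Subgroup.card_eq_one.1 h.ntH)
  have ho : Odd (Nat.card (H3.St2 G a (v • a))) := Nat.coprime_two_right.1 ((h.fpf.coprime (inf_le_left.trans h.norm)).of_dvd_right ev)
  obtain ⟨-, p, f, p1, p2, p3⟩ := h.elem ((h.feit' hZ ho).resolve_right fun e => e.2.1
    (Subgroup.commutator_eq_bot_iff_le_centralizer.2 fun x e y f => hUab y f x e))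
  obtain rfl := (Nat.prime_dvd_prime_iff_eq this.1 p1).1 (this.1.dvd_of_dvd_pow (p3 ▸ ev))
  have vv : ∀ c : Ω, v • v • c = c := fun c => by rw [← mul_smul, hv2, one_smul]
  obtain ⟨c, e⟩ := (IsPGroup.of_card (n := 1) ((Nat.card_zpowers v).trans (H4.orderOf_two_of hv2 hv1))).nonempty_fixed_point_of_prime_not_dvd_card Ω
    (show ¬ 2 ∣ _ by rw [← h.card]; omega)
  replace e : v • c = c := e ⟨v, Subgroup.mem_zpowers v⟩
  have c1 : c ≠ a := fun k => hva (k ▸ e)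
  have c2 : c ≠ v • a := fun k => c1 (smul_left_cancel v (e.trans k))
  obtain ⟨u, u1, u2⟩ := h.reg c1
  have ua : ∀ u ∈ U, u • a = a := hUle
  have u3 : u • c = v • a := by rw [← u2, ← mul_smul, ← sq, p2 u u1, one_smul]
  refine ⟨u, ⟨u1, fun k => c2 (by simpa [k] using u2.symm), (inv_mul_eq_one.1 (h.three _ a (v • a) c h.ne c2.symm c1.symm ?_ ?_ ?_)).symm⟩,
    fun w ⟨w1, w2, w3⟩ => ?_⟩
  iterate 3 simp [mul_smul, inv_smul_eq_iff, eq_inv_smul_iff, u2, u3, e, vv, ua u u1]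
  have k : v • w • v • a = w • v • a := by simpa [mul_smul, ua w w1] using congrArg (· • a) w3
  have n : w • v • a ≠ a := fun l => hva (smul_left_cancel w (l.trans (ua w w1).symm))
  refine (hreg _ _ hva c1).unique (y₁ := ⟨w, w1⟩) (y₂ := ⟨u, u1⟩) (by_contra fun l => hv1 ?_) u2 |> congrArg Subtype.val
  obtain ⟨g, g1, g2⟩ := h.two h.ne (Ne.symm l)
  simpa [H1.conj_eq_one_iff'] using H3.ZG.eq_one_of_sq ho (x := g⁻¹ * v * g⁻¹⁻¹) ⟨H3.conj_smul_iff.2 (by rw [inv_inv, g1, e]),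
    H3.conj_smul_iff.2 (by rw [inv_inv, g2]; exact k)⟩ (H4.conj_mul_self hv2 _)

end Cfsg.Agent.S1167
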