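import Cfsg.Statements.S1176
import Cfsg.Agent.H9.Syl

set_option autoImplicit false
open Cfsg

namespace Cfsg.Agent.S1176

open H9 Subgroup
open scoped commutatorElement

/-- Let x₀ be an involution of the finite group G and D its conjugacy class. Assume (a) for each x ∈ D the subgroup W(x) generated by the members of D commuting with x is a 2-group of nilpotency class at most 2, and (b) the product of two distinct commuting members of D again lies in D. Then for all x, y ∈ D, if xy has even order greater than 2, its order is 4. -/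
theorem result {G : Type*} [Group G] [Finite G] (x₀ : G) (hx₀ : orderOf x₀ = 2) (ha : ∀ x : G, IsConj x₀ x → IsPGroup 2 ↥(Subgroup.closure {y : G | IsConj x₀ y ∧ Commute y x}) ∧ ⁅⁅Subgroup.closure {y : G | IsConj x₀ y ∧ Commute y x}, Subgroup.closure {y : G | IsConj x₀ y ∧ Commute y x}⁆, Subgroup.closure {y : G | IsConj x₀ y ∧ Commute y x}⁆ = ⊥) (hb : ∀ x y : G, IsConj x₀ x → IsConj x₀ y → x ≠ y → Commute x y → IsConj x₀ (x * y)) (x y : G) (hx : IsConj x₀ x) (hy : IsConj x₀ y) (heven : Even (orderOf (x * y))) (hgt : 2 < orderOf (x * y)) : orderOf (x * y) = 4 := by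
  have sq : ∀ z, IsConj x₀ z → z * z = 1 := fun z hz => by
    obtain ⟨g, rfl⟩ := isConj_iff.1 hz
    have : x₀ * x₀ = 1 := by rw [← pow_two, ← hx₀, pow_orderOf_eq_one]
    rw [show g * x₀ * g⁻¹ * (g * x₀ * g⁻¹) = g * (x₀ * x₀) * g⁻¹ by group, this]; simp
  have hxx := sq x hx
  have hyy := sq y hy
  have hxi : x⁻¹ = x := inv_eq_of_mul_eq_one_right hxx
  have hyi : y⁻¹ = y := inv_eq_of_mul_eq_one_right hyy
  obtain ⟨m, hm⟩ := heven
  set r := x * y with hr
  have hxr : x * r * x⁻¹ = r⁻¹ := by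
    rw [hr, mul_inv_rev, hxi, hyi, ← mul_assoc, hxx, one_mul]
  have hxk : ∀ k : ℕ, x * r ^ k * x⁻¹ = (r ^ k)⁻¹ := fun k => by rw [← conj_pow, hxr, inv_pow]
  have hz2 : r ^ m * r ^ m = 1 := by rw [← pow_add, ← hm, pow_orderOf_eq_one]
  have hz1 : r ^ m ≠ 1 := pow_ne_one_of_lt_orderOf (by omega) (by omega)
  have hcx : Commute x (r ^ m) := by
    have := hxk m
    rw [inv_eq_of_mul_eq_one_right hz2] at this
    exact mul_inv_eq_iff_eq_mul.1 this
  have hyx : y = x * r := by rw [hr, ← mul_assoc, hxx, one_mul]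
  have hcy : Commute y (r ^ m) := by rw [hyx]; exact hcx.mul_left ((Commute.refl r).pow_right m)
  have hk : ∀ k : ℕ, (r ^ k)⁻¹ * x = x * r ^ k := fun k => by rw [← hxk k, inv_mul_cancel_right]
  have hxz : IsConj x₀ (x * r ^ m) := by
    obtain ⟨k, rfl | rfl⟩ := Nat.even_or_odd' m
    · refine hx.trans (isConj_iff.2 ⟨(r ^ k)⁻¹, ?_⟩)
      rw [hk, inv_inv, mul_assoc, ← pow_add, two_mul]
    · refine hy.trans (isConj_iff.2 ⟨(r ^ k)⁻¹, ?_⟩)
      rw [hyx, ← mul_assoc, hk, inv_inv, mul_assoc, mul_assoc, ← pow_succ', ← pow_add]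
      congr 2
      omega
  have hz := hb x _ hx hxz (fun e => hz1 (left_eq_mul.1 e)) ((Commute.refl x).mul_right hcx)
  rw [← mul_assoc, hxx, one_mul] at hz
  have h1 := (ha _ hz).2
  have mx : x ∈ closure {y : G | IsConj x₀ y ∧ Commute y (r ^ m)} := subset_closure ⟨hx, hcx⟩
  have my : y ∈ closure {y : G | IsConj x₀ y ∧ Commute y (r ^ m)} := subset_closure ⟨hy, hcy⟩
  have h2 := commutator_mem_commutator (commutator_mem_commutator mx my) mx
  rw [h1, mem_bot, commutatorElement_eq_one_iff_mul_comm] at h2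
  have h3 : ⁅x, y⁆ = r ^ 2 := by rw [commutatorElement_def, hxi, hyi, hr, pow_two, mul_assoc (x * y)]
  rw [h3] at h2
  have h4 := hxk 2
  rw [← h2, mul_inv_cancel_right] at h4
  have h5 : r ^ 2 ^ 2 = 1 := by
    rw [show 2 ^ 2 = 2 + 2 by rfl, pow_add]
    nth_rewrite 1 [h4]
    exact inv_mul_cancel _
  obtain ⟨k, hk2, e⟩ := (Nat.dvd_prime_pow Nat.prime_two).1 (orderOf_dvd_of_pow_eq_one h5)
  rw [e] at hgt ⊢
  clear * - hk2 hgt
  interval_cases k <;> simp_all

end Cfsg.Agent.S1176
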