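import Cfsg.Statements.S1177
import Cfsg.Agent.H9.Syl

set_option autoImplicit false
open Cfsg

namespace Cfsg.Agent.S1177

open H9 Subgroup
open scoped commutatorElement

/-- Let A be a nontrivial elementary abelian 2-subgroup of a finite group G which is a T.I. set (each conjugate of A meets A trivially or equals A) and which does not commute elementwise with any conjugate of A other than A itself. Then for every a ∈ A, a ≠ 1, every conjugate of A contained in C_G(a) is equal to A (A is weakly closed in C_G(a)). -/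
theorem result {G : Type*} [Group G] [Finite G] (A : Subgroup G) (hA : Cfsg.IsElementaryAbelian 2 A) (hA1 : A ≠ ⊥) (hTI : ∀ g : G, A.map (MulAut.conj g).toMonoidHom ⊓ A = ⊥ ∨ A.map (MulAut.conj g).toMonoidHom = A) (hb : ∀ g : G, (∀ a ∈ A, ∀ b ∈ A.map (MulAut.conj g).toMonoidHom, a * b = b * a) → A.map (MulAut.conj g).toMonoidHom = A) (a : G) (ha : a ∈ A) (ha1 : a ≠ 1) (g : G) (hg : A.map (MulAut.conj g).toMonoidHom ≤ Subgroup.centralizer ({a} : Set G)) : A.map (MulAut.conj g).toMonoidHom = A := by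
  simp only [cj_def'] at *
  haveI := hA.1
  have hAc : A ≤ centralizer (A : Set G) := le_centralizer A
  have hBc : cj g A ≤ centralizer (cj g A : Set G) := by rw [← cj_centralizer]; exact cj_mono g hAc
  have hn : cj g A ≤ normalizer (A : Set G) := fun b hb' => by
    rcases hTI b with h | h
    · have : a ∈ cj b A ⊓ A := ⟨by
        have := conj_mem_cj_iff (g := b).2 ha
        rwa [← hg hb' a rfl, mul_inv_cancel_right] at this, ha⟩
      rw [h, mem_bot] at this
      exact absurd this ha1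
    · exact mem_normalizer_iff_cj.2 h
  rcases hTI g with h0 | h0
  swap
  · exact h0
  have k1 : ∀ u ∈ A, ∀ b ∈ cj g A, b ≠ 1 → u * b = b * u → u ∈ centralizer (cj g A : Set G) := by
    intro u hu b hb' hb1 hc
    have hun : u ∈ normalizer (cj g A : Set G) := by
      rcases hTI (g⁻¹ * u * g) with h | h
      · exfalso
        have h2 := congrArg (cj g) h
        rw [cj_inf, ← cj_mul, ← mul_assoc, mul_inv_cancel_left, cj_mul, cj_eq_bot_iff.2 rfl] at h2
        have : b ∈ cj u (cj g A) ⊓ cj g A := ⟨by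
          have := conj_mem_cj_iff (g := u).2 hb'
          rwa [hc, mul_inv_cancel_right] at this, hb'⟩
        rw [h2, mem_bot] at this
        exact hb1 this
      · have h2 := congrArg (cj g) h
        rw [← cj_mul, ← mul_assoc, mul_inv_cancel_left, cj_mul] at h2
        exact mem_normalizer_iff_cj.2 h2
    intro c hc'
    have : ⁅c, u⁆ ∈ cj g A ⊓ A := ⟨by
      rw [commutatorElement_def, mul_assoc, mul_assoc, ← mul_assoc u]
      exact (cj g A).mul_mem hc' (conj_mem_of_le_normalizer le_rfl hun ((cj g A).inv_mem hc')),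
      A.mul_mem (conj_mem_of_le_normalizer hn hc' hu) (A.inv_mem hu)⟩
    rw [h0, mem_bot] at this
    exact commutatorElement_eq_one_iff_mul_comm.1 this
  have sq : ∀ b ∈ cj g A, b * b = 1 := by
    rintro _ ⟨x, hx, rfl⟩
    rw [← map_mul, ← pow_two, hA.2 x hx, map_one]
  have k2 : ∀ u ∈ A, ∀ b ∈ cj g A, u * b * u⁻¹ ∈ centralizer (cj g A : Set G) := fun u hu b hb' => by
    by_cases hb1 : b = 1
    · rw [hb1, mul_one, mul_inv_cancel]; exact one_mem _
    have m1 : b * u⁻¹ * b⁻¹ ∈ A := conj_mem_of_le_normalizer hn hb' (inv_mem hu)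
    have e : u * b * u⁻¹ = u * (b * u⁻¹ * b⁻¹) * b := by group
    rw [e]
    refine mul_mem (k1 _ (mul_mem hu m1) b hb' hb1 ?_) (hBc hb')
    have hi : b⁻¹ = b := inv_eq_of_mul_eq_one_right (sq b hb')
    have hui : u⁻¹ = u := inv_eq_of_mul_eq_one_right (by rw [← pow_two]; exact hA.2 u hu)
    have c1 := hAc hu _ m1
    rw [hi, hui] at c1 ⊢
    calc _ = b * u * b * u * b := by rw [c1]
      _ = _ := by simp only [mul_assoc]
  refine hb g fun u hu b hb' => ?_
  by_cases hb1 : b = 1
  · rw [hb1, mul_one, one_mul]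
  have h3 : cj (g⁻¹ * u * g) A = A := hb _ fun x hx y hy => by
    obtain ⟨y, hy, rfl⟩ := hy
    have := k2 u hu _ (conj_mem_cj_iff.2 hy) _ (conj_mem_cj_iff (g := g).2 hx)
    show x * (g⁻¹ * u * g * y * (g⁻¹ * u * g)⁻¹) = g⁻¹ * u * g * y * (g⁻¹ * u * g)⁻¹ * x
    calc _ = g⁻¹ * (g * x * g⁻¹ * (u * (g * y * g⁻¹) * u⁻¹)) * g := by group
      _ = _ := by rw [this]; group
  have h2 := congrArg (cj g) h3
  rw [← cj_mul, ← mul_assoc, mul_inv_cancel_left, cj_mul] at h2
  have hun := mem_normalizer_iff_cj.2 h2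
  have : ⁅b, u⁆ ∈ cj g A ⊓ A := ⟨by
    rw [commutatorElement_def, mul_assoc, mul_assoc, ← mul_assoc u]
    exact (cj g A).mul_mem hb' (conj_mem_of_le_normalizer le_rfl hun ((cj g A).inv_mem hb')),
    A.mul_mem (conj_mem_of_le_normalizer hn hb' hu) (A.inv_mem hu)⟩
  rw [h0, mem_bot] at this
  exact (commutatorElement_eq_one_iff_mul_comm.1 this).symm

end Cfsg.Agent.S1177
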