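import Cfsg.Statements.S1181
import Cfsg.Agent.H4.Inv2

set_option autoImplicit false
open Cfsg

namespace Cfsg.Agent.S1181

open H4 H1 MonoidAlgebra
open scoped Pointwise


/-- Let z be an isolated involution of the finite group G and N a normal subgroup with z ∉ N. Then the centralizer of zN in G/N is the image of C_G(z), and zN is an isolated involution of G/N. -/
theorem result {G : Type*} [Group G] [Finite G] (z : G) (hz : Cfsg.IsIsolatedInvolution z) (N : Subgroup G) [N.Normal] (hzN : z ∉ N) : Subgroup.centralizer ({(QuotientGroup.mk z : G ⧸ N)} : Set (G ⧸ N)) = (Subgroup.centralizer ({z} : Set G)).map (QuotientGroup.mk' N) ∧ Cfsg.IsIsolatedInvolution (QuotientGroup.mk z : G ⧸ N) := by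
  refine ⟨le_antisymm (fun g hg => ?_) ?_, II.map hz (QuotientGroup.mk'_surjective N)
    (mt (QuotientGroup.eq_one_iff z).1 hzN)⟩
  · obtain ⟨g, rfl⟩ := QuotientGroup.mk_surjective g
    obtain ⟨j, hj⟩ := II.exists_mul' hz g
    refine ⟨_, mem_centralizer_singleton.2 hj.symm, ?_⟩
    rw [map_mul, map_pow, map_mul, map_mul, map_mul, map_inv, QuotientGroup.mk'_apply, QuotientGroup.mk'_apply,
      ← (mem_centralizer_singleton.1 hg).eq, mul_inv_cancel_right, ← QuotientGroup.mk_mul, II.mul_self hz]
    simp
  · rintro _ ⟨c, hc, rfl⟩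
    exact mem_centralizer_singleton.2 ((mem_centralizer_singleton.1 hc).map (QuotientGroup.mk' N))

end Cfsg.Agent.S1181
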