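import Cfsg.Statements.S1183
import Cfsg.Agent.H4.Inv2

set_option autoImplicit false
open Cfsg

namespace Cfsg.Agent.S1183

open H4 H1 MonoidAlgebra
open scoped Pointwise


/-- Let z be an isolated involution of the finite group G and C = C_G(z). Then the subgroup of G generated by its elements of odd order is all of G if and only if the subgroup of C generated by its elements of odd order is all of C. -/
theorem result {G : Type*} [Group G] [Finite G] (z : G) (hz : Cfsg.IsIsolatedInvolution z) : Cfsg.pResidual 2 G = ⊤ ↔ Cfsg.pResidual 2 ↥(Subgroup.centralizer ({z} : Set G)) = ⊤ := by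
  have h1 : ∀ x : G, (orderOf x).Coprime 2 → x ∈ Cfsg.pResidual 2 G := fun x hx => Subgroup.subset_closure hx
  have h2 : ∀ x ∈ Cfsg.pPrimeCore 2 G, (orderOf x).Coprime 2 := fun x hx =>
    ((Nat.Prime.coprime_iff_not_dvd Nat.prime_two).2 (not_dvd_orderOf_of_mem not_dvd_card_pPrimeCore hx)).symm
  refine ⟨fun h => eq_top_iff.2 fun c _ => ?_, fun h => eq_top_iff.2 fun g _ => ?_⟩
  · have h3 : Cfsg.pResidual 2 G ≤ Cfsg.pPrimeCore 2 G ⊔ (Cfsg.pResidual 2 (C1 z)).map (C1 z).subtype :=
      (Subgroup.closure_le _).2 fun g hg => by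
        obtain ⟨o, ho, c, hc, rfl⟩ := II.exists_mul hz g
        have h4 : pp 2 c ∈ Cfsg.pPrimeCore 2 G := by
          rw [← QuotientGroup.eq_one_iff, ← QuotientGroup.mk'_apply, map_pp Nat.prime_two, pp_eq_one_iff Nat.prime_two]
          have := not_dvd_orderOf_map (QuotientGroup.mk' (Cfsg.pPrimeCore 2 G))
            ((Nat.Prime.coprime_iff_not_dvd Nat.prime_two).1 (Nat.Coprime.symm hg))
          rwa [map_mul, QuotientGroup.mk'_apply _ o, (QuotientGroup.eq_one_iff o).2 ho, one_mul] at this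
        rw [← pp_mul_pq (p := 2) c, ← mul_assoc]
        exact Subgroup.mul_mem_sup (mul_mem ho h4) ⟨⟨_, pq_mem hc⟩, Subgroup.subset_closure (by
          rw [Set.mem_setOf_eq, Subgroup.orderOf_mk]
          exact ((Nat.Prime.coprime_iff_not_dvd Nat.prime_two).2 (not_dvd_orderOf_pq Nat.prime_two c)).symm), rfl⟩
    obtain ⟨o, ho, _, ⟨m, hm, rfl⟩, h4⟩ := (H2.mem_sup_of_le_normalizer' Subgroup.le_normalizer_of_normal).1
      (h3 (h ▸ Subgroup.mem_top (c : G)))
    rw [← inv_mul_cancel_right c m]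
    refine mul_mem (Subgroup.subset_closure ?_) hm
    rw [Set.mem_setOf_eq, ← Subgroup.orderOf_coe, Subgroup.coe_mul, Subgroup.coe_inv, ← h4]
    simpa using h2 o ho
  · obtain ⟨o, ho, c, hc, rfl⟩ := II.exists_mul hz g
    refine mul_mem (h1 o (h2 o ho)) ?_
    have : Cfsg.pResidual 2 (C1 z) ≤ (Cfsg.pResidual 2 G).comap (C1 z).subtype :=
      (Subgroup.closure_le _).2 fun x hx => h1 x (by rwa [Subgroup.orderOf_coe])
    exact this (h ▸ Subgroup.mem_top (⟨c, hc⟩ : C1 z))

end Cfsg.Agent.S1183
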