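import Cfsg.Statements.S1184
import Cfsg.Agent.H4.Inv2

set_option autoImplicit false
open Cfsg

namespace Cfsg.Agent.S1184

open H4 H1 MonoidAlgebra
open scoped Pointwise


/-- Let z be an isolated involution of the finite group G. If s and t are distinct conjugates of z, then st does not commute with z. -/
theorem result {G : Type*} [Group G] [Finite G] (z : G) (hz : Cfsg.IsIsolatedInvolution z) (g h : G) (hne : g * z * g⁻¹ ≠ h * z * h⁻¹) : ¬ Commute (g * z * g⁻¹ * (h * z * h⁻¹)) z := by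
  intro hc
  have h1 := (II.conj hz h).odd (g * h⁻¹)
  rw [show g * h⁻¹ * (h * z * h⁻¹) * (g * h⁻¹)⁻¹ = g * z * g⁻¹ by group] at h1
  have hs := conj_mul_self (II.mul_self hz) g
  have ht := conj_mul_self (II.mul_self hz) h
  have h2 := dih_mul hs ht 1
  rw [pow_one] at h2
  set w := g * z * g⁻¹ * (h * z * h⁻¹) with hw
  have h3 : h * z * h⁻¹ * w * (h * z * h⁻¹)⁻¹ = w⁻¹ := by
    rw [mul_inv_eq_iff_eq_mul, eq_inv_mul_iff_mul_eq, ← mul_assoc, ← h2, inv_mul_cancel_right]
  obtain ⟨x, hx, h4⟩ := II.conj_in hz (H := NS (Subgroup.zpowers w)) (CS_le_NS _ (le_CS_zpowers.1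
    (zpowers_le_CS.2 (by rw [CS, H4.centralizer_zpowers]; exact mem_centralizer_singleton.2 hc.symm)))) (g := h)
    (H2.mem_normalizer_of_cj_le (by rw [H2.cj_zpowers, h3]; simp))
  obtain ⟨k, hk⟩ := (Subgroup.mem_normalizer_iff.1 (inv_mem hx) w).1 (Subgroup.mem_zpowers w)
  have h5 : Commute w (h * z * h⁻¹) := by
    have := (hk ▸ hc.zpow_left k : Commute (x⁻¹ * w * x⁻¹⁻¹) z).conj x
    rw [h4] at this
    simpa [mul_assoc] using this
  rw [← h5.eq, mul_inv_cancel_right] at h3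
  have h6 : w = 1 := IsPElt.eq_one Nat.prime_two ((isPElt_iff Nat.prime_two).2 ⟨1, by
    rw [pow_one, sq]; exact mul_eq_one_iff_eq_inv.2 h3⟩) h1
  exact hne (mul_right_cancel (h6.trans ht.symm))

end Cfsg.Agent.S1184
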