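import Cfsg.Statements.S1185
import Cfsg.Agent.H4.Inv2

set_option autoImplicit false
open Cfsg

namespace Cfsg.Agent.S1185

open H4 H1 MonoidAlgebra
open scoped Pointwise


/-- Let z be an isolated involution of the finite group G with centralizer C. Then for every g ∈ G there is exactly one element k in the coset gC that has odd order and is inverted by z. -/
theorem result {G : Type*} [Group G] [Finite G] (z : G) (hz : Cfsg.IsIsolatedInvolution z) (g : G) : ∃! k : G, (Odd (orderOf k) ∧ z * k * z⁻¹ = k⁻¹) ∧ g⁻¹ * k ∈ Subgroup.centralizer ({z} : Set G) := by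
  have h2 := II.mul_self hz
  obtain ⟨j, hj⟩ := exists_eq_comm h2 (II.odd hz g) (inv_conj_mul h2 g)
  have e : ∀ k : G, Odd (orderOf k) ↔ ¬ 2 ∣ orderOf k := fun k => by rw [← Nat.not_even_iff_odd, even_iff_two_dvd]
  have h3 : z * (g * z * g⁻¹ * z) ^ j * z⁻¹ = ((g * z * g⁻¹ * z) ^ j)⁻¹ := by
    rw [← conj_pow, inv_conj_mul h2, inv_pow]
  refine ⟨(g * z * g⁻¹ * z) ^ j, ⟨⟨(e _).2 (not_dvd_orderOf_pow (II.odd hz g) j), h3⟩, comm_eq_iff.1 hj.symm⟩,
    fun k ⟨⟨h4, h5⟩, h6⟩ => eq_of_sq_eq ((e k).1 h4) (not_dvd_orderOf_pow (II.odd hz g) j) ?_⟩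
  rw [← conj_mul_eq_sq h2 h5, ← conj_mul_eq_sq h2 h3, hj, comm_eq_iff.2 h6]

end Cfsg.Agent.S1185
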