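import Cfsg.Statements.S1186
import Cfsg.Agent.H4.Inv2

set_option autoImplicit false
open Cfsg

namespace Cfsg.Agent.S1186

open H4 H1 MonoidAlgebra
open scoped Pointwise


/-- Let z be an isolated involution of the finite group G, C = C_G(z), K the set of elements of odd order inverted by z, and s an involution of C. Then |G| = |C| · |C_K(sz)| · |C_K(s)|. -/
theorem result {G : Type*} [Group G] [Finite G] (z : G) (hz : Cfsg.IsIsolatedInvolution z) (s : G) (hs : orderOf s = 2) (hsz : Commute s z) : Nat.card G = Nat.card (Subgroup.centralizer ({z} : Set G)) * Nat.card {k : G // Odd (orderOf k) ∧ z * k * z⁻¹ = k⁻¹ ∧ Commute k (s * z)} * Nat.card {k : G // Odd (orderOf k) ∧ z * k * z⁻¹ = k⁻¹ ∧ Commute k s} := by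
  have h2 := II.mul_self hz
  have e : ∀ k : G, Odd (orderOf k) ↔ ¬ 2 ∣ orderOf k := fun k => by rw [← Nat.not_even_iff_odd, even_iff_two_dvd]
  have h3 : ∀ u : G, Commute u z → Nat.card {k : G // Odd (orderOf k) ∧ z * k * z⁻¹ = k⁻¹ ∧ Commute k u} =
      Nat.card {t : G // IsConj z t ∧ Commute t u} := fun u hu =>
    Nat.card_congr ((Equiv.mulRight z).subtypeEquiv fun k => ⟨fun ⟨h4, h5, h6⟩ => by
      obtain ⟨j, hj⟩ := exists_eq_comm h2 ((e k).1 h4) h5
      exact ⟨isConj_iff.2 ⟨k ^ j, by rw [Equiv.coe_mulRight]; simp only; conv_rhs => rw [← hj, mul_assoc, h2, mul_one]⟩,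
        h6.mul_left hu.symm⟩, fun ⟨h4, h5⟩ => by
      obtain ⟨g, hg⟩ := isConj_iff.1 h4
      obtain rfl : k = g * z * g⁻¹ * z := by rw [hg, Equiv.coe_mulRight]; simp only; rw [mul_assoc, h2, mul_one]
      exact ⟨(e _).2 (II.odd hz g), inv_conj_mul h2 g, Commute.mul_left (hg ▸ h5) hu.symm⟩⟩)
  rw [h3 s hsz, h3 _ (hsz.mul_left (Commute.refl z)), ← H3.card_class_mul_card_centralizer z, mul_comm, mul_assoc]
  congr 1
  have h1 := mul_self_of_two hs
  by_cases h0 : s = z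
  · subst h0
    rw [h2, (Nat.card_eq_one_iff_exists (α := {t : G // IsConj s t ∧ Commute t s})).2 ⟨⟨s, IsConj.refl s, hsz⟩,
      fun ⟨t, h4, h5⟩ => by obtain ⟨g, rfl⟩ := isConj_iff.1 h4; exact Subtype.ext (hz.2 g h5.symm)⟩, mul_one]
    simp
  have h4 : ∀ t' : {t : G // IsConj z t ∧ Commute t s}, Nat.card {t : G // IsConj z t ∧ Commute t (s * t')} =
      Nat.card {t : G // IsConj z t ∧ Commute t (s * z)} := fun ⟨t', h4, h5⟩ => by
    obtain ⟨g, rfl⟩ := isConj_iff.1 h4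
    obtain ⟨x, hx, h6⟩ := II.conj_in hz (mem_centralizer_singleton.2 hsz) (mem_centralizer_singleton.2 h5.symm)
    refine (Nat.card_congr ((MulAut.conj x).toEquiv.subtypeEquiv fun t => ?_)).symm
    have h7 : s * (g * z * g⁻¹) = MulAut.conj x (s * z) := by
      rw [← h6, map_mul, MulAut.conj_apply, ← (mem_centralizer_singleton.1 hx).eq, mul_inv_cancel_right]; rfl
    simp only [h7, MulEquiv.toEquiv_eq_coe, EquivLike.coe_coe]
    exact and_congr ⟨fun h => h.trans (isConj_iff.2 ⟨x, rfl⟩), fun h => h.trans (isConj_iff.2 ⟨x, rfl⟩).symm⟩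
      (commute_map_iff (MulAut.conj x).injective).symm
  have h5 : ∀ t t', IsConj z t → IsConj z t' → Commute t' s → Commute t (s * t') → pp 2 (s * t) = s * t' := by
    intro t t' h5 h6 h7 h8
    obtain ⟨g, rfl⟩ := isConj_iff.1 h5
    obtain ⟨c, rfl⟩ := isConj_iff.1 (h5.symm.trans h6)
    have h9 := conj_mul_self (conj_mul_self h2 g) c
    have := (II.conj hz g).odd c
    generalize c * (g * z * g⁻¹) * c⁻¹ = t' at *
    rw [show s * (g * z * g⁻¹) = s * t' * (t' * (g * z * g⁻¹)) by rw [mul_assoc s, ← mul_assoc t', h9, one_mul]]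
    exact pp_mul_of_commute Nat.prime_two ((h7.symm.mul_left (Commute.refl t')).mul_right h8.symm)
      ((isPElt_iff Nat.prime_two).2 ⟨1, by rw [pow_one, h7.symm.mul_pow, sq, sq, h1, h9, one_mul]⟩) this
  rw [← Nat.card_congr (Equiv.ofBijective (fun x : Σ t' : {t : G // IsConj z t ∧ Commute t s},
    {t : G // IsConj z t ∧ Commute t (s * t')} => (⟨x.2, x.2.2.1⟩ : {t : G // IsConj z t})) ⟨?_, ?_⟩)]
  · cases nonempty_fintype {t : G // IsConj z t ∧ Commute t s}
    simp only [Nat.card_sigma, h4]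
    rw [Finset.sum_const, Finset.card_univ, ← Nat.card_eq_fintype_card, smul_eq_mul, mul_comm]
  · rintro ⟨⟨a, a1, a2⟩, b, b1, b2⟩ ⟨⟨c, c1, c2⟩, d, d1, d2⟩ h
    obtain rfl : b = d := congrArg Subtype.val h
    obtain rfl : a = c := mul_left_cancel ((h5 b a b1 a1 a2 b2).symm.trans (h5 b c b1 c1 c2 d2))
    rfl
  · rintro ⟨t, ht⟩
    obtain ⟨g, rfl⟩ := isConj_iff.1 ht
    have h6 := II.conj hz g
    obtain ⟨k, hk⟩ := h6.even_of_not_conj h1 fun h => by
      obtain ⟨c, rfl⟩ := isConj_iff.1 (ht.trans h.symm)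
      exact h0 (hz.2 c hsz.symm)
    obtain ⟨-, h7, h8⟩ := dih_even h1 h6.mul_self hk
    obtain ⟨j, rfl⟩ := h6.half_odd h1 hk
    refine ⟨⟨⟨s * (s * (g * z * g⁻¹)) ^ (2 * j + 1), ht.trans (isConj_iff.2 ⟨_, (dih_conj h1 h6.mul_self (j + 1)).trans
      ?_⟩), (Commute.refl s).mul_left h7.symm⟩, _, ht, ?_⟩, rfl⟩
    · rw [h7.eq, mul_add, mul_one, pow_succ _ (2 * j + 1), mul_assoc, mul_assoc s, h6.mul_self, mul_one]
    · rwa [← mul_assoc, h1, one_mul]

end Cfsg.Agent.S1186
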