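import Cfsg.Statements.S1224
import Cfsg.Agent.SE.Sub

set_option autoImplicit false
open Cfsg

namespace Cfsg.Agent.S1224

open SE H9 Subgroup

/-- Let H be a strongly embedded subgroup of the finite group G and x ≠ y two cosets in G/H. Then the number of involutions i of G with i • x = y equals the number of involutions lying in H. -/
theorem result {G : Type*} [Group G] [Finite G] (H : Subgroup G) (hH : Cfsg.IsStronglyEmbedded H) (x y : G ⧸ H) (hxy : x ≠ y) : Nat.card {i : G // orderOf i = 2 ∧ i • x = y} = Nat.card {t : G // orderOf t = 2 ∧ t ∈ H} := by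
  have h := emb_iff.1 hH
  obtain ⟨g, rfl⟩ := QuotientGroup.mk_surjective x
  obtain ⟨g', rfl⟩ := QuotientGroup.mk_surjective y
  have hc : g⁻¹ * g' ∉ H := fun e => hxy (QuotientGroup.eq.2 e)
  obtain ⟨t, t1, t2⟩ := h.exists_inv_coset hc
  have tH : t ∉ H := fun e => hc (by simpa using H.mul_mem e t2)
  have e1 : Nat.card {t : G // orderOf t = 2 ∧ t ∈ H} = Nat.card {s // s ∈ H ∧ SE.Inv s} :=
    Nat.card_congr (Equiv.subtypeEquivRight fun s => by rw [inv_iff_orderOf, and_comm])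
  rw [e1, ← h.card_K t1.2 tH]
  refine (Nat.card_congr (Equiv.ofBijective (fun k : KK H t => (⟨g * (t * k) * g⁻¹, ?_, ?_⟩ :
    {i : G // orderOf i = 2 ∧ i • (g : G ⧸ H) = (g' : G ⧸ H)})) ⟨fun k k' e => ?_, fun i => ?_⟩)).symm
  · refine inv_iff_orderOf.1 (Inv.conj ⟨fun e => tH ?_, ?_⟩ g)
    · rw [mul_eq_one_iff_eq_inv.1 e]; exact inv_mem k.2.1
    · rw [← mul_assoc, k.2.2, inv_mul_cancel]
  · rw [MulAction.Quotient.smul_mk, QuotientGroup.eq, smul_eq_mul,
      show (g * (t * k) * g⁻¹ * g)⁻¹ * g' = (k : G)⁻¹ * (t⁻¹ * (g⁻¹ * g')) by group]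
    exact mul_mem (inv_mem k.2.1) t2
  · exact Subtype.ext (mul_left_cancel (mul_left_cancel (mul_right_cancel (congrArg Subtype.val e))))
  · obtain ⟨i, i1, i2⟩ := i
    rw [MulAction.Quotient.smul_mk, QuotientGroup.eq, smul_eq_mul] at i2
    have i3 := (inv_iff_orderOf.2 i1).conj' g
    refine ⟨⟨t * (g⁻¹ * i * g), ?_, ?_⟩, Subtype.ext ?_⟩
    · have := H.mul_mem t2 (H.inv_mem i2)
      rw [t1.inv] at this
      simpa [mul_assoc] using this
    · rw [t1.cancel, mul_inv_rev, i3.inv, t1.inv]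
    · simp only [t1.cancel]; group

end Cfsg.Agent.S1224
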