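import Cfsg.Statements.S1225
import Cfsg.Agent.SE.Br

set_option autoImplicit false
open Cfsg

namespace Cfsg.Agent.S1225

open SE H9 Subgroup

/-- Let H be a strongly embedded subgroup of the finite group G, u an involution outside H and D = H ∩ uHu⁻¹. Then any two involutions of H are conjugate by an element of D, and any two involutions of G are conjugate in G. -/
theorem result {G : Type*} [Group G] [Finite G] (H : Subgroup G) (hH : Cfsg.IsStronglyEmbedded H) (u : G) (hu : orderOf u = 2) (huH : u ∉ H) (s t : G) (hs : orderOf s = 2) (hsH : s ∈ H) (ht : orderOf t = 2) (htH : t ∈ H) : (∃ d ∈ (H ⊓ H.map (MulAut.conj u).toMonoidHom), d * s * d⁻¹ = t) ∧ ∀ a b : G, orderOf a = 2 → orderOf b = 2 → IsConj a b := by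
  have h := emb_iff.1 hH
  have tt := (inv_iff_orderOf.2 hu).2
  obtain ⟨k, hk, e⟩ := h.K_trans tt huH hsH (inv_iff_orderOf.2 hs) htH (inv_iff_orderOf.2 ht)
  exact ⟨⟨k, KK.mem tt hk, e⟩, fun a b ha hb => isConj_iff.2 (h.conj_inv (inv_iff_orderOf.2 ha) (inv_iff_orderOf.2 hb))⟩

end Cfsg.Agent.S1225
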