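import Cfsg.Statements.S1226
import Cfsg.Agent.SE.Sub

set_option autoImplicit false
open Cfsg

namespace Cfsg.Agent.S1226

open SE H9 Subgroup

/-- Let G be a finite group with a Sylow 2-subgroup T that is neither cyclic nor normal, such that the centralizer of every involution is an elementary abelian 2-group. Then N_G(T) is a strongly embedded subgroup of G. -/
theorem result {G : Type*} [Group G] [Finite G] (T : Sylow 2 G) (hnc : ¬ IsCyclic (T : Subgroup G)) (hnn : ¬ (T : Subgroup G).Normal) (hC : ∀ t : G, orderOf t = 2 → IsMulCommutative (Subgroup.centralizer ({t} : Set G)) ∧ ∀ c ∈ Subgroup.centralizer ({t} : Set G), c ^ 2 = 1) : Cfsg.IsStronglyEmbedded (Subgroup.normalizer ((T : Subgroup G) : Set G)) := by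
  haveI : Fact (Nat.Prime 2) := ⟨Nat.prime_two⟩
  have hT := syl_top_of_sylow T
  have hp : ∀ t, SE.Inv t → IsPGroup 2 (centralizer ({t} : Set G)) := fun t ht x =>
    ⟨1, Subtype.ext (by simpa using (hC t (inv_iff_orderOf.1 ht)).2 x x.2)⟩
  have hne : (T : Subgroup G) ≠ ⊥ := fun e => hnc (e ▸ inferInstance)
  have h4 := inf_centralizer_ne_bot_of_nilpotent T.isPGroup'.isNilpotent le_rfl le_normalizer hne
  have h5 : IsPGroup 2 ((T : Subgroup G) ⊓ centralizer ((T : Subgroup G) : Set G) : Subgroup G) := hT.isP.to_le inf_le_left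
  obtain ⟨n, e⟩ := IsPGroup.iff_card.1 h5
  obtain ⟨z, hz, h3⟩ := exists_inv_of_even (X := (T : Subgroup G) ⊓ centralizer ((T : Subgroup G) : Set G)) (by
    rw [e]; refine dvd_pow_self 2 fun h0 => h4 ?_
    rw [h0, pow_zero] at e; exact card_eq_one.1 e)
  have e1 : centralizer {z} = (T : Subgroup G) := hT.maximal (hp z h3) le_top (le_centralizer_singleton_iff.2 hz.2)
  have e2 : ∀ s ∈ normalizer ((T : Subgroup G) : Set G), SE.Inv s → centralizer {s} = (T : Subgroup G) := fun s hs h1 => by
    have : zpowers s ≤ T := hT.le_of_le_normalizer ((hp s h1).to_le (zpowers_le.2 (mem_centralizer_singleton_iff.2 rfl)))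
      le_top (Or.inl (zpowers_le.2 hs))
    refine hT.maximal (hp s h1) le_top fun x hx => mem_centralizer_singleton_iff.2 ?_
    have := (hC z (inv_iff_orderOf.1 h3)).1
    rw [e1] at this
    exact congrArg Subtype.val (this.is_comm.comm (⟨x, hx⟩ : (T : Subgroup G)) ⟨s, ‹zpowers s ≤ _› (mem_zpowers s)⟩)
  refine emb_iff.2 ⟨⟨z, le_normalizer hz.1, h3⟩, fun s hs h1 g hg => ?_, fun e => hnn (normalizer_eq_top_iff.1 e)⟩
  rw [mem_normalizer_iff_cj]
  conv_lhs => rw [← e2 s hs h1]
  rw [cj_centralizer_singleton, e2 _ hg (h1.conj g)]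

end Cfsg.Agent.S1226
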