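import Cfsg.Statements.S1229
import Cfsg.Agent.H3.Ab4

set_option autoImplicit false
open Cfsg

namespace Cfsg.Agent.S1229

open H3 SE

/-- Let G be a finite group with a Sylow 2-subgroup T that is neither cyclic nor normal, such that the centralizer of every involution is an elementary abelian 2-group; put H = N_G(T) and X = G/H. Then G is triply transitive on X, an element fixing three distinct points of X is the identity, and T acts regularly on X minus the point H. -/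
theorem result {G : Type*} [Group G] [Finite G] (T : Sylow 2 G) (hnc : ¬ IsCyclic (T : Subgroup G)) (hnn : ¬ (T : Subgroup G).Normal) (hC : ∀ t : G, orderOf t = 2 → IsMulCommutative (Subgroup.centralizer ({t} : Set G)) ∧ ∀ c ∈ Subgroup.centralizer ({t} : Set G), c ^ 2 = 1) : (∀ x₁ x₂ x₃ y₁ y₂ y₃ : G ⧸ Subgroup.normalizer ((T : Subgroup G) : Set G), x₁ ≠ x₂ → x₁ ≠ x₃ → x₂ ≠ x₃ → y₁ ≠ y₂ → y₁ ≠ y₃ → y₂ ≠ y₃ → ∃ g : G, g • x₁ = y₁ ∧ g • x₂ = y₂ ∧ g • x₃ = y₃) ∧ (∀ g : G, ∀ x₁ x₂ x₃ : G ⧸ Subgroup.normalizer ((T : Subgroup G) : Set G), x₁ ≠ x₂ → x₁ ≠ x₃ → x₂ ≠ x₃ → g • x₁ = x₁ → g • x₂ = x₂ → g • x₃ = x₃ → g = 1) ∧ (∀ x y : G ⧸ Subgroup.normalizer ((T : Subgroup G) : Set G), x ≠ QuotientGroup.mk 1 → y ≠ QuotientGroup.mk 1 → ∃! t : G, t ∈ T ∧ t • x = y) := by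
  obtain ⟨h, k, s, hs, e⟩ := ac_elem T hnc hnn hC
  have m : ∀ t, t ∈ T ↔ t ∈ Cz s := fun t => by rw [← e]; rfl
  simp only [m]
  rw [e]
  refine ⟨fun _ _ _ _ _ _ => (h.sh3 k hs).tr, fun g _ _ _ p q r => (h.sh3 k hs).three g _ _ _ p r q, fun x y a b => ?_⟩
  obtain ⟨u, n, hu⟩ := (h.emb hs).exists_out
  obtain ⟨c, p, rfl⟩ := h.exists_cu k hs hu n a
  obtain ⟨d, q, rfl⟩ := h.exists_cu k hs hu n b
  refine ⟨d * c⁻¹, ⟨mul_mem q (inv_mem p), by simp [mul_assoc]⟩, fun t ⟨r, f⟩ => eq_mul_inv_of_mul_eq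
    (h.cu_inj k hs hu n (mul_mem r p) q (by simpa [mul_assoc] using f))⟩

end Cfsg.Agent.S1229
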