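import Cfsg.Statements.S1231
import Cfsg.Agent.H1.Loc

set_option autoImplicit false
open Cfsg

namespace Cfsg.Agent.S1231

open H1

/-- Let H be a subgroup of the finite group G, p a prime, k ≥ 1, and P a Sylow p-subgroup of H whose p-rank is at least k. Then N_G(X) ≤ H for every subgroup X of P of p-rank at least k if and only if H ∩ gHg⁻¹ has p-rank less than k for every g ∉ H. -/
theorem result {G : Type*} [Group G] [Finite G] {p : ℕ} [Fact p.Prime] (k : ℕ) (hk : 1 ≤ k) (H : Subgroup G) (P : Sylow p ↥H) (hP : ¬ Cfsg.PRankLE p (k - 1) ↥(P : Subgroup ↥H)) : (∀ X : Subgroup G, X ≤ (P : Subgroup ↥H).map H.subtype → ¬ Cfsg.PRankLE p (k - 1) ↥X → Subgroup.normalizer (X : Set G) ≤ H) ↔ (∀ g : G, g ∉ H → Cfsg.PRankLE p (k - 1) ↥(H ⊓ H.map (MulAut.conj g).toMonoidHom)) := by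
  have hP' := H9.syl_of_sylow P
  constructor
  · intro h g hg
    by_contra c
    have n : ∀ X ≤ H, IsPGroup p X → ¬ PRankLE p (k - 1) X → Subgroup.normalizer (X : Set G) ≤ H := fun X a b d => by
      obtain ⟨x, hx, e⟩ := hP'.exists_cj_le b a
      have := h _ e (FT.lt_rk_iff.1 (by rw [FT.rk_cj]; exact FT.lt_rk_iff.2 d))
      rwa [← H9.cj_normalizer, H9.cj_le_iff, H9.cj_eq_of_mem (inv_mem hx)] at this
    obtain ⟨Q, hQ⟩ := H9.exists_syl p (H ⊓ H9.cj g H)
    have r := FT.lt_rk_iff.2 c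
    rw [← H9.cj_def, ← FT.rk_eq_of_syl hQ] at r
    have l : H9.cj g⁻¹ Q ≤ H := H9.cj_le_iff.2 (by rw [inv_inv]; exact hQ.le.trans inf_le_right)
    have n1 := n Q (hQ.le.trans inf_le_left) hQ.isP (FT.lt_rk_iff.1 r)
    have n2 := n _ l (hQ.isP.map _) (FT.lt_rk_iff.1 (by rwa [FT.rk_cj]))
    rw [← H9.cj_normalizer, H9.cj_le_iff, inv_inv] at n2
    have s : H9.Syl p Q ⊤ := H9.Syl.of_normalizer (hQ.mono (le_inf le_top Subgroup.le_normalizer)
      (inf_le_right.trans (le_inf n1 n2)))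
    obtain ⟨x, hx, e⟩ := (s.mono (hQ.le.trans inf_le_left) le_top).conj ((s.cj_of_mem
      ((Subgroup.normalizer_eq_top _).ge (Subgroup.mem_top g⁻¹))).mono l le_top)
    have := n1 (H9.mem_normalizer_iff_cj.2 (show H9.cj (g * x) Q = Q by rw [H9.cj_mul, e, ← H9.cj_mul, mul_inv_cancel, H9.cj_one]))
    exact hg ((H.mul_mem_cancel_right hx).1 this)
  · intro h X a b g hg
    by_contra c
    have l := a.trans hP'.le
    exact b (FT.rk_le_iff.1 ((FT.rk_mono (le_inf l ((H9.mem_normalizer_iff_cj.1 hg).ge.trans (H9.cj_mono g l)))).trans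
      (FT.rk_le_iff.2 (h g c))))

end Cfsg.Agent.S1231
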