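import Cfsg.Statements.S1239
import Cfsg.Agent.H1.ZS

set_option autoImplicit false
open Cfsg

namespace Cfsg.Agent.S1239

open H1

/-- Let X be a finite group whose Sylow 2-subgroup S is quasi-dihedral or wreathed, and suppose some involution of S is isolated in X. Then the product of the largest normal odd-order subgroup O(X) with the centre of S is normal in X. -/
theorem result {X : Type*} [Group X] [Finite X] (S : Sylow 2 X) (hS : Cfsg.IsQuasiDihedral (S : Subgroup X) ∨ Cfsg.IsWreathed (S : Subgroup X)) (z : X) (hzS : z ∈ S) (hz : Cfsg.IsIsolatedInvolution z) : (Cfsg.oddCore X ⊔ (Subgroup.center (S : Subgroup X)).map (S : Subgroup X).subtype).Normal := by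
  rw [map_center_eq]
  have key : (∀ c ∈ (S : Subgroup X) ⊓ Subgroup.centralizer ((S : Subgroup X) : Set X), ∀ g,
      g * c * g⁻¹ ∈ (S : Subgroup X) → g * c * g⁻¹ = c) → (Cfsg.oddCore X ⊔ (S : Subgroup X) ⊓
        Subgroup.centralizer ((S : Subgroup X) : Set X)).Normal := fun h => by
    refine Subgroup.normalizer_eq_top_iff.1 (eq_top_iff.2 fun g _ => H2.mem_normalizer_of_cj_le ?_)
    rw [H2.cj_sup, H2.cj_of_normal]
    refine sup_le le_sup_left (H2.cj_le_iff_forall.2 fun c hc => ?_)
    simpa using mul_mem (Subgroup.mem_sup_left (zstar_fix X S _ inf_le_left h c hc g) : _ ∈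
      Cfsg.oddCore X ⊔ (S : Subgroup X) ⊓ Subgroup.centralizer ((S : Subgroup X) : Set X))
      (Subgroup.mem_sup_right hc)
  have hz' : H4.II z := hz
  have hzZ : z ∈ (S : Subgroup X) ⊓ Subgroup.centralizer ((S : Subgroup X) : Set X) :=
    ⟨hzS, fun s hs => hz'.commute_of_mem S.isPGroup' hzS hs⟩
  refine key fun c hc g hg => ?_
  rcases hS with hS | hS
  · obtain ⟨n, a, b, h⟩ := sd_of_qd hS
    have e := (h.mem_z.1 (h.center.le hzZ)).resolve_left (two_ne hz.1)
    rcases h.mem_z.1 (h.center.le hc) with rfl | rfl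
    · simp
    · rw [← e] at hg ⊢; exact hz'.eq_of_mem S.isPGroup' hzS hg
  · obtain ⟨n, x, y, w, h⟩ := wr_of hS
    have e := h.eq_z0 (h.center.le hzZ) hz.1
    refine h.fix (fun o => ?_) (h.center.le hc) hg
    obtain ⟨k, hk⟩ := isConj_iff.1 (h.conj_x0_z0 o).symm
    rw [← e] at hk
    refine h.x0_notMem_Z ?_
    rw [← hk, hz'.eq_of_mem S.isPGroup' hzS (hk ▸ pow_mem h.hx _)]
    exact h.center.le hzZ

end Cfsg.Agent.S1239
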