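import Cfsg.Statements.S1241
import Cfsg.Agent.H2.Control

set_option autoImplicit false
open Cfsg

namespace Cfsg.Agent.S1241

/-- Let G be a finite group, p a prime, H a subgroup of index prime to p, K a subgroup of H normal in H with H/K commutative, and g ∈ H ∖ K an element of p-power order such that for all integers m and all a ∈ G with a g^m a⁻¹ ∈ H one has a g^m a⁻¹ ∈ g^m K. Then g ∉ G'. -/
theorem result {G : Type*} [Group G] [Finite G] {p : ℕ} [Fact p.Prime] (H K : Subgroup G) (hHK : K ≤ H) (hKn : (K.subgroupOf H).Normal) (hab : ∀ x ∈ H, ∀ y ∈ H, x * y * x⁻¹ * y⁻¹ ∈ K) (hidx : Nat.Coprime p H.index) (g : G) (hgH : g ∈ H) (hgK : g ∉ K) (hgp : ∃ k : ℕ, orderOf g = p ^ k) (hctrl : ∀ (m : ℤ) (a : G), a * g ^ m * a⁻¹ ∈ H → (a * g ^ m * a⁻¹) * (g ^ m)⁻¹ ∈ K) : g ∉ commutator G := by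
  intro hg
  obtain ⟨N, -, h1, -, -, h2⟩ := H2.exists_transfer_kernel (H := H) (K := K)
    (Subgroup.commutator_le.2 hab)
  have h3 := (h2 g hgH (fun k a ha => by
    have := hctrl k a (by simpa using ha)
    simpa using this)).1 (h1 hg)
  obtain ⟨k, hk⟩ := hgp
  obtain ⟨m, hm⟩ := exists_pow_eq_self_of_coprime (x := g) (n := H.index)
    (by rw [hk]; exact (hidx.pow_left k).symm)
  exact hgK (hm ▸ pow_mem h3 m)

end Cfsg.Agent.S1241
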