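import Cfsg.Statements.S1242
import Cfsg.Agent.H2.Fus13

set_option autoImplicit false
open Cfsg

namespace Cfsg.Agent.S1242

open H2 Subgroup in

/-- Let G be a finite group, p a prime and H a subgroup of index prime to p such that any two elements of H of p-power order that are conjugate in G are conjugate in H. Then (O^p(G)·G') ∩ H = O^p(H)·H', where O^p denotes the subgroup generated by the elements of order prime to p. -/
theorem result {G : Type*} [Group G] [Finite G] {p : ℕ} [Fact p.Prime] (H : Subgroup G) (hidx : Nat.Coprime p H.index) (hfus : ∀ g ∈ H, (∃ k : ℕ, orderOf g = p ^ k) → ∀ a : G, a * g * a⁻¹ ∈ H → ∃ h ∈ H, h * g * h⁻¹ = a * g * a⁻¹) : (Cfsg.pResidual p G ⊔ commutator G) ⊓ H = (Cfsg.pResidual p ↥H ⊔ commutator ↥H).map H.subtype := by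
  obtain ⟨P, hP, -⟩ := exists_sylowIn (p := p) (H := H) IsPGroup.of_bot bot_le
  have hP' : IsSylowIn p P ⊤ := ⟨le_top, hP.pgroup, by
    rw [← relIndex_mul_relIndex P H ⊤ hP.le le_top, relIndex_top_right, (Fact.out : p.Prime).dvd_mul, not_or]
    exact ⟨hP.not_dvd, (Fact.out : p.Prime).coprime_iff_not_dvd.1 hidx⟩⟩
  have h1 := hP'.inf_Op_sup_commutator
  rw [foc_eq_of_controls (V := H) le_top fun x hx g _ hg => hfus x (hP.le hx)
    (by obtain ⟨k, hk⟩ := IsPGroup.iff_orderOf.1 hP.pgroup ⟨x, hx⟩; exact ⟨k, by simpa using hk⟩) g (hP.le hg),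
    ← hP.inf_Op_sup_commutator, Op_top, ← commutator_def] at h1
  rw [Subgroup.map_sup, ← Op_eq_map, map_commutator_sub]
  have h2 : Op p H ⊔ ⁅H, H⁆ ≤ Cfsg.pResidual p G ⊔ commutator G :=
    sup_le_sup (Op_top (G := G) p ▸ Op_mono p le_top) (commutator_mono le_top le_top)
  refine le_antisymm (fun x hx => ?_) (le_inf h2 (sup_le (Op_le _ _) (commutator_le_self le_rfl le_rfl)))
  obtain ⟨a, ha, b, hb, rfl⟩ := (mem_sup_of_le_normalizer' ((hP.le.trans le_normalizer).trans (normalizer_le_normalizer_Op p H))).1 (hP.Op_sup.ge hx.2)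
  refine mul_mem (mem_sup_left ha) (h1.le ⟨hb, ?_⟩).2
  simpa using mul_mem (inv_mem (h2 (mem_sup_left ha))) hx.1

end Cfsg.Agent.S1242
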