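import Cfsg.Statements.S1244
import Cfsg.Agent.FT.Rank
import Cfsg.Agent.H1.Tr
import Cfsg.Agent.H1.MC2
import Cfsg.Agent.H9.Cop
import Cfsg.Agent.L.PG4
import Cfsg.Agent.H9.Ctl

set_option autoImplicit false
open Cfsg

namespace Cfsg.Agent.S1244

open H9 FT Subgroup

/-- Let G be a finite group with no subgroup of index 2 whose Sylow 2-subgroup S is commutative, and let R ≤ S be a subgroup whose 2-rank is exactly one less than the 2-rank r of S. Then every involution of S is conjugate, by an element of N_G(S), to an element of R. -/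
theorem result {G : Type*} [Group G] [Finite G] (hG : ∀ H : Subgroup G, H.index ≠ 2) (S : Sylow 2 G) (hS : IsMulCommutative (S : Subgroup G)) (r : ℕ) (hr1 : 1 ≤ r) (hSr : Cfsg.PRankLE 2 r (S : Subgroup G) ∧ ¬ Cfsg.PRankLE 2 (r - 1) (S : Subgroup G)) (R : Subgroup G) (hRS : R ≤ S) (hRr : Cfsg.PRankLE 2 (r - 1) R ∧ (r = 1 ∨ ¬ Cfsg.PRankLE 2 (r - 2) R)) (t : G) (ht : orderOf t = 2) (htS : t ∈ S) : ∃ n ∈ Subgroup.normalizer ((S : Subgroup G) : Set G), n * t * n⁻¹ ∈ R := by
  classical
  by_contra hcon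
  push Not at hcon
  have hP := syl_top_of_sylow S
  have e1 := el_omegaOne_of_comm (p := 2) hS
  have e2 := el_omegaOne_of_comm (p := 2) (H1.isMulCommutative_of_le hRS hS)
  have mem : ∀ n ∈ normalizer ((S : Subgroup G) : Set G), n * t * n⁻¹ ∈ omegaOne 2 (S : Subgroup G) := fun n hn =>
    conj_mem_of_le_normalizer (L.normalizer_omegaOne le_rfl) hn (L.mem_omegaOne htS (ht ▸ pow_orderOf_eq_one t))
  have hi : (omegaOne 2 R).relIndex (omegaOne 2 (S : Subgroup G)) = 2 := by
    have h1 := H1.card_mul_relIndex (L.omegaOne_mono 2 hRS)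
    have h2 := rk_le_iff.2 hSr.1
    have h3 : r - 1 ≤ rk 2 R := hRr.2.elim (fun h => by omega) fun h => by have := lt_rk_iff.2 h; omega
    have h4 : (omegaOne 2 R).relIndex (omegaOne 2 (S : Subgroup G)) ≠ 1 := fun h =>
      hcon 1 (one_mem _) (e2.le (relIndex_eq_one.1 h (mem 1 (one_mem _))))
    have h5 := L.relIndex_pos (omegaOne 2 R) (omegaOne 2 (S : Subgroup G))
    have h6 : 2 ^ rk 2 (S : Subgroup G) ≤ 2 ^ rk 2 R * 2 := by
      rw [← pow_succ]; exact Nat.pow_le_pow_right two_pos (by omega)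
    rw [e1.card, e2.card] at h1
    rw [← h1] at h6
    have := Nat.le_of_mul_le_mul_left h6 (by positivity)
    omega
  have hN := hP.mono (S : Subgroup G).le_normalizer le_top
  obtain ⟨k, hk⟩ := L.exists_card_eq_pow S.isPGroup'
  have hc := (Nat.prime_two.coprime_iff_not_dvd.2 hN.not_dvd)
  obtain ⟨Q, q1, -, q3, q4⟩ := H1.exists_complement_rel (S : Subgroup G).le_normalizer le_rfl
    (by rw [hk]; exact hc.pow_left k)
  have h1 := (H1.IsSylowIn.inf_Op_of_comm (H1.isSylowIn_top S) hS).1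
  rw [H2.Op_top, H1.le_pResidual_of_no_index hG, inf_top_eq, top_inf_eq, ← q3, commutator_comm] at h1
  have cS := L.le_centralizer_of_comm hS
  have h2 : (S : Subgroup G) ≤ ⁅(S : Subgroup G), Q⁆ := h1.le.trans (commutator_sup_le
    (normalizer_commutator_ge_right _ _) (normalizer_commutator_ge_left _ _) (commutator_comm _ _).le
    ((commutator_eq_bot_iff_le_centralizer.2 cS).le.trans bot_le))
  have h3 := cop_abelian_inf hS q1 (by rw [q4, hk]; exact (hc.pow_left k).symm)
  haveI := Fintype.ofFinite Q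
  letI : CommGroup (S : Subgroup G) := { mul_comm := hS.1.1 }
  let c : Q → (S : Subgroup G) := fun q => ⟨q * t * (q : G)⁻¹, e1.le (mem q (q1 q.2))⟩
  have h4 : ∏ q, c q = 1 := by
    refine Subtype.ext (mem_bot.1 (h3.le ⟨⟨Subtype.property _, fun x hx => ?_⟩, h2 (Subtype.property _)⟩))
    have := map_prod ((S : Subgroup G).normalizerMonoidHom ⟨x, q1 hx⟩) c Finset.univ
    exact eq_mul_of_mul_inv_eq (congrArg Subtype.val (this.trans (Fintype.prod_equiv (Equiv.mulLeft (⟨x, hx⟩ : Q)) _ c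
      fun q => Subtype.ext (by
        show x * (q * t * (q : G)⁻¹) * x⁻¹ = (x * q) * t * (x * q)⁻¹
        group))))
  have h5 : (∏ q, (c q * (⟨t, htS⟩ : (S : Subgroup G))⁻¹)) ∈ (omegaOne 2 R).subgroupOf S :=
    prod_mem fun q _ => L.mul_mem_of_relIndex_two hi (mem q (q1 q.2)) (inv_mem (by simpa using mem 1 (one_mem _)))
      (fun h => hcon _ (q1 q.2) (e2.le h)) fun h => hcon 1 (one_mem _) (by simpa using e2.le h)
  rw [Finset.prod_mul_distrib, h4, one_mul, Finset.prod_const, Finset.card_univ, ← Nat.card_eq_fintype_card, q4,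
    inv_pow, inv_mem_iff, mem_subgroupOf, coe_pow] at h5
  exact hcon 1 (one_mem _) (by simpa using e2.le (L.mem_of_pow_mem h5 (by rwa [ht])))

end Cfsg.Agent.S1244
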