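import Cfsg.Statements.S1247
import Cfsg.Agent.H1.Loc

set_option autoImplicit false
open Cfsg

namespace Cfsg.Agent.S1247

open H1

/-- Let G be a non-abelian finite simple group, A a maximal subgroup, F = F*(A) its generalized Fitting subgroup (viewed in G), and S ≤ F a subgroup subnormal in F with C_F(S) ≤ S. Let B be any subgroup of G containing S. Then (a) for every prime q not dividing |F(A)|, O_q(B) ∩ A = 1; and (b) for every prime p dividing |F(A)|, O_p(B) commutes elementwise with the subgroup of F generated by its elements of order prime to p. -/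
theorem result {G : Type*} [Group G] [Finite G] [IsSimpleGroup G] (hna : ¬ IsMulCommutative G) (A : Subgroup G) (hA : IsCoatom A) (S : Subgroup G) (hSF : S ≤ (Cfsg.generalizedFittingSubgroup ↥A).map A.subtype) (hSsn : (S.subgroupOf ((Cfsg.generalizedFittingSubgroup ↥A).map A.subtype)).IsSubnormal) (hSC : (Cfsg.generalizedFittingSubgroup ↥A).map A.subtype ⊓ Subgroup.centralizer (S : Set G) ≤ S) (B : Subgroup G) (hSB : S ≤ B) : (∀ q : ℕ, q.Prime → ¬ q ∣ Nat.card (Cfsg.fittingSubgroup ↥A) → (Cfsg.pCore q ↥B).map B.subtype ⊓ A = ⊥) ∧ (∀ p : ℕ, p.Prime → p ∣ Nat.card (Cfsg.fittingSubgroup ↥A) → ∀ x ∈ (Cfsg.pCore p ↥B).map B.subtype, ∀ y ∈ (Cfsg.pResidual p ↥(Cfsg.generalizedFittingSubgroup ↥A)).map ((Cfsg.generalizedFittingSubgroup ↥A).subtype) , x * (A.subtype y) = (A.subtype y) * x) := by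
  rw [H9.Fst_eq] at hSF hSsn hSC
  have s := H9.sn_iff.2 ⟨hSF, hSsn⟩
  have lE : H9.Lay A ≤ S := H9.Lay_le_iff.2 fun K hK =>
    ((hK.mono (hK.le_Lay.trans (H9.Lay_le_Fst A)) (H9.Fst_le A)).le_or_comm s).elim id fun e =>
      (le_inf (hK.le_Lay.trans (H9.Lay_le_Fst A)) (H9.le_centralizer_iff'.2 e)).trans hSC
  have eS : H9.Lay A ⊔ (H9.Fit A ⊓ S) = S := by
    rw [← H9.dedekind lE (.inl ((H9.Lay_le A).trans (H9.le_normalizer_Fit A)))]; exact inf_eq_right.2 hSF
  have k : ∀ (r : ℕ) [Fact r.Prime] (Q : Subgroup G), Q ≤ A → (Nat.card Q).Coprime r →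
      Q ≤ Subgroup.centralizer ((H9.Op r A ⊓ S : Subgroup G) : Set G) → Q ≤ Subgroup.centralizer (H9.Op r A : Set G) :=
    fun r _ Q a b c => by
      have nil := isNilpotent_of_le (inf_le_left (b := S)) (H9.Fit_nil A)
      refine Subgroup.le_centralizer_iff.1 (H9.a_times_b ((H9.Op_p r A).to_le inf_le_left) b (H9.Op_p r A) c
        (inf_le_left.trans Subgroup.le_normalizer)
        (a.trans (H9.le_normalizer_Op r A)) ((le_inf inf_le_left ((le_inf (inf_le_left.trans ((H9.Op_le_Fit A).trans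
          (H9.Fit_le_Fst A))) ?_).trans hSC)).trans (Subgroup.le_centralizer_iff.1 c)))
      conv_rhs => rw [← eS, ← H9.nilpotent_eq_Op_sup_Op' (p := r) nil, H9.centralizer_sup, H9.centralizer_sup]
      have t : H9.SN (H9.Fit A ⊓ S) A := (H9.sn_of_nilpotent (H9.Fit_nil A) inf_le_left).trans (H9.sn_Fit A)
      exact le_inf (inf_le_left.trans (Subgroup.le_centralizer_iff.1 (H9.Lay_le_centralizer_Op r A))) (le_inf
        (inf_le_right.trans (H9.centralizer_anti (le_inf t.Op_le_Op ((H9.Op_le _ _).trans inf_le_right))))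
        (inf_le_left.trans ((H9.le_centralizer_iff'.2 (H9.commutator_Op_Op' A)).trans (H9.centralizer_anti t.Op'_le_Op'))))
  have pf : ∀ (r : ℕ) [Fact r.Prime] (R : Subgroup G), IsPGroup r R → R ≤ H9.Fst A →
      S ≤ Subgroup.normalizer (R : Set G) → R ≤ H9.Op r A := fun r _ R a b c => by
    have n := H9.normalizer_inf (H9.le_normalizer_Fst A) (H9.normalizer_centralizer (H9.le_normalizer_Lay A))
    refine ((H9.sn_of_nilpotent (H9.Fit_nil A) ((le_inf b (Subgroup.le_centralizer_iff.1 (H9.Lay_le_iff.2 fun K hK =>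
      H9.le_centralizer_iff'.2 (hK.comm_solvable (b.trans (H9.Fst_le A)) (H9.isSolvable_of_isPGroup a)
        ((hK.le_Lay.trans lE).trans c))))).trans (H9.le_Fit (inf_le_left.trans (H9.Fst_le A)) n
          (H9.isNilpotent_of_le_sup inf_le_left (H9.le_centralizer_iff''.1 inf_le_right) (H9.commutator_Lay_Fit A)
            (H9.Fit_nil A))))).trans (H9.sn_Fit A)).le_Op a
  have lA := hSF.trans (H9.Fst_le A)
  have nB := fun r => H9.normalizer_inf (hSB.trans (H9.le_normalizer_Op r B)) (lA.trans Subgroup.le_normalizer)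
  have nF := lA.trans (H9.le_normalizer_Fst A)
  have cF : Nat.card (fittingSubgroup A) = Nat.card (H9.Fit A) := by
    rw [← H9.Fit_eq, Subgroup.card_map_of_injective A.subtype_injective]
  rw [cF]
  refine ⟨fun q hq h => ?_, fun p hp h x hx y hy => ?_⟩
  · have := Fact.mk hq
    rw [H9.Op_eq]
    have o := H9.eq_bot_of_p_p' (H9.Op_p q A) (H9.cop_of_le (H9.cop_iff.2 h) (H9.Op_le_Fit A))
    have z := le_bot_iff.1 ((pf q _ ((H9.Op_p q B).to_le (inf_le_left.trans inf_le_left)) inf_le_right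
      (H9.normalizer_inf (nB q) nF)).trans o.le)
    have c : H9.Op q B ⊓ A ≤ Subgroup.centralizer (S : Set G) := H9.le_centralizer_iff'.2 (le_bot_iff.1 ((le_inf
      (H9.commutator_le_left' (nB q)) ((Subgroup.commutator_mono le_rfl hSF).trans (H9.commutator_le_right'
        (inf_le_right.trans (H9.le_normalizer_Fst A))))).trans z.le))
    refine le_bot_iff.1 ((le_inf le_rfl ((le_inf inf_le_right ?_).trans (H9.centralizer_Fst_le A))).trans z.le)
    rw [H9.Fst, H9.centralizer_sup]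
    refine le_inf (c.trans (H9.centralizer_anti lE)) (Subgroup.le_centralizer_iff.1 (H9.Fit_le_of_forall_Op fun r _ => ?_))
    rcases eq_or_ne q r with rfl | e
    · exact o.le.trans bot_le
    exact Subgroup.le_centralizer_iff.1 (k r _ inf_le_right (H9.cop_of_isPGroup_ne e ((H9.Op_p q B).to_le inf_le_left))
      (c.trans (H9.centralizer_anti inf_le_right)))
  have := Fact.mk hp
  rw [H9.Op_eq] at hx
  have lo : ∀ (r : ℕ) [Fact r.Prime], H9.Ores r (H9.Fst A) ≤ H9.Lay A ⊔ H9.Op' r (H9.Fit A) := fun r _ =>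
    H9.Ores_le_of_sup (H9.Op_p r A) (H9.normalizer_sup ((H9.Op_le r A).trans (H9.le_normalizer_Lay A))
      (H9.normalizer_Op' ((H9.Op_le r A).trans (H9.le_normalizer_Fit A)))) (by
        rw [sup_assoc, sup_comm (H9.Op' _ _), ← H9.Op_Fit A, H9.nilpotent_eq_Op_sup_Op' (H9.Fit_nil A)]; exact le_rfl)
  have co : ∀ (r : ℕ) [Fact r.Prime], H9.Lay A ⊔ H9.Op' r (H9.Fit A) ≤ Subgroup.centralizer (H9.Op r A : Set G) := fun r _ =>
    sup_le (H9.Lay_le_centralizer_Op r A) ((H9.sn_Fit A).Op'_le_Op'.trans (H9.le_centralizer_iff''.2 (H9.commutator_Op_Op' A)))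
  have z : ∀ (r : ℕ) [Fact r.Prime], H9.Op r A ≠ ⊥ → H9.Zc (H9.Op r A) ≤ S ∧
      H9.Fst A ≤ Subgroup.centralizer (H9.Zc (H9.Op r A) : Set G) ∧
      Subgroup.centralizer (H9.Zc (H9.Op r A) : Set G) ≤ A := fun r _ h0 => by
    have c : H9.Fst A ≤ Subgroup.centralizer (H9.Zc (H9.Op r A) : Set G) := by
      rw [H9.Fst, ← H9.nilpotent_eq_Op_sup_Op' (p := r) (H9.Fit_nil A), H9.Op_Fit, sup_left_comm]
      exact sup_le (Subgroup.le_centralizer_iff.1 inf_le_right) ((co r).trans (H9.centralizer_anti inf_le_left))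
    refine ⟨(le_inf (inf_le_left.trans ((H9.Op_le_Fit A).trans (H9.Fit_le_Fst A)))
      (Subgroup.le_centralizer_iff.1 (hSF.trans c))).trans hSC, c, (H9.centralizer_le_normalizer' _).trans ?_⟩
    refine ((hA.le_iff.1 (H9.normalizer_Zc (H9.le_normalizer_Op r A))).resolve_left fun e => ?_).le
    exact hA.1 (top_le_iff.1 (((IsSimpleGroup.eq_bot_or_eq_top_of_normal _ (Subgroup.normalizer_eq_top_iff.1 e)).resolve_left
      (H9.Zc_ne_bot (H9.Op_p r A) h0)).ge.trans (inf_le_left.trans (H9.Op_le r A))))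
  obtain ⟨z1, z2, z3⟩ := z p fun e => H9.cop_iff.1 ((H9.syl_Op_of_nilpotent (H9.Fit_nil A)).eq_bot_iff.1
    ((H9.Op_Fit A).trans e)) h
  have s1 : ∀ Q ≤ S, (Nat.card Q).Coprime p → Q ≤ Subgroup.centralizer (H9.Op p B : Set G) := fun Q a b =>
    Subgroup.le_centralizer_iff.1 <| H9.a_times_b ((H9.Op_p p A).to_le inf_le_left) b (H9.Op_p p B) ((a.trans hSF).trans z2)
      ((z1.trans hSB).trans (H9.le_normalizer_Op p B)) ((a.trans hSB).trans (H9.le_normalizer_Op p B))
      ((inf_le_inf_left _ z3).trans (H9.cop_le_centralizer (a.trans (nB p)) (H9.copA_of_p' ((H9.Op_p p B).to_le inf_le_left) b)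
        ((le_inf (H9.commutator_le_left' (a.trans (nB p))) ((Subgroup.commutator_mono le_rfl (a.trans hSF)).trans
          (H9.commutator_le_right' (inf_le_right.trans (H9.le_normalizer_Fst A))))).trans
          (pf p _ ((H9.Op_p p B).to_le (inf_le_left.trans inf_le_left)) inf_le_right (H9.normalizer_inf (nB p) nF)))
        (Subgroup.le_centralizer_iff.1 ((H9.le_Ores (a.trans hSF) b).trans ((lo p).trans (co p))))))
  have f : H9.Ores p (H9.Fst A) ≤ Subgroup.centralizer (H9.Op p B : Set G) := by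
    refine (lo p).trans (sup_le (H9.le_of_perfect_of_cop p (H9.Lay_perfect A) fun Q a => s1 Q (a.trans lE))
      (H9.le_of_forall_syl fun r _ => ?_))
    obtain ⟨R, hR⟩ := H9.exists_syl r (H9.Op' p (H9.Fit A))
    refine ⟨R, hR, ?_⟩
    rcases eq_or_ne r p with rfl | e
    · exact (hR.eq_bot_iff.2 (H9.Op'_cop _ _)).le.trans bot_le
    refine (((H9.sn_of_nilpotent (H9.Fit_nil A) (hR.le.trans (H9.Op'_le _ _))).trans (H9.sn_Fit A)).le_Op hR.isP).trans ?_
    by_cases h0 : H9.Op r A = ⊥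
    · exact h0.le.trans bot_le
    obtain ⟨y1, -, y3⟩ := z r h0
    exact Subgroup.le_centralizer_iff.1 (k r _ ((Subgroup.le_centralizer_iff.1 (s1 _ y1 (H9.cop_of_isPGroup_ne e
      ((H9.Op_p r A).to_le inf_le_left)))).trans y3) (H9.cop_of_isPGroup_ne e.symm (H9.Op_p p B))
      (Subgroup.le_centralizer_iff.1 (s1 _ inf_le_right (H9.cop_of_isPGroup_ne e ((H9.Op_p r A).to_le inf_le_left)))))
  rw [H9.Ores_eq] at hy
  refine f (H9.Ores_le_iff.2 (fun Q a b => ?_) hy : y ∈ (H9.Ores p (H9.Fst A)).comap A.subtype) x hx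
  exact Subgroup.map_le_iff_le_comap.1 (H9.le_Ores (H9.Fst_eq A ▸ Subgroup.map_mono a) (H9.cop_map _ b))

end Cfsg.Agent.S1247
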