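import Cfsg.Statements.S1253
import Cfsg.Agent.H4.Inv2

set_option autoImplicit false
open Cfsg

namespace Cfsg.Agent.S1253

open H4 H1 MonoidAlgebra
open scoped Pointwise


/-- Let z be an isolated involution of the finite group G with centralizer C, p an odd prime and P a Sylow p-subgroup of G normalized by z. Then P ∩ C has p-power-free index in C (it is a Sylow p-subgroup of C), and |P : C_P(z)| equals the number of elements x ∈ P with z x z⁻¹ = x⁻¹. -/
theorem result {G : Type*} [Group G] [Finite G] (z : G) (hz : Cfsg.IsIsolatedInvolution z) {p : ℕ} [Fact p.Prime] (hp : p ≠ 2) (P : Sylow p G) (hzP : z ∈ Subgroup.normalizer ((P : Subgroup G) : Set G)) : ¬ p ∣ ((P : Subgroup G) ⊓ Subgroup.centralizer ({z} : Set G)).relIndex (Subgroup.centralizer ({z} : Set G)) ∧ ((P : Subgroup G) ⊓ Subgroup.centralizer ({z} : Set G)).relIndex (P : Subgroup G) = Nat.card {x : G // x ∈ P ∧ z * x * z⁻¹ = x⁻¹} := by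
  refine ⟨(II.sylow_inf hz (isSylowIn_top P) hzP).not_dvd, ?_⟩
  have h2 := II.mul_self hz
  have h3 : ∀ x ∈ (P : Subgroup G), x * z * x⁻¹ * z ∈ (P : Subgroup G) := fun x hx => by
    have := mul_mem hx ((Subgroup.mem_normalizer_iff.1 hzP _).1 (inv_mem hx))
    rwa [inv_of_two hz.1, ← mul_assoc, ← mul_assoc] at this
  refine Nat.card_congr (Equiv.ofBijective (Quotient.lift (fun x : (P : Subgroup G) =>
    (⟨x * z * (x : G)⁻¹ * z, h3 x x.2, inv_conj_mul h2 x⟩ : {x : G // x ∈ P ∧ z * x * z⁻¹ = x⁻¹})) fun a b h =>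
      Subtype.ext (comm_eq_iff.2 (QuotientGroup.leftRel_apply.1 h).2)) ⟨fun a b => ?_, fun ⟨k, h4, h5⟩ => ?_⟩)
  · induction a using Quotient.inductionOn
    induction b using Quotient.inductionOn
    rename_i a b
    exact fun h => QuotientGroup.eq.2 ⟨(a⁻¹ * b).2, comm_eq_iff.1 (congrArg Subtype.val h)⟩
  · obtain ⟨n, hn⟩ := isPElt_of_mem Fact.out P.isPGroup' h4
    obtain ⟨j, hj⟩ := exists_eq_comm h2 (fun h => hp ((Nat.prime_dvd_prime_iff_eq Nat.prime_two Fact.out).1
      (Nat.prime_two.dvd_of_dvd_pow (hn ▸ h))).symm) h5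
    exact ⟨QuotientGroup.mk ⟨k ^ j, pow_mem h4 j⟩, Subtype.ext hj⟩

end Cfsg.Agent.S1253
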