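import Cfsg.Statements.S1254
import Cfsg.Agent.H1.DI

set_option autoImplicit false
open Cfsg

namespace Cfsg.Agent.S1254

open H1

/-- Let X be a finite group whose Sylow 2-subgroup S is dihedral (of order at least 4). Then X has a normal 2-complement if and only if, for every Klein four-subgroup U ≤ S, the normalizer N_X(U) is generated by C_X(U) and N_S(U). -/
theorem result {X : Type*} [Group X] [Finite X] (S : Sylow 2 X) (m : ℕ) (hm : 2 ≤ m) (eS : (S : Subgroup X) ≃* DihedralGroup m) : Cfsg.HasNormalPComplement 2 X ↔ ∀ U : Subgroup X, U ≤ S → IsKleinFour U → Subgroup.normalizer (U : Set X) = Subgroup.centralizer (U : Set X) ⊔ ((S : Subgroup X) ⊓ Subgroup.normalizer (U : Set X)) := by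
  constructor
  · intro h U hU _
    refine le_antisymm (fun g hg => ?_) (sup_le (Subgroup.centralizer_le_normalizer _) inf_le_right)
    obtain ⟨s, hs, e⟩ := fusion_of_hasNPC_sub S h g
    have e' : ∀ x ∈ U, s * x * s⁻¹ = g * x * g⁻¹ := fun x hx =>
      e x (hU hx) (hU (conj_mem_of_mem_normalizer hg hx))
    have h1 : s ∈ Subgroup.normalizer (U : Set X) := mem_normalizer_iff_conj_mem.2 fun x hx =>
      e' x hx ▸ conj_mem_of_mem_normalizer hg hx
    have h2 : s⁻¹ * g ∈ Subgroup.centralizer (U : Set X) := mem_centralizer_iff_conj.2 fun x hx => by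
      calc _ = s⁻¹ * (g * x * g⁻¹) * s := by group
        _ = x := by rw [← e' x hx]; group
    have := mul_mem (Subgroup.mem_sup_right ⟨hs, h1⟩ : s ∈ Subgroup.centralizer (U : Set X) ⊔
      ((S : Subgroup X) ⊓ Subgroup.normalizer (U : Set X))) (Subgroup.mem_sup_left h2)
    simpa using this
  · intro h
    refine hasNPC_of_not_od S fun R hR o => ?_
    have k : IsKleinFour R := by
      rcases di_of_dihedral S.isPGroup' hm eS with k | ⟨n, a, b, d⟩
      · exact (klein_sub k hR).elim (fun c => absurd o (not_od_of_isCyclic (S.isPGroup'.to_le hR) c))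
          fun e => e ▸ k
      · exact d.od_klein hR o
    exact not_od_of_eq (S.isPGroup'.to_le inf_le_left) inf_le_right (h R hR k) o

end Cfsg.Agent.S1254
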