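import Cfsg.Statements.S1255
import Cfsg.Agent.H1.DI

set_option autoImplicit false
open Cfsg

namespace Cfsg.Agent.S1255

open H1

/-- Let X be a finite group whose Sylow 2-subgroup S is dihedral of order 2m ≥ 4. Then X has no subgroup of index 2 and no isolated involution if and only if either all involutions of X are conjugate, or for every Klein four-subgroup U ≤ S the index |N_X(U) : C_X(U)| equals 3 when |S| = 4 and equals 6 when |S| > 4. -/
theorem result {X : Type*} [Group X] [Finite X] (S : Sylow 2 X) (m : ℕ) (hm : 2 ≤ m) (eS : (S : Subgroup X) ≃* DihedralGroup m) : ((∀ H : Subgroup X, H.index ≠ 2) ∧ (∀ z : X, ¬ Cfsg.IsIsolatedInvolution z)) ↔ ((∀ a b : X, orderOf a = 2 → orderOf b = 2 → IsConj a b) ∨ (∀ U : Subgroup X, U ≤ S → IsKleinFour U → (Subgroup.centralizer (U : Set X)).relIndex (Subgroup.normalizer (U : Set X)) = (if Nat.card S = 4 then 3 else 6))) := by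
  have key : ∀ T : Subgroup X, IsKleinFour T →
      (∀ K : Subgroup X, (∀ x, orderOf x = 2 → x ∈ K) → (S : Subgroup X) ≤ K) →
      (∀ a b : X, orderOf a = 2 → orderOf b = 2 → IsConj a b) →
      (∀ H : Subgroup X, H.index ≠ 2) ∧ (∀ z : X, ¬ Cfsg.IsIsolatedInvolution z) := fun T h1 h2 h3 =>
    ⟨(of_all_conj S h1 h2 h3).1, fun z hz => (of_all_conj S h1 h2 h3).2 z hz.1 hz.2⟩
  rcases di_of_dihedral S.isPGroup' hm eS with k | ⟨n, a, b, d⟩
  · refine ⟨fun h => Or.inl (klein_sylow_conj S k (klein_sylow_od S k h.1)), fun h => key _ k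
      (fun K hK x hx => ?_) (h.elim id fun h => klein_sylow_conj S k ((klein_od_iff k).2 ?_))⟩
    · by_cases e : x = 1
      · rw [e]; exact one_mem _
      · exact hK x (two_of (klein_sq k hx) e)
    · rw [h S le_rfl k, if_pos k.card_four]
  · refine ⟨fun h => Or.inl (d.all_conj (d.od_of_no_index h.1).1 (d.od_of_no_index h.1).2),
      fun h => key _ d.klein1 (fun K hK => d.le_of_b_ab (hK _ (d.out_two d.hb d.nb))
        (hK _ (d.out_two d.ab_mem d.ab_out))) (h.elim id fun h => d.all_conj
      ((klein_od_iff d.klein1).2 ?_) ((klein_od_iff d.klein2).2 ?_))⟩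
    · rw [h _ (d.sup_le' d.hb _) d.klein1, if_neg d.card_gt.ne']; norm_num
    · rw [h _ (d.sup_le' d.ab_mem _) d.klein2, if_neg d.card_gt.ne']; norm_num

end Cfsg.Agent.S1255
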