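import Cfsg.Statements.S1256
import Cfsg.Agent.H1.DI

set_option autoImplicit false
open Cfsg

namespace Cfsg.Agent.S1256

open H1

/-- Let X be a finite group whose Sylow 2-subgroup S is dihedral of order 2m ≥ 4. If |S| = 4, any two Klein four-subgroups of X are conjugate; if |S| > 4, there are Klein four-subgroups U₁, U₂ of X that are not conjugate, and every Klein four-subgroup of X is conjugate to U₁ or to U₂. -/
theorem result {X : Type*} [Group X] [Finite X] (S : Sylow 2 X) (m : ℕ) (hm : 2 ≤ m) (eS : (S : Subgroup X) ≃* DihedralGroup m) : (Nat.card S = 4 → ∀ U V : Subgroup X, IsKleinFour U → IsKleinFour V → (∃ x : X, U.map (MulAut.conj x).toMonoidHom = V)) ∧ (4 < Nat.card S → ∃ U₁ U₂ : Subgroup X, IsKleinFour U₁ ∧ IsKleinFour U₂ ∧ ¬ (∃ x : X, U₁.map (MulAut.conj x).toMonoidHom = U₂) ∧ ∀ V : Subgroup X, IsKleinFour V → (∃ x : X, V.map (MulAut.conj x).toMonoidHom = U₁) ∨ (∃ x : X, V.map (MulAut.conj x).toMonoidHom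 = U₂)) := by
  refine ⟨fun h U V hU hV => ?_, fun h => ?_⟩
  · obtain ⟨g, hg⟩ := H2.sylow_exists_cj_le S (klein_pg hU)
    obtain ⟨k, hk⟩ := H2.sylow_exists_cj_le S (klein_pg hV)
    have e1 := eq_of_le_of_card_eq hg (by rw [H2.card_cj, hU.card_four]; exact h.symm)
    have e2 := eq_of_le_of_card_eq hk (by rw [H2.card_cj, hV.card_four]; exact h.symm)
    exact ⟨k⁻¹ * g, by change H2.cj _ _ = _; rw [H2.cj_mul, e1, ← e2, H2.cj_inv_cj]⟩
  obtain ⟨n, a, b, d⟩ := (di_of_dihedral S.isPGroup' hm eS).resolve_left fun k =>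
    h.ne' k.card_four
  refine ⟨_, _, d.klein1, d.klein2, fun ⟨x, hx⟩ => ?_, fun V hV => ?_⟩
  · change H2.cj _ _ = _ at hx
    obtain ⟨s, hs, e⟩ := d.klein_fusion (g := x) (d.sup_le' d.hb _) (hx ▸ d.sup_le' d.ab_mem _)
      d.klein1
    exact d.ab_notMem (d.cj_le_M (Subgroup.zpowers_le.2 d.z_mem_sq) d.hb hs (by
      rw [e, hx]; exact Subgroup.mem_sup_right (Subgroup.mem_zpowers _)))
  · obtain ⟨g, hg⟩ := H2.sylow_exists_cj_le S (klein_pg hV)
    obtain ⟨c, -, e | e⟩ := d.klein_cj hg (klein_cj hV g)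
    · exact Or.inl ⟨c⁻¹ * g, by change H2.cj _ _ = _; rw [H2.cj_mul, ← e, H2.cj_inv_cj]⟩
    · exact Or.inr ⟨c⁻¹ * g, by change H2.cj _ _ = _; rw [H2.cj_mul, ← e, H2.cj_inv_cj]⟩

end Cfsg.Agent.S1256
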