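import Cfsg.Statements.S1258
import Cfsg.Agent.H9.Comp

set_option autoImplicit false
open Cfsg

namespace Cfsg.Agent.S1258

/-- If the central quotient of a finite group X is non-abelian simple, then X = X' Z(X) and the commutator subgroup X' is quasisimple. -/
theorem result {X : Type*} [Group X] [Finite X] (hs : IsSimpleGroup (X ⧸ Subgroup.center X)) (hna : ¬ IsMulCommutative (X ⧸ Subgroup.center X)) : commutator X ⊔ Subgroup.center X = ⊤ ∧ Cfsg.IsQuasisimple ↥(commutator X) := by
  open H9 Subgroup in open scoped commutatorElement in
  have h1 : commutator X ⊔ center X = ⊤ := by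
    rcases (Normal.map (inferInstance : (commutator X).Normal) (QuotientGroup.mk' (center X))
      (QuotientGroup.mk'_surjective _)).eq_bot_or_eq_top with h | h
    · rw [Subgroup.map_eq_bot_iff, QuotientGroup.ker_mk'] at h
      exact absurd (Normal.quotient_commutative_iff_commutator_le.2 h) hna
    · have h3 := le_sup_ker_of_map_le (QuotientGroup.mk' (center X)) (le_top : commutator X ≤ ⊤)
        (h ▸ le_top)
      rw [QuotientGroup.ker_mk', inf_top_eq] at h3
      exact h3.symm
  refine ⟨h1, qs_iff.1 ?_⟩
  have h4 := commutator_sup_central (N := commutator X) (Z := center X) (center_le_centralizer _)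
  rw [h1] at h4
  refine QS.of_map (QuotientGroup.mk' (center X)) ?_ h4.symm ?_
  · have h5 : (commutator X).map (QuotientGroup.mk' (center X)) = ⊤ := by
      have := congrArg (map (QuotientGroup.mk' (center X))) h1
      rwa [Subgroup.map_sup, QuotientGroup.map_mk'_self, sup_bot_eq,
        map_top_of_surjective _ (QuotientGroup.mk'_surjective _)] at this
    rw [h5]
    refine ⟨?_, top_ne_bot, fun N _ hn => ?_⟩
    · have := congrArg (map (QuotientGroup.mk' (center X))) h4
      rw [map_commutator, map_top_of_surjective _ (QuotientGroup.mk'_surjective _), map_commutator, h5] at this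
      have h6 := h5
      rw [_root_.commutator_def, map_commutator, map_top_of_surjective _ (QuotientGroup.mk'_surjective _)] at h6
      exact h6
    · have : N.Normal := normalizer_eq_top_iff.1 (top_le_iff.1 hn)
      rcases this.eq_bot_or_eq_top with h | h
      · right; rw [h]; exact bot_le
      · exact Or.inl h
  · rw [QuotientGroup.ker_mk']; exact inf_le_left.trans (center_le_centralizer _)

end Cfsg.Agent.S1258
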