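import Cfsg.Statements.S1260
import Cfsg.Agent.H9.Comp

set_option autoImplicit false
open Cfsg

namespace Cfsg.Agent.S1260

/-- Let H be a subnormal subgroup of the finite group G and K a subgroup of H. Then K is a component of H if and only if K, viewed in G, is a component of G. -/
theorem result {G : Type*} [Group G] [Finite G] (H : Subgroup G) (hH : H.IsSubnormal) (K : Subgroup ↥H) : Cfsg.IsComponent K ↔ Cfsg.IsComponent (K.map H.subtype) := by
  open H9 Subgroup in open scoped commutatorElement in
  rw [← comp_map_subtype_iff, ← comp_top_iff]
  exact ⟨fun h => h.trans (sn_top_iff.2 hH), fun h => h.mono (map_subtype_le K) le_top⟩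

end Cfsg.Agent.S1260
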