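import Cfsg.Statements.S1263
import Cfsg.Agent.H9.Comp

set_option autoImplicit false
open Cfsg

namespace Cfsg.Agent.S1263

section
open H9 Subgroup
open scoped commutatorElement
theorem aux {G : Type*} [Group G] [Finite G] (S : Set (Subgroup G)) (hS : S.Finite)
    (h : ∀ K ∈ S, Comp K ⊤) : sSup S ⊓ centralizer ((sSup S : Subgroup G) : Set G) ≤
      ⨆ L : {K : Subgroup G // IsComponent K}, (L : Subgroup G) ⊓ centralizer ((L : Subgroup G) : Set G) := by
  induction S, hS using Set.Finite.induction_on with
  | empty => simp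
  | @insert L S hL _ ih =>
    have hLc := h L (Set.mem_insert _ _)
    have hc : sSup S ≤ centralizer (L : Set G) := sSup_le fun K hK =>
      commutator_eq_bot_iff_le_centralizer.1 (((h K (Set.mem_insert_of_mem _ hK)).eq_or_comm hLc).resolve_left
        (by rintro rfl; exact hL hK))
    rw [sSup_insert]
    rintro z ⟨hz, hz'⟩
    obtain ⟨l, hl, y, hy, rfl⟩ := (mem_sup_of_le_normalizer' (hc.trans (centralizer_le_normalizer' L))).1 hz
    have h1 : l ∈ centralizer (L : Set G) :=
      (Subgroup.mul_mem_cancel_right _ (hc hy)).1 (centralizer_anti le_sup_left hz')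
    have h2 : y ∈ centralizer ((sSup S : Subgroup G) : Set G) :=
      (Subgroup.mul_mem_cancel_left _ (le_centralizer_iff.1 hc hl)).1 (centralizer_anti le_sup_right hz')
    exact mul_mem (le_iSup (fun L : {K : Subgroup G // IsComponent K} =>
      (L : Subgroup G) ⊓ centralizer ((L : Subgroup G) : Set G)) ⟨L, comp_top_iff.1 hLc⟩ ⟨hl, h1⟩)
      (ih (fun K hK => h K (Set.mem_insert_of_mem _ hK)) ⟨hy, h2⟩)
end

/-- For a finite group G, Z(E(G)) is the subgroup generated by the centres Z(L) of the components L of G (all viewed as subgroups of G). -/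
theorem result {G : Type*} [Group G] [Finite G] : (Subgroup.center ↥(Cfsg.layer G)).map (Cfsg.layer G).subtype = ⨆ L : {K : Subgroup G // Cfsg.IsComponent K}, (Subgroup.center ↥(L : Subgroup G)).map (L : Subgroup G).subtype := by
  open H9 Subgroup in open scoped commutatorElement in
  simp only [map_center_subtype]
  refine le_antisymm (aux _ (Set.toFinite _) fun K hK => comp_top_iff.2 hK) (iSup_le ?_)
  rintro ⟨L, hL⟩
  have hL' := comp_top_iff.2 hL
  rw [← Lay_top]
  refine le_inf (inf_le_left.trans hL'.le_Lay) (le_centralizer_iff.1 (Lay_le_iff.2 fun K hK => ?_))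
  rcases hK.eq_or_comm hL' with rfl | h
  · exact le_centralizer_iff.1 inf_le_right
  · exact (commutator_eq_bot_iff_le_centralizer.1 h).trans (centralizer_anti inf_le_left)

end Cfsg.Agent.S1263
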