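import Cfsg.Statements.S1264
import Cfsg.Agent.H9.Comp

set_option autoImplicit false
open Cfsg

namespace Cfsg.Agent.S1264

/-- Let G be finite, C = C_G(F(G)) the centralizer of the Fitting subgroup, and N a solvable subgroup of C normalized by C. Then N ≤ Z(F(G)). -/
theorem result {G : Type*} [Group G] [Finite G] (N : Subgroup G) (hN : N ≤ Subgroup.centralizer (Cfsg.fittingSubgroup G : Set G)) (hnorm : Subgroup.centralizer (Cfsg.fittingSubgroup G : Set G) ≤ Subgroup.normalizer (N : Set G)) (hsolv : Group.IsSolvable ↥N) : N ≤ (Subgroup.center ↥(Cfsg.fittingSubgroup G)).map (Cfsg.fittingSubgroup G).subtype := by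
  open H9 Subgroup in open scoped commutatorElement in
  rw [map_center_subtype]
  refine le_inf ?_ hN
  set C := centralizer (fittingSubgroup G : Set G) with hC
  have h1 : N ≤ Sol C := le_Sol hN hnorm hsolv
  have h2 : SN (Sol C) ⊤ := (sn_Sol C).trans (SN.of_normal_top C)
  have h3 := centralizer_Fit_le_of_solvable (Sol_sol C)
  have h4 := h2.Fit_le_Fit
  rw [Fit_top] at h4
  exact h1.trans ((le_inf le_rfl ((Sol_le C).trans (centralizer_anti h4))).trans (h3.trans h4))

end Cfsg.Agent.S1264
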