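import Cfsg.Statements.S1265
import Cfsg.Agent.H9.Comp

set_option autoImplicit false
open Cfsg

namespace Cfsg.Agent.S1265

/-- For a finite group G, the centralizer of the generalized Fitting subgroup F*(G) is contained in F*(G). -/
theorem result {G : Type*} [Group G] [Finite G] : Subgroup.centralizer (Cfsg.generalizedFittingSubgroup G : Set G) ≤ Cfsg.generalizedFittingSubgroup G := by
  open H9 Subgroup in open scoped commutatorElement in
  have := centralizer_Fst_le (⊤ : Subgroup G)
  rwa [Fst_top, top_inf_eq] at this

end Cfsg.Agent.S1265
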