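import Cfsg.Statements.S1267
import Cfsg.Agent.H9.PCon

set_option autoImplicit false
open Cfsg

namespace Cfsg.Agent.S1267

/-- Let G be finite and P ≤ O_p(G). Then E(N_G(P)) = E(G). -/
theorem result {G : Type*} [Group G] [Finite G] (p : ℕ) [Fact p.Prime] (P : Subgroup G) (hP : P ≤ Cfsg.pCore p G) : (Cfsg.layer ↥(Subgroup.normalizer ((P : Subgroup G) : Set G))).map (Subgroup.normalizer ((P : Subgroup G) : Set G)).subtype = Cfsg.layer G := by
  open H9 Subgroup in open scoped commutatorElement in
  rw [Lay_eq, ← Lay_top]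
  rw [← Op_top] at hP
  have hP' : IsPGroup p P := (Op_p p ⊤).to_le hP
  have hE : Lay ⊤ ≤ normalizer (P : Set G) :=
    (Lay_le_centralizer_Op p ⊤).trans ((centralizer_anti hP).trans (centralizer_le_normalizer' P))
  refine le_antisymm (Lay_le_iff.2 fun K hK => ?_) (Lay_le_Lay_of_le hE le_top)
  have h1 : K ≤ centralizer (Op p (⊤ : Subgroup G) : Set G) :=
    hK.le_Lay.trans ((Lay_le_PLay_sup _).trans (OpE_le_centralizer_Op_of_local hP' le_normalizer le_top
      (inf_le_right.trans (centralizer_le_normalizer' P)) le_rfl))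
  rcases hK.le_or_comm (SN.of_normal hE (le_top.trans (le_normalizer_Lay ⊤))) with h | h
  · exact h
  · exfalso
    have h2 : Op' p (Fit ⊤) ≤ normalizer (P : Set G) :=
      ((sn_Fit ⊤).Op'_le_Op'.trans (le_centralizer_iff.1 (commutator_eq_bot_iff_le_centralizer.1
        (commutator_Op_Op' (p := p) (⊤ : Subgroup G))))).trans
        ((centralizer_anti hP).trans (centralizer_le_normalizer' P))
    have h3 := hK.comm_of_sn_solvable (SN.of_normal h2 (le_top.trans (normalizer_Op' (le_normalizer_Fit ⊤))))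
      (isSolvable_of_le (isSolvable_of_le (Sol_sol ⊤) (Fit_le_Sol ⊤)) (Op'_le _ _))
    have h4 : K ≤ centralizer (Fst (⊤ : Subgroup G) : Set G) := by
      rw [Fst, centralizer_sup, ← nilpotent_eq_Op_sup_Op' (p := p) (Fit_nil ⊤), centralizer_sup, Op_Fit]
      exact le_inf (commutator_eq_bot_iff_le_centralizer.1 h)
        (le_inf h1 (commutator_eq_bot_iff_le_centralizer.1 h3))
    exact hK.qs.not_le_centralizer (h4.trans (centralizer_anti ((le_inf le_top h4).trans (centralizer_Fst_le ⊤))))

end Cfsg.Agent.S1267
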