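import Cfsg.Statements.S1270
import Cfsg.Agent.H9.LB2

set_option autoImplicit false
open Cfsg

namespace Cfsg.Agent.S1270

/-- Let G be finite with O_{p'}(G) = 1, x of order p, and L a component with ⁅L, ⟨x⟩⁆ ≠ L. Then ⁅L, O_{p'}(C_G(x))⁆ = 1. -/
theorem result {G : Type*} [Group G] [Finite G] (p : ℕ) [Fact p.Prime] (hO : Cfsg.pPrimeCore p G = ⊥) (x : G) (hx : orderOf x = p) (L : Subgroup G) (hL : Cfsg.IsComponent L) (hne : ⁅L, Subgroup.zpowers x⁆ ≠ L) : ⁅L, Cfsg.centralizerPPrimeCore p x⁆ = ⊥ := by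
  open H9 Subgroup in open scoped commutatorElement in
  have hc := comp_top_iff.2 hL
  rw [cpc_eq, ← top_inf_eq (centralizer {x}), ← le_centralizer_iff', le_centralizer_iff]
  refine hc.Op'_le_centralizer (Op'_top (G := G) p ▸ hO) (le_normalizer_of_normal (mem_top x))
    (isPGroup_zpowers_of_orderOf hx) (by rw [← hx, pow_orderOf_eq_one]; exact one_mem _) fun h => ?_
  exact le_centralizer_iff.1 (le_centralizer_iff'.2 ((hc.le_commutator_or le_top).resolve_left fun e =>
    hne (le_antisymm (commutator_le_left' (zpowers_le.2 h)) e))) (mem_zpowers x)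

end Cfsg.Agent.S1270
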