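import Cfsg.Statements.S1271
import Cfsg.Agent.H9.LB2

set_option autoImplicit false
open Cfsg

namespace Cfsg.Agent.S1271

/-- Let G be finite with O_{p'}(G) = 1. Suppose that for every component L of G and every subgroup H ≥ L in which L is normal, the quotient H / C_H(L) is balanced for the prime p. Then G is balanced for p. -/
theorem result {G : Type*} [Group G] [Finite G] (p : ℕ) [Fact p.Prime] (hO : Cfsg.pPrimeCore p G = ⊥) (h : ∀ L : Subgroup G, Cfsg.IsComponent L → ∀ H : Subgroup G, L ≤ H → (L.subgroupOf H).Normal → ∀ [((Subgroup.centralizer (L : Set G)).subgroupOf H).Normal], Cfsg.IsBalancedFor p (↥H ⧸ (Subgroup.centralizer (L : Set G)).subgroupOf H)) : Cfsg.IsBalancedFor p G := by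
  open H9 Subgroup in open scoped commutatorElement in
  intro x hx
  have h0 := Op'_top (G := G) p ▸ hO
  have px := isPGroup_zpowers_of_orderOf hx
  have nx : x ∈ normalizer ((⊤ : Subgroup G) : Set G) := le_normalizer_of_normal (mem_top x)
  rw [cpc_eq, ← top_inf_eq (centralizer {x})]
  refine (eq_bot_of_centralizes h0 le_top (Op'_cop p _) (centralizer_zpowers x ▸ Op'_centralizer_le_centralizer_Op h0 px
    le_normalizer_of_normal) fun L hL => ?_).le.trans bot_le
  have xp : x ^ p = 1 := hx ▸ pow_orderOf_eq_one x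
  by_cases h1 : x ∈ normalizer (L : Set G) → x ∈ centralizer (L : Set G)
  · exact hL.Op'_le_centralizer h0 nx px (xp ▸ one_mem _) h1
  push Not at h1
  have DN := centralizer_zpowers x ▸ hL.Op'_centralizer_le h0 px le_normalizer_of_normal
  obtain ⟨H, hH⟩ : ∃ H, H = L ⊔ (zpowers x ⊔ Op' p (⊤ ⊓ centralizer {x})) := ⟨_, rfl⟩
  have HN : H ≤ normalizer (L : Set G) := hH ▸ sup_le le_normalizer (sup_le (zpowers_le.2 h1.1) DN)
  have LH : L ≤ H := hH ▸ le_sup_left
  have xH : x ∈ H := hH ▸ mem_sup_right (mem_sup_left (mem_zpowers x))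
  have DH : Op' p (⊤ ⊓ centralizer {x}) ≤ H := hH ▸ le_sup_right.trans le_sup_right
  have := (normal_subgroupOf_iff_le_normalizer_inf.2 (normalizer_inf (normalizer_centralizer HN) le_normalizer) :
    ((centralizer (L : Set G)).subgroupOf H).Normal)
  obtain ⟨f, hf⟩ : ∃ f, f = QuotientGroup.mk' ((centralizer (L : Set G)).subgroupOf H) := ⟨_, rfl⟩
  have hk : kr f = centralizer (L : Set G) ⊓ H := by rw [hf, kr_mk', subgroupOf_map_subtype]
  have a1 := hL.loc_core h0 f (hk ▸ inf_le_left) (a := ⟨x, xH⟩) nx h1.1 px (Y := H) (hH.le.trans (sup_le_sup_left (le_inf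
    (sup_le (zpowers_le.2 h1.1) DN) (le_inf le_normalizer_of_normal (sup_le (zpowers_le.2 (mem_centralizer_singleton_iff.2
      rfl)) ((Op'_le p _).trans inf_le_right)))) _)) le_rfl DH
  rw [im_self f (hf ▸ QuotientGroup.mk'_surjective _), top_inf_eq (centralizer {f _}), ← cpc_eq] at a1
  have a2 := a1.trans (h L (comp_top_iff.1 hL) H LH ((normal_subgroupOf_iff_le_normalizer LH).2 HN) _
    (orderOf_eq_prime (by rw [← map_pow, show (⟨x, xH⟩ : H) ^ p = 1 from Subtype.ext xp, map_one])
      fun e => h1.2 (hk ▸ (coe_mem_kr f).2 e : x ∈ _ ⊓ H).1))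
  have a3 : Comp (im f L) ⊤ := ⟨im_self f (hf ▸ QuotientGroup.mk'_surjective _) ▸
    (SN.of_normal (im_le_im_self f L) (im_le_normalizer f HN) : SN (im f L) (im f H)),
    hL.qs.im f LH fun e => hL.qs.not_le_centralizer (e.trans (hk ▸ inf_le_left))⟩
  have a4 := (a3.le_or_comm (sn_Op' p ⊤)).resolve_left fun e => by
    obtain ⟨P, hP⟩ := exists_syl (p := p) L
    refine hL.qs.not_central_syl (hL.not_cop h0) hP (le_trans ?_ (hk ▸ inf_le_left : kr f ≤ _))
    rw [← im_eq_bot_iff f (hP.le.trans LH)]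
    exact eq_bot_of_p_p' (isPGroup_im f hP.isP) (cop_of_le (Op'_cop p ⊤) ((im_mono f hP.le).trans e))
  rw [← Op'_top] at a2
  refine le_centralizer_of_cover hL.qs.perfect le_normalizer le_sup_left DN (le_trans ?_ (hk ▸ inf_le_left : kr f ≤ _))
  rw [← im_le_centralizer_iff f LH DH]
  exact (le_centralizer_iff'.2 a4).trans (centralizer_anti a2)

end Cfsg.Agent.S1271
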