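import Cfsg.Statements.S1272
import Cfsg.Agent.H9.PCon

set_option autoImplicit false
open Cfsg

namespace Cfsg.Agent.S1272

/-- Let X be finite and Q = X / O_{p'}(X). For every component Kbar of Q there is a unique p-component K of X whose image in Q is Kbar; and the image of the p-layer L_{p'}(X) in Q is E(Q). -/
theorem result {X : Type*} [Group X] [Finite X] (p : ℕ) [Fact p.Prime] : (∀ Kbar : Subgroup (X ⧸ Cfsg.pPrimeCore p X), Cfsg.IsComponent Kbar → ∃! K : Subgroup X, Cfsg.IsPComponent p K ∧ K.map (QuotientGroup.mk' (Cfsg.pPrimeCore p X)) = Kbar) ∧ (Cfsg.pLayer p X).map (QuotientGroup.mk' (Cfsg.pPrimeCore p X)) = Cfsg.layer (X ⧸ Cfsg.pPrimeCore p X) := by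
  open H9 Subgroup in open scoped commutatorElement in
  set f := QuotientGroup.mk' (pPrimeCore p X) with hf
  have htop : (⊤ : Subgroup X).map f = ⊤ := map_top_of_surjective _ (QuotientGroup.mk'_surjective _)
  have hker : f.ker = Op' p ⊤ := by rw [QuotientGroup.ker_mk', Op'_top]
  have hk : (Nat.card (f.ker ⊓ ⊤ : Subgroup X)).Coprime p := by
    rw [inf_top_eq, hker]; exact Op'_cop p ⊤
  have hO : Op' p (⊤ : Subgroup (X ⧸ pPrimeCore p X)) = ⊥ := by rw [Op'_top, pPrimeCore_quotient]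
  refine ⟨fun Kbar hK => ?_, ?_⟩
  · obtain ⟨L, hL, rfl⟩ := PComp.exists_lift f (H := ⊤)
      (htop.symm ▸ (pcomp_iff_comp hO).2 (comp_top_iff.2 hK)) hk
    refine ⟨L, ⟨pcomp_top_iff.1 hL, rfl⟩, fun K ⟨h1, h2⟩ => (pcomp_top_iff.2 h1).eq_of_le_sup hL ?_⟩
    rw [← hker, ← comap_map_eq, ← h2]
    exact le_comap_map _ _
  · rw [← PLay_top, map_PLay_of_ker f hk, htop, PLay_eq_Lay hO, Lay_top]

end Cfsg.Agent.S1272
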