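import Cfsg.Statements.S1273
import Cfsg.Agent.H9.PCon

set_option autoImplicit false
open Cfsg

namespace Cfsg.Agent.S1273

/-- Let K be a p-component of the finite group X and N a normal subgroup of K whose index in K is prime to p. Then N = K. -/
theorem result {X : Type*} [Group X] [Finite X] (p : ℕ) [Fact p.Prime] (K : Subgroup X) (hK : Cfsg.IsPComponent p K) (N : Subgroup ↥K) [N.Normal] (hidx : (N.index).Coprime p) : N = ⊤ := by
  open H9 Subgroup in open scoped commutatorElement in
  have hK' := pcomp_top_iff.2 hK
  obtain ⟨P, hP⟩ := exists_syl p K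
  have hsn : SN (N.map K.subtype) K := SN.of_normal (map_subtype_le _) (map_subtype_le_normalizer N)
  have h := hK'.pqs.eq_of_syl_le hsn hP (hsn.le_of_not_dvd (by
    rw [relIndex, subgroupOf_map_subtype']; exact cop_iff.1 hidx) hP.isP hP.le)
  apply map_injective K.subtype_injective
  rw [h, map_top_subtype]

end Cfsg.Agent.S1273
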