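import Cfsg.Statements.S1275
import Cfsg.Agent.H9.PCon

set_option autoImplicit false
open Cfsg

namespace Cfsg.Agent.S1275

/-- For a 2-component K of a finite group X, the quotient of K by its core O(K) is quasisimple. -/
theorem result {X : Type*} [Group X] [Finite X] (K : Subgroup X) (hK : Cfsg.IsPComponent 2 K) : Cfsg.IsQuasisimple (↥K ⧸ Cfsg.oddCore ↥K) := by
  open H9 Subgroup in open scoped commutatorElement in
  have hK' := pcomp_top_iff.2 hK
  have h := hK'.pqs.qs_im (QuotientGroup.mk' (pPrimeCore 2 K)) le_rfl (by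
    rw [kr_mk'_pPrimeCore, inf_eq_left.2 (Op'_le 2 K)])
  rw [im_self _ (QuotientGroup.mk'_surjective _)] at h
  exact qs_top_iff.1 h

end Cfsg.Agent.S1275
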