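import Cfsg.Statements.S1276
import Cfsg.Agent.H9.PCon

set_option autoImplicit false
open Cfsg

namespace Cfsg.Agent.S1276

/-- Let K be a 2-component of the finite group X. Then K is quasisimple if and only if ⁅K, O(K)⁆ = 1. -/
theorem result {X : Type*} [Group X] [Finite X] (K : Subgroup X) (hK : Cfsg.IsPComponent 2 K) : Cfsg.IsQuasisimple ↥K ↔ ⁅K, ((Cfsg.oddCore ↥K).map K.subtype)⁆ = ⊥ := by
  open H9 Subgroup in open scoped commutatorElement in
  have hK' := pcomp_top_iff.2 hK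
  change _ ↔ ⁅K, (pPrimeCore 2 K).map K.subtype⁆ = ⊥
  rw [Op'_eq, ← qs_iff, commutator_comm, commutator_eq_bot_iff_le_centralizer]
  refine ⟨fun h => (h.normal _ (Op'_le 2 K) (le_normalizer_Op' 2 K)).resolve_left fun h1 =>
    hK'.pqs.not_cop (h1 ▸ Op'_cop 2 K), hK'.pqs.qs⟩

end Cfsg.Agent.S1276
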