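import Cfsg.Statements.S1277
import Cfsg.Agent.H9.PCon

set_option autoImplicit false
open Cfsg

namespace Cfsg.Agent.S1277

/-- For a finite group X with core O(X): the image of E(X) in X / O(X) is all of E(X / O(X)) if and only if every 2-component of X is a component, i.e. L_{2'}(X) ≤ E(X). -/
theorem result {X : Type*} [Group X] [Finite X] : (Cfsg.layer X).map (QuotientGroup.mk' (Cfsg.oddCore X)) = Cfsg.layer (X ⧸ Cfsg.oddCore X) ↔ Cfsg.pLayer 2 X ≤ Cfsg.layer X := by
  open H9 Subgroup in open scoped commutatorElement in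
  change (layer X).map (QuotientGroup.mk' (pPrimeCore 2 X)) = layer (X ⧸ pPrimeCore 2 X) ↔ _
  set f := QuotientGroup.mk' (pPrimeCore 2 X) with hf
  have htop : (⊤ : Subgroup X).map f = ⊤ := map_top_of_surjective _ (QuotientGroup.mk'_surjective _)
  have hker : f.ker = Op' 2 ⊤ := by rw [QuotientGroup.ker_mk', Op'_top]
  have hk : (Nat.card (f.ker ⊓ ⊤ : Subgroup X)).Coprime 2 := by
    rw [inf_top_eq, hker]; exact Op'_cop 2 ⊤
  have hO : Op' 2 (⊤ : Subgroup (X ⧸ pPrimeCore 2 X)) = ⊥ := by rw [Op'_top, pPrimeCore_quotient]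
  have h1 : (PLay 2 ⊤).map f = layer (X ⧸ pPrimeCore 2 X) := by
    rw [map_PLay_of_ker f hk, htop, PLay_eq_Lay hO, Lay_top]
  rw [← h1, ← PLay_top, ← Lay_top]
  constructor
  · intro h
    have h2 : PLay 2 ⊤ ≤ Lay ⊤ ⊔ Op' 2 (⊤ : Subgroup X) := by
      rw [← hker, ← comap_map_eq, h]; exact le_comap_map _ _
    refine PLay_le_iff.2 fun K hK => ?_
    obtain ⟨P, hP⟩ := exists_syl 2 K
    have h3 := hK.pqs.eq_of_syl_le ((sn_Lay ⊤).inf_of_le le_top) hP (le_inf ?_ hP.le)
    · exact h3.ge.trans inf_le_left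
    · exact (SN.of_normal le_sup_left (le_top.trans (le_normalizer_Lay ⊤))).le_of_not_dvd
        (not_dvd_relIndex_sup (Op'_cop 2 ⊤) (le_top.trans (le_normalizer_Op' 2 ⊤))) hP.isP
        (hP.le.trans (hK.le_PLay.trans h2))
  · intro h
    refine le_antisymm ?_ (map_mono h)
    refine (map_mono (Lay_le_PLay_sup (p := 2) ⊤)).trans ?_
    rw [Subgroup.map_sup, ← hker, (Subgroup.map_eq_bot_iff _).2 le_rfl, sup_bot_eq]

end Cfsg.Agent.S1277
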