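import Cfsg.Statements.S1278
import Cfsg.Agent.H9.PCon

set_option autoImplicit false
open Cfsg

namespace Cfsg.Agent.S1278

/-- Let K ≠ L be 2-components of the finite group X. Then ⁅K, L⁆ ≤ O(K) ⊓ O(L), and if K is quasisimple then ⁅K, L⁆ = 1. -/
theorem result {X : Type*} [Group X] [Finite X] (K L : Subgroup X) (hK : Cfsg.IsPComponent 2 K) (hL : Cfsg.IsPComponent 2 L) (hne : K ≠ L) : ⁅K, L⁆ ≤ ((Cfsg.oddCore ↥K).map K.subtype) ⊓ ((Cfsg.oddCore ↥L).map L.subtype) ∧ (Cfsg.IsQuasisimple ↥K → ⁅K, L⁆ = ⊥) := by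
  open H9 Subgroup in open scoped commutatorElement in
  have hK' := pcomp_top_iff.2 hK
  have hL' := pcomp_top_iff.2 hL
  change ⁅K, L⁆ ≤ (pPrimeCore 2 K).map K.subtype ⊓ (pPrimeCore 2 L).map L.subtype ∧ _
  rw [Op'_eq, Op'_eq]
  refine ⟨(hK'.eq_or_comm hL').resolve_left hne, fun h => ?_⟩
  have hc : Comp K ⊤ := ⟨hK'.sn, qs_iff.2 h⟩
  exact (hc.le_or_comm hL'.sn).resolve_left fun h1 => hne (hK'.eq_of_le hL' h1)

end Cfsg.Agent.S1278
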