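import Cfsg.Statements.S1286


set_option autoImplicit false
open Cfsg

namespace Cfsg.Agent.S1286

open scoped Pointwise
abbrev P5 := Equiv.Perm (Fin 5)
def a : P5 := Equiv.swap 3 4
def b : P5 := Equiv.swap 0 1
def x : P5 := Equiv.swap 0 1 * Equiv.swap 1 2
def y : P5 := Equiv.swap 2 3 * Equiv.swap 3 4

def A : Subgroup P5 where
  carrier := {g | g = 1 ∨ g = a ∨ g = b ∨ g = a * b}
  mul_mem' := by
    rintro _ _ (rfl | rfl | rfl | rfl) (rfl | rfl | rfl | rfl) <;> simp only [Set.mem_setOf_eq] <;> decide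
  one_mem' := Or.inl rfl
  inv_mem' := by
    rintro _ (rfl | rfl | rfl | rfl) <;> simp only [Set.mem_setOf_eq] <;> decide

def T (u : P5) (hu : u * u * u = 1) : Subgroup P5 where
  carrier := {g | g = 1 ∨ g = u ∨ g = u * u}
  mul_mem' := by
    rintro _ _ (rfl | rfl | rfl) (rfl | rfl | rfl) <;> simp only [Set.mem_setOf_eq] <;> simp [hu, ← mul_assoc]
  one_mem' := Or.inl rfl
  inv_mem' := by
    rintro _ (rfl | rfl | rfl) <;> simp only [Set.mem_setOf_eq]
    · simp
    · exact Or.inr (Or.inr (inv_eq_of_mul_eq_one_left hu))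
    · exact Or.inr (Or.inl (inv_eq_of_mul_eq_one_right hu))

theorem T_eq (u : P5) (hu : u * u * u = 1) : T u hu = Subgroup.zpowers u := by
  apply le_antisymm
  · rintro _ (rfl | rfl | rfl)
    · exact one_mem _
    · exact Subgroup.mem_zpowers _
    · exact mul_mem (Subgroup.mem_zpowers _) (Subgroup.mem_zpowers _)
  · rw [Subgroup.zpowers_le]; exact Or.inr (Or.inl rfl)

theorem T_card (u : P5) (hu : u * u * u = 1) : ¬ 2 ∣ Nat.card (T u hu) := by
  rw [T_eq, Nat.card_zpowers]
  intro h
  have : orderOf u ∣ 3 := orderOf_dvd_of_pow_eq_one (by rw [pow_succ, pow_two, hu])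
  have := h.trans this
  omega

theorem T_solv (u : P5) (hu : u * u * u = 1) : Group.IsSolvable (T u hu) := by
  rw [T_eq]; infer_instance

def θ (g : P5) : Subgroup P5 := if g = a then T x (by decide) else if g = b then T y (by decide) else T 1 (by decide)

theorem θa : θ a = T x (by decide) := if_pos rfl
theorem θb : θ b = T y (by decide) := by unfold θ; rw [if_neg (by decide), if_pos rfl]
theorem θab : θ (a * b) = T 1 (by decide) := by unfold θ; rw [if_neg (by decide), if_neg (by decide)]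
theorem mT (u : P5) (hu : u * u * u = 1) (g : P5) : g ∈ T u hu ↔ g = 1 ∨ g = u ∨ g = u * u := Iff.rfl

/-- There exist a finite group X, an elementary abelian subgroup A of order 4 and a solvable A-signalizer functor θ on X for the prime 2 which is not complete. -/
theorem result : ∃ (X : Type) (_ : Group X) (_ : Finite X) (A : Subgroup X) (θ : X → Subgroup X), Cfsg.IsElementaryAbelian 2 A ∧ Nat.card ↥A = 4 ∧ Cfsg.IsSolvableSignalizerFunctor 2 A θ ∧ ¬ Cfsg.IsCompleteSignalizerFunctor 2 A θ := by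
  refine ⟨P5, inferInstance, inferInstance, A, θ, ⟨⟨⟨?_⟩⟩, ?_⟩, ?_, ⟨⟨?_, ?_, ?_, ?_⟩, ?_⟩, ?_⟩
  · rintro ⟨_, rfl | rfl | rfl | rfl⟩ ⟨_, rfl | rfl | rfl | rfl⟩ <;> apply Subtype.ext <;> simp only [Subgroup.coe_mul] <;> decide
  · rintro _ (rfl | rfl | rfl | rfl) <;> decide
  · have : (A : Set P5) = (({1, a, b, a * b} : Finset P5) : Set P5) := by
      ext g; simp [A]
    show Nat.card (A : Set P5) = 4
    rw [this, Nat.card_coe_set_eq, Set.ncard_coe_finset]
    decide
  · rintro _ (rfl | rfl | rfl | rfl) h1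
    · exact absurd rfl h1
    all_goals
      first | rw [θa] | rw [θb] | rw [θab]
      rintro _ (rfl | rfl | rfl) <;> rw [Subgroup.mem_centralizer_singleton_iff] <;> decide
  · intro g _ _
    unfold θ; split_ifs <;> exact T_card _ _
  · rintro _ (rfl | rfl | rfl | rfl) h1
    · exact absurd rfl h1
    all_goals
      first | rw [θa] | rw [θb] | rw [θab]
      rintro _ (rfl | rfl | rfl | rfl) _ (rfl | rfl | rfl) <;> rw [mT] <;> decide
  · rintro _ (rfl | rfl | rfl | rfl) h1 _ (rfl | rfl | rfl | rfl) h2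
    all_goals first | exact absurd rfl h1 | exact absurd rfl h2 | skip
    all_goals
      simp only [θa, θb, θab]
      rintro _ ⟨rfl | rfl | rfl, h⟩ <;> have h' := Subgroup.mem_centralizer_singleton_iff.1 h <;>
        rw [mT] <;> revert h' <;> decide
  · intro g _ _
    have : ∃ u hu, θ g = T u hu := by unfold θ; split_ifs <;> exact ⟨_, by decide, rfl⟩
    obtain ⟨u, hu, e⟩ := this
    rw [e]; exact T_solv _ _
  · rintro ⟨-, X, -, h2, h3⟩
    have hx : x ∈ X := by
      have := h3 a (Or.inr (Or.inl rfl)) (by decide)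
      rw [θa] at this
      exact (this.ge (Or.inr (Or.inl rfl))).1
    have hy : y ∈ X := by
      have := h3 b (Or.inr (Or.inr (Or.inl rfl))) (by decide)
      rw [θb] at this
      exact (this.ge (Or.inr (Or.inl rfl))).1
    have hw : x * (y * x * y⁻¹) ∈ X ∧ x * (y * x⁻¹ * y⁻¹) ∈ X := ⟨mul_mem hx (mul_mem (mul_mem hy hx) (inv_mem hy)),
      mul_mem hx (mul_mem (mul_mem hy (inv_mem hx)) (inv_mem hy))⟩
    have : orderOf (x * (y * x * y⁻¹)) = 2 ∨ orderOf (x * (y * x⁻¹ * y⁻¹)) = 2 := by
      first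
        | exact Or.inl (orderOf_eq_prime (by decide) (by decide))
        | exact Or.inr (orderOf_eq_prime (by decide) (by decide))
    rcases this with h | h
    · exact h2 (h ▸ X.orderOf_dvd_natCard hw.1)
    · exact h2 (h ▸ X.orderOf_dvd_natCard hw.2)

end Cfsg.Agent.S1286
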