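import Cfsg.Statements.S1288
import Cfsg.Agent.H1.Q1
import Cfsg.Agent.FT.B4a
import Cfsg.Agent.H9.PComp
import Cfsg.Agent.L.PG1

set_option autoImplicit false
open Cfsg

namespace Cfsg.Agent.S1288

open H1
open Subgroup H9

/-- Let A be a noncyclic elementary abelian p-subgroup of a finite group H normalizing a solvable subgroup K of order prime to p, q a prime dividing |K|, and U ≤ K a subgroup of order prime to q such that ⁅U, C_K(B)⁆ has order prime to q for every subgroup B of index p in A. Then U ≤ O_{q'}(K). -/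
theorem result {H : Type*} [Group H] [Finite H] (p : ℕ) [Fact p.Prime] (A K : Subgroup H) (hA : Cfsg.IsElementaryAbelian p A) (hA2 : p ^ 2 ≤ Nat.card ↥A) (hK : ¬ p ∣ Nat.card ↥K) (hKs : Group.IsSolvable ↥K) (hAK : A ≤ Subgroup.normalizer (K : Set H)) (q : ℕ) [Fact q.Prime] (hqK : q ∣ Nat.card ↥K) (U : Subgroup H) (hU : U ≤ K) (hUq : ¬ q ∣ Nat.card ↥U) (hcomm : ∀ B : Subgroup H, B ≤ A → B.relIndex A = p → ¬ q ∣ Nat.card ↥⁅U, K ⊓ Subgroup.centralizer (B : Set H)⁆) : U ≤ (Cfsg.pPrimeCore q ↥K).map K.subtype := by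
  obtain ⟨Γ, _, _, f, hf, hk, -⟩ := exists_quot (Op'_le q K) (le_normalizer_Op' q K)
  have hk' : kr f ⊓ K = Op' q K := by rw [hk]; exact inf_eq_left.2 (Op'_le q K)
  have hF := im_Opp_eq_Op f (p := q) le_rfl hk'
  have hO := Op'_im_eq_bot f (p := q) le_rfl hk'
  have hn : im f U ≤ normalizer (Op q (im f K) : Set Γ) := (im_mono f hU).trans (le_normalizer_Op q _)
  obtain ⟨B₀, hB₀, hB₁⟩ : ∃ B ≤ A, B.relIndex A = p := exists_relIndex_p (elem_isP hA) fun h => by
    rw [h, card_bot] at hA2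
    exact absurd hA2 (not_le.2 (Nat.one_lt_pow two_ne_zero (Fact.out : p.Prime).one_lt))
  have key : Opp q K ≤ pre f (centralizer (im f U : Set Γ)) := by
    refine gen_hyp hA (normalizer_Opp hAK) (cop_of_le (cop_iff.2 hK) (Opp_le q K)) fun B hB => ?_
    obtain ⟨B', h1, h2, h3⟩ : ∃ B' ≤ A, B'.relIndex A = p ∧ B' ≤ B := by
      rcases (Nat.dvd_prime Fact.out).1 hB.dvd with h | h
      · exact ⟨B₀, hB₀, hB₁, hB₀.trans (relIndex_eq_one.1 h)⟩
      · exact ⟨B, hB.le, h, le_rfl⟩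
    have l : Opp q K ⊓ centralizer (B : Set H) ≤ K := inf_le_left.trans (Opp_le q K)
    rw [← im_le_iff f l, ← commutator_eq_bot_iff_le_centralizer, commutator_comm, ← im_commutator f hU l]
    refine eq_bot_of_p_p' (p := q) ((Op_p q (im f K)).to_le ?_) (cop_im f (cop_of_le (cop_iff.2 (hcomm B' h1 h2))
      (commutator_mono le_rfl (inf_le_inf (Opp_le q K) (centralizer_le h3)))))
    rw [im_commutator f hU l]
    refine (commutator_mono le_rfl ((im_mono f inf_le_left).trans hF.le)).trans ?_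
    exact commutator_le_right' hn
  rw [← im_le_iff f (Opp_le q K), hF, le_centralizer_iff] at key
  rw [Op'_eq, ← hk, ← im_eq_bot_iff f hU]
  exact eq_bot_of_p_p' ((Op_p q _).to_le ((le_inf (im_mono f hU) key).trans
    (FT.cent_Op_le (isSolvable_im f hKs) hO))) (cop_im f (cop_iff.2 hUq))

end Cfsg.Agent.S1288
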