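import Cfsg.Statements.S1297
import Cfsg.Agent.H9.LB2

set_option autoImplicit false
open Cfsg

namespace Cfsg.Agent.S1297

/-- Let G be finite. Suppose that for every involution x, writing C = C_G(x), every component K of C / O(C) has K / Z(K) locally balanced. Then G is balanced. -/
theorem result {G : Type*} [Group G] [Finite G] (h : ∀ x : G, orderOf x = 2 → ∀ K : Subgroup (↥(Subgroup.centralizer ({x} : Set G)) ⧸ Cfsg.oddCore ↥(Subgroup.centralizer ({x} : Set G))), Cfsg.IsComponent K → Cfsg.IsLocallyBalanced (↥K ⧸ Subgroup.center ↥K)) : Cfsg.IsBalanced G := by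
  open H9 Subgroup in open scoped commutatorElement in
  classical
  have key : ∀ x y : G, orderOf x = 2 → orderOf y = 2 → x * y = y * x → centralizerPPrimeCore 2 x ⊓ centralizer {y} ≤
      centralizerPPrimeCore 2 y ⊓ centralizer {x} := fun x y hx hy e => by
    refine le_inf ?_ (inf_le_left.trans (cpc_eq (p := 2) x ▸ Op'_le 2 _))
    have x2 : x ^ 2 = 1 := hx ▸ pow_orderOf_eq_one x
    rw [cpc_eq y]
    refine le_trans (inf_le_inf_right _ (le_delta_iff.2 fun a ha h1 => ?_)) (kbal_of_local (k := 1) le_rfl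
      (elem_zpowers x2) (by rw [Nat.card_zpowers, hx]; rfl) (zpowers_le.2 (mem_centralizer_singleton_iff.2 e)) fun L hL =>
      ⟨_, _, inferInstance, autOn L, kr_autOn hL.qs.perfect, (im_autOn L).ge, fun Y hY A hA hc => ?_⟩)
    · rw [mem_zpowers_iff_mem_range_orderOf, hx] at ha
      obtain ⟨n, hn, rfl⟩ := Finset.mem_image.1 ha
      obtain rfl | rfl : n = 0 ∨ n = 1 := by have := Finset.mem_range.1 hn; omega
      · exact absurd (pow_zero x) h1
      · rw [pow_one, cpc_eq]
    · obtain ⟨a, ha, h2⟩ := exists_orderOf_eq_of_dvd (p := 2) (H := A) (by rw [hc]; exact dvd_rfl)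
      exact le_bot_iff.1 ((le_delta_iff.1 le_rfl a ha (by rintro rfl; simp at h2)).trans
        (cpc_eq (p := 2) a ▸ h y hy L (comp_top_iff.1 hL) Y hY a h2).le)
  exact fun x y hx hy e => le_antisymm (key x y hx hy e) (key y x hy hx e.symm)

end Cfsg.Agent.S1297
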