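import Cfsg.Statements.S1299
import Cfsg.Agent.H1.Q4

set_option autoImplicit false
open Cfsg

namespace Cfsg.Agent.S1299

open H1
open Subgroup H9

/-- Let G be finite and k-balanced for the prime p (k ≥ 1), A an elementary abelian p-subgroup of order at least p^(k+2) such that O_{p'}(C_G(a)) is solvable for every non-identity a ∈ A. For a ∈ A put θ a = the subgroup generated by the Δ_G(D) ∩ C_G(a) over the subgroups D ≤ A of order p^k. Then θ is an A-signalizer functor. -/
theorem result {G : Type*} [Group G] [Finite G] (p k : ℕ) [Fact p.Prime] (hk : 1 ≤ k) (hbal : Cfsg.IsKBalanced p k G) (A : Subgroup G) (hA : Cfsg.IsElementaryAbelian p A) (hAk : p ^ (k + 2) ≤ Nat.card ↥A) (hsolv : ∀ a ∈ A, a ≠ 1 → Group.IsSolvable ↥(Cfsg.centralizerPPrimeCore p a)) : Cfsg.IsSignalizerFunctor p A (fun a => ⨆ D : {D : Subgroup G // D ≤ A ∧ Nat.card ↥D = p ^ k}, Cfsg.signalizerDelta p (D : Subgroup G) ⊓ Subgroup.centralizer {a}) := by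
  have hb : IsKBalancedWrt p k A := fun B h1 h2 h3 a ha a1 => by
    obtain ⟨D, d1, d2⟩ := exists_le_card (elem_isP h2) h3
    exact (inf_le_inf_right _ (delta_anti d1)).trans
      (hbal D (el_le h2 d1) d2 a (elem_orderOf hA ha a1) fun b hb => ab_comm hA.1 (h1 (d1 hb)) ha)
  convert kb_sf hk hb hA hAk hsolv using 2 with a
  refine le_antisymm (iSup_le fun D => le_iSup_of_le ⟨D.1, D.2.1, el_le hA D.2.1, D.2.2.ge⟩ le_rfl) (iSup_le fun B => ?_)
  obtain ⟨D, d1, d2⟩ := exists_le_card (elem_isP B.2.2.1) B.2.2.2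
  exact le_iSup_of_le ⟨D, d1.trans B.2.1, d2⟩ (inf_le_inf_right _ (delta_anti d1))

end Cfsg.Agent.S1299
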