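import Cfsg.Statements.S1300
import Cfsg.Agent.H9.PCon

set_option autoImplicit false
open Cfsg

namespace Cfsg.Agent.S1300

/-- For a finite group G, balance in the sense of commuting involutions is the same as 1-balance for the prime 2. -/
theorem result {G : Type*} [Group G] [Finite G] : Cfsg.IsBalanced G ↔ Cfsg.IsKBalanced 2 1 G := by
  open H9 Subgroup in open scoped commutatorElement in
  classical
  constructor
  · intro h A hA hc b hb hab
    obtain ⟨a, ha, ho⟩ := exists_orderOf_eq_of_dvd (p := 2) (H := A) (by rw [hc]; simp)
    have h1 : a ≠ 1 := by rintro rfl; simp at ho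
    refine (inf_le_inf_right _ (iInf_le _ ⟨a, ha, h1⟩)).trans ?_
    exact (h a b ho hb (hab a ha)).le.trans inf_le_left
  · intro h
    have key : ∀ x y : G, orderOf x = 2 → orderOf y = 2 → x * y = y * x →
        centralizerPPrimeCore 2 x ⊓ centralizer {y} ≤ centralizerPPrimeCore 2 y ⊓ centralizer {x} := by
      intro x y hx hy hxy
      have hx2 : ∀ a ∈ zpowers x, a ^ 2 = 1 := fun a ha => by
        rw [← orderOf_dvd_iff_pow_eq_one, ← hx]; exact orderOf_dvd_of_mem_zpowers ha
      have h1 := h (zpowers x) ⟨inferInstance, hx2⟩ (by rw [Nat.card_zpowers, hx]; rfl) y hy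
        (fun a ha => by
          obtain ⟨k, rfl⟩ := ha
          exact (Commute.zpow_left hxy k).eq)
      refine le_inf (le_trans (inf_le_inf_right _ (le_iInf fun a => ?_)) h1)
        (inf_le_left.trans (map_subtype_le _))
      obtain ⟨a, ha, ha1⟩ := a
      have : a = x := by
        have h2 := mem_zpowers_iff_mem_range_orderOf.1 ha
        rw [hx] at h2
        simp only [Finset.mem_image, Finset.mem_range] at h2
        obtain ⟨k, hk, rfl⟩ := h2
        interval_cases k
        · simp at ha1
        · simp
      subst this
      exact le_rfl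
    exact fun x y hx hy hxy => le_antisymm (key x y hx hy hxy) (key y x hy hx hxy.symm)

end Cfsg.Agent.S1300
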