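import Cfsg.Statements.S1303
import Cfsg.Agent.H3.Chr3
import Cfsg.Agent.H9.PCon
import Cfsg.Agent.S0144
import Cfsg.Agent.H5.SL

set_option autoImplicit false
open Cfsg

namespace Cfsg.Agent.S1303

open scoped Pointwise
abbrev SL23 := Matrix.SpecialLinearGroup (Fin 2) (ZMod 3)

theorem card23 : Nat.card SL23 = 24 := by
  have := H5.card_SL_mul (ι := Fin 2) (F := ZMod 3)
  have h2 : (∏ i : Fin (Fintype.card (Fin 2)), (Fintype.card (ZMod 3) ^ Fintype.card (Fin 2) - Fintype.card (ZMod 3) ^ (i : ℕ))) = 48 := by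
    decide +kernel
  rw [h2, ZMod.card] at this
  show Nat.card (Matrix.SpecialLinearGroup (Fin 2) (ZMod 3)) = 24
  omega

def m1 : SL23 := ⟨!![2, 0; 0, 2], by decide⟩
def u : SL23 := ⟨!![1, 1; 0, 1], by decide⟩

theorem t1 : ∀ t : SL23, t ^ 2 = 1 → ∀ g : SL23, g * t = t * g := by decide +kernel
theorem t2 : ∀ t : SL23, t ≠ 1 → t ^ 3 = 1 → ∃ g : SL23, (t * (g * t⁻¹ * g⁻¹)) ^ 3 ≠ 1 := by decide +kernel

theorem core : Cfsg.pPrimeCore 2 SL23 = ⊥ := by
  have hc := H9.pPrimeCore_cop (G := SL23) 2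
  have h3 : ∀ x ∈ Cfsg.pPrimeCore 2 SL23, x ^ 3 = 1 := by
    intro x hx
    have h1 := (Cfsg.pPrimeCore 2 SL23).orderOf_dvd_natCard hx
    have h2 : orderOf x ∣ 8 * 3 := by have := orderOf_dvd_natCard x; rwa [card23] at this
    have h4 : (orderOf x).Coprime (2 ^ 3) := (hc.coprime_dvd_left h1).pow_right 3
    exact orderOf_dvd_iff_pow_eq_one.1 (h4.dvd_of_dvd_mul_left h2)
  rw [eq_bot_iff]
  intro x hx
  by_contra h1
  obtain ⟨g, hg⟩ := t2 x h1 (h3 x hx)
  have hN : (Cfsg.pPrimeCore 2 SL23).Normal := inferInstance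
  exact hg (h3 _ (mul_mem hx (hN.conj_mem _ (inv_mem hx) g)))

/-- The group X = SL(2, 3): it is 2-constrained, O_{2'}(X) = 1, its centre A = Z(X) contains every involution of X = C_X(A), and X has a subgroup of order 3 (normalized by A) not contained in O_{2'}(X). -/
theorem result : Cfsg.IsPConstrained 2 (Matrix.SpecialLinearGroup (Fin 2) (ZMod 3)) ∧ Cfsg.pPrimeCore 2 (Matrix.SpecialLinearGroup (Fin 2) (ZMod 3)) = ⊥ ∧ (∀ t : Matrix.SpecialLinearGroup (Fin 2) (ZMod 3), orderOf t = 2 → t ∈ Subgroup.center (Matrix.SpecialLinearGroup (Fin 2) (ZMod 3))) ∧ ∃ Q : Subgroup (Matrix.SpecialLinearGroup (Fin 2) (ZMod 3)), Nat.card ↥Q = 3 ∧ ¬ (Q ≤ Cfsg.pPrimeCore 2 (Matrix.SpecialLinearGroup (Fin 2) (ZMod 3))) := by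
  refine ⟨?_, core, ?_, Subgroup.zpowers u, ?_, ?_⟩
  · have : Group.IsSolvable SL23 := Cfsg.Agent.S0144.result 2 3 3 1 Nat.prime_two Nat.prime_three card23
    exact H9.isPConstrained_of_isPSolvable H3.psv_of_solv
  · intro t ht
    exact Subgroup.mem_center_iff.2 (t1 t (orderOf_dvd_iff_pow_eq_one.1 ht.dvd))
  · rw [Nat.card_zpowers]
    exact orderOf_eq_prime (by decide +kernel) (by decide +kernel)
  · rw [core, le_bot_iff, Subgroup.zpowers_eq_bot]
    decide +kernel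

end Cfsg.Agent.S1303
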