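import Cfsg.Statements.S1304
import Cfsg.Agent.H9.Basic

set_option autoImplicit false
open Cfsg

namespace Cfsg.Agent.S1304

/-- Let X be a perfect group and α an automorphism of X with α(x) x⁻¹ central for every x. Then α is the identity. -/
theorem result {X : Type*} [Group X] (hperf : commutator X = ⊤) (α : X ≃* X) (h : ∀ x : X, α x * x⁻¹ ∈ Subgroup.center X) : ∀ x : X, α x = x := by
  open H9 Subgroup in open scoped commutatorElement in
  intro x
  let f : X →* X :=
    { toFun := fun x => α x * x⁻¹
      map_one' := by simp
      map_mul' := fun a b => by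
        have := mem_center_iff.1 (h b) a⁻¹
        simp only [map_mul, mul_inv_rev]
        calc α a * α b * (b⁻¹ * a⁻¹) = α a * ((α b * b⁻¹) * a⁻¹) := by group
          _ = α a * (a⁻¹ * (α b * b⁻¹)) := by rw [this]
          _ = _ := by group }
  have : commutator X ≤ f.ker := by
    rw [_root_.commutator_def, commutator_le]
    intro a _ b _
    rw [MonoidHom.mem_ker, map_commutatorElement, commutatorElement_eq_one_iff_mul_comm]
    exact mem_center_iff.1 (h b) _
  have h2 : f x = 1 := this (hperf ▸ mem_top x)
  exact mul_inv_eq_one.1 h2

end Cfsg.Agent.S1304
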