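import Cfsg.Statements.S1306
import Cfsg.Agent.H9.LB3

set_option autoImplicit false
open Cfsg

namespace Cfsg.Agent.S1306

/-- Let G be finite, x an involution and L ≤ C_G(x) a component of C_G(x). Suppose L is a component of C_G(y) for every involution y ∈ C_G(L), and ⁅L, g L g⁻¹⁆ ≠ 1 whenever g L g⁻¹ ≠ L. Then L is a standard subgroup of G. -/
theorem result {G : Type*} [Group G] [Finite G] (x : G) (hx : orderOf x = 2) (L : Subgroup G) (hLx : L ≤ Subgroup.centralizer ({x} : Set G)) (hL : Cfsg.IsComponent (L.subgroupOf (Subgroup.centralizer ({x} : Set G)))) (hne : ∀ y : G, orderOf y = 2 → y ∈ Subgroup.centralizer (L : Set G) → L ≤ Subgroup.centralizer ({y} : Set G) ∧ Cfsg.IsComponent (L.subgroupOf (Subgroup.centralizer ({y} : Set G)))) (hnc : ∀ g : G, L.map (MulAut.conj g).toMonoidHom ≠ L → ⁅L, L.map (MulAut.conj g).toMonoidHom⁆ ≠ ⊥) : Cfsg.IsStandardSubgroup L := by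
  open H9 Subgroup in open scoped commutatorElement in
  have key : ∀ g, ¬ Odd (Nat.card (centralizer (L : Set G) ⊓ cj g (centralizer (L : Set G)) : Subgroup G)) →
      g ∈ normalizer (L : Set G) := fun g h => by
    obtain ⟨y, hy, o⟩ := exists_orderOf_eq_of_dvd (even_iff_two_dvd.1 (Nat.not_odd_iff_even.1 h))
    have a := (comp_iff.2 (hne _ ((orderOf_conj' g y).trans o) (mem_cj.1 hy.2))).cj g
    rw [cj_centralizer_singleton, show g * (g⁻¹ * y * g) * g⁻¹ = y by group] at a
    by_contra e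
    exact ((comp_iff.2 (hne y o hy.1)).eq_or_comm a).elim (fun b => e (mem_normalizer_iff_cj.2 b.symm))
      (hnc g fun b => e (mem_normalizer_iff_cj.2 b))
  have ev : Even (Nat.card (centralizer (L : Set G))) :=
    even_iff_two_dvd.2 (hx ▸ orderOf_dvd_card_of_mem (le_centralizer_singleton_iff.1 hLx))
  refine ⟨qs_iff.1 (comp_iff.2 ⟨hLx, hL⟩).qs, ⟨ev, fun g hg => ?_⟩, hnc, le_antisymm (normalizer_centralizer le_rfl)
    fun g hg => key g ?_⟩
  · by_contra e
    exact hg (normalizer_centralizer le_rfl (key g e))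
  · rw [mem_normalizer_iff_cj.1 hg, inf_idem]
    exact Nat.not_odd_iff_even.2 ev

end Cfsg.Agent.S1306
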