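import Cfsg.Statements.S1307
import Cfsg.Agent.H9.LB3
import Cfsg.Agent.S0016

set_option autoImplicit false
open Cfsg

namespace Cfsg.Agent.S1307

/-- Let G be finite, x an involution and L ≤ C_G(x) a component of C_G(x) of even order and 2-rank 1, such that L is a component of C_G(y) for every involution y ∈ C_G(L). Then some involution of L is a classical involution of G. -/
theorem result {G : Type*} [Group G] [Finite G] (x : G) (hx : orderOf x = 2) (L : Subgroup G) (hLx : L ≤ Subgroup.centralizer ({x} : Set G)) (hL : Cfsg.IsComponent (L.subgroupOf (Subgroup.centralizer ({x} : Set G)))) (heven : Even (Nat.card ↥L)) (hrk : Cfsg.PRankLE 2 1 ↥L) (hne : ∀ y : G, orderOf y = 2 → y ∈ Subgroup.centralizer (L : Set G) → L ≤ Subgroup.centralizer ({y} : Set G) ∧ Cfsg.IsComponent (L.subgroupOf (Subgroup.centralizer ({y} : Set G)))) : ∃ t ∈ L, Cfsg.IsClassicalInvolution t := by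
  open H9 Subgroup in open scoped commutatorElement in
  have hc := comp_iff.2 ⟨hLx, hL⟩
  obtain ⟨S⟩ := (inferInstance : Nonempty (Sylow 2 L))
  have hS := syl_top_of_sylow S
  have q : QS (⊤ : Subgroup L) := qs_top_iff.2 (qs_iff.1 hc.qs)
  have ne : (S : Subgroup L) ≠ ⊥ := fun e => q.not_cop_two (hS.eq_bot_iff.1 e)
  obtain ⟨t, ht, o⟩ := exists_orderOf_eq_of_isPGroup (hS.isP.to_le inf_le_left) (Zc_ne_bot hS.isP ne)
  have r : PRankLE 2 1 (⊤ : Subgroup L) := fun A h1 h2 => by
    have := elem_of_le (A := A.map (⊤ : Subgroup L).subtype) ⟨inferInstance, by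
      rintro _ ⟨a, ha, rfl⟩; rw [← map_pow, h2 a ha, map_one]⟩ le_rfl
    exact card_map_subtype A ▸ hrk _ this.1 this.2
  have u : ∀ y ∈ (S : Subgroup L), orderOf y = 2 → y = t := fun y hy h =>
    two_eq_of_rank r h o (ht.2 y hy) (mem_top _) (mem_top _)
  have z := inZ_iff.1 (zstar_elt L t (iso_of_syl hS ht.1 fun g hg => u _ hg ((orderOf_conj g t).trans o))
    (isPGroup_zpowers_of_orderOf o))
  have z2 := le_centralizer_of_cover q.perfect le_normalizer le_sup_left le_normalizer_of_normal (z.trans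
    ((q.sn_eq_or (sn_Op' 2 _)).resolve_left fun e => q.not_cop_two (e ▸ Op'_cop 2 _))) (mem_zpowers t)
  have z3 : (t : G) ∈ centralizer (L : Set G) := fun y hy => congrArg Subtype.val (z2 ⟨y, hy⟩ (mem_top _))
  have o' : orderOf (t : G) = 2 := (orderOf_coe t).trans o
  refine ⟨t, t.2, o', L, (hne t o' z3).1, t.2, (hne t o' z3).2.1, S, ?_⟩
  have nc : ¬ IsCyclic (S : Subgroup L) := fun h => by
    obtain ⟨H, hH⟩ := H1.exists_index_two_of_isCyclic heven S h
    have : ⊤ ≤ H := q.perfect.ge.trans (commutator_le.2 fun a _ b _ => by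
      simp only [commutatorElement_def, mul_mem_iff_of_index_two hH, inv_mem_iff]; tauto)
    simp [top_le_iff.1 this] at hH
  have k : ∀ H : Subgroup (S : Subgroup L), Nat.card H = 2 → H = zpowers ⟨t, ht.1⟩ := fun H h => by
    obtain ⟨y, hy, o2⟩ := exists_orderOf_eq_of_dvd (p := 2) (H := H) h.symm.dvd
    obtain rfl : y = ⟨t, ht.1⟩ := Subtype.ext (u y y.2 ((orderOf_coe y).trans o2))
    exact (eq_of_le_of_card_le (zpowers_le.2 hy) (by rw [Nat.card_zpowers, o2, h])).symm
  obtain ⟨-, n, ⟨e⟩⟩ := (S0016.result 2 hS.isP fun H K a b => (k H a).trans (k K b).symm).resolve_left nc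
  rcases n with _ | n
  · exact absurd (isCyclic_of_surjective (hH := QuaternionGroup.quaternionGroup_one_isCyclic) e.symm e.symm.surjective) nc
  exact ⟨n, ⟨e⟩⟩

end Cfsg.Agent.S1307
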