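import Cfsg.Statements.S1314
import Cfsg.Agent.H9.LB2

set_option autoImplicit false
open Cfsg

namespace Cfsg.Agent.S1314

/-- Let x be an involution of a group G and L a perfect subgroup with ⁅L, x L x⁻¹⁆ = 1. Then l ↦ l (x l x⁻¹) is a group homomorphism π from L to G whose kernel is central in L and whose image lies in C_G(x); and the commutator subgroup of C_{L ⊔ xLx⁻¹}(x) equals the image of π. -/
theorem result {G : Type*} [Group G] [Finite G] (x : G) (hx : orderOf x = 2) (L : Subgroup G) (hperf : ⁅L, L⁆ = L) (hcomm : ⁅L, L.map (MulAut.conj x).toMonoidHom⁆ = ⊥) : ∃ π : ↥L →* G, (∀ l : ↥L, π l = (l : G) * (x * (l : G) * x⁻¹)) ∧ π.ker ≤ Subgroup.center ↥L ∧ π.range ≤ Subgroup.centralizer ({x} : Set G) ∧ ⁅(L ⊔ L.map (MulAut.conj x).toMonoidHom) ⊓ Subgroup.centralizer ({x} : Set G), (L ⊔ L.map (MulAut.conj x).toMonoidHom) ⊓ Subgroup.centralizer ({x} : Set G)⁆ = π.range := by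
  open H9 Subgroup in open scoped commutatorElement in
  have x2 : x * x = 1 := by rw [← pow_two, ← hx, pow_orderOf_eq_one]
  have xi : x⁻¹ = x := inv_eq_of_mul_eq_one_right x2
  rw [cj_def'] at hcomm ⊢
  have c := le_centralizer_iff'.2 hcomm
  have cm : ∀ a ∈ L, ∀ b ∈ L, x * b * x⁻¹ * a = a * (x * b * x⁻¹) := fun a ha b hb => c ha _ (conj_mem_cj hb)
  let π : L →* G := MonoidHom.mk' (fun l => (l : G) * (x * l * x⁻¹)) fun a b => by
    rw [coe_mul, mul_assoc (a : G) b, mul_assoc (a : G), ← mul_assoc (x * a * x⁻¹), cm b b.2 a a.2]; group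
  have h1 : π.range ≤ centralizer {x} := by
    rintro _ ⟨l, rfl⟩
    rw [mem_centralizer_singleton_iff]
    change l * (x * l * x⁻¹) * x = x * (l * (x * l * x⁻¹))
    conv_lhs => rw [← cm l l.2 l l.2]
    rw [xi]; simp only [mul_assoc]
  have h2 : π.range ≤ L ⊔ cj x L := by
    rintro _ ⟨l, rfl⟩
    exact mul_mem (mem_sup_left l.2) (mem_sup_right (conj_mem_cj l.2))
  have h3 : ⁅π.range, π.range⁆ = π.range := by
    rw [MonoidHom.range_eq_map, ← map_commutator]
    congr 1
    exact map_injective L.subtype_injective (by rw [map_commutator, map_top_subtype, hperf])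
  refine ⟨π, fun _ => rfl, fun l hl => mem_center_iff.2 fun a => Subtype.ext ?_, h1, le_antisymm ?_
    (h3.ge.trans (commutator_mono (le_inf h2 h1) (le_inf h2 h1)))⟩
  · have e : (l : G) = (x * l * x⁻¹)⁻¹ := eq_inv_of_mul_eq_one_left hl
    rw [coe_mul, coe_mul, e, mul_inv_eq_iff_eq_mul, mul_assoc, ← cm a a.2 l l.2]; group
  have h4 : (L ⊔ cj x L) ⊓ centralizer {x} = π.range ⊔ (L ⊔ cj x L) ⊓ centralizer {x} ⊓ centralizer (L : Set G) := by
    refine le_antisymm (fun y hy => ?_) (sup_le (le_inf h2 h1) inf_le_left)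
    obtain ⟨a, ha, b, hb, rfl⟩ := (mem_sup_of_le_normalizer (c.trans (centralizer_le_normalizer' _))).1 hy.1
    have m : π ⟨a, ha⟩ ∈ π.range := ⟨_, rfl⟩
    rw [← mul_inv_cancel_left (π ⟨a, ha⟩) (a * b)]
    refine mul_mem (mem_sup_left m) (mem_sup_right (mem_inf.2 ⟨mul_mem (inv_mem (le_inf h2 h1 m)) hy, ?_⟩))
    change (a * (x * a * x⁻¹))⁻¹ * (a * b) ∈ _
    rw [mul_inv_rev, mul_assoc, inv_mul_cancel_left]
    exact le_centralizer_iff.1 c (mul_mem (inv_mem (conj_mem_cj ha)) hb)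
  have h5 := centralizer_inf_le_ncl L (zpowers x)
  rw [centralizer_zpowers] at h5
  have h6 := h5.trans (centralizer_anti (sup_le (le_ncl _ _) (cj_le_ncl L (mem_zpowers x))))
  conv_lhs => rw [h4]
  rw [commutator_sup_central (by
    rw [← h4]; exact ((le_inf inf_le_right (inf_le_left.trans inf_le_right)).trans h6).trans (centralizer_anti inf_le_left)), h3]

end Cfsg.Agent.S1314
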