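import Cfsg.Statements.S1316
import Cfsg.Agent.H9.Comp

set_option autoImplicit false
open Cfsg

namespace Cfsg.Agent.S1316

/-- For a finite group X, E(X) equals the intersection of the derived series of F*(X) (its last term). -/
theorem result {X : Type*} [Group X] [Finite X] : (⨅ n : ℕ, (derivedSeries ↥(Cfsg.generalizedFittingSubgroup X) n).map (Cfsg.generalizedFittingSubgroup X).subtype) = Cfsg.layer X := by
  open H9 Subgroup in open scoped commutatorElement in
  rw [← Lay_top, ← Fst_top]
  have key : ∀ n : ℕ, ∃ A : Subgroup X, A ≤ (Fit (⊤ : Subgroup X)).lowerCentralSeries n ∧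
      (derivedSeries (Fst (⊤ : Subgroup X)) n).map (Fst ⊤).subtype = Lay ⊤ ⊔ A := by
    intro n
    induction n with
    | zero => exact ⟨Fit ⊤, le_rfl, by rw [derivedSeries_zero, map_top_subtype]; rfl⟩
    | succ n ih =>
      obtain ⟨A, hA, hA'⟩ := ih
      have hAF : A ≤ Fit ⊤ := hA.trans (lowerCentralSeries_le_self _ n)
      refine ⟨⁅A, A⁆, commutator_mono hA hAF, ?_⟩
      rw [derivedSeries_succ, map_commutator, hA']
      have hc : Lay ⊤ ≤ centralizer (A : Set X) := (Lay_le_centralizer_Fit ⊤).trans (centralizer_anti hAF)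
      have hc' : ⁅Lay ⊤, A⁆ = ⊥ := commutator_eq_bot_iff_le_centralizer.2 hc
      have n1 : Lay ⊤ ≤ normalizer ((Lay ⊤ ⊔ ⁅A, A⁆ : Subgroup X) : Set X) := le_sup_left.trans le_normalizer
      have n2 : A ≤ normalizer ((Lay ⊤ ⊔ ⁅A, A⁆ : Subgroup X) : Set X) :=
        normalizer_sup (le_top.trans (le_normalizer_Lay ⊤)) (normalizer_commutator_ge_left _ _)
      refine le_antisymm (commutator_sup_le n1 n2 ?_ ?_) (sup_le ((Lay_perfect ⊤).ge.trans
        (commutator_mono le_sup_left le_sup_left)) (commutator_mono le_sup_right le_sup_right))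
      · exact (commutator_le_left' (le_top.trans (le_normalizer_Lay ⊤))).trans le_sup_left
      · rw [commutator_comm]
        exact commutator_sup_le n1 n2 (hc'.le.trans bot_le) le_sup_right
  apply le_antisymm
  · obtain ⟨n, hn⟩ := (isNilpotent_iff_lowerCentralSeries _).1 (Fit_nil (⊤ : Subgroup X))
    obtain ⟨A, hA, hA'⟩ := key n
    refine (iInf_le _ n).trans ?_
    rw [hA']; exact sup_le le_rfl (hA.trans (hn.le.trans bot_le))
  · refine le_iInf fun n => ?_
    obtain ⟨A, hA, hA'⟩ := key n
    rw [hA']; exact le_sup_left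

end Cfsg.Agent.S1316
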