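import Cfsg.Statements.S1317
import Cfsg.Agent.H9.Comp

set_option autoImplicit false
open Cfsg

namespace Cfsg.Agent.S1317

/-- For a finite group X, the centre of the layer E(X) is F(X) ∩ E(X). -/
theorem result {X : Type*} [Group X] [Finite X] : (Subgroup.center ↥(Cfsg.layer X)).map (Cfsg.layer X).subtype = Cfsg.fittingSubgroup X ⊓ Cfsg.layer X := by
  open H9 Subgroup in open scoped commutatorElement in
  rw [map_center_subtype, ← Lay_top, ← Fit_top]
  refine le_antisymm (le_inf (le_Fit le_top (normalizer_inf (le_normalizer_Lay ⊤)
    (normalizer_centralizer (le_normalizer_Lay ⊤))) (isNilpotent_of_le_centralizer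
      (inf_le_right.trans (centralizer_anti inf_le_left)))) inf_le_left)
    (le_inf inf_le_right (inf_le_left.trans (le_centralizer_iff.1 (Lay_le_centralizer_Fit ⊤))))

end Cfsg.Agent.S1317
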