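import Cfsg.Statements.S1319
import Cfsg.Agent.H9.Comp

set_option autoImplicit false
open Cfsg

namespace Cfsg.Agent.S1319

/-- Let A be a subnormal subgroup of the finite group X with E(A) = A. Then A ≤ E(X) and A is normal in E(X). -/
theorem result {X : Type*} [Group X] [Finite X] (A : Subgroup X) (hsn : A.IsSubnormal) (hA : Cfsg.layer ↥A = ⊤) : A ≤ Cfsg.layer X ∧ (A.subgroupOf (Cfsg.layer X)).Normal := by
  open H9 Subgroup in open scoped commutatorElement in
  have h : SN A ⊤ := sn_top_iff.2 hsn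
  have h1 : Lay A = A := by rw [← Lay_eq, hA, map_top_subtype]
  have h2 : A ≤ layer X := by rw [← Lay_top, ← h1]; exact h.Lay_le_Lay
  refine ⟨h2, (normal_subgroupOf_iff_le_normalizer h2).2 ?_⟩
  rw [← Lay_top]
  refine le_normalizer_of_cj_le fun g hg => ?_
  rw [cj_le_iff]
  nth_rewrite 1 [← h1]
  refine Lay_le_iff.2 fun K hK => cj_le_iff.1 ?_
  rw [mem_normalizer_iff_cj.1 ((hK.trans h).Lay_le_normalizer hg)]
  exact hK.le

end Cfsg.Agent.S1319
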