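import Cfsg.Statements.S1326
import Cfsg.Agent.H9.Comp

set_option autoImplicit false
open Cfsg

namespace Cfsg.Agent.S1326

/-- For a finite group X: the Fitting subgroup contains its centralizer if and only if the layer of X is trivial. -/
theorem result {X : Type*} [Group X] [Finite X] : Subgroup.centralizer (Cfsg.fittingSubgroup X : Set X) ≤ Cfsg.fittingSubgroup X ↔ Cfsg.layer X = ⊥ := by
  open H9 Subgroup in open scoped commutatorElement in
  rw [← Lay_top, ← Fit_top]
  constructor
  · intro h
    exact eq_bot_of_perfect_of_solvable (isSolvable_of_le (have := Fit_nil (⊤ : Subgroup X); inferInstance)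
      ((Lay_le_centralizer_Fit ⊤).trans h)) (Lay_perfect _)
  · intro h
    simpa using centralizer_Fit_le_of_Lay h

end Cfsg.Agent.S1326
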