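import Cfsg.Statements.S1328
import Cfsg.Agent.H9.LB2

set_option autoImplicit false
open Cfsg

namespace Cfsg.Agent.S1328

/-- Let G be finite, H ≤ G with O(H) = 1, t an involution of G normalizing H, and Y a nontrivial subgroup of O(C_H(t)). Then some component E of H is normalized by t and by Y and centralized by neither t nor Y. -/
theorem result {G : Type*} [Group G] [Finite G] (H : Subgroup G) (hO : Cfsg.oddCore ↥H = ⊥) (t : G) (ht : orderOf t = 2) (htH : t ∈ Subgroup.normalizer (H : Set G)) (Y : Subgroup G) (hY1 : Y ≠ ⊥) (hY : Y ≤ (Cfsg.oddCore ↥(H ⊓ Subgroup.centralizer ({t} : Set G))).map (H ⊓ Subgroup.centralizer ({t} : Set G)).subtype) : ∃ E : Subgroup ↥H, Cfsg.IsComponent E ∧ (E.map H.subtype).map (MulAut.conj t).toMonoidHom = E.map H.subtype ∧ Y ≤ Subgroup.normalizer ((E.map H.subtype : Subgroup G) : Set G) ∧ ¬ (t ∈ Subgroup.centralizer ((E.map H.subtype : Subgroup G) : Set G)) ∧ ¬ (Y ≤ Subgroup.centralizer ((E.map H.subtype : Subgroup G) : Set G)) := by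
  open H9 Subgroup in open scoped commutatorElement in
  have h0 : Op' 2 H = ⊥ := Op'_eq_bot_iff.2 hO
  have pt := isPGroup_zpowers_of_orderOf ht
  rw [oddCore, Op'_eq] at hY
  by_contra! h
  refine hY1 (eq_bot_of_centralizes h0 (hY.trans ((Op'_le 2 _).trans inf_le_left)) (cop_of_le (Op'_cop 2 _) hY)
    (hY.trans (centralizer_zpowers t ▸ Op'_centralizer_le_centralizer_Op h0 pt (zpowers_le.2 htH))) fun L hL => ?_)
  by_cases h1 : t ∈ normalizer (L : Set G) → t ∈ centralizer (L : Set G)
  · exact hY.trans (hL.Op'_le_centralizer h0 htH pt (by rw [← ht, pow_orderOf_eq_one]; exact one_mem _) h1)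
  push Not at h1
  have := h (L.subgroupOf H) (comp_iff.1 hL).2
  rw [subgroupOf_map_subtype, inf_eq_left.2 hL.le] at this
  exact this (mem_normalizer_iff_cj.1 h1.1) (hY.trans (centralizer_zpowers t ▸ hL.Op'_centralizer_le h0 pt
    (zpowers_le.2 htH))) h1.2

end Cfsg.Agent.S1328
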