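import Cfsg.Statements.S1329
import Cfsg.Agent.H9.Im
import Cfsg.Agent.H1.Generation
import Cfsg.Agent.FT.Final
import Cfsg.Agent.L.PG4

set_option autoImplicit false
open Cfsg

namespace Cfsg.Agent.S1329

open H9 Subgroup

def Cy {G : Type*} [Group G] (B B₀ : Subgroup G) : Prop := B₀ ≤ B ∧ ∃ a ∈ B, B ≤ B₀ ⊔ zpowers a

theorem bot_iff {G : Type*} [Group G] {A B : Subgroup G} : ⁅A, B⁆ = ⊥ ↔ A ≤ centralizer (B : Set G) :=
  commutator_eq_bot_iff_le_centralizer

theorem step {G : Type*} [Group G] [Finite G] {A B Y W : Subgroup G} (hA : IsMulCommutative A) (hB : B ≤ A)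
    (hc : CopA A Y) (hs : Group.IsSolvable Y) (hn : A ≤ normalizer (Y : Set G)) (hY : ⁅Y, A⁆ = Y)
    (hW : W ≤ Y ⊓ centralizer (B : Set G))
    (h : ∀ B₀, Cy B B₀ → ⁅Y ⊓ centralizer (B₀ : Set G), A⁆ ⊓ centralizer (B : Set G) ≤ W)
    (red : ∀ N ≤ Y, N ≠ ⊥ → Y ⊔ A ≤ normalizer (N : Set G) → Y ⊓ centralizer (B : Set G) ≤ W ⊔ N) :
    Y ⊓ centralizer (B : Set G) ≤ W := by
  by_contra hcon
  have H : ∀ N ≤ Y, Y ⊔ A ≤ normalizer (N : Set G) → N ⊓ centralizer (B : Set G) ≤ W → N = ⊥ := by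
    intro N h1 h2 h3
    by_contra h0
    refine hcon fun x hx => ?_
    obtain ⟨w, hw, n, hn, rfl⟩ := (mem_sup_of_le_normalizer ((hW.trans inf_le_left).trans
      (le_sup_left.trans h2))).1 (red N h1 h0 h2 hx)
    exact mul_mem hw (h3 ⟨hn, (Subgroup.mul_mem_cancel_left _ (hW hw).2).1 hx.2⟩)
  have cA := L.le_centralizer_of_comm hA
  have nC : ∀ {B₀}, B₀ ≤ A → A ≤ normalizer ((centralizer (B₀ : Set G) : Subgroup G) : Set G) := fun h =>
    (cA.trans (centralizer_anti h)).trans le_normalizer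
  obtain ⟨Z, hZ⟩ : ∃ Z, Z = Y ⊓ centralizer (Y : Set G) := ⟨_, rfl⟩
  have ZY : Z ≤ Y := hZ ▸ inf_le_left
  have ZC : Z ≤ centralizer (Y : Set G) := hZ ▸ inf_le_right
  have nZ : A ≤ normalizer (Z : Set G) := hZ ▸ normalizer_inf hn (normalizer_centralizer hn)
  have sub : ∀ U ≤ Z, Y ≤ normalizer (U : Set G) := fun U hU =>
    (le_centralizer_iff.1 (hU.trans ZC)).trans (centralizer_le_normalizer' _)
  have ZA : Z ≤ centralizer (A : Set G) := by
    have h1 : ⁅Z, A⁆ ≤ Z := commutator_le_left' nZ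
    have h2 : A ≤ normalizer ((⁅Z, A⁆ : Subgroup G) : Set G) := normalizer_commutator nZ le_normalizer
    refine bot_iff.1 (H _ (h1.trans ZY) (sup_le (sub _ h1) h2) ?_)
    rw [← cop_commutator_sup (normalizer_inf h2 (nC hB)) (hc.mono le_rfl (inf_le_left.trans (h1.trans ZY)))]
    refine sup_le ((le_inf (commutator_mono (inf_le_inf_right _ (h1.trans ZY)) le_rfl) ((commutator_le_left'
      (normalizer_inf h2 (nC hB))).trans inf_le_right)).trans (h B ⟨le_rfl, 1, one_mem _, le_sup_left⟩)) ?_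
    refine le_trans (le_trans ?_ (cop_abelian_inf (hZ ▸ L.isMulCommutative_inf_centralizer Y) nZ
      (hc.mono le_rfl ZY).cop).le) bot_le
    exact le_inf (inf_le_inf_right _ (inf_le_left.trans h1)) (inf_le_left.trans inf_le_left)
  have ZW : ∀ U ≤ Z, U ≤ W → U = ⊥ := fun U h1 h2 => H U (h1.trans ZY) (sup_le (sub U h1)
    ((le_centralizer_iff.1 (h1.trans ZA)).trans (centralizer_le_normalizer' _))) (inf_le_left.trans h2)
  have ZK : ∀ B₀, Cy B B₀ → ∀ U ≤ Z, U ≤ ⁅Y ⊓ centralizer (B₀ : Set G), A⁆ → U = ⊥ := fun B₀ h0 U h1 h2 =>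
    ZW U h1 ((le_inf h2 (h1.trans (ZA.trans (centralizer_anti hB)))).trans (h B₀ h0))
  have nL : ∀ {M B₀ : Subgroup G}, Cy B B₀ → A ≤ normalizer (M : Set G) →
      A ≤ normalizer ((M ⊓ centralizer (B₀ : Set G) : Subgroup G) : Set G) := fun h0 h1 =>
    normalizer_inf h1 (nC (h0.1.trans hB))
  have KL : ∀ B₀, Cy B B₀ → ⁅Y ⊓ centralizer (B₀ : Set G), A⁆ ≤ Y ⊓ centralizer (B₀ : Set G) := fun B₀ h0 =>
    commutator_le_left' (nL h0 hn)
  have gen : ∀ K : Subgroup G, (∀ B₀, Cy B B₀ → ⁅Y ⊓ centralizer (B₀ : Set G), A⁆ ≤ K) → Y ≤ K := fun K hK => by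
    obtain ⟨J, hJ⟩ : ∃ J, J = ⨆ B₀ : {B₀ // Cy B B₀}, ⁅Y ⊓ centralizer (B₀.1 : Set G), A⁆ := ⟨_, rfl⟩
    have a1 : A ≤ normalizer (J : Set G) := hJ ▸ normalizer_iSup fun B₀ =>
      normalizer_commutator (nL B₀.2 hn) le_normalizer
    have a2 : Y ⊓ centralizer (A : Set G) ≤ normalizer (J : Set G) := hJ ▸ normalizer_iSup fun B₀ =>
      normalizer_commutator ((inf_le_inf_left _ (centralizer_anti (B₀.2.1.trans hB))).trans le_normalizer)
        (inf_le_right.trans (centralizer_le_normalizer' _))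
    have a3 : Y ≤ J ⊔ (Y ⊓ centralizer (A : Set G)) := H1.le_of_centralizer_cocyclic_le
      (H1.isMulCommutative_of_le hB hA) (hB.trans hn) (hc.mono hB le_rfl).cop fun B₀ h1 h2 => by
        rw [← cop_commutator_sup (nL ⟨h1, h2⟩ hn) (hc.mono le_rfl inf_le_left)]
        exact sup_le_sup (hJ ▸ le_iSup_of_le (⟨B₀, h1, h2⟩ : {B₀ // Cy B B₀}) le_rfl) (inf_le_inf_right _ inf_le_left)
    refine hY.ge.trans ((commutator_mono a3 le_rfl).trans ((commutator_sup_le le_normalizer a2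
      (commutator_le_left' a1) ((bot_iff.2 inf_le_right).le.trans bot_le)).trans ?_))
    exact hJ ▸ iSup_le fun B₀ => hK _ B₀.2
  have T : ∀ M ≤ Y, A ≤ normalizer (M : Set G) → ∀ B₀, Cy B B₀ → ∀ L ≤ Y ⊓ centralizer (B₀ : Set G), ⁅M, L⁆ ≤ Z →
      ⁅M ⊓ centralizer (B₀ : Set G), L⁆ = ⊥ → M ≤ centralizer (L : Set G) := fun M h1 h2 B₀ h0 L h3 h4 h5 => by
    rw [← cop_commutator_sup ((h0.1.trans hB).trans h2) (hc.mono (h0.1.trans hB) h1)]
    refine sup_le (bot_iff.1 (commutator_commutator_eq_bot_of_rotate ?_ ?_)) (bot_iff.1 h5)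
    · rw [commutator_comm B₀, bot_iff.2 (h3.trans inf_le_right), commutator_bot_left]
    · rw [commutator_comm L]
      exact bot_iff.2 (h4.trans (ZA.trans (centralizer_anti (h0.1.trans hB))))
  have hne : ¬ Y ≤ centralizer (Y : Set G) := fun h' => by
    rw [inf_eq_left.2 h'] at hZ
    rw [← hZ, bot_iff.2 ZA] at hY
    exact hcon (inf_le_left.trans (hZ.ge.trans (hY.ge.trans bot_le)))
  obtain ⟨M, -, ⟨MY, nM, MC⟩, hmin⟩ := Finite.exists_le_minimal (p := fun M : Subgroup G => M ≤ Y ∧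
    Y ⊔ A ≤ normalizer (M : Set G) ∧ ¬ M ≤ centralizer (Y : Set G)) ⟨le_rfl, sup_le le_normalizer hn, hne⟩
  have nMY := le_sup_left.trans nM
  have nMA := le_sup_right.trans nM
  have nYY : Y ⊔ A ≤ normalizer (Y : Set G) := sup_le le_normalizer hn
  by_cases c1 : ⁅M, Y⁆ ≤ centralizer (Y : Set G)
  · have c2 : ⁅M, Y⁆ ≤ Z := hZ ▸ le_inf (commutator_le_of_le MY le_rfl) c1
    refine MC (le_centralizer_iff.1 (gen _ fun B₀ h0 => le_centralizer_iff.1 (T M MY nMA B₀ h0 _ (KL B₀ h0)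
      ((commutator_mono le_rfl ((KL B₀ h0).trans inf_le_left)).trans c2) (ZK B₀ h0 _
      ((commutator_mono inf_le_left ((KL B₀ h0).trans inf_le_left)).trans c2) (commutator_le_right' ?_)))))
    exact (inf_le_inf_right _ MY).trans (normalizer_commutator_ge_left _ _)
  have hM : M ≤ ⁅M, Y⁆ := hmin ⟨commutator_le_of_le MY le_rfl, normalizer_commutator nM nYY, c1⟩
    (commutator_le_left' nMY)
  have M0 : M ≠ ⊥ := fun h0 => MC (h0 ▸ bot_le)
  have c3 : ⁅M, M⁆ ≤ Z := by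
    refine hZ ▸ le_inf (commutator_le_of_le MY MY) ?_
    by_contra c
    exact (H1.commutator_lt_of_solvable (H1.isSolvable_of_le MY hs) M0).not_ge
      (hmin ⟨commutator_le_of_le MY MY, normalizer_commutator nM nM, c⟩ (commutator_le_of_le le_rfl le_rfl))
  have c4 : M ≤ centralizer (M : Set G) := by
    by_contra c
    have Z0 : Z ≠ ⊥ := fun h0 => c (bot_iff.1 (le_bot_iff.1 (h0 ▸ c3)))
    have r := red Z ZY Z0 (sup_le (sub Z le_rfl) nZ)
    refine c (H1.le_of_centralizer_cocyclic_le (H1.isMulCommutative_of_le hB hA) (hB.trans nMA) (hc.mono hB MY).cop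
      fun B₀ h1 h2 => le_centralizer_iff.1 (T M MY nMA B₀ ⟨h1, h2⟩ _ (inf_le_inf_right _ MY)
      ((commutator_mono le_rfl inf_le_left).trans c3) (bot_iff.2 ?_)))
    obtain ⟨L, hL⟩ : ∃ L, L = M ⊓ centralizer (B₀ : Set G) := ⟨_, rfl⟩
    have nL' : A ≤ normalizer (L : Set G) := hL ▸ nL ⟨h1, h2⟩ nMA
    have LM : L ≤ M := hL ▸ inf_le_left
    have LY : L ≤ Y ⊓ centralizer (B₀ : Set G) := hL ▸ inf_le_inf_right _ MY
    rw [← hL]
    have e := cop_commutator_sup nL' (hc.mono le_rfl (LM.trans MY))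
    have d1 : ⁅L, A⁆ ≤ centralizer (L : Set G) := bot_iff.1 (ZK B₀ ⟨h1, h2⟩ _
      ((commutator_mono ((commutator_le_left' nL').trans LM) LM).trans c3)
      ((commutator_le_left' (normalizer_commutator_ge_left _ _)).trans (commutator_mono LY le_rfl)))
    refine e.ge.trans (sup_le d1 (le_centralizer_iff.1 (e.ge.trans (sup_le
      (d1.trans (centralizer_anti inf_le_left)) (bot_iff.1 (ZW _ ?_ ?_))))))
    · exact (commutator_mono (inf_le_left.trans LM) (inf_le_left.trans LM)).trans c3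
    · have d2 : L ⊓ centralizer (A : Set G) ≤ W ⊔ Z := (inf_le_inf (LM.trans MY) (centralizer_anti hB)).trans r
      have d3 : Z ≤ centralizer (W : Set G) := ZC.trans (centralizer_anti (hW.trans inf_le_left))
      have d4 : Z ≤ normalizer (W : Set G) := d3.trans (centralizer_le_normalizer' _)
      refine (commutator_mono d2 d2).trans (commutator_sup_le le_normalizer d4 ?_ ?_)
      · exact commutator_le_left' (sup_le le_normalizer d4)
      · exact (bot_iff.2 (ZC.trans (centralizer_anti (sup_le (hW.trans inf_le_left) ZY)))).le.trans bot_le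
  refine M0 (H M MY nM ?_)
  have nMB := hB.trans nMA
  have U1 : (M ⊓ W) ⊔ ⁅M, B⁆ ≤ M := sup_le inf_le_left (commutator_le_left' nMB)
  have U2 : ∀ V ≤ M, V ≤ normalizer (((M ⊓ W) ⊔ ⁅M, B⁆ : Subgroup G) : Set G) := fun V hV =>
    (hV.trans (c4.trans (centralizer_anti U1))).trans (centralizer_le_normalizer' _)
  have U3 : ∀ B₀, Cy B B₀ → ⁅M, ⁅Y ⊓ centralizer (B₀ : Set G), A⁆⁆ ≤ (M ⊓ W) ⊔ ⁅M, B⁆ := fun B₀ h0 => by
    have n0 := (h0.1.trans hB).trans nMA
    have KY := (KL B₀ h0).trans inf_le_left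
    refine (commutator_mono (cop_commutator_sup n0 (hc.mono (h0.1.trans hB) MY)).ge le_rfl).trans
      (commutator_sup_le (U2 _ (commutator_le_left' n0)) (U2 _ inf_le_left) ?_ ?_)
    · refine (commutator_le_left' (normalizer_commutator (KY.trans nMY) (((KL B₀ h0).trans inf_le_right).trans
        (centralizer_le_normalizer' _)))).trans (le_sup_of_le_right (commutator_mono le_rfl h0.1))
    · have nV : B ≤ normalizer ((M ⊓ ⁅Y ⊓ centralizer (B₀ : Set G), A⁆ : Subgroup G) : Set G) :=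
        hB.trans (normalizer_inf nMA (normalizer_commutator (nL h0 hn) le_normalizer))
      refine (le_inf ((commutator_mono inf_le_left KY).trans (commutator_le_left' nMY)) (commutator_le_right'
        ((inf_le_inf_right _ MY).trans (normalizer_commutator_ge_left _ _)))).trans ?_
      rw [← cop_commutator_sup nV (hc.mono hB (inf_le_left.trans MY)), sup_comm]
      exact sup_le_sup (le_inf (inf_le_left.trans inf_le_left) ((inf_le_inf_right _ inf_le_right).trans (h B₀ h0)))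
        (commutator_mono inf_le_left le_rfl)
  have U4 : M ≤ (M ⊓ W) ⊔ ⁅M, B⁆ := by
    refine hM.trans ((commutator_mono le_rfl (gen (⨆ B₀ : {B₀ // Cy B B₀}, ⁅Y ⊓ centralizer (B₀.1 : Set G), A⁆)
      fun B₀ h0 => le_iSup_of_le (⟨B₀, h0⟩ : {B₀ // Cy B B₀}) le_rfl)).trans ?_)
    rw [commutator_comm]
    exact commutator_iSup_le (fun B₀ => le_normalizer_of_commutator_le (U3 _ B₀.2) U1)
      fun B₀ => (commutator_comm _ _).le.trans (U3 _ B₀.2)
  refine (le_inf (inf_le_left.trans U4) inf_le_right).trans ?_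
  rw [dedekind (inf_le_right.trans (hW.trans inf_le_right)) (Or.inl ((inf_le_left.trans (c4.trans
    (centralizer_anti (commutator_le_left' nMB)))).trans (centralizer_le_normalizer' _)))]
  refine sup_le inf_le_right (le_trans (le_trans ?_ (cop_abelian_inf (L.comm_of_le_centralizer c4) nMB
    (hc.mono hB MY).cop).le) bot_le)
  exact le_inf (inf_le_inf_right _ (commutator_le_left' nMB)) inf_le_left

theorem main.{u} (n : ℕ) : ∀ (G : Type u) [Group G] [Finite G], Nat.card G < n → ∀ A B Y W : Subgroup G,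
    IsMulCommutative A → B ≤ A → CopA A Y → Group.IsSolvable Y → A ≤ normalizer (Y : Set G) → ⁅Y, A⁆ = Y →
    W ≤ Y ⊓ centralizer (B : Set G) →
    (∀ B₀, Cy B B₀ → ⁅Y ⊓ centralizer (B₀ : Set G), A⁆ ⊓ centralizer (B : Set G) ≤ W) →
    Y ⊓ centralizer (B : Set G) ≤ W := by
  induction n with
  | zero => intro G _ _ h; omega
  | succ n ih =>
  intro G _ _ hG A B Y W hA hB hc hs hn hY hW h
  refine step hA hB hc hs hn hY hW h fun N h1 h0 h2 => ?_
  obtain ⟨Γ, _, _, f, -, hk, hcard⟩ := exists_quot (h1.trans le_sup_left) h2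
  have hl := card_lt_of_mul_eq hcard h0
  have AX : A ≤ Y ⊔ A := le_sup_right
  have YX : Y ≤ Y ⊔ A := le_sup_left
  have cA := L.le_centralizer_of_comm hA
  rw [← hk, ← im_le_im_iff f (inf_le_left.trans YX) ((hW.trans inf_le_left).trans YX),
    im_centralizer_cop f (hB.trans AX) (hB.trans hn) (hc.mono hB inf_le_right)]
  refine ih Γ (by omega) (im f A) _ _ _ (isMulCommutative_im f hA) (im_mono f hB) (hc.im f) (isSolvable_im f hs)
    (im_le_normalizer f hn) (by rw [← im_commutator f YX AX, hY]) ?_ fun B₁ ⟨h3, a', ha', h4⟩ => ?_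
  · exact le_inf (im_mono f (hW.trans inf_le_left)) (im_le_centralizer f (hW.trans inf_le_right))
  obtain ⟨a, ha, rfl⟩ := (mem_im f).1 ha'
  have e := im_pre_inf f h3
  have b1 : pre f B₁ ⊓ B ≤ A := inf_le_right.trans hB
  have h0 : Cy B (pre f B₁ ⊓ B) := by
    refine ⟨inf_le_right, a, ha, ?_⟩
    have s1 : pre f B₁ ⊓ B ⊔ zpowers (a : G) ≤ B := sup_le inf_le_right (zpowers_le.2 ha)
    rw [← e, ← im_zpowers, ← im_sup f (b1.trans AX) (zpowers_le.2 a.2),
      im_le_im_iff f (hB.trans AX) (s1.trans (hB.trans AX)), ← left_eq_inf, inf_comm,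
      dedekind s1 (Or.inl ((s1.trans (hB.trans AX)).trans (le_normalizer_kr f))), hk,
      inf_comm N, (hc.mono hB h1).inf_eq_bot, sup_bot_eq] at h4
    exact h4.le
  have nL : A ≤ normalizer ((Y ⊓ centralizer ((pre f B₁ ⊓ B : Subgroup G) : Set G) : Subgroup G) : Set G) :=
    normalizer_inf hn ((cA.trans (centralizer_anti b1)).trans le_normalizer)
  rw [← e, ← im_centralizer_cop f (b1.trans AX) (b1.trans hn) (hc.mono b1 inf_le_right),
    ← im_commutator f (inf_le_left.trans YX) AX, ← im_centralizer_cop f (hB.trans AX)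
    (hB.trans (normalizer_commutator nL le_normalizer))
    (hc.mono hB (inf_le_right.trans ((commutator_le_left' nL).trans inf_le_left)))]
  exact im_mono f (h _ h0)

/-- Let A be an abelian 2-subgroup of the finite group G, B ≤ A, and Y a subgroup of odd order normalized by A with ⁅Y, A⁆ = Y. Then Y ∩ C_G(B) is generated by the subgroups Y ∩ C_G(B) ∩ ⁅Y ∩ C_G(B₀), A⁆, B₀ ranging over the subgroups of B with B / B₀ cyclic. -/
theorem result {G : Type*} [Group G] [Finite G] (A B Y : Subgroup G) (hA2 : IsPGroup 2 ↥A) (hAc : IsMulCommutative ↥A) (hB : B ≤ A) (hYodd : Odd (Nat.card ↥Y)) (hAY : A ≤ Subgroup.normalizer (Y : Set G)) (hYA : ⁅Y, A⁆ = Y) : Y ⊓ Subgroup.centralizer (B : Set G) = ⨆ B₀ : {B₀ : Subgroup G // B₀ ≤ B ∧ ∀ [(B₀.subgroupOf B).Normal], IsCyclic (↥B ⧸ B₀.subgroupOf B)}, Y ⊓ Subgroup.centralizer (B : Set G) ⊓ ⁅Y ⊓ Subgroup.centralizer ((B₀ : Subgroup G) : Set G), A⁆ := by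
  refine le_antisymm (main _ G (Nat.lt_succ_self _) A B Y _ hAc hB (copA_of_p hA2 (Nat.coprime_two_right.2 hYodd))
    (FT.feit_thompson Y hYodd) hAY hYA (iSup_le fun _ => inf_le_left) fun B₀ h => ?_) (iSup_le fun _ => inf_le_left)
  refine le_iSup_of_le ⟨B₀, h.1, fun {_} => ?_⟩ (le_inf (inf_le_inf_right _ ((commutator_mono inf_le_left le_rfl).trans hYA.le))
    inf_le_left)
  obtain ⟨h0, a, ha, h⟩ := h
  refine ⟨(⟨a, ha⟩ : B), fun q => ?_⟩
  induction q using QuotientGroup.induction_on with | H b => ?_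
  obtain ⟨c, hc, _, ⟨k, rfl⟩, e⟩ := (mem_sup_of_le_normalizer' ((zpowers_le.2 (hB ha)).trans
    ((L.le_centralizer_of_comm hAc).trans ((centralizer_anti (h0.trans hB)).trans (centralizer_le_normalizer' _))))).1 (h b.2)
  refine ⟨k, ?_⟩
  show ((⟨a, ha⟩ : B) : B ⧸ B₀.subgroupOf B) ^ k = b
  rw [← QuotientGroup.mk_zpow, eq_comm, QuotientGroup.eq_iff_div_mem, mem_subgroupOf]
  simpa [div_eq_mul_inv, ← e] using hc

end Cfsg.Agent.S1329
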