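import Cfsg.Statements.S1331
import Cfsg.Agent.H1.Sig1
import Cfsg.Agent.L.PG3

set_option autoImplicit false
open Cfsg

namespace Cfsg.Agent.S1331

open H9 H1 Subgroup

/-- Let θ be a solvable A-signalizer functor on the finite group G for the prime p, A elementary abelian of rank at least 3, X a member of the family of θ, and B ≤ A with |B| ≥ p². Then X is generated by the subgroups X ∩ ⋂_{d ∈ D, d ≠ 1} θ d, D ranging over the subgroups of index p in B. -/
theorem result {G : Type*} [Group G] [Finite G] (p : ℕ) [Fact p.Prime] (A : Subgroup G) (hA : Cfsg.IsElementaryAbelian p A) (hA3 : p ^ 3 ≤ Nat.card ↥A) (θ : G → Subgroup G) (hθ : Cfsg.IsSolvableSignalizerFunctor p A θ) (X : Subgroup G) (hX : X ∈ Cfsg.signalizerFamily p A θ) (B : Subgroup G) (hB : B ≤ A) (hB2 : p ^ 2 ≤ Nat.card ↥B) : X = ⨆ D : {D : Subgroup G // D ≤ B ∧ D.relIndex B = p}, X ⊓ Cfsg.signalizerInf (D : Subgroup G) θ := by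
  have hX' := mem_fam.1 hX
  have hBe := L.isElem_of_le hA hB
  have key : ∀ D ≤ B, D.relIndex B = p → X ⊓ centralizer (D : Set G) ≤
      ⨆ D : {D : Subgroup G // D ≤ B ∧ D.relIndex B = p}, X ⊓ signalizerInf (D : Subgroup G) θ := fun D h1 h2 =>
    le_iSup_of_le ⟨D, h1, h2⟩ (le_inf inf_le_left (hX'.le_Th (h1.trans hB)))
  refine le_antisymm (gen_hyp hBe (hB.trans hX'.inv) hX'.cop fun D hD => ?_) (iSup_le fun D => inf_le_left)
  rcases (Nat.dvd_prime Fact.out).1 hD.dvd with h | h
  · have hP : IsPGroup p B := fun x => ⟨1, Subtype.ext (by simpa using hBe.2 x x.2)⟩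
    obtain ⟨k, hk⟩ := L.exists_card_eq_pow hP
    have hp : p.Prime := Fact.out
    rw [hk, Nat.pow_le_pow_iff_right hp.one_lt] at hB2
    obtain ⟨k, rfl⟩ : ∃ j, k = j + 1 := ⟨k - 1, by omega⟩
    obtain ⟨M, hM, cM⟩ := L.exists_le_card hP k (by rw [hk]; exact Nat.pow_le_pow_right hp.pos (by omega))
    refine le_trans (inf_le_inf_left _ (centralizer_anti (hM.trans (relIndex_eq_one.1 h)))) (key M hM ?_)
    have := H1.card_mul_relIndex hM
    rw [cM, hk, pow_succ] at this
    exact Nat.eq_of_mul_eq_mul_left (pow_pos hp.pos _) this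
  · exact key D hD.le h

end Cfsg.Agent.S1331
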