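import Cfsg.Statements.S1335
import Cfsg.Agent.H9.SPE
import Cfsg.Agent.FT.Rank

set_option autoImplicit false
open Cfsg

namespace Cfsg.Agent.S1335

open H9 FT Subgroup

/-- Let H be a subgroup of the finite group G, p a prime, k ≥ 1, P a Sylow p-subgroup of H of p-rank at least k, and suppose N_G(X) ≤ H for every subgroup X ≤ P of p-rank at least k. Then P is a Sylow p-subgroup of G. -/
theorem result {G : Type*} [Group G] [Finite G] {p : ℕ} [Fact p.Prime] (k : ℕ) (hk : 1 ≤ k) (H : Subgroup G) (P : Sylow p ↥H) (hP : ¬ Cfsg.PRankLE p (k - 1) ↥(P : Subgroup ↥H)) (hΓ : (∀ X : Subgroup G, X ≤ (P : Subgroup ↥H).map H.subtype → ¬ Cfsg.PRankLE p (k - 1) ↥X → Subgroup.normalizer (X : Set G) ≤ H)) : ∃ Q : Sylow p G, (Q : Subgroup G) = (P : Subgroup ↥H).map H.subtype := by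
  have h1 := syl_of_sylow P
  set S := (P : Subgroup H).map H.subtype with hS
  have h2 : ¬ PRankLE p (k - 1) S := by
    rw [← lt_rk_iff] at hP ⊢
    obtain ⟨A, hA⟩ := le_rk_iff.1 hP
    exact le_rk_iff.2 ⟨_, hA.map H.subtype (by rw [ker_subtype, bot_inf_eq])⟩
  have h3 := hΓ S le_rfl h2
  exact (Syl.of_normalizer (H := ⊤) (h1.mono (le_inf le_top le_normalizer) (inf_le_right.trans h3))).exists_sylow_top

end Cfsg.Agent.S1335
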