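import Cfsg.Statements.S1336
import Cfsg.Agent.H9.SPE
import Cfsg.Agent.FT.Rank
import Cfsg.Agent.L.PG3

set_option autoImplicit false
open Cfsg

namespace Cfsg.Agent.S1336

open H9 FT Subgroup

variable {G : Type*} [Group G] [Finite G] {p : ℕ} [hp : Fact p.Prime]

def R (p : ℕ) (A B : Subgroup G) : Prop := IsElementaryAbelian p A ∧ p ^ 1 ≤ Nat.card A ∧ IsElementaryAbelian p B ∧
  p ^ 1 ≤ Nat.card B ∧ ∀ a ∈ A, ∀ b ∈ B, a * b = b * a

theorem R.symm {A B : Subgroup G} (h : R p A B) : R p B A :=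
  ⟨h.2.2.1, h.2.2.2.1, h.1, h.2.1, fun b hb a ha => (h.2.2.2.2 a ha b hb).symm⟩

theorem R.cj {A B : Subgroup G} (h : R p A B) (g : G) : R p (cj g A) (cj g B) := by
  refine ⟨isElem_cj g h.1, by rw [card_cj]; exact h.2.1, isElem_cj g h.2.2.1,
    by rw [card_cj]; exact h.2.2.2.1, ?_⟩
  rintro _ ⟨a, ha, rfl⟩ _ ⟨b, hb, rfl⟩
  rw [← map_mul, ← map_mul, h.2.2.2.2 a ha b hb]

theorem rt_cj {A B : Subgroup G} (h : Relation.ReflTransGen (R p) A B) (g : G) :
    Relation.ReflTransGen (R p) (cj g A) (cj g B) := by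
  induction h with
  | refl => exact .refl
  | tail _ h ih => exact ih.tail (h.cj g)

theorem rt_symm {A B : Subgroup G} (h : Relation.ReflTransGen (R p) A B) :
    Relation.ReflTransGen (R p) B A := by
  induction h with
  | refl => exact .refl
  | tail _ h ih => exact ih.head h.symm

theorem isP {A : Subgroup G} (h : IsElementaryAbelian p A) : IsPGroup p A :=
  fun x => ⟨1, Subtype.ext (by simpa using h.2 x x.2)⟩

theorem ne_bot {A : Subgroup G} (h : p ^ 1 ≤ Nat.card A) : A ≠ ⊥ := fun e => by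
  rw [e, card_bot, pow_one] at h
  exact absurd hp.out.one_lt (by omega)

theorem exists_z {S : Subgroup G} (hS : IsPGroup p S) (h : S ≠ ⊥) :
    ∃ Z ≤ S, IsElementaryAbelian p Z ∧ p ^ 1 ≤ Nat.card Z ∧
      ∀ A ≤ S, IsElementaryAbelian p A → p ^ 1 ≤ Nat.card A → R p A Z := by
  have h1 := inf_centralizer_ne_bot_of_p hS hS le_normalizer h
  obtain ⟨Z, hZ⟩ := exists_el_one (dvd_card_of_p_le le_rfl (hS.to_le inf_le_left) h1)
  exact ⟨Z, hZ.le.trans inf_le_left, hZ.elem, hZ.card.ge, fun A h1 h2 h3 =>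
    ⟨h2, h3, hZ.elem, hZ.card.ge, fun a ha b hb => (mem_inf.1 (hZ.le hb)).2 a (h1 ha)⟩⟩

/-- Let G be finite and p prime. Then G has a proper subgroup H with p ∣ |H| and p ∤ |H ∩ gHg⁻¹| for every g ∉ H (a strongly p-embedded subgroup) if and only if G is not 1-connected for p. -/
theorem result {G : Type*} [Group G] [Finite G] (p : ℕ) [Fact p.Prime] : (∃ H : Subgroup G, H ≠ ⊤ ∧ p ∣ Nat.card ↥H ∧ ∀ g : G, g ∉ H → ¬ p ∣ Nat.card ↥(H ⊓ H.map (MulAut.conj g).toMonoidHom)) ↔ ¬ Cfsg.IsKConnected p 1 G := by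
  constructor
  · rintro ⟨H, h1, h2, h3⟩ hc
    have hs : SPE p H ⊤ := spe_of_ti (lt_top_iff_ne_top.2 h1) h2 fun g _ hg => h3 g hg
    obtain ⟨E, hE⟩ := exists_el_one h2
    obtain ⟨g, -, hg⟩ := SetLike.exists_of_lt hs.lt
    have key : ∀ B, Relation.ReflTransGen (R p) E B → B ≤ H := fun B hB => by
      induction hB with
      | refl => exact hE.le
      | tail _ h ih =>
        refine le_trans (le_inf le_top ?_) (hs.cle ih (isP h.1) (ne_bot h.2.1))
        exact fun b hb a ha => h.2.2.2.2 a ha b hb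
    exact hg (hs.mem_of_le (mem_top g) hE.isP hE.ne_bot hE.le
      (key _ (hc E (cj g E) hE.elem hE.card.ge (isElem_cj g hE.elem) (by rw [card_cj]; exact hE.card.ge))))
  · intro hc
    unfold IsKConnected at hc
    push Not at hc
    obtain ⟨E, E', h1, h2, h3, h4, h5⟩ := hc
    obtain ⟨S, hS, hES⟩ := exists_syl_ge (isP h1) (le_top : E ≤ ⊤)
    have hS0 : S ≠ ⊥ := fun e => ne_bot h2 (eq_bot_iff.2 (e ▸ hES))
    obtain ⟨Z, hZS, z1, z2, z3⟩ := exists_z hS.isP hS0
    let H : Subgroup G :=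
      { carrier := {g | Relation.ReflTransGen (R p) Z (cj g Z)}
        one_mem' := by
          show Relation.ReflTransGen (R p) Z (cj 1 Z)
          rw [cj_eq_of_mem (one_mem _)]
        mul_mem' := fun {a b} ha hb => by
          show Relation.ReflTransGen (R p) Z (cj (a * b) Z)
          rw [cj_mul]
          exact Relation.ReflTransGen.trans ha (rt_cj hb a)
        inv_mem' := fun {a} ha => by
          show Relation.ReflTransGen (R p) Z (cj a⁻¹ Z)
          have := rt_cj ha a⁻¹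
          rw [← cj_mul, inv_mul_cancel, cj_eq_of_mem (one_mem _)] at this
          exact rt_symm this }
    have hlt : H < ⊤ := by
      rw [lt_top_iff_ne_top]
      intro e
      obtain ⟨g, -, hg⟩ := hS.exists_cj_le (isP h3) le_top
      have k1 : Relation.ReflTransGen (R p) Z (cj g⁻¹ Z) := (e ▸ mem_top g⁻¹ : g⁻¹ ∈ H)
      have k2 := (z3 _ hg (isElem_cj g h3) (by rw [card_cj]; exact h4)).cj g⁻¹
      rw [← cj_mul, inv_mul_cancel, cj_eq_of_mem (one_mem _)] at k2
      exact h5 ((Relation.ReflTransGen.head (z3 E hES h1 h2) k1).tail k2.symm)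
    have hs : SPE p H ⊤ := by
      refine spe_of_syl hlt hS hS0 fun A hA h0 g hg => ?_
      obtain ⟨Y, hYA, y1, y2, y3⟩ := exists_z (hS.isP.to_le hA) h0
      have e : cj g A = A := mem_normalizer_iff_cj.1 (mem_inf.1 hg).2
      have k1 := z3 Y (hYA.trans hA) y1 y2
      have k2 := y3 (cj g Y) ((cj_mono g hYA).trans e.le) (isElem_cj g y1) (by rw [card_cj]; exact y2)
      exact ((Relation.ReflTransGen.single k1.symm).tail k2.symm).tail (k1.cj g)
    exact ⟨H, hlt.ne, hs.dvd, fun g hg hd => hg (hs.mem_of_dvd (mem_top g) hd)⟩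

end Cfsg.Agent.S1336
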