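import Cfsg.Statements.S1337
import Cfsg.Agent.H9.SPE
import Cfsg.Agent.FT.B5
import Cfsg.Agent.L.PG3

set_option autoImplicit false
open Cfsg

namespace Cfsg.Agent.S1337

open H9 FT Subgroup

variable {G : Type*} [Group G] [Finite G] {p : ℕ} [hp : Fact p.Prime]

theorem card_le_mul {A B : Subgroup G} {n : ℕ} (h : B.relIndex A ≤ n) :
    Nat.card A ≤ Nat.card (A ⊓ B : Subgroup G) * n := by
  rw [L.card_eq_of_relIndex (inf_le_left : A ⊓ B ≤ A) rfl, inf_comm, inf_relIndex_right]
  exact Nat.mul_le_mul_left _ h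

theorem big {A H : Subgroup G} (hA : IsElementaryAbelian p A) (h : A ≤ H) {n : ℕ} (hc : p ^ n < Nat.card A) :
    n < rk p H := by
  have := lt_of_lt_of_le hc (card_le_pow_rk hA h)
  exact (Nat.pow_lt_pow_iff_right hp.out.one_lt).1 this

theorem step {A B : Subgroup G} (hA : IsElementaryAbelian p A) (hB : IsElementaryAbelian p B)
    (h1 : p ^ 2 ≤ Nat.card A) (h2 : p ^ 2 ≤ Nat.card B) (hc : ∀ a ∈ A, ∀ b ∈ B, a * b = b * a) :
    A = B ∨ 2 < rk p (centralizer (A : Set G)) := by
  have hAB : A ≤ centralizer (B : Set G) := fun a ha b hb => (hc a ha b hb).symm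
  by_cases h : p ^ 2 < Nat.card (A ⊔ B : Subgroup G)
  · haveI := hA.1
    exact Or.inr (big (L.isElem_sup hA hB hAB) (sup_le (le_centralizer A) (le_centralizer_iff.1 hAB)) h)
  · left
    have e1 : A = A ⊔ B := eq_of_le_of_card_ge le_sup_left (by omega)
    have e2 : B = A ⊔ B := eq_of_le_of_card_ge le_sup_right (by omega)
    exact e1.trans e2.symm

/-- Let P be a finite p-group of p-rank greater than 2. Then P has a normal elementary abelian subgroup U of order p², and for every elementary abelian X ≤ P with |X| ≥ p²: X is joined to U by a chain of pairwise commuting elementary abelian subgroups of order ≥ p² if and only if C_P(X) has p-rank greater than 2. -/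
theorem result {P : Type*} [Group P] [Finite P] (p : ℕ) [Fact p.Prime] (hP : IsPGroup p P) (hrk : ¬ Cfsg.PRankLE p 2 P) : ∃ U : Subgroup P, U.Normal ∧ Cfsg.IsElementaryAbelian p U ∧ Nat.card ↥U = p ^ 2 ∧ ∀ X : Subgroup P, Cfsg.IsElementaryAbelian p X → p ^ 2 ≤ Nat.card ↥X → (Relation.ReflTransGen (fun A B : Subgroup P => Cfsg.IsElementaryAbelian p A ∧ p ^ 2 ≤ Nat.card ↥A ∧ Cfsg.IsElementaryAbelian p B ∧ p ^ 2 ≤ Nat.card ↥B ∧ ∀ a ∈ A, ∀ b ∈ B, a * b = b * a) X U ↔ ¬ Cfsg.PRankLE p 2 ↥(Subgroup.centralizer (X : Set P))) := by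
  have hp : Fact p.Prime := inferInstance
  have hT : IsPGroup p (⊤ : Subgroup P) := hP.to_subgroup _
  have hp1 := hp.out.one_lt
  rw [← rk_top_le_iff, not_le] at hrk
  obtain ⟨E, hE⟩ := le_rk_iff.1 hrk
  have e3 : p ^ (2 + 1) = p ^ 2 * p := pow_succ _ _
  have hpp : p < p ^ 2 := by nlinarith
  obtain ⟨U, -, hn, hU, hc⟩ : ∃ A : Subgroup P, A ≤ ⊤ ∧ ⊤ ≤ normalizer (A : Set P) ∧ IsElementaryAbelian p A ∧
      Nat.card A = p ^ 2 := by
    by_contra hcon
    push Not at hcon
    rcases L.normal_rank_one hT hcon with h | ⟨h2, n, a, b, -, -, -, -, hi, -⟩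
    · haveI := h
      have := L.card_le_of_isCyclic hp.out.ne_zero (isCyclic_of_le (le_top : E ≤ ⊤)) hE.elem.2
      rw [hE.card] at this
      change p ^ (2 + 1) ≤ p at this
      nlinarith
    · have h1 := card_le_mul (A := E) (B := zpowers a) (n := 2)
        (hi ▸ relIndex_le_of_le_right le_top index_ne_zero_of_finite)
      have h3 := L.card_le_of_isCyclic (E := E ⊓ zpowers a) hp.out.ne_zero
        (isCyclic_of_le inf_le_right) fun x hx => hE.elem.2 x (mem_inf.1 hx).1
      rw [hE.card] at h1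
      subst h2
      change 2 ^ (2 + 1) ≤ _ at h1
      omega
  have hEl : El p 2 U ⊤ := ⟨le_top, hU, hc⟩
  have key : ∀ A : Subgroup P, El p (2 + 1) A ⊤ →
      p ^ 2 ≤ Nat.card (A ⊓ centralizer (U : Set P) : Subgroup P) := fun A hA => by
    have h1 := card_le_mul (hEl.relIndex_centralizer_le hA.isP (le_top.trans hn))
    rw [hA.card, e3] at h1
    exact Nat.le_of_mul_le_mul_right h1 hp.out.pos
  refine ⟨U, normalizer_eq_top_iff.1 (top_le_iff.1 hn), hU, hc, fun X hX hXc => ?_⟩
  rw [← lt_rk_iff]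
  constructor
  · intro h
    have hUr : 2 < rk p (centralizer (U : Set P)) := by
      rcases step hU (L.isElem_of_le hE.elem inf_le_left) hc.ge (key E hE)
        (fun a ha b hb => (mem_inf.1 hb).2 a ha) with h | h
      · have h1 : U ≤ E := h.le.trans inf_le_left
        refine big hE.elem (hE.le_centralizer.trans (centralizer_le (SetLike.coe_subset_coe.2 h1))) ?_
        rw [hE.card]
        exact Nat.pow_lt_pow_right hp1 (by omega)
      · exact h
    induction h using Relation.ReflTransGen.head_induction_on with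
    | refl => exact hUr
    | head h1 _ ih =>
      rcases step h1.1 h1.2.2.1 h1.2.1 h1.2.2.2.1 h1.2.2.2.2 with h | h
      · rw [h]; exact ih h1.2.2.1 h1.2.2.2.1
      · exact h
  · intro h
    obtain ⟨A, hA⟩ := le_rk_iff.1 h
    have hA' : El p (2 + 1) A ⊤ := hA.mono le_top
    have h1 : p ^ 2 ≤ Nat.card A := by rw [hA'.card]; exact Nat.pow_le_pow_right hp.out.pos (by omega)
    have h2 := L.isElem_of_le hA.elem (inf_le_left : A ⊓ centralizer (U : Set P) ≤ A)
    refine Relation.ReflTransGen.head ⟨hX, hXc, hA.elem, h1, fun a ha b hb => hA.le hb a ha⟩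
      (Relation.ReflTransGen.head ⟨hA.elem, h1, h2, key A hA', fun a ha b hb =>
        hA.le_centralizer (mem_inf.1 hb).1 a ha⟩ (Relation.ReflTransGen.single
          ⟨h2, key A hA', hU, hc.ge, fun a ha b hb => ((mem_inf.1 ha).2 b hb).symm⟩))

end Cfsg.Agent.S1337
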