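import Cfsg.Statements.S1338
import Cfsg.Agent.H1.Q6

set_option autoImplicit false
open Cfsg

namespace Cfsg.Agent.S1338

open H1
open Subgroup H9 FT

/-- A finite 3-group of 3-rank at least 4 is 2-connected for the prime 3: its commuting graph on elementary abelian subgroups of order ≥ 9 is connected. -/
theorem result {P : Type*} [Group P] [Finite P] (hP : IsPGroup 3 P) (hrk : ¬ Cfsg.PRankLE 3 3 P) : Cfsg.IsKConnected 3 2 P := by
  have : Fact (Nat.Prime 3) := ⟨Nat.prime_three⟩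
  obtain ⟨E, hE⟩ := le_rk_iff.1 (not_le.1 (mt rk_top_le_iff.1 hrk))
  obtain ⟨N, hN, n⟩ := kj (by norm_num) (hP.to_subgroup ⊤) hE
  have := normalizer_eq_top_iff.1 (top_le_iff.1 n)
  obtain ⟨Z, hZ, z⟩ := exists_el_central (E := N) hP (by rw [hN.card]; norm_num)
  intro A B a1 a2 b1 b2
  have key : ∀ A : Subgroup P, IsElementaryAbelian 3 A → 3 ^ 2 ≤ Nat.card A → Relation.ReflTransGen (fun A B : Subgroup P =>
      IsElementaryAbelian 3 A ∧ 3 ^ 2 ≤ Nat.card A ∧ IsElementaryAbelian 3 B ∧ 3 ^ 2 ≤ Nat.card B ∧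
      ∀ a ∈ A, ∀ b ∈ B, a * b = b * a) A N := fun A a1 a2 => by
    obtain ⟨A0, l, e⟩ := exists_le_card (elem_isP a1) a2
    obtain ⟨B, b1, b2, -⟩ := el_ext (H := ⊤) ⟨le_top, el_le a1 l, e⟩ hZ one_le_two (z _)
    obtain ⟨c, hc, rfl⟩ := el_succ b1 hZ b2
    obtain ⟨F, hF⟩ := pow_le_fix hN.elem (n (mem_top c)) (b1.pow hc) (k := 1) (by rw [hN.card]; norm_num)
    exact .head ⟨a1, a2, b1.elem, b1.card.ge, fun a ha b hb =>
        (b1.le.trans (sup_le (l.trans (L.le_centralizer_of_comm a1.1)) (z A))) hb a ha⟩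
      (.head ⟨b1.elem, b1.card.ge, hF.elem, hF.card.ge, fun a ha b hb =>
        (sup_zp_le_cent (z F) (hF.le.trans inf_le_right) ha b hb).symm⟩
      (.single ⟨hF.elem, hF.card.ge, hN.elem, by rw [hN.card]; norm_num, fun a ha b hb => ab_comm hN.comm (hF.le ha).1 hb⟩))
  exact rt_of_base (fun A B h => ⟨h.2.2.1, h.2.2.2.1, h.1, h.2.1, fun b hb a ha => (h.2.2.2.2 a ha b hb).symm⟩)
    (key A a1 a2) (key B b1 b2)

end Cfsg.Agent.S1338
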