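import Cfsg.Statements.S1343
import Cfsg.Agent.H9.LB2

set_option autoImplicit false
open Cfsg

namespace Cfsg.Agent.S1343

/-- Let X be finite. Then L*_{2'}(X) = L_{2'}(X) ⊔ F for some subgroup F of odd order normalized by a Sylow 2-subgroup of X. -/
theorem result {X : Type*} [Group X] [Finite X] : ∃ F : Subgroup X, Odd (Nat.card ↥F) ∧ (∃ S : Sylow 2 X, (S : Subgroup X) ≤ Subgroup.normalizer (F : Set X)) ∧ Cfsg.extendedTwoLayer X = Cfsg.pLayer 2 X ⊔ F := by
  open H9 Subgroup in open scoped commutatorElement in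
  obtain ⟨S⟩ := (inferInstance : Nonempty (Sylow 2 X))
  have n := normalizer_sup (le_normalizer_PLay 2 (⊤ : Subgroup X)) (le_normalizer_Opp 2 ⊤)
  have h := (syl_top_of_sylow S).inf_normal le_top n
  have n2 := fun {Y : Subgroup X} => (le_top : Y ≤ ⊤).trans (le_normalizer_Op' 2 (⊤ : Subgroup X))
  refine ⟨_, Nat.coprime_two_right.1 ?_, ⟨S, ?_⟩, by rw [← XL_top, XL_eq_of_syl h, sup_assoc, ← PLay_top]⟩
  · rw [sup_comm]; exact cop_sup (Op'_cop 2 _) (Op'_cop 2 _) n2
  · exact normalizer_sup n2 (normalizer_Op' (normalizer_inf le_normalizer_of_normal (normalizer_centralizer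
      (normalizer_inf le_normalizer (le_top.trans n)))))

end Cfsg.Agent.S1343
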