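import Cfsg.Statements.S1346
import Cfsg.Agent.H9.LB2

set_option autoImplicit false
open Cfsg

namespace Cfsg.Agent.S1346

/-- Let G be a finite group all of whose 2-local subgroups have known non-abelian composition factors, and x, y commuting involutions. Then the extended 2-layer of L*_{2'}(C_G(x)) ∩ C_G(y) (as a group) is contained in L*_{2'}(C_G(y)). -/
theorem result {G : Type*} [Group G] [Finite G] (hK : ∀ T : Subgroup G, IsPGroup 2 ↥T → T ≠ ⊥ → Cfsg.IsCompositionKGroup ↥(Subgroup.normalizer (T : Set G))) (x y : G) (hx : orderOf x = 2) (hy : orderOf y = 2) (hxy : x * y = y * x) : (Cfsg.extendedTwoLayer ↥((Cfsg.extendedTwoLayer ↥(Subgroup.centralizer ({x} : Set G))).map (Subgroup.centralizer ({x} : Set G)).subtype ⊓ Subgroup.centralizer ({y} : Set G))).map ((Cfsg.extendedTwoLayer ↥(Subgroup.centralizer ({x} : Set G))).map (Subgroup.centralizer ({x} : Set G)).subtype ⊓ Subgroup.centralizer ({y} : Set G)).subtype ≤ (Cfsg.extendedTwoLayer ↥(Subgroup.centralizer ({y} : Set G))).map (Subgroup.centralizer ({y} : Set G)).subtype :=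 by
  open H9 Subgroup in open scoped commutatorElement in
  rw [XL_eq, XL_eq, XL_eq]
  have px := isPGroup_zpowers_of_orderOf hx
  have s : SN (XL (centralizer {x}) ⊓ centralizer {y}) (centralizer {y} ⊓ centralizer (zpowers x : Set G)) := by
    rw [centralizer_zpowers, inf_comm (centralizer {y})]
    exact (SN.of_normal (XL_le _) (normalizer_XL le_normalizer)).inf_right _
  have xy : zpowers x ≤ centralizer {y} := zpowers_le.2 (mem_centralizer_singleton_iff.2 hxy)
  refine XL_le_iff.2 ⟨s.PLay_le_PLay.trans ((lbal_act px (xy.trans le_normalizer)).trans (PLay_le_XL _)),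
    s.Op'_le_Op'.trans (core_bal px (xy.trans le_normalizer)), fun T hT => ?_⟩
  have a := hT.le.trans ((sup_le (PLay_le 2 _) (Opp_le 2 _)).trans s.le)
  refine (s.inf_right _).Op'_le_Op'.trans ?_
  rw [inf_assoc, ← centralizer_sup]
  exact core_bal (IsPGroup.to_sup_of_normal_left' px hT.isP ((a.trans inf_le_right).trans (centralizer_le_normalizer' _)))
    ((sup_le xy (a.trans inf_le_left)).trans le_normalizer)

end Cfsg.Agent.S1346
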