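import Cfsg.Statements.S1347
import Cfsg.Agent.H9.LB3

set_option autoImplicit false
open Cfsg

namespace Cfsg.Agent.S1347

/-- Let A be a standard subgroup of the finite group G with O(G) = 1, and t an involution of C_G(A). Then (i) A is normal in G; or (ii) there is a non-abelian simple subgroup X ≅ A with X and tXt⁻¹ commuting, meeting trivially and generating E(G), and C_G(A) = ⟨t⟩; or (iii) A ≤ E(G) and E(G) is non-abelian simple. -/
theorem result {G : Type*} [Group G] [Finite G] (A : Subgroup G) (hA : Cfsg.IsStandardSubgroup A) (hO : Cfsg.oddCore G = ⊥) (t : G) (ht : orderOf t = 2) (htA : t ∈ Subgroup.centralizer (A : Set G)) : A.Normal ∨ (∃ X : Subgroup G, IsSimpleGroup ↥X ∧ ¬ IsMulCommutative ↥X ∧ Nonempty (↥X ≃* ↥A) ∧ (∀ a ∈ X, ∀ b ∈ X.map (MulAut.conj t).toMonoidHom, a * b = b * a) ∧ X ⊓ X.map (MulAut.conj t).toMonoidHom = ⊥ ∧ X ⊔ X.map (MulAut.conj t).toMonoidHom = Cfsg.layer G ∧ Subgroup.centralizer (A : Set G) = Subgroup.zpowers t) ∨ (A ≤ Cfsg.layer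 G ∧ IsSimpleGroup ↥(Cfsg.layer G) ∧ ¬ IsMulCommutative ↥(Cfsg.layer G)) := by
  open H9 Subgroup in open scoped commutatorElement in
  have h0 : Op' 2 (⊤ : Subgroup G) = ⊥ := (Op'_top 2).trans hO
  have q := std_qs hA
  have h1 := std_comp hA ht htA le_top
  have h2 := std_le_Lay hA ht htA (h0 ▸ le_centralizer_iff.1 bot_le)
  obtain ⟨D, hD, h3⟩ := exists_comp_not_le h2 q.perfect q.ne_bot
  have h4 := h1.pump hD le_normalizer_of_normal h2 h3
  have k0 : ¬ D ≤ A → ∀ Y, SN Y ⊤ → Y ≤ centralizer (A : Set G) → Y ≤ centralizer (D : Set G) →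
      Group.IsSolvable Y ∧ (Group.IsNilpotent Y → Y = ⊥) := fun a Y s b c => by
    have : (Nat.card Y).Coprime 2 := cop_iff.2 fun e => by
      obtain ⟨y, hy, o⟩ := exists_orderOf_eq_of_dvd e
      have := (le_centralizer_singleton_iff.2 (c hy)).trans (std_le hA o (b hy))
      exact a (((hD.le_commutator_or le_top).resolve_right fun e => h3 (le_centralizer_iff.1
        (le_centralizer_iff'.2 e))).trans (commutator_le_right' this))
    have e := le_bot_iff.1 ((s.le_Op' this).trans h0.le)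
    exact ⟨e ▸ inferInstance, fun _ => e⟩
  have k1 : ¬ D ≤ A → Fit (⊤ : Subgroup G) = ⊥ := fun a => (k0 a _ (sn_Fit ⊤) (le_centralizer_iff.1
    (h2.trans (Lay_le_centralizer_Fit ⊤))) (le_centralizer_iff.1 (hD.le_Lay.trans (Lay_le_centralizer_Fit ⊤)))).2
    (Fit_nil ⊤)
  by_cases h5 : t ∈ normalizer (D : Set G)
  · have h6 := h4.trans (ncl_le le_rfl (zpowers_le.2 h5))
    by_cases h7 : D ≤ A
    · obtain rfl := le_antisymm h6 h7
      refine Or.inl (normal_iff_cj.2 fun g => ?_)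
      by_contra e
      exact (hD.eq_or_comm (hD.cj_of_mem (le_normalizer_of_normal (mem_top g)))).elim (fun b => e b.symm) (hA.2.2.1 g e)
    have e : Lay ⊤ = D := le_antisymm (Lay_le_iff.2 fun K hK => (hK.eq_or_comm hD).elim le_of_eq fun b => absurd
      (k0 h7 K hK.sn ((le_centralizer_iff'.2 b).trans (centralizer_anti h6)) (le_centralizer_iff'.2 b)).1
      hK.qs.not_solvable) hD.le_Lay
    rw [← Lay_top, e]
    exact Or.inr (Or.inr ⟨h6, hD.simple (k1 h7)⟩)
  have nt : t ∈ normalizer ((⊤ : Subgroup G) : Set G) := le_normalizer_of_normal (mem_top t)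
  have tA : A ≤ centralizer {t} := le_centralizer_singleton_iff.2 htA
  have h7 : ¬ D ≤ A := fun e => h5 (centralizer_le_normalizer' D (le_centralizer_singleton_iff.1 (e.trans tA)))
  obtain ⟨J, a1, a2, a3, -, a4⟩ := hD.diag nt h5 (isPGroup_zpowers_of_orderOf ht)
    (by rw [← ht, pow_orderOf_eq_one]; exact one_mem _)
  rw [centralizer_zpowers] at h1
  obtain rfl := h1.eq_of_le a1 (a4 A (le_inf h4 tA) q.perfect)
  have c0 := centralizer_inf_le_ncl D (zpowers t)
  rw [ncl_two ht] at h4 c0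
  rw [centralizer_zpowers] at c0
  have hD' := hD.cj_of_mem nt
  have c1 := (hD.eq_or_comm hD').resolve_left fun e => h5 (mem_normalizer_iff_cj.2 e.symm)
  have k2 : ∀ K, Comp K ⊤ → K = D ∨ K = cj t D := fun K hK => by
    by_contra! e
    have b1 := le_centralizer_iff'.2 ((hK.eq_or_comm hD).resolve_left e.1)
    have b2 := le_centralizer_iff'.2 ((hK.eq_or_comm hD').resolve_left e.2)
    exact hK.qs.not_solvable (k0 h7 K hK.sn ((centralizer_sup D _ ▸ le_inf b1 b2 :
      K ≤ centralizer ((D ⊔ cj t D : Subgroup G) : Set G)).trans (centralizer_anti h4)) b1).1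
  have e : D ⊔ cj t D = Lay ⊤ := le_antisymm (sup_le hD.le_Lay hD'.le_Lay) (Lay_le_iff.2 fun K hK =>
    (k2 K hK).elim (fun b => b.le.trans le_sup_left) fun b => b.le.trans le_sup_right)
  have k3 : centralizer ((D ⊔ cj t D : Subgroup G) : Set G) = ⊥ := by
    have := centralizer_Fst_le (⊤ : Subgroup G)
    rw [Fst, k1 h7, sup_bot_eq, top_inf_eq] at this
    rw [e, eq_bot_iff, ← k1 h7]
    exact le_Fit le_top (normalizer_centralizer (le_normalizer_Lay ⊤)) (isNilpotent_of_le_centralizer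
      (centralizer_anti this))
  have c2 := le_centralizer_iff'.2 c1
  have k4 : D ⊓ centralizer (D : Set G) = ⊥ := le_bot_iff.1 (k3 ▸ centralizer_sup D _ ▸ le_inf inf_le_right
    (inf_le_left.trans c2))
  have AN := h2.trans hD.Lay_le_normalizer
  have k5 : ∀ c ∈ centralizer (A : Set G), c ∈ normalizer (D : Set G) → c = 1 := fun c b1 b2 => by
    have b3 := fun (K : Subgroup G) (x : A ≤ normalizer (K : Set G)) y (z : c ∈ normalizer (K : Set G)) (w : ⁅K, K⁆ = K) =>
      le_centralizer_of_cover w x y (zpowers_le.2 z) ((le_centralizer_iff'.1 (le_centralizer_iff.1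
        (zpowers_le.2 b1))).le.trans bot_le) (mem_zpowers c)
    have b4 := cj_mono t a3
    rw [cj_sup, cj_centralizer, cj_eq_of_mem_centralizer htA] at b4
    rw [← mem_bot, ← k3, centralizer_sup]
    refine ⟨b3 D AN a3 b2 hD.qs.perfect, b3 _ (h2.trans hD'.Lay_le_normalizer) b4 (mem_normalizer_iff_cj.2
      ((k2 _ (hD'.cj_of_mem (le_normalizer_of_normal (mem_top c)))).resolve_left fun b => h5 ?_)) hD'.qs.perfect⟩
    rw [← cj_mul] at b
    simpa using mul_mem (inv_mem b2) (mem_normalizer_iff_cj.2 b)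
  obtain ⟨Γ, _, _, f, -, hk, -⟩ := exists_quot (centralizer_le_normalizer' D) (normalizer_centralizer le_rfl)
  refine Or.inr (Or.inl ⟨D, (hD.simple (k1 h7)).1, (hD.simple (k1 h7)).2, equiv_of_im f le_normalizer AN
    (by rw [hk, inf_comm, k4]) (le_bot_iff.1 (k3 ▸ hk ▸ (inf_le_inf_left _ tA).trans c0)) (le_antisymm
      ((im_le_im_iff f le_normalizer AN).2 (hk ▸ a3)) ((im_le_im_iff f AN le_normalizer).2
        (hk ▸ h2.trans hD.Lay_le_sup))), fun a ha b hb => (c2 ha b hb).symm, le_bot_iff.1 (k4 ▸ inf_le_inf_left _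
          (le_centralizer_iff.1 c2)), e.trans Lay_top, le_antisymm (fun c hc => (H1.mem_zpowers_two ht).2 ?_)
            (zpowers_le.2 htA)⟩)
  refine (k2 _ (hD.cj_of_mem (le_normalizer_of_normal (mem_top c)))).imp (fun b => k5 c hc (mem_normalizer_iff_cj.2 b))
    fun b => ?_
  exact (inv_mul_eq_one.1 (k5 _ (mul_mem (inv_mem htA) hc) (mem_normalizer_iff_cj.2 (by rw [cj_mul, b, cj_inv_cj])))).symm

end Cfsg.Agent.S1347
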