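import Cfsg.Statements.S1348
import Cfsg.Agent.H5.SL
import Cfsg.Agent.H5.FF

set_option autoImplicit false
open Cfsg

namespace Cfsg.Agent.S1348

open H5 Matrix Subgroup

theorem qs_congr {G H : Type*} [Group G] [Group H] (e : G ≃* H) (h : IsQuasisimple G) : IsQuasisimple H := by
  haveI := h.1
  haveI := h.2
  exact ⟨Group.IsPerfect.ofSurjective (f := e.toMonoidHom) e.surjective, (QuotientGroup.congr (center G) (center H) e (by
    ext x; obtain ⟨x, rfl⟩ := e.surjective x
    refine (mem_map_iff_mem (f := (e : G →* H)) e.injective).trans ?_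
    rw [mem_center_iff, mem_center_iff, e.surjective.forall]
    simp only [← map_mul, e.injective.eq_iff])).symm.isSimpleGroup⟩

theorem std {G X : Type*} [Group G] [Finite G] [Group X] (ι : X →* G) (hι : Function.Injective ι) {t : G} (hr : ι.range = centralizer {t}) (N : Subgroup X) [N.Normal] (hN : IsQuasisimple N) (hc : commutator X ≤ N)
    {s : X} (s1 : s ∈ N) (hs : ι s = t) (s2 : s ≠ 1) (s3 : s * s = 1) (ab : centralizer N ≤ center X) (un : ∀ x ∈ centralizer (N : Set X), x * x = 1 → x = 1 ∨ x = s) :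
    IsStandardSubgroup ((layer (centralizer ({t} : Set G))).map (centralizer ({t} : Set G)).subtype) := by
  let e : X ≃* centralizer ({t} : Set G) := (MonoidHom.ofInjective hι).trans (MulEquiv.subgroupCongr hr)
  have hl : layer (centralizer ({t} : Set G)) = N.map e.toMonoidHom := le_antisymm (sSup_le fun K hK => by
    haveI := hK.2.1
    rw [← commutator_eq_self (H := K)]
    refine (commutator_mono le_top le_top).trans (le_trans (ge_of_eq ?_) (map_mono hc))
    rw [commutator_def, map_commutator, map_top_of_surjective _ e.surjective]) (le_sSup ⟨(Normal.map ‹_› _ e.surjective).isSubnormal, qs_congr (e.subgroupMap N) hN⟩)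
  rw [hl, Subgroup.map_map, show (centralizer {t}).subtype.comp e.toMonoidHom = ι from rfl]
  subst hs
  have c : ∀ g, g * ι s = ι s * g ↔ ∃ x, ι x = g := fun g => mem_centralizer_singleton_iff.symm.trans (hr ▸ Iff.rfl)
  have q : ∀ g, g ∈ centralizer (N.map ι : Set G) ↔ ∃ x ∈ centralizer (N : Set X), ι x = g := fun g => ⟨fun h => ((c g).1 (h _ ⟨s, s1, rfl⟩).symm).elim fun x e =>
    ⟨x, fun y hy => hι (by rw [map_mul, map_mul, e, h _ ⟨y, hy, rfl⟩]), e⟩, by rintro ⟨x, h, rfl⟩ _ ⟨y, hy, rfl⟩; rw [← map_mul, h y hy, map_mul]⟩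
  have t1 : ι s ∈ centralizer (N.map ι : Set G) := by rintro _ ⟨y, -, rfl⟩; exact (c _).2 ⟨y, rfl⟩
  have t2 : ι s ≠ 1 := by simpa [hι.eq_iff, map_eq_one_iff ι hι] using s2
  have t3 : ι s * ι s = 1 := by rw [← map_mul, s3, map_one]
  have u : ∀ y ∈ centralizer (N.map ι : Set G), y ≠ 1 → y * y = 1 → y = ι s := fun y h a b => by
    obtain ⟨x, h', rfl⟩ := (q y).1 h
    exact congrArg ι ((un x h' (hι (by simpa using b))).resolve_left (by rintro rfl; simp at a))
  have n1 : ∀ g, g * ι s = ι s * g → g ∈ normalizer (N.map ι : Set G) := fun g h => by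
    obtain ⟨x, rfl⟩ := (c g).1 h
    exact mem_normalizer_fintype (by rintro _ ⟨y, hy, rfl⟩; exact ⟨_, Normal.conj_mem ‹_› y hy x, by simp⟩)
  have n2 : normalizer (N.map ι : Set G) ≤ normalizer (centralizer (N.map ι : Set G) : Set G) := fun g h => mem_normalizer_fintype fun y hy z hz => by
    have := hy _ ((mem_set_normalizer_iff''.1 h z).1 hz)
    rw [← mul_left_cancel_iff (a := g⁻¹), ← mul_right_cancel_iff (a := g)]; simpa [mul_assoc] using this
  refine ⟨qs_congr (N.equivMapOfInjective ι hι) hN, ⟨even_iff_two_dvd.2 ?_, fun g hg => Nat.not_even_iff_odd.1 fun ev => hg ?_⟩, fun g _ h => ?_, le_antisymm n2 fun g h => n1 g ?_⟩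
  · exact (orderOf_eq_prime (p := 2) (x := ι s) (by rwa [sq]) t2).symm.dvd.trans (orderOf_dvd_natCard _ t1)
  · obtain ⟨⟨y, y1, z, z1, rfl⟩, hy⟩ := exists_prime_orderOf_dvd_card' 2 (even_iff_two_dvd.1 ev)
    replace hy : orderOf (MulAut.conj g z) = 2 := (Subgroup.orderOf_coe _).trans hy
    have a : MulAut.conj g z ≠ 1 := fun k => by simp [k] at hy
    have b : MulAut.conj g z * MulAut.conj g z = 1 := by rw [← sq, ← hy, pow_orderOf_eq_one]
    have k := u _ y1 a b
    rw [u z z1 (by simpa using a) (by simpa only [← map_mul, EmbeddingLike.map_eq_one_iff] using b)] at k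
    exact n2 (n1 g (mul_inv_eq_iff_eq_mul.1 k))
  · haveI := hN.1
    haveI := hN.2
    rw [commutator_comm, commutator_eq_bot_iff_le_centralizer] at h
    have cm : ∀ x y : N, x * y = y * x := fun x y => Subtype.ext (hι ((MulAut.conj g).injective (by
      obtain ⟨a, a1, a2⟩ := (q _).1 (h ⟨_, ⟨x, x.2, rfl⟩, rfl⟩)
      obtain ⟨b, -, b2⟩ := (q _).1 (h ⟨_, ⟨y, y.2, rfl⟩, rfl⟩)
      simp only [coe_mul, map_mul]
      exact (congrArg₂ _ a2 b2).symm.trans (by rw [← map_mul, ← mem_center_iff.1 (ab a1), map_mul, a2, b2]; rfl))))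
    haveI : Nontrivial N := ⟨⟨⟨s, s1⟩, 1, by simpa using s2⟩⟩
    exact Group.IsPerfect.not_isMulCommutative (G := N) ⟨⟨cm⟩⟩
  · exact mul_inv_eq_iff_eq_mul.1 (u _ ((mem_set_normalizer_iff.1 h _).1 t1) (by simpa using t2) (by rw [conj_mul, t3]; simp))

/-- Let F be a finite field of odd order, n ≥ 7 odd, and t ∈ SL(n, F) the diagonal matrix with entries −1, …, −1, 1. Then E(C(t)) is a standard subgroup of SL(n, F). -/
theorem result {F : Type*} [Field F] [Fintype F] [DecidableEq F] (hF : Odd (Fintype.card F)) (n : ℕ) (hn : 7 ≤ n) (hodd : Odd n) (t : Matrix.SpecialLinearGroup (Fin n) F) (ht : (t : Matrix (Fin n) (Fin n) F) = Matrix.diagonal (fun i : Fin n => if (i : ℕ) + 1 = n then (1 : F) else -1)) : Cfsg.IsStandardSubgroup ((Cfsg.layer ↥(Subgroup.centralizer ({t} : Set (Matrix.SpecialLinearGroup (Fin n) F)))).map (Subgroup.centralizer ({t} : Set (Matrix.SpecialLinearGroup (Fin n) F))).subtype) := by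
  obtain ⟨m, rfl⟩ : ∃ m, n = m + 1 := ⟨n - 1, by omega⟩
  have h2 := two_ne_zero_of_odd hF
  have ev : Even m := by simpa [Nat.odd_add_one] using hodd
  haveI : NeZero m := ⟨by omega⟩
  let blk : GL (Fin m) F →* SpecialLinearGroup (Fin m ⊕ Fin 1) F := MonoidHom.mk' (fun g => ⟨fromBlocks g.1 0 0 (diagonal fun _ => (g.1.det)⁻¹), by simp [det_fromBlocks_zero₂₁, g.det_ne_zero]⟩)
    fun a b => SL_ext ((by simp [fromBlocks_multiply, mul_comm] : _ = fromBlocks a.1 0 0 _ * fromBlocks b.1 0 0 _).trans rfl)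
  have bl : ∀ g, (blk g).1 = fromBlocks g.1 0 0 (diagonal fun _ => (g.1.det)⁻¹) := fun _ => rfl
  have ht' : slCongr finSumFinEquiv (blk (-1)) = t := SL_ext (ht ▸ by
    ext i j; obtain ⟨i, rfl⟩ := finSumFinEquiv.surjective i; obtain ⟨j, rfl⟩ := finSumFinEquiv.surjective j
    change reindex _ _ (blk _).1 _ _ = _
    rw [bl, reindex_apply, submatrix_apply, Equiv.symm_apply_apply, Equiv.symm_apply_apply, diagonal_apply]
    simp only [finSumFinEquiv.apply_eq_iff_eq]
    rcases i with i | i <;> rcases j with j | j <;> simp [det_neg, ev.neg_one_pow, one_apply, diagonal_apply, i.2.ne] <;> split_ifs <;> simp)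
  have sc : ∀ x ∈ centralizer ((GeneralLinearGroup.det : GL (Fin m) F →* Fˣ).ker : Set (GL (Fin m) F)), ∃ a : F, scalar (Fin m) a = x.1 := fun x h => mem_range_scalar_of_commute_transvectionStruct fun t =>
    congrArg Units.val (h (SpecialLinearGroup.toGL ⟨t.toMatrix, t.det⟩) (slEquivKerDet _).2)
  refine std ((slCongr finSumFinEquiv).toMonoidHom.comp blk) ((slCongr _).injective.comp fun a b e => Units.ext (by simpa [bl] using congrArg (·.1.toBlocks₁₁) e)) (Subgroup.ext fun y => ?_)
    GeneralLinearGroup.det.ker (qs_congr slEquivKerDet ⟨⟨commutator_SL_eq_top (by simp; omega)⟩, PSL_simple (by simp; omega)⟩) (Abelianization.commutator_subset_ker _) (s := -1) (Units.ext (by simp [det_neg, ev.neg_one_pow])) ht'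
    (fun e => h2 (by have := congrArg (·.1 0 0) e; simp at this; linear_combination -this)) (by simp) (fun x h => mem_center_iff.2 fun g => Units.ext ?_) fun x h e => ?_
  · obtain ⟨y, rfl⟩ := (slCongr finSumFinEquiv).surjective y
    rw [mem_centralizer_singleton_iff, ← ht', ← map_mul, ← map_mul, (slCongr _).injective.eq_iff]
    refine ⟨fun ⟨g, e⟩ => (slCongr _).injective e ▸ by rw [← map_mul, ← map_mul]; simp, fun e => ?_⟩
    obtain ⟨y, hy⟩ := y
    obtain ⟨a, b, c, d, rfl⟩ : ∃ a b c d, y = fromBlocks a b c d := ⟨_, _, _, _, (fromBlocks_toBlocks y).symm⟩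
    replace e : fromBlocks a b c d * (blk (-1)).1 = (blk (-1)).1 * fromBlocks a b c d := congrArg Subtype.val e
    simp [bl, fromBlocks_multiply, det_neg, ev.neg_one_pow] at e
    obtain rfl : b = 0 := smul_right_injective _ h2 (by linear_combination (norm := module) e.1)
    obtain rfl : c = 0 := smul_right_injective _ h2 (by linear_combination (norm := module) -e.2)
    have k := hy
    rw [det_fromBlocks_zero₂₁, det_unique d] at k
    refine ⟨GeneralLinearGroup.mkOfDetNeZero a (left_ne_zero_of_mul_eq_one k), congrArg (slCongr _) (Subtype.ext ?_)⟩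
    simp only [bl, GeneralLinearGroup.val_mkOfDetNeZero, fromBlocks_inj, true_and]
    ext i j; rw [Subsingleton.elim i default, Subsingleton.elim j default, diagonal_apply_eq, inv_eq_of_mul_eq_one_right k]
  · obtain ⟨a, e⟩ := sc x h
    rw [Units.val_mul, Units.val_mul, ← e, (scalar_commute a (Commute.all _) _).eq]
  · obtain ⟨a, k⟩ := sc x h
    have := congrArg (·.1 0 0) e
    simp only [Units.val_mul, ← k, ← map_mul] at this
    exact (mul_self_eq_one_iff.1 (by simpa using this)).imp (fun z => Units.ext (by simp [← k, z])) fun z => Units.ext (by rw [← k, z, map_neg, map_one]; rfl)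


end Cfsg.Agent.S1348
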