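import Cfsg.Statements.S1386
import Cfsg.Agent.FT.Defs
import Cfsg.Agent.H1.Misc

set_option autoImplicit false
open Cfsg

namespace Cfsg.Agent.S1386

open Subgroup H9 FT in

/-- Let G be a finite group, W₁, W₂ subgroups forming a self-normalizing cyclic pair, S a subgroup with W₂ ≤ S and W₁ a complement to S' in S, and (W₁, U, W₂') type-P data for S. Then W₂' = W₂ (that is, C_{S'}(W₁) = W₂). -/
theorem result {G : Type*} [Group G] [Finite G] (W₁ W₂ S U W₂' : Subgroup G) (hW : Cfsg.IsSelfNormalizingCyclic W₁ W₂)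
    (hSW : Cfsg.IsComplIn ⁅S, S⁆ W₁ S) (hW₂S : W₂ ≤ S) (hP : Cfsg.IsTypePWith S W₁ U W₂') :
    W₂' = W₂ := by
  obtain ⟨h1, h2, h3, h4, h5, h6⟩ := hW
  obtain ⟨-, k2, k3, k4, k5, -⟩ := hP.selfNormalizing
  obtain ⟨⟨x, hx⟩, hx1⟩ := ne_bot_iff_exists_ne_one.1 h1
  have hx1' : x ≠ 1 := fun e => hx1 (Subtype.ext e)
  obtain ⟨⟨y, hy⟩, hy1⟩ := ne_bot_iff_exists_ne_one.1 h2
  have hy1' : y ≠ 1 := fun e => hy1 (Subtype.ext e)
  have hc : ∀ a ∈ W₁, ∀ b ∈ W₁, a * b = b * a := fun a ha b hb =>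
    congrArg Subtype.val (hP.W₁_cyclic.commGroup.mul_comm ⟨a, ha⟩ ⟨b, hb⟩)
  have a1 : W₁ ⊔ W₂ ≤ W₁ ⊔ W₂' := sup_le le_sup_left fun w hw => by
    obtain ⟨a, ha, b, hb, rfl⟩ := hSW.2.2.2 w (hW₂S hw)
    refine mul_mem (mem_sup_right ?_) (mem_sup_left hb)
    rw [← hP.W₂_centralizer x hx hx1']
    refine mem_inf.2 ⟨ha, mem_centralizer_singleton_iff.2 ?_⟩
    have := h4 x hx _ hw
    apply mul_right_cancel (b := b)
    rw [mul_assoc, hc x hx b hb, ← mul_assoc, ← this, mul_assoc]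
  have hv : x * y ∈ W₁ ⊔ W₂ := mul_mem (mem_sup_left hx) (mem_sup_right hy)
  have a2 : W₁ ⊔ W₂' ≤ W₁ ⊔ W₂ := by
    rw [← h6 {x * y} (by
      rintro _ rfl
      refine ⟨hv, ?_⟩
      rintro (h | h)
      · have : y ∈ W₁ ⊓ W₂ := ⟨(mul_mem_cancel_left hx).1 h, hy⟩
        rw [h3] at this; exact hy1' this
      · have : x ∈ W₁ ⊓ W₂ := ⟨hx, (mul_mem_cancel_right hy).1 h⟩
        rw [h3] at this; exact hx1' this) (Set.singleton_nonempty _)]
    intro g hg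
    have := congrArg Subtype.val (k5.commGroup.mul_comm ⟨g, hg⟩ ⟨_, a1 hv⟩)
    have e : g * (x * y) = x * y * g := this
    intro n
    constructor
    · rintro rfl; show _ = _; rw [e]; simp
    · intro h
      have h' : g * n * g⁻¹ = x * y := h
      show n = x * y
      rw [mul_inv_eq_iff_eq_mul, ← e] at h'
      exact mul_left_cancel h'
  have sd : ∀ W : Subgroup G, W₁ ⊓ W = ⊥ → (∀ a ∈ W₁, ∀ b ∈ W, a * b = b * a) → Nat.card W₁ * Nat.card W = Nat.card (W₁ ⊔ W : Subgroup G) :=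
    fun W e h => SD.card ⟨fun b hb => centralizer_le_normalizer' _ (fun a ha => h a ha b hb), rfl, e⟩
  have e := sd W₂ h3 h4
  rw [le_antisymm a1 a2, ← sd W₂' k3 k4] at e
  have e' := Nat.eq_of_mul_eq_mul_left Nat.card_pos e
  exact le_antisymm (H1.le_of_card_dvd_of_isCyclic h5 (le_sup_right.trans a2) le_sup_right e'.symm.dvd)
    (H1.le_of_card_dvd_of_isCyclic h5 le_sup_right (le_sup_right.trans a2) e'.dvd)

end Cfsg.Agent.S1386
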