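import Cfsg.Statements.S1387
import Cfsg.Agent.FT.Defs

set_option autoImplicit false
open Cfsg

namespace Cfsg.Agent.S1387

open Subgroup H9 FT in

/-- Let M be a subgroup of a finite group G with type-P data (W₁, U, W₂) and H = M_F. Then the Fitting subgroup F(M) is generated by H and the centralizer of H in U. -/
theorem result {G : Type*} [Group G] [Finite G] (M W₁ U W₂ : Subgroup G) (hP : Cfsg.IsTypePWith M W₁ U W₂) :
    Cfsg.fittingOf M = Cfsg.fittingHallOf M ⊔ (U ⊓ Subgroup.centralizer (Cfsg.fittingHallOf M : Set G)) := by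
  have h1 := hP.fitting_eq
  have h2 := hP.fitting_le
  have h3 := hP.U_compl
  have eF : fittingOf M = Fit M := Fit_eq M
  rw [MF_eq] at h1 h3 ⊢
  rw [eF] at h1 h2 ⊢
  have hM : ⁅M, M⁆ ≤ M := commutator_le_of_le le_rfl le_rfl
  have hsd := sd_of_isComplIn h3 (hM.trans (le_normalizer_MF M))
  have hH := (MF_hall M).mono h3.1 hM
  refine le_antisymm ?_ (by rw [← h1]; exact sup_le_sup_left (inf_le_inf_right _ (h3.2.1.trans hM)) _)
  have hF := Fit_nil M
  rw [← (hall_Opi_of_nilpotent hF (prs (MF M))).sup_eq (hall_Opi_of_nilpotent hF (prs (MF M))ᶜ)]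
  have e : Opi (prs (MF M)) (Fit M) ≤ MF M := (MF_hall M).le_of_normal (le_normalizer_MF M) (Opi_pi _ _) ((Opi_le _ _).trans (Fit_le M))
  refine sup_le_sup e (le_inf ?_ ?_)
  · exact (hsd.hall_compl hH).le_of_le_normalizer (Opi_pi _ _) ((Opi_le _ _).trans h2)
      (Or.inr ((h3.2.1.trans hM).trans (normalizer_Opi (le_normalizer_Fit M))))
  · exact le_centralizer_iff.1 ((piG_prs _).le_centralizer (Opi_pi _ _) ((MF_le M).trans (normalizer_Opi (le_normalizer_Fit M)))
      (((Opi_le _ _).trans (Fit_le M)).trans (le_normalizer_MF M)))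

end Cfsg.Agent.S1387
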