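import Cfsg.Statements.S1388
import Cfsg.Agent.S1387

set_option autoImplicit false
open Cfsg

namespace Cfsg.Agent.S1388

open Subgroup H9 FT in

/-- Let M be a subgroup of a finite group G with type-P data (W₁, U, W₂) and H = M_F. Then the derived subgroup of U centralizes H, and if U ≠ 1 then U does not centralize H. -/
theorem result {G : Type*} [Group G] [Finite G] (M W₁ U W₂ : Subgroup G) (hP : Cfsg.IsTypePWith M W₁ U W₂) :
    ⁅U, U⁆ ≤ Subgroup.centralizer (Cfsg.fittingHallOf M : Set G) ∧ (U ≠ ⊥ → ¬ U ≤ Subgroup.centralizer (Cfsg.fittingHallOf M : Set G)) := by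
  have h0 := Cfsg.Agent.S1387.result M W₁ U W₂ hP
  have h1 := hP.derived_two_le
  rw [hP.fitting_eq, h0] at h1
  have h3 := hP.U_compl
  rw [MF_eq] at h1 h3 ⊢
  have hM : ⁅M, M⁆ ≤ M := commutator_le_of_le le_rfl le_rfl
  refine ⟨?_, fun hU h => hU ?_⟩
  · have h4 : ⁅U, U⁆ ≤ (U ⊓ centralizer (MF M : Set G) ⊔ MF M) ⊓ U :=
      le_inf (((commutator_mono h3.2.1 h3.2.1).trans h1).trans (sup_comm _ _).le) (commutator_le_of_le le_rfl le_rfl)
    rw [dedekind inf_le_left (Or.inl (inf_le_right.trans (centralizer_le_normalizer' _))), h3.2.2.1, sup_bot_eq] at h4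
    exact h4.trans inf_le_right
  · have hsd := sd_of_isComplIn h3 (hM.trans (le_normalizer_MF M))
    have hn : Group.IsNilpotent (⁅M, M⁆ : Subgroup G) := by
      rw [← hsd.sup]
      exact H1.isNilpotent_sup ((le_centralizer_iff.1 h).trans (centralizer_le_normalizer' _)) (h.trans (centralizer_le_normalizer' _)) (MF_nil M) hP.U_nilpotent
    have hsd2 := sd_of_isComplIn hP.W₁_compl (normalizer_commutator le_normalizer le_normalizer)
    have h5 := le_MF hM (normalizer_commutator le_normalizer le_normalizer) hn (by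
      rw [hsd2.relIndex_left, ← hsd2.relIndex_right]; exact hP.W₁_hall.symm)
    rw [← h3.2.2.1]
    exact (inf_eq_right.2 (h3.2.1.trans h5)).symm

end Cfsg.Agent.S1388
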