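import Cfsg.Statements.S1395
import Cfsg.Agent.FT.B7

set_option autoImplicit false
open Cfsg

namespace Cfsg.Agent.S1395

/-- Let G be a minimal simple group of odd order, A a subgroup satisfying the transitivity hypothesis with K = O_{π(A)'}(C_G(A)), q a prime not dividing the order of A, and P a proper subgroup all of whose prime divisors divide the order of A, containing A as a subnormal subgroup, such that any two maximal A-invariant q-subgroups are conjugate under K. Then (a) K ∩ C_G(P) = O_{π(A)'}(C_G(P)); (b) any two maximal P-invariant q-subgroups are conjugate under O_{π(A)'}(C_G(P)); (c) every maximal P-invariant q-subgroup is a maximal A-invariant q-subgroup; (d) for every maximal P-invariant q-subgroup Q, P ∩ N_G(P)' ≤ N_G(Q)' and N_G(P) is generated by O_{π(A)'}(C_G(P)) and N_G(P) ∩ N_G(Q). -/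
theorem result {G : Type*} [Group G] [Finite G] (hG : Cfsg.IsMinSimpleOddOrder G)
    (A : Subgroup G) (hA : Cfsg.TransitivityHypothesis A) (q : ℕ) (hq : q.Prime) (hqA : ¬ q ∣ Nat.card A)
    (P : Subgroup G) (hP : P ≠ ⊤) (hPπ : (∀ r : ℕ, r.Prime → r ∣ Nat.card P → r ∣ Nat.card A)) (hAP : A ≤ P) (hsn : (A.subgroupOf P).IsSubnormal)
    (htr : ∀ Q₁ ∈ Cfsg.maxInvSubgroups ⊤ A {q}, ∀ Q₂ ∈ Cfsg.maxInvSubgroups ⊤ A {q}, ∃ k ∈ Cfsg.piCoreOf (Cfsg.primesNotDvd (Nat.card A)) (Subgroup.centralizer (A : Set G)), Q₂ = Q₁.map (MulAut.conj k).toMonoidHom) :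
    Cfsg.piCoreOf (Cfsg.primesNotDvd (Nat.card A)) (Subgroup.centralizer (A : Set G)) ⊓ Subgroup.centralizer (P : Set G) = Cfsg.piCoreOf (Cfsg.primesNotDvd (Nat.card A)) (Subgroup.centralizer (P : Set G)) ∧
      (∀ Q₁ ∈ Cfsg.maxInvSubgroups ⊤ P {q}, ∀ Q₂ ∈ Cfsg.maxInvSubgroups ⊤ P {q}, ∃ k ∈ Cfsg.piCoreOf (Cfsg.primesNotDvd (Nat.card A)) (Subgroup.centralizer (P : Set G)), Q₂ = Q₁.map (MulAut.conj k).toMonoidHom) ∧
      Cfsg.maxInvSubgroups ⊤ P {q} ⊆ Cfsg.maxInvSubgroups ⊤ A {q} ∧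
      ∀ Q ∈ Cfsg.maxInvSubgroups ⊤ P {q},
        P ⊓ ⁅Subgroup.normalizer (P : Set G), Subgroup.normalizer (P : Set G)⁆ ≤ ⁅Subgroup.normalizer (Q : Set G), Subgroup.normalizer (Q : Set G)⁆ ∧
        Subgroup.normalizer (P : Set G) = Cfsg.piCoreOf (Cfsg.primesNotDvd (Nat.card A)) (Subgroup.centralizer (P : Set G)) ⊔ (Subgroup.normalizer (P : Set G) ⊓ Subgroup.normalizer (Q : Set G)) := by
  open H9 Subgroup in open scoped commutatorElement in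
  haveI : FT.MS G := ⟨hG⟩
  haveI := Fact.mk hq
  simp only [FT.Opi_primesNotDvd] at htr ⊢
  obtain ⟨h1, h2, h3, h4⟩ := FT.t7_4 (FT.nc_iff.2 hA) hqA (sn_iff.2 ⟨hAP, hsn⟩) (fun r h1 h2 => ⟨h1, hPπ r h1 h2⟩)
    fun Q₁ Q₂ h₁ h₂ => let ⟨k, h1, h2⟩ := htr _ (FT.mi_iff.1 h₁) _ (FT.mi_iff.1 h₂); ⟨k, h1, h2.symm⟩
  refine ⟨h1, fun Q₁ h₁ Q₂ h₂ => ?_, fun Q hQ => FT.mi_iff.1 (h3 Q (FT.mi_iff.2 hQ)), fun Q hQ =>
    ⟨(h4 Q (FT.mi_iff.2 hQ)).1, le_antisymm (fun g hg => ?_)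
      (sup_le ((FT.Opi_le _ _).trans (centralizer_le_normalizer' P)) inf_le_left)⟩⟩
  · obtain ⟨k, k1, k2⟩ := h2 _ _ (FT.mi_iff.2 h₁) (FT.mi_iff.2 h₂)
    exact ⟨k, k1, k2.symm⟩
  · obtain ⟨c, hc, n, hn, rfl⟩ := (h4 Q (FT.mi_iff.2 hQ)).2 g hg
    exact mul_mem (mem_sup_left hc) (mem_sup_right hn)

end Cfsg.Agent.S1395
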