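import Cfsg.Statements.S1397
import Cfsg.Agent.FT.B8

set_option autoImplicit false
open Cfsg

namespace Cfsg.Agent.S1397

/-- Let G be a minimal simple group of odd order, M a maximal subgroup, p a prime and A₀ an elementary abelian p-subgroup of F(M) of order at least p ^ 3 that is maximal among elementary abelian p-subgroups of F(M). (a) If F(M) is not a p-group, then F(M) ∩ C_G(A₀) lies in exactly one maximal subgroup of G. (b) If F(M) is a p-group and P is a Sylow p-subgroup of M, then p does not divide the index of P in G, and every normal self-centralizing subgroup A of P containing an elementary abelian subgroup of order p ^ 3 is contained in F(M) and lies in exactly one maximal subgroup of G. -/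
theorem result {G : Type*} [Group G] [Finite G] (hG : Cfsg.IsMinSimpleOddOrder G)
    (M : Subgroup G) (hM : IsCoatom M) (p : ℕ) [Fact p.Prime] (A₀ : Subgroup G)
    (hA₀ : A₀ ≤ Cfsg.fittingOf M) (hA₀e : Cfsg.IsElementaryAbelian p A₀) (hA₀3 : p ^ 3 ≤ Nat.card A₀)
    (hA₀max : ∀ B : Subgroup G, B ≤ Cfsg.fittingOf M → Cfsg.IsElementaryAbelian p B → A₀ ≤ B → B = A₀) :
    (¬ IsPGroup p ↥(Cfsg.fittingOf M) → Cfsg.InUniqueMaximal (Cfsg.fittingOf M ⊓ Subgroup.centralizer (A₀ : Set G))) ∧
      (IsPGroup p ↥(Cfsg.fittingOf M) → ∀ P : Sylow p M,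
        ¬ p ∣ ((P : Subgroup M).map M.subtype).index ∧
        ∀ A : Subgroup G, Cfsg.IsSCN ((P : Subgroup M).map M.subtype) A → ¬ Cfsg.PRankLE p 2 ↥A →
          A ≤ Cfsg.fittingOf M ∧ Cfsg.InUniqueMaximal A) := by
  open H9 Subgroup in open scoped commutatorElement in
  haveI : FT.MS G := ⟨hG⟩
  rw [FT.Fit_eq'] at *
  refine ⟨fun h => FT.uniq_iff.1 (FT.t8_1a hM h ⟨hA₀, hA₀e, hA₀max⟩ (le_of_not_gt fun h1 => ?_)).uniq', fun h P => ?_⟩
  · have := hA₀3.trans (FT.card_le_pow_rk hA₀e le_rfl)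
    rw [Nat.pow_le_pow_iff_right (Fact.out : p.Prime).one_lt] at this
    omega
  · have hP := syl_of_sylow P
    have h0 : (P : Subgroup M).map M.subtype ≠ ⊥ := fun e => by
      rw [eq_bot_iff.2 ((hA₀.trans ((FT.le_Op_of_le_Fit h le_rfl).trans hP.Op_le)).trans e.le), card_bot] at hA₀3
      exact absurd (Nat.one_lt_pow (by omega) (Fact.out : p.Prime).one_lt) hA₀3.not_gt
    refine ⟨?_, fun A h1 h2 => ?_⟩
    · have := (FT.syl_top_of_normalizer_le hP (FT.normalizer_syl_le hM (FT.Op'_eq_bot_of_Fit hM.1 h) hP h0)).not_dvd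
      rwa [relIndex_top_right] at this
    · obtain ⟨-, h3, h4⟩ := FT.t8_1b hM h hP h1 (FT.lt_rk_iff.2 h2)
      exact ⟨h3, FT.uniq_iff.1 h4.uniq'⟩

end Cfsg.Agent.S1397
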