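import Cfsg.Statements.S1443
import Cfsg.Agent.FT.B3a

set_option autoImplicit false
open Cfsg

namespace Cfsg.Agent.S1443

/-- Let G be a finite group, p an odd prime, H a p-subgroup, E an elementary abelian subgroup of H, and A a subgroup of order coprime to p normalizing H. If A centralizes every element of order p in H ∩ C_G(E), then A centralizes H. -/
theorem result {G : Type*} [Group G] [Finite G] (p : ℕ) [Fact p.Prime] (hp : p ≠ 2) (H E A : Subgroup G) (hH : IsPGroup p H) (hE : E ≤ H) (hEe : Cfsg.IsElementaryAbelian p E)
    (hA : (A ≤ Subgroup.normalizer (H : Set G))) (hcop : (Nat.card A).Coprime p)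
    (hfix : ∀ x ∈ (H ⊓ Subgroup.centralizer (E : Set G)), orderOf x = p → A ≤ Subgroup.centralizer ({x} : Set G)) :
    A ≤ Subgroup.centralizer (H : Set G) := by
  open H9 Subgroup in
  have h1 : E ≤ H ⊓ centralizer (E : Set G) := le_inf hE (L.le_centralizer_of_comm hEe.1)
  have h2 : omegaOne p (H ⊓ centralizer (E : Set G)) ≤ centralizer (A : Set G) := L.omegaOne_le_iff.2 fun x hx e => by
    rcases eq_or_ne x 1 with rfl | h
    · exact one_mem _
    · exact le_centralizer_singleton_iff.1 (hfix x hx (orderOf_eq_prime e h))
  have h3 : E ≤ centralizer (A : Set G) := fun x hx => h2 (L.mem_omegaOne (h1 hx) (hEe.2 x hx))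
  exact H1.le_centralizer_of_centralizer_le hH.isNilpotent hA (card_cop_of_p hH hcop).symm inf_le_left
    (le_centralizer_iff.1 (L.le_centralizer_of_omega_odd hp hcop (hH.to_le inf_le_left) (normalizer_inf hA
      (normalizer_centralizer ((le_centralizer_iff.1 h3).trans (centralizer_le_normalizer' E)))) h2))
    (inf_le_inf_left _ (centralizer_anti h1))

end Cfsg.Agent.S1443
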