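import Cfsg.Statements.S1448
import Cfsg.Agent.FT.B4c

set_option autoImplicit false
open Cfsg

namespace Cfsg.Agent.S1448

open FT H9 Subgroup

/-- Let G be a finite group, p an odd prime, R a nontrivial p-subgroup with no elementary abelian subgroup of order p ^ 3, and A a subgroup of odd order coprime to p normalizing R with [R, A] = R. Then 3 < p, and either R is abelian or R is generated by two elementwise-commuting subgroups R₁, R₂ with R₁ non-abelian of order p ^ 3 and exponent p, R₂ cyclic, and the elements of R₂ of order dividing p generating exactly [R₁, R₁]. -/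
theorem result {G : Type*} [Group G] [Finite G] (p : ℕ) [Fact p.Prime] (hp : p ≠ 2) (R A : Subgroup G) (hR : IsPGroup p R) (hR1 : R ≠ ⊥) (hr : Cfsg.PRankLE p 2 R)
    (hA : (A ≤ Subgroup.normalizer (R : Set G))) (hcop : (Nat.card A).Coprime p) (hAodd : Odd (Nat.card A)) (hRA : ⁅R, A⁆ = R) :
    3 < p ∧ (IsMulCommutative R ∨ ∃ R₁ R₂ : Subgroup G, R₁ ⊔ R₂ = R ∧ (∀ a ∈ R₁, ∀ b ∈ R₂, a * b = b * a) ∧
        ¬ IsMulCommutative R₁ ∧ Nat.card R₁ = p ^ 3 ∧ Monoid.exponent R₁ = p ∧ IsCyclic R₂ ∧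
        Subgroup.closure {x : G | x ∈ R₂ ∧ x ^ p = 1} = ⁅R₁, R₁⁆) := by
  obtain ⟨h1, h2⟩ := t4_16 hp hR hR1 (rk_le_iff.2 hr) hA hcop hAodd hRA
  refine ⟨h1, h2.imp id fun h => ⟨_, _, h.sup, fun a ha b hb => comm_of_mem_centralizer (h.cent hb) ha, h.ncomm, h.card, ?_,
    h.cyc, h.omega⟩⟩
  haveI : Nontrivial (omegaOne p R) := (nontrivial_iff_ne_bot _).2 fun a => h.ncomm (a ▸ inferInstance)
  exact (Monoid.exponent_eq_prime_iff Fact.out).2 fun g hg => orderOf_eq_prime (Subtype.ext (h.exp g g.2)) hg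

end Cfsg.Agent.S1448
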