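import Cfsg.Statements.S1450
import Cfsg.Agent.FT.B4a

set_option autoImplicit false
open Cfsg

namespace Cfsg.Agent.S1450

open FT H9 Subgroup
theorem ps_frozen {G : Type*} [Group G] [Finite G] (hodd : Odd (Nat.card G)) (p : ℕ) [Fact p.Prime]
    (h : PS p (⊤ : Subgroup G)) :
    (∀ q : ℕ, q.Prime → q ∣ (Cfsg.pPrimeCore p G).index → q ≤ p) ∧
      ((p = 3 ∨ ∀ q : ℕ, q.Prime → q ∣ Nat.card G → p ≤ q) → Cfsg.HasNormalPComplement p G) ∧
      Cfsg.HasNormalPComplement p ↥(commutator G) ∧
      (∀ L : Subgroup ↥(commutator G), (Nat.card L).Coprime p → L ≤ Cfsg.pPrimeCore p ↥(commutator G)) ∧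
      commutator G ≤ Cfsg.pPrimePCore p G ∧ ((Cfsg.pPrimePCore p G).index).Coprime p := by
  have h1 : Cfsg.HasNormalPComplement p ↥(commutator G) := npc_iff.1 h.npc
  refine ⟨fun q a b => h.le q a (by rwa [Op'_top, relIndex_top_right]), fun a => npc_top_iff.1 ?_, h1,
    fun L a => Op'_top (p := p) (G := commutator G) ▸ (npc_top_iff.2 h1).le_Op' le_top a, Opp_top (p := p) (G := G) ▸ der_le_Opp h.npc, ?_⟩
  · rcases a with rfl | a
    · exact h.npc_three (by rwa [card_top])
    · exact h.npc_of_min (by rwa [card_top])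
  · obtain ⟨P, hP⟩ := exists_syl (p := p) (⊤ : Subgroup G)
    rw [← Opp_top, cop_iff, ← relIndex_top_right]
    exact fun a => hP.not_dvd (a.trans (relIndex_dvd_of_le_left _ (h.pl1.le_Opp hP.isP le_top)))

/-- Let G be a solvable group of odd order, p a prime dividing its order with G having no elementary abelian subgroup of order p ^ 3. Then every prime dividing the index of O_{p'}(G) is at most p; if p = 3 or p is the smallest prime divisor of #G then G has a normal p-complement; the derived subgroup G' has a normal p-complement; every subgroup of G' of order coprime to p lies in O_{p'}(G'); and G/O_{p',p}(G) is abelian of order coprime to p. -/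
theorem result {G : Type*} [Group G] [Finite G] [Group.IsSolvable G] (hodd : Odd (Nat.card G)) (p : ℕ) [Fact p.Prime] (hpG : p ∣ Nat.card G) (hr : Cfsg.PRankLE p 2 G) :
    (∀ q : ℕ, q.Prime → q ∣ (Cfsg.pPrimeCore p G).index → q ≤ p) ∧
      ((p = 3 ∨ ∀ q : ℕ, q.Prime → q ∣ Nat.card G → p ≤ q) → Cfsg.HasNormalPComplement p G) ∧
      Cfsg.HasNormalPComplement p ↥(commutator G) ∧
      (∀ L : Subgroup ↥(commutator G), (Nat.card L).Coprime p → L ≤ Cfsg.pPrimeCore p ↥(commutator G)) ∧
      commutator G ≤ Cfsg.pPrimePCore p G ∧ ((Cfsg.pPrimePCore p G).index).Coprime p := by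
  exact ps_frozen hodd p (t4_18 inferInstance (by rwa [card_top]) (rk_top_le_iff.2 hr))

end Cfsg.Agent.S1450
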