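import Cfsg.Statements.S1451
import Cfsg.Agent.FT.B4a

set_option autoImplicit false
open Cfsg

namespace Cfsg.Agent.S1451

open FT H9 Subgroup

/-- Let G be a solvable group of odd order such that G, or its Fitting subgroup, has no elementary abelian subgroup of order q ^ 3 for any prime q. Then G' is nilpotent; for every Sylow subgroup S of G, every characteristic subgroup T of S with T ≤ [S, S] is normal in G; and for every prime p, G has a characteristic subgroup that is a Hall subgroup for the set of primes greater than p. -/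
theorem result {G : Type*} [Group G] [Finite G] [Group.IsSolvable G] (hodd : Odd (Nat.card G)) (hr : Cfsg.RankLE 2 G ∨ Cfsg.RankLE 2 (Cfsg.fittingSubgroup G)) :
    Group.IsNilpotent ↥(commutator G) ∧
      (∀ (q : ℕ) [Fact q.Prime] (S : Sylow q G) (T : Subgroup ↥(S : Subgroup G)), T.Characteristic → T.map (S : Subgroup G).subtype ≤ ⁅(S : Subgroup G), (S : Subgroup G)⁆ →
        (T.map (S : Subgroup G).subtype).Normal) ∧
      ∀ p : ℕ, ∃ N : Subgroup G, N.Characteristic ∧ Cfsg.IsPiHall {q | q.Prime ∧ p < q} N := by
  have ho : Odd (Nat.card (⊤ : Subgroup G)) := by rwa [card_top]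
  have hr' : rank (Fit (⊤ : Subgroup G)) ≤ 2 := by
    rcases hr with h | h
    · exact (rank_mono le_top).trans (rank_top_le_iff.2 h)
    · rw [Fit_top]; exact rank_le_iff.2 h
  refine ⟨H1.isNilpotent_of_le (t4_20a inferInstance ho hr') (Fit_nil _), fun q _ S T hT h => normal_of_top_le
    (t4_20b inferInstance ho hr' (syl_top_of_sylow S) (map_subtype_le T) (h.trans (commutator_mono le_top le_top))
      (inf_le_right.trans (H1.map_char_le_normalizer _ T))), fun p => ⟨Opi {q | p + 1 ≤ q} ⊤, ?_,
      hall_top_iff.1 ((t4_20c (p + 1) ⊤ inferInstance ho hr').congr fun q a => ⟨fun b => ⟨a.1, b⟩, fun b => b.2⟩)⟩⟩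
  refine characteristic_iff_map_eq.2 fun φ => ?_
  rw [map_Opi_of_injective (f := φ.toMonoidHom) φ.injective, map_top_of_surjective _ φ.surjective]

end Cfsg.Agent.S1451
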