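import Cfsg.Statements.S1454
import Cfsg.Agent.FT.B4c

set_option autoImplicit false
open Cfsg

namespace Cfsg.Agent.S1454

open FT H9 Subgroup

/-- Let G be a finite group, p an odd prime, R a narrow p-subgroup and A a solvable subgroup of odd order normalizing R with A ∩ C_G(R) = 1. Then [A, A] ≤ O_p(A) and the index of O_p(A) in A is coprime to p; if R has an elementary abelian subgroup of order p ^ 3 then the order of every element of A of order coprime to p divides p − 1; and if the order of A is a prime not dividing p(p − 1), then 2·#A divides p + 1, and if in addition [R, A] = R and R is non-abelian then #R = p ^ 3. -/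
theorem result {G : Type*} [Group G] [Finite G] (p : ℕ) [Fact p.Prime] (hp : p ≠ 2) (R A : Subgroup G) (hR : IsPGroup p R) (hRn : Cfsg.IsNarrow p R)
    (hA : (A ≤ Subgroup.normalizer (R : Set G))) (hAs : Group.IsSolvable A) (hAodd : Odd (Nat.card A)) (hfaith : A ⊓ Subgroup.centralizer (R : Set G) = ⊥) :
    (commutator ↥A ≤ Cfsg.pCore p ↥A ∧ ((Cfsg.pCore p ↥A).index).Coprime p) ∧
      (¬ Cfsg.PRankLE p 2 R → ∀ a ∈ A, (orderOf a).Coprime p → orderOf a ∣ p - 1) ∧
      ((Nat.card A).Prime → ¬ Nat.card A ∣ p * (p - 1) →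
        2 * Nat.card A ∣ p + 1 ∧ (⁅R, A⁆ = R → ¬ IsMulCommutative R → Nat.card R = p ^ 3)) := by
  have hN := narrow_iff.2 hRn
  have hp' : p.Prime := Fact.out
  refine ⟨?_, fun h a ha hc => ?_, fun h1 h2 => ?_⟩
  · have hd : ⁅A, A⁆ ≤ A := commutator_le_of_le le_rfl le_rfl
    have h1 := isPGroup_of_Ores_eq_bot (eq_bot_iff.2 (hfaith ▸ le_inf ((Ores_le p _).trans hd) (t5_5a hp hR hN hA hAodd)))
    obtain ⟨P, hP, h2⟩ := exists_syl_ge h1 hd
    have h3 := hP.eq_Op (le_normalizer_of_commutator_le h2 hP.le)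
    rw [← subgroupOf_Op, ← h3]
    exact ⟨fun x hx => h2 (L.map_commutator_subtype A ▸ mem_map_of_mem _ hx), (hp'.coprime_iff_not_dvd.2 hP.not_dvd).symm⟩
  · exact orderOf_dvd_of_pow_eq_one (mem_bot.1 (hfaith ▸ (⟨pow_mem ha _, t5_5b hp hR hN (by
      rw [← rk_le_iff] at h; omega) (hA ha) hc⟩ : a ^ (p - 1) ∈ A ⊓ _)))
  · haveI := Fact.mk h1
    have h3 : Nat.card A ≠ p := fun a => h2 (a ▸ dvd_mul_right _ _)
    have h4 : ¬ Nat.card A ∣ p - 1 := fun a => h2 (a.mul_left _)
    have h5 := isPGroup_of_card_prime (H := A) rfl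
    obtain ⟨h6, h7⟩ := (t5_5c hp hR hN h3 h5 hA fun a => ne_bot_of_card_prime h1 (hfaith ▸ (inf_eq_left.2 a).symm)).resolve_left h4
    exact ⟨Nat.Coprime.mul_dvd_of_dvd_of_dvd (Nat.coprime_two_left.2 hAodd) ((hp'.odd_of_ne_two hp).add_one).two_dvd h7,
      t5_5d hp hR h6 (ne_two_of_odd hAodd dvd_rfl) h3 h5 hA h4⟩

end Cfsg.Agent.S1454
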