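import Cfsg.Statements.S1458
import Cfsg.Agent.FT.B6

set_option autoImplicit false
open Cfsg

namespace Cfsg.Agent.S1458

/-- Let G be a solvable group of odd order, p a prime and S a Sylow p-subgroup of G. Then the subgroup generated by the centre of the Thompson subgroup of S and O_{p'}(G) is normal in G. -/
theorem result {G : Type*} [Group G] [Finite G] [Group.IsSolvable G] (hodd : Odd (Nat.card G)) (p : ℕ) [Fact p.Prime] (S : Sylow p G) :
    (Cfsg.centerThompsonOf p (S : Subgroup G) ⊔ Cfsg.pPrimeCore p G).Normal := by
  open H9 Subgroup in open scoped commutatorElement in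
  have := FT.t6_2e (H := ⊤) (by rwa [card_top]) inferInstance (syl_top_of_sylow S)
  rw [ZE_eq, ← Op'_top]
  refine normal_of_top_le (this.ge.trans (sup_le (le_sup_right.trans le_normalizer) ?_))
  exact normalizer_sup inf_le_right (inf_le_left.trans (le_normalizer_Op' p ⊤))

end Cfsg.Agent.S1458
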