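import Cfsg.Statements.S1460
import Cfsg.Agent.FT.B6

set_option autoImplicit false
open Cfsg

namespace Cfsg.Agent.S1460

/-- Let G be a finite solvable group, K a normal subgroup and U a subgroup with G = KU, and H ≤ U a subgroup whose order is coprime to that of K. Then H ∩ G' = H ∩ U'; N_G(H) is generated by K ∩ C_G(H) and U ∩ N_G(H); and if gHg⁻¹ ≤ U for some g ∈ G then g = u c with u ∈ U and c ∈ K ∩ C_G(H). -/
theorem result {G : Type*} [Group G] [Finite G] [Group.IsSolvable G] (K U H : Subgroup G) [K.Normal] (hKU : K ⊔ U = ⊤) (hH : H ≤ U) (hcop : (Nat.card H).Coprime (Nat.card K)) :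
    H ⊓ commutator G = H ⊓ ⁅U, U⁆ ∧
      Subgroup.normalizer (H : Set G) = (K ⊓ Subgroup.centralizer (H : Set G)) ⊔ (U ⊓ Subgroup.normalizer (H : Set G)) ∧
      ∀ g : G, H.map (MulAut.conj g).toMonoidHom ≤ U → ∃ u ∈ U, ∃ c ∈ K ⊓ Subgroup.centralizer (H : Set G), g = u * c := by
  open H9 Subgroup in open scoped commutatorElement in
  have hn : U ≤ normalizer (K : Set G) := le_top.trans (top_le_normalizer K)
  have hc : CopA H K := ⟨hcop, Or.inl inferInstance⟩
  refine ⟨?_, ?_, fun g hg => FT.t6_5c hn hH hc (hKU.ge (mem_top g)) hg⟩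
  · have := FT.t6_5a hn hH hcop
    rwa [hKU] at this
  · have := FT.t6_5b hn hH hc
    rwa [hKU, top_inf_eq] at this

end Cfsg.Agent.S1460
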