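import Cfsg.Statements.S1463
import Cfsg.Agent.H1.Dim2

set_option autoImplicit false
open scoped MatrixGroups
open Cfsg

namespace Cfsg.Agent.S1463

open scoped Pointwise

/-- Let F be a field of odd characteristic p and H a finite subgroup of odd order of GL(2, F) that leaves no 1-dimensional subspace of F² invariant. Then p does not divide the order of H. -/
theorem result {F : Type*} [Field F] (p : ℕ) [Fact p.Prime] [CharP F p] (hp : p ≠ 2)
    (H : Subgroup (GL (Fin 2) F)) [Finite H] (hodd : Odd (Nat.card H))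
    (hirr : ∀ v : Fin 2 → F, v ≠ 0 → ∃ g ∈ H, (g : Matrix (Fin 2) (Fin 2) F).mulVec v ∉ Submodule.span F {v}) :
    ¬ p ∣ Nat.card H := by
  open Matrix in
  intro hd
  have par : ∀ {K : Type _} [Field K] {v w : Fin 2 → K}, v ≠ 0 → v 0 * w 1 = v 1 * w 0 → ∃ t : K, w = t • v := by
    intro K _ v w hv h
    by_cases h0 : v 0 = 0
    · have h1 : v 1 ≠ 0 := fun h1 => hv (funext fun i => by fin_cases i <;> simp [h0, h1])
      refine ⟨w 1 / v 1, funext fun i => ?_⟩
      fin_cases i
      · simpa [h0, h1] using h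
      · simp [h1]
    · refine ⟨w 0 / v 0, funext fun i => ?_⟩
      fin_cases i
      · simp [h0]
      · simp only [Fin.mk_one, Fin.isValue, Pi.smul_apply, smul_eq_mul]; field_simp; linear_combination h
  let K := AlgebraicClosure F
  let φ := algebraMap F K
  let ρ : H →* Module.End K (Fin 2 → K) := (Matrix.toLinAlgEquiv' (R := K) (n := Fin 2)).toMonoidHom.comp
    ((φ.mapMatrix (m := Fin 2)).toMonoidHom.comp ((Units.coeHom _).comp H.subtype))
  have hρ : ∀ (g : H) v, ρ g v = ((g : GL (Fin 2) F) : Matrix (Fin 2) (Fin 2) F).map φ *ᵥ v := fun g v =>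
    Matrix.toLinAlgEquiv'_apply _ _
  obtain ⟨v, h0, hv⟩ := H1.eig_of_odd (ρ := ρ) (p := p) (by simp) hodd
  obtain ⟨x, hx⟩ := exists_prime_orderOf_dvd_card' p hd
  obtain ⟨c, hc⟩ := hv x
  have h1 : ∀ n : ℕ, ρ (x ^ n) v = c ^ n • v := fun n => by
    induction n with
    | zero => simp
    | succ n ih => rw [pow_succ, map_mul, Module.End.mul_apply, hc, map_smul, ih, smul_smul, pow_succ']
  have h2 : c = 1 := by
    have := h1 p
    rw [← hx, pow_orderOf_eq_one, map_one, Module.End.one_apply, hx, eq_comm, ← sub_eq_zero] at this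
    nth_rw 2 [← one_smul K v] at this
    rw [← sub_smul, smul_eq_zero, ← one_pow p, ← sub_pow_char] at this
    exact sub_eq_zero.1 (pow_eq_zero_iff (Fact.out : p.Prime).ne_zero |>.1 (this.resolve_right h0))
  set N : Matrix (Fin 2) (Fin 2) F := ((x : GL (Fin 2) F) : Matrix (Fin 2) (Fin 2) F) - 1 with hN
  have h3 : N.map φ *ᵥ v = 0 := by
    rw [hN, Matrix.map_sub _ (map_sub φ), Matrix.map_one _ (map_zero φ) (map_one φ), sub_mulVec, ← hρ, hc, h2, one_smul,
      one_mulVec, sub_self]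
  have h4 : N ≠ 0 := fun e => (Fact.out : p.Prime).one_lt.ne' (by
    rw [← hx, orderOf_eq_one_iff]; exact Subtype.ext (Units.ext (sub_eq_zero.1 e)))
  obtain ⟨u, hu, h5⟩ := Matrix.exists_mulVec_eq_zero_iff.2 (φ.injective (by
    rw [RingHom.map_det, map_zero]; exact Matrix.exists_mulVec_eq_zero_iff.1 ⟨v, h0, h3⟩) : N.det = 0)
  obtain ⟨i, j, h6⟩ : ∃ i j, N i j ≠ 0 := by
    by_contra a
    exact h4 (Matrix.ext fun i j => by_contra fun b => a ⟨i, j, b⟩)
  have h7 := congrFun h3 i
  have h8 := congrArg φ (congrFun h5 i)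
  simp only [mulVec, dotProduct, Fin.sum_univ_two, map_apply, Pi.zero_apply, map_add, map_mul, map_zero] at h7 h8
  have h9 : φ (N i j) ≠ 0 := (map_ne_zero φ).2 h6
  obtain ⟨t, ht⟩ := par (w := fun k => φ (u k)) h0 (by
    apply mul_left_cancel₀ h9
    fin_cases j
    · simp only [Fin.zero_eta]; linear_combination φ (u 1) * h7 - v 1 * h8
    · simp only [Fin.mk_one]; linear_combination v 0 * h8 - φ (u 0) * h7)
  obtain ⟨g, hg, h10⟩ := hirr u hu
  obtain ⟨d, hd⟩ := hv ⟨g, hg⟩
  have h11 : ∀ k, φ (((g : Matrix (Fin 2) (Fin 2) F) *ᵥ u) k) = d * φ (u k) := fun k => by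
    have := congrFun (show ρ ⟨g, hg⟩ (fun k => φ (u k)) = d • fun k => φ (u k) by
      rw [ht, map_smul, hd, smul_comm]) k
    rw [hρ] at this
    simpa [mulVec, dotProduct] using this
  obtain ⟨s, hs⟩ := par (w := (g : Matrix (Fin 2) (Fin 2) F) *ᵥ u) hu (φ.injective (by
    rw [map_mul, map_mul, h11, h11]; ring))
  exact h10 (Submodule.mem_span_singleton.2 ⟨s, hs.symm⟩)

end Cfsg.Agent.S1463
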