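import Cfsg.Statements.S1465
import Cfsg.Agent.H9.QP

set_option autoImplicit false
open Cfsg

namespace Cfsg.Agent.S1465

/-- Let p be an odd prime, G a solvable group of odd order, P a normal p-subgroup of G, and X the subgroup generated by a family of abelian p-subgroups of G each normalized by P. Then the image of X in G/C_G(P) lies in O_p(G/C_G(P)); and if O_{p'}(G) = 1 and O_p(G) ∩ C_G(P) ≤ P then X ≤ O_p(G). -/
theorem result {G : Type*} [Group G] [Finite G] [Group.IsSolvable G] (hodd : Odd (Nat.card G)) (p : ℕ) [Fact p.Prime] (hp : p ≠ 2) (P : Subgroup G) [P.Normal] (hP : IsPGroup p P)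
    (S : Set (Subgroup G)) (hS : ∀ B ∈ S, IsMulCommutative B ∧ IsPGroup p B ∧ P ≤ Subgroup.normalizer (B : Set G)) :
    (sSup S).map (QuotientGroup.mk' (Subgroup.centralizer (P : Set G))) ≤ Cfsg.pCore p (G ⧸ Subgroup.centralizer (P : Set G)) ∧
      (Cfsg.pPrimeCore p G = ⊥ → Cfsg.pCore p G ⊓ Subgroup.centralizer (P : Set G) ≤ P → sSup S ≤ Cfsg.pCore p G) := by
  open H9 Subgroup in open scoped commutatorElement in
  have h1 : sSup S ≤ Opm p ⊤ (centralizer (P : Set G)) := sSup_le fun B hB =>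
    (pstN_of_odd hp hodd P inferInstance hP).le le_top (quad_of_normalizes (hS B hB).1 (hS B hB).2.2)
  refine ⟨?_, fun h2 h3 => ?_⟩
  · rintro _ ⟨g, hg, rfl⟩
    exact mk_mem_pCore_iff.2 (h1 hg)
  · rw [← Op_top] at h3 ⊢
    rw [← Op'_top] at h2
    refine h1.trans (Opm_le_Op ?_)
    have h4 := (local_centralizer_of_PLay_eq_bot (PLay_eq_bot_of_solvable (H := ⊤) inferInstance) hP le_top).2
    rw [h2, top_inf_eq, le_bot_iff] at h4
    have h5 := centralizer_Op_le_of_PLay (PLay_eq_bot_of_solvable (p := p) (H := centralizer (P : Set G)) inferInstance) h4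
    have h6 : Op p (centralizer (P : Set G)) ≤ P :=
      (le_inf (SN.Op_le_Op (SN.of_normal_top _)) (Op_le _ _)).trans h3
    rw [inf_top_eq]
    exact (Op_p p _).to_le ((le_inf le_rfl (centralizer_anti h6)).trans h5)

end Cfsg.Agent.S1465
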