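import Cfsg.Statements.S1466
import Cfsg.Agent.H2.Puig

set_option autoImplicit false
open Cfsg

namespace Cfsg.Agent.S1466

open Subgroup H9 H2P in

/-- Let p be a prime and R a nontrivial finite p-group. Then for every i > 0, Z(R) ≤ C_R(L_i(R)) ≤ L_i(R); likewise Z(R) ≤ C_R(L_*(R)) ≤ L_*(R) and Z(R) ≤ C_R(L(R)) ≤ L(R); and L(R) ≠ 1, L_*(R) ≠ 1. -/
theorem result {R : Type*} [Group R] [Finite R] (p : ℕ) [Fact p.Prime] (hR : IsPGroup p R) [Nontrivial R] :
    (∀ i : ℕ, 0 < i → Subgroup.center R ≤ Subgroup.centralizer ((Cfsg.puigSeq R i : Subgroup R) : Set R) ∧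
        Subgroup.centralizer ((Cfsg.puigSeq R i : Subgroup R) : Set R) ≤ Cfsg.puigSeq R i) ∧
      (Subgroup.center R ≤ Subgroup.centralizer ((Cfsg.puigLower R : Subgroup R) : Set R) ∧ Subgroup.centralizer ((Cfsg.puigLower R : Subgroup R) : Set R) ≤ Cfsg.puigLower R) ∧
      (Subgroup.center R ≤ Subgroup.centralizer ((Cfsg.puigSubgroup R : Subgroup R) : Set R) ∧ Subgroup.centralizer ((Cfsg.puigSubgroup R : Subgroup R) : Set R) ≤ Cfsg.puigSubgroup R) ∧
      Cfsg.puigSubgroup R ≠ ⊥ ∧ Cfsg.puigLower R ≠ ⊥ := by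
  have hn : Group.IsNilpotent (⊤ : Subgroup R) := by haveI := hR.isNilpotent; infer_instance
  have h1 := cent_LU hn
  have h2 := cent_LL hn
  rw [top_inf_eq, LU_top] at h1
  rw [top_inf_eq, LL_top] at h2
  have key : ∀ X : Subgroup R, centralizer (X : Set R) ≤ X → X ≠ ⊥ := fun X h e => by
    rw [e] at h
    exact top_ne_bot (eq_bot_iff.2 ((le_centralizer_iff.1 bot_le).trans h))
  refine ⟨fun i hi => ⟨center_le_centralizer _, ?_⟩, ⟨center_le_centralizer _, h2⟩, ⟨center_le_centralizer _, h1⟩, key _ h1, key _ h2⟩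
  obtain ⟨j, rfl⟩ : ∃ j, i = j + 1 := ⟨i - 1, by omega⟩
  have := cent_Ls hn (le_top (a := Lq ⊤ j))
  rwa [top_inf_eq, Ls_top, Lq_top] at this

end Cfsg.Agent.S1466
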