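import Cfsg.Statements.S1469
import Cfsg.Agent.H2.Puig
import Cfsg.Agent.H9.QP
import Cfsg.Agent.H9.Stab

set_option autoImplicit false
open Cfsg

namespace Cfsg.Agent.S1469

open Subgroup H9 H2P in
theorem aux {G : Type*} [Group G] [Finite G] [Group.IsSolvable G] (hodd : Odd (Nat.card G)) (p : ℕ) [Fact p.Prime] (hp : p ≠ 2)
    {S : Subgroup G} (hS : Syl p S ⊤) (hO : Cfsg.pPrimeCore p G = ⊥) : (LU S ⊓ centralizer (LU S : Set G)).Normal := by
  have hc := FT.cent_Op_le (p := p) (H := (⊤ : Subgroup G)) inferInstance (by rwa [Op'_top])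
  rw [top_inf_eq] at hc
  exact b4 (pstN_of_odd hp hodd) hc hS
open Subgroup H9 H2P in
theorem zmap {G G' : Type*} [Group G] [Group G'] {S : Subgroup G} (f : S →* G') (hf : Function.Injective f) :
    ((center (puigSubgroup S)).map (puigSubgroup S).subtype).map f = LU f.range ⊓ centralizer (LU f.range : Set G') := by
  rw [MonoidHom.range_eq_map, ← map_LU hf, LU_top, map_center_subtype]
  apply le_antisymm
  · rintro _ ⟨x, hx, rfl⟩
    refine mem_inf.2 ⟨mem_map_of_mem f hx.1, ?_⟩
    rintro _ ⟨y, hy, rfl⟩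
    rw [← map_mul, ← map_mul, hx.2 y hy]
  · rintro _ ⟨⟨x, hx, rfl⟩, h⟩
    refine mem_map_of_mem f (mem_inf.2 ⟨hx, fun y hy => hf ?_⟩)
    rw [map_mul, map_mul]
    exact h _ (mem_map_of_mem f hy)
open Subgroup H9 H2P in

/-- Let p be an odd prime, G a solvable group of odd order and S a Sylow p-subgroup, and let Z be the centre of the Puig subgroup L(S), viewed inside G. Then G is generated by O_{p'}(G) and N_G(Z); and if O_{p'}(G) = 1 then Z is normal in G. -/
theorem result {G : Type*} [Group G] [Finite G] [Group.IsSolvable G] (hodd : Odd (Nat.card G)) (p : ℕ) [Fact p.Prime] (hp : p ≠ 2) (S : Sylow p G) :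
    Cfsg.pPrimeCore p G ⊔ Subgroup.normalizer ((((Subgroup.center ↥(Cfsg.puigSubgroup ↥(S : Subgroup G))).map (Cfsg.puigSubgroup ↥(S : Subgroup G)).subtype).map (S : Subgroup G).subtype : Subgroup G) : Set G) = ⊤ ∧
      (Cfsg.pPrimeCore p G = ⊥ → (((Subgroup.center ↥(Cfsg.puigSubgroup ↥(S : Subgroup G))).map (Cfsg.puigSubgroup ↥(S : Subgroup G)).subtype).map (S : Subgroup G).subtype).Normal) := by
  have hS := syl_top_of_sylow S
  refine ⟨sup_normalizer_eq_top_of_map (hS.isP.to_le (map_subtype_le _)) ?_, fun hO => ?_⟩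
  · rw [map_map, zmap]
    · have := (hS.map (QuotientGroup.mk' (pPrimeCore p G)))
      rw [map_top_of_surjective _ (QuotientGroup.mk'_surjective _)] at this
      rw [MonoidHom.range_comp, range_subtype]
      exact aux (hodd.of_dvd_nat (card_quotient_dvd_card _)) p hp this (pPrimeCore_quotient p)
    · rw [injective_iff_map_eq_one]
      intro x hx
      have : (x : G) ∈ (S : Subgroup G) ⊓ pPrimeCore p G := ⟨x.2, (QuotientGroup.eq_one_iff _).1 hx⟩
      rw [inf_eq_bot_of_p_p' hS.isP (pPrimeCore_cop p), mem_bot] at this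
      exact Subtype.ext this
  · rw [zmap _ (subtype_injective _), range_subtype]
    exact aux hodd p hp hS hO

end Cfsg.Agent.S1469
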