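import Cfsg.Statements.S1474
import Cfsg.Agent.H2.CN

set_option autoImplicit false
open Cfsg

namespace Cfsg.Agent.S1474

open Subgroup H9 H2C FT in

/-- Let G be a finite group in which every non-identity element has nilpotent centralizer, not itself nilpotent, and having a nontrivial normal Sylow p-subgroup for some prime p. Let H be the largest normal nilpotent Hall subgroup of G. Then H is a nontrivial proper normal subgroup with a complement E that is a Frobenius complement in G (no non-identity element of E centralizes a non-identity element of H), and G/H is nilpotent. -/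
theorem result {G : Type*} [Group G] [Finite G] (hCN : Cfsg.IsCNGroup G) (hnn : ¬ Group.IsNilpotent G) (p : ℕ) [Fact p.Prime] (P : Sylow p G)
    (hP1 : (P : Subgroup G) ≠ ⊥) (hPn : (P : Subgroup G).Normal) :
    Cfsg.fittingHall G ≠ ⊥ ∧ Cfsg.fittingHall G ≠ ⊤ ∧
      (∃ E : Subgroup G, Subgroup.IsComplement' (Cfsg.fittingHall G) E ∧ Cfsg.IsFrobeniusComplement E ∧
        ∀ e ∈ E, e ≠ 1 → Cfsg.fittingHall G ⊓ Subgroup.centralizer ({e} : Set G) = ⊥) ∧
      Group.IsNilpotent (G ⧸ Cfsg.fittingHall G) := by
  have e : MF (⊤ : Subgroup G) = fittingHall G := by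
    apply le_antisymm
    · refine le_sSup ⟨normalizer_eq_top_iff.1 (eq_top_iff.2 (le_normalizer_MF ⊤)), MF_nil ⊤, ?_⟩
      have := (MF_hall (⊤ : Subgroup G)).coprime
      rwa [relIndex_top_right] at this
    · exact sSup_le fun N hN => le_MF le_top (by haveI := hN.1; exact le_normalizer_of_normal) hN.2.1 (by
        rw [relIndex_top_right]; exact hN.2.2)
  have hP := syl_top_of_sylow P
  have h0 : MF (⊤ : Subgroup G) ≠ ⊥ := fun e => hP1 (eq_bot_iff.2 (by
    have e2 := hP.eq_Op le_normalizer_of_normal
    rw [← e, e2]; exact Op_le_MF (e2 ▸ hP)))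
  obtain ⟨E, h1, h2, h3, h4⟩ := frob hCN hnn h0
  rw [e] at h0 h1 h2
  have hc : IsComplement' (fittingHall G) E := isComplement'_of_disjoint_and_mul_eq_univ (disjoint_iff.2 h1.inf) (by
    rw [← normal_mul, h1.sup, coe_top])
  refine ⟨h0, fun e => h3 ?_, ⟨E, hc, H1.isFrob_of_fpf h1.sup h0 h3 h2, h2⟩, ?_⟩
  · have := h1.inf
    rwa [e, top_inf_eq] at this
  · exact nilpotent_of_mulEquiv hc.symm.QuotientMulEquiv.symm

end Cfsg.Agent.S1474
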