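import Cfsg.Statements.S1475
import Cfsg.Agent.H2.CN

set_option autoImplicit false
open Cfsg

namespace Cfsg.Agent.S1475

open Subgroup H9 H2C FT in

/-- Let G be a finite solvable group such that the order of every element is a prime power (1 included). Then at most two distinct primes divide the order of G. -/
theorem result {G : Type*} [Group G] [Finite G] [Group.IsSolvable G] (h : ∀ g : G, IsPrimePow (orderOf g) ∨ g = 1) :
    (Nat.card G).primeFactors.card ≤ 2 := by
  by_contra hc
  push Not at hc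
  have hT : (⊤ : Subgroup G) ≠ ⊥ := fun e => by
    have : Nat.card G = 1 := by rw [← card_top, e, card_bot]
    rw [this] at hc; simp at hc
  have nc : ∀ x y : G, Commute x y → (orderOf x).Coprime (orderOf y) → x = 1 ∨ y = 1 := by
    intro x y h1 h2
    have e := h1.orderOf_mul_eq_mul_orderOf_of_coprime h2
    rcases h (x * y) with h3 | h3
    · rw [e] at h3
      rcases (Nat.Coprime.isPrimePow_dvd_mul h2 h3).1 dvd_rfl with h4 | h4
      · right
        have := h2.symm.eq_one_of_dvd ((Dvd.intro_left _ rfl).trans h4)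
        exact orderOf_eq_one_iff.1 this
      · left
        have := h2.eq_one_of_dvd ((Dvd.intro _ rfl).trans h4)
        exact orderOf_eq_one_iff.1 this
    · rw [h3, orderOf_one] at e
      exact Or.inl (orderOf_eq_one_iff.1 (Nat.eq_one_of_mul_eq_one_right e.symm))
  obtain ⟨p, hp, hO⟩ := exists_Op (H := (⊤ : Subgroup G)) inferInstance hT
  obtain ⟨K, hK⟩ := exists_hall {p}ᶜ (M := (⊤ : Subgroup G)) inferInstance
  have hKc := piG_compl_singleton_iff.1 hK.pi
  have hf : H1.Fpf K (Op p ⊤) := H1.fpf_iff.2 fun a ha b hb e => nc a b e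
    (((card_cop_of_p (Op_p p ⊤) hKc).symm.coprime_dvd_left (orderOf_dvd_card_of_mem ha)).coprime_dvd_right (orderOf_dvd_card_of_mem hb))
  obtain ⟨q, hq, r, hr, hqr⟩ : ∃ q ∈ (Nat.card G).primeFactors.erase p, ∃ r ∈ (Nat.card G).primeFactors.erase p, q ≠ r := by
    rw [← Finset.one_lt_card]
    have := Finset.pred_card_le_card_erase (s := (Nat.card G).primeFactors) (a := p)
    omega
  rw [Finset.mem_erase, Nat.mem_primeFactors] at hq hr
  have dq := hK.dvd_card hq.2.1 hq.1 (by rw [card_top]; exact hq.2.2.1)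
  have dr := hK.dvd_card hr.2.1 hr.1 (by rw [card_top]; exact hr.2.2.1)
  have hK0 : K ≠ ⊥ := fun e => by rw [e, card_bot, Nat.dvd_one] at dq; exact hq.2.1.one_lt.ne' dq
  obtain ⟨s, hs, hd⟩ := exists_prime_dvd_card (fpf_center hf hO (le_top.trans (le_normalizer_Op p ⊤)) hK0)
  haveI := Fact.mk hs
  obtain ⟨z, hz, ho⟩ := exists_orderOf_eq_of_dvd hd
  have fin : ∀ t : ℕ, t.Prime → t ∣ Nat.card K → t = s := fun t ht hd => by
    haveI := Fact.mk ht
    obtain ⟨y, hy, hy2⟩ := exists_orderOf_eq_of_dvd hd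
    by_contra hne
    rcases nc y z (hz.2 y hy) (by rw [ho, hy2]; exact (Nat.coprime_primes ht hs).2 hne) with e | e
    · subst e; simp at hy2; exact ht.one_lt.ne hy2
    · subst e; simp at ho; exact hs.one_lt.ne ho
  exact hqr ((fin q hq.2.1 dq).trans (fin r hr.2.1 dr).symm)

end Cfsg.Agent.S1475
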