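import Cfsg.Statements.S1476
import Cfsg.Agent.H2.CN
import Cfsg.Agent.S1474

set_option autoImplicit false
open Cfsg

namespace Cfsg.Agent.S1476

open Subgroup H9 H2C FT in

/-- Let G be a finite solvable group in which every non-identity element has nilpotent centralizer. Then either G is nilpotent; or G has a normal subgroup K with a Frobenius complement E (K E = G, K ∩ E = 1, E meets its conjugates by outside elements trivially) such that E is cyclic or E is generated by two elementwise-commuting subgroups, one cyclic of odd order and one isomorphic to a generalized quaternion group; or G is a three-step group with respect to some prime p. -/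
theorem result {G : Type*} [Group G] [Finite G] [Group.IsSolvable G] (hCN : Cfsg.IsCNGroup G) :
    Group.IsNilpotent G ∨
      (∃ K E : Subgroup G, K.Normal ∧ Subgroup.IsComplement' K E ∧ Cfsg.IsFrobeniusComplement E ∧
        (IsCyclic E ∨ ∃ C Q : Subgroup G, C ⊔ Q = E ∧ (∀ a ∈ C, ∀ b ∈ Q, a * b = b * a) ∧ IsCyclic C ∧ Odd (Nat.card C) ∧
          ∃ n : ℕ, Nonempty (↥Q ≃* QuaternionGroup (2 ^ n)))) ∨
      ∃ p : ℕ, p.Prime ∧ Cfsg.IsThreeStepGroup p G := by
  by_cases hn : Group.IsNilpotent G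
  · exact Or.inl hn
  right
  by_cases h0 : MF (⊤ : Subgroup G) = ⊥
  swap
  · left
    obtain ⟨E, h1, h2, h3, h4⟩ := frob hCN hn h0
    haveI : (MF (⊤ : Subgroup G)).Normal := normalizer_eq_top_iff.1 (eq_top_iff.2 (le_normalizer_MF ⊤))
    exact ⟨_, E, this, isComplement'_of_disjoint_and_mul_eq_univ (disjoint_iff.2 h1.inf) (by
      rw [← normal_mul, h1.sup, coe_top]), H1.isFrob_of_fpf h1.sup h0 h3 h2, nil_fpf_struct h2 h0 h1.norm h4⟩
  right
  have hT : (⊤ : Subgroup G) ≠ ⊥ := fun e => hn (by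
    haveI : Subsingleton G := ⟨fun a b => (mem_bot.1 (e.le (mem_top a))).trans (mem_bot.1 (e.le (mem_top b))).symm⟩
    infer_instance)
  obtain ⟨p, hp, hO⟩ := exists_Op (H := (⊤ : Subgroup G)) inferInstance hT
  have hOn : ∀ q : ℕ, (Op q (⊤ : Subgroup G)).Normal := fun q => normalizer_eq_top_iff.1 (eq_top_iff.2 (le_normalizer_Op q ⊤))
  obtain ⟨P, hP⟩ := exists_syl p (⊤ : Subgroup G)
  have hPO : P ≠ Op p ⊤ := fun e => hO (eq_bot_iff.2 (h0 ▸ Op_le_MF (e ▸ hP)))
  have hq : ∀ (q : ℕ) [Fact q.Prime], q ≠ p → Op q (⊤ : Subgroup G) = ⊥ := by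
    intro q _ hqp
    by_contra hne
    have hc : (Nat.card (Op q (⊤ : Subgroup G))).Coprime p := cop_of_isPGroup_ne hqp (Op_p q ⊤)
    have h1 := cent_of_inf hCN (B := Op q ⊤) hP.isP.isNilpotent (card_cop_of_p hP.isP hc).symm
      (fun e => hO (eq_bot_iff.2 ((le_inf hP.Op_le (commutator_eq_bot_iff_le_centralizer.1
        (commutator_eq_bot_of_p_p' (Op_p p ⊤) hc le_normalizer_of_normal le_normalizer_of_normal))).trans e.le)))
    exact hPO (le_antisymm (((sn_of_nilpotent (nil_of_cent hCN hne le_rfl) (le_centralizer_iff.1 h1)).trans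
      (SN.of_normal_top _)).le_Op hP.isP) hP.Op_le)
  have hF : Fit (⊤ : Subgroup G) ≤ Op p ⊤ := Fit_le_of_forall_Op fun q _ => by
    by_cases h : q = p
    · subst h; exact le_rfl
    · rw [hq q h]; exact bot_le
  have hC : centralizer (Op p (⊤ : Subgroup G) : Set G) ≤ Op p ⊤ :=
    ((le_inf le_top (centralizer_anti hF)).trans (centralizer_Fit_le_of_solvable inferInstance)).trans hF
  have fpf : ∀ K : Subgroup G, (Nat.card K).Coprime p → H1.Fpf K (Op p ⊤) := fun K hK a ha h1 => by
    by_contra hne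
    have hz : (Nat.card (zpowers a)).Coprime p := cop_of_le hK (zpowers_le_of_mem ha)
    have := cent_of_inf hCN (B := zpowers a) (Op_p p ⊤).isNilpotent (card_cop_of_p (Op_p p ⊤) hz).symm
      (by rwa [centralizer_zpowers])
    exact h1 (zpowers_eq_bot.1 (eq_bot_of_p_p' ((Op_p p ⊤).to_le (this.trans hC)) hz))
  rw [Op_top] at hO hC fpf hPO
  set T := pCore p G with hT
  let π := QuotientGroup.mk' T
  have hπ : Function.Surjective π := QuotientGroup.mk'_surjective T
  have hCN' := cn_quot_p hCN T (pCore_p p)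
  obtain ⟨A, hA⟩ := exists_hall {p}ᶜ (M := (⊤ : Subgroup G)) inferInstance
  have hAc := piG_compl_singleton_iff.1 hA.pi
  have hfA := fpf A hAc
  have hTP : T ≤ P := by have := hP.Op_le; rwa [Op_top] at this
  have hO' : Op p (⊤ : Subgroup (G ⧸ T)) = ⊥ := by rw [Op_top]; exact pCore_quotient p
  have hPb : Syl p (P.map π) ⊤ := by
    have := hP.map π
    rwa [map_top_of_surjective _ hπ] at this
  have hPb0 : P.map π ≠ ⊥ := fun e => hPO (le_antisymm (by
    rwa [Subgroup.map_eq_bot_iff, QuotientGroup.ker_mk'] at e) hTP)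
  have hnb : ¬ Group.IsNilpotent (⊤ : Subgroup (G ⧸ T)) := fun h =>
    hPb0 (eq_bot_iff.2 (hO' ▸ (sn_of_nilpotent h le_top).le_Op hPb.isP))
  have hAb : Hall {p}ᶜ (A.map π) ⊤ := by
    have := hA.map π
    rwa [map_top_of_surjective _ hπ] at this
  set F := Fit (⊤ : Subgroup (G ⧸ T)) with hFdef
  haveI hFn : F.Normal := normalizer_eq_top_iff.1 (eq_top_iff.2 (le_normalizer_Fit ⊤))
  have hFA : F ≤ A.map π := hAb.le_of_le_normalizer (piG_compl_singleton_iff.2 (cop_iff.2 fun hd => by
    have := (syl_Op_of_nilpotent (p := p) (Fit_nil ⊤)).ne_bot hd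
    rw [Op_Fit] at this
    exact this hO')) le_top (Or.inr le_normalizer_of_normal)
  have hFc : centralizer (F : Set (G ⧸ T)) ≤ F :=
    (le_inf le_top le_rfl).trans (centralizer_Fit_le_of_solvable inferInstance)
  have hF0 : F ≠ ⊥ := fun e => hPb0 (eq_bot_iff.2 (by
    rw [e] at hFc
    exact (le_centralizer_iff.1 bot_le).trans hFc))
  have hA0 : A ≠ ⊥ := fun e => hF0 (eq_bot_iff.2 (by rwa [e, Subgroup.map_bot] at hFA))
  have hAnil : Group.IsNilpotent A := nil_of_cent hCN (fpf_center hfA hO le_normalizer_of_normal hA0) (le_centralizer_iff.1 inf_le_right)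
  have inj : ∀ a ∈ A, π a = 1 → a = 1 := fun a ha e => by
    have : a ∈ T ⊓ A := ⟨(QuotientGroup.eq_one_iff _).1 e, ha⟩
    rwa [inf_eq_bot_of_p_p' (pCore_p p) hAc, mem_bot] at this
  -- normal subgroups of prime order in `F` have centralizer `F`
  have key : ∀ x ∈ F, x ≠ 1 → (zpowers x).Normal → centralizer {x} ≤ F := fun x _ h1 hx => by
    rw [← centralizer_zpowers]
    exact le_Fit le_top le_normalizer_of_normal (nil_of_cent hCN' (by simpa using h1) le_rfl)
  have hq := H1.pq_of_fpf hO le_normalizer_of_normal hfA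
  have key2 : ∀ x ∈ F, (orderOf x).Prime → (zpowers x).Normal := fun x hx ho => by
    rw [← normalizer_eq_top_iff, eq_top_iff]
    refine le_normalizer_of_cj_le fun g _ => ?_
    rw [cj_zpowers]
    haveI := Fact.mk ho
    have hxO : zpowers x ≤ Op (orderOf x) F := (sn_of_nilpotent (Fit_nil ⊤) (zpowers_le_of_mem hx)).le_Op (isPGroup_zpowers_of_orderOf rfl)
    have hy := conj_mem_of_le_normalizer (normalizer_Op (p := orderOf x) (le_normalizer_of_normal (K := ⊤) (H := F))) (mem_top g) (hxO (mem_zpowers x))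
    let φ : A →* G ⧸ T := π.comp A.subtype
    have hφ : Function.Injective φ := (injective_iff_map_eq_one φ).2 fun a e => Subtype.ext (inj a a.2 e)
    obtain ⟨a, ha, ea⟩ := hFA hx
    obtain ⟨b, hb, eb⟩ := hFA (Op_le _ _ hy)
    have h3 : IsPGroup (orderOf x) ((Op (orderOf x) F).comap φ) := (Op_p _ _).comap_of_injective φ hφ
    have h4 := hq.top.mem_zpowers_of_pgroup h3 le_top (x := ⟨a, ha⟩) (y := ⟨b, hb⟩)
      (by show π a ∈ Op (orderOf x) F; rw [ea]; exact hxO (mem_zpowers x)) (by show π b ∈ Op (orderOf x) F; rw [eb]; exact hy)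
      (by rw [← orderOf_injective φ hφ]; show orderOf (π a) = _; rw [ea])
      (by rw [← orderOf_injective φ hφ]; show orderOf (π b) = _; rw [eb]; exact (MulAut.conj g).orderOf_eq x)
    refine zpowers_le_of_mem ?_
    have := mem_map_of_mem φ h4
    rw [MonoidHom.map_zpowers] at this
    rw [← eb, ← ea]
    exact this
  have eA : A.map π = F := by
    refine le_antisymm ?_ hFA
    have hZ := inf_centralizer_ne_bot_of_nilpotent (H2K.nil_map π hAnil) hFA le_normalizer_of_normal hF0
    obtain ⟨r, hr, hd⟩ := exists_prime_dvd_card hZ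
    haveI := Fact.mk hr
    obtain ⟨x, hx, ho⟩ := exists_orderOf_eq_of_dvd hd
    refine le_trans ?_ (key x hx.1 (by rintro rfl; simp at ho; exact hr.one_lt.ne ho) (key2 x hx.1 (ho ▸ hr)))
    exact le_centralizer_singleton_iff.2 hx.2
  have eTA : T ⊔ A = F.comap π := by rw [← eA, comap_map_eq, QuotientGroup.ker_mk', sup_comm]
  have hodd : Odd (Nat.card A) := by
    by_contra h2
    obtain ⟨t, ht, ho⟩ := exists_orderOf_eq_of_dvd (even_iff_two_dvd.1 (Nat.not_odd_iff_even.1 h2))
    have ht1 : π t ≠ 1 := fun e => by rw [inj t ht e] at ho; simp at ho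
    have ho2 : orderOf (π t) = 2 := orderOf_eq_prime (by rw [← map_pow, ← ho, pow_orderOf_eq_one, map_one]) ht1
    have hn2 := key2 (π t) (eA ▸ mem_map_of_mem π ht) (ho2 ▸ Nat.prime_two)
    refine hnb (H2K.nil_le (hCN' (π t) ht1) ?_)
    exact H1.le_centralizer_of_coprime_totient le_normalizer_of_normal (by rw [ho2]; simp)
  have hcyc : IsCyclic A := by
    haveI := t3_9 le_normalizer_of_normal hfA hO hodd
    infer_instance
  refine ⟨p, hp.out, hO, A, hA0, hcyc, hodd, hAc, eTA ▸ inferInstance, fun e => hnb ?_, ?_, hfA, fun x hx a ha h1 h2 => hx ?_⟩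
  · have : F = ⊤ := by
      rw [← map_comap_eq_self_of_surjective hπ F, ← eTA, e, map_top_of_surjective _ hπ]
    rw [← this]; exact Fit_nil ⊤
  · have h1 : (T ⊔ A).index ∣ A.relIndex ⊤ := by rw [relIndex_top_right]; exact index_dvd_of_le le_sup_right
    refine ⟨_, Nat.eq_prime_pow_of_unique_prime_dvd index_ne_zero_of_finite fun {d} hd h2 => ?_⟩
    by_contra hne
    exact hA.not_dvd hd hne (h2.trans h1)
  · rw [eTA]
    obtain ⟨r, hr, hd⟩ := Nat.exists_prime_and_dvd (n := orderOf (π a)) (fun e => h1 (inj a ha (orderOf_eq_one_iff.1 e)))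
    have ho := orderOf_pow_orderOf_div (orderOf_pos (π a)).ne' hd
    have hm : π a ^ (orderOf (π a) / r) ∈ F := pow_mem (eA ▸ mem_map_of_mem π ha) _
    refine key _ hm (fun e => by rw [e] at ho; simp at ho; exact hr.one_lt.ne ho) (key2 _ hm (ho.symm ▸ hr)) ?_
    rw [mem_centralizer_singleton_iff]
    refine (Commute.pow_right ?_ _).eq
    have : π (x * a * x⁻¹ * a⁻¹) = 1 := (QuotientGroup.eq_one_iff _).2 h2
    rw [map_mul, map_mul, map_mul, map_inv, map_inv] at this
    exact commutatorElement_eq_one_iff_mul_comm.1 this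

end Cfsg.Agent.S1476
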