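import Cfsg.Statements.S1477
import Cfsg.Agent.H2.CN

set_option autoImplicit false
open Cfsg

namespace Cfsg.Agent.S1477

open Subgroup H9 H2C FT in

/-- Let G be a finite group in which every non-identity element has nilpotent centralizer, and H a nilpotent subgroup not properly contained in any nilpotent subgroup. Then the order of H is coprime to its index; if the order of H is not a prime power then H ∩ gHg⁻¹ = 1 whenever gHg⁻¹ ≠ H; and if H ∩ gHg⁻¹ = 1 whenever gHg⁻¹ ≠ H, then C_G(x) ≤ H for every non-identity x ∈ H. -/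
theorem result {G : Type*} [Group G] [Finite G] (hCN : Cfsg.IsCNGroup G) (H : Subgroup G) (hH : Group.IsNilpotent H)
    (hmax : ∀ L : Subgroup G, Group.IsNilpotent L → H ≤ L → L = H) :
    (Nat.card H).Coprime H.index ∧
      (¬ IsPrimePow (Nat.card H) → Nat.card H ≠ 1 → ∀ g : G, H.map (MulAut.conj g).toMonoidHom ≠ H → H ⊓ H.map (MulAut.conj g).toMonoidHom = ⊥) ∧
      ((∀ g : G, H.map (MulAut.conj g).toMonoidHom ≠ H → H ⊓ H.map (MulAut.conj g).toMonoidHom = ⊥) → ∀ x ∈ H, x ≠ 1 → Subgroup.centralizer ({x} : Set G) ≤ H) := by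
  simp only [cj_def']
  have cz : ∀ Y : Subgroup G, Y ≠ ⊥ → H ≤ centralizer (Y : Set G) → centralizer (Y : Set G) = H :=
    fun Y h0 h1 => hmax _ (nil_of_cent hCN h0 le_rfl) h1
  have syl : ∀ (p : ℕ) [Fact p.Prime], p ∣ Nat.card H → Syl p (Op p H) ⊤ := by
    intro p _ hd
    obtain ⟨P, hP, h1⟩ := exists_syl_ge (Op_p p H) (le_top (a := Op p H))
    have h0 : Op p H ≠ ⊥ := (syl_Op_of_nilpotent hH).ne_bot hd
    have h2 := cent_of_inf hCN (B := Op' p H) hP.isP.isNilpotent (card_cop_of_p hP.isP (Op'_cop p H)).symm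
      (fun e => h0 (eq_bot_iff.2 ((le_inf h1 (commutator_eq_bot_iff_le_centralizer.1 (commutator_Op_Op' H))).trans e.le)))
    have h3 := hmax (P ⊔ Op' p H) (H1.isNilpotent_sup
      ((le_centralizer_iff.1 h2).trans (centralizer_le_normalizer' _)) (h2.trans (centralizer_le_normalizer' _)) hP.isP.isNilpotent (H2K.nil_le hH (Op'_le p H))) (by
        conv_lhs => rw [← nilpotent_eq_Op_sup_Op' (p := p) hH]
        exact sup_le_sup_right h1 _)
    have := (syl_Op_of_nilpotent hH).maximal hP.isP (le_sup_left.trans h3.le) h1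
    rwa [← this]
  refine ⟨Nat.coprime_of_dvd fun p hp h1 h2 => ?_, fun h1 h2 g hg => ?_, fun h x hx h1 => ?_⟩
  · haveI := Fact.mk hp
    have := (syl p h1).not_dvd
    rw [relIndex_top_right] at this
    exact this (h2.trans (index_dvd_of_le (Op_le p H)))
  · by_contra hne
    obtain ⟨p, hp, hd⟩ := exists_prime_dvd_card hne
    haveI := Fact.mk hp
    obtain ⟨x, hx, ho⟩ := exists_orderOf_eq_of_dvd hd
    have hx0 : zpowers x ≠ ⊥ := by rw [Ne, zpowers_eq_bot]; rintro rfl; simp at ho; exact hp.one_lt.ne ho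
    have hD : Op' p H ≠ ⊥ := fun e => by
      have h3 := nilpotent_eq_Op_sup_Op' (p := p) hH
      rw [e, sup_bot_eq] at h3
      obtain ⟨k, hk⟩ := IsPGroup.iff_card.1 (h3 ▸ Op_p p H)
      rcases k with _ | k
      · exact h2 (by simpa using hk)
      · exact h1 (hk ▸ (hp.isPrimePow.pow (Nat.succ_ne_zero k)))
    obtain ⟨q, hq, hqd⟩ := exists_prime_dvd_card hD
    haveI := Fact.mk hq
    have hqp : q ≠ p := by rintro rfl; exact cop_iff.1 (Op'_cop q H) hqd
    have hqH := hqd.trans (card_dvd_of_le (Op'_le p H))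
    have hS := syl q hqH
    have hc : ∀ X : Subgroup G, Group.IsNilpotent X → x ∈ X → Op q X ≤ centralizer (zpowers x : Set G) := fun X hX hx =>
      H1.le_centralizer_of_coprime_of_nilpotent hX (Op_le q X) (zpowers_le_of_mem hx)
        (card_cop_of_p (Op_p q X) (cop_of_isPGroup_ne hqp.symm (isPGroup_zpowers_of_orderOf ho)))
    have hN := nil_of_cent hCN hx0 le_rfl
    have hHg : Group.IsNilpotent (cj g H) := H2K.nil_map _ hH
    have h3 := hc H hH hx.1
    have h4 := hc _ hHg hx.2
    have h5 : Op q (cj g H) ≤ Op q H := (hS.mono h3 le_top).le_of_le_normalizer (Op_p _ _) h4 (Or.inl (h4.trans (by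
      rw [(hS.mono h3 le_top).eq_Op ((by
        have := (syl_Op_of_nilpotent hN).maximal (Op_p q H) h3 (hS.mono h3 le_top).Op_le
        rw [this]; exact le_normalizer_Op _ _))]
      exact le_normalizer_Op _ _)))
    have h6 : Op q (cj g H) = Op q H := eq_of_le_of_card_ge h5 (by rw [← cj_Op, card_cj])
    have hZ := inf_centralizer_ne_bot_of_nilpotent hH (Op_le q H) (le_normalizer_Op q H) ((syl_Op_of_nilpotent hH).ne_bot hqH)
    have h7 := cz _ hZ (le_centralizer_iff.1 inf_le_right)
    have h8 : cj g H ≤ H := by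
      rw [← h7]
      conv_lhs => rw [h7, ← nilpotent_eq_Op_sup_Op' (p := q) hHg]
      refine sup_le ?_ ?_
      · rw [h6, h7]; exact Op_le q H
      · refine (le_centralizer_iff.1 (commutator_eq_bot_iff_le_centralizer.1 (commutator_Op_Op' _))).trans ?_
        rw [h6]; exact centralizer_anti inf_le_left
    exact hg (eq_of_le_of_card_ge h8 (card_cj g H).ge)
  · have h0 : H ≠ ⊥ := fun e => h1 (by rwa [e, mem_bot] at hx)
    have hN : centralizer ({x} : Set G) ≤ normalizer (H : Set G) := fun y hy => by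
      rw [mem_normalizer_iff_cj]
      by_contra hne
      have : x ∈ H ⊓ cj y H := ⟨hx, by
        have := conj_mem_cj (g := y) hx
        rwa [mem_centralizer_singleton_iff.1 hy, mul_inv_cancel_right] at this⟩
      rw [h y hne, mem_bot] at this
      exact h1 this
    have hZ := inf_centralizer_ne_bot_of_nilpotent hH le_rfl le_normalizer h0
    have h2 := inf_centralizer_ne_bot_of_nilpotent (hCN x h1) (N := H ⊓ centralizer (H : Set G))
      (inf_le_right.trans (centralizer_le (Set.singleton_subset_iff.2 hx))) (normalizer_inf hN (normalizer_centralizer hN)) hZ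
    rw [← cz _ h2 (le_centralizer_iff.1 (inf_le_left.trans inf_le_right))]
    exact le_centralizer_iff.1 inf_le_right

end Cfsg.Agent.S1477
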