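import Cfsg.Statements.S1480
import Cfsg.Agent.FT.B7

set_option autoImplicit false
open Cfsg

namespace Cfsg.Agent.S1480

/-- Let G be a finite group and p a prime such that the normalizer of every nontrivial p-subgroup of G is p-constrained; if p = 2 assume also that the Sylow 2-subgroups of G have nilpotency class at most 2. Let E be an abelian p-subgroup containing an elementary abelian subgroup of order p ^ 3 and containing every element of p-power order of C_G(E). Then for every prime q ≠ p, any two maximal E-invariant q-subgroups of G are conjugate by an element of O_{p'}(C_G(E)). -/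
theorem result {G : Type*} [Group G] [Finite G] (p : ℕ) [Fact p.Prime]
    (hloc : ∀ T : Subgroup G, IsPGroup p T → T ≠ ⊥ → Cfsg.IsPConstrained p ↥(Subgroup.normalizer (T : Set G)))
    (h2 : p = 2 → ∀ S : Sylow p G, Group.IsNilpotent (S : Subgroup G) ∧ Group.nilpotencyClass (S : Subgroup G) ≤ 2)
    (E : Subgroup G) (hEp : IsPGroup p E) (hEc : IsMulCommutative E) (hE3 : ¬ Cfsg.PRankLE p 2 E)
    (hEfull : ∀ x ∈ Subgroup.centralizer (E : Set G), IsPGroup p (Subgroup.zpowers x) → x ∈ E)
    (q : ℕ) [Fact q.Prime] (hqp : q ≠ p) :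
    ∀ Q₁ ∈ Cfsg.maxInvSubgroups ⊤ E {q}, ∀ Q₂ ∈ Cfsg.maxInvSubgroups ⊤ E {q},
        ∃ k ∈ Cfsg.piCoreOf (Cfsg.primesNotDvd p) (Subgroup.centralizer (E : Set G)), Q₂ = Q₁.map (MulAut.conj k).toMonoidHom := by
  open H9 Subgroup in open scoped commutatorElement in
  intro Q₁ h₁ Q₂ h₂
  obtain ⟨k, h1, h2⟩ := FT.tr_of_local hqp hEp hEc (FT.lt_rk_iff.2 hE3) (fun u hu u1 Y y1 y2 y3 => by
    have hu' := isPGroup_zpowers_of_mem hEp hu
    have hX := (local_centralizer_of_PLay_eq_bot (isPConstrained_iff.1 (hloc _ hu' (zpowers_ne_bot.2 u1))) hu'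
      le_normalizer).1
    rw [inf_eq_right.2 (centralizer_le_normalizer' _), centralizer_zpowers] at hX
    have hEX : E ≤ centralizer {u} := le_centralizer_singleton_iff.2 (le_centralizer_of_le_comm hEc le_rfl le_rfl hu)
    by_cases hp2 : p = 2
    · obtain ⟨S, hS, hES⟩ := exists_syl_ge hEp hEX
      obtain ⟨T, hT⟩ := hS.isP.exists_le_sylow
      obtain ⟨k1, k2⟩ := h2 hp2 T
      have k3 : ⁅⁅S, S⁆, S⁆ = ⊥ := by
        have := (Subgroup.lowerCentralSeries_eq_bot_iff_nilpotencyClass_le.2 k2)
        have := congrArg (map (T : Subgroup G).subtype) this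
        simp only [map_lowerCentralSeries, map_top_subtype, Subgroup.map_bot] at this
        exact eq_bot_iff.2 ((commutator_mono (commutator_mono hT hT) hT).trans this.le)
      have k4 : S ⊓ centralizer (E : Set G) ≤ E := fun x hx => hEfull x hx.2 (isPGroup_zpowers_of_mem hS.isP hx.1)
      refine le_Op'_of_scn hX hS hES (le_normalizer_of_commutator_le (le_trans (le_inf
        (commutator_le_left' le_normalizer) ((commutator_eq_bot_iff_le_centralizer.1 k3).trans
          (centralizer_anti hES))) k4) hES) k4 hEc y1 y2 y3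
    · exact thompson_bender hp2 hX hEp hEX (fun x _ h1 h2 => hEfull x h1 (elem_isP (elem_zpowers h2))) y1 y2 y3)
    _ _ (FT.mi_iff.2 h₁) (FT.mi_iff.2 h₂)
  exact ⟨k, (FT.Opi_primesNotDvd_prime p (centralizer (E : Set G))).ge h1, h2.symm⟩

end Cfsg.Agent.S1480
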