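import Cfsg.Statements.S1481
import Cfsg.Agent.H9.PComp
import Cfsg.Agent.FT.Pi
import Cfsg.Agent.H9.Thom
import Cfsg.Agent.H1.Coprime
import Cfsg.Agent.H9.Sec

set_option autoImplicit false
open Cfsg

namespace Cfsg.Agent.S1481

open H1
open Subgroup H9 FT

theorem main {G : Type*} [Group G] [Finite G] {H M R : Subgroup G}
    (hHmax : ∀ L : Subgroup G, Cfsg.IsLocalSubgroup L → H ≤ L → L = H) (hF2 : 2 ≤ (Nat.card (Fit H)).primeFactors.card)
    (hM : M ≤ Fit H) (hCM : Fit H ⊓ centralizer (M : Set G) ≤ M) (hR : Group.IsSolvable R)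
    (hMR : M ≤ normalizer (R : Set G)) (hXR : H ⊓ centralizer (Fit H : Set G) ≤ normalizer (R : Set G)) :
    (∀ Y ≤ R, (Nat.card Y).Coprime (Nat.card (Fit H)) → M ≤ normalizer (Y : Set G) →
      Y ≤ Opi (primesNotDvd (Nat.card (Fit H))) R) ∧
    ∀ Y ≤ R, (Nat.card Y).Coprime (Nat.card (Fit H)) → Y ≤ centralizer (M : Set G) → Y = ⊥ := by
  have nM : Group.IsNilpotent M := H9.isNilpotent_of_le (Fit_nil H) hM
  have sM : SN M (Fit H) := sn_of_nilpotent (Fit_nil H) hM
  have MH := hM.trans (Fit_le H)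
  have o0 : ∀ (p : ℕ) [Fact p.Prime], Op p H = ⊥ ↔ ¬ p ∣ Nat.card (Fit H) := fun p _ => by
    rw [← Op_Fit, (syl_Op_of_nilpotent (Fit_nil H)).eq_bot_iff, cop_iff]
  have nZ : ∀ p, H ≤ normalizer (Zc (Op p H) : Set G) := fun p => normalizer_Zc (le_normalizer_Op p H)
  have cZ : ∀ (p : ℕ) [Fact p.Prime], p ∣ Nat.card (Fit H) → centralizer (Zc (Op p H) : Set G) ≤ H := fun p _ h =>
    (Subgroup.centralizer_le_normalizer _).trans (hHmax _ ⟨p, _, Fact.out, (Op_p p H).to_le inf_le_left,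
      Zc_ne_bot (Op_p p H) (fun e => (o0 p).1 e h), rfl⟩ (nZ p)).le
  have cc : ∀ (p : ℕ) [Fact p.Prime], Op p H ≤ centralizer (Op' p (Fit H) : Set G) := fun p _ => by
    rw [← Op_Fit]; exact commutator_eq_bot_iff_le_centralizer.1 (commutator_Op_Op' _)
  have ZM : ∀ (p : ℕ) [Fact p.Prime], Zc (Op p H) ≤ M ⊓ centralizer (M : Set G) := fun p _ => by
    have : Zc (Op p H) ≤ centralizer (M : Set G) := by
      refine le_trans ?_ (H9.centralizer_anti hM)
      rw [← nilpotent_eq_Op_sup_Op' (p := p) (Fit_nil H), H9.centralizer_sup, Op_Fit]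
      exact le_inf inf_le_right (inf_le_left.trans (cc p))
    exact le_inf (le_trans (le_inf (inf_le_left.trans (Op_le_Fit H)) this) hCM) this
  have triv : ∀ Y ≤ R, Y ≤ H → (Nat.card Y).Coprime (Nat.card (Fit H)) → M ≤ normalizer (Y : Set G) → Y = ⊥ := by
    intro Y h1 h2 h3 h4
    have i : Y ⊓ Fit H = ⊥ := H1.inf_eq_bot_of_coprime h3
    have a : M ≤ centralizer (Y : Set G) := le_centralizer_iff.1 (commutator_eq_bot_iff_le_centralizer.1
      (le_bot_iff.1 ((le_inf (H9.commutator_le_left' h4) ((commutator_mono le_rfl hM).trans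
        (H9.commutator_le_right' (h2.trans (le_normalizer_Fit H))))).trans i.le)))
    have b : Fit H ≤ centralizer (Y : Set G) := le_of_forall_syl fun p _ => ⟨_, syl_Op_of_nilpotent (Fit_nil H), by
      rw [Op_Fit]
      by_cases e : p ∣ Nat.card (Fit H)
      swap
      · rw [(o0 p).2 e]; exact bot_le
      refine le_centralizer_iff.1 (p_times_q (Op_p p M) (h3.coprime_dvd_right e) (Op_p p H) ((Op_le p M).trans a)
        (((Op_le p M).trans MH).trans (le_normalizer_Op p H)) (h2.trans (le_normalizer_Op p H))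
        (le_trans (le_trans (le_inf (inf_le_left.trans (Op_le_Fit H)) ?_) hCM) a))
      conv_rhs => rw [← nilpotent_eq_Op_sup_Op' (p := p) nM, H9.centralizer_sup]
      exact le_inf inf_le_right (inf_le_left.trans ((cc p).trans (H9.centralizer_anti sM.Op'_le_Op')))⟩
    have s : SN (H ⊓ centralizer (Fit H : Set G) ⊓ R) H := SN.step inf_le_left
      (H1.le_normalizer_inf Subgroup.le_normalizer hXR) (SN.of_normal inf_le_left
        (H1.le_normalizer_inf Subgroup.le_normalizer (normalizer_centralizer (le_normalizer_Fit H))))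
    have c := (le_inf le_rfl ((inf_le_left.trans inf_le_right).trans (H9.centralizer_anti s.Fit_le_Fit))).trans
      ((centralizer_Fit_le_of_solvable (H9.isSolvable_of_le hR inf_le_right)).trans s.Fit_le_Fit)
    exact le_bot_iff.1 ((le_inf le_rfl ((le_inf (le_inf h2 (le_centralizer_iff.1 b)) h1).trans c)).trans i.le)
  have ex : ∀ p, ∃ r, r.Prime ∧ r ∣ Nat.card (Fit H) ∧ r ≠ p := fun p => by
    obtain ⟨r, h1, h2⟩ := Finset.exists_mem_ne hF2 p
    exact ⟨r, Nat.prime_of_mem_primeFactors h1, Nat.dvd_of_mem_primeFactors h1, h2⟩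
  refine ⟨fun Y h1 h3 h4 => ?_, fun Y h1 h3 h4 => ?_⟩
  swap
  · obtain ⟨r, r1, r2, -⟩ := ex 0
    haveI := Fact.mk r1
    exact triv Y h1 ((h4.trans (H9.centralizer_anti ((ZM r).trans inf_le_left))).trans (cZ r r2)) h3
      ((le_centralizer_iff.1 h4).trans (Subgroup.centralizer_le_normalizer _))
  have k : ∀ p : {p : ℕ // p.Prime ∧ p ∣ Nat.card (Fit H)}, Y ≤ Op' p.1 R := fun ⟨p, p1, p2⟩ => by
    haveI := Fact.mk p1
    obtain ⟨r, r1, r2, r3⟩ := ex p
    haveI := Fact.mk r1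
    have pZ : IsPGroup r (Zc (Op r H)) := (Op_p r H).to_le inf_le_left
    have zm := (ZM r).trans inf_le_left
    have zp : Zc (Op p H) ≤ Op p M := (syl_Op_of_nilpotent nM).le_of_le_normalizer ((Op_p p H).to_le inf_le_left)
      ((ZM p).trans inf_le_left) (Or.inr (((Op_le p M).trans MH).trans (nZ p)))
    have a : Zc (Op r H) ≤ Op' p (M ⊔ R) := (le_Op' (le_inf (zm.trans le_sup_left) ((ZM r).trans
      (inf_le_right.trans (H9.centralizer_anti (Op_le p M))))) (((inf_le_right.trans (H9.centralizer_anti zp)).trans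
      (cZ p p2)).trans (nZ r)) (cop_of_isPGroup_ne r3 pZ)).trans (local_centralizer_of_PLay_eq_bot
      (PLay_eq_bot_of_solvable (H1.isSolvable_sup hMR inferInstance hR)) (Op_p p M)
      ((Op_le p M).trans le_sup_left)).2
    have b := cop_commutator_sup (zm.trans h4) (copA_of_p pZ (h3.coprime_dvd_right r2))
    rw [triv (Y ⊓ centralizer _) (inf_le_left.trans h1) (inf_le_right.trans (cZ r r2))
      (h3.coprime_dvd_left (card_dvd_of_le inf_le_left))
      (H1.le_normalizer_inf h4 (normalizer_centralizer (MH.trans (nZ r)))), sup_bot_eq] at b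
    exact (le_inf (b.ge.trans ((commutator_mono le_rfl a).trans (H9.commutator_le_right'
      ((h1.trans le_sup_right).trans (le_normalizer_Op' p _))))) h1).trans (Op'_inf_le le_sup_right)
  obtain ⟨W, hW⟩ : ∃ W : Subgroup G, W = ⨅ p : {p : ℕ // p.Prime ∧ p ∣ Nat.card (Fit H)}, Op' p.1 R := ⟨_, rfl⟩
  have w1 : ∀ p, p.Prime → p ∣ Nat.card (Fit H) → W ≤ Op' p R := fun p p1 p2 => by
    rw [hW]; exact iInf_le_of_le ⟨p, p1, p2⟩ le_rfl
  have w2 : Y ≤ W := by rw [hW]; exact le_iInf k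
  have w3 : R ≤ normalizer (W : Set G) := fun g hg => mem_normalizer_fintype fun x hx => by
    rw [hW, SetLike.mem_coe, mem_iInf]
    exact fun p => conj_mem_of_le_normalizer (le_normalizer_Op' p.1 R) hg (w1 _ p.2.1 p.2.2 hx)
  refine (le_inf h1 w2).trans (le_Opi inf_le_left (H1.le_normalizer_inf Subgroup.le_normalizer w3)
    fun p p1 p2 => ⟨p1, fun p3 => ?_⟩)
  haveI := Fact.mk p1
  exact cop_iff.1 (Op'_cop p R) (p2.trans (card_dvd_of_le (inf_le_right.trans (w1 p p1 p3))))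

/-- Let G be a finite group and H a local subgroup (the normalizer of a nontrivial subgroup of prime-power order) not properly contained in any local subgroup; let F = F(H), suppose at least two primes divide #F, put X = H ∩ C_G(F), let M ≤ F with F ∩ C_G(M) ≤ M, and let R be a solvable subgroup normalized by M and by X. Then for every prime q not dividing #F there is exactly one maximal M-invariant q-subgroup of R, and it is a Sylow q-subgroup of the largest normal subgroup of R of order coprime to #F. -/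
theorem result {G : Type*} [Group G] [Finite G] (H : Subgroup G) (hH : Cfsg.IsLocalSubgroup H) (hHmax : ∀ L : Subgroup G, Cfsg.IsLocalSubgroup L → H ≤ L → L = H)
    (hF2 : 2 ≤ (Nat.card (Cfsg.fittingOf H)).primeFactors.card)
    (M : Subgroup G) (hM : M ≤ Cfsg.fittingOf H) (hCM : Cfsg.fittingOf H ⊓ Subgroup.centralizer (M : Set G) ≤ M)
    (R : Subgroup G) (hR : Group.IsSolvable R) (hMR : M ≤ Subgroup.normalizer (R : Set G))
    (hXR : H ⊓ Subgroup.centralizer (Cfsg.fittingOf H : Set G) ≤ Subgroup.normalizer (R : Set G))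
    (q : ℕ) [Fact q.Prime] (hq : ¬ q ∣ Nat.card (Cfsg.fittingOf H)) :
    ∃! Q : Subgroup G, Q ∈ Cfsg.maxInvSubgroups R M {q} ∧
      (∀ Q' : Subgroup G, Q' ∈ Cfsg.maxInvSubgroups R M {q} →
        Q' ≤ Cfsg.piCoreOf (Cfsg.primesNotDvd (Nat.card (Cfsg.fittingOf H))) R ∧
        ¬ q ∣ Q'.relIndex (Cfsg.piCoreOf (Cfsg.primesNotDvd (Nat.card (Cfsg.fittingOf H))) R)) := by
  unfold fittingOf at *
  rw [Fit_eq] at *
  rw [Opi_eq]
  obtain ⟨k1, k2⟩ := main hHmax hF2 hM hCM hR hMR hXR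
  set O := Opi (primesNotDvd (Nat.card (Fit H))) R
  have oc : (Nat.card O).Coprime (Nat.card (Fit H)) := Nat.coprime_of_dvd fun r r1 r2 => (Opi_pi _ R r r1 r2).2
  have nO : M ≤ normalizer (O : Set G) := normalizer_Opi hMR
  have cA : CopA M O := ⟨(oc.coprime_dvd_right (card_dvd_of_le hM)).symm,
    Or.inr (H9.isSolvable_of_le hR (Opi_le _ R))⟩
  have a : ∀ Y ∈ invSubgroups R M {q}, IsPGroup q Y ∧ Y ≤ O := fun Y hY => by
    have := piG_singleton_iff.1 hY.2.1
    obtain ⟨n, hn⟩ := this.exists_card_eq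
    exact ⟨this, k1 Y hY.1 (hn ▸ Nat.Coprime.pow_left n ((Nat.Prime.coprime_iff_not_dvd Fact.out).2 hq)) hY.2.2⟩
  have b : ∀ Y ∈ maxInvSubgroups R M {q}, Syl q Y O := fun Y hY => by
    obtain ⟨P, p1, p2, p3⟩ := cop_exists_syl_ge nO cA (a Y hY.1).1 (a Y hY.1).2 hY.1.2.2
    exact hY.2 P ⟨p1.le.trans (Opi_le _ R), piG_singleton_iff.2 p1.isP, p2⟩ p3 ▸ p1
  obtain ⟨P, p1, p2⟩ := cop_exists_syl nO cA q
  refine ⟨P, ⟨⟨⟨p1.le.trans (Opi_le _ R), piG_singleton_iff.2 p1.isP, p2⟩, fun Y hY l =>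
    p1.maximal (a Y hY).1 (a Y hY).2 l⟩, fun Y hY => ⟨(b Y hY).le, (b Y hY).not_dvd⟩⟩, fun Y hY => ?_⟩
  obtain ⟨c, c1, c2⟩ := cop_syl_conj nO cA (b Y hY.1) p1 hY.1.1.2.2 p2
  rw [k2 _ (inf_le_left.trans (Opi_le _ R)) (oc.coprime_dvd_left (card_dvd_of_le inf_le_left)) inf_le_right,
    mem_bot] at c1
  rwa [c1, cj_one] at c2

end Cfsg.Agent.S1481
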