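import Cfsg.Statements.S1482
import Cfsg.Agent.FT.B8

set_option autoImplicit false
open Cfsg

namespace Cfsg.Agent.S1482

/-- Let G be a minimal simple group of odd order, H a maximal subgroup whose Fitting subgroup F has at least two prime divisors, and M a subgroup of F containing the centre of F such that the only M-invariant subgroup of G of order coprime to #F is the trivial one. Then H is the only maximal subgroup of G containing M. -/
theorem result {G : Type*} [Group G] [Finite G] (hG : Cfsg.IsMinSimpleOddOrder G) (H : Subgroup G) (hH : IsCoatom H) (hF2 : 2 ≤ (Nat.card (Cfsg.fittingOf H)).primeFactors.card)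
    (M : Subgroup G) (hM : M ≤ Cfsg.fittingOf H) (hZM : Cfsg.fittingOf H ⊓ Subgroup.centralizer (Cfsg.fittingOf H : Set G) ≤ M)
    (hinv : ∀ Y ∈ Cfsg.invSubgroups ⊤ M (Cfsg.primesNotDvd (Nat.card (Cfsg.fittingOf H))), Y = ⊥) :
    ∀ L : Subgroup G, IsCoatom L → M ≤ L → L = H := by
  open H9 Subgroup in open scoped commutatorElement in
  haveI : FT.MS G := ⟨hG⟩
  rw [FT.Fit_eq'] at *
  refine fun K hK hMK => FT.bender_max ⟨hH, hK, fun q _ => (FT.Zc_Op_le_Zc_Fit q H).trans (hZM.trans hMK),
    fun q _ h e => h (hinv _ ⟨le_top, fun r r1 r2 => ⟨r1, fun r3 => ?_⟩, hMK.trans (le_normalizer_Op q K)⟩),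
    fun q _ => ?_⟩
  · obtain rfl : r = q := FT.piG_singleton_iff.2 (Op_p q K) r r1 r2
    exact FT.Op_ne_bot_iff.2 r3 e
  · obtain ⟨r, r1, r2⟩ := Finset.exists_mem_ne hF2 q
    haveI := Fact.mk (Nat.prime_of_mem_primeFactors r1)
    exact ⟨r, inferInstance, r2, FT.Op_ne_bot_iff.2 (Nat.dvd_of_mem_primeFactors r1)⟩

end Cfsg.Agent.S1482
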