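import Cfsg.Statements.S1487
import Cfsg.Agent.H3.Clifford

set_option autoImplicit false
open Cfsg

namespace Cfsg.Agent.S1487

/-- Let A ≤ H be normal subgroups of the finite group G and θ an irreducible character of H. Then θ takes the value θ 1 on all of A if and only if the function induced from θ to G takes its value at 1 on all of A. -/
theorem result {G : Type*} [Group G] [Fintype G] (A H : Subgroup G) [A.Normal] [H.Normal] (hAH : A ≤ H) (θ : H → ℂ) (hθ : Cfsg.IsIrrCharacter H θ) : (∀ a : H, (a : G) ∈ A → θ a = θ 1) ↔ (∀ a : G, a ∈ A → Cfsg.indFun H θ a = Cfsg.indFun H θ 1) := by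
  have := Fintype.ofFinite H
  constructor
  · intro h a ha
    have h1 := H3.indFun_normal_apply H θ ⟨a, hAH ha⟩
    have h2 := H3.indFun_normal_apply H θ 1
    refine h1.trans (Eq.trans ?_ h2.symm)
    congr 1
    refine Finset.sum_congr rfl fun x _ => ?_
    rw [h _ (Subgroup.Normal.conj_mem ‹_› a ha x)]
    exact (H3.cj_apply_one H θ x).symm
  · intro h a ha
    refine H3.ker_of_constituent (H3.char_restrict (H3.char_indFun H (H3.irr_char hθ)) H) hθ ?_
      (h a ha)
    rw [← H3.inner_indFun_right _ _ (H3.class_indFun _ _)]
    intro e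
    have := congrFun (H3.inner_self_eq_zero e) 1
    rw [H3.indFun_one, Pi.zero_apply, mul_eq_zero] at this
    rcases this with h | h
    · exact Subgroup.index_ne_zero_of_finite (by exact_mod_cast h)
    · exact H3.irr_one_ne_zero hθ h

end Cfsg.Agent.S1487
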