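import Cfsg.Statements.S1491
import Cfsg.Agent.H3.Ext2

set_option autoImplicit false
open Cfsg

namespace Cfsg.Agent.S1491

/-- Let H be a normal subgroup of the finite group G and θ an irreducible character of H with inertia group T, where T/H is abelian (commutators of T lie in H) and the index of H in T is coprime to the order of H. Then the function induced from θ is the sum of a set of exactly [T:H] irreducible characters of G, each of degree [G:T] * θ(1). -/
theorem result {G : Type*} [Group G] [Fintype G] (H T : Subgroup G) [hN : H.Normal] (θ : H → ℂ) (hθ : Cfsg.IsIrrCharacter H θ) (hT : ∀ g : G, g ∈ T ↔ ∀ h : H, θ ⟨g * h * g⁻¹, hN.conj_mem h h.2 g⟩ = θ h) (hab : ∀ x ∈ T, ∀ y ∈ T, x * y * x⁻¹ * y⁻¹ ∈ H) (hcop : Nat.Coprime (Nat.card H) (H.relIndex T)) : ∃ C : Finset (G → ℂ), (∀ χ ∈ C, Cfsg.IsIrrCharacter G χ) ∧ C.card = H.relIndex T ∧ Cfsg.indFun H θ = ∑ χ ∈ C, χ ∧ ∀ χ ∈ C, χ 1 = (T.index : ℂ) * θ 1 := by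
  have hT' : T = H3.inertia H θ := Subgroup.ext fun g => (hT g).trans (H3.mem_inertia' H).symm
  have hHT : H ≤ T := hT' ▸ H3.le_inertia H (H3.irr_class hθ)
  obtain ⟨e, C, h1, h2, h3, h4, h5, h6⟩ := H3.abelian_inertia H T hθ hT' hHT hab
  obtain ⟨η, a, b, -⟩ := H3.extend_of_coprime_card (H.subgroupOf T) (H3.irr_subgroupOf H hHT hθ)
    (fun g => funext fun n => (hT g).mp g.2 ⟨_, n.2⟩)
    (by rwa [Nat.card_congr (Subgroup.subgroupOfEquivOfLe hHT).toEquiv])
  obtain rfl := h6 ⟨η, H3.irr_char a, fun n => b ⟨⟨n, hHT n.2⟩, n.2⟩⟩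
  exact ⟨C, h2, by simpa using h3, by simpa using h4, by simpa using h5⟩

end Cfsg.Agent.S1491
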