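import Cfsg.Statements.S1493
import Cfsg.Agent.H3.Galois

set_option autoImplicit false
open Cfsg

namespace Cfsg.Agent.S1493

/-- Let G be a finite group of order a * b with a and b coprime, let k be coprime to a, and let χ be a character of G. Then there is a character χ' of G such that χ'(g) = χ(g ^ k) whenever the order of g divides a and χ'(g) = χ(g) whenever the order of g is coprime to a; moreover χ' is irreducible if χ is. -/
theorem result {G : Type*} [Group G] [Finite G] (a b k : ℕ) (hab : Nat.card G = a * b) (hcop : Nat.Coprime a b) (hk : Nat.Coprime k a) (χ : G → ℂ) (hχ : Cfsg.IsCharacter G χ) : ∃ χ' : G → ℂ, Cfsg.IsCharacter G χ' ∧ (Cfsg.IsIrrCharacter G χ → Cfsg.IsIrrCharacter G χ') ∧ (∀ g : G, orderOf g ∣ a → χ' g = χ (g ^ k)) ∧ (∀ g : G, Nat.Coprime (orderOf g) a → χ' g = χ g) := by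
  have ha : a ≠ 0 := by rintro rfl; exact Nat.card_pos.ne' (by simpa using hab)
  obtain ⟨m, h1, h2⟩ := Nat.chineseRemainder hcop k 1
  have hm : m.Coprime (Nat.card G) := by
    rw [hab]
    refine Nat.Coprime.mul_right ?_ ?_
    · rw [Nat.Coprime, h1.gcd_eq]; exact hk
    · rw [Nat.Coprime, h2.gcd_eq]; simp
  refine ⟨fun g => χ (g ^ m), H3.char_pow_coprime hχ hm, fun h => H3.irr_pow_coprime h hm, ?_, ?_⟩
  · intro g hg
    exact congrArg χ (pow_eq_pow_iff_modEq.mpr (h1.of_dvd hg))
  · intro g hg
    have : orderOf g ∣ b := hg.dvd_of_dvd_mul_left (hab ▸ orderOf_dvd_natCard g)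
    have := pow_eq_pow_iff_modEq.mpr (h2.of_dvd this)
    rw [pow_one] at this
    exact congrArg χ this

end Cfsg.Agent.S1493
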