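import Cfsg.Statements.S1497
import Cfsg.Agent.H3.Dade

set_option autoImplicit false
open Cfsg

namespace Cfsg.Agent.S1497

/-- Let A be a nonempty subset of the finite group G not containing 1 and L a subgroup. Then A is a TI-subset whose normaliser is L if and only if the Dade hypothesis holds for A, L and the constant choice H(a) = ⊥. -/
theorem result {G : Type*} [Group G] [Finite G] (A : Set G) (hA : A.Nonempty) (h1 : (1 : G) ∉ A) (L : Subgroup G) : (Cfsg.IsTISubset A ∧ Subgroup.normalizer A = L) ↔ Cfsg.DadeHypothesis A L (fun _ => ⊥) := by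
  constructor
  · rintro ⟨hTI, rfl⟩
    refine H3.dade_of_ti h1 (fun a ha => ?_)
      (fun x hx a ha => (Subgroup.mem_set_normalizer_iff.mp hx a).mp ha)
      fun g hg a ha h => h1 (hTI g hg a ha h ▸ ha)
    by_contra h
    exact h1 (hTI a h a ha (by simpa using ha) ▸ ha)
  · intro hD
    have key : ∀ g, ∀ a ∈ A, g * a * g⁻¹ ∈ A → g ∈ L := fun g a ha h => by
      obtain ⟨x, hx, e⟩ := hD.fusion a ha g h
      have h2 := hD.sup_eq a ha
      rw [bot_sup_eq, inf_eq_right] at h2
      have : x⁻¹ * g ∈ L := h2 (Subgroup.mem_centralizer_singleton_iff.mpr (by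
        calc x⁻¹ * g * a = x⁻¹ * (g * a * g⁻¹) * g := by group
          _ = _ := by rw [← e]; group))
      simpa using L.mul_mem hx this
    have hN : Subgroup.normalizer A = L := by
      refine le_antisymm (fun g hg => ?_) fun x hx =>
        Subgroup.mem_normalizer_fintype (hD.conj_mem x hx)
      obtain ⟨a, ha⟩ := hA
      exact key g a ha ((Subgroup.mem_set_normalizer_iff.mp hg a).mp ha)
    exact ⟨fun g hg a ha h => absurd (key g a ha h) (hN ▸ hg), hN⟩

end Cfsg.Agent.S1497
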