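import Cfsg.Statements.S1504
import Cfsg.Agent.H3.CycSub

set_option autoImplicit false
open Cfsg

namespace Cfsg.Agent.S1504

/-- Let W₁, W₂ be subgroups of a finite group with W₁ ⊓ W₂ = ⊥ whose elements commute, and W = W₁ ⊔ W₂. For linear characters φ, ψ of W with φ trivial on W₂ and ψ trivial on W₁, the function (1 − φ)(1 − ψ) vanishes on W₁ ∪ W₂; and the family of these functions, indexed by pairs (φ, ψ) with φ ≠ 1 ≠ ψ, is linearly independent over ℂ. -/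
theorem result {G : Type*} [Group G] [Finite G] (W₁ W₂ : Subgroup G) (hdisj : W₁ ⊓ W₂ = ⊥) (hcomm : ∀ a ∈ W₁, ∀ b ∈ W₂, a * b = b * a) : (∀ φ ψ : ↥(W₁ ⊔ W₂) →* ℂˣ, (∀ w : ↥(W₁ ⊔ W₂), (w : G) ∈ W₂ → φ w = 1) → (∀ w : ↥(W₁ ⊔ W₂), (w : G) ∈ W₁ → ψ w = 1) → ∀ w : ↥(W₁ ⊔ W₂), ((w : G) ∈ W₁ ∨ (w : G) ∈ W₂) → (1 - (φ w : ℂ) - (ψ w : ℂ) + (φ w : ℂ) * (ψ w : ℂ)) = 0) ∧ LinearIndependent ℂ (fun p : {p : (↥(W₁ ⊔ W₂) →* ℂˣ) × (↥(W₁ ⊔ W₂) →* ℂˣ) // p.1 ≠ 1 ∧ p.2 ≠ 1 ∧ (∀ w : ↥(W₁ ⊔ W₂), (w : G) ∈ W₂ → p.1 w = 1) ∧ (∀ w : ↥(W₁ ⊔ W₂), (w : G) ∈ W₁ → p.2 w = 1)} => fun w : ↥(W₁ ⊔ W₂) => 1 - (p.1.1 w : ℂ) - (p.1.2 w : ℂ) + (p.1.1 w : ℂ) * (p.1.2 w : ℂ)) := by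
  classical
  refine ⟨fun φ ψ h1 h2 w h => by rcases h with h | h <;> simp [h1 w, h2 w, h], ?_⟩
  have := Fintype.ofFinite W₁
  have := Fintype.ofFinite W₂
  refine linearIndependent_iff'.mpr fun s c hc p hp => ?_
  choose a b hab using H3.exists_pr hcomm hdisj
  have h1 : ∀ q : {p : (↥(W₁ ⊔ W₂) →* ℂˣ) × (↥(W₁ ⊔ W₂) →* ℂˣ) // p.1 ≠ 1 ∧ p.2 ≠ 1 ∧
      (∀ w : ↥(W₁ ⊔ W₂), (w : G) ∈ W₂ → p.1 w = 1) ∧ (∀ w : ↥(W₁ ⊔ W₂), (w : G) ∈ W₁ → p.2 w = 1)},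
      q.1.1 = H3.pr hcomm hdisj (a q.1.1) 1 ∧ q.1.2 = H3.pr hcomm hdisj 1 (b q.1.2) := fun q =>
    ⟨by rw [← (H3.triv_right hcomm hdisj (a q.1.1) (b q.1.1)).mp (hab _ ▸ q.2.2.2.1), ← hab],
     by rw [← (H3.triv_left hcomm hdisj (a q.1.2) (b q.1.2)).mp (hab _ ▸ q.2.2.2.2), ← hab]⟩
  have h2 : ∑ q ∈ s, c q • H3.alpha (a q.1.1) (b q.1.2) = 0 := by
    ext v
    have := congrFun hc (H3.eSubEquiv hcomm hdisj v)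
    simp only [Finset.sum_apply, Pi.smul_apply] at this ⊢
    refine Eq.trans (Finset.sum_congr rfl fun q _ => ?_) this
    conv_rhs => rw [(h1 q).1, (h1 q).2]
    simp [H3.pr_apply, H3.alpha, H3.tens]; left; ring
  have h3 : a p.1.1 ≠ 1 := fun h => p.2.1 (by rw [(h1 p).1, h, H3.pr_one])
  have h4 : b p.1.2 ≠ 1 := fun h => p.2.2.1 (by rw [(h1 p).2, h, H3.pr_one])
  have := congrArg (fun f => classInner f (H3.om (a p.1.1) (b p.1.2))) h2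
  simp only [H3.inner_sum_left, H3.inner_smul_left, H3.inner_alpha_om, h3.symm, h4.symm] at this
  rw [Finset.sum_eq_single p (fun q _ hq => ?_) (fun h => absurd hp h)] at this
  · simpa [classInner] using this
  · by_cases e : a q.1.1 = a p.1.1
    · have : b q.1.2 ≠ b p.1.2 := fun e' => hq (Subtype.ext (Prod.ext
        (by rw [(h1 q).1, e, ← (h1 p).1]) (by rw [(h1 q).2, e', ← (h1 p).2])))
      simp [this]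
    · simp [e]

end Cfsg.Agent.S1504
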