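import Cfsg.Statements.S1505
import Cfsg.Agent.H3.CycSub

set_option autoImplicit false
open Cfsg

namespace Cfsg.Agent.S1505

open Classical in
/-- Let W₁, W₂ ≤ G form a self-normalising cyclic subgroup W = W₁ ⊔ W₂. For nontrivial linear characters φ, φ' of W trivial on W₂ and ψ, ψ' trivial on W₁, put α = (1 − φ)(1 − ψ) and α' = (1 − φ')(1 − ψ'). Then the function induced from α to G has inner product 1 with the principal character, and the inner product of the functions induced from α and α' is 1 + a + b + ab where a = 1 if φ = φ' (else 0) and b = 1 if ψ = ψ' (else 0). -/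
theorem result {G : Type*} [Group G] [Fintype G] (W₁ W₂ : Subgroup G) (hW : Cfsg.IsSelfNormalizingCyclic W₁ W₂) (φ φ' ψ ψ' : ↥(W₁ ⊔ W₂) →* ℂˣ) (hφ : φ ≠ 1) (hφ' : φ' ≠ 1) (hψ : ψ ≠ 1) (hψ' : ψ' ≠ 1) (hφ₂ : ∀ w : ↥(W₁ ⊔ W₂), (w : G) ∈ W₂ → φ w = 1 ∧ φ' w = 1) (hψ₁ : ∀ w : ↥(W₁ ⊔ W₂), (w : G) ∈ W₁ → ψ w = 1 ∧ ψ' w = 1) : Cfsg.classInner (Cfsg.indFun (W₁ ⊔ W₂) (fun w => 1 - (φ w : ℂ) - (ψ w : ℂ) + (φ w : ℂ) * (ψ w : ℂ))) (fun _ => 1) = 1 ∧ Cfsg.classInner (Cfsg.indFun (W₁ ⊔ W₂) (fun w => 1 - (φ w : ℂ) - (ψ w : ℂ) + (φ w : ℂ) * (ψ w : ℂ))) (Cfsg.indFun (W₁ ⊔ W₂) (fun w => 1 - (φ' w : ℂ) - (ψ' w : ℂ) + (φ' w : ℂ) * (ψ' w : ℂ))) = 1 + (if φ = φ' then 1 else 0) + (if ψ = ψ' then 1 else 0) + (if φ = φ' then 1 else 0) * (if ψ = ψ' then 1 else 0) := by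
  classical
  have := Fintype.ofFinite W₁
  have := Fintype.ofFinite W₂
  have hc := hW.2.2.2.1
  have hd := hW.2.2.1
  obtain ⟨i, j0, rfl⟩ := H3.exists_pr hc hd φ
  obtain ⟨i', j0', rfl⟩ := H3.exists_pr hc hd φ'
  obtain ⟨i0, j, rfl⟩ := H3.exists_pr hc hd ψ
  obtain ⟨i0', j', rfl⟩ := H3.exists_pr hc hd ψ'
  obtain rfl := (H3.triv_right hc hd _ _).mp fun w h => (hφ₂ w h).1
  obtain rfl := (H3.triv_right hc hd _ _).mp fun w h => (hφ₂ w h).2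
  obtain rfl := (H3.triv_left hc hd _ _).mp fun w h => (hψ₁ w h).1
  obtain rfl := (H3.triv_left hc hd _ _).mp fun w h => (hψ₁ w h).2
  simp only [← H3.pr_one hc hd, H3.pr_inj, ne_eq, and_true, true_and] at hφ hφ' hψ hψ'
  rw [H3.indFun_alpha, H3.indFun_alpha, (H3.cycTI_of_snc hW).inner_ind (H3.supp_alpha _ _)
    (H3.supp_alpha _ _), H3.inner_alpha hφ hφ' hψ hψ', H3.inner_indH_left _ _ (H3.class_const 1)]
  refine ⟨by simpa [hφ, hψ, H3.om_one] using H3.inner_alpha_om i 1 j 1, ?_⟩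
  simp only [H3.pr_inj, and_true, true_and]
  split_ifs <;> norm_num

end Cfsg.Agent.S1505
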