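import Cfsg.Statements.S1507
import Cfsg.Agent.H3.CycSub

set_option autoImplicit false
open Cfsg

namespace Cfsg.Agent.S1507

open Classical in
/-- Let W₁, W₂ ≤ G form a self-normalising cyclic subgroup W = W₁ ⊔ W₂ of odd order with Nat.card W₁ < Nat.card W₂, and χ an orthonormal family of irreducible characters of G up to sign, indexed by the linear characters ω of W, with χ_1 = 1, χ_ω = ω on W outside W₁ ∪ W₂, and the induction identity for (1 − φ)(1 − ψ). Let θ be a class function of G vanishing on W outside W₁ ∪ W₂, and suppose fewer than 2 · Nat.card W₁ linear characters ω of W have ⟨θ, χ ω⟩ ≠ 0. Then one of: all ⟨θ, χ ω⟩ vanish; or there are ψ₀ and a with ⟨θ, χ ω⟩ = a when ω ψ₀⁻¹ is trivial on W₂ and 0 otherwise; or there are φ₀ and a with ⟨θ, χ ω⟩ = a when ω φ₀⁻¹ is trivial on W₁ and 0 otherwise. -/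
theorem result {G : Type*} [Group G] [Fintype G] (W₁ W₂ : Subgroup G) (hW : Cfsg.IsSelfNormalizingCyclic W₁ W₂) (hodd : Odd (Nat.card ↥(W₁ ⊔ W₂))) (χ : (↥(W₁ ⊔ W₂) →* ℂˣ) → (G → ℂ)) (hχ : Cfsg.IsCyclicTIFamily W₁ W₂ χ) (hlt : Nat.card W₁ < Nat.card W₂) (θ : G → ℂ) (hθ : Cfsg.IsClassFunction G θ) (hθV : ∀ w : ↥(W₁ ⊔ W₂), (w : G) ∉ W₁ → (w : G) ∉ W₂ → θ w = 0) (hfew : Nat.card {ω : ↥(W₁ ⊔ W₂) →* ℂˣ // Cfsg.classInner θ (χ ω) ≠ 0} < 2 * Nat.card W₁) : (∀ ω, Cfsg.classInner θ (χ ω) = 0) ∨ (∃ (ψ₀ : ↥(W₁ ⊔ W₂) →* ℂˣ) (a : ℂ), ∀ ω, Cfsg.classInner θ (χ ω) = if (∀ w : ↥(W₁ ⊔ W₂), (w : G) ∈ W₂ → (ω * ψ₀⁻¹) w = 1) then a else 0) ∨ (∃ (φ₀ : ↥(W₁ ⊔ W₂) →* ℂˣ) (a : ℂ), ∀ ω, Cfsg.classInner θ (χ ω) = if (∀ w : ↥(W₁ ⊔ W₂), (w : G) ∈ W₁ → (ω * φ₀⁻¹) w = 1) then a else 0) := by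
  have hc := hW.2.2.2.1
  have hd := hW.2.2.1
  have hn : H3.NC (fun i j => χ (H3.pr hc hd i j)) θ ≤
      Nat.card {ω : ↥(W₁ ⊔ W₂) →* ℂˣ // Cfsg.classInner θ (χ ω) ≠ 0} := by
    rw [H3.NC, ← Fintype.card_subtype, ← Nat.card_eq_fintype_card]
    exact Nat.card_le_card_of_injective (fun p => ⟨H3.pr hc hd p.1.1 p.1.2, p.2⟩) fun p q h =>
      Subtype.ext (Prod.ext ((H3.pr_inj hc hd).mp (congrArg Subtype.val h)).1
        ((H3.pr_inj hc hd).mp (congrArg Subtype.val h)).2)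
  right
  rcases (H3.eta_of_family hc hd hχ).small (H3.cycTI_of_snc hW) (H3.SNC.odd hW hodd).1
    (H3.SNC.odd hW hodd).2 hθ (fun v hv => hθV (H3.eSubEquiv hc hd v)
    ((H3.mem_Vs_iff hc hd v).mp hv).1 ((H3.mem_Vs_iff hc hd v).mp hv).2) (by omega) (by omega) with
    ⟨j0, h1, h2⟩ | ⟨i0, h1, h2⟩
  · refine Or.inl ⟨H3.pr hc hd 1 j0, classInner θ (χ (H3.pr hc hd 1 j0)), fun ω => ?_⟩
    obtain ⟨i, j, rfl⟩ := H3.exists_pr hc hd ω
    simp only [H3.pr_inv, H3.pr_mul, H3.triv_right]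
    split_ifs with h
    · obtain rfl : j = j0 := by rwa [← H3.hom_mul_inv_cancel j0, H3.hom_mul_left_inj] at h
      exact h1 _ _
    · exact h2 _ _ fun e => h (by simp [e])
  · refine Or.inr ⟨H3.pr hc hd i0 1, classInner θ (χ (H3.pr hc hd i0 1)), fun ω => ?_⟩
    obtain ⟨i, j, rfl⟩ := H3.exists_pr hc hd ω
    simp only [H3.pr_inv, H3.pr_mul, H3.triv_left]
    split_ifs with h
    · obtain rfl : i = i0 := by rwa [← H3.hom_mul_inv_cancel i0, H3.hom_mul_left_inj] at h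
      exact h1 _ _
    · exact h2 _ _ fun e => h (by simp [e])

end Cfsg.Agent.S1507
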