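import Cfsg.Statements.S1511
import Cfsg.Agent.H3.PrimeTI

set_option autoImplicit false
open Cfsg

namespace Cfsg.Agent.S1511

/-- Let L be a finite group with K normal with complement W₁ ≠ 1 a cyclic Hall subgroup, and W₂ ≠ 1 a cyclic subgroup of K equal to C_K(x) for every non-identity x ∈ W₁, with W₁W₂ of odd order. Then there are a map μ from the linear characters of W = W₁ ⊔ W₂ to irreducible characters of L, injective, and a sign δ(ω) ∈ {1, −1} depending only on the values of ω on W₂, such that: for ω, ω' agreeing on W₂, the function induced to L from ω − ω' equals δ(ω) • (μ ω − μ ω'); μ ω x = δ(ω) ω x for x ∈ W outside W₂; every irreducible character of L not of the form μ ω vanishes on W outside W₂; and μ ω 1 − δ(ω) is an integer multiple of Nat.card W₁. -/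
theorem result {L : Type*} [Group L] [Fintype L] (K W₁ W₂ : Subgroup L) [hK : K.Normal] (hKW₁ : K ⊓ W₁ = ⊥) (hKW₁' : K ⊔ W₁ = ⊤) (hW₁ : W₁ ≠ ⊥) (hW₁c : IsCyclic W₁) (hHall : Nat.Coprime (Nat.card W₁) W₁.index) (hW₂ : W₂ ≠ ⊥) (hW₂c : IsCyclic W₂) (hW₂K : W₂ ≤ K) (hC : ∀ x ∈ W₁, x ≠ 1 → K ⊓ Subgroup.centralizer ({x} : Set L) = W₂) (hodd : Odd (Nat.card ↥(W₁ ⊔ W₂))) : ∃ (μ : (↥(W₁ ⊔ W₂) →* ℂˣ) → (L → ℂ)) (δ : (↥(W₁ ⊔ W₂) →* ℂˣ) → ℂ), Function.Injective μ ∧ (∀ ω, Cfsg.IsIrrCharacter L (μ ω)) ∧ (∀ ω, δ ω = 1 ∨ δ ω = -1) ∧ (∀ ω ω' : ↥(W₁ ⊔ W₂) →* ℂˣ, (∀ w : ↥(W₁ ⊔ W₂), (w : L) ∈ W₂ → ω w = ω' w) → δ ω = δ ω' ∧ Cfsg.indFun (W₁ ⊔ W₂) (fun w => (ω w : ℂ) - (ω' w : ℂ)) = δ ω • (μ ω - μ ω')) ∧ (∀ ω, ∀ w : ↥(W₁ ⊔ W₂), (w : L) ∉ W₂ → μ ω w = δ ω * (ω w : ℂ)) ∧ (∀ θ : L → ℂ, Cfsg.IsIrrCharacter L θ → (∀ ω, θ ≠ μ ω) → ∀ w : ↥(W₁ ⊔ W₂), (w : L) ∉ W₂ → θ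 w = 0) ∧ (∀ ω, ∃ n : ℤ, μ ω 1 - δ ω = n * (Nat.card W₁ : ℂ)) := by
  obtain ⟨hc, hd, h⟩ := H3.primeTI_of_sub hKW₁ hKW₁' hW₁ hW₁c hHall hW₂c hW₂K hC hodd
  obtain ⟨μ, δ, hμ⟩ := h.exists_mu
  choose p q hpq using H3.exists_pr hc hd
  have hv : ∀ ω v, (ω (H3.eSubEquiv hc hd v) : ℂ) = H3.om (p ω) (q ω) v := fun ω v => by
    conv_lhs => rw [hpq ω, H3.pr_apply]
    simp
  refine ⟨fun ω => μ (p ω) (q ω), fun ω => δ (q ω), fun a b e => ?_, fun ω => hμ.irr _ _,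
    fun ω => hμ.sign _, fun a b e => ?_, fun ω w hw => ?_, fun θ hθ hn w hw => ?_, fun ω => ?_⟩
  · rw [hpq a, hpq b, (hμ.inj _ _ _ _ e).1, (hμ.inj _ _ _ _ e).2]
  · have : q a = q b := MonoidHom.ext fun x => Units.ext (by
      have := congrArg Units.val (e (H3.eSubEquiv hc hd (1, x)) ((H3.eSub_mem_right hc hd _).mpr rfl))
      simpa [hv] using this)
    refine ⟨congrArg δ this, ?_⟩
    beta_reduce
    rw [H3.indFun_sup hc hd, ← this, ← hμ.ind']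
    simp only [hv, this]; rfl
  · obtain ⟨v, rfl⟩ := (H3.eSubEquiv hc hd).surjective w
    rw [hv]; exact hμ.val h _ _ (mt (H3.eSub_mem_right hc hd v).mpr hw)
  · obtain ⟨v, rfl⟩ := (H3.eSubEquiv hc hd).surjective w
    refine hμ.vanish h (H3.irr_class hθ) (fun i j => H3.irr_inner_ne hθ (hμ.irr _ _) ?_)
      (mt (H3.eSub_mem_right hc hd v).mpr hw)
    obtain ⟨e1, e2⟩ := (H3.pr_inj hc hd).mp (hpq (H3.pr hc hd i j))
    have := hn (H3.pr hc hd i j)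
    beta_reduce at this
    rwa [← e1, ← e2] at this
  · obtain ⟨n, hn⟩ := hμ.degree_mod h (p ω) (q ω)
    exact ⟨n, by rw [hn, mul_comm]⟩

end Cfsg.Agent.S1511
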