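import Cfsg.Statements.S1513
import Cfsg.Agent.H3.PrimeTI

set_option autoImplicit false
open Cfsg

namespace Cfsg.Agent.S1513

/-- Let L be a finite group with K normal with complement W₁ ≠ 1 a cyclic Hall subgroup, and W₂ ≠ 1 a cyclic subgroup of K equal to C_K(x) for every non-identity x ∈ W₁, with W₁W₂ of odd order. For an irreducible character θ of K: if θ is not fixed under conjugation by some element of W₁, then the function induced from θ to L is an irreducible character of L; and the irreducible characters of K fixed by all of W₁ are exactly Nat.card W₂ in number, each inducing to the sum of Nat.card W₁ pairwise distinct irreducible characters of L. -/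
theorem result {L : Type*} [Group L] [Fintype L] (K W₁ W₂ : Subgroup L) [hK : K.Normal] (hKW₁ : K ⊓ W₁ = ⊥) (hKW₁' : K ⊔ W₁ = ⊤) (hW₁ : W₁ ≠ ⊥) (hW₁c : IsCyclic W₁) (hHall : Nat.Coprime (Nat.card W₁) W₁.index) (hW₂ : W₂ ≠ ⊥) (hW₂c : IsCyclic W₂) (hW₂K : W₂ ≤ K) (hC : ∀ x ∈ W₁, x ≠ 1 → K ⊓ Subgroup.centralizer ({x} : Set L) = W₂) (hodd : Odd (Nat.card ↥(W₁ ⊔ W₂))) : (∀ θ : K → ℂ, Cfsg.IsIrrCharacter K θ → (∃ x ∈ W₁, (fun k : K => θ ⟨x * k * x⁻¹, hK.conj_mem (k : L) k.2 x⟩) ≠ θ) → Cfsg.IsIrrCharacter L (Cfsg.indFun K θ)) ∧ Nat.card {θ : Cfsg.IrrCharacter K // ∀ x ∈ W₁, (fun k : K => (θ : K → ℂ) ⟨x * k * x⁻¹, hK.conj_mem (k : L) k.2 x⟩) = θ} = Nat.card W₂ ∧ (∀ θ : K → ℂ, Cfsg.IsIrrCharacter K θ → (∀ x ∈ W₁, (fun k : K => θ ⟨x * k * x⁻¹, hK.conj_mem (k : L) k.2 x⟩) = θ) → ∃ C : Finset (L → ℂ), C.card = Nat.card W₁ ∧ (∀ μ ∈ C, Cfsg.IsIrrCharacter L μ) ∧ Cfsg.indFun K θ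 = ∑ μ ∈ C, μ) := by
  classical
  obtain ⟨hc, hd, h⟩ := H3.primeTI_of_sub hKW₁ hKW₁' hW₁ hW₁c hHall hW₂c hW₂K hC hodd
  obtain ⟨μ, δ, hμ⟩ := h.exists_mu
  have := h.ntA
  obtain ⟨a, ha⟩ := exists_ne (1 : W₁)
  have h1 : ∀ θ : K → ℂ, IsIrrCharacter K θ → (∀ x ∈ W₁, H3.cj K θ x = θ) → ∃ j, θ = H3.chi K μ j :=
    fun θ hθ hf => hμ.eq_chi_of_fixed h hθ ha (by simpa using hf a a.2)
  refine ⟨fun θ hθ ⟨x, _, hx⟩ => hμ.irr_ind h hθ ?_, ?_, fun θ hθ hf => ?_⟩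
  · rintro j rfl; exact hx (H3.cj_restrict K (hμ.cls 1 j) x)
  · rw [← H3.card_hom_of_comm (H3.cyc_comm hW₂c)]
    refine (Nat.card_congr (Equiv.ofBijective (fun j => ⟨⟨_, hμ.irr_chi h j⟩, fun x _ =>
      H3.cj_restrict K (hμ.cls 1 j) x⟩) ⟨fun a b e => hμ.chi_inj h (congrArg (fun x => x.1.1) e), ?_⟩)).symm
    rintro ⟨⟨θ, hθ⟩, hf⟩
    obtain ⟨j, rfl⟩ := h1 θ hθ hf
    exact ⟨j, rfl⟩
  · obtain ⟨j, rfl⟩ := h1 θ hθ hf
    have hi : Function.Injective fun i => μ i j := fun a b e => (hμ.inj _ _ _ _ e).1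
    refine ⟨Finset.univ.image fun i => μ i j, ?_, ?_, ?_⟩
    · rw [Finset.card_image_of_injective _ hi, Finset.card_univ, ← Nat.card_eq_fintype_card,
        h.card_dual]
    · simpa using fun i => hμ.irr i j
    · rw [Finset.sum_image fun a _ b _ e => hi e, hμ.ind_chi h]; rfl

end Cfsg.Agent.S1513
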