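import Cfsg.Statements.S1514
import Cfsg.Agent.H3.Coh

set_option autoImplicit false
open Cfsg

namespace Cfsg.Agent.S1514

/-- Let S be a nonempty set of irreducible characters of the finite group L, closed under complex conjugation and containing no real-valued member, and τ a linear isometry on the integer combinations of S vanishing at 1, with values virtual characters of G vanishing at 1. Then there is a choice R making (S, τ, R) a coherence system. -/
theorem result {L : Type*} [Group L] [Fintype L] {G : Type*} [Group G] [Fintype G] (S : Set (L → ℂ)) (hS : S.Nonempty) (hirr : ∀ χ ∈ S, Cfsg.IsIrrCharacter L χ) (hconj : ∀ χ ∈ S, Cfsg.conjFun χ ∈ S ∧ Cfsg.conjFun χ ≠ χ) (τ : (L → ℂ) → (G → ℂ)) (hτ : Cfsg.IsLinearIsometryOn (Cfsg.zspanOn S {1}ᶜ) τ) (hτ1 : ∀ α ∈ Cfsg.zspanOn S {1}ᶜ, τ α 1 = 0) : ∃ R : (L → ℂ) → Finset (G → ℂ), Cfsg.IsCoherenceSystem S τ R := by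
  classical
  obtain ⟨τ', h1, h2⟩ := H3.isoOn_of_frozen (fun a ha => H3.irr_char (hirr a ha)) hτ hτ1
  obtain ⟨R, h⟩ := h1.exists_subCoh hirr (fun χ a => (hconj χ a).1) fun χ a => (hconj χ a).2
  refine ⟨R, hS, h.char, h.conj_mem, h.conj_ne, hτ, hτ1, h.orth, fun χ a α b β c => ?_,
    fun χ a α b => (h.Rsirr χ a α b).gen, fun χ a => ?_, fun χ a φ b e1 e2 => h.disj χ a φ b ?_ ?_⟩
  · split_ifs with e
    exacts [e ▸ (h.Rsirr χ a α b).inner_self, h.Rorth χ a α b β c e]
  · rw [← h.sum_eq χ a, h2 _ (H3.mem_zspanOn.mpr ⟨sub_mem (Submodule.subset_span a)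
      (Submodule.subset_span (h.conj_mem χ a)), by simp [h.conj_one a]⟩)]
  · rintro rfl; simp [H3.irr_inner_self (hirr φ b)] at e1
  · rintro rfl; simp [H3.irr_inner_self (hirr _ b)] at e2

end Cfsg.Agent.S1514
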