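import Cfsg.Statements.S1518
import Cfsg.Agent.H3.Dade

set_option autoImplicit false
open Cfsg

namespace Cfsg.Agent.S1518

/-- Under the Dade hypothesis for (A, L, H): if χ is an irreducible character of L vanishing at every non-identity element of L outside A, then the Dade image of χ − conj χ equals μ − conj μ for some irreducible character μ of G. -/
theorem result {G : Type*} [Group G] [Fintype G] (A : Set G) (L : Subgroup G) [Fintype L] (H : G → Subgroup G) (hD : Cfsg.DadeHypothesis A L H) (χ : L → ℂ) (hχ : Cfsg.IsIrrCharacter L χ) (hsupp : ∀ x : L, x ≠ 1 → (x : G) ∉ A → χ x = 0) : ∃ μ : G → ℂ, Cfsg.IsIrrCharacter G μ ∧ Cfsg.dadeIsometry A L H (χ - Cfsg.conjFun χ) = μ - Cfsg.conjFun μ := by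
  by_cases h : conjFun χ = χ
  · refine ⟨_, H3.isIrr_one, ?_⟩
    rw [h, sub_self]
    refine (map_zero (H3.dadeLin A L H)).trans ?_
    ext; simp [conjFun]
  have hc : IsIrrCharacter L (conjFun χ) := H3.irr_conj hχ
  have hg := H3.gen_sub (H3.irr_gen hχ) (H3.irr_gen hc)
  have h0 : ∀ x : L, (x : G) ∉ A → (χ - conjFun χ) x = 0 := fun x hx => by
    by_cases e : x = 1
    · obtain ⟨d, -, hd⟩ := H3.irr_one_nat hχ
      simp [e, conjFun, hd]
    · simp [conjFun, hsupp x e hx]
  obtain ⟨α, β, hα, hβ, hne, e⟩ := H3.gen_norm_two (H3.Dade.gen hD hg h0) (by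
    rw [H3.Dade.isometry hD (H3.gen_class hg) h0 (H3.gen_class hg), H3.inner_sub_left,
      H3.inner_sub_right, H3.inner_sub_right, H3.irr_inner_self hχ, H3.irr_inner_self hc,
      H3.irr_inner_ne hχ hc (Ne.symm h), H3.irr_inner_ne hc hχ h]; norm_num)
    (H3.Dade.apply_one hD _)
  refine ⟨α, hα, ?_⟩
  have h1 := H3.dade_map A L H (fun z => -(starRingEnd ℂ) z) (by simp) (χ - conjFun χ)
  rw [show (fun x => -(starRingEnd ℂ) ((χ - conjFun χ) x)) = χ - conjFun χ by
    ext; simp [conjFun], e] at h1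
  have h2 : α - β = conjFun β - conjFun α := by rw [h1]; ext; simp [conjFun]
  have hα' : IsIrrCharacter G (conjFun α) := H3.irr_conj hα
  have hβ' : IsIrrCharacter G (conjFun β) := H3.irr_conj hβ
  rw [e]
  congr 1
  by_contra h3
  have := congrArg (classInner · β) h2
  simp only [H3.inner_sub_left, H3.irr_inner_self hβ, H3.irr_inner_ne hα hβ hne,
    H3.irr_inner_ne hα' hβ (Ne.symm h3)] at this
  rw [H3.irr_inner hβ' hβ] at this
  split_ifs at this <;> norm_num at this

end Cfsg.Agent.S1518
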