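import Cfsg.Statements.S1520
import Cfsg.Agent.H3.Coh6

set_option autoImplicit false
open Cfsg

namespace Cfsg.Agent.S1520

/-- Let K be a solvable normal subgroup of the finite group L and (S, τ, R) a coherence system from L to G with S the functions induced from non-principal irreducible characters of K; S(A) the members of S induced from characters whose kernel contains A. Let M ≤ H₁ ≤ H ≤ K be normal subgroups of L such that every term of the lower central series of H eventually lies in M (H/M nilpotent), S(H₁) is coherent and [H:H₁] > 4 * [L:K]^2 + 1. Then S(M) is coherent. -/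
theorem result {L : Type*} [Group L] [Fintype L] {G : Type*} [Group G] [Fintype G] (K : Subgroup L) [hK : K.Normal] (hsolv : Group.IsSolvable K) (τ : (L → ℂ) → (G → ℂ)) (R : (L → ℂ) → Finset (G → ℂ)) (hS : Cfsg.IsCoherenceSystem (Cfsg.inducedIrrAbove K ⊥) τ R) (M H₁ H : Subgroup L) [M.Normal] [H₁.Normal] [H.Normal] (hMH₁ : M ≤ H₁) (hH₁H : H₁ ≤ H) (hHK : H ≤ K) [(M.subgroupOf H).Normal] (hnil : Group.IsNilpotent (↥H ⧸ M.subgroupOf H)) (hcoh : Cfsg.IsCoherent (Cfsg.inducedIrrAbove K H₁) {1}ᶜ τ) (hbig : 4 * K.index ^ 2 + 1 < H₁.relIndex H) : Cfsg.IsCoherent (Cfsg.inducedIrrAbove K M) {1}ᶜ τ := by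
  obtain ⟨τ', hR, he⟩ := H3.subCoh_of_frozen hS
  have h1 := hH₁H.trans hHK
  have h2 := hMH₁.trans h1
  rw [H3.inducedIrrAbove_eq bot_le] at hR he
  rw [H3.inducedIrrAbove_eq h1] at hcoh
  rw [H3.inducedIrrAbove_eq h2]
  obtain ⟨χ, hχ⟩ := H3.SI_nonempty (K := K) le_rfl h2 fun h => by
    rw [Subgroup.relIndex_eq_one.mpr (hHK.trans (h.trans hMH₁))] at hbig; omega
  exact (H3.coh_nil hR hsolv hMH₁ hH₁H hHK (H3.nilMod_of_quot hnil)
    (H3.coh_of_isCoherent hR.char (H3.SI_anti bot_le) he hcoh) hbig).isCoherent (H3.SI_anti bot_le) he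
    (hR.exists_ne_zero (H3.SI_anti bot_le) hχ (H3.SI.conj hχ))

end Cfsg.Agent.S1520
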