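import Cfsg.Statements.S1523
import Cfsg.Agent.H3.Sibley

set_option autoImplicit false
open Cfsg

namespace Cfsg.Agent.S1523

/-- Let G be a finite group, p a prime, P a Sylow p-subgroup whose underlying set is a TI-subset of G, with L the set normaliser of P of odd order. Let Z ≠ ⊥ be a subgroup of P, normal in L and central in P, such that the centralisers in L of any two non-identity elements of Z have the same order. If ψ is an irreducible character of G taking the same value at all non-identity elements of Z, then for z ∈ Z, z ≠ 1, the value ψ z is an integer n with Nat.card P dividing ψ(1) − n (as integers, ψ 1 being the degree). -/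
theorem result {G : Type*} [Group G] [Finite G] (p : ℕ) [Fact p.Prime] (P : Sylow p G) (hTI : Cfsg.IsTISubset ((P : Subgroup G) : Set G)) (hodd : Odd (Nat.card (Subgroup.normalizer ((P : Subgroup G) : Set G)))) (Z : Subgroup G) (hZ1 : Z ≠ ⊥) (hZP : Z ≤ P) (hZn : ∀ x ∈ Subgroup.normalizer ((P : Subgroup G) : Set G), ∀ z ∈ Z, x * z * x⁻¹ ∈ Z) (hZc : ∀ z ∈ Z, ∀ y ∈ (P : Subgroup G), z * y = y * z) (hCL : ∀ z ∈ Z, ∀ z' ∈ Z, z ≠ 1 → z' ≠ 1 → Nat.card ↥(Subgroup.normalizer ((P : Subgroup G) : Set G) ⊓ Subgroup.centralizer ({z} : Set G)) = Nat.card ↥(Subgroup.normalizer ((P : Subgroup G) : Set G) ⊓ Subgroup.centralizer ({z'} : Set G))) (ψ : G → ℂ) (hψ : Cfsg.IsIrrCharacter G ψ) (hconst : ∀ z ∈ Z, ∀ z' ∈ Z, z ≠ 1 → z' ≠ 1 → ψ z = ψ z') (z : G) (hz : z ∈ Z) (hz1 : z ≠ 1) : ∃ n d : ℤ, ψ z = n ∧ ψ 1 = d ∧ (Nat.card (P : Subgroup G) : ℤ) ∣ d - n := by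
  have := Fintype.ofFinite G
  set L := Subgroup.normalizer ((P : Subgroup G) : Set G)
  have hPL : (P : Subgroup G) ≤ L := Subgroup.le_normalizer
  have : ((P : Subgroup G).subgroupOf L).Normal := Subgroup.normal_in_normalizer
  have : (Z.subgroupOf L).Normal := ⟨fun a b c => hZn c c.2 a b⟩
  have hc := Nat.card_congr (Subgroup.subgroupOfEquivOfLe hPL).toEquiv
  obtain ⟨n, k, a, b⟩ := H3.ti_congr (j := L.subtype) (P := (P : Subgroup G).subgroupOf L)
    (Z := Z.subgroupOf L) L.subtype_injective hodd (by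
      rw [hc]
      exact P.card_coprime_index.coprime_dvd_right (Subgroup.relIndex_dvd_index_of_le hPL))
    (fun g x hx h1 y hy e => by
      rw [Subgroup.range_subtype]
      by_contra h
      exact h1 (Subtype.ext (hTI g h x hx (by rw [show g * x * g⁻¹ = y from e]; exact hy))))
    (fun x hx => hZP hx) (fun a b c d => Subtype.ext (hZc a b c d)) hψ (z := ⟨z, hPL (hZP hz)⟩) hz
    (by simpa using hz1) fun w a b => hconst w a z hz (by simpa using b) hz1
  obtain ⟨d, -, hd⟩ := H3.irr_one_nat hψ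
  refine ⟨n, d, a, by simp [hd], k, ?_⟩
  rw [hd, hc] at b
  exact_mod_cast b

end Cfsg.Agent.S1523
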