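import Cfsg.Statements.S1524
import Cfsg.Agent.H3.Sibley
import Cfsg.Agent.H1.Frob

set_option autoImplicit false
open Cfsg

namespace Cfsg.Agent.S1524

/-- Let G be a finite group and H ≤ L subgroups with L of odd order, H ≠ ⊥ nilpotent and normal in L with a nontrivial complement W₁ in L (H ⊓ W₁ = ⊥, H ⊔ W₁ = L) acting on H without non-identity fixed points (L is a Frobenius group with kernel H), and suppose the underlying set of H is a TI-subset of G whose normaliser is L. Let S be the set of functions on L induced from the non-principal irreducible characters of H. Then (S, L minus 1, induction to G) is coherent. -/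
theorem result {G : Type*} [Group G] [Fintype G] (H L W₁ : Subgroup G) [Fintype L] (hodd : Odd (Nat.card L)) (hHL : H ≤ L) (hW₁L : W₁ ≤ L) (hH1 : H ≠ ⊥) (hW1 : W₁ ≠ ⊥) (hnil : Group.IsNilpotent H) (hHn : ∀ x ∈ L, ∀ h ∈ H, x * h * x⁻¹ ∈ H) (hinf : H ⊓ W₁ = ⊥) (hsup : H ⊔ W₁ = L) (hfpf : ∀ w ∈ W₁, w ≠ 1 → ∀ h ∈ H, w * h = h * w → h = 1) (hTI : Cfsg.IsTISubset (H : Set G)) (hN : Subgroup.normalizer (H : Set G) = L) : Cfsg.IsCoherent (Cfsg.inducedIrrAbove (H.subgroupOf L) ⊥) {1}ᶜ (fun α : L → ℂ => Cfsg.indFun L α) := by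
  have : (H.subgroupOf L).Normal := ⟨fun a b c => hHn c c.2 a b⟩
  have hti : H3.TIH L.subtype (H.subgroupOf L) := fun g x hx h1 y hy e => by
    rw [Subgroup.range_subtype, ← hN]
    by_contra h
    exact h1 (Subtype.ext (hTI g h x hx (by rw [show g * x * g⁻¹ = y from e]; exact hy)))
  have hf : H3.FrobMod (H.subgroupOf L) ⊥ := H3.frobMod_bot_iff.mpr fun k hk h1 x hx => by
    have hn : W₁ ≤ Subgroup.normalizer (H : Set G) := hN ▸ hW₁L
    exact H1.centralizer_inf_le_kernel hn (H1.fpf_iff.mpr fun w a h b c =>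
      or_iff_not_imp_left.mpr fun d => hfpf w a d h b c) (k := k) hk (by simpa using h1)
      ⟨hsup ▸ x.2, Subgroup.mem_centralizer_singleton_iff.mpr
        (congrArg Subtype.val (Subgroup.mem_centralizer_singleton_iff.mp hx))⟩
  rw [H3.inducedIrrAbove_eq bot_le]
  obtain ⟨χ, hχ⟩ := H3.SI_nonempty (K := H.subgroupOf L) le_rfl bot_le fun h =>
    hH1 (eq_bot_iff.mpr fun x hx => by simpa using h (x := ⟨x, hHL hx⟩) hx)
  obtain ⟨R, hR⟩ := (hti.isTau L.subtype_injective).subCoh_frob hodd hf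
  exact (H3.sibley_frob L.subtype_injective
    (nilpotent_of_mulEquiv (Subgroup.subgroupOfEquivOfLe hHL).symm) hodd hti hf).isCoherent
    le_rfl (fun a _ => H3.indH_subtype L a) (hR.exists_ne_zero le_rfl hχ (H3.SI.conj hχ))

end Cfsg.Agent.S1524
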