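import Cfsg.Statements.S1526
import Cfsg.Agent.H3.InvDade

set_option autoImplicit false
open Cfsg

namespace Cfsg.Agent.S1526

/-- Let G be a finite group of odd order and (L i, H i), i in a finite index type with at least two elements, pairs of subgroups with H i a nontrivial proper normal subgroup of L i such that every non-identity element of H i has its centraliser within L i contained in H i (L i is a Frobenius group with kernel H i), the orders of the H i pairwise coprime, and the underlying set of each H i a TI-subset of G with normaliser L i. If every non-identity element of G is conjugate to an element of some H i, we reach a contradiction. -/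
theorem result {G : Type*} [Group G] [Finite G] (hodd : Odd (Nat.card G)) {ι : Type*} [Fintype ι] (hι : 2 ≤ Fintype.card ι) (L H : ι → Subgroup G) (hHL : ∀ i, H i < L i) (hH1 : ∀ i, H i ≠ ⊥) (hHn : ∀ i, ∀ x ∈ L i, ∀ h ∈ H i, x * h * x⁻¹ ∈ H i) (hfrob : ∀ i, ∀ h ∈ H i, h ≠ 1 → L i ⊓ Subgroup.centralizer ({h} : Set G) ≤ H i) (hcop : ∀ i j, i ≠ j → Nat.Coprime (Nat.card (H i)) (Nat.card (H j))) (hTI : ∀ i, Cfsg.IsTISubset (H i : Set G) ∧ Subgroup.normalizer (H i : Set G) = L i) (hcover : ∀ g : G, g ≠ 1 → ∃ i, ∃ x : G, x * g * x⁻¹ ∈ H i) : False := by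
  have := Fintype.ofFinite G
  have := fun i => Fintype.ofFinite (L i)
  have : Nonempty ι := Fintype.card_pos_iff.mp (by omega)
  have : ∀ i, ((H i).subgroupOf (L i)).Normal := fun i => ⟨fun a b c => hHn i c c.2 a b⟩
  exact H3.no_frob_partition hodd (fun i => (L i).subtype) (fun i => (H i).subgroupOf (L i))
    (fun i => (L i).subtype_injective)
    (fun i h => hH1 i (eq_bot_iff.mpr fun x hx => by simpa using h.le (x := ⟨x, (hHL i).le hx⟩) hx))
    (fun i h => (hHL i).not_ge (Subgroup.subgroupOf_eq_top.mp h))
    (fun i => H3.frobMod_bot_iff.mpr fun k a b x c => hfrob i k a (by simpa using b) ⟨x.2,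
      Subgroup.mem_centralizer_singleton_iff.mpr
        (congrArg Subtype.val (Subgroup.mem_centralizer_singleton_iff.mp c))⟩)
    (fun i g x hx h1 y hy e => by
      rw [Subgroup.range_subtype, ← (hTI i).2]
      by_contra h
      exact h1 (Subtype.ext ((hTI i).1 g h x hx (by rw [show g * x * g⁻¹ = y from e]; exact hy))))
    (fun i j e => by
      simpa only [Nat.card_congr (Subgroup.subgroupOfEquivOfLe (hHL _).le).toEquiv] using hcop i j e)
    fun g h => by
      obtain ⟨i, x, hx⟩ := hcover g h
      exact ⟨i, ⟨_, (hHL i).le hx⟩, hx, (isConj_iff.mpr ⟨x, rfl⟩).symm⟩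

end Cfsg.Agent.S1526
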