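import Cfsg.Statements.S1527
import Cfsg.Agent.H3.InvDade

set_option autoImplicit false
open Cfsg

namespace Cfsg.Agent.S1527

/-- Let G be a finite group and H i (i in a finite index type) subgroups of pairwise coprime orders, each of whose underlying sets is a TI-subset of G, such that every non-identity element of G is conjugate to an element of some H i. Then Nat.card G − 1 = Σ_i [G : N_G(H i)] · (Nat.card (H i) − 1). -/
theorem result {G : Type*} [Group G] [Finite G] {ι : Type*} [Fintype ι] (H : ι → Subgroup G) (hcop : ∀ i j, i ≠ j → Nat.Coprime (Nat.card (H i)) (Nat.card (H j))) (hTI : ∀ i, Cfsg.IsTISubset (H i : Set G)) (hcover : ∀ g : G, g ≠ 1 → ∃ i, ∃ x : G, x * g * x⁻¹ ∈ H i) : Nat.card G - 1 = ∑ i, (Subgroup.normalizer (H i : Set G)).index * (Nat.card (H i) - 1) := by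
  classical
  have := Fintype.ofFinite G
  let N := fun i => Subgroup.normalizer (H i : Set G)
  have := fun i => Fintype.ofFinite (N i)
  let Y := fun i => H3.cjs (N i).subtype {x | x ∈ (H i).subgroupOf (N i) ∧ x ≠ 1}
  have hY : Pairwise fun i k => Disjoint (Y i) (Y k) := fun i k e => Set.disjoint_left.mpr (by
    rintro g ⟨x, a, b⟩ ⟨y, c, d⟩
    obtain ⟨u, hu⟩ := isConj_iff.mp (b.trans d.symm)
    refine a.2 (Subtype.ext (orderOf_eq_one_iff.mp (Nat.eq_one_of_dvd_coprimes (hcop i k e)
      (H9.orderOf_dvd_card_of_mem a.1) ?_)))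
    rw [← H3.orderOf_conj' _ u, show u * x * u⁻¹ = y from hu]
    exact H9.orderOf_dvd_card_of_mem c.1)
  have e1 : (⋃ i, Y i)ᶜ = {1} := Set.ext fun g => ⟨fun a => by_contra fun b => by
    obtain ⟨i, x, c⟩ := hcover g b
    exact a (Set.mem_iUnion.mpr ⟨i, ⟨_, Subgroup.le_normalizer c⟩, ⟨c, by simpa using b⟩,
      (isConj_iff.mpr ⟨x, rfl⟩).symm⟩), fun a b => by
    obtain ⟨i, x, c, d⟩ := Set.mem_iUnion.mp b
    exact c.2 (by simpa [show g = 1 from a] using d)⟩
  have h := H3.nsq_partition Y hY fun _ => 1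
  have e2 : ∀ i, ((Y i).ncard / Nat.card G : ℝ) = (N i).index * (Nat.card (H i) - 1) / Nat.card G := fun i => by
    rw [H3.ncard_cjs (X := {x | x ∈ (H i).subgroupOf (N i) ∧ x ≠ 1}) (N i).subtype_injective (fun g x a => ⟨Subgroup.normal_in_normalizer.conj_mem x a.1 g,
      by simpa using a.2⟩) fun g x a y b e => by
        rw [Subgroup.range_subtype]
        by_contra h
        exact a.2 (Subtype.ext (hTI i g h x a.1 (by rw [show g * x * g⁻¹ = y from e]; exact b.1))),
      H3.ncard_nt, Nat.card_congr (Subgroup.subgroupOfEquivOfLe Subgroup.le_normalizer).toEquiv,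
      ← (N i).index_mul_card, Nat.cast_mul, mul_div_mul_left]
    exact_mod_cast (N i).index_ne_zero_of_finite
  have h0 : (Nat.card G : ℝ) ≠ 0 := by exact_mod_cast Nat.card_pos.ne'
  simp only [H3.nsq_indicator_one, e1, e2, H3.SIrr.nsq (Or.inl H3.isIrr_one), ← Finset.sum_div,
    Set.ncard_singleton] at h
  rw [← add_div, eq_div_iff h0, one_mul] at h
  apply Nat.cast_injective (R := ℝ)
  rw [Nat.cast_sub Nat.card_pos, h]
  push_cast [Nat.cast_sub (Nat.succ_le_of_lt Nat.card_pos)]
  simp [N]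

end Cfsg.Agent.S1527
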