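import Cfsg.Statements.S1529
import Cfsg.Agent.H3.Coh

set_option autoImplicit false
open Cfsg

namespace Cfsg.Agent.S1529

/-- Let N be a subgroup of the finite group G, S a set of irreducible characters of N with at least two members, and τ₁ a linear isometry on the integer combinations of S with virtual-character values such that τ₁ α vanishes at 1 whenever α ∈ ℤ[S] does. Then there is ε ∈ {1, −1} such that ε • τ₁ χ is an irreducible character of G for every χ ∈ S, and distinct members of S give distinct characters. -/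
theorem result {G : Type*} [Group G] [Fintype G] (N : Subgroup G) [Fintype N] (S : Set (N → ℂ)) (hirr : ∀ χ ∈ S, Cfsg.IsIrrCharacter N χ) (htwo : ∃ χ ∈ S, ∃ ψ ∈ S, χ ≠ ψ) (τ₁ : (N → ℂ) → (G → ℂ)) (hτ₁ : Cfsg.IsLinearIsometryOn (Cfsg.zspan S) τ₁) (h0 : ∀ α ∈ Cfsg.zspan S, α 1 = 0 → τ₁ α 1 = 0) : ∃ ε : ℂ, (ε = 1 ∨ ε = -1) ∧ (∀ χ ∈ S, Cfsg.IsIrrCharacter G (ε • τ₁ χ)) ∧ (∀ χ ∈ S, ∀ ψ ∈ S, τ₁ χ = τ₁ ψ → χ = ψ) := by
  have m : ∀ a ∈ S, a ∈ zspan S := fun a ha => Submodule.subset_span ha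
  have hs : ∀ χ ∈ S, H3.SIrr G (τ₁ χ) := fun χ a => H3.gen_norm_one (hτ₁.2.2.2 _ (m χ a))
    (by rw [hτ₁.2.2.1 _ (m χ a) _ (m χ a), H3.irr_inner_self (hirr χ a)])
  obtain ⟨τ', h2⟩ := H3.lin_of_isometryOn hτ₁
  obtain ⟨χ₀, h3, -⟩ := htwo
  choose! d hd0 hd using fun χ a => H3.irr_one_nat (hirr χ a)
  have key : ∀ χ ∈ S, d χ₀ * τ₁ χ 1 = d χ * τ₁ χ₀ 1 := fun χ a => by
    have m' : d χ₀ • χ - d χ • χ₀ ∈ zspan S :=
      sub_mem (nsmul_mem (Submodule.subset_span a) _) (nsmul_mem (Submodule.subset_span h3) _)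
    have := h0 _ m' (by simp [hd χ a, hd χ₀ h3, mul_comm])
    rw [← h2 _ m', map_sub, map_nsmul, map_nsmul, h2 _ (m χ a), h2 _ (m χ₀ h3)] at this
    simpa [sub_eq_zero] using this
  obtain ⟨ε, φ, hε, hφ, e⟩ := (hs χ₀ h3).exists
  refine ⟨ε, hε, fun χ a => H3.isIrr_of_gen_norm_one (H3.sirr_smul hε (hs χ a)).gen
    (H3.sirr_smul hε (hs χ a)).inner_self ?_, fun χ a ψ b e => ?_⟩
  · obtain ⟨n, -, hn⟩ := H3.irr_one_nat hφ
    have h5 : (d χ₀ : ℂ) ≠ 0 := by exact_mod_cast (hd0 χ₀ h3).ne'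
    have : (ε • τ₁ χ) 1 = ((d χ * n / d χ₀ : ℝ) : ℂ) := by
      have := key χ a
      rw [e, Pi.smul_apply, hn] at this
      push_cast
      rw [eq_div_iff h5]
      rcases hε with rfl | rfl <;> simp only [Pi.smul_apply, smul_eq_mul] at this ⊢
      · linear_combination this
      · linear_combination -this
    rw [this, Complex.ofReal_re]; positivity
  · refine H3.irr_eq_of_inner_ne_zero (hirr χ a) (hirr ψ b) ?_
    rw [← hτ₁.2.2.1 _ (m χ a) _ (m ψ b), e, (hs ψ b).inner_self]; simp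

end Cfsg.Agent.S1529
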