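import Cfsg.Statements.S1530
import Cfsg.Agent.H3.Coh

set_option autoImplicit false
open Cfsg

namespace Cfsg.Agent.S1530

/-- Let N be a subgroup of the finite group G and S₀ a finite set of irreducible characters of N, χ an irreducible character of N not in S₀, with degrees ξ 1 = d ξ. Let τ be a linear isometry on the integer combinations of S₀ ∪ {χ} vanishing at 1, with values virtual characters of G vanishing at 1, such that (S₀, N minus 1, τ) is coherent. If some ψ ∈ S₀ has d ψ dividing d χ and 2 · d ψ · d χ < Σ_{ξ ∈ S₀} (d ξ)², then (S₀ ∪ {χ}, N minus 1, τ) is coherent. -/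
theorem result {G : Type*} [Group G] [Fintype G] (N : Subgroup G) [Fintype N] (S₀ : Finset (N → ℂ)) (χ : N → ℂ) (hirr : ∀ ξ ∈ S₀, Cfsg.IsIrrCharacter N ξ) (hχ : Cfsg.IsIrrCharacter N χ) (hχS : χ ∉ S₀) (d : (N → ℂ) → ℕ) (hd : ∀ ξ ∈ insert χ S₀, ξ 1 = (d ξ : ℂ)) (τ : (N → ℂ) → (G → ℂ)) (hτ : Cfsg.IsLinearIsometryOn (Cfsg.zspanOn (↑(insert χ S₀) : Set (N → ℂ)) {1}ᶜ) τ) (hτ1 : ∀ α ∈ Cfsg.zspanOn (↑(insert χ S₀) : Set (N → ℂ)) {1}ᶜ, τ α 1 = 0) (hcoh : Cfsg.IsCoherent (↑S₀ : Set (N → ℂ)) {1}ᶜ τ) (ψ : N → ℂ) (hψ : ψ ∈ S₀) (hdvd : d ψ ∣ d χ) (hlt : 2 * d ψ * d χ < ∑ ξ ∈ S₀, d ξ ^ 2) : Cfsg.IsCoherent (↑(insert χ S₀) : Set (N → ℂ)) {1}ᶜ τ := by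
  simp only [Finset.coe_insert] at hτ hτ1 ⊢
  have hc : ∀ a ∈ insert χ (S₀ : Set (N → ℂ)), IsCharacter N a := by
    rintro a (rfl | h)
    exacts [H3.irr_char hχ, H3.irr_char (hirr a h)]
  obtain ⟨τ', h1, h2⟩ := H3.isoOn_of_frozen hc hτ hτ1
  obtain ⟨a, ha⟩ := hdvd
  have d1 := hd χ (Finset.mem_insert_self _ _)
  have d2 := fun φ a => hd φ (Finset.mem_insert_of_mem a)
  refine (H3.feit_extend h1 hirr hχ (H3.coh_of_isCoherent hc (Set.subset_insert _ _) h2 hcoh)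
    hχS hψ (a := a) (by rw [d1, d2 _ hψ, ha]; push_cast; ring) ?_).isCoherent
    subset_rfl h2 (H3.exists_ne_zero_of_irr (Set.mem_insert _ _) (Set.mem_insert_of_mem _ hψ)
      (fun e => hχS (e ▸ hψ)) hχ (hirr ψ hψ))
  rw [d1, d2 _ hψ, Finset.sum_congr rfl fun φ a => by rw [d2 φ a]]
  simp only [Complex.natCast_re]
  rw [mul_right_comm]; exact_mod_cast hlt

end Cfsg.Agent.S1530
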