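import Cfsg.Statements.S1531
import Cfsg.Agent.H3.Coh

set_option autoImplicit false
open Cfsg

namespace Cfsg.Agent.S1531

/-- Let N be a subgroup of the finite group G, S a set of irreducible characters of N, and α a linear isometry on the integer combinations of S vanishing at 1 with values virtual characters of G vanishing at 1. Let X, Y ⊆ S be disjoint, each with at least two members, and σ, τ linear isometries on ℤ[X], ℤ[Y] into virtual characters agreeing with α on the members vanishing at 1. Then ⟨σ χ, τ η⟩ = 0 for χ ∈ X, η ∈ Y; and if for some χ₀ ∈ X, η₀ ∈ Y with degrees c = χ₀ 1, e = η₀ 1 one has α (c • η₀ − e • χ₀) = c • τ η₀ − e • σ χ₀, then (X ∪ Y, N minus 1, α) is coherent. -/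
theorem result {G : Type*} [Group G] [Fintype G] (N : Subgroup G) [Fintype N] (S X Y : Set (N → ℂ)) (hirr : ∀ ξ ∈ S, Cfsg.IsIrrCharacter N ξ) (hXS : X ⊆ S) (hYS : Y ⊆ S) (hXY : Disjoint X Y) (hX2 : ∃ a ∈ X, ∃ b ∈ X, a ≠ b) (hY2 : ∃ a ∈ Y, ∃ b ∈ Y, a ≠ b) (α : (N → ℂ) → (G → ℂ)) (hα : Cfsg.IsLinearIsometryOn (Cfsg.zspanOn S {1}ᶜ) α) (hα1 : ∀ θ ∈ Cfsg.zspanOn S {1}ᶜ, α θ 1 = 0) (σ τ : (N → ℂ) → (G → ℂ)) (hσ : Cfsg.IsLinearIsometryOn (Cfsg.zspan X) σ) (hσα : ∀ θ ∈ Cfsg.zspanOn X {1}ᶜ, σ θ = α θ) (hτ : Cfsg.IsLinearIsometryOn (Cfsg.zspan Y) τ) (hτα : ∀ θ ∈ Cfsg.zspanOn Y {1}ᶜ, τ θ = α θ) : (∀ χ ∈ X, ∀ η ∈ Y, Cfsg.classInner (σ χ) (τ η) = 0) ∧ ((∃ χ₀ ∈ X, ∃ η₀ ∈ Y, α (χ₀ 1 • η₀ - η₀ 1 • χ₀) = χ₀ 1 • τ η₀ - η₀ 1 • σ χ₀) → Cfsg.IsCoherent (X ∪ Y) {1}ᶜ α) := by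
  obtain ⟨α', h1, h2⟩ := H3.isoOn_of_frozen (fun a b => H3.irr_char (hirr a b)) hα hα1
  obtain ⟨ν₁, a1, a2⟩ := H3.coh_of_frozen (τ := α') (fun a b => H3.irr_char (hirr a (hXS b)))
    (fun a b => h2 a ⟨Submodule.span_mono hXS b.1, b.2⟩) hσ hσα
  obtain ⟨ν₂, b1, b2⟩ := H3.coh_of_frozen (τ := α') (fun a b => H3.irr_char (hirr a (hYS b)))
    (fun a b => h2 a ⟨Submodule.span_mono hYS b.1, b.2⟩) hτ hτα
  have ho : ∀ χ ∈ X, ∀ η ∈ Y, classInner (ν₁ χ) (ν₂ η) = 0 := fun χ c η d =>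
    H3.orth_of_disjoint h1 hirr hXS hYS hXY hX2 hY2 a1 b1 c d
  refine ⟨fun χ c η d => by
    rw [← a2 _ (Submodule.subset_span c), ← b2 _ (Submodule.subset_span d), ho χ c η d], ?_⟩
  rintro ⟨χ, c, η, d, e⟩
  obtain ⟨m, -, hm⟩ := H3.irr_one_nat (hirr χ (hXS c))
  obtain ⟨n, -, hn⟩ := H3.irr_one_nat (hirr η (hYS d))
  rw [← h2 _ (H3.mem_zspanOn.mpr ⟨by
    rw [hm, hn, Nat.cast_smul_eq_nsmul, Nat.cast_smul_eq_nsmul]
    exact sub_mem (nsmul_mem (Submodule.subset_span (hYS d)) _)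
      (nsmul_mem (Submodule.subset_span (hXS c)) _), by simp [mul_comm]⟩),
    ← a2 _ (Submodule.subset_span c), ← b2 _ (Submodule.subset_span d)] at e
  obtain ⟨ν, h, -⟩ := a1.union b1 (fun χ c η d => by
      rw [ho χ c η d, H3.irr_inner_ne (hirr χ (hXS c)) (hirr η (hYS d))
        fun e => Set.disjoint_left.mp hXY c (e ▸ d)])
    (Submodule.smul_mem _ (η 1) (Submodule.subset_span c))
    (Submodule.smul_mem _ (χ 1) (Submodule.subset_span d)) (by simp [mul_comm])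
    (by simp [H3.irr_one_ne_zero (hirr χ (hXS c)), H3.irr_one_ne_zero (hirr η (hYS d))])
    (by rw [← neg_sub, map_neg, e]; simp)
  obtain ⟨x, hx, y, hy, hxy⟩ := hX2
  exact H3.Coh.isCoherent ⟨ν, h⟩ (Set.union_subset hXS hYS) h2 (H3.exists_ne_zero_of_irr (Or.inl hx)
    (Or.inl hy) hxy (hirr x (hXS hx)) (hirr y (hXS hy)))

end Cfsg.Agent.S1531
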