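import Cfsg.Statements.S1532
import Cfsg.Agent.H3.Tifn2

set_option autoImplicit false
open Cfsg

namespace Cfsg.Agent.S1532

/-- Let G be a finite group, p an odd prime and P a Sylow p-subgroup that is non-abelian, whose underlying set is a TI-subset of G, with P properly contained in its set normaliser N and C_G(x) ≤ P for every non-identity x ∈ P. Let Z be a nontrivial subgroup of the centre of P normalised by N. Then the set of irreducible characters χ of N with χ z ≠ χ 1 for some z ∈ Z is coherent for the map induced by induction from N to G. -/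
theorem result {G : Type*} [Group G] [Fintype G] (p : ℕ) [Fact p.Prime] (hp : p ≠ 2) (P : Sylow p G) (hna : ¬ IsMulCommutative (P : Subgroup G)) (hTI : Cfsg.IsTISubset ((P : Subgroup G) : Set G)) (hlt : (P : Subgroup G) < Subgroup.normalizer ((P : Subgroup G) : Set G)) (hC : ∀ k ∈ (P : Subgroup G), k ≠ 1 → Subgroup.centralizer ({k} : Set G) ≤ (P : Subgroup G)) [Fintype ↥(Subgroup.normalizer ((P : Subgroup G) : Set G))] (Z : Subgroup G) (hZ1 : Z ≠ ⊥) (hZP : ∀ z ∈ Z, z ∈ (P : Subgroup G) ∧ ∀ y ∈ (P : Subgroup G), z * y = y * z) (hZn : ∀ x ∈ Subgroup.normalizer ((P : Subgroup G) : Set G), ∀ z ∈ Z, x * z * x⁻¹ ∈ Z) : Cfsg.IsCoherent {χ : ↥(Subgroup.normalizer ((P : Subgroup G) : Set G)) → ℂ | Cfsg.IsIrrCharacter ↥(Subgroup.normalizer ((P : Subgroup G) : Set G)) χ ∧ ∃ z : ↥(Subgroup.normalizer ((P : Subgroup G) : Set G)), (z : G) ∈ Z ∧ χ z ≠ χ 1} {1}ᶜ (fun α => Cfsg.indFun (Subgroup.normalizer ((P : Subgroup G) : Set G)) α) := by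
  obtain ⟨a, b, c⟩ := H3.tifn_bridge hTI hlt hC
  have e := H9.card_subgroupOf hlt.le
  obtain ⟨k, hk⟩ := IsPGroup.iff_card.1 P.2
  have ho : Odd (Nat.card (Subgroup.normalizer ((P : Subgroup G) : Set G))) := by
    rw [← Subgroup.index_mul_card ((P : Subgroup G).subgroupOf _), e, hk]
    exact (Nat.not_even_iff_odd.1 fun u => hna ⟨⟨fun x y => Subtype.ext (congrArg (fun z => (z.1 : G))
      ((b.comm_of_even u).is_comm.comm ⟨⟨x, hlt.le x.2⟩, x.2⟩ ⟨⟨y, hlt.le y.2⟩, y.2⟩))⟩⟩).mul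
        ((Fact.out : p.Prime).odd_of_ne_two hp).pow
  have : (Z.subgroupOf (Subgroup.normalizer ((P : Subgroup G) : Set G))).Normal := ⟨fun z u x => hZn x x.2 z u⟩
  have hZ : Z.subgroupOf _ ≤ (P : Subgroup G).subgroupOf (Subgroup.normalizer ((P : Subgroup G) : Set G)) :=
    fun z u => (hZP z u).1
  obtain ⟨R, hR⟩ := (a.isTau (Subgroup.subtype_injective _)).subCoh_frob ho b
  have i := fun χ u => H3.irr_of_frobMod b (χ := χ) (H3.SI_mono (M := ⊥) hZ u).1 (H3.SI_mono hZ u).2.1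
  obtain ⟨χ, hχ⟩ := H3.SI_nonempty hZ bot_le fun u => hZ1 (by
    rwa [le_bot_iff, Subgroup.subgroupOf_eq_bot, disjoint_iff, inf_eq_left.2 fun z u => hlt.le (hZP z u).1] at u)
  have := (H3.coh_center hR (b.nilpotent c) ho (b.of_bot (Subgroup.commutator_le_self _)) hZ
    (fun z u y v => Subtype.ext ((hZP z u).2 y v)) i).isCoherent le_rfl (fun α _ => H3.indH_subtype _ α)
    (hR.exists_ne_zero (H3.SI_mono hZ) hχ (H3.SI.conj hχ))
  simp only [H3.SI_eq_irr hZ i, H3.not_kr] at this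
  exact this

end Cfsg.Agent.S1532
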