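import Cfsg.Statements.S1533
import Cfsg.Agent.H3.Tifn2

set_option autoImplicit false
open Cfsg

namespace Cfsg.Agent.S1533

/-- Let G be a finite group, p an odd prime, and P a nontrivial Sylow p-subgroup whose underlying set is a TI-subset of G, with P properly contained in its set normaliser N and C_G(x) ≤ P for every non-identity x ∈ P. Let S be the set of irreducible characters χ of N with χ x ≠ χ 1 for some x ∈ P. Then either S has exactly one member, P is elementary abelian and Nat.card P = [N:P] + 1; or (S, N minus 1, induction to G) is coherent. -/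
theorem result {G : Type*} [Group G] [Fintype G] (p : ℕ) [Fact p.Prime] (hp : p ≠ 2) (P : Sylow p G) (hP1 : (P : Subgroup G) ≠ ⊥) (hTI : Cfsg.IsTISubset ((P : Subgroup G) : Set G)) (hlt : (P : Subgroup G) < Subgroup.normalizer ((P : Subgroup G) : Set G)) (hC : ∀ k ∈ (P : Subgroup G), k ≠ 1 → Subgroup.centralizer ({k} : Set G) ≤ (P : Subgroup G)) [Fintype ↥(Subgroup.normalizer ((P : Subgroup G) : Set G))] : (Nat.card {χ : ↥(Subgroup.normalizer ((P : Subgroup G) : Set G)) → ℂ // Cfsg.IsIrrCharacter ↥(Subgroup.normalizer ((P : Subgroup G) : Set G)) χ ∧ ∃ x : ↥(Subgroup.normalizer ((P : Subgroup G) : Set G)), (x : G) ∈ (P : Subgroup G) ∧ χ x ≠ χ 1} = 1 ∧ Cfsg.IsElementaryAbelian p (P : Subgroup G) ∧ Nat.card (P : Subgroup G) = ((P : Subgroup G).subgroupOf (Subgroup.normalizer ((P : Subgroup G) : Set G))).index + 1) ∨ Cfsg.IsCoherent {χ : ↥(Subgroup.normalizer ((P : Subgroup G) : Set G)) → ℂ | Cfsg.IsIrrCharacter ↥(Subgroup.normalizer ((P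 : Subgroup G) : Set G)) χ ∧ ∃ x : ↥(Subgroup.normalizer ((P : Subgroup G) : Set G)), (x : G) ∈ (P : Subgroup G) ∧ χ x ≠ χ 1} {1}ᶜ (fun α => Cfsg.indFun (Subgroup.normalizer ((P : Subgroup G) : Set G)) α) := by
  obtain ⟨a, b, c⟩ := H3.tifn_bridge hTI hlt hC
  have d : (P : Subgroup G).subgroupOf (Subgroup.normalizer ((P : Subgroup G) : Set G)) ≠ ⊥ := fun e =>
    hP1 (by rwa [Subgroup.subgroupOf_eq_bot, disjoint_iff, inf_eq_left.2 hlt.le] at e)
  have e := H9.card_subgroupOf hlt.le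
  obtain ⟨k, hk⟩ := IsPGroup.iff_card.1 P.2
  refine (em (Nat.card (P : Subgroup G) = ((P : Subgroup G).subgroupOf (Subgroup.normalizer ((P : Subgroup G) : Set G))).index + 1)).imp
    (fun h => ?_) fun h => ?_
  · obtain ⟨q, f, g, g'⟩ := b.elem c d (e.trans h)
    obtain ⟨⟨x, x1⟩, x2⟩ := Subgroup.ne_bot_iff_exists_ne_one.1 hP1
    have m : ∀ x ∈ (P : Subgroup G), x ^ q = 1 := fun x u => congrArg Subtype.val (g' ⟨x, hlt.le u⟩ u)
    have := Fact.mk f
    obtain rfl := (Nat.prime_dvd_prime_iff_eq f Fact.out).1 (f.dvd_of_dvd_pow (hk ▸ (orderOf_eq_prime (m x x1)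
      (by simpa using x2)) ▸ H9.orderOf_dvd_card_of_mem x1))
    refine ⟨?_, ⟨⟨⟨fun x y => Subtype.ext ?_⟩⟩, m⟩, h⟩
    · rw [← b.card_SI d (e.trans h), b.SI_eq]; rfl
    · exact congrArg (fun z => (z.1 : G)) (g.is_comm.comm ⟨⟨x, hlt.le x.2⟩, x.2⟩ ⟨⟨y, hlt.le y.2⟩, y.2⟩)
  · exact b.SI_eq ▸ (H3.coh_odd (Subgroup.subtype_injective _) a b c (by
      rw [e, hk]; exact ((Fact.out : p.Prime).odd_of_ne_two hp).pow)).isCoherent le_rfl
        (fun α _ => H3.indH_subtype _ α) (b.exists_ne_zero c d (e ▸ h))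

end Cfsg.Agent.S1533
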