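import Cfsg.Statements.S1534
import Cfsg.Agent.H3.Tifn2
import Cfsg.Agent.H9.Rad

set_option autoImplicit false
open Cfsg

namespace Cfsg.Agent.S1534

/-- Let G be a finite group and K a nontrivial nilpotent subgroup whose underlying set is a TI-subset of G, properly contained in its set normaliser N, with C_G(k) ≤ K for every non-identity k ∈ K; let e be the index of K in N and S the set of irreducible characters χ of N with χ k ≠ χ 1 for some k ∈ K. Then one of: S has exactly one member, Nat.card K = e + 1 and K is an elementary abelian p-group for some prime p; or K is a Sylow 2-subgroup of G (Nat.card K is the largest power of 2 dividing Nat.card G) and [K : [K,K]] < 4e²; or (S, N minus 1, induction to G) is coherent. -/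
theorem result {G : Type*} [Group G] [Fintype G] (K : Subgroup G) (hK1 : K ≠ ⊥) (hnil : Group.IsNilpotent K) (hTI : Cfsg.IsTISubset (K : Set G)) (hlt : K < Subgroup.normalizer (K : Set G)) (hC : ∀ k ∈ K, k ≠ 1 → Subgroup.centralizer ({k} : Set G) ≤ K) [Fintype ↥(Subgroup.normalizer (K : Set G))] : (Nat.card {χ : ↥(Subgroup.normalizer (K : Set G)) → ℂ // Cfsg.IsIrrCharacter ↥(Subgroup.normalizer (K : Set G)) χ ∧ ∃ k : ↥(Subgroup.normalizer (K : Set G)), (k : G) ∈ K ∧ χ k ≠ χ 1} = 1 ∧ Nat.card K = (K.subgroupOf (Subgroup.normalizer (K : Set G))).index + 1 ∧ ∃ p : ℕ, p.Prime ∧ Cfsg.IsElementaryAbelian p K) ∨ (Nat.card K = 2 ^ (Nat.card G).factorization 2 ∧ (⁅K, K⁆.subgroupOf K).index < 4 * (K.subgroupOf (Subgroup.normalizer (K : Set G))).index ^ 2) ∨ Cfsg.IsCoherent {χ : ↥(Subgroup.normalizer (K : Set G)) → ℂ | Cfsg.IsIrrCharacter ↥(Subgroup.normalizer (K : Set G)) χ ∧ ∃ k : ↥(Subgroup.normalizer (K : Set G)), (k : G) ∈ K ∧ χ k ≠ χ 1}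 {1}ᶜ (fun α => Cfsg.indFun (Subgroup.normalizer (K : Set G)) α) := by
  obtain ⟨a, b, c⟩ := H3.tifn_bridge hTI hlt hC
  have d : K.subgroupOf (Subgroup.normalizer (K : Set G)) ≠ ⊥ := fun e =>
    hK1 (by rwa [Subgroup.subgroupOf_eq_bot, disjoint_iff, inf_eq_left.2 hlt.le] at e)
  have e := H9.card_subgroupOf hlt.le
  refine (em (Nat.card K = (K.subgroupOf (Subgroup.normalizer (K : Set G))).index + 1)).imp (fun h => ?_) fun h => ?_
  · obtain ⟨q, f, g, g'⟩ := b.elem c d (e.trans h)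
    refine ⟨?_, h, q, f, ⟨⟨fun x y => Subtype.ext ?_⟩⟩, fun x u => congrArg Subtype.val (g' ⟨x, hlt.le u⟩ u)⟩
    · rw [← b.card_SI d (e.trans h), b.SI_eq]; rfl
    · exact congrArg (fun z => (z.1 : G)) (g.is_comm.comm ⟨⟨x, hlt.le x.2⟩, x.2⟩ ⟨⟨y, hlt.le y.2⟩, y.2⟩)
  refine (em (H3.Coh (H3.SI _ _ ⊥) (H3.indH (Subgroup.subtype _)))).symm.imp (fun n => ?_) fun n =>
    b.SI_eq ▸ n.isCoherent le_rfl (fun α _ => H3.indH_subtype _ α) (b.exists_ne_zero c d (e ▸ h))
  obtain ⟨f, g, p, hp, k⟩ := H3.feit_frob b c ((a.isTau (Subgroup.subtype_injective _)).isoOn_SI (fun _ a b => ⟨a, b⟩)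
    fun _ a => a.1) n
  have := Fact.mk hp
  have k := k.of_equiv (Subgroup.subgroupOfEquivOfLe hlt.le)
  obtain ⟨m, hm⟩ := IsPGroup.iff_card.1 k
  have ev := (Nat.not_odd_iff_even.1 (mt (H3.coh_odd (Subgroup.subtype_injective _) a b c) n)).two_dvd
  obtain rfl := (Nat.prime_dvd_prime_iff_eq Nat.prime_two hp).1 (Nat.prime_two.dvd_of_dvd_pow (hm ▸ e ▸ ev))
  have o : ¬ 2 ∣ (K.subgroupOf (Subgroup.normalizer (K : Set G))).index := fun u => by
    simpa using Nat.eq_one_of_dvd_coprimes b.coprime u (by rwa [Subgroup.relIndex_bot_left])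
  rw [← H9.subgroupOf_commutator hlt.le hlt.le, Subgroup.relIndex_subgroupOf hlt.le] at g
  refine ⟨?_, ?_⟩
  · obtain ⟨P, hP⟩ := k.exists_le_sylow
    rw [← P.card_eq_multiplicity, (by_contra fun u => ?_ : K = P)]
    obtain ⟨x, ⟨x2, x1⟩, x3⟩ := SetLike.exists_of_lt (H9.lt_normalizer_of_nilpotent P.2.isNilpotent (hP.lt_of_ne u))
    obtain ⟨r, hr⟩ := P.2 ⟨x, x1⟩
    obtain ⟨t, ht⟩ := exists_pow_eq_self_of_coprime (x := x) (((Nat.prime_two.coprime_iff_not_dvd.2 o).symm.pow_right r).of_dvd_right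
      (orderOf_dvd_of_pow_eq_one (congrArg Subtype.val hr)))
    have : (K.subgroupOf (Subgroup.normalizer (K : Set G))).Normal := Subgroup.normal_in_normalizer
    exact x3 (ht ▸ K.pow_mem (Subgroup.pow_index_mem (K.subgroupOf (Subgroup.normalizer (K : Set G))) ⟨x, x2⟩) t)
  · obtain ⟨r, hr⟩ := k.index (⁅K, K⁆.subgroupOf K)
    have i := mt Subgroup.index_eq_one.1 c
    change ⁅K, K⁆.relIndex K = _ at hr
    change ⁅K, K⁆.relIndex K < _
    rw [hr] at g ⊢
    refine (Nat.lt_succ_iff.1 (g.lt_of_ne fun u => ?_)).lt_of_ne fun u => ?_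
    · rcases r with _ | r
      · simp [Subgroup.index_ne_zero_of_finite] at u
      · rw [pow_succ] at u; omega
    · obtain ⟨s, -, v⟩ := (Nat.dvd_prime_pow Nat.prime_two).1 (u ▸ (dvd_pow_self _ two_ne_zero).mul_left 4)
      exact o (v ▸ dvd_pow_self 2 fun w => i (by rw [v, w, pow_zero]))

end Cfsg.Agent.S1534
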