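import Cfsg.Statements.S1536
import Cfsg.Agent.H3.Cw

set_option autoImplicit false
open Cfsg

namespace Cfsg.Agent.S1536

open H3

/-- Let H be a normal subgroup of the finite group M whose order is coprime to its index. For x ∈ M: some non-principal irreducible character of H is unchanged under h ↦ θ(x h x⁻¹) if and only if some non-identity element of H commutes with x. -/
theorem result {M : Type*} [Group M] [Finite M] (H : Subgroup M) [hN : H.Normal] (hHall : Nat.Coprime (Nat.card H) H.index) (x : M) : (∃ θ : H → ℂ, Cfsg.IsIrrCharacter H θ ∧ θ ≠ (fun _ => 1) ∧ (fun h : H => θ ⟨x * h * x⁻¹, hN.conj_mem h h.2 x⟩) = θ) ↔ ∃ h ∈ H, h ≠ 1 ∧ x * h = h * x := by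
  constructor
  · rintro ⟨θ, a, b, c⟩
    by_contra! h
    refine not_mem_inertia_of_class H (g := x) (fun n hn m hm e => ?_) a b ((mem_inertia H).2 c)
    by_contra h1
    obtain ⟨y, hy, e'⟩ := frob_conj H (h := x) (fun k hk => hN.conj_mem k hk x)
      (fun k hk e => by_contra fun d => h k hk d e) (inv_mem hm)
    refine h _ (hN.conj_mem n hn y) (by simpa using h1) ?_
    calc _ = y * (y⁻¹ * x * y) * n * y⁻¹ := by group
      _ = y * m⁻¹ * (x * n * x⁻¹) * x * y⁻¹ := by rw [← e']; group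
      _ = y * n * (m⁻¹ * x) * y⁻¹ := by rw [e]; group
      _ = _ := by rw [e']; group
  · rintro ⟨h, a, b, c⟩
    have d := card_fixed_irr_eq (cjAut H x)
    have : Nontrivial {C : ConjClasses H // ConjClasses.map (cjAut H x).toMonoidHom C = C} :=
      ⟨⟨ConjClasses.mk 1, congrArg ConjClasses.mk (map_one _)⟩, ⟨ConjClasses.mk ⟨h, a⟩,
        congrArg ConjClasses.mk (Subtype.ext (mul_inv_eq_iff_eq_mul.2 c))⟩, fun e => b (by
        have := ConjClasses.mk_eq_mk_iff_isConj.1 (congrArg Subtype.val e)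
        simpa [Subtype.ext_iff, eq_comm] using this)⟩
    have := Finite.one_lt_card_iff_nontrivial.1 (d ▸ Finite.one_lt_card_iff_nontrivial.2 this)
    obtain ⟨θ, e⟩ := exists_ne (⟨⟨_, isIrr_one⟩, rfl⟩ :
      {χ : IrrCharacter H // χ.1 ∘ cjAut H x = χ.1})
    exact ⟨θ.1.1, θ.1.2, fun d => e (Subtype.ext (Subtype.ext d)), θ.2⟩

end Cfsg.Agent.S1536
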