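import Cfsg.Statements.S1546
import Cfsg.Agent.FT.F13a

set_option autoImplicit false
open Cfsg

namespace Cfsg.Agent.S1546

open scoped Pointwise


/-- Let p and q be odd primes and N = (p ^ q − 1) / (p − 1) = 1 + p + ⋯ + p^(q−1). Then N is odd; if p ≡ 1 (mod q) then q ∣ N; and if p is not ≡ 1 (mod q) then N is coprime to p − 1 and every divisor of N is ≡ 1 (mod q). -/
theorem result (p q : ℕ) (hp : p.Prime) (hq : q.Prime) (hp2 : p ≠ 2) (hq2 : q ≠ 2) : Odd ((p ^ q - 1) / (p - 1)) ∧ (p % q = 1 → q ∣ (p ^ q - 1) / (p - 1)) ∧ (p % q ≠ 1 → Nat.Coprime ((p ^ q - 1) / (p - 1)) (p - 1) ∧ ∀ x : ℕ, x ∣ (p ^ q - 1) / (p - 1) → x % q = 1) := by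
  exact ⟨FT.nU_odd hp.two_le (hp.odd_of_ne_two hp2) (hq.odd_of_ne_two hq2), FT.dvd_nU hp.two_le,
    fun h => ⟨FT.nU_coprime hp.two_le hq h, fun _ => FT.mod_of_dvd_nU hp.two_le hq h⟩⟩

end Cfsg.Agent.S1546
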