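import Cfsg.Statements.S1551
import Cfsg.Agent.H8.GH
-- import your own Cfsg.Agent.* helpers here

set_option autoImplicit false
set_option maxRecDepth 200000
open scoped Pointwise
open Cfsg

namespace Cfsg.Agent.S1551

/-- Structure of a sextet stabiliser: it induces every permutation of the six tetrads, the subgroup fixing each tetrad setwise has order 192, and there is a normal subgroup of order 64 consisting of elements squaring to the identity. -/
theorem result (S : Finset (Finset Cfsg.GolayPt)) (hS : S ∈ Cfsg.sextets) : (∀ e : Equiv.Perm ↥S, ∃ g ∈ MulAction.stabilizer Cfsg.M24 S, ∀ t : ↥S, (g : Equiv.Perm Cfsg.GolayPt) • (t : Finset Cfsg.GolayPt) = ((e t : ↥S) : Finset Cfsg.GolayPt)) ∧ Nat.card {g : ↥(MulAction.stabilizer Cfsg.M24 S) // ∀ t ∈ S, ((g : Cfsg.M24) : Equiv.Perm Cfsg.GolayPt) • t = t} = 192 ∧ ∃ N : Subgroup ↥(MulAction.stabilizer Cfsg.M24 S), N.Normal ∧ Nat.card N = 64 ∧ ∀ x ∈ N, x * x = 1 := by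
  obtain ⟨C, hC, rfl⟩ := H8.wS hS
  have e : MulAction.stabilizer M24 (H8.fam C H8.sx0) = H8.SM M24 C [] [] [H8.sx0] := Subgroup.ext fun g => by simp [H8.mem_SM]
  have e' : ∀ g : M24, (∀ t ∈ H8.fam C H8.sx0, g • t = t) ↔ g ∈ H8.SM M24 C [] H8.sx0 [] := fun g => by
    rw [H8.forall_fam, H8.mem_SM]; simp only [List.not_mem_nil, false_imp_iff, implies_true, true_and, and_true]
  have le : ∀ g ∈ H8.SM M24 C [] H8.sx0 [], g ∈ MulAction.stabilizer M24 (H8.fam C H8.sx0) := fun g hg =>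
    (Finset.image_congr ((e' g).2 hg)).trans Finset.image_id
  refine ⟨H8.ind_all _ _ (H8.SM M24 C [] H8.sx0 []) (fun g h => h) (fun g => by rw [e', and_iff_right_of_imp (le g)])
    (by rw [hS.1, e, H8.GH.skcard hC, H8.GH.sxcard hC]; rfl), (H8.card_sub2 _ le fun g => e' g).trans (H8.GH.skcard hC), ?_⟩
  rw [e]
  obtain ⟨N, h1, h2, h3⟩ := H8.GH.sxa hC
  exact ⟨N, h1, h2, fun x hx => pow_two x ▸ congrArg Subtype.val (h3 ⟨x, hx⟩)⟩

end Cfsg.Agent.S1551
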