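import Cfsg.Statements.S1553
import Cfsg.Agent.H8.GE
-- import your own Cfsg.Agent.* helpers here

set_option autoImplicit false
set_option maxRecDepth 200000
open scoped Pointwise
open Cfsg

namespace Cfsg.Agent.S1553

/-- The stabiliser of an octad in the group of the length-24 code induces on the octad exactly its alternating group. -/
theorem result (o : Finset Cfsg.GolayPt) (ho : o ∈ Cfsg.octads) : {e : Equiv.Perm ↥o | ∃ g : Equiv.Perm Cfsg.GolayPt, g ∈ Cfsg.M24 ∧ ∃ h : (∀ x, g x ∈ o ↔ x ∈ o), g.subtypePerm h = e} = (alternatingGroup ↥o : Set (Equiv.Perm ↥o)) := by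
  obtain ⟨C, hC, rfl⟩ := H8.wO ho
  obtain ⟨ρ, h1, h2⟩ := H8.exists_ind (C.fs 5279) (H8.SM M24 C [] [5279] []) (H8.SM M24 C [0, 1, 2, 3, 4, 7, 10, 12] [] [])
    (fun g hg => hg.2.1 _ (by simp)) fun g => by
      rw [← H8.fixS_iff hC.n (a := 5279) (by decide)]
      refine (and_iff_right_of_imp fun h => ?_).symm
      simp only [H8.mem_SM, List.not_mem_nil, false_imp_iff, implies_true, List.mem_singleton, forall_eq, true_and, and_true]
      exact (Finset.image_congr h).trans Finset.image_id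
  rw [H8.GE.focard hC, H8.GE.socard hC] at h2
  have h3 := ρ.range.card_mul_index
  rw [Nat.card_perm, Nat.card_eq_fintype_card (α := C.fs 5279), Fintype.card_coe, ho.2, show Nat.card ρ.range = 20160 by omega] at h3
  rw [← Equiv.Perm.eq_alternatingGroup_of_index_eq_two (G := ρ.range) (by norm_num [Nat.factorial] at h3; omega)]
  ext e
  refine ⟨fun ⟨g, hg, h, e⟩ => ⟨⟨⟨g, hg⟩, by simp, ?_, by simp⟩, .trans (Equiv.ext fun t => Subtype.ext (h1 _ t)) e⟩, fun ⟨g, e⟩ =>
    ⟨g.1, g.1.2, fun x => ?_, .trans (Equiv.ext fun t => Subtype.ext (h1 _ t).symm) e⟩⟩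
  · simp only [List.mem_singleton, forall_eq]
    refine Finset.eq_of_subset_of_card_le (fun x hx => ?_) (by rw [Finset.card_smul_finset])
    obtain ⟨y, hy, rfl⟩ := Finset.mem_smul_finset.1 hx
    exact (h y).2 hy
  · conv_lhs => rw [← g.2.2.1 5279 (by simp)]
    exact Finset.smul_mem_smul_finset_iff g.1

end Cfsg.Agent.S1553
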