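import Cfsg.Statements.S1554
import Cfsg.Agent.H8.GE
-- import your own Cfsg.Agent.* helpers here

set_option autoImplicit false
set_option maxRecDepth 200000
open scoped Pointwise
open Cfsg

namespace Cfsg.Agent.S1554

/-- An octad stabiliser is a split extension: the joint stabiliser of the octad and a point outside it is a complement to the pointwise stabiliser of the octad, and is isomorphic to the alternating group of degree 8. -/
theorem result (o : Finset Cfsg.GolayPt) (ho : o ∈ Cfsg.octads) (p : Cfsg.GolayPt) (hp : p ∉ o) : (Cfsg.M24 ⊓ fixingSubgroup (Equiv.Perm Cfsg.GolayPt) (o : Set Cfsg.GolayPt)) ⊓ (Cfsg.M24 ⊓ MulAction.stabilizer (Equiv.Perm Cfsg.GolayPt) o ⊓ MulAction.stabilizer (Equiv.Perm Cfsg.GolayPt) p) = ⊥ ∧ (Cfsg.M24 ⊓ fixingSubgroup (Equiv.Perm Cfsg.GolayPt) (o : Set Cfsg.GolayPt)) ⊔ (Cfsg.M24 ⊓ MulAction.stabilizer (Equiv.Perm Cfsg.GolayPt) o ⊓ MulAction.stabilizer (Equiv.Perm Cfsg.GolayPt)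 p) = (Cfsg.M24 ⊓ MulAction.stabilizer (Equiv.Perm Cfsg.GolayPt) o) ∧ Nonempty (↥(Cfsg.M24 ⊓ MulAction.stabilizer (Equiv.Perm Cfsg.GolayPt) o ⊓ MulAction.stabilizer (Equiv.Perm Cfsg.GolayPt) p) ≃* alternatingGroup (Fin 8)) := by
  obtain ⟨C, hC, rfl⟩ := H8.wO ho
  obtain ⟨C', ⟨hC', -, e, -⟩, _ | ⟨rfl, -⟩⟩ := hC.wlP H8.GE.owe H8.GE.owp (xs := [p]) (.cons ((H8.compl_fs hC.n (by decide) p).2 hp) .nil) (by simp)
  rw [← e 5279 (by simp)]
  clear e hp ho hC C
  rename' C' => C, hC' => hC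
  have e1 : (M24 ⊓ fixingSubgroup (Equiv.Perm GolayPt) (C.fs 5279 : Set GolayPt)).subgroupOf M24 = H8.SM M24 C [0, 1, 2, 3, 4, 7, 10, 12] [] [] :=
    Subgroup.ext fun g => (and_iff_right g.2).trans ((mem_fixingSubgroup_iff _).trans (H8.fixS_iff hC.n (by decide)))
  have e2 : (M24 ⊓ MulAction.stabilizer (Equiv.Perm GolayPt) (C.fs 5279) ⊓ MulAction.stabilizer (Equiv.Perm GolayPt) (C.dec 5)).subgroupOf M24 =
      H8.SM M24 C [5] [5279] [] := Subgroup.ext fun g => by simp [H8.mem_SM, Subgroup.mem_subgroupOf]; exact and_comm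
  have e3 : (M24 ⊓ MulAction.stabilizer (Equiv.Perm GolayPt) (C.fs 5279)).subgroupOf M24 = H8.SM M24 C [] [5279] [] :=
    Subgroup.ext fun g => by simp [H8.mem_SM, Subgroup.mem_subgroupOf]; rfl
  have h : (M24 ⊓ fixingSubgroup (Equiv.Perm GolayPt) (C.fs 5279 : Set GolayPt)) ⊓ (M24 ⊓ MulAction.stabilizer (Equiv.Perm GolayPt) (C.fs 5279) ⊓
      MulAction.stabilizer (Equiv.Perm GolayPt) (C.dec 5)) = ⊥ := eq_bot_iff.2 fun g hg =>
    congrArg Subtype.val (H8.eq_one_of_base (g := (⟨g, hg.1.1⟩ : M24)) hC.n (hC.ch H8.GE.m0c).base (a := 5279 ||| H7.bit 5) (by decide +kernel) fun p hp => by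
      rw [C.fs_or, C.fs_bit (hC.n ▸ by norm_num), Finset.mem_union, Finset.mem_singleton] at hp
      exact hp.elim ((mem_fixingSubgroup_iff _).1 hg.1.2 p) fun e => e ▸ hg.2.2)
  refine ⟨h, H8.sup_eq_of_card (inf_le_inf_left _ fun g hg => ?_) inf_le_left h ?_, H8.iso_up (inf_le_left.trans inf_le_left) e2 (H8.GE.opi hC)⟩
  · exact (Finset.image_congr ((mem_fixingSubgroup_iff _).1 hg)).trans Finset.image_id
  · rw [H8.card_up inf_le_left e1, H8.card_up (inf_le_left.trans inf_le_left) e2, H8.card_up inf_le_left e3, H8.GE.focard hC, H8.GE.opcard hC, H8.GE.socard hC]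

end Cfsg.Agent.S1554
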