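import Cfsg.Statements.S1555
import Cfsg.Agent.H8.Stn3
-- import your own Cfsg.Agent.* helpers here

set_option autoImplicit false
set_option maxRecDepth 200000
open scoped Pointwise
open Cfsg

namespace Cfsg.Agent.S1555

/-- Bottom row of the Leech triangle: an octad is met in a prescribed pair of its points by exactly 16 octads and in a prescribed 4-subset by exactly 4 octads. -/
theorem result (o : Finset Cfsg.GolayPt) (ho : o ∈ Cfsg.octads) (s : Finset Cfsg.GolayPt) (hs : s ⊆ o) : (s.card = 2 → {o' : Finset Cfsg.GolayPt | o' ∈ Cfsg.octads ∧ o ∩ o' = s}.ncard = 16) ∧ (s.card = 4 → {o' : Finset Cfsg.GolayPt | o' ∈ Cfsg.octads ∧ o ∩ o' = s}.ncard = 4) := by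
  obtain ⟨g, rfl⟩ := H7.octad_trans H7.oct0_mem ho
  have hC := H8.GC.std.tw g
  rw [← H8.tw_fs] at hs ⊢
  generalize H8.twist H7.gC g = C at hC hs
  have h1 := H8.allL_iff.1 (show (H8.allL [(2, 16), (4, 4)] fun q =>
      H8.enS 5279 (fun Y => Nat.beq (H8.cntL H8.StB.oL fun a => Nat.beq (5279 &&& a) Y) q.2) 24 q.1 0) = true by decide +kernel)
  have key : ∀ q ∈ [(2, 16), (4, 4)], s.card = q.1 → {c | c ∈ octads ∧ C.fs 5279 ∩ c = s}.ncard = q.2 := by
    intro q hq h
    obtain ⟨Y, h2, rfl, h3⟩ := H8.enS_fs hC.n (h1 q hq) hs h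
    rw [← Nat.eq_of_beq_eq_true h3, ← hC.blk]
    exact H8.ncard_blkP hC.n H8.StC.om _ (fun _ h => h.1) fun a ha h => by
      simp [← C.fs_and, H8.fs_eq hC.n (Nat.and_lt_two_pow _ h) h2, H8.fs_mem_blk hC.n H8.StC.om h, ha]
  exact ⟨key (2, 16) (by simp), key (4, 4) (by simp)⟩

end Cfsg.Agent.S1555
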