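import Cfsg.Statements.S1558
import Cfsg.Agent.H8.GH
-- import your own Cfsg.Agent.* helpers here

set_option autoImplicit false
set_option maxRecDepth 200000
open scoped Pointwise
open Cfsg

namespace Cfsg.Agent.S1558

/-- Structure of a trio stabiliser: every permutation of the three octads is induced, and there is a normal subgroup of order 64 of elements squaring to the identity whose quotient is isomorphic to the product of GL(3, 2) with the symmetric group of degree 3. -/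
theorem result (T : Finset (Finset Cfsg.GolayPt)) (hT : T ∈ Cfsg.trios) : (∀ e : Equiv.Perm ↥T, ∃ g ∈ MulAction.stabilizer Cfsg.M24 T, ∀ o : ↥T, (g : Equiv.Perm Cfsg.GolayPt) • (o : Finset Cfsg.GolayPt) = ((e o : ↥T) : Finset Cfsg.GolayPt)) ∧ ∃ (N : Subgroup ↥(MulAction.stabilizer Cfsg.M24 T)) (_ : N.Normal), Nat.card N = 64 ∧ (∀ x ∈ N, x * x = 1) ∧ Nonempty (↥(MulAction.stabilizer Cfsg.M24 T) ⧸ N ≃* GL (Fin 3) (ZMod 2) × Equiv.Perm (Fin 3)) := by
  obtain ⟨C, hC, rfl⟩ := H8.wT hT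
  have e : MulAction.stabilizer M24 (H8.fam C H8.tr0) = H8.SM M24 C [] [] [H8.tr0] := Subgroup.ext fun g => by simp [H8.mem_SM]
  have e' : ∀ g : M24, (∀ t ∈ H8.fam C H8.tr0, g • t = t) ↔ g ∈ H8.SM M24 C [] H8.tr0 [] := fun g => by
    rw [H8.forall_fam, H8.mem_SM]; simp only [List.not_mem_nil, false_imp_iff, implies_true, true_and, and_true]
  have le : ∀ g ∈ H8.SM M24 C [] H8.tr0 [], g ∈ MulAction.stabilizer M24 (H8.fam C H8.tr0) := fun g hg =>
    (Finset.image_congr ((e' g).2 hg)).trans Finset.image_id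
  refine ⟨H8.ind_all _ _ (H8.SM M24 C [] H8.tr0 []) (fun g h => h) (fun g => by rw [e', and_iff_right_of_imp (le g)])
    (by rw [hT.1, e, H8.GH.tkcard hC, H8.GH.trcard hC]; rfl), ?_⟩
  rw [e]
  obtain ⟨φ, h1, h2, h3⟩ := H8.GH.tra hC
  exact ⟨φ.ker, inferInstance, h2, fun x hx => pow_two x ▸ congrArg Subtype.val (h3 ⟨x, hx⟩), ⟨QuotientGroup.quotientKerEquivOfSurjective φ h1⟩⟩

end Cfsg.Agent.S1558
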