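import Cfsg.Statements.S1560
import Cfsg.Agent.H7.M24Cnt

set_option autoImplicit false
open scoped Pointwise
open Cfsg

namespace Cfsg.Agent.S1560

open scoped Pointwise
open H7

/-- Intersection numbers of dodecads: a dodecad meets every other dodecad in 0, 4, 6 or 8 points, meeting 495 of them in 4 points, 1584 in 6 points and 495 in 8 points. -/
theorem result (d : Finset Cfsg.GolayPt) (hd : d ∈ Cfsg.dodecads) : (∀ d' ∈ Cfsg.dodecads, d' ≠ d → (d ∩ d').card = 0 ∨ (d ∩ d').card = 4 ∨ (d ∩ d').card = 6 ∨ (d ∩ d').card = 8) ∧ {d' : Finset Cfsg.GolayPt | d' ∈ Cfsg.dodecads ∧ (d ∩ d').card = 4}.ncard = 495 ∧ {d' : Finset Cfsg.GolayPt | d' ∈ Cfsg.dodecads ∧ (d ∩ d').card = 6}.ncard = 1584 ∧ {d' : Finset Cfsg.GolayPt | d' ∈ Cfsg.dodecads ∧ (d ∩ d').card = 8}.ncard = 495 := by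
  obtain ⟨k, rfl⟩ := exists_smul_dod hd
  refine ⟨fun d' hd' hne => ?_, ?_, ?_, ?_⟩
  · obtain ⟨d', rfl⟩ := MulAction.surjective k d'
    rw [card_inter_smul]
    rw [smul_mem_dodecads_iff] at hd'
    refine all_supp (P := fun d' => d'.card = 12 → d' ≠ fs 340831 → (fs 340831 ∩ d').card = 0 ∨ (fs 340831 ∩ d').card = 4 ∨
      (fs 340831 ∩ d').card = 6 ∨ (fs 340831 ∩ d').card = 8) (fun m => pc24 m = 12 → m ≠ 340831 → pc24 (340831 &&& m) = 0 ∨
      pc24 (340831 &&& m) = 4 ∨ pc24 (340831 &&& m) = 6 ∨ pc24 (340831 &&& m) = 8) (by decide +kernel)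
      (fun m _ h h1 h2 => ?_) d' hd'.1 hd'.2 fun e => hne (e ▸ rfl)
    rw [card_inter_fs]; exact h (card_fs m ▸ h1) fun e => h2 (e ▸ rfl)
  · rw [ncard_smul_pred k (Q := fun x => x ∈ dodecads ∧ (fs 340831 ∩ x).card = 4) (by simp [card_inter_smul, Finset.smul_mem_smul_finset_iff]),
      cnt_supp (fun m => pc24 m = 12 ∧ pc24 (340831 &&& m) = 4) (fun _ h => h.1.1) (fun m _ h => by
        simp only [Set.mem_setOf_eq, dod_iff h, card_inter_fs, pt23_mem, pt0_mem, and_assoc])]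
    decide +kernel
  · rw [ncard_smul_pred k (Q := fun x => x ∈ dodecads ∧ (fs 340831 ∩ x).card = 6) (by simp [card_inter_smul, Finset.smul_mem_smul_finset_iff]),
      cnt_supp (fun m => pc24 m = 12 ∧ pc24 (340831 &&& m) = 6) (fun _ h => h.1.1) (fun m _ h => by
        simp only [Set.mem_setOf_eq, dod_iff h, card_inter_fs, pt23_mem, pt0_mem, and_assoc])]
    decide +kernel
  · rw [ncard_smul_pred k (Q := fun x => x ∈ dodecads ∧ (fs 340831 ∩ x).card = 8) (by simp [card_inter_smul, Finset.smul_mem_smul_finset_iff]),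
      cnt_supp (fun m => pc24 m = 12 ∧ pc24 (340831 &&& m) = 8) (fun _ h => h.1.1) (fun m _ h => by
        simp only [Set.mem_setOf_eq, dod_iff h, card_inter_fs, pt23_mem, pt0_mem, and_assoc])]
    decide +kernel

end Cfsg.Agent.S1560
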