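import Cfsg.Statements.S1561
import Cfsg.Agent.H7.M24Cnt

set_option autoImplicit false
open scoped Pointwise
open Cfsg

namespace Cfsg.Agent.S1561

open scoped Pointwise
open H7

/-- Two dodecads meeting a fixed dodecad in equally many points lie in one orbit of its stabiliser. -/
theorem result (d d' d'' : Finset Cfsg.GolayPt) (hd : d ∈ Cfsg.dodecads) (hd' : d' ∈ Cfsg.dodecads) (hd'' : d'' ∈ Cfsg.dodecads) (h : (d ∩ d').card = (d ∩ d'').card) : ∃ g : Equiv.Perm Cfsg.GolayPt, g ∈ Cfsg.M24 ∧ g • d = d ∧ g • d' = d'' := by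
  obtain ⟨k, rfl⟩ := exists_smul_dod hd
  obtain ⟨d', rfl⟩ := MulAction.surjective k d'
  obtain ⟨d'', rfl⟩ := MulAction.surjective k d''
  rw [card_inter_smul, card_inter_smul] at h
  obtain ⟨a, ha, rfl⟩ := exists_fs d'
  obtain ⟨b, hb, rfl⟩ := exists_fs d''
  obtain ⟨g, h1, h2⟩ := orbSet SDod_ev SDod_dec dodecads_eq [340831] [[2], [3, 3, 1, 0, 1, 4, 0]]
    (by decide +kernel) (fun m => True) (fun m => pc24 (340831 &&& m)) 10 [(0, 2552), (4, 213), (6, 1), (8, 0), (12, 23)] (by decide +kernel)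
    ha hb (by simpa using hd') (by simpa using hd'') trivial trivial (by simpa only [card_inter_fs] using h)
  exact ⟨_, (k * g * k⁻¹).2, conj_fix k (h1 _ (by simp)), conj_fix k h2⟩

end Cfsg.Agent.S1561
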