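import Cfsg.Statements.S1562
import Cfsg.Agent.H8.GE
-- import your own Cfsg.Agent.* helpers here

set_option autoImplicit false
set_option maxRecDepth 200000
open scoped Pointwise
open Cfsg

namespace Cfsg.Agent.S1562

/-- Orbits of a triad stabiliser on the triads disjoint from it: the 210 triads inside a common octad with it form one orbit and the remaining 1120 another. -/
theorem result (T : Finset Cfsg.GolayPt) (hT : T.card = 3) : {U : Finset Cfsg.GolayPt | U.card = 3 ∧ Disjoint T U ∧ (∃ o ∈ Cfsg.octads, T ∪ U ⊆ o)}.ncard = 210 ∧ {U : Finset Cfsg.GolayPt | U.card = 3 ∧ Disjoint T U ∧ ¬ (∃ o ∈ Cfsg.octads, T ∪ U ⊆ o)}.ncard = 1120 ∧ ∀ U U' : Finset Cfsg.GolayPt, U.card = 3 → U'.card = 3 → Disjoint T U → Disjoint T U' → ((∃ o ∈ Cfsg.octads, T ∪ U ⊆ o) ↔ (∃ o ∈ Cfsg.octads, T ∪ U' ⊆ o)) → ∃ g : Equiv.Perm Cfsg.GolayPt, g ∈ Cfsg.M24 ∧ g • T = T ∧ g • U = U' := by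
  obtain ⟨C, hC, rfl⟩ := H8.wSet (s := T) 7 (by rw [hT]; decide +kernel) (by omega)
  have d : ∀ U, Disjoint (C.fs 7) U ↔ U ⊆ C.fs 16777208 := fun U => by
    simp only [Finset.subset_iff, H8.compl_fs hC.n (a := 7) (b := 16777208) (by decide), Finset.disjoint_right]
  have i : ∀ Y < 2 ^ 24, (∃ o ∈ octads, C.fs 7 ∪ C.fs Y ⊆ o) ↔ _ := fun Y hY => by
    rw [← C.fs_or, hC.inO (Nat.or_lt_two_pow (by norm_num) hY)]
  refine ⟨(H8.ncard_cnS hC.n 16777208 3 (fun Y => H8.frc (Nat.lor 7 Y) fun Z => H8.anyL H8.StB.oL fun b => Nat.beq (Nat.land b Z) Z)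
      fun Y hY => by rw [Set.mem_setOf_eq, d, i Y hY, H8.frc_eq]; rfl).trans (by decide +kernel),
    (H8.ncard_cnS hC.n 16777208 3 (fun Y => H8.frc (Nat.lor 7 Y) fun Z => H8.bnot (H8.anyL H8.StB.oL fun b => Nat.beq (Nat.land b Z) Z))
      fun Y hY => by rw [Set.mem_setOf_eq, d, i Y hY, H8.frc_eq, H8.bnot_eq_true]; rfl).trans (by decide +kernel),
    fun U U' h1 h2 h3 h4 h5 => ?_⟩
  obtain ⟨Y, hY, rfl, a⟩ := H8.enS_fs hC.n H8.GE.y3c ((d _).1 h3) h1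
  obtain ⟨Z, hZ, rfl, b⟩ := H8.enS_fs hC.n H8.GE.y3c ((d _).1 h4) h2
  rw [i Y hY, i Z hZ, ← Bool.eq_iff_iff] at h5
  rw [H8.frc_eq] at a b
  have a := H8.orbW hC.n (hC.sm H8.GE.y3e) a
  have b := H8.orbW hC.n (hC.sm H8.GE.y3e) b
  obtain ⟨g, hg⟩ := H8.orb2 a (by erw [h5]; exact b)
  exact ⟨g.1, g.1.2, g.2.2.1 7 (by simp), hg⟩

end Cfsg.Agent.S1562
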