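import Cfsg.Statements.S1563
import Cfsg.Agent.H7.M24Orb

set_option autoImplicit false
open scoped Pointwise
open Cfsg

namespace Cfsg.Agent.S1563

open scoped Pointwise
theorem max0 : IsCoatom (MulAction.stabilizer M24 (H7.SDuad.dec 0)) :=
  H7.Sys.isCoatom_stabilizer (S := H7.SDuad) (hs := [[1, 3, 2, 0, 1], [4, 0, 1, 2, 2, 0]]) (c := [(231, 5, [0]), (275, 8, [1])])
    (by decide +kernel) (fun g => H7.SDuad.exists_dec H7.closure_S0 g (by decide)) (by
      by_contra hc
      push Not at hc
      have h := H7.SDuad_card
      rw [show MulAction.stabilizer M24 (H7.SDuad.dec 0) = ⊤ from eq_top_iff.2 fun g _ => hc g,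
        Subgroup.card_top, H7.card_M24] at h
      omega)

/-- The stabiliser of a pair of points (setwise) is a maximal proper subgroup of the group of the length-24 code. -/
theorem result (s : Finset Cfsg.GolayPt) (hs : s.card = 2) : IsCoatom (MulAction.stabilizer Cfsg.M24 s) := by
  have : s ∈ {s : Finset GolayPt | s.card = 2} := hs
  rw [H7.duads_eq, H7.SDuad_orbit] at this
  obtain ⟨g, rfl⟩ := this
  exact H7.isCoatom_stabilizer_smul max0 g

end Cfsg.Agent.S1563
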