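import Cfsg.Statements.S1565
import Cfsg.Agent.H7.M24Orb

set_option autoImplicit false
open scoped Pointwise
open Cfsg

namespace Cfsg.Agent.S1565

open scoped Pointwise
theorem max0 : IsCoatom (MulAction.stabilizer M24 (H7.SOct.dec 0)) :=
  H7.Sys.isCoatom_stabilizer (S := H7.SOct) (hs := [[4, 0, 0, 2, 2], [1, 0, 0, 1, 2]]) (c := [(330, 8, [0]), (713, 8, [0, 1]), (746, 6, [1])])
    (by decide +kernel) (fun g => H7.SOct.exists_dec H7.closure_S0 g (by decide)) (by
      by_contra hc
      push Not at hc
      have h := H7.SOct_card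
      rw [show MulAction.stabilizer M24 (H7.SOct.dec 0) = ⊤ from eq_top_iff.2 fun g _ => hc g,
        Subgroup.card_top, H7.card_M24] at h
      omega)

/-- The stabiliser of an octad is a maximal proper subgroup of the group of the length-24 code. -/
theorem result (o : Finset Cfsg.GolayPt) (ho : o ∈ Cfsg.octads) : IsCoatom (MulAction.stabilizer Cfsg.M24 o) := by
  rw [H7.octads_eq, H7.SOct_orbit] at ho
  obtain ⟨g, rfl⟩ := ho
  exact H7.isCoatom_stabilizer_smul max0 g

end Cfsg.Agent.S1565
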