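import Cfsg.Statements.S1566
import Cfsg.Agent.H7.M24Orb

set_option autoImplicit false
open scoped Pointwise
open Cfsg

namespace Cfsg.Agent.S1566

open scoped Pointwise
theorem max0 : IsCoatom (MulAction.stabilizer M24 (H7.SPair.dec 23)) :=
  H7.Sys.isCoatom_stabilizer (S := H7.SPair) (hs := [[1], [2], [3, 3, 1, 0, 1, 4, 0]]) (c := [(656, 6, [0, 2, 0]), (631, 6, [0])])
    (by decide +kernel) (fun g => H7.SPair.exists_dec H7.closure_S0 g (by decide)) (by
      by_contra hc
      push Not at hc
      have h := H7.SPair_card
      rw [show MulAction.stabilizer M24 (H7.SPair.dec 23) = ⊤ from eq_top_iff.2 fun g _ => hc g,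
        Subgroup.card_top, H7.card_M24] at h
      omega)

/-- The setwise stabiliser of a dodecad together with its complement is a maximal proper subgroup of the group of the length-24 code. -/
theorem result (d : Finset Cfsg.GolayPt) (hd : d ∈ Cfsg.dodecads) : IsCoatom (MulAction.stabilizer Cfsg.M24 ({d, dᶜ} : Finset (Finset Cfsg.GolayPt))) := by
  obtain ⟨g, rfl⟩ := H7.exists_smul_dod hd
  have := H7.isCoatom_stabilizer_smul max0 g
  rwa [H7.pair0_eq, Finset.smul_finset_insert, Finset.smul_finset_singleton, H7.smul_compl'] at this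

end Cfsg.Agent.S1566
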