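import Cfsg.Statements.S1567
import Cfsg.Agent.H8.Leech
-- import your own Cfsg.Agent.* helpers here

set_option autoImplicit false
open Cfsg

namespace Cfsg.Agent.S1567

/-- The rank-24 lattice is the additive subgroup generated by its 196560 minimal vectors. -/
theorem result : AddSubgroup.closure {x : Cfsg.GolayPt → ℤ | x ∈ Cfsg.leechLattice ∧ Cfsg.sqNorm x = 32} = Cfsg.leechLattice := by
  refine le_antisymm ((AddSubgroup.closure_le _).2 fun x hx => hx.1) (H8.Le.tri_bas.le _ fun r hr => ?_)
  have a : ∀ r < 23, sqNorm (H8.Le.bas r) = 32 := by decide +kernel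
  by_cases h : r < 23
  · exact AddSubgroup.subset_closure ⟨H8.Le.tri_bas.mem r hr, a r h⟩
  · obtain rfl : r = 23 := by omega
    rw [show H8.Le.bas 23 = Spor.vecU + Spor.vecU' by decide +kernel]
    exact AddSubgroup.add_mem _ (AddSubgroup.subset_closure ⟨Spor.leechU.2, by decide +kernel⟩)
      (AddSubgroup.subset_closure ⟨Spor.leechU'.2, by decide +kernel⟩)

end Cfsg.Agent.S1567
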