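import Cfsg.Statements.S1568
import Cfsg.Agent.H8.LeCnt
-- import your own Cfsg.Agent.* helpers here

set_option autoImplicit false
open Cfsg

namespace Cfsg.Agent.S1568

/-- Shape census of the lattice vectors of sum of squares 48 (customary norm 6): the four families (2^12, 0^12), (±3^3, ±1^21), (±4, ±2^8, 0^15) and (±5, ±1^23) have 5275648, 8290304, 3108864 and 98304 members. -/
theorem result : {x : Cfsg.GolayPt → ℤ | x ∈ Cfsg.leechLattice ∧ Cfsg.sqNorm x = 48 ∧ ∀ i, x i = 0 ∨ x i = 2 ∨ x i = -2}.ncard = 5275648 ∧ {x : Cfsg.GolayPt → ℤ | x ∈ Cfsg.leechLattice ∧ Cfsg.sqNorm x = 48 ∧ ∃ i j k, i ≠ j ∧ j ≠ k ∧ i ≠ k ∧ |x i| = 3 ∧ |x j| = 3 ∧ |x k| = 3}.ncard = 8290304 ∧ {x : Cfsg.GolayPt → ℤ | x ∈ Cfsg.leechLattice ∧ Cfsg.sqNorm x = 48 ∧ ∃ i, |x i| = 4}.ncard = 3108864 ∧ {x : Cfsg.GolayPt → ℤ | x ∈ Cfsg.leechLattice ∧ Cfsg.sqNorm x = 48 ∧ ∃ i, |x i| = 5}.ncard = 98304 := by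
  have key : ∀ k : ℕ, k ≤ 6 → {x : GolayPt → ℤ | x ∈ leechLattice ∧ sqNorm x = 48 ∧ ∃ i, |x i| = k}.ncard = 16773120 -
      H8.Le.cntL (fun d => H8.band (Nat.ble 2 d && Nat.ble d 14) (d != 8 + k && d != 8 - k)) 48 fun _ _ _ => true := by
    intro k hk
    rw [← H8.Le.count, ← H8.Le.n6, ← Set.ncard_diff (by exact fun x hx => ⟨hx.1, hx.2.1⟩)
      (by exact (H8.Le.finite_norm 48).subset fun x hx => le_of_eq hx.2.1)]
    congr 1
    ext x
    simp only [Set.mem_setOf_eq, Set.mem_diff, H8.band_eq_true, Bool.and_eq_true, Nat.ble_eq, bne_iff_ne, and_true,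
      Nat.cast_ofNat]
    refine ⟨fun ⟨a, b, i, hi⟩ => ⟨⟨a, b⟩, fun h => ?_⟩, fun ⟨⟨a, b⟩, h⟩ => ⟨a, b, ?_⟩⟩
    · obtain ⟨d, -, h1, h2⟩ := h.2.2 i
      rcases abs_cases (x i) with h | h <;> omega
    · by_contra hn
      refine h ⟨a, b, fun i => ⟨(x i + 8).toNat, ?_⟩⟩
      have c := abs_lt.1 (abs_lt_of_sq_lt_sq (b := 7) ((H8.Le.sq_le_norm x i).trans_lt (by rw [b]; norm_num))
        (by norm_num))
      have : |x i| ≠ k := fun h => hn ⟨i, h⟩
      rcases abs_cases (x i) with h | h <;> omega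
  refine ⟨?_, ?_, (key 4 (by norm_num)).trans (by decide +kernel), (key 5 (by norm_num)).trans (by decide +kernel)⟩
  · refine Eq.trans ?_ ((H8.Le.count (fun d => d == 6 || d == 8 || d == 10) 48 fun _ _ _ => true).trans
      (by decide +kernel))
    congr 1
    ext x
    simp only [Set.mem_setOf_eq, Bool.or_eq_true, beq_iff_eq, and_true, Nat.cast_ofNat]
    refine and_congr_right fun _ => and_congr_right fun _ => forall_congr' fun i => ⟨fun h => ⟨(x i + 8).toNat, by omega⟩, ?_⟩
    rintro ⟨d, h⟩; omega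
  · refine Eq.trans ?_ ((H8.Le.count (fun d => d == 5 || d == 7 || d == 9 || d == 11) 48 fun _ _ _ => true).trans
      (by decide +kernel))
    congr 1
    ext x
    simp only [Set.mem_setOf_eq, Bool.or_eq_true, beq_iff_eq, and_true, Nat.cast_ofNat]
    refine and_congr_right fun hx => and_congr_right fun hn => ?_
    have hs : ∑ i, (x i ^ 2 - 1) = 24 := by
      rw [Finset.sum_sub_distrib, Finset.sum_const, H8.Le.card_pt']; unfold sqNorm at hn; rw [hn]; rfl
    constructor
    · rintro ⟨i, j, k, a, b, c, hi, hj, hk⟩ l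
      obtain ⟨m, hm, c', -, h1, -⟩ := H8.Le.mem_iff'.1 hx
      have odd : ∀ l, x l % 2 = 1 := fun l => by
        have := h1 l
        have := h1 i
        rcases abs_cases (x i) with h | h <;> split_ifs at * <;> omega
      have h2 := Finset.sum_le_sum_of_subset_of_nonneg (f := fun i => x i ^ 2 - 1)
        (Finset.subset_univ (insert l {i, j, k})) fun l _ _ => by
          have := odd l
          rcases (show x l ≤ -1 ∨ 1 ≤ x l by omega) with h | h <;> nlinarith
      refine ⟨(x l + 8).toNat, ?_⟩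
      by_cases hl : l ∈ ({i, j, k} : Finset GolayPt)
      · have : |x l| = 3 := by
          simp only [Finset.mem_insert, Finset.mem_singleton] at hl
          rcases hl with rfl | rfl | rfl <;> assumption
        rcases abs_cases (x l) with h | h <;> omega
      · rw [Finset.sum_insert hl, Finset.sum_insert (by simp [a, c]), Finset.sum_pair b, hs, ← sq_abs (x i),
          ← sq_abs (x j), ← sq_abs (x k), hi, hj, hk] at h2
        have c := abs_lt.1 (abs_lt_of_sq_lt_sq (a := x l) (b := 2) (by linarith) (by norm_num))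
        have := odd l
        omega
    · intro h
      have : ∑ i, (x i ^ 2 - 1) = 8 * ((Finset.univ.filter fun i => |x i| = 3).card : ℤ) := by
        rw [← H8.Le.sum_ite_card]
        refine Finset.sum_congr rfl fun i _ => ?_
        obtain ⟨d, -, h1, h2⟩ := h i
        simp only [Finset.mem_filter, Finset.mem_univ, true_and, h2]
        rcases h1 with ((rfl | rfl) | rfl) | rfl <;> decide
      obtain ⟨i, j, k, a, b, c, e⟩ := Finset.card_eq_three.1
        (show (Finset.univ.filter fun i => |x i| = 3).card = 3 by omega)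
      have : ∀ l ∈ ({i, j, k} : Finset GolayPt), |x l| = 3 := fun l hl => by
        rw [← e] at hl; exact (Finset.mem_filter.1 hl).2
      exact ⟨i, j, k, a, c, b, this i (by simp), this j (by simp), this k (by simp)⟩

end Cfsg.Agent.S1568
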