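import Cfsg.Statements.S1572
import Cfsg.Agent.H2.Mon2
import Cfsg.Agent.H7.M24Cnt

set_option autoImplicit false
open scoped Pointwise
open Cfsg

namespace Cfsg.Agent.S1572

open H7 H8.Le H2 MulAction Finset

def lu : List (ℕ × ℕ × ℕ) := [(8388609, 16777215, 23), (8388609, 16777215, 0)]
def cu : List (ℕ × ℕ × ℕ × ℕ) := [(16777215, 16777215, 0, 1), (16777215, 16777215, 0, 2), (16777215, 16777215, 0, 3), (16777215, 8536111, 16777215, 4), (16777215, 12656663, 0, 13), (3416079, 8663097, 0, 18), (9347075, 421910, 0, 17), (9347075, 663645, 0, 19), (16777215, 9347075, 0, 15), (16777215, 663645, 0, 6), (13938692, 1302533, 0, 20), (16777215, 12222476, 0, 21), (16777215, 9830549, 0, 7), (16777215, 11282452, 0, 11), (13938692, 10170384, 0, 12), (16777215, 13938692, 0, 22), (16777215, 10170384, 0, 16), (16777215, 13062145, 0, 14), (16777215, 11952160, 0, 5), (16777215, 4038912, 0, 8), (16777215, 8077824, 0, 9), (16777215, 16777215, 0, 10)]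
def loct : List (ℕ × ℕ × ℕ) := [(4845570, 16777215, 1), (4845570, 16777215, 12), (4845570, 16777215, 13), (4845570, 16777215, 14), (4845570, 16777215, 15)]
def coct : List (ℕ × ℕ × ℕ × ℕ) := [(16777215, 4845570, 16777215, 0), (16777215, 4845570, 0, 16), (1302533, 1413139, 0, 20), (4845570, 7417889, 0, 22), (16777215, 4845570, 0, 19), (13062145, 13938692, 16777215, 17), (16777215, 1302533, 0, 2), (13062145, 7221256, 0, 18), (16777215, 13062145, 0, 23), (16777215, 10170384, 0, 4), (16777215, 2019456, 0, 7), (7221256, 11952160, 0, 21), (16777215, 7221256, 0, 3), (16777215, 11952160, 0, 5), (16777215, 15515712, 0, 6), (16777215, 4038912, 0, 8), (16777215, 8077824, 0, 9), (16777215, 11654144, 0, 10), (16777215, 16777215, 0, 11)]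
def lodd : List (ℕ × ℕ × ℕ) := [(2, 16777215, 1)]
def codd : List (ℕ × ℕ × ℕ × ℕ) := [(16777215, 16777215, 0, 0), (16777215, 16777215, 0, 2), (16777215, 16777215, 0, 3), (16777215, 16777215, 0, 4), (16777215, 5279, 16777215, 5), (16777215, 8536111, 0, 14), (6832158, 5275709, 0, 22), (12656663, 4526126, 0, 16), (12656663, 8536111, 0, 23), (16777215, 12656663, 0, 13), (16777215, 8536111, 0, 17), (13062145, 4845570, 0, 12), (16777215, 13062145, 0, 18), (16777215, 8855820, 0, 8), (16777215, 12871690, 0, 11), (4845570, 13938692, 0, 15), (16777215, 4845570, 0, 19), (16777215, 13938692, 0, 20), (16777215, 7221256, 0, 21), (16777215, 15515712, 0, 6), (16777215, 2019456, 0, 7), (16777215, 8077824, 0, 9), (16777215, 16777215, 0, 10)]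
def l924 : List (ℕ × ℕ × ℕ) := [(8388609, 16777215, 23), (8388609, 16777215, 0), (6, 16777215, 1), (6, 16777215, 2)]
def c924 : List (ℕ × ℕ × ℕ × ℕ) := [(16777215, 16777215, 0, 3), (16777215, 8536111, 16777215, 4), (16777215, 12656663, 0, 13), (3416079, 8663097, 0, 18), (9347075, 421910, 0, 17), (9347075, 663645, 0, 19), (16777215, 9347075, 0, 15), (16777215, 663645, 0, 6), (13938692, 1302533, 0, 20), (16777215, 12222476, 0, 21), (16777215, 9830549, 0, 7), (16777215, 11282452, 0, 11), (13938692, 10170384, 0, 12), (16777215, 13938692, 0, 22), (16777215, 10170384, 0, 16), (16777215, 13062145, 0, 14), (16777215, 11952160, 0, 5), (16777215, 4038912, 0, 8), (16777215, 8077824, 0, 9), (16777215, 16777215, 0, 10)]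
def l4928 : List (ℕ × ℕ × ℕ) := [(8388608, 16777215, 23), (1, 16777215, 0), (13062145, 16777215, 12), (13062145, 16777215, 14), (13062145, 16777215, 16)]
def c4928 : List (ℕ × ℕ × ℕ × ℕ) := [(16777215, 13062145, 16777215, 1), (16777215, 13062145, 0, 17), (8536111, 1265762, 0, 5), (13062145, 14762146, 0, 22), (16777215, 13062145, 0, 18), (4845570, 10305542, 0, 19), (16777215, 5129250, 0, 10), (4845570, 7221256, 0, 13), (16777215, 4845570, 0, 15), (16777215, 9158944, 0, 8), (16777215, 13443616, 0, 9), (13938692, 10170384, 0, 20), (16777215, 13938692, 0, 2), (16777215, 10170384, 0, 4), (16777215, 11952160, 0, 21), (16777215, 7221256, 0, 3), (16777215, 15515712, 0, 6), (16777215, 2019456, 0, 7), (16777215, 16777215, 0, 11)]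
def l42240 : List (ℕ × ℕ × ℕ) := [(8388609, 16777215, 23), (8388609, 16777215, 0), (4845570, 16777215, 1), (4845570, 16777215, 12), (4845570, 16777215, 13), (4845570, 9465987, 14), (4845570, 16777215, 15)]
def c42240 : List (ℕ × ℕ × ℕ × ℕ) := [(4845570, 9347075, 0, 19), (4845570, 11100169, 0, 16), (16777215, 4845570, 0, 22), (13062145, 13938692, 0, 18), (16777215, 13062145, 0, 17), (13938692, 10170384, 0, 20), (16777215, 13938692, 0, 2), (16777215, 10170384, 0, 4), (16777215, 2019456, 0, 7), (7221256, 11952160, 0, 21), (16777215, 7221256, 0, 3), (16777215, 11952160, 0, 5), (16777215, 15515712, 0, 6), (16777215, 4038912, 0, 8), (16777215, 8077824, 0, 9), (16777215, 11654144, 0, 10), (16777215, 16777215, 0, 11)]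
def l45056 : List (ℕ × ℕ × ℕ) := [(8388608, 16777215, 23), (1, 16777215, 0), (2, 16777215, 1)]
def c45056 : List (ℕ × ℕ × ℕ × ℕ) := [(16777215, 16777215, 0, 2), (16777215, 16777215, 0, 3), (16777215, 8536111, 16777215, 4), (16777215, 12656663, 0, 13), (3416079, 8663097, 0, 18), (9347075, 421910, 0, 17), (9347075, 663645, 0, 19), (16777215, 9347075, 0, 15), (16777215, 663645, 0, 6), (13938692, 1302533, 0, 20), (16777215, 12222476, 0, 21), (16777215, 9830549, 0, 7), (16777215, 11282452, 0, 11), (13938692, 10170384, 0, 12), (16777215, 13938692, 0, 22), (16777215, 10170384, 0, 16), (16777215, 13062145, 0, 14), (16777215, 11952160, 0, 5), (16777215, 4038912, 0, 8), (16777215, 8077824, 0, 9), (16777215, 16777215, 0, 10)]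

noncomputable def bd (c : List (ℕ × ℕ × ℕ × ℕ)) : List (ℕ × ℕ × ℕ) → ℕ → ℕ
  | [], F => ubM c F
  | t :: l, F => if fixOK F t.2.1 = true ∧ t.2.2 < 24 ∧ pt t.2.2 ∈ (fs t.1 ∩ fs t.2.1) \ fs F then
      ((fs t.1 ∩ fs t.2.1) \ fs F).card * bd c l (F ||| bit t.2.2) else 0

theorem chain (K : Subgroup M24) (c : List (ℕ × ℕ × ℕ × ℕ)) (l : List (ℕ × ℕ × ℕ)) (F : ℕ)
    (h : ∀ t ∈ l, ∀ g ∈ K, g • fs t.1 = fs t.1) (h0 : bd c l F ≠ 0) :
    Nat.card ↥(K ⊓ fixingSubgroup M24 (fs F : Set GolayPt)) ≤ bd c l F := by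
  induction l generalizing F with
  | nil => exact (Subgroup.card_le_of_le inf_le_right).trans (card_fix_le c F h0)
  | cons t l ih =>
    rw [bd] at h0 ⊢
    split_ifs at h0 ⊢ with k
    swap
    · exact absurd rfl h0
    refine (card_le_of_orbit_subset _ (pt t.2.2) (T := ((fs t.1 ∩ fs t.2.1) \ fs F : Finset _)) (finite_toSet _)
      (fun g hg => ?_) (Set.ncard_coe_finset _).le ⟨inferInstance, le_trans (le_of_eq ?_)
        (ih _ (fun t ht => h t (List.mem_cons_of_mem _ ht)) (right_ne_zero_of_mul h0))⟩).2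
    · have hf := (mem_fixingSubgroup_iff _).1 hg.2
      have h7 : g • fs F = fs F := by
        ext x
        rw [Finset.mem_smul_finset]
        exact ⟨fun ⟨y, hy, e⟩ => e ▸ (hf y hy).symm ▸ hy, fun hx => ⟨x, hx, hf x hx⟩⟩
      have := Finset.smul_mem_smul_finset (a := g) k.2.2
      rwa [Finset.smul_finset_sdiff, Finset.smul_finset_inter, h7, h t List.mem_cons_self g hg.1,
        smul_eq_of_fixOK k.1 hf] at this
    · congr 2
      ext g
      rw [fs, fs, gC.fs_or, gC.fs_bit k.2.1, Finset.coe_union, fixingSubgroup_union, Finset.coe_singleton]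
      simp [mem_fixingSubgroup_iff, and_assoc]

theorem bound (x y : Λ) (c : List (ℕ × ℕ × ℕ × ℕ)) (l : List (ℕ × ℕ × ℕ)) (m b : ℕ)
    (h1 : ∀ t ∈ l, ∃ α ∈ [0, 1], ∃ β ∈ [0, 1, -1], ∃ a ∈ [1, 2, 3, 4, 5, 6], ∀ i,
      i ∈ fs t.1 ↔ |α * (x : V) i + β * (y : V) i| = a)
    (h2 : ∀ i ∈ fs m, (x : V) i ≠ 0 ∨ (y : V) i ≠ 0)
    (h3 : bd c l 0 ≠ 0 ∧ bd c l 0 * cntB (fun i => decide (pc24 (enc i &&& m) = 0)) 12 = b) :
    Nat.card ↥(Hc ⊓ stabilizer Co0 y ⊓ stabilizer Co0 x) ≤ b := by
  generalize hK : Hc ⊓ stabilizer Co0 y ⊓ stabilizer Co0 x = K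
  have k : ∀ g ∈ K, g ∈ Hc ∧ g • x = x ∧ g • y = y := fun g hg => by
    rw [← hK] at hg; exact ⟨hg.1.1, hg.2, hg.1.2⟩
  have a := H1.card_eq_card_ker_mul_card_map rho24 (K.subgroupOf Hc)
  rw [Nat.card_congr (Subgroup.subgroupOfEquivOfLe fun g hg => (k g hg).1).toEquiv] at a
  have b1 := chain ((K.subgroupOf Hc).map rho24) c l 0 (by
    rintro t ht _ ⟨g, hg, rfl⟩
    obtain ⟨α, -, β, -, a, -, e⟩ := h1 t ht
    obtain ⟨σ, hσ, d, -, f⟩ := mono_of_cross g.2
    rw [show rho24 g = ⟨σ, hσ⟩ from Subtype.ext ((pm_rho g).uniq (pm_of f))]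
    ext i
    rw [← Finset.inv_smul_mem_iff, e, e]
    have f1 := congrFun (f x) i
    have f2 := congrFun (f y) i
    rw [show g.1 • x = x from (k _ hg).2.1] at f1
    rw [show g.1 • y = y from (k _ hg).2.2] at f2
    show |α * (x : V) (σ.symm i) + β * (y : V) (σ.symm i)| = a ↔ _
    rw [f1, f2]
    simp only [signedPerm]
    split_ifs
    · rw [mul_neg, mul_neg, ← neg_add, abs_neg]
    · rfl) h3.1
  rw [fs, gC.fs_zero, Finset.coe_empty, fixingSubgroup_empty, inf_top_eq] at b1
  have b2 := card_le_mono ((rho24.ker ⊓ K.subgroupOf Hc).map Hc.subtype) ⊥ {d | d ∈ CC ∧ Disjoint d (fs m)}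
    (by rintro _ ⟨g, -, rfl⟩; exact g.2) (by
      rintro _ ⟨g, hg, rfl⟩ σ d hd f
      have e : σ = 1 := (Subtype.ext ((pm_of f).uniq (pm_rho g)) : σ = rho24 g).trans hg.1
      subst e
      refine ⟨rfl, hd, disjoint_left.2 fun i hi hm => ?_⟩
      have f1 := congrFun (f x) i
      have f2 := congrFun (f y) i
      rw [show Hc.subtype g • x = x from (k _ hg.2).2.1] at f1
      rw [show Hc.subtype g • y = y from (k _ hg.2).2.2] at f2
      simp only [signedPerm, if_pos hi] at f1 f2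
      change _ = -(x : V) i at f1
      change _ = -(y : V) i at f2
      have := h2 i hm
      omega)
  rw [Subgroup.card_map_of_injective (Subgroup.subtype_injective _), Subgroup.card_bot, one_mul,
    cnt_supp (fun i => pc24 (i &&& m) = 0) (fun _ h => h.1) fun i _ h => by simp [h, disjoint_fs]] at b2
  rw [a, ← h3.2, mul_comm]
  exact Nat.mul_le_mul b1 b2

theorem cover {G Ω ι : Type*} [Group G] [Finite G] [MulAction G Ω] [Fintype ι] (H K : Subgroup G) (hHK : H ≤ K)
    {T : Set Ω} (hT : T.Finite) (x : ι → Ω) (L b : ι → ℕ) (hx : ∀ i, ∀ g ∈ K, g • x i ∈ T)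
    (hd : ∀ i j, ∀ g ∈ H, g • x j = x i → i = j) (hL : ∀ i, Nat.card ↥(H ⊓ stabilizer G (x i)) ≤ b i)
    (hb : ∀ i, L i * b i ≤ Nat.card H) (hs : T.ncard ≤ ∑ i, L i) (j : ι) :
    (∃ e : ι → Bool, e j = true ∧ (orbit K (x j)).ncard = ∑ i, if e i then L i else 0) ∧
      (orbit H (x j)).ncard = L j := by
  classical
  have s1 : ∀ i, orbit K (x i) ⊆ T := by rintro i _ ⟨g, rfl⟩; exact hx i g g.2
  have s2 : ∀ i, orbit H (x i) ⊆ T := by rintro i _ ⟨g, rfl⟩; exact hx i g (hHK g.2)
  let O : ι → Finset Ω := fun i => (hT.subset (s2 i)).toFinset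
  have mO : ∀ i y, y ∈ O i ↔ y ∈ orbit H (x i) := fun i y => Set.Finite.mem_toFinset _
  have cO : ∀ i, (orbit H (x i)).ncard = (O i).card := fun i => Set.ncard_eq_toFinset_card _ _
  have dj : ∀ s : Finset ι, (s : Set ι).PairwiseDisjoint O := fun s i _ k _ n => disjoint_left.2 fun y h1 h2 => by
    obtain ⟨g, rfl⟩ := (mO _ _).1 h1
    obtain ⟨g', e⟩ := (mO _ _).1 h2
    exact n (hd i k (g⁻¹ * g' : H) (g⁻¹ * g').2 (by
      show (g⁻¹ * g') • x k = x i
      rw [mul_smul, show g' • x k = g • x i from e, inv_smul_smul]))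
  have le : ∀ i ∈ univ, L i ≤ (O i).card := fun i _ => by
    have a := hb i
    rw [card_eq_orbit_mul H (x i), cO] at a
    exact Nat.le_of_mul_le_mul_right (a.trans (Nat.mul_le_mul_left _ (hL i))) (Nat.card_pos.trans_le (hL i))
  have sub : univ.biUnion O ⊆ hT.toFinset := biUnion_subset.2 fun i _ y hy =>
    hT.mem_toFinset.2 (s2 i ((mO _ _).1 hy))
  have c := card_le_card sub
  have l := sum_le_sum le
  rw [Set.ncard_eq_toFinset_card _ hT] at hs
  have eq := eq_of_subset_of_card_le sub (by rw [card_biUnion (dj _)]; omega)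
  rw [card_biUnion (dj _)] at c
  have q := (sum_eq_sum_iff_of_le le).1 (by omega)
  refine ⟨⟨fun i => decide (x i ∈ orbit K (x j)), decide_eq_true (mem_orbit_self _), ?_⟩,
    (cO j).trans (q j (mem_univ _)).symm⟩
  have : orbit K (x j) = ((univ.filter fun i => x i ∈ orbit K (x j)).biUnion O : Finset Ω) := by
    ext y
    simp only [coe_biUnion, coe_filter, mem_univ, true_and, Set.mem_iUnion, mem_coe, mO, Set.mem_setOf_eq]
    constructor
    · intro hy
      obtain ⟨i, -, hi⟩ := mem_biUnion.1 (eq.ge (hT.mem_toFinset.2 (s1 j hy)))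
      obtain ⟨g, rfl⟩ := (mO _ _).1 hi
      refine ⟨i, ?_, g, rfl⟩
      have := mem_orbit_of_mem_orbit (⟨g.1, hHK g.2⟩ : K)⁻¹ hy
      exact (inv_smul_smul g.1 (x i)) ▸ this
    · rintro ⟨i, hi, g, rfl⟩
      exact mem_orbit_of_mem_orbit (⟨g.1, hHK g.2⟩ : K) hi
  rw [congrArg Set.ncard this, Set.ncard_coe_finset, card_biUnion (dj _), sum_filter]
  exact sum_congr rfl fun i _ => by rw [← q i (mem_univ _)]; simp

def FF (x y : V) : ℤ := ∑ i, x i ^ 2 * y i ^ 2

theorem FF_inv {g : Co0} (h : g ∈ Hc) (x y : Λ) : FF (g • x : Λ) (g • y : Λ) = FF x y := by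
  obtain ⟨σ, -, d, -, f⟩ := mono_of_cross h
  rw [f, f, FF, FF, ← Equiv.sum_comp σ.symm fun i => (x : V) i ^ 2 * (y : V) i ^ 2]
  exact sum_congr rfl fun i _ => by simp only [signedPerm]; split_ifs <;> simp

noncomputable def xo : Λ := ⟨_, two_chi_mem (fs_mem_supp_of (m := 4845570) (by decide +kernel))⟩
def xd : Λ := ⟨fun i => if i = some 1 then -3 else 1, mem_of_four 1 1 rfl (by decide +kernel) (by decide +kernel)⟩
def x4 : Λ := ⟨Pi.single (some 1) 4 + Pi.single (some 2) 4, mem_of_four 0 0 (by decide) (by decide +kernel)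
  (by decide +kernel)⟩
noncomputable def xi : Λ := ⟨_, sign_mem (fs_mem_supp_of (m := 3416079) (by decide +kernel))
  (two_chi_mem (fs_mem_supp_of (m := 13062145) (by decide +kernel)))⟩
noncomputable def xe : Λ := ⟨_, sign_mem (fs_mem_supp_of (m := 1302533) (by decide +kernel)) xd.2⟩

theorem cov1 (K : Subgroup Co0) (h : Hc ≤ K) : (∃ e : Fin 3 → Bool, e 0 = true ∧
    (orbit K u).ncard = ∑ i, if e i then ![1104, 97152, 98304] i else 0) ∧ (orbit Hc u).ncard = 1104 := by
  have n : ∀ i, sqNorm ((![u, xo, xd] i : Λ) : V) = 32 := by decide +kernel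
  have d : ∀ i j, FF (![u, xo, xd] j : Λ) (![u, xo, xd] j : Λ) = FF (![u, xo, xd] i : Λ) (![u, xo, xd] i : Λ) →
    i = j := by decide +kernel
  refine cover Hc K h (finite_normΛ 32) ![u, xo, xd] _ ![908328960, 10321920, 10200960]
    (fun i g _ => (norm_smul' g _).trans (n i)) (fun i j g hg e => d i j (by rw [← FF_inv hg, e])) (fun i => ?_)
    (by rw [card_Hc]; decide +kernel) (by rw [show {x : Λ | sqNorm (x : V) = 32} = SN 32 from rfl, SN_card, n4]; decide +kernel) 0
  rw [← inf_idem (stabilizer Co0 _), ← inf_assoc]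
  fin_cases i
  · exact bound u u cu lu 8388609 _ (by decide +kernel) (by decide +kernel) (by decide +kernel)
  · exact bound xo xo coct loct 4845570 _ (by decide +kernel) (by decide +kernel) (by decide +kernel)
  · exact bound xd xd codd lodd 16777215 _ (by decide +kernel) (by decide +kernel) (by decide +kernel)

theorem uu_le : K2 ⊓ stabilizer Co0 u' ≤ Hc := fun g hg => by
  show ((g • E none : Λ) : V) ∈ stdCross
  rw [← u_add, smul_add', hg.1, hg.2, u_add]; exact E_std _

theorem card_uu : Nat.card ↥(K2 ⊓ stabilizer Co0 u') = 454164480 := by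
  have := card_eq_orbit_mul K2 u'
  rw [or_a0, c_a0, cK2] at this
  omega

theorem cov2 (K : Subgroup Co0) (h : Hc ≤ K) : ∃ e : Fin 5 → Bool, e 0 = true ∧
    (orbit ↥(K ⊓ K2) u').ncard = ∑ i, if e i then ![2, 924, 4928, 42240, 45056] i else 0 := by
  have n : ∀ i, sqNorm ((![u', x4, xi, xo, xe] i : Λ) : V) = 32 ∧ dotInt (u : V) (![u', x4, xi, xo, xe] i : Λ) = 0 := by
    decide +kernel
  have d : ∀ i j, FF (![u', x4, xi, xo, xe] j : Λ) (![u', x4, xi, xo, xe] j : Λ) =
    FF (![u', x4, xi, xo, xe] i : Λ) (![u', x4, xi, xo, xe] i : Λ) →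
    FF u (![u', x4, xi, xo, xe] j : Λ) = FF u (![u', x4, xi, xo, xe] i : Λ) → i = j := by decide +kernel
  have c := card_eq_orbit_mul Hc u
  rw [(cov1 Hc le_rfl).2, card_Hc] at c
  refine (cover (Hc ⊓ K2) (K ⊓ K2) (inf_le_inf_right _ h) (Sq_fin (Qa 0)) ![u', x4, xi, xo, xe] _
    ![454164480, 983040, 184320, 21504, 20160]
    (fun i g hg => inv_Qa (mem_Qa.2 (n i)) g hg.2) (fun i j g hg e => d i j (by rw [← FF_inv hg.1, e])
      (by rw [← FF_inv hg.1, e, show g • u = u from hg.2])) (fun i => ?_)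
    (by rw [show Nat.card ↥(Hc ⊓ stabilizer Co0 u) = 908328960 by omega]; decide +kernel) (by rw [c_a0]; decide +kernel) 0).1
  fin_cases i
  · exact (Subgroup.card_le_of_le (inf_le_inf_right _ inf_le_right)).trans card_uu.le
  · exact bound x4 u c924 l924 8388615 _ (by decide +kernel) (by decide +kernel) (by decide +kernel)
  · exact bound xi u c4928 l4928 13062145 _ (by decide +kernel) (by decide +kernel) (by decide +kernel)
  · exact bound xo u c42240 l42240 13234179 _ (by decide +kernel) (by decide +kernel) (by decide +kernel)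
  · exact bound xe u c45056 l45056 16777215 _ (by decide +kernel) (by decide +kernel) (by decide +kernel)

/-- The stabiliser of the standard cross is a maximal proper subgroup of the lattice's automorphism group. -/
theorem result (H : Subgroup ↥Cfsg.Co0) (hH : (H : Set ↥Cfsg.Co0) = {g : ↥Cfsg.Co0 | (∀ v : ↥Cfsg.leechLattice, (v : Cfsg.GolayPt → ℤ) ∈ Cfsg.stdCross → ((g • v : ↥Cfsg.leechLattice) : Cfsg.GolayPt → ℤ) ∈ Cfsg.stdCross)}) : IsCoatom H := by
  obtain rfl : H = Hc := Subgroup.ext fun g => (Set.ext_iff.1 hH g).trans mem_Hc.symm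
  refine ⟨fun e => ?_, fun K hK => ?_⟩
  · have := card_Hc
    rw [e, Subgroup.card_top, card_Co0] at this
    omega
  obtain ⟨e, e0, h1⟩ := (cov1 K hK.le).1
  obtain ⟨f, f0, h2⟩ := cov2 K hK.le
  have a := card_eq_orbit_mul K u
  rw [card_eq_orbit_mul (K ⊓ K2) u', inf_assoc, inf_eq_right.2 (uu_le.trans hK.le), card_uu, h1, h2] at a
  have b := Subgroup.card_dvd_of_le hK.le
  have c := Subgroup.card_subgroup_dvd_card K
  have key : ∀ (e : Fin 3 → Bool) (f : Fin 5 → Bool), e 0 = true → f 0 = true → ∀ n, n =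
      (∑ i, if e i then ![1104, 97152, 98304] i else 0) * ((∑ i, if f i then ![2, 924, 4928, 42240, 45056] i else 0) *
        454164480) → 4096 * 244823040 ∣ n → n ∣ 8315553613086720000 → n = 4096 * 244823040 ∨ n = 8315553613086720000 := by
    simp only [forall_eq]
    decide +kernel
  rw [card_Hc] at b
  rw [card_Co0] at c
  rcases key e f e0 f0 _ a b c with k | k
  · exact absurd (Subgroup.eq_of_le_of_card_ge hK.le (by rw [k, card_Hc])) hK.ne
  · exact Subgroup.eq_top_of_card_eq _ (k.trans card_Co0.symm)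

end Cfsg.Agent.S1572
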