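import Cfsg.Statements.S1589
import Cfsg.Agent.H2.MIdx

set_option autoImplicit false
open scoped Pointwise
open Cfsg

namespace Cfsg.Agent.S1589

open MulAction H2.MIdx

/-- Subgroups of the group of the length-24 code of index 759, 276 and 1771 are exactly the octad, duad and sextet stabilisers, and no subgroup has index 253. -/
theorem result : (∀ H : Subgroup ↥Cfsg.M24, H.index = 759 → ∃ o ∈ Cfsg.octads, H = MulAction.stabilizer Cfsg.M24 o) ∧ (∀ H : Subgroup ↥Cfsg.M24, H.index = 276 → ∃ s : Finset Cfsg.GolayPt, s.card = 2 ∧ H = MulAction.stabilizer Cfsg.M24 s) ∧ (∀ H : Subgroup ↥Cfsg.M24, H.index = 1771 → ∃ S ∈ Cfsg.sextets, H = MulAction.stabilizer Cfsg.M24 S) ∧ ∀ H : Subgroup ↥Cfsg.M24, H.index ≠ 253 := by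
  have c : ∀ H : Subgroup M24, Nat.card H * H.index = 244823040 := fun H => H.card_mul_index.trans H7.card_M24
  refine ⟨fun H hH => ?_, fun H hH => ?_, fun H hH => ?_, fun H hH => ?_⟩
  · have h := c H
    rw [hH] at h
    rcases odd H (by omega) (by omega) (by omega) (by omega) with ⟨O, h1, h2⟩ | ⟨S, h1, h2⟩
    · exact ⟨O, h1, eqT h2 (by rw [hH, idxO h1])⟩
    · have := (sx_idx h1).trans (Subgroup.index_dvd_of_le h2)
      omega
  · obtain ⟨s, h1, h2⟩ := duad H hH
    exact ⟨s, h1, eqT h2 (by rw [hH, idx2 h1])⟩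
  · have h := c H
    rw [hH] at h
    rcases odd H (by omega) (by omega) (by omega) (by omega) with ⟨O, h1, h2⟩ | ⟨S, h1, h2⟩
    · have := Subgroup.index_dvd_of_le h2
      rw [idxO h1] at this
      omega
    · exact ⟨S, h1, eqT h2 (hH ▸ sx_idx h1)⟩
  · have h := c H
    rw [hH] at h
    rcases odd H (by omega) (by omega) (by omega) (by omega) with ⟨O, h1, h2⟩ | ⟨S, h1, h2⟩
    · have := Subgroup.index_dvd_of_le h2
      rw [idxO h1] at this
      omega
    · have := (sx_idx h1).trans (Subgroup.index_dvd_of_le h2)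
      omega

end Cfsg.Agent.S1589
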