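import Cfsg.Statements.S1590
import Cfsg.Agent.H8.TD
-- import your own Cfsg.Agent.* helpers here

set_option autoImplicit false
set_option maxRecDepth 200000
open Cfsg

namespace Cfsg.Agent.S1590

/-- The length-12 ternary code has 729 words with weight distribution 0^1 6^264 9^440 12^24. -/
theorem result : Nat.card ↥Cfsg.ternaryGolayCode = 729 ∧ (∀ x ∈ Cfsg.ternaryGolayCode, x ≠ 0 → (Cfsg.ternarySupport x).card = 6 ∨ (Cfsg.ternarySupport x).card = 9 ∨ (Cfsg.ternarySupport x).card = 12) ∧ {x : Cfsg.ArrayPt → ZMod 3 | x ∈ Cfsg.ternaryGolayCode ∧ (Cfsg.ternarySupport x).card = 6}.ncard = 264 ∧ {x : Cfsg.ArrayPt → ZMod 3 | x ∈ Cfsg.ternaryGolayCode ∧ (Cfsg.ternarySupport x).card = 9}.ncard = 440 ∧ {x : Cfsg.ArrayPt → ZMod 3 | x ∈ Cfsg.ternaryGolayCode ∧ (Cfsg.ternarySupport x).card = 12}.ncard = 24 := by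
  have S := H8.TD.tsc
  have k : ∀ j, {x : ArrayPt → ZMod 3 | x ∈ ternaryGolayCode ∧ (ternarySupport x).card = j}.ncard =
      H8.cnt (3 ^ 6) fun i => Nat.beq (H7.pc24 (H8.lm H8.C3 3 6 12 H8.TD.tg i)) j := fun j =>
    S.ncard _ _ fun i => by rw [Nat.beq_eq, ← S.scard (n := 12) rfl (by norm_num)]; rfl
  simp only [k]
  refine ⟨?_, fun x hx h => ?_, by decide +kernel, by decide +kernel, by decide +kernel⟩
  · refine .trans ?_ ((S.ncard (fun _ => True) (fun _ => true) (by simp)).trans (by decide +kernel))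
    simp only [and_true]; rfl
  obtain ⟨i, hi, rfl⟩ := S.mem.1 hx
  rw [ternarySupport, S.scard (n := 12) rfl (by norm_num)]
  refine ((show ∀ i < 3 ^ 6, i = 0 ∨ H7.pc24 (H8.lm H8.C3 3 6 12 H8.TD.tg i) ∈ [6, 9, 12] by decide +kernel) i hi).elim
    (fun e => (h (by rw [e, S.w_eq]; simp)).elim) (by simp)

end Cfsg.Agent.S1590
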