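import Cfsg.Statements.S1591
import Cfsg.Agent.H8.TD
-- import your own Cfsg.Agent.* helpers here

set_option autoImplicit false
set_option maxRecDepth 200000
open Cfsg

namespace Cfsg.Agent.S1591

/-- Any two words of the length-12 ternary code have dot product zero. -/
theorem result (x y : Cfsg.ArrayPt → ZMod 3) (hx : x ∈ Cfsg.ternaryGolayCode) (hy : y ∈ Cfsg.ternaryGolayCode) : ∑ p, x p * y p = 0 := by
  have S := H8.TD.tsc
  have k : ∀ v : ArrayPt → ZMod 3, (∀ j < 6, v ⬝ᵥ (fun p => (H8.TD.tg j (H8.TD.tC.code p) : ZMod 3)) = 0) → ∀ y ∈ ternaryGolayCode, v ⬝ᵥ y = 0 := fun v h y hy => by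
    obtain ⟨j, -, rfl⟩ := S.mem.1 hy
    simp only [S.w_eq, dotProduct_sum, dotProduct_smul, h _ (Fin.prop _), smul_zero, Finset.sum_const_zero]
  exact k x (fun j hj => dotProduct_comm x _ ▸ k _ (by revert j; decide +kernel) x hx) y hy

end Cfsg.Agent.S1591
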