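import Cfsg.Statements.S1593
import Cfsg.Agent.H8.TD
-- import your own Cfsg.Agent.* helpers here

set_option autoImplicit false
set_option maxRecDepth 200000
open Cfsg

namespace Cfsg.Agent.S1593

/-- The only sign changes preserving the length-12 ternary code are the identity and negation of all coordinates. -/
theorem result (c : Cfsg.ArrayPt → (ZMod 3)ˣ) (h : (∀ x ∈ Cfsg.ternaryGolayCode, Cfsg.monomialMap 1 c x ∈ Cfsg.ternaryGolayCode)) : (∀ p, c p = 1) ∨ (∀ p, c p = -1) := by
  have k := H8.TD.tdiag c h
  exact ((show ∀ u : (ZMod 3)ˣ, u = 1 ∨ u = -1 by decide) (c 0)).imp (fun e p => (k p 0).trans e) fun e p => (k p 0).trans e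

end Cfsg.Agent.S1593
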