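import Cfsg.Statements.S1595
import Cfsg.Agent.H8.Stn3
-- import your own Cfsg.Agent.* helpers here

set_option autoImplicit false
set_option maxRecDepth 200000
open Cfsg

namespace Cfsg.Agent.S1595

/-- Leech triangle of S(5, 6, 12): blocks meet in 0, 2, 3 or 4 points, and a block is met exactly in a given 2-, 3- or 4-subset by 3, 2, 3 blocks respectively. -/
theorem result {α : Type*} [Fintype α] [DecidableEq α] (hα : Fintype.card α = 12) {B : Set (Finset α)} (hB : Cfsg.IsSteinerSystem 5 6 B) (b : Finset α) (hb : b ∈ B) : (∀ c ∈ B, c ≠ b → (b ∩ c).card = 0 ∨ (b ∩ c).card = 2 ∨ (b ∩ c).card = 3 ∨ (b ∩ c).card = 4) ∧ ∀ s ⊆ b, (s.card = 2 → {c : Finset α | c ∈ B ∧ b ∩ c = s}.ncard = 3) ∧ (s.card = 3 → {c : Finset α | c ∈ B ∧ b ∩ c = s}.ncard = 2) ∧ (s.card = 4 → {c : Finset α | c ∈ B ∧ b ∩ c = s}.ncard = 3) := by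
  obtain ⟨C, hn, rfl⟩ := H8.StA.tuq hα hB
  obtain ⟨b, hb, rfl⟩ := hb
  have h1 := H8.allL_iff.1 (show (H8.allL H8.StA.tL fun b => H8.band (H8.allL H8.StA.tL fun a =>
    H8.bor (H8.frc (H7.pc24 (b &&& a)) (H8.memL [0, 2, 3, 4])) (Nat.beq a b)) (H8.allL [(2, 3), (3, 2), (4, 3)] fun q =>
      H8.enS b (fun Y => Nat.beq (H8.cntL H8.StA.tL fun a => Nat.beq (b &&& a) Y) q.2) 12 q.1 0)) = true by decide +kernel) b hb
  rw [H8.band_eq_true, H8.allL_iff, H8.allL_iff] at h1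
  refine ⟨?_, fun s hs => ?_⟩
  · rintro _ ⟨a, ha, rfl⟩ hne
    have := h1.1 a ha
    rw [H8.card_inter' hn (by norm_num) _ (H8.msk_lt H8.StC.tm a ha)]
    rw [H8.bor_eq_true, H8.frc_eq, H8.memL_iff, Nat.beq_eq] at this
    simpa using this.resolve_right fun e => hne (congrArg _ e)
  have key : ∀ q ∈ [(2, 3), (3, 2), (4, 3)], s.card = q.1 → {c | c ∈ H8.blk C H8.StA.tL ∧ C.fs b ∩ c = s}.ncard = q.2 := by
    intro q hq h
    obtain ⟨Y, h2, rfl, h3⟩ := H8.enS_fs hn (h1.2 q hq) hs h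
    rw [← Nat.eq_of_beq_eq_true h3]
    exact H8.ncard_blkP hn H8.StC.tm _ (fun _ h => h.1) fun a ha h => by
      simp [← C.fs_and, H8.fs_eq hn (Nat.and_lt_two_pow _ h) h2, H8.fs_mem_blk hn H8.StC.tm h, ha]
  exact ⟨key (2, 3) (by simp), key (3, 2) (by simp), key (4, 3) (by simp)⟩

end Cfsg.Agent.S1595
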