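import Cfsg.Statements.S1598
import Cfsg.Agent.H8.GG
-- import your own Cfsg.Agent.* helpers here

set_option autoImplicit false
set_option maxRecDepth 200000
open scoped Pointwise
open Cfsg

namespace Cfsg.Agent.S1598

/-- A quartet stabiliser inside the dodecad stabiliser has order 432, a normal subgroup of order 9 with quotient GL(2, 3), and is transitive on the dodecad. -/
theorem result (d : Finset Cfsg.GolayPt) (hd : d ∈ Cfsg.dodecads) (Q : Finset (Finset Cfsg.GolayPt)) (hQ : Q ∈ Cfsg.quartets d) : Nat.card ↥(MulAction.stabilizer Cfsg.M24 d ⊓ MulAction.stabilizer Cfsg.M24 Q) = 432 ∧ (∃ (N : Subgroup ↥(MulAction.stabilizer Cfsg.M24 d ⊓ MulAction.stabilizer Cfsg.M24 Q)) (_ : N.Normal), Nat.card N = 9 ∧ Nonempty (↥(MulAction.stabilizer Cfsg.M24 d ⊓ MulAction.stabilizer Cfsg.M24 Q) ⧸ N ≃* GL (Fin 2) (ZMod 3))) ∧ ∀ p ∈ d, ∀ q ∈ d, ∃ g ∈ (MulAction.stabilizer Cfsg.M24 d ⊓ MulAction.stabilizer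 Cfsg.M24 Q), ((g : ↥Cfsg.M24) : Equiv.Perm Cfsg.GolayPt) p = q := by
  obtain ⟨C, hC, rfl, rfl⟩ := H8.wQ hd hQ
  rw [H8.GC.sq]
  obtain ⟨φ, h1, h2⟩ := H8.GF.qsq hC
  refine ⟨H8.GF.qscard hC, ⟨φ.ker, inferInstance, h2, ⟨QuotientGroup.quotientKerEquivOfSurjective φ h1⟩⟩, fun p hp q hq => ?_⟩
  obtain ⟨g, hg⟩ := (H8.GF.qsch hC).lets.tup hC.n (H8.GF.qsch hC).tch (fun g => g.2.2.1 _ (by simp)) H8.GF.qsm (t := 1) rfl (fun _ => p) (fun _ => q)
    (Function.injective_of_subsingleton _) (Function.injective_of_subsingleton _) (fun _ => hp) fun _ => hq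
  exact ⟨g, g.2, hg 0⟩

end Cfsg.Agent.S1598
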