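import Cfsg.Statements.S1599
import Cfsg.Agent.H8.GG
-- import your own Cfsg.Agent.* helpers here

set_option autoImplicit false
set_option maxRecDepth 200000
open scoped Pointwise
open Cfsg

namespace Cfsg.Agent.S1599

/-- A quartet stabiliser has five orbits on the quartets of its dodecad, of sizes 1, 12, 27, 72, 108. -/
theorem result (d : Finset Cfsg.GolayPt) (hd : d ∈ Cfsg.dodecads) (Q : Finset (Finset Cfsg.GolayPt)) (hQ : Q ∈ Cfsg.quartets d) : ∃ X₁ ∈ Cfsg.quartets d, ∃ X₂ ∈ Cfsg.quartets d, ∃ X₃ ∈ Cfsg.quartets d, ∃ X₄ ∈ Cfsg.quartets d, (MulAction.orbit ↥(MulAction.stabilizer Cfsg.M24 d ⊓ MulAction.stabilizer Cfsg.M24 Q) X₁).ncard = 12 ∧ (MulAction.orbit ↥(MulAction.stabilizer Cfsg.M24 d ⊓ MulAction.stabilizer Cfsg.M24 Q) X₂).ncard = 27 ∧ (MulAction.orbit ↥(MulAction.stabilizer Cfsg.M24 d ⊓ MulAction.stabilizer Cfsg.M24 Q) X₃).ncard = 72 ∧ (MulAction.orbit ↥(MulAction.stabilizer Cfsg.M24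 d ⊓ MulAction.stabilizer Cfsg.M24 Q) X₄).ncard = 108 ∧ Cfsg.quartets d = {Q} ∪ MulAction.orbit ↥(MulAction.stabilizer Cfsg.M24 d ⊓ MulAction.stabilizer Cfsg.M24 Q) X₁ ∪ MulAction.orbit ↥(MulAction.stabilizer Cfsg.M24 d ⊓ MulAction.stabilizer Cfsg.M24 Q) X₂ ∪ MulAction.orbit ↥(MulAction.stabilizer Cfsg.M24 d ⊓ MulAction.stabilizer Cfsg.M24 Q) X₃ ∪ MulAction.orbit ↥(MulAction.stabilizer Cfsg.M24 d ⊓ MulAction.stabilizer Cfsg.M24 Q) X₄ := by
  obtain ⟨C, hC, rfl, rfl⟩ := H8.wQ hd hQ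
  have o : ∀ l, Nat.card (H8.SM M24 C [] [340831] [H8.GF.q0, l]) * (MulAction.orbit (H8.SM M24 C [] [340831] [H8.GF.q0]) (H8.fam C l)).ncard = 432 :=
    fun l => by
      rw [← H8.GF.qscard hC, H7.card_eq_orbit_mul (H8.SM M24 C [] [340831] [H8.GF.q0]) (H8.fam C l), mul_comm]
      exact congrArg (fun K : Subgroup M24 => (_ : ℕ) * Nat.card K) (Subgroup.ext fun g => by simp [H8.mem_SM, and_assoc])
  have r : ∀ i < 5, H8.band (H8.mskC 24 (H8.GF.qR.getD i [])) (H8.qtC (H8.GF.qR.getD i [])) = true :=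
    fun i hi => H8.allR_iff.1 H8.GF.qP3 i (Nat.zero_le _) (by omega)
  have s : ∀ i < 5, MulAction.orbit (H8.SM M24 C [] [340831] [H8.GF.q0]) (H8.fam C (H8.GF.qR.getD i [])) ⊆ quartets (C.fs 340831) :=
    fun i hi _ ⟨g, e⟩ => e ▸ H8.smul_qt hd (hC.qt (r i hi)) (g.2.2.1 _ (by simp))
  have t : ∀ x ∈ H8.GF.qP, H8.mskC 24 (H8.unp 4 x) = true → ∃ i < 5, H8.fam C (H8.unp 4 x) ∈
      MulAction.orbit (H8.SM M24 C [] [340831] [H8.GF.q0]) (H8.fam C (H8.GF.qR.getD i [])) := fun x hx h => by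
    have := H8.allL_iff.1 H8.GF.qP2 x hx
    simp only [H8.band_eq_true, Nat.ble_eq, Nat.beq_eq] at this
    have hi := Nat.lt_succ_of_le this.1
    refine ⟨_, hi, H8.orbF hC.n (H8.GF.qsch hC).lets ((H8.band_eq_true _ _).1 (r _ hi)).1 h ?_ this.2.2⟩
    rw [this.2.1]; generalize (H8.GF.qW.get x).1 = i at hi; revert i; decide
  have L : H8.FamL C 24 4 H8.GF.qP (quartets (C.fs 340831)) := .of hC.n H8.GF.qP1 (fun x hx h => let ⟨i, hi, e⟩ := t x hx h; s i hi e)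
    ((H8.card_qt hd).trans (by decide +kernel))
  rw [H8.GC.sq]
  refine ⟨_, hC.qt (r 1 (by norm_num)), _, hC.qt (r 2 (by norm_num)), _, hC.qt (r 3 (by norm_num)), _, hC.qt (r 4 (by norm_num)),
    ?_, ?_, ?_, ?_, Set.Subset.antisymm (fun Q hQ => ?_) (Set.union_subset (Set.union_subset (Set.union_subset (Set.union_subset
      (Set.singleton_subset_iff.2 hQ) (s 1 (by norm_num))) (s 2 (by norm_num))) (s 3 (by norm_num))) (s 4 (by norm_num)))⟩
  · exact Nat.eq_of_mul_eq_mul_left (by norm_num : 0 < 36) ((congrArg (· * _) (H8.GF.qo1card hC).symm).trans (o _))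
  · exact Nat.eq_of_mul_eq_mul_left (by norm_num : 0 < 16) ((congrArg (· * _) (H8.GF.qo2card hC).symm).trans (o _))
  · exact Nat.eq_of_mul_eq_mul_left (by norm_num : 0 < 6) ((congrArg (· * _) (H8.GF.qo3card hC).symm).trans (o _))
  · exact Nat.eq_of_mul_eq_mul_left (by norm_num : 0 < 4) ((congrArg (· * _) (H8.GF.qo4card hC).symm).trans (o _))
  obtain ⟨x, hx, h, rfl⟩ := L.ex hQ
  obtain ⟨i, hi, e⟩ := t x hx h
  interval_cases i
  · obtain ⟨g, e⟩ := e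
    exact .inl (.inl (.inl (.inl (e.symm.trans (g.2.2.2 _ (by simp))))))
  exacts [.inl (.inl (.inl (.inr e))), .inl (.inl (.inr e)), .inl (.inr e), .inr e]

end Cfsg.Agent.S1599
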