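import Cfsg.Statements.S1600
import Cfsg.Agent.H8.GG
-- import your own Cfsg.Agent.* helpers here

set_option autoImplicit false
set_option maxRecDepth 200000
open scoped Pointwise
open Cfsg

namespace Cfsg.Agent.S1600

/-- The pointwise stabiliser of three points of a dodecad inside the dodecad stabiliser (order 72) is transitive on the complementary dodecad. -/
theorem result (d : Finset Cfsg.GolayPt) (hd : d ∈ Cfsg.dodecads) (p q r : Cfsg.GolayPt) (hp : p ∈ d) (hq : q ∈ d) (hr : r ∈ d) (hpq : p ≠ q) (hpr : p ≠ r) (hqr : q ≠ r) : Nat.card ↥(MulAction.stabilizer Cfsg.M24 d ⊓ MulAction.stabilizer Cfsg.M24 p ⊓ MulAction.stabilizer Cfsg.M24 q ⊓ MulAction.stabilizer Cfsg.M24 r) = 72 ∧ ∀ x ∉ d, ∀ y ∉ d, ∃ g ∈ (MulAction.stabilizer Cfsg.M24 d ⊓ MulAction.stabilizer Cfsg.M24 p ⊓ MulAction.stabilizer Cfsg.M24 q ⊓ MulAction.stabilizer Cfsg.M24 r), ((g : ↥Cfsg.M24) : Equiv.Perm Cfsg.GolayPt) x = y := by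
  obtain ⟨C, hC, rfl, rfl, rfl, rfl⟩ := H8.wD3 hd hp hq hr hpq hpr hqr
  rw [show MulAction.stabilizer M24 (C.fs 340831) ⊓ MulAction.stabilizer M24 (C.dec 0) ⊓ MulAction.stabilizer M24 (C.dec 1) ⊓
    MulAction.stabilizer M24 (C.dec 2) = H8.SM M24 C [0, 1, 2] [340831] [] from Subgroup.ext fun g => by simp [H8.mem_SM]; tauto]
  refine ⟨H8.GF.m9card hC, fun p hp q hq => ?_⟩
  obtain ⟨g, hg⟩ := (H8.GF.m9ch hC).lets.tup hC.n (H8.GF.m9ch hC).tch (fun g => (H8.fix_compl hC.n (by decide)).2 (g.2.2.1 340831 (by simp)))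
    H8.GF.m9m (t := 1) rfl (fun _ => p) (fun _ => q) (Function.injective_of_subsingleton _) (Function.injective_of_subsingleton _)
    (fun _ => hC.cD.2 hp) fun _ => hC.cD.2 hq
  exact ⟨g, g.2, hg 0⟩

end Cfsg.Agent.S1600
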