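import Cfsg.Statements.S1601
import Cfsg.Agent.H8.GG
import Cfsg.Agent.H8.XL211
-- import your own Cfsg.Agent.* helpers here

set_option autoImplicit false
set_option maxRecDepth 200000
open scoped Pointwise
open Cfsg

namespace Cfsg.Agent.S1601

/-- In the 3-transitive action of the smallest Mathieu group on the complementary dodecad, a point stabiliser is isomorphic to PSL(2, 11). -/
theorem result (d : Finset Cfsg.GolayPt) (hd : d ∈ Cfsg.dodecads) (p q : Cfsg.GolayPt) (hp : p ∈ d) (hq : q ∉ d) : Nonempty (↥(MulAction.stabilizer Cfsg.M24 d ⊓ MulAction.stabilizer Cfsg.M24 p ⊓ MulAction.stabilizer Cfsg.M24 q) ≃* Matrix.ProjectiveSpecialLinearGroup (Fin 2) (ZMod 11)) := by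
  obtain ⟨C, hC, rfl, rfl, rfl⟩ := H8.wE1 hd hp hq
  rw [show MulAction.stabilizer M24 (C.fs 340831) ⊓ MulAction.stabilizer M24 (C.dec 0) ⊓ MulAction.stabilizer M24 (C.dec 5) =
    H8.SM M24 C [0, 5] [340831] [] from Subgroup.ext fun g => by simp [H8.mem_SM]; tauto]
  have : Fact (Nat.Prime 11) := ⟨by norm_num⟩
  exact (H8.GF.l11i hC).elim fun e => (H8.L211.iso (ZMod.card 11)).map fun e' => (e'.trans e).symm

end Cfsg.Agent.S1601
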