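import Cfsg.Statements.S1602
import Cfsg.Agent.H8.GG
-- import your own Cfsg.Agent.* helpers here

set_option autoImplicit false
set_option maxRecDepth 200000
open scoped Pointwise
open Cfsg

namespace Cfsg.Agent.S1602

/-- In the 12-point action of the smallest Mathieu group the setwise stabiliser of a pair is isomorphic to the symmetric group of degree 5. -/
theorem result (d : Finset Cfsg.GolayPt) (hd : d ∈ Cfsg.dodecads) (p q q' : Cfsg.GolayPt) (hp : p ∈ d) (hq : q ∉ d) (hq' : q' ∉ d) (hqq' : q ≠ q') : Nonempty (↥(MulAction.stabilizer Cfsg.M24 d ⊓ MulAction.stabilizer Cfsg.M24 p ⊓ MulAction.stabilizer Cfsg.M24 ({q, q'} : Finset Cfsg.GolayPt)) ≃* Equiv.Perm (Fin 5)) := by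
  obtain ⟨C, hC, rfl, rfl, rfl, rfl⟩ := H8.wE2 hd hp hq hq' hqq'
  rw [show MulAction.stabilizer M24 (C.fs 340831) ⊓ MulAction.stabilizer M24 (C.dec 0) ⊓ MulAction.stabilizer M24 ({C.dec 5, C.dec 7} : Finset GolayPt) =
    H8.SM M24 C [0] [340831, 160] [] from Subgroup.ext fun g => by simp [H8.mem_SM, H8.fs_lit hC.n (a := 160) (ps := [5, 7]) (by decide)]; tauto]
  exact (H8.GF.s5i hC).map .symm

end Cfsg.Agent.S1602
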