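import Cfsg.Statements.S1603
import Cfsg.Agent.H8.GG
-- import your own Cfsg.Agent.* helpers here

set_option autoImplicit false
set_option maxRecDepth 200000
open scoped Pointwise
open Cfsg

namespace Cfsg.Agent.S1603

/-- Involution centralisers in the smallest Mathieu group are isomorphic to GL(2, 3). -/
theorem result (d : Finset Cfsg.GolayPt) (hd : d ∈ Cfsg.dodecads) (p : Cfsg.GolayPt) (hp : p ∈ d) (x : ↥(MulAction.stabilizer Cfsg.M24 d ⊓ MulAction.stabilizer Cfsg.M24 p)) (hx : orderOf x = 2) : Nonempty (↥(Subgroup.centralizer ({x} : Set ↥(MulAction.stabilizer Cfsg.M24 d ⊓ MulAction.stabilizer Cfsg.M24 p))) ≃* GL (Fin 2) (ZMod 3)) := by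
  obtain ⟨C, hC, rfl, rfl⟩ := H8.wD1 hd hp
  revert x
  rw [show MulAction.stabilizer M24 (C.fs 340831) ⊓ MulAction.stabilizer M24 (C.dec 0) =
    H8.SM M24 C [0] [340831] [] from Subgroup.ext fun g => by simp [H8.mem_SM]; tauto]
  exact H8.GF.m11z hC

end Cfsg.Agent.S1603
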