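import Cfsg.Statements.S1604
import Cfsg.Agent.H7.M24Cnt

set_option autoImplicit false
open scoped Pointwise
open Cfsg

namespace Cfsg.Agent.S1604

open scoped Pointwise
open H7
theorem flag (a : ℕ) (ha : a < 2 ^ 24) (ho : fs a ∈ octads) (hd : (fun m : ℕ => m.testBit 23 = true ∧ m.testBit 0 = true) a) :
    ∃ g : M24, (∀ m ∈ [bit 23, bit 0], g • fs m = fs m) ∧ g • fs 8391797 = fs a :=
  orbSet SOct_ev SOct_dec octads_eq [bit 23, bit 0] [[3, 1, 1, 0, 4], [3, 2, 2, 0, 0]]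
    (by decide +kernel) (fun m => m.testBit 23 = true ∧ m.testBit 0 = true) (fun m => 0) 6 [(0, 506)] (by decide +kernel)
    (by norm_num) ha (fs_oct (by decide +kernel)) ho (by decide +kernel) hd rfl

/-- A hexad stabiliser in the two-point stabiliser has orbits of sizes 1, 16, 60 on the 77 hexads: the 16 hexads disjoint from it and the 60 meeting it in two points. -/
theorem result (p q : Cfsg.GolayPt) (hpq : p ≠ q) (o o' o'' : Finset Cfsg.GolayPt) (ho : o ∈ Cfsg.octads) (ho' : o' ∈ Cfsg.octads) (ho'' : o'' ∈ Cfsg.octads) (hp : p ∈ o ∧ p ∈ o' ∧ p ∈ o'') (hq : q ∈ o ∧ q ∈ o' ∧ q ∈ o'') (h : (o ∩ o').card = (o ∩ o'').card) : {x : Finset Cfsg.GolayPt | x ∈ Cfsg.octads ∧ p ∈ x ∧ q ∈ x ∧ (o ∩ x).card = 2}.ncard = 16 ∧ {x : Finset Cfsg.GolayPt | x ∈ Cfsg.octads ∧ p ∈ x ∧ q ∈ x ∧ (o ∩ x).card = 4}.ncard = 60 ∧ ∃ g : Equiv.Perm Cfsg.GolayPt, g ∈ Cfsg.M24 ∧ g p = p ∧ g q = q ∧ g • o = o ∧ g • o' =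 o'' := by
  obtain ⟨k, rfl, rfl, rfl⟩ : ∃ k : M24, k • pt 23 = p ∧ k • pt 0 = q ∧ k • fs 8391797 = o := by
    obtain ⟨k, rfl, rfl⟩ := two_trans (p := pt 23) (q := pt 0) (by decide) hpq
    obtain ⟨o, rfl⟩ := MulAction.surjective k o
    obtain ⟨a, ha, rfl⟩ := exists_fs o
    obtain ⟨g, h1, h2⟩ := flag a ha (by simpa using ho) ⟨(pt23_mem a).1 (Finset.smul_mem_smul_finset_iff k |>.1 hp.1),
      (pt0_mem a).1 (Finset.smul_mem_smul_finset_iff k |>.1 hq.1)⟩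
    exact ⟨k * g, by rw [mul_smul, fix_pt h1 (by norm_num) (by simp)], by rw [mul_smul, fix_pt h1 (by norm_num) (by simp)],
      by rw [mul_smul, h2]⟩
  refine ⟨?_, ?_, ?_⟩
  · rw [ncard_smul_pred k (Q := fun x => x ∈ octads ∧ pt 23 ∈ x ∧ pt 0 ∈ x ∧ (fs 8391797 ∩ x).card = 2) (by simp [card_inter_smul, Finset.smul_mem_smul_finset_iff]),
      cnt_supp (fun m => pc24 m = 8 ∧ m.testBit 23 = true ∧ m.testBit 0 = true ∧ pc24 (8391797 &&& m) = 2) (fun _ h => h.1.1) (fun m _ h => by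
        simp only [Set.mem_setOf_eq, oct_iff h, card_inter_fs, pt23_mem, pt0_mem, and_assoc])]
    decide +kernel
  · rw [ncard_smul_pred k (Q := fun x => x ∈ octads ∧ pt 23 ∈ x ∧ pt 0 ∈ x ∧ (fs 8391797 ∩ x).card = 4) (by simp [card_inter_smul, Finset.smul_mem_smul_finset_iff]),
      cnt_supp (fun m => pc24 m = 8 ∧ m.testBit 23 = true ∧ m.testBit 0 = true ∧ pc24 (8391797 &&& m) = 4) (fun _ h => h.1.1) (fun m _ h => by
        simp only [Set.mem_setOf_eq, oct_iff h, card_inter_fs, pt23_mem, pt0_mem, and_assoc])]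
    decide +kernel
  obtain ⟨d', rfl⟩ := MulAction.surjective k o'
  obtain ⟨d'', rfl⟩ := MulAction.surjective k o''
  rw [card_inter_smul, card_inter_smul] at h
  obtain ⟨a, ha, rfl⟩ := exists_fs d'
  obtain ⟨b, hb, rfl⟩ := exists_fs d''
  simp only [Finset.smul_mem_smul_finset_iff, pt23_mem, pt0_mem] at hp hq
  obtain ⟨g, h1, h2⟩ := orbSet SOct_ev SOct_dec octads_eq [8391797, bit 23, bit 0] [[0, 0, 0, 0, 4, 3, 2], [4, 0, 4, 4, 3, 2, 0]]
    (by decide +kernel) (fun m => m.testBit 23 = true ∧ m.testBit 0 = true) (fun m => pc24 (8391797 &&& m)) 5 [(2, 524), (4, 520), (8, 506)] (by decide +kernel)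
    ha hb (by simpa using ho') (by simpa using ho'') ⟨hp.2.1, hq.2.1⟩ ⟨hp.2.2, hq.2.2⟩ (by simpa only [card_inter_fs] using h)
  exact ⟨_, (k * g * k⁻¹).2, conj_fix k (fix_pt h1 (by norm_num) (by simp)), conj_fix k (fix_pt h1 (by norm_num) (by simp)),
    conj_fix k (h1 _ (by simp)), conj_fix k h2⟩

end Cfsg.Agent.S1604
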