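import Cfsg.Statements.S1605
import Cfsg.Agent.H7.M24Cnt

set_option autoImplicit false
open scoped Pointwise
open Cfsg

namespace Cfsg.Agent.S1605

open scoped Pointwise
open H7
theorem flag (a : ℕ) (ha : a < 2 ^ 24) (ho : fs a ∈ octads) (hd : (fun m : ℕ => m.testBit 23 = true ∧ ¬ m.testBit 0 = true) a) :
    ∃ g : M24, (∀ m ∈ [bit 23, bit 0], g • fs m = fs m) ∧ g • fs 8394986 = fs a :=
  orbSet SOct_ev SOct_dec octads_eq [bit 23, bit 0] [[3, 3, 0, 0, 2], [3, 2, 2, 0, 0]]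
    (by decide +kernel) (fun m => m.testBit 23 = true ∧ ¬ m.testBit 0 = true) (fun m => 0) 7 [(0, 507)] (by decide +kernel)
    (by norm_num) ha (fs_oct (by decide +kernel)) ho (by decide +kernel) hd rfl

theorem flag' (k : M24) (o : Finset GolayPt) (ho : o ∈ octads ∧ k • pt 23 ∈ o ∧ k • pt 0 ∉ o) :
    ∃ g : M24, g • pt 23 = k • pt 23 ∧ g • pt 0 = k • pt 0 ∧ g • fs 8394986 = o := by
  obtain ⟨o, rfl⟩ := MulAction.surjective k o
  obtain ⟨a, ha, rfl⟩ := exists_fs o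
  simp only [Finset.smul_mem_smul_finset_iff, pt23_mem, pt0_mem, smul_mem_octads_iff] at ho
  obtain ⟨g, h1, h2⟩ := flag a ha ho.1 ho.2
  exact ⟨k * g, by rw [mul_smul, fix_pt h1 (by norm_num) (by simp)], by rw [mul_smul, fix_pt h1 (by norm_num) (by simp)],
    by rw [mul_smul, h2]⟩

/-- The two-point stabiliser acts on the 176 octads through the first point avoiding the second with rank 3 and subdegrees 1, 70, 105 (intersections 8, 2, 4). -/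
theorem result (p q : Cfsg.GolayPt) (hpq : p ≠ q) : {x : Finset Cfsg.GolayPt | (x ∈ Cfsg.octads ∧ p ∈ x ∧ q ∉ x)}.ncard = 176 ∧ (∀ o o' : Finset Cfsg.GolayPt, (o ∈ Cfsg.octads ∧ p ∈ o ∧ q ∉ o) → (o' ∈ Cfsg.octads ∧ p ∈ o' ∧ q ∉ o') → ∃ g : Equiv.Perm Cfsg.GolayPt, g ∈ Cfsg.M24 ∧ g p = p ∧ g q = q ∧ g • o = o') ∧ ∀ o : Finset Cfsg.GolayPt, (o ∈ Cfsg.octads ∧ p ∈ o ∧ q ∉ o) → {x : Finset Cfsg.GolayPt | (x ∈ Cfsg.octads ∧ p ∈ x ∧ q ∉ x) ∧ (o ∩ x).card = 2}.ncard = 70 ∧ {x : Finset Cfsg.GolayPt | (x ∈ Cfsg.octads ∧ p ∈ x ∧ q ∉ x) ∧ (o ∩ x).card = 4}.ncard = 105 ∧ ∀ o' o'' : Finset Cfsg.GolayPt, (o' ∈ Cfsg.octads ∧ p ∈ o' ∧ q ∉ o') → (o'' ∈ Cfsg.octads ∧ p ∈ o'' ∧ q ∉ o'') → (o ∩ o').card = (o ∩ o'').card → ∃ g : Equiv.Perm Cfsg.GolayPt, g ∈ Cfsg.M24 ∧ g p = p ∧ g q = q ∧ g • o = o ∧ g • o' = o'' := by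
  obtain ⟨k, rfl, rfl⟩ := two_trans (p := pt 23) (q := pt 0) (by decide) hpq
  refine ⟨?_, fun o o' ho ho' => ?_, fun o ho => ?_⟩
  · rw [ncard_smul_pred k (Q := fun x => x ∈ octads ∧ pt 23 ∈ x ∧ pt 0 ∉ x) (by simp [card_inter_smul, Finset.smul_mem_smul_finset_iff]),
      cnt_supp (fun m => pc24 m = 8 ∧ m.testBit 23 = true ∧ ¬ m.testBit 0 = true) (fun _ h => h.1.1) (fun m _ h => by
        simp only [Set.mem_setOf_eq, oct_iff h, card_inter_fs, pt23_mem, pt0_mem, and_assoc])]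
    decide +kernel
  · obtain ⟨a, a1, a2, rfl⟩ := flag' k o ho
    obtain ⟨b, b1, b2, rfl⟩ := flag' k o' ho'
    refine ⟨_, (b * a⁻¹).2, ?_, ?_, ?_⟩
    · show (b * a⁻¹ : M24) • (k • pt 23) = k • pt 23
      rw [← a1, mul_smul, inv_smul_smul, b1, a1]
    · show (b * a⁻¹ : M24) • (k • pt 0) = k • pt 0
      rw [← a2, mul_smul, inv_smul_smul, b2, a2]
    · show (b * a⁻¹ : M24) • (a • fs 8394986) = b • fs 8394986
      rw [mul_smul, inv_smul_smul]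
  obtain ⟨k', a1, a2, rfl⟩ := flag' k o ho
  rw [← a1, ← a2]
  clear a1 a2 ho hpq k
  rename' k' => k
  refine ⟨?_, ?_, fun d' d'' hd' hd'' h => ?_⟩
  · rw [ncard_smul_pred k (Q := fun x => (x ∈ octads ∧ pt 23 ∈ x ∧ pt 0 ∉ x) ∧ (fs 8394986 ∩ x).card = 2) (by simp [card_inter_smul, Finset.smul_mem_smul_finset_iff]),
      cnt_supp (fun m => pc24 m = 8 ∧ m.testBit 23 = true ∧ ¬ m.testBit 0 = true ∧ pc24 (8394986 &&& m) = 2) (fun _ h => h.1.1.1) (fun m _ h => by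
        simp only [Set.mem_setOf_eq, oct_iff h, card_inter_fs, pt23_mem, pt0_mem, and_assoc])]
    decide +kernel
  · rw [ncard_smul_pred k (Q := fun x => (x ∈ octads ∧ pt 23 ∈ x ∧ pt 0 ∉ x) ∧ (fs 8394986 ∩ x).card = 4) (by simp [card_inter_smul, Finset.smul_mem_smul_finset_iff]),
      cnt_supp (fun m => pc24 m = 8 ∧ m.testBit 23 = true ∧ ¬ m.testBit 0 = true ∧ pc24 (8394986 &&& m) = 4) (fun _ h => h.1.1.1) (fun m _ h => by
        simp only [Set.mem_setOf_eq, oct_iff h, card_inter_fs, pt23_mem, pt0_mem, and_assoc])]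
    decide +kernel
  obtain ⟨d', rfl⟩ := MulAction.surjective k d'
  obtain ⟨d'', rfl⟩ := MulAction.surjective k d''
  rw [card_inter_smul, card_inter_smul] at h
  obtain ⟨a, ha, rfl⟩ := exists_fs d'
  obtain ⟨b, hb, rfl⟩ := exists_fs d''
  simp only [Finset.smul_mem_smul_finset_iff, pt23_mem, pt0_mem, smul_mem_octads_iff] at hd' hd''
  obtain ⟨g, h1, h2⟩ := orbSet SOct_ev SOct_dec octads_eq [8394986, bit 23, bit 0] [[0, 2, 2, 3, 3, 2, 0, 0, 2, 3], [0, 0, 0, 0, 0, 0, 2, 2, 3]]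
    (by decide +kernel) (fun m => m.testBit 23 = true ∧ ¬ m.testBit 0 = true) (fun m => pc24 (8394986 &&& m)) 6 [(2, 517), (4, 510), (8, 507)] (by decide +kernel)
    ha hb hd'.1 hd''.1 hd'.2 hd''.2 (by simpa only [card_inter_fs] using h)
  exact ⟨_, (k * g * k⁻¹).2, conj_fix k (fix_pt h1 (by norm_num) (by simp)), conj_fix k (fix_pt h1 (by norm_num) (by simp)),
    conj_fix k (h1 _ (by simp)), conj_fix k h2⟩

end Cfsg.Agent.S1605
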