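import Cfsg.Statements.S1606
import Cfsg.Agent.H8.M22i
-- import your own Cfsg.Agent.* helpers here

set_option autoImplicit false
set_option maxRecDepth 200000
open scoped Pointwise
open Cfsg

namespace Cfsg.Agent.S1606

/-- The stabiliser of two points in the group of the length-24 code has no subgroups of index 56 or 210. -/
theorem result (p q : Cfsg.GolayPt) (hpq : p ≠ q) (H : Subgroup ↥(MulAction.stabilizer Cfsg.M24 p ⊓ MulAction.stabilizer Cfsg.M24 q)) : H.index ≠ 56 ∧ H.index ≠ 210 := by
  obtain ⟨pt, C⟩ := H8.M22i.ch hpq
  have c := H.index_mul_card.trans (H7.card_stab2 hpq)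
  have m := H8.M22i.main C H
  constructor <;> intro h <;> rw [h] at c
  · rw [show Nat.card H = 7920 by omega] at m
    norm_num at m
  · rw [show Nat.card H = 2112 by omega] at m
    norm_num at m

end Cfsg.Agent.S1606
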