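import Cfsg.Statements.S1607
import Cfsg.Agent.H7.M24Cnt

set_option autoImplicit false
open scoped Pointwise
open Cfsg

namespace Cfsg.Agent.S1607

open scoped Pointwise
open H7
theorem flag (a : ℕ) (ha : a < 2 ^ 24) (ho : fs a ∈ octads) (hd : (fun m : ℕ => m.testBit 0 = true) a) :
    ∃ g : M24, (∀ m ∈ [bit 0], g • fs m = fs m) ∧ g • fs 5279 = fs a :=
  orbSet SOct_ev SOct_dec octads_eq [bit 0] [[4], [3, 1, 3]]
    (by decide +kernel) (fun m => m.testBit 0 = true) (fun m => 0) 7 [(0, 2)] (by decide +kernel)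
    (by norm_num) ha (fs_oct (by decide +kernel)) ho (by decide +kernel) hd rfl

/-- The point stabiliser acts on the 253 heptads of its S(4, 7, 23) with rank 3 and subdegrees 1, 112, 140 (intersections 8, 2, 4). -/
theorem result (x : Cfsg.GolayPt) (o : Finset Cfsg.GolayPt) (ho : o ∈ Cfsg.octads) (hx : x ∈ o) : {o' : Finset Cfsg.GolayPt | o' ∈ Cfsg.octads ∧ x ∈ o' ∧ (o ∩ o').card = 2}.ncard = 112 ∧ {o' : Finset Cfsg.GolayPt | o' ∈ Cfsg.octads ∧ x ∈ o' ∧ (o ∩ o').card = 4}.ncard = 140 ∧ ∀ o' o'' : Finset Cfsg.GolayPt, o' ∈ Cfsg.octads → o'' ∈ Cfsg.octads → x ∈ o' → x ∈ o'' → (o ∩ o').card = (o ∩ o'').card → ∃ g : Equiv.Perm Cfsg.GolayPt, g ∈ Cfsg.M24 ∧ g x = x ∧ g • o = o ∧ g • o' = o'' := by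
  obtain ⟨k, rfl, rfl⟩ : ∃ k : M24, k • pt 0 = x ∧ k • fs 5279 = o := by
    obtain ⟨k, rfl⟩ := one_trans (pt 0) x
    obtain ⟨o, rfl⟩ := MulAction.surjective k o
    obtain ⟨a, ha, rfl⟩ := exists_fs o
    obtain ⟨g, h1, h2⟩ := flag a ha (by simpa using ho) (by rwa [Finset.smul_mem_smul_finset_iff, pt0_mem] at hx)
    exact ⟨k * g, by rw [mul_smul, fix_pt h1 (by norm_num) (by simp)], by rw [mul_smul, h2]⟩
  refine ⟨?_, ?_, fun d' d'' hd' hd'' hx' hx'' h => ?_⟩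
  · rw [ncard_smul_pred k (Q := fun x => x ∈ octads ∧ pt 0 ∈ x ∧ (fs 5279 ∩ x).card = 2) (by simp [card_inter_smul, Finset.smul_mem_smul_finset_iff]),
      cnt_supp (fun m => pc24 m = 8 ∧ m.testBit 0 = true ∧ pc24 (5279 &&& m) = 2) (fun _ h => h.1.1) (fun m _ h => by
        simp only [Set.mem_setOf_eq, oct_iff h, card_inter_fs, pt23_mem, pt0_mem, and_assoc])]
    decide +kernel
  · rw [ncard_smul_pred k (Q := fun x => x ∈ octads ∧ pt 0 ∈ x ∧ (fs 5279 ∩ x).card = 4) (by simp [card_inter_smul, Finset.smul_mem_smul_finset_iff]),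
      cnt_supp (fun m => pc24 m = 8 ∧ m.testBit 0 = true ∧ pc24 (5279 &&& m) = 4) (fun _ h => h.1.1) (fun m _ h => by
        simp only [Set.mem_setOf_eq, oct_iff h, card_inter_fs, pt23_mem, pt0_mem, and_assoc])]
    decide +kernel
  obtain ⟨d', rfl⟩ := MulAction.surjective k d'
  obtain ⟨d'', rfl⟩ := MulAction.surjective k d''
  rw [card_inter_smul, card_inter_smul] at h
  obtain ⟨a, ha, rfl⟩ := exists_fs d'
  obtain ⟨b, hb, rfl⟩ := exists_fs d''
  rw [Finset.smul_mem_smul_finset_iff, pt0_mem] at hx' hx''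
  obtain ⟨g, h1, h2⟩ := orbSet SOct_ev SOct_dec octads_eq [5279, bit 0] [[4, 0, 1, 0, 0, 1, 0], [1, 0, 4, 3, 3, 1, 2, 2]]
    (by decide +kernel) (fun m => m.testBit 0 = true) (fun m => pc24 (5279 &&& m)) 6 [(2, 10), (4, 3), (8, 0)] (by decide +kernel)
    ha hb (by simpa using hd') (by simpa using hd'') hx' hx'' (by simpa only [card_inter_fs] using h)
  exact ⟨_, (k * g * k⁻¹).2, conj_fix k (fix_pt h1 (by norm_num) (by simp)), conj_fix k (h1 _ (by simp)), conj_fix k h2⟩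

end Cfsg.Agent.S1607
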