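import Cfsg.Statements.S1635
import Cfsg.Agent.H8.GO
-- import your own Cfsg.Agent.* helpers here

set_option autoImplicit false
set_option maxRecDepth 200000
open Cfsg

namespace Cfsg.Agent.S1635

/-- Coset leaders of the length-24 code: a coset contains a unique word of weight ≤ 3, or else exactly six words of weight 4 and none lighter. -/
theorem result (w : Cfsg.GolayPt → ZMod 2) : ({v : Cfsg.GolayPt → ZMod 2 | hammingNorm v ≤ 4 ∧ w - v ∈ Cfsg.golayCode}.ncard = 1 ∧ ∃ v : Cfsg.GolayPt → ZMod 2, hammingNorm v ≤ 3 ∧ w - v ∈ Cfsg.golayCode) ∨ ({v : Cfsg.GolayPt → ZMod 2 | hammingNorm v ≤ 4 ∧ w - v ∈ Cfsg.golayCode}.ncard = 6 ∧ ∀ v : Cfsg.GolayPt → ZMod 2, w - v ∈ Cfsg.golayCode → hammingNorm v ≤ 4 → hammingNorm v = 4) := by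
  have e : ∀ v, hammingNorm v ≤ 4 ∧ w - v ∈ golayCode ↔ v - w ∈ golayCode ∧ hammingNorm v ≤ 4 := fun v => by
    rw [and_comm, sub_mem_comm_iff]
  simp only [e]
  exact (H8.leaders rfl H8.card_golay H8.golay_min w).imp (fun ⟨u, h, h'⟩ => ⟨by rw [h, Set.ncard_singleton], u, h',
    ((e u).2 (h.ge rfl)).2⟩) fun h => ⟨h.1, fun v h1 h2 => (h.2 v ((e v).1 ⟨h2, h1⟩)).1⟩

end Cfsg.Agent.S1635
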