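import Cfsg.Statements.S1609
import Cfsg.Agent.S5600
import Cfsg.Agent.S1635
import Cfsg.Agent.S1554
import Cfsg.Agent.S0376
import Cfsg.Agent.H7.Golay

set_option autoImplicit false
open scoped Pointwise
open Cfsg

namespace Cfsg.Agent.S1609

open MulAction

theorem fixmodS {Ω : Type*} [DecidableEq Ω] (σ : Equiv.Perm Ω) (p : ℕ) [Fact p.Prime] (hσ : σ ^ p = 1) (S : Finset Ω)
    (hS : ∀ a ∈ S, σ a ∈ S) : S.card ≡ (S.filter fun a => σ a = a).card [MOD p] := by
  classical
  let f : Function.End S := fun a => ⟨σ a, hS _ a.2⟩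
  have hn : ∀ (n : ℕ) (a : S), ((f ^ n) a : Ω) = (σ ^ n) a := by
    intro n
    induction n with
    | zero => intro a; rfl
    | succ n ih =>
      intro a
      rw [pow_succ', pow_succ']
      show σ ((f ^ n) a) = σ ((σ ^ n) a)
      rw [ih]
  have hf : f ^ p ^ 1 = 1 := by
    funext a
    apply Subtype.ext
    rw [pow_one, hn, hσ]
    rfl
  have h := Equiv.Perm.card_fixedPoints_modEq hf
  rw [Fintype.card_coe] at h
  have e : (S.filter fun a => σ a = a).card = Fintype.card (Function.fixedPoints f) := by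
    rw [← Fintype.card_coe]
    exact Fintype.card_congr ⟨fun a => ⟨⟨a.1, (Finset.mem_filter.1 a.2).1⟩, Subtype.ext (Finset.mem_filter.1 a.2).2⟩,
      fun a => ⟨a.1.1, Finset.mem_filter.2 ⟨a.1.2, congrArg Subtype.val a.2⟩⟩, fun _ => rfl, fun _ => rfl⟩
  rw [e]
  exact h

theorem fix_lt (g : M24) (p : ℕ) [hp : Fact p.Prime] (h5 : 5 ≤ p) (hg : orderOf g = p) :
    (Finset.univ.filter fun a => (g : Equiv.Perm GolayPt) a = a).card < 6 := by
  by_contra hc
  obtain ⟨E, hE, hE6⟩ := Finset.exists_subset_card_eq (not_lt.1 hc)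
  let T : Subgroup (Equiv.Perm GolayPt) := M24 ⊓ fixingSubgroup (Equiv.Perm GolayPt) (E : Set GolayPt)
  have hT : Nat.card T = Nat.card {g : Equiv.Perm GolayPt // g ∈ M24 ∧ ∀ p ∈ E, g p = p} :=
    Nat.card_congr (Equiv.subtypeEquivRight fun σ => by
      simp only [T, Subgroup.mem_inf, mem_fixingSubgroup_iff]
      rfl)
  have hm : (g : Equiv.Perm GolayPt) ∈ T := ⟨g.2, (mem_fixingSubgroup_iff _).2 fun a ha => (Finset.mem_filter.1 (hE ha)).2⟩
  have hd : p ∣ Nat.card T := by
    rw [← hg, ← Subgroup.orderOf_coe]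
    exact Subgroup.orderOf_dvd_natCard T hm
  obtain ⟨-, h1, h2⟩ := Cfsg.Agent.S5600.result E hE6
  by_cases ho : ∃ o ∈ octads, E ⊆ o
  · rw [hT, h1 ho] at hd
    have := (Nat.prime_dvd_prime_iff_eq hp.out Nat.prime_two).1 (hp.out.dvd_of_dvd_pow (n := 4) hd)
    omega
  · rw [hT, (h2 ho).1] at hd
    have := Nat.le_of_dvd (by norm_num) hd
    omega

theorem cnt (g : M24) (p : ℕ) [hp : Fact p.Prime] (h5 : 5 ≤ p) (hg : orderOf g = p) (S : Finset GolayPt)
    (hS : g • S = S) : ∃ a f : ℕ, S.card % p = a % p ∧ 24 % p = f % p ∧ f < 6 ∧ a ≤ f ∧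
      ∀ x : GolayPt, g • x = x → x ∉ S → a + 1 ≤ f := by
  have hσ : (g : Equiv.Perm GolayPt) ^ p = 1 := by
    rw [← hg, ← Subgroup.orderOf_coe]; exact pow_orderOf_eq_one _
  refine ⟨(S.filter fun a => (g : Equiv.Perm GolayPt) a = a).card,
    (Finset.univ.filter fun a => (g : Equiv.Perm GolayPt) a = a).card,
    fixmodS _ p hσ S fun a ha => ?_, fixmodS _ p hσ Finset.univ fun a _ => Finset.mem_univ _, fix_lt g p h5 hg,
    Finset.card_le_card (Finset.filter_subset_filter _ (Finset.subset_univ _)), fun x hx hxS => ?_⟩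
  · rw [← hS]; exact Finset.smul_mem_smul_finset ha
  · refine Finset.card_lt_card ⟨Finset.filter_subset_filter _ (Finset.subset_univ _), fun h => hxS ?_⟩
    exact (Finset.mem_filter.1 (h (Finset.mem_filter.2 ⟨Finset.mem_univ x, hx⟩))).1

theorem near (W : Finset GolayPt) (hW : W.card % 2 = 1) : ∃ C ∈ H7.CC, (symmDiff W C).card ≤ 3 := by
  let w : GolayPt → ZMod 2 := fun a => if a ∈ W then 1 else 0
  obtain ⟨v, hv, hw⟩ : ∃ v : GolayPt → ZMod 2, hammingNorm v ≤ 4 ∧ w - v ∈ golayCode := by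
    rcases Cfsg.Agent.S1635.result w with h | h
    · exact Set.nonempty_of_ncard_ne_zero (h.1.trans_ne (by norm_num))
    · exact Set.nonempty_of_ncard_ne_zero (h.1.trans_ne (by norm_num))
  have hC := H7.support_mem_iff.2 hw
  have e : symmDiff W (support₂ (w - v)) = support₂ v := by
    ext a
    simp only [Finset.mem_symmDiff, support₂, Finset.mem_filter, Finset.mem_univ, true_and, Pi.sub_apply, w]
    by_cases ha : a ∈ W <;> rcases H7.zmod2_cases (v a) with h | h <;> simp [ha, h]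
  refine ⟨_, hC, ?_⟩
  have h1 := H7.card_symmDiff_add W (support₂ (w - v))
  have h2 := H7.weights hC
  rw [H7.hammingNorm_eq, ← e] at hv
  omega

theorem near_inv {W C : Finset GolayPt} (hC : C ∈ H7.CC) (h : (symmDiff W C).card ≤ 3) (g : M24) (hg : g • W = W) :
    g • C = C := by
  have h1 : (symmDiff W (g • C)).card ≤ 3 := by
    have : symmDiff W (g • C) = g • symmDiff W C := by
      conv_lhs => rw [← hg]
      exact (H7.smul_symmDiff' g W C).symm
    rw [this, Finset.card_smul_finset]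
    exact h
  have h2 := H7.weights (H7.symmDiff_mem (H7.smul_mem_CC g hC) hC)
  have h3 : (symmDiff (g • C) C).card ≤ (symmDiff W (g • C)).card + (symmDiff W C).card := by
    refine le_trans (Finset.card_le_card ?_) (Finset.card_union_le _ _)
    have := symmDiff_triangle (g • C) W C
    rwa [symmDiff_comm (g • C) W] at this
  have h4 : (symmDiff (g • C) C).card = 0 := by omega
  exact symmDiff_eq_bot.1 (Finset.card_eq_zero.1 h4)

theorem core (x : GolayPt) (K : Subgroup M24) (hK : Nat.card K = 40320) (hx : ∀ g ∈ K, g • x = x) :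
    (∃ s : Finset GolayPt, s.card = 2 ∧ x ∉ s ∧ K ≤ stabilizer M24 s) ∨ ∃ o ∈ octads, x ∈ o ∧ K ≤ stabilizer M24 o := by
  classical
  haveI : Fact (Nat.Prime 5) := ⟨by norm_num⟩
  haveI : Fact (Nat.Prime 7) := ⟨by norm_num⟩
  haveI : Finite K := Nat.finite_of_card_ne_zero (by rw [hK]; norm_num)
  obtain ⟨g5, h5⟩ := exists_prime_orderOf_dvd_card' (G := K) 5 (by rw [hK]; norm_num)
  obtain ⟨g7, h7⟩ := exists_prime_orderOf_dvd_card' (G := K) 7 (by rw [hK]; norm_num)
  have size : ∀ S : Finset GolayPt, x ∉ S → K ≤ stabilizer M24 S → S.card % 7 ≤ 2 ∧ S.card % 5 ≤ 3 := by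
    intro S hxS hS
    obtain ⟨a, f, e1, e2, e3, e4, e5⟩ := cnt g5 5 le_rfl ((Subgroup.orderOf_coe g5).trans h5) S (hS g5.2)
    obtain ⟨b, k, d1, d2, d3, d4, d5⟩ := cnt g7 7 (by norm_num) ((Subgroup.orderOf_coe g7).trans h7) S (hS g7.2)
    have := e5 x (hx _ g5.2) hxS
    have := d5 x (hx _ g7.2) hxS
    omega
  have odd : ∀ W : Finset GolayPt, W.card = 7 ∨ W.card = 9 → K ≤ stabilizer M24 W →
      ∃ o ∈ octads, x ∈ o ∧ K ≤ stabilizer M24 o := by
    intro W hW hS
    obtain ⟨C, hC, hn⟩ := near W (by omega)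
    have hKC : K ≤ stabilizer M24 C := fun g hg => near_inv hC hn g (hS hg)
    have h1 := H7.card_symmDiff_add W C
    have h2 := H7.weights hC
    have h3 := Finset.card_le_card (Finset.inter_subset_left (s₁ := W) (s₂ := C))
    have h4 := Finset.card_le_card (Finset.inter_subset_right (s₁ := W) (s₂ := C))
    have h6 : K ≤ stabilizer M24 (C.erase x) := fun g hg => mem_stabilizer_finset'.2 fun b hb => by
      obtain ⟨b1, b2⟩ := Finset.mem_erase.1 hb
      refine Finset.mem_erase.2 ⟨fun h => b1 (smul_left_cancel g (h.trans (hx g hg).symm)), ?_⟩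
      exact mem_stabilizer_finset'.1 (hKC hg) b2
    have h8 := size _ (Finset.notMem_erase x C) h6
    have h9 := Finset.pred_card_le_card_erase (s := C) (a := x)
    have h10 := Finset.card_erase_le (s := C) (a := x)
    have hC8 : C.card = 8 := by omega
    have ho : C ∈ octads := H7.mem_octads.2 ⟨hC, hC8⟩
    refine ⟨C, ho, ?_, hKC⟩
    by_contra hxC
    obtain ⟨-, -, ⟨e⟩⟩ := Cfsg.Agent.S1554.result C ho x hxC
    have hle : K.map M24.subtype ≤ M24 ⊓ stabilizer (Equiv.Perm GolayPt) C ⊓ stabilizer (Equiv.Perm GolayPt) x := by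
      rintro _ ⟨g, hg, rfl⟩
      exact ⟨⟨g.2, hKC hg⟩, hx g hg⟩
    have := Subgroup.card_le_of_le hle
    rw [Subgroup.card_map_of_injective M24.subtype_injective, hK, Nat.card_congr e.toEquiv, nat_card_alternatingGroup] at this
    simp [Nat.factorial] at this
  have good : ∀ S : Finset GolayPt, x ∉ S → K ≤ stabilizer M24 S → S.card = 2 ∨ S.card = 7 ∨ S.card = 8 →
      (∃ s : Finset GolayPt, s.card = 2 ∧ x ∉ s ∧ K ≤ stabilizer M24 s) ∨ ∃ o ∈ octads, x ∈ o ∧ K ≤ stabilizer M24 o := by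
    rintro S hxS hS (h | h | h)
    · exact Or.inl ⟨S, h, hxS, hS⟩
    · exact Or.inr (odd S (Or.inl h) hS)
    · refine Or.inr (odd (insert x S) (Or.inr (by rw [Finset.card_insert_of_notMem hxS, h])) fun g hg => ?_)
      rw [mem_stabilizer_iff, Finset.smul_finset_insert, hx g hg, hS hg]
  by_cases hall : ∀ y : GolayPt, ∀ g ∈ K, g • y = y
  · obtain ⟨s, hs, hs2⟩ := Finset.exists_subset_card_eq (s := Finset.univ.erase x) (n := 2)
      (by rw [Finset.card_erase_of_mem (Finset.mem_univ x)]; decide)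
    refine Or.inl ⟨s, hs2, fun h => Finset.notMem_erase x _ (hs h), fun g hg => mem_stabilizer_finset'.2 fun b hb => ?_⟩
    rw [hall b g hg]; exact hb
  · push Not at hall
    obtain ⟨y, g0, hg0, hy⟩ := hall
    let O : Finset GolayPt := (orbit K y).toFinset
    have hO : ∀ b, b ∈ O ↔ ∃ g ∈ K, g • y = b := fun b => by
      simp only [O, Set.mem_toFinset, mem_orbit_iff]
      exact ⟨fun ⟨g, h⟩ => ⟨g, g.2, h⟩, fun ⟨g, h1, h⟩ => ⟨⟨g, h1⟩, h⟩⟩
    have hxO : x ∉ O := fun h => by
      obtain ⟨g, h1, h2⟩ := (hO x).1 h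
      have : y = x := smul_left_cancel g (h2.trans (hx g h1).symm)
      exact hy (by rw [this]; exact hx _ hg0)
    have hKO : K ≤ stabilizer M24 O := fun g hg => mem_stabilizer_finset'.2 fun b hb => by
      obtain ⟨h, h1, rfl⟩ := (hO b).1 hb
      exact (hO _).2 ⟨g * h, K.mul_mem hg h1, mul_smul _ _ _⟩
    have hd : O.card ∣ 40320 := by
      rw [← hK, ← Set.ncard_eq_toFinset_card', ← index_stabilizer]
      exact Subgroup.index_dvd_card _
    have h2 : 1 < O.card := Finset.one_lt_card.2 ⟨_, (hO _).2 ⟨g0, hg0, rfl⟩, y, (hO _).2 ⟨1, K.one_mem, one_smul _ _⟩, hy⟩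
    have hsub : O ⊆ Finset.univ.erase x := fun b hb => Finset.mem_erase.2 ⟨fun h => hxO (h ▸ hb), Finset.mem_univ _⟩
    have hc := Finset.card_sdiff_add_card_eq_card hsub
    have h23 : (Finset.univ.erase x).card = 23 := by
      rw [Finset.card_erase_of_mem (Finset.mem_univ x)]; rfl
    have hKO' : K ≤ stabilizer M24 ((Finset.univ.erase x) \ O) := fun g hg => mem_stabilizer_finset'.2 fun b hb => by
      obtain ⟨b1, b2⟩ := Finset.mem_sdiff.1 hb
      refine Finset.mem_sdiff.2 ⟨Finset.mem_erase.2 ⟨fun h => (Finset.mem_erase.1 b1).1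
        (smul_left_cancel g (h.trans (hx g hg).symm)), Finset.mem_univ _⟩, fun h => b2 ?_⟩
      have := mem_stabilizer_finset'.1 (hKO (K.inv_mem hg)) h
      rwa [inv_smul_smul] at this
    have hs := size O hxO hKO
    have hcases : (O.card = 2 ∨ O.card = 7 ∨ O.card = 8) ∨ (O.card = 21 ∨ O.card = 16 ∨ O.card = 15) := by
      have h24 : O.card ≤ 23 := by omega
      generalize O.card = n at *
      interval_cases n <;> simp_all
    rcases hcases with h | h
    · exact good O hxO hKO h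
    · exact good _ (fun h => Finset.notMem_erase x _ (Finset.mem_sdiff.1 h).1) hKO' (by omega)

theorem dvd_index {H : Type*} [Group H] [Finite H] (S : Subgroup H) (p : ℕ) [Fact p.Prime]
    (hp : p ∣ Nat.card H) (h : ∀ g ∈ S, orderOf g ≠ p) : p ∣ S.index := by
  rw [← S.card_mul_index] at hp
  rcases (Nat.Prime.dvd_mul Fact.out).1 hp with h1 | h1
  · obtain ⟨x, hx⟩ := exists_prime_orderOf_dvd_card' p h1
    exact absurd ((Subgroup.orderOf_coe x).trans hx) (h x x.2)
  · exact h1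

theorem eq_of (x : GolayPt) (H T : Subgroup (stabilizer M24 x)) (hH : H.index = 253) (hHT : H ≤ T)
    (U : Finset GolayPt) (hU : U.card = 3 ∨ U.card = 8) (hT : ∀ t ∈ T, (t : M24) • U = U) : H = T := by
  haveI : Fact (Nat.Prime 11) := ⟨by norm_num⟩
  haveI : Fact (Nat.Prime 23) := ⟨by norm_num⟩
  have hG := Cfsg.Agent.S0376.result x
  have h11 : 11 ∣ T.index := dvd_index T 11 (by rw [hG]; norm_num) fun t ht ho => by
    obtain ⟨a, f, e1, e2, e3, e4, -⟩ := cnt t 11 (by norm_num) ((Subgroup.orderOf_coe t).trans ho) U (hT t ht)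
    omega
  have h23 : 23 ∣ T.index := dvd_index T 23 (by rw [hG]; norm_num) fun t ht ho => by
    obtain ⟨a, f, e1, e2, e3, e4, -⟩ := cnt t 23 (by norm_num) ((Subgroup.orderOf_coe t).trans ho) U (hT t ht)
    omega
  have h1 : 253 ∣ T.index := Nat.Coprime.mul_dvd_of_dvd_of_dvd (by norm_num : Nat.Coprime 11 23) h11 h23
  have h2 := Subgroup.index_dvd_of_le hHT
  rw [hH] at h2
  have h3 : T.index = 253 := Nat.dvd_antisymm h2 h1
  have h4 := Subgroup.relIndex_mul_index hHT
  rw [h3, hH] at h4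
  exact le_antisymm hHT (Subgroup.relIndex_eq_one.1 (by omega))

/-- Subgroups of index 253 in the Mathieu group of degree 23 are exactly the duad stabilisers and the heptad stabilisers. -/
theorem result (x : Cfsg.GolayPt) (H : Subgroup ↥(MulAction.stabilizer Cfsg.M24 x)) (hH : H.index = 253) : (∃ s : Finset Cfsg.GolayPt, s.card = 2 ∧ x ∉ s ∧ H = (MulAction.stabilizer Cfsg.M24 s).subgroupOf (MulAction.stabilizer Cfsg.M24 x)) ∨ ∃ o ∈ Cfsg.octads, x ∈ o ∧ H = (MulAction.stabilizer Cfsg.M24 o).subgroupOf (MulAction.stabilizer Cfsg.M24 x) := by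
  have hG := Cfsg.Agent.S0376.result x
  have hc := H.card_mul_index
  rw [hH, hG] at hc
  have hK : Nat.card (H.map (stabilizer M24 x).subtype) = 40320 := by
    rw [Subgroup.card_map_of_injective (stabilizer M24 x).subtype_injective]
    omega
  rcases core x _ hK (by rintro _ ⟨g, -, rfl⟩; exact g.2) with ⟨s, h1, h2, h3⟩ | ⟨o, h1, h2, h3⟩
  · refine Or.inl ⟨s, h1, h2, eq_of x H _ hH (fun g hg => h3 ⟨g, hg, rfl⟩) (insert x s)
      (Or.inl (by rw [Finset.card_insert_of_notMem h2, h1])) fun t ht => ?_⟩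
    have a1 : (t : M24) • x = x := t.2
    have a2 : (t : M24) • s = s := ht
    rw [Finset.smul_finset_insert, a1, a2]
  · exact Or.inr ⟨o, h1, h2, eq_of x H _ hH (fun g hg => h3 ⟨g, hg, rfl⟩) o (Or.inr h1.2) fun t ht => ht⟩

end Cfsg.Agent.S1609
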