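import Cfsg.Statements.S1610
import Cfsg.Agent.H8.TD
-- import your own Cfsg.Agent.* helpers here

set_option autoImplicit false
set_option maxRecDepth 200000
open Cfsg

namespace Cfsg.Agent.S1610

/-- The hexacode has 64 words, minimum weight 4, and weight distribution 0^1 4^45 6^18. -/
theorem result (F : Type*) [Field F] [Fintype F] [DecidableEq F] (hF : Fintype.card F = 4) (ω : F) (hω : ω ^ 2 + ω + 1 = 0) : Nat.card ↥(Cfsg.hexacode F ω) = 64 ∧ (∀ x ∈ Cfsg.hexacode F ω, x ≠ 0 → (Finset.univ.filter fun i => x i ≠ 0).card = 4 ∨ (Finset.univ.filter fun i => x i ≠ 0).card = 6) ∧ {x : Fin 6 → F | x ∈ Cfsg.hexacode F ω ∧ (Finset.univ.filter fun i => x i ≠ 0).card = 4}.ncard = 45 ∧ {x : Fin 6 → F | x ∈ Cfsg.hexacode F ω ∧ (Finset.univ.filter fun i => x i ≠ 0).card = 6}.ncard = 18 := by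
  have S := H8.TD.hsc hF hω
  have k : ∀ j, {x : Fin 6 → F | x ∈ hexacode F ω ∧ (Finset.univ.filter fun i => x i ≠ 0).card = j}.ncard =
      H8.cnt (4 ^ 3) fun i => Nat.beq (H7.pc24 (H8.lm H8.C4 4 3 6 H8.TD.hg i)) j := fun j =>
    S.ncard _ _ fun i => by rw [Nat.beq_eq, ← S.scard (n := 6) rfl (by norm_num)]
  simp only [k]
  refine ⟨?_, fun x hx h => ?_, by decide +kernel, by decide +kernel⟩
  · refine .trans ?_ ((S.ncard (fun _ => True) (fun _ => true) (by simp)).trans (by decide +kernel))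
    simp only [and_true]; rfl
  obtain ⟨i, hi, rfl⟩ := S.mem.1 hx
  rw [S.scard (n := 6) rfl (by norm_num)]
  refine ((show ∀ i < 4 ^ 3, i = 0 ∨ H7.pc24 (H8.lm H8.C4 4 3 6 H8.TD.hg i) ∈ [4, 6] by decide +kernel) i hi).elim
    (fun e => (h (by rw [e, S.w_eq]; simp [S.fm.zero])).elim) (by simp)

end Cfsg.Agent.S1610
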