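import Cfsg.Statements.S1612
import Cfsg.Agent.H2.F3d

set_option autoImplicit false
open Cfsg

namespace Cfsg.Agent.S1612

/-- In a 3-transposition group (no solvable normal subgroup, perfect derived group), the normaliser of a commuting set of transpositions of maximum size contains a Sylow 2-subgroup and is doubly transitive on the set. -/
theorem result {G : Type*} [Group G] [Finite G] (hsol : ∀ N : Subgroup G, N.Normal → Group.IsSolvable ↥N → N = ⊥) (hperf : ⁅commutator G, commutator G⁆ = commutator G) {D : Set G} (hD : Cfsg.IsThreeTranspositionClass D) {E : Set G} (hE : E ⊆ D) (hc : ∀ a ∈ E, ∀ b ∈ E, Commute a b) (hmax : ∀ E' : Set G, E' ⊆ D → (∀ a ∈ E', ∀ b ∈ E', Commute a b) → E'.ncard ≤ E.ncard) : (∃ P : Sylow 2 G, (P : Subgroup G) ≤ Subgroup.normalizer E) ∧ ∀ a ∈ E, ∀ b ∈ E, ∀ c ∈ E, ∀ d ∈ E, a ≠ b → c ≠ d → ∃ g ∈ Subgroup.normalizer E, g * a * g⁻¹ = c ∧ g * b * g⁻¹ = d := by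
  have p := H2F.PC.of_fischer hsol hperf hD
  have t := p.t
  haveI : Fact (Nat.Prime 2) := ⟨Nat.prime_two⟩
  have key : ∀ P : Subgroup G, IsPGroup 2 P → ∀ F : Set G, F ⊆ D ∩ P → E.ncard ≤ F.ncard → F = D ∩ P := fun P hP F l i =>
    Set.eq_of_subset_of_ncard_le l ((hmax _ Set.inter_subset_left fun a ha b hb => by
      by_contra c
      exact c (H2F.eq_of_mul t ha.1 (H2F.one_of_p hP (mul_mem ha.2 hb.2) (H2F.cube_n t ha.1 hb.1 c) (by norm_num)) ▸
        Commute.refl a)).trans i)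
  have two := H2F.two_closure t hE hc
  constructor
  · obtain ⟨P, hP⟩ := two.exists_le_sylow
    refine ⟨P, fun g hg => Subgroup.mem_normalizer_fintype fun y hy => ?_⟩
    have e := key P P.isPGroup' E (fun y hy => ⟨hE hy, hP (Subgroup.subset_closure hy)⟩) le_rfl
    rw [e] at hy ⊢
    exact ⟨p.cm g y hy.1, mul_mem (mul_mem hg hy.2) (inv_mem hg)⟩
  · intro a ha b hb c hc' d hd n n'
    obtain ⟨g, g1, g2⟩ := p.pair (hE ha) ⟨hE hb, n.symm, hc a ha b hb⟩ (hE hc') ⟨hE hd, n'.symm, hc c hc' d hd⟩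
    let C := Subgroup.centralizer ({c, d} : Set G)
    have l1 : Subgroup.closure E ≤ C := (Subgroup.closure_le _).2 fun y hy z hz => by
      rcases hz with rfl | rfl
      exacts [hc _ hc' y hy, hc _ hd y hy]
    have l2 : H9.cj g (Subgroup.closure E) ≤ C := by
      rw [H9.cj_le_iff, Subgroup.closure_le]
      intro y hy
      rw [SetLike.mem_coe, H9.mem_cj, inv_inv]
      intro z hz
      rcases hz with rfl | rfl
      · rw [← g1]; exact (H7.conj_comm g).2 (hc a ha y hy)
      · rw [← g2]; exact (H7.conj_comm g).2 (hc b hb y hy)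
    obtain ⟨P, hP, l3⟩ := H9.exists_syl_ge two l1
    obtain ⟨k, hk, l4⟩ := hP.exists_cj_le (H9.isPGroup_cj g two) l2
    have e := key P hP.isP E (fun y hy => ⟨hE hy, l3 (Subgroup.subset_closure hy)⟩) le_rfl
    refine ⟨k * g, Subgroup.mem_normalizer_fintype fun y hy => ?_, ?_, ?_⟩
    · refine e.ge ⟨p.cm _ y (hE hy), l4 ?_⟩
      rw [← H9.cj_mul]
      exact H9.conj_mem_cj (Subgroup.subset_closure hy)
    · rw [← H7.conj_eq_self.2 (hk c (by simp)).symm, ← g1]; group
    · rw [← H7.conj_eq_self.2 (hk d (by simp)).symm, ← g2]; group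

end Cfsg.Agent.S1612
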