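import Cfsg.Statements.S1615
import Cfsg.Agent.H2.F3d

set_option autoImplicit false
open Cfsg

namespace Cfsg.Agent.S1615

/-- If O(⟨D_x⟩) is not central in ⟨D_x⟩ for some transposition x, the 3-transposition group is the symmetric group of degree 5. -/
theorem result {G : Type*} [Group G] [Finite G] (hsol : ∀ N : Subgroup G, N.Normal → Group.IsSolvable ↥N → N = ⊥) (hperf : ⁅commutator G, commutator G⁆ = commutator G) {D : Set G} (hD : Cfsg.IsThreeTranspositionClass D) (x : G) (hx : x ∈ D) (h : ¬ Cfsg.oddCore ↥(Subgroup.closure {y : G | y ∈ D ∧ y ≠ x ∧ Commute x y}) ≤ Subgroup.center ↥(Subgroup.closure {y : G | y ∈ D ∧ y ≠ x ∧ Commute x y})) : Nonempty (G ≃* Equiv.Perm (Fin 5)) := by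
  have p := H2F.PC.of_fischer hsol hperf hD
  have l := p.loc hx
  obtain ⟨e, he⟩ := l.ne
  obtain ⟨y, hy, n⟩ := l.exists_nc (M := pPrimeCore 2 _) he h
  haveI : Fact (Nat.Prime 2) := ⟨Nat.prime_two⟩
  have w := l.W_of (N := pPrimeCore 2 _) (fun z hz e => orderOf_eq_one_iff.1 (Nat.eq_one_of_dvd_coprimes (H9.pPrimeCore_cop 2)
    (H9.orderOf_dvd_card_of_mem hz) (orderOf_dvd_of_pow_eq_one e))) he (l.cm y e he) (H2F.TC.mul_cj_mem l.t he hy)
  refine p.sym5 hx he w.2.1 (fun k => n (Subtype.ext k).symm) (Set.ext fun z => ?_)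
  have k : ∀ a : Subgroup.closure (H7.Dp D x), z ∈ H7.Dp (H7.Dp D x) a ↔
      ∃ hz : z ∈ H7.Dp D x, (⟨z, Subgroup.subset_closure hz⟩ : Subgroup.closure (H7.Dp D x)) ∈ H7.Dp ((↑) ⁻¹' H7.Dp D x) a :=
    fun a => ⟨fun k => ⟨k.1, k.1, fun e => k.2.1 (congrArg Subtype.val e), Subtype.ext k.2.2⟩,
      fun ⟨hz, k⟩ => ⟨hz, fun e => k.2.1 (Subtype.ext e), congrArg Subtype.val k.2.2⟩⟩
  rw [k, k, w.2.2]

end Cfsg.Agent.S1615
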