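import Cfsg.Statements.S1618
import Cfsg.Agent.S0215
import Cfsg.Agent.H9.Cop
import Cfsg.Agent.H1.Product

set_option autoImplicit false
open Cfsg

namespace Cfsg.Agent.S1618

open Subgroup

theorem aux {G : Type*} [Group G] {D : Set G} {d : G} (hd : d * d = 1) (hgen : Subgroup.closure D = ⊤)
    (K : Subgroup G) [hK : K.Normal] (h : ∀ x ∈ D, x * d ∈ K) (g : G) :
    (g : G ⧸ K) = 1 ∨ (g : G ⧸ K) = (d : G ⧸ K) := by
  have hd' : (d : G ⧸ K) * (d : G ⧸ K) = 1 := by rw [← QuotientGroup.mk_mul, hd]; rfl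
  have hg : g ∈ Subgroup.closure D := hgen ▸ mem_top g
  induction hg using Subgroup.closure_induction with
  | mem x hx =>
    right
    have := (QuotientGroup.eq_one_iff _).2 (h x hx)
    rw [QuotientGroup.mk_mul] at this
    exact mul_right_cancel (this.trans hd'.symm)
  | one => exact Or.inl rfl
  | mul x y _ _ hx hy =>
    rw [QuotientGroup.mk_mul]
    rcases hx with hx | hx <;> rcases hy with hy | hy <;> simp [hx, hy, hd']
  | inv x _ hx =>
    rw [QuotientGroup.mk_inv]
    rcases hx with hx | hx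
    · simp [hx]
    · right; rw [hx]; exact inv_eq_of_mul_eq_one_right hd'

/-- A group generated by a class of involutions whose pairwise products (of distinct members) have p-power order for a fixed odd prime p has nilpotent derived subgroup. -/
theorem result {G : Type*} [Group G] [Finite G] (p : ℕ) (hp : p.Prime) (hodd : p ≠ 2) {D : Set G} (hinv : ∀ d ∈ D, orderOf d = 2) (hconj : ∃ d ∈ D, D = conjugatesOf d) (hgen : Subgroup.closure D = ⊤) (hprod : ∀ x ∈ D, ∀ y ∈ D, x ≠ y → ∃ k : ℕ, orderOf (x * y) = p ^ k) : Group.IsNilpotent ↥(commutator G) := by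
  classical
  haveI : Fact p.Prime := ⟨hp⟩
  haveI : Fact (Nat.Prime 2) := ⟨Nat.prime_two⟩
  obtain ⟨d, hdD, hD⟩ := hconj
  have hsq : ∀ x ∈ D, x * x = 1 := fun x hx => by rw [← pow_two, ← hinv x hx, pow_orderOf_eq_one]
  have hd := hsq d hdD
  have hdi : d⁻¹ = d := inv_eq_of_mul_eq_one_right hd
  have hcj : ∀ x ∈ D, ∀ g : G, g * x * g⁻¹ ∈ D := fun x hx g => by
    rw [hD] at hx ⊢
    exact IsConj.trans hx (isConj_iff.2 ⟨g, rfl⟩)
  have hex : ∀ x ∈ D, ∃ g : G, g * d * g⁻¹ = x := fun x hx => by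
    rw [hD] at hx; exact isConj_iff.1 hx
  -- products lying in a q-group, q ≠ p, are trivial
  have hq : ∀ (q : ℕ) [Fact q.Prime], q ≠ p → ∀ Q : Subgroup G, IsPGroup q Q → ∀ x ∈ D, ∀ y ∈ D,
      x * y ∈ Q → x = y := by
    intro q hq hqp Q hQ x hx y hy hxy
    by_contra hne
    obtain ⟨k, hk⟩ := hprod x hx y hy hne
    obtain ⟨m, hm⟩ := IsPGroup.iff_orderOf.1 hQ ⟨_, hxy⟩
    rw [Subgroup.orderOf_mk, hk] at hm
    have h1 : orderOf (x * y) = 1 := by
      rw [hk]
      have hc : (p ^ k).Coprime (q ^ m) := Nat.coprime_pow_primes _ _ hp hq.out hqp.symm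
      rw [← hm] at hc
      exact (Nat.coprime_self _).1 hc
    rw [orderOf_eq_one_iff] at h1
    exact hne (mul_right_cancel (h1.trans (hsq y hy).symm))
  obtain ⟨S, hS⟩ : ∃ S : Sylow 2 G, d ∈ (S : Subgroup G) := by
    have : IsPGroup 2 (zpowers d) := IsPGroup.of_card (n := 1) (by rw [Nat.card_zpowers, hinv d hdD]; rfl)
    obtain ⟨S, hS⟩ := this.exists_le_sylow
    exact ⟨S, hS (mem_zpowers d)⟩
  obtain ⟨N, hNn, hNodd, hN⟩ := Cfsg.Agent.S0215.result S d (hinv d hdD) hS (fun g hg =>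
    hq 2 hodd.symm S S.isPGroup' _ (hcj d hdD g) d hdD ((S : Subgroup G).mul_mem hg hS))
  have hxd : ∀ x ∈ D, x * d ∈ N := fun x hx => by
    obtain ⟨g, rfl⟩ := hex x hx
    have := N.inv_mem (hN g)
    simpa [hdi, mul_assoc] using this
  have hA : zpowers d ≤ normalizer (N : Set G) := by rw [normalizer_eq_top]; exact le_top
  have hcop : H9.CopA (zpowers d) N := ⟨by
    rw [Nat.card_zpowers, hinv d hdD]; exact (Nat.coprime_two_left).2 hNodd,
    Or.inl (Group.isSolvable_of_comm fun a b => mul_comm' a b)⟩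
  obtain ⟨P, hP, hPd⟩ := H9.cop_exists_syl hA hcop p
  have hPd' : ∀ u ∈ P, d * u * d⁻¹ ∈ P := fun u hu => (mem_normalizer_iff.1 (hPd (mem_zpowers d)) u).1 hu
  set C := N ⊓ centralizer ({d} : Set G) with hC
  have hfac : H1.Fac P C N := by
    refine H1.fac_of_coprime_relIndex hP.le inf_le_left (Nat.coprime_of_dvd fun q hqp h1 h2 => ?_)
    haveI : Fact q.Prime := ⟨hqp⟩
    by_cases e : q = p
    · subst e; exact hP.not_dvd h1
    · obtain ⟨Q, hQ, hQd⟩ := H9.cop_exists_syl hA hcop q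
      have hQC : Q ≤ C := fun x hx => ⟨hQ.le hx, by
        have h3 : d * x⁻¹ * d⁻¹ ∈ Q := (mem_normalizer_iff.1 (hQd (mem_zpowers d)) _).1 (Q.inv_mem hx)
        have h4 := hq q e Q hQ.isP _ (hcj d hdD x) d hdD (by
          have := Q.mul_mem hx h3
          simpa [hdi, mul_assoc] using this)
        refine mem_centralizer_iff.2 ?_
        intro z hz
        rw [Set.mem_singleton_iff.1 hz]
        calc d * x = (x * d * x⁻¹) * x := by rw [h4]
          _ = x * d := by group⟩
      exact hQ.not_dvd (h2.trans (relIndex_dvd_of_le_left N hQC))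
  have hexP : ∀ x ∈ D, ∃ u ∈ P, u * d * u⁻¹ = x := fun x hx => by
    obtain ⟨g, rfl⟩ := hex x hx
    have key : ∀ n ∈ N, ∃ u ∈ P, u * d * u⁻¹ = n * d * n⁻¹ := fun n hn => by
      obtain ⟨u, hu, c, hc, rfl⟩ := hfac.ex n hn
      refine ⟨u, hu, ?_⟩
      have : d * c = c * d := (mem_centralizer_iff.1 hc.2) d rfl
      calc u * d * u⁻¹ = u * (d * c) * c⁻¹ * u⁻¹ := by group
        _ = _ := by rw [this]; group
    rcases aux hd hgen N hxd g with h | h
    · exact key g ((QuotientGroup.eq_one_iff _).1 h)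
    · have h1 : g * d ∈ N := by
        rw [← QuotientGroup.eq_one_iff, QuotientGroup.mk_mul, h, ← QuotientGroup.mk_mul, hd]; rfl
      obtain ⟨u, hu, e⟩ := key _ h1
      exact ⟨u, hu, by rw [e]; group⟩
  have hprodP : ∀ x ∈ D, ∀ y ∈ D, x * y ∈ P := fun x hx y hy => by
    obtain ⟨u, hu, rfl⟩ := hexP x hx
    obtain ⟨v, hv, rfl⟩ := hexP y hy
    have := P.mul_mem (P.mul_mem hu (hPd' _ (P.mul_mem (P.inv_mem hu) hv))) (P.inv_mem hv)
    simpa [hdi, mul_assoc] using this
  have hcore : ∀ x ∈ D, x * d ∈ P.normalCore := fun x hx g => by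
    have := hprodP _ (hcj x hx g) _ (hcj d hdD g)
    simpa [mul_assoc] using this
  have hle : commutator G ≤ P.normalCore := by
    rw [_root_.commutator, Subgroup.commutator_le]
    intro a _ b _
    rw [← QuotientGroup.eq_one_iff, commutatorElement_def]
    simp only [QuotientGroup.mk_mul, QuotientGroup.mk_inv]
    rcases aux hd hgen _ hcore a with h1 | h1 <;> rcases aux hd hgen _ hcore b with h2 | h2 <;>
      simp [h1, h2]
  exact (hP.isP.to_le (hle.trans P.normalCore_le)).isNilpotent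

end Cfsg.Agent.S1618
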