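import Cfsg.Statements.S1620
import Cfsg.Agent.H8.XJ2
import Cfsg.Agent.H8.SJ2
-- import your own Cfsg.Agent.* helpers here

set_option autoImplicit false
open Quaternion
open Cfsg

namespace Cfsg.Agent.S1620

/-- The Hall–Janko group is simple and non-abelian. -/
theorem result : IsSimpleGroup Cfsg.Spor.J2 ∧ ∃ a b : Cfsg.Spor.J2, a * b ≠ b * a := by
  haveI := H8.J2.simple
  haveI : IsSimpleGroup Spor.J2 := H8.J2.iso.some.isSimpleGroup
  refine ⟨this, ?_⟩
  by_contra! hc
  letI : CommGroup Spor.J2 := { (inferInstance : Group Spor.J2) with mul_comm := hc }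
  haveI : Finite Spor.J2 := Nat.finite_of_card_ne_zero (by rw [H8.J2.cardJ2]; norm_num)
  have := (CommGroup.is_simple_iff_prime_card (α := Spor.J2)).1 inferInstance
  rw [H8.J2.cardJ2] at this
  norm_num at this

end Cfsg.Agent.S1620
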