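import Cfsg.Statements.S1622
import Cfsg.Agent.H8.XJ2
-- import your own Cfsg.Agent.* helpers here

set_option autoImplicit false
open Quaternion
open Cfsg

namespace Cfsg.Agent.S1622

/-- The reflection group is transitive on its 315 reflections by conjugation. -/
theorem result (f f' : Equiv.Perm ↥Cfsg.Spor.icoLeech) (hf : Cfsg.Spor.IsIcoReflection f) (hf' : Cfsg.Spor.IsIcoReflection f') : ∃ g ∈ Cfsg.Spor.twoJ2, g * f * g⁻¹ = f' := by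
  obtain ⟨r, rfl⟩ := H8.Ico.isRefl_iff.1 hf
  obtain ⟨s, rfl⟩ := H8.Ico.isRefl_iff.1 hf'
  obtain ⟨a, ha, e⟩ := H8.J2.all_F r
  obtain ⟨b, hb, e'⟩ := H8.J2.all_F s
  obtain ⟨g, -, hg⟩ := H8.J2.trans ha
  obtain ⟨h, -, hh⟩ := H8.J2.trans hb
  have : (h⁻¹ * g) • H8.Ico.F H8.Ico.R a = H8.Ico.F H8.Ico.R b := by rw [mul_smul, hg, ← hh, inv_smul_smul]
  rw [e, e']
  exact ⟨(h⁻¹ * g).1, (h⁻¹ * g).2, this⟩

end Cfsg.Agent.S1622
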