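import Cfsg.Statements.S1623
import Cfsg.Agent.H8.CJ2
import Cfsg.Agent.H8.XJ2
-- import your own Cfsg.Agent.* helpers here

set_option autoImplicit false
set_option maxRecDepth 200000
open Quaternion
open Cfsg

namespace Cfsg.Agent.S1623

/-- A reflection centraliser in the Hall–Janko group is an extension of an extraspecial group of order 32 by the alternating group of degree 5. -/
theorem result (f : Equiv.Perm ↥Cfsg.Spor.icoLeech) (hf : Cfsg.Spor.IsIcoReflection f) (hfm : f ∈ Cfsg.Spor.twoJ2) : ∃ (Q : Subgroup ↥(Subgroup.centralizer {(QuotientGroup.mk ⟨f, hfm⟩ : Cfsg.Spor.J2)})) (_ : Q.Normal), Nat.card Q = 32 ∧ Cfsg.IsExtraspecial 2 Q ∧ Nonempty (↥(Subgroup.centralizer {(QuotientGroup.mk ⟨f, hfm⟩ : Cfsg.Spor.J2)}) ⧸ Q ≃* alternatingGroup (Fin 5)) := by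
  
  obtain ⟨ε, hε⟩ := H8.J2.exists_iso
  obtain ⟨r, rfl⟩ := H8.Ico.isRefl_iff.1 hf
  obtain ⟨a, ha, e⟩ := H8.J2.all_F r
  obtain ⟨g, -, e'⟩ := H8.J2.trans ha
  have h1 : IsConj (H8.Ico.Fg H8.Ico.R 180) ⟨_, hfm⟩ :=
    (isConj_iff.2 ⟨g, by rw [← e] at e'; exact Subtype.ext e'⟩).symm
  have h2 := H8.Like.rep' H8.J2.inj (hε _) (H8.J2.rep 0 (by norm_num))
  have C := H8.J2.C.cent H8.J2.std (x := ε (H8.Ico.Fg H8.Ico.R 180 : Spor.twoJ2)) (H8.RepF.congr h2 (by decide +kernel))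
  obtain ⟨e1⟩ := H8.cent_conj ((QuotientGroup.mk' (Subgroup.center Spor.twoJ2)).map_isConj h1)
  obtain ⟨e2⟩ := H8.cent_equiv ε (H8.Ico.Fg H8.Ico.R 180 : Spor.twoJ2)
  obtain ⟨_, _, C'⟩ := C.act ⟨e1.trans e2.symm⟩
  obtain ⟨Q, _, h3, h4, -, -, h5⟩ := H8.J2.C.str C'
  exact ⟨Q, _, h4, h3, h5⟩

end Cfsg.Agent.S1623
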