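import Cfsg.Statements.S1624
import Cfsg.Agent.H8.KJ2h
import Cfsg.Agent.H8.XJ2
import Cfsg.Agent.H8.XU33
-- import your own Cfsg.Agent.* helpers here

set_option autoImplicit false
set_option maxRecDepth 200000
open Quaternion
open Cfsg

namespace Cfsg.Agent.S1624

/-- The Hall–Janko group contains PSU(3, 3) with index 100 and acts on the 100 cosets with rank 3 and subdegrees 1, 36, 63. -/
theorem result : ∃ H : Subgroup Cfsg.Spor.J2, H.index = 100 ∧ (∃ (F : Type) (_ : Field F) (_ : Fintype F), Fintype.card F = 9 ∧ Nonempty (↥H ≃* Cfsg.PSU 3 F 3)) ∧ ∃ c₁ c₂ : Cfsg.Spor.J2 ⧸ H, (MulAction.orbit ↥H c₁).ncard = 36 ∧ (MulAction.orbit ↥H c₂).ncard = 63 := by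
  
  obtain ⟨_, _, S⟩ := H8.J2h.std.act' ⟨H8.J2.iso.some.trans H8.J2h.K.iso.some⟩
  obtain ⟨H, h1, ⟨e⟩, h2⟩ := H8.J2h.K.sub S
  haveI : Fact (Nat.Prime 3) := ⟨by norm_num⟩
  letI : Fintype (GaloisField 3 2) := Fintype.ofFinite _
  have hF : Fintype.card (GaloisField 3 2) = 9 := by rw [← Nat.card_eq_fintype_card, GaloisField.card 3 2 (by norm_num)]; norm_num
  exact ⟨H, h1, ⟨_, _, _, hF, ⟨((H8.U33.iso hF).some.trans e).symm⟩⟩, h2⟩

end Cfsg.Agent.S1624
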