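import Cfsg.Statements.S1631
import Cfsg.Agent.H5.T3

set_option autoImplicit false
open scoped MatrixGroups
open Cfsg

namespace Cfsg.Agent.S1631

open H5 H5.Form Module Matrix Subgroup

/-- The unitary transvections of SU(n, 2), n ≥ 4, form a generating conjugacy class of 3-transpositions. -/
theorem result (F : Type) [Field F] [Fintype F] [DecidableEq F] (hF : Fintype.card F = 4) (n : ℕ) (hn : 4 ≤ n) : Cfsg.IsThreeTranspositionClass {g : ↥(Cfsg.SU n F 2) | (((g : Matrix.SpecialLinearGroup (Fin n) F) : Matrix (Fin n) (Fin n) F) - 1).rank = 1} := by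
  have hF : Fintype.card F = 2 ^ 2 := hF
  have c2 : (2 : F) = 0 := by
    obtain ⟨p, k, hp, _, hk, e⟩ := exists_pow_of_card_sq hF
    obtain rfl : p = 2 := (Nat.prime_dvd_prime_iff_eq hp Nat.prime_two).1 (e ▸ dvd_pow_self p (by omega))
    exact_mod_cast CharP.cast_eq_zero F 2
  have N : ∀ a : F, a ≠ 0 → a * conj hF a = 1 := fun a h => by
    have := FiniteField.pow_card_sub_one_eq_one a h
    rw [hF] at this; rw [conj_apply, ← this]; ring
  have two : ∀ a : F, a ≠ 0 → a + conj hF a = 0 → a = 1 := fun a h e => by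
    rw [conj_apply] at e
    exact mul_left_cancel₀ h (by linear_combination e - a * c2)
  have h := hermF_nondeg n hF
  have hD : ∀ g : Cfsg.SU n F 2, (g.1.1 - 1).rank = 1 ↔
      ∃ p, (p ≠ 0 ∧ (hermF n hF).Q p = 0) ∧ ∀ z, (suEquiv n hF g).1 z = z - (1 * (hermF n hF).B z p) • p := fun g => by
    rw [rank_sub_one (suEquiv_apply n hF g)]
    refine ⟨fun H => ?_, fun ⟨p, hp, e⟩ => h.rank_of hp.1 one_ne_zero e⟩
    obtain ⟨p, a, ha, p0, a0, e⟩ := h.rank_one (suEquiv n hF g).2.1 H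
    have d := det_refl ha a0
    rw [← e, LinearEquiv.coe_det, (mem_sisom _).1 (suEquiv n hF g).2 |>.2, eq_div_iff a0] at d
    have d : a + conj hF a = 0 := by simp at d; linear_combination d
    obtain rfl := two a a0 d
    exact ⟨p, ⟨p0, ha ▸ d⟩, fun z => by rw [e, refl_apply, inv_one]⟩
  have hr : ∀ u hu hv ha, u ≠ 0 → (suEquiv n hF).symm ⟨_, eich_mem_sisom (Φ := hermF n hF) (u := u) (v := 0) (a := 1) hu hv ha⟩ ∈
      {g : Cfsg.SU n F 2 | (g.1.1 - 1).rank = 1} := fun u hu hv ha u0 =>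
    (hD _).2 ⟨u, ⟨u0, hu⟩, fun z => by rw [MulEquiv.apply_symm_apply, eich_apply]; simp [-hermF_B]⟩
  refine h.t3 ((hermF n hF).sisom.subtype.comp (suEquiv n hF).toMonoidHom) (Subtype.val_injective.comp (suEquiv n hF).injective)
    (fun g => (suEquiv n hF g).2.1) (fun p => p ≠ 0 ∧ (hermF n hF).Q p = 0) one_ne_zero hD
    (fun p hp => ⟨hp.1, by rw [← unit_Q, hp.2, c2, mul_zero]⟩)
    (fun p q _ _ => ?_) (fun g p hp => ⟨(LinearEquiv.map_ne_zero_iff _).2 hp.1, ((suEquiv n hF g).2.1.2 p).trans hp.2⟩) (fun p q hp hq => ?_) ?_ ?_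
  · rw [or_iff_not_imp_left, unit_symm _ p q, one_mul, one_mul]; exact N _
  · obtain ⟨g, hg, c, c0, e⟩ := h.EG_point (.inl unit_ker) hp.2 hq.2 hp.1 hq.1
    exact ⟨(suEquiv n hF).symm ⟨g, EG_le_sisom hg⟩, c, N c c0, by simpa using e⟩
  · obtain ⟨e, f, H⟩ := h.unit_hyp (by simp; omega)
    exact ⟨_, hr e H.1 (by simp) (by simp [-hermF_Q]; linear_combination c2) H.e_ne⟩
  · refine closure_eq_top_of_equiv (suEquiv n hF) (h.unit_TG (by simp; omega)).ge ?_
    rintro _ ⟨u, a, hu, ha, rfl⟩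
    by_cases c : u = 0 ∨ a = 0
    · exact ⟨1, one_mem _, LinearEquiv.ext fun z => by rcases c with rfl | rfl <;> simp [eich_apply, -sympF_B, -hermF_B]⟩
    obtain rfl := two a (not_or.1 c).2 (by simpa [-hermF_Q] using ha)
    exact ⟨_, subset_closure (hr u hu (by simp) ha (not_or.1 c).1), by simp⟩


end Cfsg.Agent.S1631
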