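import Cfsg.Statements.S1636
import Cfsg.Agent.H8.GO
-- import your own Cfsg.Agent.* helpers here

set_option autoImplicit false
set_option maxRecDepth 200000
open Cfsg

namespace Cfsg.Agent.S1636

noncomputable def d (i : ℕ) (x : ZMod 23) : ZMod 2 := H7.wd (H7.enc i) (some x)

theorem nrm (i : ℕ) : hammingNorm (d i) = H7.pc24 (H7.enc i &&& 8388607) := by
  rw [← H7.card_fs, H7.fs, H7.Coding.fs_and, ← H7.fs, ← H7.support_wd, hammingNorm]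
  refine Finset.card_nbij some (fun x hx => ?_) (Option.some_injective _).injOn fun p hp => ?_
  · exact Finset.mem_coe.2 (Finset.mem_inter.2 ⟨Finset.mem_filter.2 ⟨Finset.mem_univ _, (Finset.mem_filter.1 hx).2⟩, by clear hx; revert x; decide +kernel⟩)
  · obtain ⟨h1, h2⟩ := Finset.mem_inter.1 hp
    cases p
    · exact absurd h2 (by decide +kernel)
    · exact ⟨_, Finset.mem_filter.2 ⟨Finset.mem_univ _, (Finset.mem_filter.1 h1).2⟩, rfl⟩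

theorem mem {u : ZMod 23 → ZMod 2} : (∃ w ∈ golayCode, ∀ x : ZMod 23, u x = w (some x)) ↔ ∃ i < 2 ^ 12, d i = u :=
  ⟨fun ⟨_, h, e⟩ => let ⟨i, hi, e'⟩ := H7.mem_golay_iff.1 h; ⟨i, hi, funext fun x => by rw [e, e']; rfl⟩,
    fun ⟨i, hi, e⟩ => ⟨_, H7.mem_golay_iff.2 ⟨i, hi, rfl⟩, fun x => e ▸ rfl⟩⟩

theorem low : ∀ i < 4096, i = 0 ∨ 7 ≤ H7.pc24 (H7.enc i &&& 8388607) := fun i hi => by
  have := H8.allB_iff.1 (show (H8.allB 4096 fun i => H8.bor (Nat.beq i 0) (Nat.ble 7 (H7.pc24 (Nat.land (H7.enc i) 8388607)))) = true by decide +kernel) i hi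
  rwa [H8.bor_eq_true, Nat.beq_eq, Nat.ble_eq] at this

theorem inj : H7.Inj (2 ^ 12) d := fun i hi j hj e => by
  have h : d (i ^^^ j) = 0 := by
    ext x; rw [d, H7.enc, H7.encL_xor, H7.wd_xor]; exact (congrArg (_ + ·) (congrFun e x).symm).trans (CharTwo.add_self_eq_zero _)
  have := low _ (Nat.xor_lt_two_pow hi hj)
  rw [← nrm, h, hammingNorm_zero] at this
  exact Nat.xor_eq_zero_iff.1 (this.resolve_right (by norm_num))

theorem cnt (k : ℕ) : {u : ZMod 23 → ZMod 2 | u ∈ {u : ZMod 23 → ZMod 2 | ∃ w ∈ golayCode, ∀ x : ZMod 23, u x = w (some x)} ∧ hammingNorm u = k}.ncard =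
    H7.cntB (fun i => Nat.beq (H7.pc24 (Nat.land (H7.enc i) 8388607)) k) 12 := by
  rw [← H7.ncard_eq_cntB inj]
  congr 1; ext u
  simp only [Set.mem_setOf_eq, mem, Nat.beq_eq]
  exact ⟨fun ⟨⟨i, hi, e⟩, h⟩ => ⟨i, hi, by rw [← h, ← e, nrm]; rfl, e⟩, fun ⟨i, hi, h, e⟩ => ⟨⟨i, hi, e⟩, by rw [← h, ← e, nrm]; rfl⟩⟩


/-- The punctured length-23 code has weight distribution 0^1 7^253 8^506 11^1288 12^1288 15^506 16^253 23^1. -/
theorem result : {u : ZMod 23 → ZMod 2 | ∃ w ∈ Cfsg.golayCode, ∀ x : ZMod 23, u x = w (some x)}.ncard = 4096 ∧ {u : ZMod 23 → ZMod 2 | u ∈ {u : ZMod 23 → ZMod 2 | ∃ w ∈ Cfsg.golayCode, ∀ x : ZMod 23, u x = w (some x)} ∧ hammingNorm u = 7}.ncard = 253 ∧ {u : ZMod 23 → ZMod 2 | u ∈ {u : ZMod 23 → ZMod 2 | ∃ w ∈ Cfsg.golayCode, ∀ x : ZMod 23, u x = w (some x)} ∧ hammingNorm u = 8}.ncard = 506 ∧ {u : ZMod 23 → ZMod 2 | u ∈ {u : ZMod 23 → ZMod 2 | ∃ w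 ∈ Cfsg.golayCode, ∀ x : ZMod 23, u x = w (some x)} ∧ hammingNorm u = 11}.ncard = 1288 ∧ {u : ZMod 23 → ZMod 2 | u ∈ {u : ZMod 23 → ZMod 2 | ∃ w ∈ Cfsg.golayCode, ∀ x : ZMod 23, u x = w (some x)} ∧ hammingNorm u = 12}.ncard = 1288 ∧ {u : ZMod 23 → ZMod 2 | u ∈ {u : ZMod 23 → ZMod 2 | ∃ w ∈ Cfsg.golayCode, ∀ x : ZMod 23, u x = w (some x)} ∧ hammingNorm u = 15}.ncard = 506 ∧ {u : ZMod 23 → ZMod 2 | u ∈ {u : ZMod 23 → ZMod 2 | ∃ w ∈ Cfsg.golayCode, ∀ x : ZMod 23, u x = w (some x)} ∧ hammingNorm u = 16}.ncard = 253 ∧ ∀ u ∈ {u : ZMod 23 → ZMod 2 | ∃ w ∈ Cfsg.golayCode, ∀ x : ZMod 23, u x = w (some x)}, u ≠ 0 → 7 ≤ hammingNorm u := by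
  simp only [cnt]
  refine ⟨?_, by decide +kernel, by decide +kernel, by decide +kernel, by decide +kernel, by decide +kernel, by decide +kernel, fun u hu h => ?_⟩
  · refine .trans ?_ ((H7.ncard_eq_cntB inj fun _ => true).trans (by decide +kernel))
    simp only [mem, true_and]
  · obtain ⟨i, hi, rfl⟩ := mem.1 hu
    exact nrm i ▸ (low i hi).resolve_left fun e => h (by rw [e]; decide +kernel)

end Cfsg.Agent.S1636
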