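import Cfsg.Statements.S1637
import Cfsg.Agent.S1636
import Cfsg.Agent.H8.GO
-- import your own Cfsg.Agent.* helpers here

set_option autoImplicit false
set_option maxRecDepth 200000
open Cfsg

namespace Cfsg.Agent.S1637

theorem res (v : GolayPt → ZMod 2) : hammingNorm v = hammingNorm (fun x => v (some x)) + if v none = 0 then 0 else 1 := by
  simp only [hammingNorm, Finset.card_filter, Fintype.sum_option, ite_not]; rw [add_comm]


/-- The punctured length-23 code is a perfect 3-error-correcting code: each word of length 23 is within distance 3 of exactly one codeword. -/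
theorem result (u : ZMod 23 → ZMod 2) : ∃! c : ZMod 23 → ZMod 2, c ∈ {u : ZMod 23 → ZMod 2 | ∃ w ∈ Cfsg.golayCode, ∀ x : ZMod 23, u x = w (some x)} ∧ hammingDist u c ≤ 3 := by
  refine existsUnique_of_exists_of_unique ?_ fun c c' ⟨⟨w, h1, h2⟩, h3⟩ ⟨⟨w', h4, h5⟩, h6⟩ => sub_eq_zero.1 (by_contra fun e => ?_)
  · have k : ∀ a, ∃ v : GolayPt → ZMod 2, v - (Option.elim · a u) ∈ golayCode ∧ hammingNorm v ≤ 4 ∧
        (hammingNorm v + (hammingNorm u + if a = 0 then 0 else 1)) % 2 = 0 := fun a => by
      obtain ⟨v, h1, h2⟩ := H8.leader rfl H8.card_golay H8.golay_min (Option.elim · a u)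
      have := H8.norm_sub v (Option.elim · a u)
      have := H7.weights (H7.support_mem_iff.2 h1)
      rw [← H7.hammingNorm_eq] at this
      exact ⟨v, h1, h2, by erw [← res (Option.elim · a u)]; omega⟩
    obtain ⟨a, v, h1, h2⟩ : ∃ a, ∃ v : GolayPt → ZMod 2, v - (Option.elim · a u) ∈ golayCode ∧ hammingNorm v ≤ 3 := by
      obtain ⟨v, h1, h2, h3⟩ := k 0
      obtain ⟨v', h4, h5, h6⟩ := k 1
      rw [if_pos rfl] at h3
      rw [if_neg (by decide)] at h6
      by_cases h : hammingNorm v ≤ 3
      exacts [⟨_, v, h1, h⟩, ⟨_, v', h4, by omega⟩]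
    refine ⟨_, ⟨_, neg_mem h1, fun _ => rfl⟩, ?_⟩
    rw [hammingDist_comm, hammingDist_eq_hammingNorm]
    refine .trans (congrArg _ ?_).le ((Nat.le_add_right _ _).trans ((res v).ge.trans h2))
    ext; simp
  · have := S1636.result.2.2.2.2.2.2.2 _ ⟨_, sub_mem h1 h4, fun x => show (c - c') x = _ by simp [h2, h5]⟩ e
    have := hammingDist_triangle_left c c' u
    rw [hammingDist_comm, hammingDist_eq_hammingNorm c', neg_add_eq_sub] at this
    omega

end Cfsg.Agent.S1637
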