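import Cfsg.Statements.S1638
import Cfsg.Agent.H8.GE
-- import your own Cfsg.Agent.* helpers here

set_option autoImplicit false
set_option maxRecDepth 200000
open scoped Pointwise
open Cfsg

namespace Cfsg.Agent.S1638

/-- Fix two points p ≠ q and a pair s of two further points. Among the pairs avoiding p, q and disjoint from s, exactly 30 lie in an octad together with p, q and s and exactly 160 do not; and any two pairs other than s that meet s in equally many points and agree on that octad property are carried to one another by an element of the group of the length-24 code fixing p, q and s. -/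
theorem result (p q : Cfsg.GolayPt) (hpq : p ≠ q) (s : Finset Cfsg.GolayPt) (hs : (s.card = 2 ∧ p ∉ s ∧ q ∉ s)) : {t : Finset Cfsg.GolayPt | (t.card = 2 ∧ p ∉ t ∧ q ∉ t) ∧ Disjoint s t ∧ (∃ o ∈ Cfsg.octads, p ∈ o ∧ q ∈ o ∧ s ∪ t ⊆ o)}.ncard = 30 ∧ {t : Finset Cfsg.GolayPt | (t.card = 2 ∧ p ∉ t ∧ q ∉ t) ∧ Disjoint s t ∧ ¬ (∃ o ∈ Cfsg.octads, p ∈ o ∧ q ∈ o ∧ s ∪ t ⊆ o)}.ncard = 160 ∧ ∀ t t' : Finset Cfsg.GolayPt, (t.card = 2 ∧ p ∉ t ∧ q ∉ t) → (t'.card = 2 ∧ p ∉ t' ∧ q ∉ t') → t ≠ s → t' ≠ s → (s ∩ t).card = (s ∩ t').card → ((∃ o ∈ Cfsg.octads, p ∈ o ∧ q ∈ o ∧ s ∪ t ⊆ o) ↔ (∃ o ∈ Cfsg.octads, p ∈ o ∧ q ∈ o ∧ s ∪ t' ⊆ o)) → ∃ g : Equiv.Perm Cfsg.GolayPt, g ∈ Cfsg.M24 ∧ g p = p ∧ g q = q ∧ g • s = s ∧ g • t = t' := by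
  obtain ⟨a, b, hab, rfl⟩ := Finset.card_eq_two.1 hs.1
  obtain ⟨C, hC, h⟩ := H8.wP (k := 4) (by norm_num) ![p, q, a, b] (List.nodup_ofFn.1 (by
    have := hs.2; simp only [Finset.mem_insert, Finset.mem_singleton, not_or] at this; simp [hpq, hab, this])) ![0, 1, 2, 3] (by decide) (by decide)
  obtain rfl : C.dec 0 = p := h 0
  obtain rfl : C.dec 1 = q := h 1
  obtain rfl : C.dec 2 = a := h 2
  obtain rfl : C.dec 3 = b := h 3
  have e3 : C.fs 3 = {C.dec 0, C.dec 1} := (H8.fs_lit hC.n (ps := [0, 1]) (by decide)).trans (by simp)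
  rw [show {C.dec 2, C.dec 3} = C.fs 12 from ((H8.fs_lit hC.n (ps := [2, 3]) (by decide)).trans (by simp)).symm]
  have d : ∀ U, C.dec 0 ∉ U ∧ C.dec 1 ∉ U ↔ U ⊆ C.fs 16777212 := fun U => by
    simp only [Finset.subset_iff, H8.compl_fs hC.n (a := 3) (b := 16777212) (by decide), e3, Finset.mem_insert, Finset.mem_singleton]
    exact ⟨fun h x hx e => e.elim (fun e => h.1 (e ▸ hx)) fun e => h.2 (e ▸ hx), fun h => ⟨fun e => h e (.inl rfl), fun e => h e (.inr rfl)⟩⟩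
  have i : ∀ Y < 2 ^ 24, (∃ o ∈ octads, C.dec 0 ∈ o ∧ C.dec 1 ∈ o ∧ C.fs 12 ∪ C.fs Y ⊆ o) ↔
      (H8.anyL H8.StB.oL fun b => Nat.beq (Nat.land b (Nat.lor 15 Y)) (Nat.lor 15 Y)) = true := fun Y hY => by
    refine .trans ?_ (hC.inO (a := 15 ||| Y) (Nat.or_lt_two_pow (by norm_num) hY))
    rw [show 15 ||| Y = 3 ||| (12 ||| Y) by rw [← Nat.or_assoc]; rfl, C.fs_or, C.fs_or, e3]
    simp only [Finset.union_subset_iff (s := {C.dec 0, C.dec 1}), Finset.insert_subset_iff, Finset.singleton_subset_iff, and_assoc]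
  refine ⟨(H8.ncard_cnS hC.n 16777212 2 (fun Y => H8.band (Nat.beq (Nat.land 12 Y) 0) (H8.frc (Nat.lor 15 Y) fun Z => H8.anyL H8.StB.oL fun b => Nat.beq (Nat.land b Z) Z))
      fun Y hY => by rw [Set.mem_setOf_eq, d, i Y hY, H8.frc_eq, H8.band_eq_true, H8.disj_fs hC.n _ hY, Nat.beq_eq, and_assoc]; rfl).trans (by decide +kernel),
    (H8.ncard_cnS hC.n 16777212 2 (fun Y => H8.band (Nat.beq (Nat.land 12 Y) 0) (H8.frc (Nat.lor 15 Y) fun Z => H8.bnot (H8.anyL H8.StB.oL fun b => Nat.beq (Nat.land b Z) Z)))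
      fun Y hY => by rw [Set.mem_setOf_eq, d, i Y hY, H8.frc_eq, H8.band_eq_true, H8.disj_fs hC.n _ hY, Nat.beq_eq, and_assoc, H8.bnot_eq_true]; rfl).trans (by decide +kernel),
    fun U U' h1 h2 _ _ h4 h5 => ?_⟩
  obtain ⟨Y, hY, rfl, a⟩ := H8.enS_fs hC.n H8.GE.d2c ((d _).1 h1.2) h1.1
  obtain ⟨Z, hZ, rfl, b⟩ := H8.enS_fs hC.n H8.GE.d2c ((d _).1 h2.2) h2.1
  rw [i Y hY, i Z hZ, ← Bool.eq_iff_iff] at h5
  rw [H8.card_inter' hC.n le_rfl _ hY, H8.card_inter' hC.n le_rfl _ hZ] at h4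
  rw [H8.frc_eq] at a b
  have a := H8.orbW hC.n (hC.sm H8.GE.d2e) a
  have b := H8.orbW hC.n (hC.sm H8.GE.d2e) b
  obtain ⟨g, hg⟩ := H8.orb2 a (by erw [h5, h4]; exact b)
  exact ⟨g.1, g.1.2, g.2.1 0 (by simp), g.2.1 1 (by simp), g.2.2.1 12 (by simp), hg⟩

end Cfsg.Agent.S1638
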