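import Cfsg.Statements.S1639
import Cfsg.Agent.H7.M24Cnt

set_option autoImplicit false
open scoped Pointwise
open Cfsg

namespace Cfsg.Agent.S1639

open scoped Pointwise
open H7

/-- The point stabiliser acts on the 1288 dodecads through the point with rank 4 and subdegrees 1, 165, 330, 792, distinguished by intersection 4, 8, 6 with the fixed dodecad. -/
theorem result (x : Cfsg.GolayPt) (d : Finset Cfsg.GolayPt) (hd : d ∈ Cfsg.dodecads) (hx : x ∈ d) : {d' : Finset Cfsg.GolayPt | d' ∈ Cfsg.dodecads ∧ x ∈ d' ∧ (d ∩ d').card = 4}.ncard = 165 ∧ {d' : Finset Cfsg.GolayPt | d' ∈ Cfsg.dodecads ∧ x ∈ d' ∧ (d ∩ d').card = 8}.ncard = 330 ∧ {d' : Finset Cfsg.GolayPt | d' ∈ Cfsg.dodecads ∧ x ∈ d' ∧ (d ∩ d').card = 6}.ncard = 792 ∧ ∀ d' d'' : Finset Cfsg.GolayPt, d' ∈ Cfsg.dodecads → d'' ∈ Cfsg.dodecads → x ∈ d' → x ∈ d'' → (d ∩ d').card = (d ∩ d'').card → ∃ g : Equiv.Perm Cfsg.GolayPt, g ∈ Cfsg.M24 ∧ g x = x ∧ g • d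 = d ∧ g • d' = d'' := by
  obtain ⟨k, rfl, rfl⟩ := exists_smul_dod_pt hd hx
  refine ⟨?_, ?_, ?_, fun d' d'' hd' hd'' hx' hx'' h => ?_⟩
  · rw [ncard_smul_pred k (Q := fun x => x ∈ dodecads ∧ pt 0 ∈ x ∧ (fs 340831 ∩ x).card = 4) (by simp [card_inter_smul, Finset.smul_mem_smul_finset_iff]),
      cnt_supp (fun m => pc24 m = 12 ∧ m.testBit 0 = true ∧ pc24 (340831 &&& m) = 4) (fun _ h => h.1.1) (fun m _ h => by
        simp only [Set.mem_setOf_eq, dod_iff h, card_inter_fs, pt23_mem, pt0_mem, and_assoc])]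
    decide +kernel
  · rw [ncard_smul_pred k (Q := fun x => x ∈ dodecads ∧ pt 0 ∈ x ∧ (fs 340831 ∩ x).card = 8) (by simp [card_inter_smul, Finset.smul_mem_smul_finset_iff]),
      cnt_supp (fun m => pc24 m = 12 ∧ m.testBit 0 = true ∧ pc24 (340831 &&& m) = 8) (fun _ h => h.1.1) (fun m _ h => by
        simp only [Set.mem_setOf_eq, dod_iff h, card_inter_fs, pt23_mem, pt0_mem, and_assoc])]
    decide +kernel
  · rw [ncard_smul_pred k (Q := fun x => x ∈ dodecads ∧ pt 0 ∈ x ∧ (fs 340831 ∩ x).card = 6) (by simp [card_inter_smul, Finset.smul_mem_smul_finset_iff]),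
      cnt_supp (fun m => pc24 m = 12 ∧ m.testBit 0 = true ∧ pc24 (340831 &&& m) = 6) (fun _ h => h.1.1) (fun m _ h => by
        simp only [Set.mem_setOf_eq, dod_iff h, card_inter_fs, pt23_mem, pt0_mem, and_assoc])]
    decide +kernel
  obtain ⟨d', rfl⟩ := MulAction.surjective k d'
  obtain ⟨d'', rfl⟩ := MulAction.surjective k d''
  rw [card_inter_smul, card_inter_smul] at h
  obtain ⟨a, ha, rfl⟩ := exists_fs d'
  obtain ⟨b, hb, rfl⟩ := exists_fs d''
  rw [Finset.smul_mem_smul_finset_iff, pt0_mem] at hx' hx''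
  obtain ⟨g, h1, h2⟩ := orbSet SDod_ev SDod_dec dodecads_eq [340831, bit 0] [[3, 4, 3, 3, 3, 2, 0, 2, 2, 0], [1, 0, 2, 0, 4, 3, 3, 2, 3, 1]]
    (by decide +kernel) (fun m => m.testBit 0 = true) (fun m => pc24 (340831 &&& m)) 9 [(4, 213), (6, 9), (8, 6), (12, 23)] (by decide +kernel)
    ha hb (by simpa using hd') (by simpa using hd'') hx' hx'' (by simpa only [card_inter_fs] using h)
  exact ⟨_, (k * g * k⁻¹).2, conj_fix k (fix_pt h1 (by norm_num) (by simp)), conj_fix k (h1 _ (by simp)), conj_fix k h2⟩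

end Cfsg.Agent.S1639
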