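import Cfsg.Statements.S1643
import Cfsg.Agent.H8.GN
-- import your own Cfsg.Agent.* helpers here

set_option autoImplicit false
set_option maxRecDepth 200000
open scoped Pointwise
open Cfsg

namespace Cfsg.Agent.S1643

open H8 H8.GN Subgroup

abbrev a : Equiv.Perm GolayPt := Equiv.optionCongr (Equiv.addRight (1 : ZMod 23))
abbrev u2 : (ZMod 23)ˣ := ⟨2, 12, by decide, by decide⟩
abbrev b : Equiv.Perm GolayPt := Equiv.optionCongr (Units.mulLeft u2)
abbrev Sq : Set (Equiv.Perm GolayPt) := {g | ∃ u : (ZMod 23)ˣ, IsSquare u ∧ g = Equiv.optionCongr (Units.mulLeft u)}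
theorem ra : RepF 24 H7.gC.dec (ap 5 31 la) a := by unfold RepF; decide +kernel
theorem rb : RepF 24 H7.gC.dec (ap 5 31 lb) b := by unfold RepF; decide +kernel
theorem rc : RepF 24 H7.gC.dec (ap 5 31 lc) projInv := by unfold RepF; decide +kernel
theorem sq {K : Subgroup (Equiv.Perm GolayPt)} (h : b ∈ K) : Sq ⊆ K := by
  rintro _ ⟨u, hu, rfl⟩
  obtain ⟨j, -, e⟩ := (show ∀ u : (ZMod 23)ˣ, IsSquare u → ∃ j < 11, Equiv.optionCongr (Units.mulLeft u) = b ^ j by decide +kernel) u hu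
  exact e ▸ pow_mem h j
theorem hb : b ∈ Sq := ⟨u2, by decide +kernel, rfl⟩

theorem ext24 {f : ℕ → ℕ} {g g' : Equiv.Perm GolayPt} (r : RepF 24 H7.gC.dec f g) (r' : RepF 24 H7.gC.dec f g') : g = g' := Equiv.ext fun p => by
  obtain ⟨i, hi, rfl⟩ := exists_dec GC.std.n p
  exact (r i hi).2.symm.trans (r' i hi).2

variable {N : Subgroup M24} {T : Tr ℕ} {L : List Lev}

theorem mem (K : Ch N 24 5 31 H7.gC.dec T L) {c : ℕ} {w : List ℕ} (h : isProd 24 5 31 T c w = true) {g : Equiv.Perm GolayPt}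
    (r : RepF 24 H7.gC.dec (ap 5 31 c) g) : g ∈ N.map M24.subtype := ⟨_, (ev K.lets.e w).2, ext24 (rep_word K.lets w h) r⟩

theorem cl (K : Ch N 24 5 31 H7.gC.dec T L) {S : Set (Equiv.Perm GolayPt)} (h : S ⊆ N.map M24.subtype)
    (h' : Lets ((closure S).subgroupOf M24) 24 5 31 H7.gC.dec T) : closure S ≤ M24 ∧ (closure S).subgroupOf M24 = N :=
  have h := (closure_le _).2 h
  ⟨h.trans (map_subtype_le _), eq_of_le_of_card_ge (fun g hg => let ⟨_, h, e⟩ := h hg; Subtype.ext e ▸ h)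
    (K.card.trans_le (h'.le_card K.inj K.tch))⟩

theorem ha' : a ∈ M24 := let ⟨g, r⟩ := GC.std.ex (f := ap 5 31 la) (by decide +kernel); ext24 r ra ▸ g.2
theorem hb' : b ∈ M24 := let ⟨g, r⟩ := GC.std.ex (f := ap 5 31 lb) (by decide +kernel); ext24 r rb ▸ g.2
abbrev x : M24 := ⟨a, ha'⟩
abbrev y : M24 := ⟨b, hb'⟩
abbrev z : M24 := ⟨projInv, H7.projInv_mem⟩
theorem ox : orderOf x = 23 := GC.std.ord ra (by decide +kernel)
theorem oy : orderOf y = 11 := GC.std.ord rb (by decide +kernel)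
theorem oz : orderOf z = 2 := GC.std.ord rc (by decide +kernel)
theorem NA : Ch (normalizer (zpowers x : Set M24)) 24 5 31 H7.gC.dec naT naL := nach GC.std ra ox

theorem cnt {K : Subgroup M24} (hx : x ∈ K) (hy : y ∈ K) : Nat.card K / 253 % 23 = 1 := by
  have h : y ∈ normalizer (zpowers x : Set M24) := let ⟨w, h, e⟩ := mem NA nawb rb; (Subtype.ext e : w = y) ▸ h
  obtain ⟨e, h1, h2, h3, -, h4⟩ := sylc (by norm_num) (by rw [H7.card_M24]; norm_num) ox hx hy h inf_le_right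
  rw [NA.card.trans (show _ = 253 by decide +kernel)] at h1
  rwa [Nat.dvd_antisymm h1 (Nat.Coprime.mul_dvd_of_dvd_of_dvd (show Nat.Coprime 23 11 by norm_num) h2 (oy ▸ h3))] at h4


/-- PSL(2, 23) = ⟨t ↦ t+1, t ↦ u t (u square), t ↦ −1/t⟩ is maximal of order 6072 in the group of the length-24 code, and its point stabiliser 23:11 (order 253) is maximal in the Mathieu group of degree 23. -/
theorem result : (Subgroup.closure ({Equiv.optionCongr (Equiv.addRight (1 : ZMod 23)), Cfsg.projInv} ∪ {g : Equiv.Perm Cfsg.GolayPt | ∃ u : (ZMod 23)ˣ, IsSquare u ∧ g = Equiv.optionCongr (Units.mulLeft u)}) ≤ Cfsg.M24 ∧ Nat.card ↥(Subgroup.closure ({Equiv.optionCongr (Equiv.addRight (1 : ZMod 23)), Cfsg.projInv} ∪ {g : Equiv.Perm Cfsg.GolayPt | ∃ u : (ZMod 23)ˣ, IsSquare u ∧ g = Equiv.optionCongr (Units.mulLeft u)})) = 6072 ∧ IsCoatom ((Subgroup.closure ({Equiv.optionCongr (Equiv.addRight (1 : ZMod 23)), Cfsg.projInv} ∪ {g : Equiv.Perm Cfsg.GolayPt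 | ∃ u : (ZMod 23)ˣ, IsSquare u ∧ g = Equiv.optionCongr (Units.mulLeft u)})).subgroupOf Cfsg.M24)) ∧ (Subgroup.closure ({Equiv.optionCongr (Equiv.addRight (1 : ZMod 23))} ∪ {g : Equiv.Perm Cfsg.GolayPt | ∃ u : (ZMod 23)ˣ, IsSquare u ∧ g = Equiv.optionCongr (Units.mulLeft u)}) ≤ Cfsg.M24 ⊓ MulAction.stabilizer (Equiv.Perm Cfsg.GolayPt) (none : Cfsg.GolayPt) ∧ Nat.card ↥(Subgroup.closure ({Equiv.optionCongr (Equiv.addRight (1 : ZMod 23))} ∪ {g : Equiv.Perm Cfsg.GolayPt | ∃ u : (ZMod 23)ˣ, IsSquare u ∧ g = Equiv.optionCongr (Units.mulLeft u)})) = 253 ∧ IsCoatom (((Subgroup.closure ({Equiv.optionCongr (Equiv.addRight (1 : ZMod 23))} ∪ {g : Equiv.Perm Cfsg.GolayPt | ∃ u : (ZMod 23)ˣ, IsSquare u ∧ g = Equiv.optionCongr (Units.mulLeft u)})).subgroupOf Cfsg.M24).subgroupOf (MulAction.stabilizer Cfsg.M24 (none : Cfsg.GolayPt)))) := by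
  have hC := GC.std
  obtain ⟨N, K⟩ := lch hC
  obtain ⟨h1, h2⟩ := cl K (S := {a, projInv} ∪ Sq) (Set.union_subset (Set.insert_subset (mem K lwa ra) (Set.singleton_subset_iff.2 (mem K lwc rc)))
    (sq (mem K lwb rb))) (lets_slp _ (fun j hj => by
      interval_cases j
      exacts [⟨x, subset_closure (.inl (.inl rfl)), ra⟩, ⟨y, subset_closure (.inr hb), rb⟩, ⟨z, subset_closure (.inl (.inr rfl)), rc⟩]) lgslp lg2)
  obtain ⟨h3, h4⟩ := cl NA (S := {a} ∪ Sq) (Set.union_subset (Set.singleton_subset_iff.2 (mem NA nawa ra))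
    (sq (mem NA nawb rb))) (lets_slp _ (fun j hj => by
      interval_cases j
      exacts [⟨x, subset_closure (.inl rfl), ra⟩, ⟨y, subset_closure (.inr hb), rb⟩]) nagslp nag2)
  have c1 : Nat.card N = 6072 := K.card.trans (by decide +kernel)
  have c2 := NA.card.trans (show _ = 253 by decide +kernel)
  have h5 : closure ({a} ∪ Sq) ≤ MulAction.stabilizer (Equiv.Perm GolayPt) (none : GolayPt) := (closure_le _).2
    (Set.union_subset (Set.singleton_subset_iff.2 rfl) (sq rfl))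
  have NB := nbch hC (x := y) rb oy
  refine ⟨⟨h1, (card_up h1 h2).trans c1, fun e => ?_, fun P hP => ?_⟩, le_inf h3 h5, (card_up h3 h4).trans c2, fun e => ?_, fun P hP => ?_⟩
  · rw [← h2, e, card_top, H7.card_M24] at c1; omega
  · have hx : x ∈ P := hP.le (subset_closure (.inl (.inl rfl)))
    have hy : y ∈ P := hP.le (subset_closure (.inr hb))
    obtain ⟨e, h6, h7, h8, h9⟩ := sylc (y := z) (by norm_num) (by rw [H7.card_M24]; norm_num) oy hy (hP.le (subset_closure (.inl (.inr rfl))))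
      (norm_chk (hC.ch GB.m0c) rb 11 z _ rc (by decide +kernel)) inf_le_right
    have h := cnt hx hy
    obtain ⟨j, hj⟩ := card_dvd_of_le hP.le
    have d := P.card_subgroup_dvd_card
    rw [NB.card.trans (show _ = 110 by decide +kernel)] at h6
    rw [h2, c1] at hj
    rw [hj, H7.card_M24] at d
    rw [hj] at h h9
    rcases (show ∀ j ∈ Nat.divisors 40320, 6072 * j / 253 % 23 = 1 → ∀ e ∈ Nat.divisors 110, 11 ∣ e → 2 ∣ e → e ∣ 6072 * j ∧ 6072 * j / e % 11 = 1 →
      j = 1 ∨ j = 40320 by decide +kernel) j (Nat.mem_divisors.2 ⟨Nat.dvd_of_mul_dvd_mul_left (by norm_num : 0 < 6072) d, by norm_num⟩) h e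
      (Nat.mem_divisors.2 ⟨h6, by norm_num⟩) h7 (oz ▸ h8) h9 with rfl | rfl
    · exact (hP.ne (eq_of_le_of_card_ge hP.le (by rw [hj, h2, c1]))).elim
    · exact eq_top_of_card_eq _ (by rw [hj, H7.card_M24])
  · have := card_up (K := (closure ({a} ∪ Sq)).subgroupOf M24) (fun g hg => h5 hg) e
    rw [h4, c2, card_top, H7.card_stab1] at this; omega
  · have i := (MulAction.stabilizer M24 (none : GolayPt)).subtype_injective
    have hx : x ∈ P.map (Subgroup.subtype _) := ⟨⟨x, rfl⟩, hP.le (subset_closure (.inl rfl)), rfl⟩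
    have hy : y ∈ P.map (Subgroup.subtype _) := ⟨⟨y, rfl⟩, hP.le (subset_closure (.inr hb)), rfl⟩
    obtain ⟨e, h6, h7, -, h9⟩ := sylc (M := (MulAction.stabilizer (normalizer (zpowers y : Set M24)) (H7.gC.dec 23)).map (Subgroup.subtype _)) (by norm_num)
      (by rw [H7.card_M24]; norm_num) oy hy (one_mem _) (one_mem _) fun g hg => ⟨⟨g, hg.2⟩, (map_subtype_le P hg.1 :), rfl⟩
    have h := cnt hx hy
    obtain ⟨j, hj⟩ := card_dvd_of_le hP.le
    have d := P.card_subgroup_dvd_card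
    have c3 := (card_up (K := (closure ({a} ∪ Sq)).subgroupOf M24) (M := MulAction.stabilizer M24 (none : GolayPt)) (fun g hg => h5 hg) rfl).symm.trans
      (h4 ▸ c2)
    rw [card_map_of_injective (subtype_injective _), nccard hC rb oy] at h6
    rw [c3] at hj
    rw [hj, H7.card_stab1] at d
    rw [card_map_of_injective i, hj] at h h9
    rcases (show ∀ j ∈ Nat.divisors 40320, 253 * j / 253 % 23 = 1 → ∀ e ∈ Nat.divisors 55, 11 ∣ e → e ∣ 253 * j ∧ 253 * j / e % 11 = 1 →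
      j = 1 ∨ j = 40320 by decide +kernel) j (Nat.mem_divisors.2 ⟨Nat.dvd_of_mul_dvd_mul_left (by norm_num : 0 < 253) d, by norm_num⟩) h e
      (Nat.mem_divisors.2 ⟨h6, by norm_num⟩) h7 h9 with rfl | rfl
    · exact (hP.ne (eq_of_le_of_card_ge hP.le (by rw [hj, c3]))).elim
    · exact eq_top_of_card_eq _ (by rw [hj, H7.card_stab1])

end Cfsg.Agent.S1643
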