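import Cfsg.Statements.S1679
import Cfsg.Agent.H8.KSuz
import Cfsg.Agent.H8.XG24
-- import your own Cfsg.Agent.* helpers here

set_option autoImplicit false
open Cfsg

namespace Cfsg.Agent.S1679

/-- In the presented sporadic Suzuki group (generators a, …, g), the subgroup generated by the images of a, …, f is isomorphic to the adjoint Chevalley group of type G₂ over a field with four elements. -/
theorem result : ∃ (K : Type) (_ : Field K) (_ : Fintype K), Fintype.card K = 4 ∧ Nonempty ((((Subgroup.closure ({Cfsg.Spor.Suz.a, Cfsg.Spor.Suz.b, Cfsg.Spor.Suz.c, Cfsg.Spor.Suz.d, Cfsg.Spor.Suz.e, Cfsg.Spor.Suz.f} : Set (FreeGroup Cfsg.Spor.Suz.Gen))).map (PresentedGroup.mk (Cfsg.Spor.coxRelators Cfsg.Spor.Suz.edges ∪ {r | r ∈ Cfsg.Spor.Suz.extra})))) ≃* Cfsg.Lie.chevG2.group K) := by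
  
  open H7 H7.T Cfsg.Spor.Suz in
  rw [map_closure_eq hall_Suz let_Suz [a, b, c, d, e, f] (by simp),
    show [a, b, c, d, e, f].map (trW idx_Suz iv_SZ0) = sing [0, 1, 2, 3, 4, 5] by decide +kernel]
  haveI := H7.T.top_Suz.1
  letI : Fintype (GaloisField 2 2) := Fintype.ofFinite _
  have hF : Fintype.card (GaloisField 2 2) = 4 := by rw [← Nat.card_eq_fintype_card, GaloisField.card 2 2 (by norm_num)]; norm_num
  obtain ⟨e1⟩ := H8.Suz.stabG24 H8.Suz.stdS
  obtain ⟨e2⟩ := H8.G24.iso hF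
  exact ⟨_, _, _, hF, ⟨(MulEquiv.subgroupCongr H7.T.stab_Suz.1).trans (e2.trans e1).symm⟩⟩

end Cfsg.Agent.S1679
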