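import Cfsg.Statements.S1684
import Cfsg.Agent.H7.Inv22
import Cfsg.Agent.H7.FM7

set_option autoImplicit false
open Cfsg

namespace Cfsg.Agent.S1684

open H7 H7.T Cfsg.Spor.Fi22

/-- In the presented Fischer group Fi₂₂, the subgroup generated by the images of a, c, d, e, f, g, h, i and (abcdeh)^5 is a non-split double cover of PSU(6, 2) (realised over a field with four elements). -/
theorem result : ∃ (K : Type) (_ : Field K) (_ : Fintype K), Fintype.card K = 4 ∧ Cfsg.IsNonsplitDoubleCover (((Subgroup.closure ({Cfsg.Spor.Fi22.a, Cfsg.Spor.Fi22.c, Cfsg.Spor.Fi22.d, Cfsg.Spor.Fi22.e, Cfsg.Spor.Fi22.f, Cfsg.Spor.Fi22.g, Cfsg.Spor.Fi22.h, Cfsg.Spor.Fi22.i, (Cfsg.Spor.Fi22.a * Cfsg.Spor.Fi22.b * Cfsg.Spor.Fi22.c * Cfsg.Spor.Fi22.d * Cfsg.Spor.Fi22.e * Cfsg.Spor.Fi22.h) ^ 5} : Set (FreeGroup Cfsg.Spor.Fi22.Gen))).map (PresentedGroup.mk (Cfsg.Spor.coxRelators Cfsg.Spor.Fi22.edges ∪ {r |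 r ∈ Cfsg.Spor.Fi22.extra})))) (Cfsg.PSU 6 K 2) := by
  rw [map_closure_eq hall_Fi22 let_Fi22 [a, c, d, e, f, g, h, i, (a * b * c * d * e * h) ^ 5] (by simp),
    show [a, c, d, e, f, g, h, i, (a * b * c * d * e * h) ^ 5].map (trW idx_Fi22 iv_F22) =
      [[0],[2],[3],[4],[5],[6],[7],[8],[0,1,2,3,4,7,0,1,2,3,4,7,0,1,2,3,4,7,0,1,2,3,4,7,0,1,2,3,4,7]] by decide +kernel]
  have hd := F22.el_mem (x := 0) (by decide)
  have k : MulAction.stabilizer _ (M_Fi22.sys.dec 0) = Subgroup.centralizer {F22.el 0} := Subgroup.ext fun x =>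
    (show _ ↔ F22.ρ x 0 = 0 by rw [show F22.ρ = _ from ex_P22.choose_spec.2]; rfl).trans
      ((F22.comm_iff x (by decide)).symm.trans Subgroup.mem_centralizer_singleton_iff.symm)
  obtain ⟨K, _, _, h, ⟨e⟩⟩ := psuU FU
  refine ⟨K, inferInstance, inferInstance, h, ?_⟩
  erw [stab_Fi22.1, k]
  exact nsdc_congr e ((loc22 F22 FU _ hd).nsdc FU (F22.t3.order hd) (qs22 F22 hd))

end Cfsg.Agent.S1684
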