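import Cfsg.Statements.S1685
import Cfsg.Agent.H7.T.F22_0

set_option autoImplicit false
open Cfsg

namespace Cfsg.Agent.S1685

open H7 H7.T Cfsg.Spor.Fi22

/-- In the presented Fischer group Fi₂₂ (generators a, …, i), the subgroup generated by the images of b, c, d, e, f, g, h, i has index 14080. -/
theorem result : (((Subgroup.closure ({Cfsg.Spor.Fi22.b, Cfsg.Spor.Fi22.c, Cfsg.Spor.Fi22.d, Cfsg.Spor.Fi22.e, Cfsg.Spor.Fi22.f, Cfsg.Spor.Fi22.g, Cfsg.Spor.Fi22.h, Cfsg.Spor.Fi22.i} : Set (FreeGroup Cfsg.Spor.Fi22.Gen))).map (PresentedGroup.mk (Cfsg.Spor.coxRelators Cfsg.Spor.Fi22.edges ∪ {r | r ∈ Cfsg.Spor.Fi22.extra})))).index = 14080 := by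
  rw [map_closure_eq hall_Fi22 let_Fi22 [b, c, d, e, f, g, h, i] (by simp)]
  refine index_of_card top_Fi22.2.1 (Eq.trans ?_ card_O7_Fi22) (by norm_num) (by norm_num)
  rw [show [b, c, d, e, f, g, h, i].map (trW idx_Fi22 iv_F22) = sing [1, 2, 3, 4, 5, 6, 7, 8] by decide +kernel]
  exact congrArg (fun K : Subgroup _ => Nat.card K)
    (le_antisymm (lettersIn_spec (by decide +kernel)) (lettersIn_spec (by decide +kernel)))

end Cfsg.Agent.S1685
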