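import Cfsg.Statements.S1686
import Cfsg.Agent.H7.T.B7_0

set_option autoImplicit false
open Cfsg

namespace Cfsg.Agent.S1686

open H7 H7.T Cfsg.Spor.Fi22

/-- In the presented Fischer group Fi₂₂, the subgroup generated by the images of b, …, i is isomorphic to PΩ(7, 3), the commutator subgroup of the isometry group of the quadratic form x₀² + x₁y₁ + x₂y₂ + x₃y₃ over the integers mod 3, modulo its centre. -/
theorem result : Nonempty ((((Subgroup.closure ({Cfsg.Spor.Fi22.b, Cfsg.Spor.Fi22.c, Cfsg.Spor.Fi22.d, Cfsg.Spor.Fi22.e, Cfsg.Spor.Fi22.f, Cfsg.Spor.Fi22.g, Cfsg.Spor.Fi22.h, Cfsg.Spor.Fi22.i} : Set (FreeGroup Cfsg.Spor.Fi22.Gen))).map (PresentedGroup.mk (Cfsg.Spor.coxRelators Cfsg.Spor.Fi22.edges ∪ {r | r ∈ Cfsg.Spor.Fi22.extra})))) ≃* Cfsg.POmega (ZMod 3) (Cfsg.quadFormOdd 3 (ZMod 3))) := by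
  rw [map_closure_eq hall_Fi22 let_Fi22 [b, c, d, e, f, g, h, i] (by simp),
    show [b, c, d, e, f, g, h, i].map (trW idx_Fi22 iv_F22) = sing [1, 2, 3, 4, 5, 6, 7, 8] by decide +kernel]
  obtain ⟨U, -⟩ := sub_722 F22
  have k := F22.closure_S (a := m7) (qs := [(1, []), (2, []), (3, []), (4, []), (5, []), (6, []), (7, []), (8, [])]) 5 (by decide +kernel)
  have e : ∀ a < 9, F22.ev (tw (a, [])) = gsP edges extra L_Fi22 a := fun a ha => by
    rw [FM.ev, show F22.gs = _ from ex_P22.choose_spec.1]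
    interval_cases a <;> exact (mul_one _).trans (mul_one _)
  refine ⟨(MulEquiv.subgroupCongr (Eq.trans ?_ k.symm)).trans (o7 U).some⟩
  refine le_antisymm (sing_le.2 fun a ha => ?_) (sing_le.2 fun a ha => ?_)
  · simp only [List.mem_cons, List.not_mem_nil, or_false] at ha
    rcases ha with rfl | rfl | rfl | rfl | rfl | rfl | rfl | rfl
    exacts [e 1 (by decide) ▸ gs_mem_sing (a := 0) (by decide), e 2 (by decide) ▸ gs_mem_sing (a := 1) (by decide),
      e 3 (by decide) ▸ gs_mem_sing (a := 2) (by decide), e 4 (by decide) ▸ gs_mem_sing (a := 3) (by decide),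
      e 5 (by decide) ▸ gs_mem_sing (a := 4) (by decide), e 6 (by decide) ▸ gs_mem_sing (a := 5) (by decide),
      e 7 (by decide) ▸ gs_mem_sing (a := 6) (by decide), e 8 (by decide) ▸ gs_mem_sing (a := 7) (by decide)]
  · have := List.mem_range.1 ha
    simp only [List.length_cons, List.length_nil] at this
    have e' : F22.ev (tw (a + 1, [])) = _ := e (a + 1) (by omega)
    interval_cases a <;> exact e' ▸ gs_mem_sing (by decide)

end Cfsg.Agent.S1686
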