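import Cfsg.Statements.S1688
import Cfsg.Agent.H7.Inv23
import Cfsg.Agent.H7.FM7

set_option autoImplicit false
open Cfsg

namespace Cfsg.Agent.S1688

open H7 H7.T Cfsg.Spor.Fi23

/-- In the presented Fischer group Fi₂₃, the subgroup generated by the images of a, …, i is a non-split double cover of the presented Fischer group Fi₂₂. -/
theorem result : Cfsg.IsNonsplitDoubleCover (((Subgroup.closure ({Cfsg.Spor.Fi23.a, Cfsg.Spor.Fi23.b, Cfsg.Spor.Fi23.c, Cfsg.Spor.Fi23.d, Cfsg.Spor.Fi23.e, Cfsg.Spor.Fi23.f, Cfsg.Spor.Fi23.g, Cfsg.Spor.Fi23.h, Cfsg.Spor.Fi23.i} : Set (FreeGroup Cfsg.Spor.Fi23.Gen))).map (PresentedGroup.mk (Cfsg.Spor.coxRelators Cfsg.Spor.Fi23.edges ∪ {r | r ∈ Cfsg.Spor.Fi23.extra})))) Cfsg.Spor.Fi22 := by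
  rw [map_closure_eq hall_Fi23 let_Fi23 [a, b, c, d, e, f, g, h, i] (by simp),
    show [a, b, c, d, e, f, g, h, i].map (trW idx_Fi23 iv_F23) = sing [0, 1, 2, 3, 4, 5, 6, 7, 8] by decide +kernel]
  have hd := F23.el_mem (x := 0) (by decide)
  have k : MulAction.stabilizer _ (M_Fi23.sys.dec 0) = Subgroup.centralizer {F23.el 0} := Subgroup.ext fun x =>
    (show _ ↔ F23.ρ x 0 = 0 by rw [show F23.ρ = _ from ex_P23.choose_spec.2]; rfl).trans
      ((F23.comm_iff x (by decide)).symm.trans Subgroup.mem_centralizer_singleton_iff.symm)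
  erw [stab_Fi23.1, k]
  exact (loc23 F23 F22 _ hd).nsdc F22 (F23.t3.order hd) (qs23 F23 hd)

end Cfsg.Agent.S1688
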