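import Cfsg.Statements.S1690
import Cfsg.Agent.H7.T.F24_9

set_option autoImplicit false
open Cfsg

namespace Cfsg.Agent.S1690

open H7 H7.T Cfsg.Spor.Fi24

/-- In the presented group Fi₂₄ = Fi₂₄′:2, the subgroup generated by the images of a, b, c, d, e, f, g, h, i, j and l (every generator but k) has index 306936. -/
theorem result : (((Subgroup.closure ({Cfsg.Spor.Fi24.a, Cfsg.Spor.Fi24.b, Cfsg.Spor.Fi24.c, Cfsg.Spor.Fi24.d, Cfsg.Spor.Fi24.e, Cfsg.Spor.Fi24.f, Cfsg.Spor.Fi24.g, Cfsg.Spor.Fi24.h, Cfsg.Spor.Fi24.i, Cfsg.Spor.Fi24.j, Cfsg.Spor.Fi24.l} : Set (FreeGroup Cfsg.Spor.Fi24.Gen))).map (PresentedGroup.mk (Cfsg.Spor.coxRelators Cfsg.Spor.Fi24.edges ∪ {r | r ∈ Cfsg.Spor.Fi24.extra})))).index = 306936 := by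
  rw [map_closure_eq hall_Fi24 let_Fi24 [a, b, c, d, e, f, g, h, i, j, l] (by simp),
    show [a, b, c, d, e, f, g, h, i, j, l].map (trW idx_Fi24 iv_F24) = sing [0, 1, 2, 3, 4, 5, 6, 7, 8, 9, 10] by decide +kernel]
  exact stab_Fi24.2

end Cfsg.Agent.S1690
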