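import Cfsg.Statements.S1717


set_option autoImplicit false
open Cfsg

namespace Cfsg.Agent.S1717

open scoped Pointwise
open Subgroup

abbrev M5 := Matrix (Fin 5) (Fin 5) (ZMod 2)
abbrev S5 := Matrix.SpecialLinearGroup (Fin 5) (ZMod 2)

def mk (c a2 a3 a4 b2 b3 b4 : ZMod 2) : M5 :=
  !![1, c, a2, a3, a4; 0, 1, 0, 0, 0; 0, b2, 1, 0, 0; 0, b3, 0, 1, 0; 0, b4, 0, 0, 1]

theorem mk_mul (c a2 a3 a4 b2 b3 b4 c' a2' a3' a4' b2' b3' b4' : ZMod 2) :
    mk c a2 a3 a4 b2 b3 b4 * mk c' a2' a3' a4' b2' b3' b4' =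
      mk (c + c' + a2 * b2' + a3 * b3' + a4 * b4') (a2 + a2') (a3 + a3') (a4 + a4') (b2 + b2') (b3 + b3') (b4 + b4') := by
  ext i j
  fin_cases i <;> fin_cases j <;> simp [mk, Matrix.mul_apply, Fin.sum_univ_five] <;> ring

theorem mk0 : mk 0 0 0 0 0 0 0 = 1 := by decide

theorem mk4 (c a2 a3 a4 b2 b3 b4 : ZMod 2) : mk c a2 a3 a4 b2 b3 b4 ^ 4 = 1 := by
  have h : ∀ x : ZMod 2, x + x = 0 := by decide
  rw [show 4 = 2 * 2 from rfl, pow_mul, pow_two, pow_two, mk_mul, mk_mul]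
  simp [h, mk0]

def el (c a2 a3 a4 b2 b3 b4 : ZMod 2) : S5 := ⟨mk c a2 a3 a4 b2 b3 b4, by
  have := congrArg Matrix.det (mk4 c a2 a3 a4 b2 b3 b4)
  rw [Matrix.det_pow, Matrix.det_one] at this
  revert this
  generalize (mk c a2 a3 a4 b2 b3 b4).det = x
  revert x; decide⟩

theorem el_mul (c a2 a3 a4 b2 b3 b4 c' a2' a3' a4' b2' b3' b4' : ZMod 2) :
    el c a2 a3 a4 b2 b3 b4 * el c' a2' a3' a4' b2' b3' b4' =
      el (c + c' + a2 * b2' + a3 * b3' + a4 * b4') (a2 + a2') (a3 + a3') (a4 + a4') (b2 + b2') (b3 + b3') (b4 + b4') :=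
  Subtype.ext (mk_mul c a2 a3 a4 b2 b3 b4 c' a2' a3' a4' b2' b3' b4')

theorem el4 (c a2 a3 a4 b2 b3 b4 : ZMod 2) : el c a2 a3 a4 b2 b3 b4 ^ 4 = 1 := Subtype.ext (mk4 ..)

def Q : Subgroup S5 where
  carrier := {g | ∃ c a2 a3 a4 b2 b3 b4, g = el c a2 a3 a4 b2 b3 b4}
  mul_mem' := by
    rintro _ _ ⟨c, a2, a3, a4, b2, b3, b4, rfl⟩ ⟨c', a2', a3', a4', b2', b3', b4', rfl⟩
    exact ⟨_, _, _, _, _, _, _, el_mul ..⟩
  one_mem' := ⟨0, 0, 0, 0, 0, 0, 0, Subtype.ext mk0.symm⟩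
  inv_mem' := by
    rintro _ ⟨c, a2, a3, a4, b2, b3, b4, rfl⟩
    have := el4 c a2 a3 a4 b2 b3 b4
    rw [pow_succ, pow_succ, pow_two] at this
    rw [inv_eq_of_mul_eq_one_left this, el_mul, el_mul]
    exact ⟨_, _, _, _, _, _, _, rfl⟩

theorem Q2 : IsPGroup 2 Q := by
  rintro ⟨_, c, a2, a3, a4, b2, b3, b4, rfl⟩
  exact ⟨2, Subtype.ext (el4 ..)⟩

theorem Qc : Q ≤ centralizer {el 1 0 0 0 0 0 0} := by
  rintro _ ⟨c, a2, a3, a4, b2, b3, b4, rfl⟩
  refine mem_centralizer_singleton_iff.2 ?_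
  rw [el_mul, el_mul]; simp [add_comm]

theorem cQ (u : S5) (h : ∀ q ∈ Q, q * u = u * q) : u = 1 ∨ u = el 1 0 0 0 0 0 0 := by
  have H : ∀ c a2 a3 a4 b2 b3 b4 i j, mk c a2 a3 a4 b2 b3 b4 = 1 + Matrix.single i j 1 →
      (∀ k, j ≠ k → u.1 j k = 0) ∧ (∀ k, k ≠ i → u.1 k i = 0) ∧ u.1 i i = u.1 j j := by
    intro c a2 a3 a4 b2 b3 b4 i j e
    have h1 : mk c a2 a3 a4 b2 b3 b4 * u.1 = u.1 * mk c a2 a3 a4 b2 b3 b4 :=
      congrArg Subtype.val (h _ ⟨c, a2, a3, a4, b2, b3, b4, rfl⟩)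
    rw [e, add_mul, mul_add, one_mul, mul_one, add_right_inj] at h1
    exact ⟨fun k hk => Matrix.row_eq_zero_of_commute_single h1 hk.symm, fun k hk => Matrix.col_eq_zero_of_commute_single h1 hk,
      Matrix.diag_eq_of_commute_single h1⟩
  obtain ⟨r1, c0, d1⟩ := H 1 0 0 0 0 0 0 0 1 (by decide)
  obtain ⟨r2, -, d2⟩ := H 0 1 0 0 0 0 0 0 2 (by decide)
  obtain ⟨r3, -, d3⟩ := H 0 0 1 0 0 0 0 0 3 (by decide)
  obtain ⟨r4, -, d4⟩ := H 0 0 0 1 0 0 0 0 4 (by decide)
  obtain ⟨-, c2, -⟩ := H 0 0 0 0 1 0 0 2 1 (by decide)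
  obtain ⟨-, c3, -⟩ := H 0 0 0 0 0 1 0 3 1 (by decide)
  obtain ⟨-, c4, -⟩ := H 0 0 0 0 0 0 1 4 1 (by decide)
  have h00 : u.1 0 0 = 1 := by
    by_contra hc
    have hc' : u.1 0 0 = 0 := by revert hc; generalize u.1 0 0 = x; revert x; decide
    have : u.1.det = 0 := Matrix.det_eq_zero_of_column_eq_zero 0 fun i => by
      by_cases hi : i = 0
      · rw [hi, hc']
      · exact c0 i hi
    rw [u.2] at this
    exact absurd this (by decide)
  rw [h00] at d1 d2 d3 d4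
  have : u = el (u.1 0 1) 0 0 0 0 0 0 := by
    apply Subtype.ext
    ext i j
    fin_cases i <;> fin_cases j <;>
      first | exact h00 | exact d1.symm | exact d2.symm | exact d3.symm | exact d4.symm | exact r1 _ (by decide) |
        exact r2 _ (by decide) | exact r3 _ (by decide) | exact r4 _ (by decide) | exact c2 _ (by decide) |
        exact c3 _ (by decide) | exact c4 _ (by decide) | rfl
  rw [this]
  generalize u.1 0 1 = x
  have : x = 0 ∨ x = 1 := by revert x; decide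
  rcases this with rfl | rfl
  · exact Or.inl (Subtype.ext mk0)
  · exact Or.inr rfl

theorem key {C : Type*} [Group C] [Finite C] (e : C ≃* centralizer ({el 1 0 0 0 0 0 0} : Set S5)) (T : Sylow 2 C)
    (u v : C) (hu : ∀ t ∈ (T : Subgroup C), t * u = u * t) (hv : ∀ t ∈ (T : Subgroup C), t * v = v * t) (u1 : u ≠ 1) (v1 : v ≠ 1) :
    u = v := by
  have h1 : IsPGroup 2 ((Q.subgroupOf (centralizer ({el 1 0 0 0 0 0 0} : Set S5))).comap e.toMonoidHom) :=
    Q2.comap_subtype.comap_of_injective _ e.injective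
  obtain ⟨T', hT'⟩ := h1.exists_le_sylow
  obtain ⟨g, rfl⟩ := MulAction.exists_smul_eq C T T'
  have : ∀ u : C, (∀ t ∈ (T : Subgroup C), t * u = u * t) → u ≠ 1 → (e (g * u * g⁻¹) : S5) = el 1 0 0 0 0 0 0 := by
    intro u hu u1
    refine (cQ _ fun q hq => ?_).resolve_left fun h => u1 ?_
    · have h2 := hT' (show e.symm ⟨q, Qc hq⟩ ∈ _ by simpa [mem_subgroupOf] using hq)
      rw [Sylow.coe_subgroup_smul, mem_pointwise_smul_iff_inv_smul_mem] at h2
      have h3 := hu _ h2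
      simp only [MulAut.smul_def, MulAut.conj_inv_apply] at h3
      have h4 : e.symm ⟨q, Qc hq⟩ * (g * u * g⁻¹) = g * u * g⁻¹ * e.symm ⟨q, Qc hq⟩ := by
        calc _ = g * (g⁻¹ * e.symm ⟨q, Qc hq⟩ * g * u) * g⁻¹ := by group
          _ = _ := by rw [h3]; group
      have := congrArg Subtype.val (congrArg e h4)
      simpa only [map_mul e (e.symm _), map_mul e _ (e.symm _), MulEquiv.apply_symm_apply, coe_mul] using this
    · have : e (g * u * g⁻¹) = 1 := Subtype.ext h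
      simpa using this
  have h2 := e.injective (Subtype.ext ((this u hu u1).trans (this v hv v1).symm))
  simpa using h2

/-- Let G be a finite group with an involution z whose centraliser C is isomorphic to the centraliser of a transvection of SL(5, 2). Then a Sylow 2-subgroup of C, viewed in G, is a Sylow 2-subgroup of G (its index in G is odd). -/
theorem result {G : Type*} [Group G] [Finite G] (s : Matrix.SpecialLinearGroup (Fin 5) (ZMod 2)) (hs : (s : Matrix (Fin 5) (Fin 5) (ZMod 2)) = Matrix.transvection 0 1 1) (z : G) (hz : orderOf z = 2) (e : (Subgroup.centralizer ({z} : Set G)) ≃* Subgroup.centralizer ({s} : Set (Matrix.SpecialLinearGroup (Fin 5) (ZMod 2)))) (T : Sylow 2 (Subgroup.centralizer ({z} : Set G))) : ¬ 2 ∣ ((T : Subgroup (Subgroup.centralizer ({z} : Set G))).map (Subgroup.subtype (Subgroup.centralizer ({z} : Set G)))).index := by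
  have hs' : s = el 1 0 0 0 0 0 0 := Subtype.ext (hs.trans (by decide))
  subst hs'
  let C := centralizer ({z} : Set G)
  let T' := (T : Subgroup C).map C.subtype
  show ¬ 2 ∣ T'.index
  have h2 : IsPGroup 2 T' := T.2.map _
  obtain ⟨S, hS⟩ := h2.exists_le_sylow
  suffices T' = S by rw [this]; exact S.not_dvd_index
  by_contra hne
  have hlt : T'.subgroupOf S < ⊤ := lt_top_iff_ne_top.2 fun h => hne (le_antisymm hS (subgroupOf_eq_top.1 h))
  haveI := S.2.isNilpotent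
  obtain ⟨g, hg, hg'⟩ := SetLike.exists_of_lt (normalizerCondition_of_isNilpotent _ hlt)
  rw [← subgroupOf_normalizer_eq hS, mem_subgroupOf] at hg
  let z' : C := ⟨z, mem_centralizer_singleton_iff.2 rfl⟩
  have zc : ∀ t : C, t * z' = z' * t := fun t => Subtype.ext (mem_centralizer_singleton_iff.1 t.2)
  have z1 : z ≠ 1 := fun h => by rw [h, orderOf_one] at hz; omega
  have hzT : z' ∈ (T : Subgroup C) := by
    haveI : (zpowers z').Normal := ⟨fun n ⟨i, hi⟩ g => ⟨i, by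
      simp only at hi ⊢
      rw [← hi, ← conj_zpow, zc g, mul_inv_cancel_right]⟩⟩
    have : IsPGroup 2 (zpowers z') := IsPGroup.of_card (n := 1) (by rw [Nat.card_zpowers, ← orderOf_coe]; exact hz)
    exact this.le_sylow_of_normal T (mem_zpowers _)
  obtain ⟨w, hw, ew⟩ := (mem_normalizer_iff.1 hg z).1 ⟨z', hzT, rfl⟩
  have h3 := key e T w z' (fun t ht => Subtype.ext (by
    obtain ⟨t', -, et⟩ := (mem_normalizer_iff''.1 hg t).1 ⟨t, ht, rfl⟩
    have := congrArg Subtype.val (zc t')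
    simp only [coe_mul, coe_subtype] at this ew et ⊢
    rw [et] at this
    rw [ew]
    calc _ = g * ((g : G)⁻¹ * t * g * z) * (g : G)⁻¹ := by group
      _ = _ := by rw [this]; simp only [z']; group)) (fun t _ => zc t) (fun h => z1 (by
      rw [h] at ew
      simpa using ew.symm)) (fun h => z1 (congrArg Subtype.val h))
  have hgC : (g : G) ∈ C := mem_centralizer_singleton_iff.2 (by
    rw [h3] at ew
    exact mul_inv_eq_iff_eq_mul.1 ew.symm)
  have h4 := T.3 (S.2.comap_subtype (K := C)) (fun t ht => hS ⟨t, ht, rfl⟩)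
  exact hg' ⟨⟨g, hgC⟩, h4.le g.2, rfl⟩

end Cfsg.Agent.S1717
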