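import Cfsg.Statements.S1753
import Cfsg.Agent.H1.Basic

set_option autoImplicit false
universe u
open Cfsg

namespace Cfsg.Agent.S1753

/-- Let K be any property of groups. (1) If G is a minimal counterexample relative to K — a finite non-abelian simple group not satisfying K such that every finite non-abelian simple group of smaller order satisfies K — then every proper subgroup of G is a K-group (all its non-abelian simple sections satisfy K), since such sections have smaller order than G. (2) Consequently (induction on the order), if every finite non-abelian simple group all of whose proper subgroups are K-groups satisfies K, then every finite non-abelian simple group satisfies K. -/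
theorem result (K : ∀ (X : Type u) [Group X], Prop) :
    (∀ (G : Type u) [Group G], Cfsg.IsMinCounterexampleWith K G → Cfsg.IsKProperWith K G) ∧
      ((∀ (X : Type u) [Group X] [Finite X], IsSimpleGroup X → ¬ IsMulCommutative X → Cfsg.IsKProperWith K X → K X) →
        ∀ (G : Type u) [Group G] [Finite G], IsSimpleGroup G → ¬ IsMulCommutative G → K G) := by
  have key : ∀ (G : Type u) [Group G] [Finite G], (∀ (X : Type u) [Group X] [Finite X],
      IsSimpleGroup X → ¬ IsMulCommutative X → Nat.card X < Nat.card G → K X) → Cfsg.IsKProperWith K G :=
    fun G _ _ h H hH L N _ h1 h2 => h _ h1 h2 (lt_of_le_of_lt ((Nat.le_of_dvd Nat.card_pos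
      (Subgroup.card_quotient_dvd_card N)).trans (Nat.card_le_card_of_injective _ L.subtype_injective))
      (H1.card_subgroup_lt hH))
  refine ⟨fun G _ h => ?_, fun h G _ _ => ?_⟩
  · haveI := h.1
    exact key G h.2.2.2.2
  · refine H1.group_induction (P := fun G _ _ => IsSimpleGroup G → ¬ IsMulCommutative G → K G) ?_ G
    exact fun G _ _ ih h1 h2 => h G h1 h2 (key G fun X _ _ h3 h4 h5 => ih X h5 h3 h4)

end Cfsg.Agent.S1753
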