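import Cfsg.Statements.S1754
import Cfsg.Agent.H9.Comp

set_option autoImplicit false
open Cfsg

namespace Cfsg.Agent.S1754

open Subgroup H9

/-- Let A be a standard subgroup of the finite group G (A quasisimple, C_G(A) tightly embedded of even order, A commuting elementwise with no other conjugate of itself, and N_G(A) = N_G(C_G(A))), and let t be an involution of G centralizing A. Then the centralizer of t lies in the normalizer of A; in particular A, viewed inside C_G(t), is a component of C_G(t). -/
theorem result {G : Type*} [Group G] [Finite G]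
    (A : Subgroup G) (hA : Cfsg.IsStandardSubgroup A) (t : G) (ht : orderOf t = 2) (htA : t ∈ Subgroup.centralizer (A : Set G)) :
    Subgroup.centralizer ({t} : Set G) ≤ Subgroup.normalizer (A : Set G) ∧
      Cfsg.IsComponent (A.subgroupOf (Subgroup.centralizer ({t} : Set G))) := by
  obtain ⟨h1, h2, -, h4⟩ := hA
  have h : centralizer ({t} : Set G) ≤ normalizer (A : Set G) := fun c hc => by
    rw [h4]
    by_contra hn
    have := h2.2 c hn
    have h5 : zpowers t ≤ centralizer (A : Set G) ⊓ cj c (centralizer (A : Set G)) := zpowers_le.2 ⟨htA, mem_cj.2 (by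
      rw [mul_assoc, ← mem_centralizer_singleton_iff.1 hc, inv_mul_cancel_left]; exact htA)⟩
    have h6 := card_dvd_of_le h5
    rw [Nat.card_zpowers, ht] at h6
    exact Nat.not_even_iff_odd.2 this (even_iff_two_dvd.2 h6)
  exact ⟨h, (comp_iff.1 ⟨SN.of_normal (le_centralizer_singleton_iff.2 htA) h, qs_iff.2 h1⟩).2⟩

end Cfsg.Agent.S1754
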