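import Cfsg.Statements.S1755
import Cfsg.Agent.H9.Comp
import Cfsg.Agent.H1.Frattini

set_option autoImplicit false
open Cfsg

namespace Cfsg.Agent.S1755

open Subgroup H9

theorem uniq {Q : Type*} [Group Q] [Finite Q] {A : Subgroup Q} (h : IsCyclic A) {x y : Q} (hx : x ∈ A) (hy : y ∈ A)
    (h1 : x ≠ 1) (h2 : y ≠ 1) (h3 : x ^ 2 = 1) (h4 : y ^ 2 = 1) : x = y := by
  classical
  letI := Fintype.ofFinite A
  by_contra hne
  have := IsCyclic.card_pow_eq_one_le (α := A) (n := 2) two_pos
  have h5 : ({1, ⟨x, hx⟩, ⟨y, hy⟩} : Finset A) ⊆ Finset.univ.filter fun a : A => a ^ 2 = 1 := by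
    intro a ha
    simp only [Finset.mem_insert, Finset.mem_singleton] at ha
    rcases ha with rfl | rfl | rfl <;> simp [Subtype.ext_iff, h3, h4]
  have h6 := Finset.card_le_card h5
  rw [Finset.card_eq_three.2 ⟨_, _, _, fun e => h1 (congrArg Subtype.val e).symm,
    fun e => h2 (congrArg Subtype.val e).symm, fun e => hne (congrArg Subtype.val e), rfl⟩] at h6
  omega

/-- Let G be a finite group and let z be an involution of G such that Q, the generalized Fitting subgroup of the centralizer C of z, is a 2-group of symplectic type (every characteristic abelian subgroup of Q is cyclic). Let B be a characteristic abelian subgroup of Q, viewed as a subgroup of G. Then for every g in G, the conjugate of B by g either equals B or meets B trivially. -/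
theorem result {G : Type*} [Group G] [Finite G] (z : G) (hz : orderOf z = 2) (hQ : Cfsg.IsOfSymplecticType ↥(Cfsg.generalizedFittingSubgroup ↥(Subgroup.centralizer ({z} : Set G))))
    (B : Subgroup ↥(Cfsg.generalizedFittingSubgroup ↥(Subgroup.centralizer ({z} : Set G)))) (hBc : B.Characteristic) (hBa : IsMulCommutative ↥B) (g : G) :
    ((B.map (Cfsg.generalizedFittingSubgroup ↥(Subgroup.centralizer ({z} : Set G))).subtype).map (Subgroup.centralizer ({z} : Set G)).subtype).map (MulAut.conj g).toMonoidHom =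
        (B.map (Cfsg.generalizedFittingSubgroup ↥(Subgroup.centralizer ({z} : Set G))).subtype).map (Subgroup.centralizer ({z} : Set G)).subtype ∨
      ((B.map (Cfsg.generalizedFittingSubgroup ↥(Subgroup.centralizer ({z} : Set G))).subtype).map (Subgroup.centralizer ({z} : Set G)).subtype).map (MulAut.conj g).toMonoidHom ⊓
        (B.map (Cfsg.generalizedFittingSubgroup ↥(Subgroup.centralizer ({z} : Set G))).subtype).map (Subgroup.centralizer ({z} : Set G)).subtype = ⊥ := by
  haveI : Fact (Nat.Prime 2) := ⟨Nat.prime_two⟩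
  let C := centralizer ({z} : Set G)
  let Q := generalizedFittingSubgroup C
  let B' := (B.map Q.subtype).map C.subtype
  show cj g B' = B' ∨ cj g B' ⊓ B' = ⊥
  have hzC : z ∈ C := mem_centralizer_singleton_iff.2 rfl
  have hzQ : (⟨z, hzC⟩ : C) ∈ Q := by
    have := centralizer_Fst_le (⊤ : Subgroup C)
    rw [Fst_top] at this
    exact this ⟨trivial, fun y _ => Subtype.ext (mem_centralizer_singleton_iff.1 y.2)⟩
  have hz1 : z ≠ 1 := fun e => by rw [e, orderOf_one] at hz; omega
  have hz2 : z ^ 2 = 1 := by rw [← hz, pow_orderOf_eq_one]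
  have hcyc : IsCyclic (B ⊔ center Q : Subgroup Q) := hQ.2 _ (characteristic_iff_map_le.2 fun φ => by
      rw [Subgroup.map_sup]
      exact sup_le_sup (characteristic_iff_map_le.1 hBc φ) (characteristic_iff_map_le.1 inferInstance φ))
    (H1.isMulCommutative_sup hBa inferInstance (le_centralizer_iff.1 (center_le_centralizer _)))
  have inv : ∀ x ∈ B', x ≠ 1 → x ^ 2 = 1 → x = z := by
    rintro _ ⟨_, ⟨b, hb, rfl⟩, rfl⟩ h1 h2
    have := uniq hcyc (mem_sup_left hb) (y := ⟨⟨z, hzC⟩, hzQ⟩) (mem_sup_right (mem_center_iff.2 fun y =>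
      Subtype.ext (Subtype.ext (mem_centralizer_singleton_iff.1 y.1.2)))) (fun e => h1 (by rw [e]; rfl))
      (fun e => hz1 (congrArg (fun y : Q => ((y : C) : G)) e)) (Subtype.ext (Subtype.ext h2)) (Subtype.ext (Subtype.ext hz2))
    rw [this]; rfl
  refine or_iff_not_imp_right.2 fun h => ?_
  have hB2 : IsPGroup 2 B' := ((hQ.1.to_subgroup B).map _).map _
  obtain ⟨⟨x, hx⟩, hx1⟩ := ne_bot_iff_exists_ne_one.1 h
  obtain ⟨n, hn⟩ := hB2 ⟨x, hx.2⟩
  obtain ⟨j, h1, h2⟩ := H1.exists_pow_notMem_pow_mem (p := 2) (N := ⊥) (k := n) (x := x)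
    (fun e => hx1 (Subtype.ext (mem_bot.1 e))) (mem_bot.2 (congrArg Subtype.val hn))
  rw [mem_bot] at h1 h2
  have e1 := inv _ (pow_mem hx.2 _) h1 h2
  rw [e1] at h1 h2
  have e2 := inv _ (mem_cj.1 (e1 ▸ pow_mem hx.1 (2 ^ j))) (by simpa [mul_assoc, inv_mul_eq_iff_eq_mul] using h1) (by
    have := conj_pow (a := g⁻¹) (b := z) (i := 2)
    rw [inv_inv] at this; rw [this, h2]; simp)
  have hg : g ∈ C := mem_centralizer_singleton_iff.2 (by rw [mul_assoc, inv_mul_eq_iff_eq_mul] at e2; exact e2.symm)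
  exact mem_normalizer_iff_cj.1 (map_subtype_le_normalizer (B.map Q.subtype) hg)

end Cfsg.Agent.S1755
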