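import Cfsg.Statements.S1756
import Cfsg.Agent.H2.XS

set_option autoImplicit false
open Cfsg

namespace Cfsg.Agent.S1756

open H2 Subgroup in

/-- Let Q be an extraspecial 2-subgroup of the finite group G (special with centre of order 2) and t an involution of G normalizing Q such that the centralizer of t in Q has index at most 2 in Q. Then t lies in the product of Q with the centralizer of Q. -/
theorem result {G : Type*} [Group G] [Finite G] (Q : Subgroup G)
    (hQ : Cfsg.IsExtraspecial 2 ↥Q) (t : G) (ht : orderOf t = 2) (htN : t ∈ Subgroup.normalizer (Q : Set G))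
    (hi : (Subgroup.centralizer ({t} : Set G) ⊓ Q).relIndex Q ≤ 2) :
    t ∈ Q ⊔ Subgroup.centralizer (Q : Set G) := by
  obtain ⟨z, h⟩ := xs_of hQ
  have hz := h.conj_z htN
  have t2 : t * t = 1 := by rw [← pow_two, ← ht, pow_orderOf_eq_one]
  have ti : t⁻¹ = t := inv_eq_of_mul_eq_one_right t2
  have h2 : ∀ a ∈ Q, ∀ b ∈ Q, t * a ≠ a * t → t * b ≠ b * t → t * (a * b) = a * b * t := fun a ha b hb h1 h2 => by
    have e0 : (centralizer ({t} : Set G) ⊓ Q).relIndex Q ≠ 0 := index_ne_zero_of_finite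
    have e1 : (centralizer ({t} : Set G) ⊓ Q).relIndex Q ≠ 1 := fun e =>
      h1 (mem_centralizer_singleton_iff.1 (relIndex_eq_one.1 e ha).1).symm
    have := (mul_mem_iff_of_index_two (H := (centralizer ({t} : Set G) ⊓ Q).subgroupOf Q)
      (show (centralizer ({t} : Set G) ⊓ Q).relIndex Q = 2 by omega) (a := ⟨a, ha⟩) (b := ⟨b, hb⟩)).2
      (iff_of_false (fun e => h1 (mem_centralizer_singleton_iff.1 e.1).symm)
        fun e => h2 (mem_centralizer_singleton_iff.1 e.1).symm)
    exact (mem_centralizer_singleton_iff.1 this.1).symm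
  obtain ⟨q, hq, e⟩ := h.inner (MulAut.conj t) fun y hy => by
    show t * y * t⁻¹ = y ∨ t * y * t⁻¹ = y * z
    by_cases e : t * y = y * t
    · exact Or.inl (conj_eq_iff_comm.2 e)
    have h1 := H1.conj_mem_of_mem_normalizer htN hy
    have h3 := Q.mul_mem (Q.inv_mem hy) h1
    have h4 := h2 _ (Q.inv_mem hy) _ h1 (fun a => e (comm_inv_iff.1 a.symm).symm) fun a =>
      e (by rw [eq_comm, comm_conj_iff] at a; simpa using a.symm)
    generalize hc : y⁻¹ * (t * y * t⁻¹) = c at h3 h4
    have h5 : t * y * t⁻¹ = y * c := by rw [← hc]; group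
    have h6 : c * c = 1 := by
      have : t * (t * y * t⁻¹) * t⁻¹ = y := by
        rw [show t * (t * y * t⁻¹) * t⁻¹ = (t * t) * y * (t * t)⁻¹ by group, t2]; simp
      rw [h5, show t * (y * c) * t⁻¹ = (t * y * t⁻¹) * (t * c * t⁻¹) by group, h5, conj_eq_iff_comm.2 h4,
        mul_assoc] at this
      simpa using this
    have h7 := h.comm_of_sq hz hy h6 h5
    have h8 : ∀ a ∈ Q, t * a = a * t → c * a = a * c := fun a ha b => by
      rw [← hc, h.comm_mul_iff' ha (Q.inv_mem hy) h1, comm_conj_iff, comm_inv_iff, mul_assoc, ← b,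
        inv_mul_cancel_left]
    rw [h5]
    refine (h.cen c h3 fun a ha => ?_).imp (fun b => by rw [b, mul_one]) fun b => by rw [b]
    by_cases b : t * a = a * t
    · exact h8 a ha b
    · have := h8 _ (Q.mul_mem hy ha) (h2 y hy a ha e b)
      exact ((h.comm_mul_iff h3 hy ha).1 this).1 h7.symm
  rw [← mul_inv_cancel_left q t]
  refine mul_mem (mem_sup_left hq) (mem_sup_right fun x hx => (conj_eq_iff_comm.1 ?_).symm)
  calc q⁻¹ * t * x * (q⁻¹ * t)⁻¹ = q⁻¹ * (t * x * t⁻¹) * q := by group
    _ = _ := by rw [show t * x * t⁻¹ = _ from e x hx]; group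

end Cfsg.Agent.S1756
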