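import Cfsg.Statements.S1757
import Cfsg.Agent.H1.SylowIn

set_option autoImplicit false
open Cfsg

namespace Cfsg.Agent.S1757

open Pointwise in

/-- Let p be a prime and A, B p-subgroups of the finite group G, each of which meets every conjugate of itself other than itself trivially. Suppose the order of A is at most that of B, A and B intersect trivially, and B normalizes A. Then A and B commute elementwise. -/
theorem result {G : Type*} [Group G] [Finite G] (p : ℕ) [Fact p.Prime] (A B : Subgroup G)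
    (hA : IsPGroup p ↥A) (hB : IsPGroup p ↥B)
    (hAti : ∀ g : G, A.map (MulAut.conj g).toMonoidHom = A ∨ A.map (MulAut.conj g).toMonoidHom ⊓ A = ⊥)
    (hBti : ∀ g : G, B.map (MulAut.conj g).toMonoidHom = B ∨ B.map (MulAut.conj g).toMonoidHom ⊓ B = ⊥)
    (hle : Nat.card ↥A ≤ Nat.card ↥B) (hAB : A ⊓ B = ⊥) (hN : B ≤ Subgroup.normalizer (A : Set G)) : ⁅A, B⁆ = ⊥ := by
  let C := A ⊓ Subgroup.centralizer (B : Set G)
  rw [Subgroup.commutator_eq_bot_iff_le_centralizer]
  by_contra hne
  have hC : C < A := lt_of_le_of_ne inf_le_left fun h => hne (h ▸ inf_le_right)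
  have hCB : C ≤ Subgroup.normalizer (B : Set G) := inf_le_right.trans (Subgroup.centralizer_le_normalizer _)
  have h1 : C ⊔ B < A ⊔ B := by
    refine lt_of_le_of_ne (sup_le_sup_right hC.le _) fun h => hC.ne ?_
    have := H1.dedekind_left (A := C) (B := B) (C := A) hC.le (Or.inl hCB)
    rwa [h, inf_eq_right.2 le_sup_left, inf_comm, hAB, sup_bot_eq, eq_comm] at this
  obtain ⟨x, hx, hx'⟩ := SetLike.exists_of_lt (H1.lt_normalizer_inf_of_isPGroup
    (hA.to_sup_of_normal_left' hB hN) h1)
  obtain ⟨a, ha, b, hb, rfl⟩ := (H1.mem_sup_of_le_normalizer_left hN).1 hx.2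
  have hbH : b ∈ C ⊔ B := Subgroup.mem_sup_right hb
  have haN : a ∈ Subgroup.normalizer ((C ⊔ B : Subgroup G) : Set G) := by
    simpa using Subgroup.mul_mem _ hx.1 (Subgroup.inv_mem _ (Subgroup.le_normalizer hbH))
  rcases hBti a with h | h
  · refine hx' (Subgroup.mul_mem _ (Subgroup.mem_sup_left ⟨ha, ?_⟩) hbH)
    exact H1.mem_centralizer_of_mem_normalizer hN (inf_comm A B ▸ hAB) ha (H1.conj_smul_eq_self_iff.1 h)
  · have h2 : MulAut.conj a • B ≤ C ⊔ B := H1.conj_smul_le_of_mem_normalizer le_sup_right haN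
    have h3 := H1.card_sup_of_disjoint (h2.trans (sup_le hCB Subgroup.le_normalizer)) h
    have h4 := Subgroup.card_le_of_le (sup_le h2 le_sup_right)
    have h5 := Nat.le_of_dvd (Nat.mul_pos Nat.card_pos Nat.card_pos) (H1.card_sup_dvd hCB)
    rw [h3, H1.card_conj_smul] at h4
    have h6 := Nat.le_of_mul_le_mul_right (h4.trans h5) Nat.card_pos
    have h7 := H1.card_lt_of_lt hC
    omega

end Cfsg.Agent.S1757
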