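import Cfsg.Statements.S1775
import Cfsg.Agent.H9.LB3

set_option autoImplicit false
open Cfsg

namespace Cfsg.Agent.S1775

/-- Let G be a finite group whose generalized Fitting subgroup is a non-abelian simple group and in which every proper section (every quotient H/N of a proper subgroup H, or of G by a nontrivial normal subgroup) has the B-property. Let x, y be commuting involutions, let D be the intersection of the 2-layer of C_G(x) with C_G(y), and let J be a 2-component of D. Write Q for the quotient of C_G(y) by its largest normal odd-order subgroup. Then (i) the image of J in Q is a component of the centralizer in Q of the image of x; and (ii) for every J-invariant subgroup E of odd order of C_G(x) ∩ C_G(y), the commutator subgroup [J, E] lies in the largest normal odd-order subgroup of C_G(y). -/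
theorem result {G : Type*} [Group G] [Finite G]
    (hF : IsSimpleGroup ↥(Cfsg.generalizedFittingSubgroup G)) (hF' : ¬ IsMulCommutative ↥(Cfsg.generalizedFittingSubgroup G))
    (hsec : ∀ (H : Subgroup G) (N : Subgroup ↥H) [N.Normal], (H ≠ ⊤ ∨ N ≠ ⊥) → Cfsg.HasBProperty (↥H ⧸ N))
    (x y : G) (hx : orderOf x = 2) (hy : orderOf y = 2) (hxy : x * y = y * x)
    (J : Subgroup ↥((Cfsg.pLayer 2 ↥(Subgroup.centralizer ({x} : Set G))).map (Subgroup.centralizer ({x} : Set G)).subtype ⊓ Subgroup.centralizer ({y} : Set G)))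
    (hJ : Cfsg.IsPComponent 2 J) :
    Cfsg.IsComponent
        ((((J.map (Subgroup.subtype _)).subgroupOf (Subgroup.centralizer ({y} : Set G))).map (QuotientGroup.mk' (Cfsg.oddCore ↥(Subgroup.centralizer ({y} : Set G))))).subgroupOf
          (Subgroup.centralizer ({(QuotientGroup.mk' (Cfsg.oddCore ↥(Subgroup.centralizer ({y} : Set G))) ⟨x, Subgroup.mem_centralizer_singleton_iff.mpr hxy⟩ : ↥(Subgroup.centralizer ({y} : Set G)) ⧸ Cfsg.oddCore ↥(Subgroup.centralizer ({y} : Set G)))} : Set _))) ∧
      ∀ E : Subgroup G, E ≤ Subgroup.centralizer ({x} : Set G) ⊓ Subgroup.centralizer ({y} : Set G) → Odd (Nat.card ↥E) →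
        (∀ j ∈ J.map (Subgroup.subtype _), ∀ e ∈ E, j * e * j⁻¹ ∈ E) →
          ⁅J.map (Subgroup.subtype _), E⁆ ≤ (Cfsg.oddCore ↥(Subgroup.centralizer ({y} : Set G))).map (Subgroup.centralizer ({y} : Set G)).subtype := by
  open H9 Subgroup in open scoped commutatorElement in
  obtain ⟨π, hπ⟩ : ∃ π, π = QuotientGroup.mk' (pPrimeCore 2 (centralizer ({y} : Set G))) := ⟨_, rfl⟩
  have hk : kr π = Op' 2 (centralizer {y}) := hπ ▸ kr_mk'_pPrimeCore 2
  have xy := mem_centralizer_singleton_iff.mpr hxy
  have px := isPGroup_zpowers_of_orderOf hx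
  have c := fun X => (cop_of_le (Op'_cop 2 _) (inf_le_left.trans hk.le) : (Nat.card (kr π ⊓ X : Subgroup G)).Coprime 2)
  have a0 := pcomp_map_subtype_iff.2 hJ
  obtain ⟨K, hK⟩ : ∃ K, K = J.map (Subgroup.subtype _) := ⟨_, rfl⟩
  rw [← hK] at a0 ⊢
  rw [PLay_eq] at a0
  have a1 := (a0.trans ((sn_PLay 2 _).inf_right _)).im π inf_le_right (c _)
  have e := im_centralizer_cop π (zpowers_le.2 xy) ((zpowers_le.2 xy).trans le_normalizer) (copA_of_p px (c _))
  rw [im_self π (hπ ▸ QuotientGroup.mk'_surjective _), top_inf_eq, im_zpowers π ⟨x, xy⟩, centralizer_zpowers,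
    centralizer_zpowers, inf_comm] at e
  rw [e] at a1
  have ne : centralizer ({y} : Set G) ≠ ⊤ := fun h => by
    have b : zpowers y ≤ centralizer ((⊤ : Subgroup G) : Set G) := zpowers_le_centralizer_iff.2 h.ge
    have b1 := (le_inf le_top (b.trans (centralizer_anti le_top))).trans (centralizer_Fst_le ⊤)
    rw [Fst_top] at b1
    have b2 : (⟨y, b1 (mem_zpowers y)⟩ : generalizedFittingSubgroup G) ∈ center _ :=
      mem_center_iff.2 fun g => Subtype.ext (b (mem_zpowers y) g (mem_top _))
    rcases (center (generalizedFittingSubgroup G)).normal_of_characteristic.eq_bot_or_eq_top with h | h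
    · rw [h, mem_bot] at b2
      exact H1.two_ne hy (congrArg (generalizedFittingSubgroup G).subtype b2)
    · exact hF' ⟨⟨fun a b => (mem_center_iff.1 (h.ge (mem_top b)) a)⟩⟩
  have b1 := hsec _ (pPrimeCore 2 _) (Or.inl ne) _ (orderOf_im π (hk ▸ Op'_cop 2 _) (x := ⟨x, xy⟩) hx)
  rw [map_commutator, PLay_eq, oddCore, Op'_eq, oddCore, pPrimeCore_quotient, le_bot_iff, ← le_centralizer_iff'] at b1
  have a2 : Comp (im π K) (centralizer {π ⟨x, xy⟩}) := ⟨a1.sn, a1.pqs.qs (a1.sn.Op'_le_Op'.trans
    ((le_centralizer_iff.1 b1).trans (centralizer_anti a1.le_PLay)))⟩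
  refine ⟨hπ ▸ (comp_iff.1 a2).2, fun E h1 h2 h3 => ?_⟩
  rw [oddCore, Op'_eq, ← hk, ← im_le_centralizer_iff π (a0.le.trans inf_le_right) (h1.trans inf_le_right),
    le_centralizer_iff']
  exact (a2.le_or_comm_of_normalizes (e ▸ im_mono π h1) (im_le_normalizer π (le_normalizer_of_cj_le fun g hg z hz => by
    obtain ⟨w, hw, rfl⟩ := hz; exact h3 g hg w hw))).resolve_left fun b => a2.qs.not_cop_two
      (cop_of_le (cop_im π (Nat.coprime_two_right.2 h2)) b)

end Cfsg.Agent.S1775
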