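import Cfsg.Statements.S1781
import Cfsg.Agent.H2.TI2

set_option autoImplicit false
open Cfsg

namespace Cfsg.Agent.S1781

open Subgroup H9

/-- Let A be an abelian 2-subgroup of the finite group G such that every conjugate of A equals A or meets A trivially, and let g ∈ G with g A g⁻¹ ≠ A. Then either the subgroup of those elements of A that normalize g A g⁻¹ is an elementary abelian 2-group, or A and g A g⁻¹ commute elementwise. -/
theorem result {G : Type*} [Group G] [Finite G] (A : Subgroup G)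
    (hA2 : IsPGroup 2 ↥A) (hAa : IsMulCommutative ↥A)
    (hti : ∀ h : G, A.map (MulAut.conj h).toMonoidHom = A ∨ A.map (MulAut.conj h).toMonoidHom ⊓ A = ⊥)
    (g : G) (hg : A.map (MulAut.conj g).toMonoidHom ≠ A) :
    Cfsg.IsElementaryAbelian 2 (A ⊓ Subgroup.normalizer ((A.map (MulAut.conj g).toMonoidHom : Subgroup G) : Set G)) ∨
      ⁅A, A.map (MulAut.conj g).toMonoidHom⁆ = ⊥ := by
  rw [cj_def'] at hg ⊢
  simp only [cj_def'] at hti
  have hAB : A ⊓ cj g A = ⊥ := inf_comm A _ ▸ (hti g).resolve_left hg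
  have hBa : IsMulCommutative (cj g A) := ⟨⟨fun a b => (cjEquiv g A).symm.injective (by
    rw [map_mul, map_mul]; exact hAa.is_comm.comm _ _)⟩⟩
  by_cases h : ∃ t ∈ A ⊓ normalizer ((cj g A : Subgroup G) : Set G), t ^ 2 ≠ 1
  · obtain ⟨t, ht, h2⟩ := h
    have h1 := H2T.ti_cent (isPGroup_cj g hA2) hBa hA2 hti hAB ht.1 ht.2 h2
    have h3 := H2T.ti_cent (A := cj g A) (B := A) hA2 hAa (isPGroup_cj g hA2) (fun h => by
      rcases hti (g⁻¹ * h * g) with e | e
      · left; rw [← cj_mul, show h * g = g * (g⁻¹ * h * g) by group, cj_mul, e]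
      · right; rw [← cj_mul, show h * g = g * (g⁻¹ * h * g) by group, cj_mul, ← cj_inf, e, cj_eq_bot_iff])
      (inf_comm A _ ▸ hAB) (conj_mem_cj ht.1) (h1 (conj_mem_cj ht.1)) (by
        rw [conj_pow]; simpa [mul_inv_eq_one] using h2)
    right
    rw [eq_bot_iff, ← hAB]
    exact le_inf (commutator_le_left' h1) (commutator_le_right' h3)
  · push Not at h
    exact Or.inl ⟨⟨⟨fun a b => Subtype.ext (congrArg A.subtype (hAa.is_comm.comm ⟨a, a.2.1⟩ ⟨b, b.2.1⟩))⟩⟩, h⟩

end Cfsg.Agent.S1781
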