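import Cfsg.Statements.S1782
import Cfsg.Agent.H2.TI2

set_option autoImplicit false
open Cfsg

namespace Cfsg.Agent.S1782

open Subgroup H9

/-- Let S be a finite 2-group and Δ a set of subgroups of S closed under conjugation by S, all of the same order, each with nontrivial Frattini subgroup, and such that two distinct members of Δ meet trivially. Then any two distinct members of Δ commute elementwise. -/
theorem result {S : Type*} [Group S] [Finite S] (hS : IsPGroup 2 S)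
    (Δ : Set (Subgroup S)) (hinv : ∀ s : S, ∀ R ∈ Δ, R.map (MulAut.conj s).toMonoidHom ∈ Δ)
    (hΦ : ∀ R ∈ Δ, frattini ↥R ≠ ⊥) (hord : ∀ R ∈ Δ, ∀ T ∈ Δ, Nat.card ↥R = Nat.card ↥T)
    (hti : ∀ R ∈ Δ, ∀ T ∈ Δ, R = T ∨ R ⊓ T = ⊥) :
    ∀ R ∈ Δ, ∀ T ∈ Δ, R ≠ T → ⁅R, T⁆ = ⊥ := by
  refine H2T.ti_comm (P := ⊤) (hS.to_subgroup _) Δ (fun _ _ => le_top) (fun s _ => hinv s) (fun R hR => ?_) hord hti
  by_contra h
  push Not at h
  have h2 : ∀ x : R, x ^ 2 = 1 := fun x => Subtype.ext (h x x.2)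
  refine hΦ R hR (eq_bot_iff.2 (H1.frattini_le_of_elementary Nat.prime_two ?_ fun x => mem_bot.2 (h2 x)))
  rw [_root_.commutator_def, commutator_le]
  intro a _ b _
  rw [mem_bot, commutatorElement_eq_one_iff_mul_comm]
  have i : ∀ x : R, x⁻¹ = x := fun x => inv_eq_of_mul_eq_one_right (by rw [← sq, h2])
  rw [← i (a * b), mul_inv_rev, i, i]

end Cfsg.Agent.S1782
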