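import Cfsg.Statements.S1783
import Cfsg.Agent.H2.TI2

set_option autoImplicit false
open Cfsg

namespace Cfsg.Agent.S1783

open Subgroup H9

/-- Let X be a finite group whose generalized Fitting subgroup equals its largest normal 2-subgroup Q, and let A be an abelian 2-subgroup of X such that every conjugate of A equals A or meets A trivially. Let B be the subgroup generated by the squares of the elements of A. Then B lies in Q, and if B is not an elementary abelian 2-group then the normal closure of B in X is commutative. -/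
theorem result {X : Type*} [Group X] [Finite X]
    (hX : Cfsg.generalizedFittingSubgroup X = Cfsg.pCore 2 X) (A : Subgroup X) (hA2 : IsPGroup 2 ↥A) (hAa : IsMulCommutative ↥A)
    (hti : ∀ h : X, A.map (MulAut.conj h).toMonoidHom = A ∨ A.map (MulAut.conj h).toMonoidHom ⊓ A = ⊥) :
    Subgroup.closure ((fun a : X => a ^ 2) '' (A : Set X)) ≤ Cfsg.pCore 2 X ∧
      (¬ Cfsg.IsElementaryAbelian 2 (Subgroup.closure ((fun a : X => a ^ 2) '' (A : Set X))) →
        IsMulCommutative ↥(Subgroup.normalClosure ((fun a : X => a ^ 2) '' (A : Set X)))) := by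
  haveI : Fact (Nat.Prime 2) := ⟨Nat.prime_two⟩
  simp only [cj_def'] at hti
  have hC : centralizer (pCore 2 X : Set X) ≤ pCore 2 X := by
    have := centralizer_Fst_le (⊤ : Subgroup X)
    rwa [Fst_top, hX, top_inf_eq] at this
  have ti : ∀ g h : X, cj g A = cj h A ∨ cj g A ⊓ cj h A = ⊥ := fun g h => by
    rcases hti (h⁻¹ * g) with e | e
    · left; rw [show g = h * (h⁻¹ * g) by group, cj_mul, e]
    · right; rw [show g = h * (h⁻¹ * g) by group, cj_mul, ← cj_inf, e, cj_eq_bot_iff]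
  have cm : ∀ a ∈ A, ∀ b ∈ A, a * b = b * a := fun a ha b hb => congrArg A.subtype (hAa.is_comm.comm ⟨a, ha⟩ ⟨b, hb⟩)
  set B := closure ((fun a : X => a ^ 2) '' (A : Set X)) with hB
  have hBA : B ≤ A := (closure_le _).2 (by rintro _ ⟨a, ha, rfl⟩; exact pow_mem ha 2)
  have h1 : B ≤ pCore 2 X := by
    refine (closure_le _).2 ?_
    rintro _ ⟨a, ha, rfl⟩
    by_cases ha2 : a ^ 2 = 1
    · simp only [ha2]; exact one_mem _
    have hP : IsPGroup 2 (pCore 2 X ⊔ A : Subgroup X) := (pCore_p 2).to_sup_of_normal_left hA2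
    have key := H2T.ti_comm hP {R | ∃ q ∈ pCore 2 X ⊔ A, R = cj q A} (by
      rintro _ ⟨q, hq, rfl⟩
      exact (cj_mono q le_sup_right).trans (cj_eq_of_mem hq).le) (by
      rintro s hs _ ⟨q, hq, rfl⟩
      exact ⟨s * q, mul_mem hs hq, (cj_mul _ _ _).symm⟩) (by
      rintro _ ⟨q, hq, rfl⟩
      exact ⟨_, conj_mem_cj ha, by rw [conj_pow]; simpa [mul_inv_eq_one] using ha2⟩) (by
      rintro _ ⟨q, hq, rfl⟩ _ ⟨r, hr, rfl⟩
      rw [card_cj, card_cj]) (by
      rintro _ ⟨q, hq, rfl⟩ _ ⟨r, hr, rfl⟩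
      exact ti q r)
    refine H2T.mem_pCore hC fun x hx => ?_
    have h2 : Commute a (x * a * x⁻¹) := by
      by_cases e : A = cj x A
      · exact cm a ha _ (e ▸ conj_mem_cj ha)
      · have := key A ⟨1, one_mem _, by ext; simp [mem_cj]⟩ _ ⟨x, mem_sup_left hx, rfl⟩ e
        exact (comm_of_mem_centralizer (commutator_eq_bot_iff_le_centralizer.1 this ha) (conj_mem_cj ha)).symm
    have : a ^ 2 * x * (a ^ 2)⁻¹ * x⁻¹ = (a * x * a⁻¹ * x⁻¹) ^ 2 := by
      rw [show a * x * a⁻¹ * x⁻¹ = a * (x * a * x⁻¹)⁻¹ by group, h2.inv_right.mul_pow, inv_pow, conj_pow]; group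
    rw [this]
    exact H1.pow_mem_map_frattini (pCore_p 2) (mul_mem ((inferInstance : (pCore 2 X).Normal).conj_mem x hx a) (inv_mem hx))
  refine ⟨h1, fun hne => ?_⟩
  obtain ⟨b, hb, hb2⟩ : ∃ b ∈ B, b ^ 2 ≠ 1 := by
    by_contra h
    push Not at h
    exact hne ⟨⟨⟨fun a b => Subtype.ext (cm _ (hBA a.2) _ (hBA b.2))⟩⟩, h⟩
  have eB : ∀ g h : X, cj g A = cj h A → cj g B ≤ cj h B := fun g h e => by
    rw [cj_le_iff, hB, closure_le]
    rintro _ ⟨a, ha, rfl⟩
    have : h⁻¹ * (g * a * g⁻¹) * h ∈ A := mem_cj.1 (e ▸ conj_mem_cj ha)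
    have h3 : (h⁻¹ * (g * a * g⁻¹) * h) ^ 2 ∈ B := subset_closure ⟨_, this, rfl⟩
    refine mem_cj.2 (mem_cj.2 ?_)
    convert h3 using 1
    simp only [sq]; group
  have key := H2T.ti_comm (pCore_p 2) (Set.range fun q => cj q B) (by
      rintro _ ⟨q, rfl⟩
      exact (cj_mono q h1).trans (cj_eq_of_normal _ _).le) (by
      rintro s hs _ ⟨q, rfl⟩
      exact ⟨s * q, cj_mul _ _ _⟩) (by
      rintro _ ⟨q, rfl⟩
      exact ⟨_, conj_mem_cj hb, by rw [conj_pow]; simpa [mul_inv_eq_one] using hb2⟩) (by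
      rintro _ ⟨q, rfl⟩ _ ⟨r, rfl⟩
      simp only [card_cj]) (by
      rintro _ ⟨q, rfl⟩ _ ⟨r, rfl⟩
      exact (ti q r).imp (fun e => le_antisymm (eB _ _ e) (eB _ _ e.symm)) fun e =>
        eq_bot_iff.2 ((inf_le_inf (cj_mono q hBA) (cj_mono r hBA)).trans e.le))
  have all : ∀ q r : X, cj q B ≤ centralizer (cj r B : Set X) := fun q r => by
    by_cases e : cj q B = cj r B
    · rw [e, ← cj_centralizer]
      exact cj_mono r fun x hx y hy => cm y (hBA hy) x (hBA hx)
    · exact commutator_eq_bot_iff_le_centralizer.1 (key _ ⟨q, rfl⟩ _ ⟨r, rfl⟩ e)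
  have hle : normalClosure ((fun a : X => a ^ 2) '' (A : Set X)) ≤ ⨆ q, cj q B := by
    haveI : (⨆ q, cj q B).Normal := normal_iff_cj.2 fun g => by
      rw [cj_iSup]
      refine le_antisymm (iSup_le fun q => le_iSup_of_le (g * q) (cj_mul _ _ _).ge)
        (iSup_le fun q => le_iSup_of_le (g⁻¹ * q) (by rw [← cj_mul, mul_inv_cancel_left]))
    exact normalClosure_le_normal fun x hx => le_iSup (fun q => cj q B) 1 (mem_cj.2 (by simpa using subset_closure hx))
  have : (⨆ q, cj q B) ≤ centralizer ((⨆ q, cj q B : Subgroup X) : Set X) :=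
    iSup_le fun q => le_centralizer_iff.1 (iSup_le fun r => all r q)
  exact ⟨⟨fun a b => Subtype.ext (comm_of_mem_centralizer (this (hle b.2)) (hle a.2))⟩⟩

end Cfsg.Agent.S1783
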