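import Cfsg.Statements.S1784
import Cfsg.Agent.H2.XS2

set_option autoImplicit false
open Cfsg

namespace Cfsg.Agent.S1784

open H2 H9 Subgroup in

/-- Let G be a finite group and let z be an involution of G such that Q, the generalized Fitting subgroup of the centralizer C of z, is a 2-group of symplectic type (every characteristic abelian subgroup of Q is cyclic); suppose Q is extraspecial, and view Q inside G. Let α be an involution of C that is not in Q, and let Q₀ be the subgroup of those q ∈ Q whose commutator with α lies in the subgroup generated by z. Then (a) the subgroup generated by the commutators α q α⁻¹ q⁻¹, q ∈ Q, equals the centre of Q₀; and (b) if Q₀ is not contained in the product of the centralizer of α in Q with the subgroup generated by z, then some element of Q conjugates α to α z. -/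
theorem result {G : Type*} [Group G] [Finite G] (z : G) (hz : orderOf z = 2) (hQ : Cfsg.IsOfSymplecticType ↥(Cfsg.generalizedFittingSubgroup ↥(Subgroup.centralizer ({z} : Set G)))) (hE : Cfsg.IsExtraspecial 2 ↥(Cfsg.generalizedFittingSubgroup ↥(Subgroup.centralizer ({z} : Set G))))
    (α : G) (hα : orderOf α = 2) (hαC : α ∈ Subgroup.centralizer ({z} : Set G)) (hαQ : α ∉ (Cfsg.generalizedFittingSubgroup ↥(Subgroup.centralizer ({z} : Set G))).map (Subgroup.centralizer ({z} : Set G)).subtype)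
    (Q₀ : Subgroup G) (hQ₀ : ∀ q : G, q ∈ Q₀ ↔ (q ∈ (Cfsg.generalizedFittingSubgroup ↥(Subgroup.centralizer ({z} : Set G))).map (Subgroup.centralizer ({z} : Set G)).subtype ∧ α * q * α⁻¹ * q⁻¹ ∈ Subgroup.zpowers z)) :
    Subgroup.closure ((fun q : G => α * q * α⁻¹ * q⁻¹) '' ((Cfsg.generalizedFittingSubgroup ↥(Subgroup.centralizer ({z} : Set G))).map (Subgroup.centralizer ({z} : Set G)).subtype : Set G)) = (Subgroup.center ↥Q₀).map Q₀.subtype ∧
      (¬ Q₀ ≤ ((Cfsg.generalizedFittingSubgroup ↥(Subgroup.centralizer ({z} : Set G))).map (Subgroup.centralizer ({z} : Set G)).subtype ⊓ Subgroup.centralizer ({α} : Set G)) ⊔ Subgroup.zpowers z →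
        ∃ q ∈ (Cfsg.generalizedFittingSubgroup ↥(Subgroup.centralizer ({z} : Set G))).map (Subgroup.centralizer ({z} : Set G)).subtype, q * α * q⁻¹ = α * z) := by
  rw [Fst_eq] at hαQ ⊢
  simp only [Fst_eq] at hQ₀
  obtain ⟨w, hw⟩ := xs_of (L.isExtraspecial_top_iff.2 hE)
  have hE' := (hw.map ((centralizer ({z} : Set G)).subtype.comp (Subgroup.subtype _))
    fun x _ e => Subtype.ext (Subtype.ext e)).isExtra
  rw [← Subgroup.map_map, map_top_subtype, Fst_eq] at hE'
  obtain ⟨h, -⟩ := lx_of_Fst hz rfl hE'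
  generalize Fst (centralizer ({z} : Set G)) = Q at *
  have hα' := mem_centralizer_singleton_iff.1 hαC
  have a2 : α * α = 1 := by rw [← pow_two, ← hα, pow_orderOf_eq_one]
  have hn := fun q hq => Q.mul_mem (h.nQ α hα' q hq) (Q.inv_mem hq)
  refine ⟨?_, fun hne => ?_⟩
  · set D := closure ((fun q : G => α * q * α⁻¹ * q⁻¹) '' (Q : Set G)) with hD
    have hDQ : D ≤ Q := (closure_le _).2 (by rintro _ ⟨q, hq, rfl⟩; exact hn q hq)
    have hm : ∀ q ∈ Q, α * q * α⁻¹ * q⁻¹ ∈ D := fun q hq => subset_closure ⟨q, hq, rfl⟩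
    have hzD : z ∈ D := by
      refine h.mem_of_normal hDQ (fun e => hαQ (h.cQ α fun x hx => ?_)) fun y hy a ha => ?_
      · exact mul_inv_eq_iff_eq_mul.1 (mul_inv_eq_one.1 (mem_bot.1 (e ▸ hm x hx)))
      · have : D ≤ D.comap (MulAut.conj y).toMonoidHom := (closure_le _).2 (by
          rintro _ ⟨q, hq, rfl⟩
          have e := mul_mem (inv_mem (hm _ hy)) (hm _ (Q.mul_mem hy hq))
          show y * (α * q * α⁻¹ * q⁻¹) * y⁻¹ ∈ D
          convert e using 1; group)
        exact this ha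
    have key : ∀ v ∈ Q, (v ∈ Q₀ ↔ ∀ a ∈ D, v * a = a * v) := fun v hv => by
      have e : ∀ q ∈ Q, (v * (α * q * α⁻¹ * q⁻¹) = α * q * α⁻¹ * q⁻¹ * v ↔
          (α * v * α⁻¹ * v⁻¹) * q = q * (α * v * α⁻¹ * v⁻¹)) := fun q hq => by
        rw [h.comm_mul_iff hv (h.nQ α hα' q hq) (Q.inv_mem hq), h.comm_mul_iff' hq (h.nQ α hα' v hv) (Q.inv_mem hv),
          eq_comm, comm_conj_iff, eq_comm (a := v * q⁻¹), comm_inv_iff, comm_inv_iff, eq_comm,
          inv_eq_of_mul_eq_one_right a2, eq_comm (a := q * v)]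
      rw [hQ₀, and_iff_right hv, mem_zp2 h.z2]
      refine ⟨fun b a ha => ?_, fun b => h.cen _ (hn v hv) fun q hq => (e q hq).1 (b _ (hm q hq))⟩
      have : D ≤ centralizer {v} := (closure_le _).2 (by
        rintro _ ⟨q, hq, rfl⟩
        refine mem_centralizer_singleton_iff.2 ((e q hq).2 ?_).symm
        rcases b with b | b <;> rw [b]
        exacts [by simp, (h.zc q hq).symm])
      exact (mem_centralizer_singleton_iff.1 (this ha)).symm
    have hDQ0 : D ≤ Q₀ := (closure_le _).2 (by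
      rintro _ ⟨q, hq, rfl⟩
      refine (hQ₀ _).2 ⟨hn q hq, ?_⟩
      have e : α * (α * q * α⁻¹ * q⁻¹) * α⁻¹ = (α * q * α⁻¹ * q⁻¹)⁻¹ := by
        calc _ = (α * α) * q * (α * α)⁻¹ * (α * q⁻¹ * α⁻¹) := by group
          _ = _ := by rw [a2]; group
      rw [e, ← mul_inv_rev]
      exact inv_mem (h.sq_mem (hn q hq)))
    rw [map_center_subtype]
    exact le_antisymm (fun a ha => ⟨hDQ0 ha, fun v hv => (key v ((hQ₀ v).1 hv).1).1 hv a ha⟩) fun x hx =>
      h.dbl hDQ hzD ((hQ₀ x).1 hx.1).1 fun v hv b => hx.2 v ((key v hv).2 b)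
  · obtain ⟨q, hq, hq'⟩ := SetLike.not_le_iff_exists.1 hne
    obtain ⟨b, c⟩ := (hQ₀ q).1 hq
    rcases (mem_zp2 h.z2).1 c with c | c
    · exact absurd (mem_sup_left (mem_inf.2 ⟨b, mem_centralizer_singleton_iff.2
        (mul_inv_eq_iff_eq_mul.1 (mul_inv_eq_one.1 c)).symm⟩)) hq'
    · refine ⟨q, b, ?_⟩
      rw [← c, ← mul_assoc, ← mul_assoc, ← mul_assoc, a2, one_mul, inv_eq_of_mul_eq_one_right a2]

end Cfsg.Agent.S1784
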