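import Cfsg.Statements.S1785
import Cfsg.Agent.H1.Q6

set_option autoImplicit false
open Cfsg

namespace Cfsg.Agent.S1785

open scoped commutatorElement
open H1
open Subgroup H9 FT

/-- Let X be a finite 2-group having a normal elementary abelian subgroup of order at least 32. Then (a) for any two elementary abelian subgroups A, B of X of order 8 there is a chain A = A₁, A₂, …, Aₙ = B of elementary abelian subgroups of order 8 in which consecutive members commute elementwise; and (b) every elementary abelian subgroup of X of order 4 is contained in an elementary abelian subgroup of order 8. -/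
theorem result {X : Type*} [Group X] [Finite X]
    (hX : IsPGroup 2 X) (E : Subgroup X) [E.Normal] (hE : Cfsg.IsElementaryAbelian 2 E) (hE32 : 32 ≤ Nat.card ↥E) :
    (∀ A B : Subgroup X, Cfsg.IsElementaryAbelian 2 A → Nat.card ↥A = 8 → Cfsg.IsElementaryAbelian 2 B → Nat.card ↥B = 8 →
        Relation.ReflTransGen
          (fun C D : Subgroup X => Cfsg.IsElementaryAbelian 2 C ∧ Nat.card ↥C = 8 ∧ Cfsg.IsElementaryAbelian 2 D ∧ Nat.card ↥D = 8 ∧ ⁅C, D⁆ = ⊥)
          A B) ∧
      (∀ V : Subgroup X, Cfsg.IsElementaryAbelian 2 V → Nat.card ↥V = 4 →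
        ∃ A : Subgroup X, V ≤ A ∧ Cfsg.IsElementaryAbelian 2 A ∧ Nat.card ↥A = 8) := by
  obtain ⟨Z, hZ, z⟩ := exists_el_central (E := E) hX (by omega)
  have two : ∀ {A H : Subgroup X} {a b : X}, a ∈ A → b ∈ A → El 2 2 A H ∨ El 2 3 A H →
      ∃ F, El 2 2 F ((E ⊓ centralizer {a}) ⊓ centralizer {b}) := fun {A H a b} ha hb h => by
    have hA : IsElementaryAbelian 2 A := h.elim (·.elem) (·.elem)
    obtain ⟨F, hF⟩ := pow_le_fix hE (nrm ⊤ E (mem_top a)) (hA.2 a ha) (k := 2) (by omega)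
    exact pow_le_fix (el_le hE inf_le_left) (normalizer_inf (nrm _ E) (le_normalizer_cent1 hA.1 ha) hb) (hA.2 b hb)
      (k := 1) (lt_of_lt_of_le (by rw [hF.card]; norm_num) (card_le_of_le hF.le))
  have cE := L.le_centralizer_of_comm hE.1
  constructor
  · obtain ⟨N, n1, n2⟩ := exists_le_card (elem_isP hE) (k := 3) (by omega)
    have key : ∀ A : Subgroup X, IsElementaryAbelian 2 A → Nat.card A = 8 → Relation.ReflTransGen (fun C D : Subgroup X =>
        IsElementaryAbelian 2 C ∧ Nat.card C = 8 ∧ IsElementaryAbelian 2 D ∧ Nat.card D = 8 ∧ ⁅C, D⁆ = ⊥) A N := by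
      intro A a1 a2
      obtain ⟨B, b1, b2, b3⟩ := el_ext (n := 3) (H := ⊤) ⟨le_top, a1, a2⟩ hZ (by omega) (z _)
      obtain ⟨B0, c1, c2, c3⟩ := b1.exists_between (hZ.of_le (b2.trans b1.le)) b2 one_le_two (by omega)
      obtain ⟨a, ha, rfl⟩ := el_succ c3 hZ c1
      obtain ⟨b, hb, rfl⟩ := el_succ b1 c3 c2
      obtain ⟨F, hF⟩ := two (c2 ha) hb (.inr b1)
      obtain ⟨C, d1, d2, d3⟩ := el_ext b1 hF (by omega) (le_centralizer_iff.1 (sup_zp_le_cent
        (sup_zp_le_cent (z F) (hF.le.trans (inf_le_left.trans inf_le_right))) (hF.le.trans inf_le_right)))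
      obtain ⟨c, hc, rfl⟩ := el_succ d1 hF d2
      obtain ⟨D, hD⟩ := pow_le_fix hE (nrm ⊤ E (mem_top c)) (d1.pow hc) (k := 2) (by omega)
      have w : ∀ {U V : Subgroup X}, V ≤ centralizer (U : Set X) → ⁅U, V⁆ = ⊥ := fun h =>
        commutator_eq_bot_iff_le_centralizer.2 (le_centralizer_iff.1 h)
      exact .head ⟨a1, a2, b1.elem, b1.card, w b3⟩ (.head ⟨b1.elem, b1.card, d1.elem, d1.card, w d3⟩
        (.head ⟨d1.elem, d1.card, hD.elem, hD.card, commutator_eq_bot_iff_le_centralizer.2 (sup_zp_le_cent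
          ((hF.le.trans (inf_le_left.trans inf_le_left)).trans (cE.trans (centralizer_le (hD.le.trans inf_le_left))))
          (hD.le.trans inf_le_right))⟩ (.single ⟨hD.elem, hD.card, el_le hE n1, n2,
          w (n1.trans (cE.trans (centralizer_le (hD.le.trans inf_le_left))))⟩)))
    exact fun A B a1 a2 b1 b2 => rt_of_base (fun A B h => ⟨h.2.2.1, h.2.2.2.1, h.1, h.2.1,
      (commutator_comm _ _).trans h.2.2.2.2⟩) (key A a1 a2) (key B b1 b2)
  intro V v1 v2
  have hV : El 2 2 V ⊤ := ⟨le_top, v1, v2⟩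
  obtain ⟨V0, l, h0⟩ := hV.exists_le one_le_two
  obtain ⟨a, ha, e⟩ := el_succ h0 (el_zero 2 ⊤) bot_le
  obtain ⟨b, hb, e'⟩ := el_succ hV h0 l
  obtain ⟨F, hF⟩ := two (l ha) hb (.inl hV)
  have c : F ≤ centralizer (V : Set X) := le_centralizer_iff.1 (by
    rw [← e', ← e]
    exact sup_zp_le_cent (sup_zp_le_cent bot_le (hF.le.trans (inf_le_left.trans inf_le_right))) (hF.le.trans inf_le_right))
  by_cases t : F ≤ V
  · obtain rfl := hF.eq_of_le hV t
    obtain ⟨n, hn⟩ := exists_el_of_elem hE le_rfl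
    obtain ⟨A, a1, -, a2⟩ := hn.exists_between (m := 3) (hF.mono (inf_le_left.trans inf_le_left))
      (hF.le.trans (inf_le_left.trans inf_le_left)) (by omega) ((Nat.pow_le_pow_iff_right one_lt_two).1 (by
        rw [← hn.card]; omega))
    exact ⟨A, a1, a2.elem, a2.card⟩
  obtain ⟨x, hx, x1⟩ := SetLike.not_le_iff_exists.1 t
  have := hV.sup_one (el_zpowers (mem_top x) (hF.orderOf_eq hx fun s => x1 (s ▸ one_mem _)))
    (le_centralizer_iff.1 (zpowers_le.2 (c hx))) (mt zpowers_le.1 x1)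
  exact ⟨_, le_sup_left, this.elem, this.card⟩

end Cfsg.Agent.S1785
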