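import Cfsg.Statements.S1850
import Cfsg.Agent.H2.Loc2

set_option autoImplicit false
open Cfsg

namespace Cfsg.Agent.S1850

open Subgroup H9 H2L

/-- Let G be a non-abelian finite simple QTKE-group and T a Sylow 2-subgroup of G. If U is a nontrivial 2-subgroup of G with U ∩ Z(T) ≠ 1, then F*(N_G(U)) = O₂(N_G(U)). -/
theorem result {G : Type*} [Group G] [Finite G] [IsSimpleGroup G]
    (hG : ¬ IsMulCommutative G) (hQ : Cfsg.IsQTKE G) (T : Sylow 2 G) (U : Subgroup G)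
    (hU : IsPGroup 2 ↥U) (hZ : U ⊓ ((T : Subgroup G) ⊓ Subgroup.centralizer ((T : Subgroup G) : Set G)) ≠ ⊥) :
    Subgroup.normalizer (U : Set G) ∈ Cfsg.calHe G := by
  haveI : Fact (Nat.Prime 2) := ⟨Nat.prime_two⟩
  obtain ⟨z, hz, ho⟩ := exists_order (p := 2) (hU.to_le inf_le_left) hZ
  have hzp : IsPGroup 2 (zpowers z) := hU.to_le ((zpowers_le).mpr hz.1)
  have hz1 : zpowers z ≠ ⊥ := by
    rw [Ne, zpowers_eq_bot]; rintro rfl; simp at ho
  have hT : (T : Subgroup G) ≤ normalizer ((zpowers z : Subgroup G) : Set G) := by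
    refine le_trans ?_ (cent_le_norm _)
    rw [cent_zpowers]
    intro t ht
    rw [mem_centralizer_singleton_iff]
    exact hz.2.2 t ht
  have h1 := char_iff.mpr (hQ.2.2 _ ⟨_, hzp, hz1, rfl⟩ ⟨T, hT⟩)
  have h2 := Fst_centralizer_eq_Op h1 hzp le_normalizer
  rw [inf_eq_right.mpr (cent_le_norm _)] at h2
  exact Fst_eq_Op_iff.mp (norm_up hU ((zpowers_le).mpr hz.1) h2)

end Cfsg.Agent.S1850
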