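import Cfsg.Statements.S1958
import Cfsg.Agent.H9.PComp

set_option autoImplicit false
open Cfsg

namespace Cfsg.Agent.S1958

open Subgroup H9 in

/-- Let `G` be a finite group, `p` a prime, and `x, y` commuting elements of order `p` whose centralizers `C_G(x)` and `C_G(y)` are both solvable. Then `O_{p'}(C_G(x)) ∩ C_G(y) = O_{p'}(C_G(y)) ∩ C_G(x)` (balance). -/
theorem result {G : Type*} [Group G] [Finite G]
    (p : ℕ) [Fact p.Prime] (x y : G) (hx : orderOf x = p) (hy : orderOf y = p) (hxy : x * y = y * x)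
    (hCx : Group.IsSolvable ↥(Subgroup.centralizer ({x} : Set G))) (hCy : Group.IsSolvable ↥(Subgroup.centralizer ({y} : Set G))) :
    Cfsg.centralizerPPrimeCore p x ⊓ Subgroup.centralizer {y} = Cfsg.centralizerPPrimeCore p y ⊓ Subgroup.centralizer {x} := by
  have key : ∀ x y : G, orderOf x = p → x * y = y * x → Group.IsSolvable (centralizer ({y} : Set G)) →
      Cfsg.centralizerPPrimeCore p x ⊓ centralizer {y} ≤ Cfsg.centralizerPPrimeCore p y ⊓ centralizer {x} := by
    intro x y hx hxy hs
    rw [Cfsg.centralizerPPrimeCore, Cfsg.centralizerPPrimeCore, Op'_eq, Op'_eq]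
    have := (local_centralizer_of_PLay_eq_bot (PLay_eq_bot_of_solvable hs) (isPGroup_zpowers_of_orderOf hx)
      (zpowers_le.2 (mem_centralizer_singleton_iff.2 hxy))).2
    rw [centralizer_zpowers] at this
    exact le_inf (le_trans (fun z hz => Op'_inf_le inf_le_right ⟨hz.1, hz.2, Op'_le _ _ hz.1⟩) this)
      (inf_le_left.trans (Op'_le _ _))
  exact le_antisymm (key x y hx hxy hCy) (key y x hy hxy.symm hCx)

end Cfsg.Agent.S1958
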