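import Cfsg.Statements.S1966
import Cfsg.Agent.H9.Ctl

set_option autoImplicit false
open Cfsg

namespace Cfsg.Agent.S1966

/-- Let p be a prime, G a finite group with Sylow p-subgroup S and 𝓕 a conjugation family for S in G. Then the members of 𝓕 containing O_p(G) still form a conjugation family for S in G. -/
theorem result {G : Type*} [Group G] [Finite G] {p : ℕ} [Fact p.Prime] (S : Sylow p G) (𝓕 : Set (Subgroup G)) (h : Cfsg.IsConjugationFamily 𝓕 (S : Subgroup G)) : Cfsg.IsConjugationFamily {T : Subgroup G | T ∈ 𝓕 ∧ Cfsg.pCore p G ≤ T} (S : Subgroup G) := by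
  open H9 Subgroup in open scoped commutatorElement in
  have hQ : pCore p G ≤ S := Op_top (G := G) p ▸ (syl_top_of_sylow S).Op_le
  have key : ∀ x : G, (pCore p G : Set G) ⊆ (fun a => x⁻¹ * a * x) '' (pCore p G : Set G) :=
    fun x q hq => ⟨x * q * x⁻¹, (inferInstance : (pCore p G).Normal).conj_mem q hq x, by group⟩
  refine ⟨fun T hT => h.1 T hT.1, fun A g _ hA hg => ?_⟩
  obtain ⟨n, T, x, b1, b2, b3, b4, b5⟩ := h.2 (A ∪ pCore p G) g ⟨1, Or.inr (one_mem _)⟩
    (Set.union_subset hA hQ) (by
      rw [Set.image_union]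
      refine Set.union_subset hg ?_
      rintro _ ⟨q, hq, rfl⟩
      exact hQ ((inferInstance : (pCore p G).Normal).conj_mem' q hq g))
  refine ⟨n, T, x, b1, fun i => ⟨b2 i, ?_⟩, b3, fun h => Set.subset_union_left.trans (b4 h),
    fun i h => (Set.image_mono Set.subset_union_left).trans (b5 i h)⟩
  obtain ⟨i, hi⟩ := i
  cases i with
  | zero => exact Set.subset_union_right.trans (b4 hi)
  | succ i => exact ((key _).trans (Set.image_mono Set.subset_union_right)).trans (b5 ⟨i, by omega⟩ hi)

end Cfsg.Agent.S1966
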