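import Cfsg.Statements.S1968
import Cfsg.Agent.H9.Ctl

set_option autoImplicit false
open Cfsg

namespace Cfsg.Agent.S1968

/-- Let p be a prime, G a finite group with Sylow p-subgroup S and W a conjugacy functor for p on G with Z(P) ≤ W(P) for every p-subgroup P. Let A be a subgroup of Z(S) normalized by N_G(W(S)) that is not weakly closed in S with respect to G. Then there is a subgroup T of S, well placed in S with respect to W, such that: A ≤ T; N_G(W(N_S(T))) normalizes A; N_S(T) is a Sylow p-subgroup of N_G(T); A ≤ Z(N_S(T)); and A is not weakly closed in N_S(T) with respect to N_G(T), that is, some N_G(T)-conjugate of A other than A lies in N_S(T). -/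
theorem result {G : Type*} [Group G] [Finite G] {p : ℕ} [Fact p.Prime] (S : Sylow p G) (W : Subgroup G → Subgroup G) (hW : Cfsg.IsConjugacyFunctor p W) (hWZ : ∀ P : Subgroup G, IsPGroup p ↥P → P ⊓ Subgroup.centralizer (P : Set G) ≤ W P) (A : Subgroup G) (hAZ : A ≤ (S : Subgroup G) ⊓ Subgroup.centralizer ((S : Subgroup G) : Set G)) (hAN : Subgroup.normalizer ((W (S : Subgroup G) : Subgroup G) : Set G) ≤ Subgroup.normalizer ((A : Subgroup G) : Set G)) (hnwc : ¬ Cfsg.IsWeaklyClosed A (S : Subgroup G)) : ∃ T : Subgroup G, Cfsg.IsWellPlaced p W (S : Subgroup G) T ∧ A ≤ T ∧ Subgroup.normalizer ((W ((S : Subgroup G) ⊓ Subgroup.normalizer ((T : Subgroup G) : Set G)) : Subgroup G) : Set G) ≤ Subgroup.normalizer ((A : Subgroup G) : Set G) ∧ ¬ p ∣ ((S : Subgroup G) ⊓ Subgroup.normalizer ((T : Subgroup G) : Set G)).relIndex (Subgroup.normalizer ((T : Subgroup G) : Set G)) ∧ A ≤ Subgroup.centralizer (((S : Subgroup G) ⊓ Subgroup.normalizer ((T : Subgroup G) : Set G) : Subgroup G) : Set G) ∧ ∃ g ∈ Subgroup.normalizer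 ((T : Subgroup G) : Set G), A.map (MulAut.conj g).toMonoidHom ≤ (S : Subgroup G) ⊓ Subgroup.normalizer ((T : Subgroup G) : Set G) ∧ A.map (MulAut.conj g).toMonoidHom ≠ A := by
  open H9 Subgroup in open scoped commutatorElement in
  by_contra hcon
  have hS := syl_top_of_sylow S
  have claim : ∀ k, ∀ T, WP p W S ⊤ T → A ≤ T →
      Nat.card S - Nat.card ((S : Subgroup G) ⊓ normalizer (T : Set G) : Subgroup G) = k →
      normalizer (T : Set G) ≤ normalizer (A : Set G) := by
    intro k
    induction k using Nat.strong_induction_on with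
    | _ k ih =>
    rintro T hT hAT rfl
    have hTP : T ≤ (S : Subgroup G) ⊓ normalizer (T : Set G) := le_inf hT.1 le_normalizer
    have hAC : A ≤ centralizer (((S : Subgroup G) ⊓ normalizer (T : Set G) : Subgroup G) : Set G) :=
      (hAZ.trans inf_le_right).trans (centralizer_anti inf_le_left)
    have h1 : normalizer (W (S ⊓ normalizer (T : Set G)) : Set G) ≤ normalizer (A : Set G) := by
      rcases (inf_le_left : (S : Subgroup G) ⊓ normalizer (T : Set G) ≤ S).eq_or_lt with h | h
      · rwa [h]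
      have hlt := cf_lt hW hS.isP h
      refine ih _ ?_ _ (hT.succ hW hS.isP) ((le_inf (hAT.trans hTP) hAC).trans (hWZ _ hT.fn.isP)) rfl
      have a1 := card_lt_of_lt hlt
      have a2 : Nat.card ((S : Subgroup G) ⊓ normalizer (W (S ⊓ normalizer (T : Set G)) : Set G) :
        Subgroup G) ≤ Nat.card S := card_le_of_le' inf_le_left
      omega
    intro g hg
    by_contra h2
    refine hcon ⟨T, (wp_top_iff hS.isP).1 hT, hAT, h1, (fn_top_iff hS.isP).1 hT.fn, hAC, g, hg, ?_,
      fun h => h2 (mem_normalizer_iff_cj.2 h)⟩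
    exact (cj_mono g hAT).trans ((mem_normalizer_iff_cj.1 hg).le.trans hTP)
  have hR : FRel (S : Subgroup G) ⊤ (fun B g => A ≤ B → cj g A = A) :=
    ⟨fun h1 h2 h3 => h2 (h3.trans h1), fun _ _ _ _ _ h1 h2 h3 => by
      rw [cj_mul, h1 h3]; exact h2 ((h1 h3).ge.trans (cj_mono _ h3))⟩
  refine hnwc ⟨hAZ.trans inf_le_left, fun g hg => ?_⟩
  exact alperin_wp hW hS hR (fun Q hQ g _ hg h => mem_normalizer_iff_cj.1 (claim _ Q hQ h rfl hg))
    A (hAZ.trans inf_le_left) g trivial hg le_rfl

end Cfsg.Agent.S1968
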