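import Cfsg.Statements.S1981
import Cfsg.Agent.H9.Kinf

set_option autoImplicit false
open Cfsg

namespace Cfsg.Agent.S1981

/-- Let P be a finite p-group generated by its abelian normal subgroups. Then both K-infinity subgroups of P equal P. -/
theorem result {P : Type*} [Group P] [Finite P] {p : ℕ} [Fact p.Prime] (hP : IsPGroup p P) (hgen : ⨆ A ∈ {A : Subgroup P | A.Normal ∧ IsMulCommutative ↥A}, A = ⊤) : Cfsg.kInfLower P = ⊤ ∧ Cfsg.kInfUpper P = ⊤ := by
  open H9 Subgroup in open scoped commutatorElement in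
  rw [← KL_top, ← KU_top, eq_top_iff, eq_top_iff, ← le_inf_iff]
  refine hgen.ge.trans <| iSup₂_le fun A ⟨h1, h2⟩ => le_inf_iff.2 ?_
  exact abelian_le_K le_top (le_centralizer A) le_normalizer_of_normal

end Cfsg.Agent.S1981
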