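import Cfsg.Statements.S1984
import Cfsg.Agent.H9.Glb2

set_option autoImplicit false
universe u
open Cfsg

namespace Cfsg.Agent.S1984

/-- Let p ≥ 5 be a prime and G a finite group. Then the lower K-infinity subgroup controls transfer in G: for some (equivalently, every) Sylow p-subgroup S of G, S ∩ G' = S ∩ (N_G(K))', where K is the lower K-infinity subgroup of S. -/
theorem result {G : Type u} [Group G] [Finite G] {p : ℕ} [Fact p.Prime] (hp : 5 ≤ p) : Cfsg.ControlsTransferIn p (Cfsg.inducedFunctor (G := G) Cfsg.kInfLower) ⊤ := by
  open H9 Subgroup in open scoped commutatorElement in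
  refine (ct_single_iff (cf_iF char_kInfLower)).2 ?_
  rw [← iW_single]
  exact ct_K hp (Or.inl rfl) G

end Cfsg.Agent.S1984
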