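import Cfsg.Statements.S1985
import Cfsg.Agent.H9.Glb2

set_option autoImplicit false
universe u
open Cfsg

namespace Cfsg.Agent.S1985

/-- Let p be an odd prime and G a finite group. Then the lower K-infinity subgroup controls weak closure of elements in G: the lower K-infinity subgroup of every p-subgroup P of G contains Z(P), and for some (equivalently, every) Sylow p-subgroup S of G, with K the lower K-infinity subgroup of S, every element of S commuting with all of N_G(K) is weakly closed in S with respect to G (every G-conjugate of it lying in S equals it). -/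
theorem result {G : Type u} [Group G] [Finite G] {p : ℕ} [Fact p.Prime] (hp : p ≠ 2) : Cfsg.ControlsWeakClosureOfElementsIn p (Cfsg.inducedFunctor (G := G) Cfsg.kInfLower) ⊤ := by
  open H9 Subgroup in open scoped commutatorElement in
  refine weak_elt (cf_iF char_kInfLower) (fun P _ => iF_KL P ▸ (center_le_K P).1) (fun H T hT h => ?_) ⊤
  obtain ⟨g, a1, a2, a3⟩ := kinf_rel hT (iF_KL T ▸ h)
  refine ⟨g, a1, a2, fun U V _ h1 => ?_⟩
  have := (Fact.out : p.Prime).two_le
  refine (iter_mono h1 le_rfl _).trans ((iter_anti (zpowers_le.2 (center_Op_normal H (hT.le a1)))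
    (by omega : 2 ≤ p - 1)).trans (a3.le.trans bot_le))

end Cfsg.Agent.S1985
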