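import Cfsg.Statements.S1990
import Cfsg.Agent.H9.Qd

set_option autoImplicit false
universe u
open Cfsg

namespace Cfsg.Agent.S1990

/-- Let p be an odd prime, G a finite group with Sylow p-subgroup S, and W an isomorphism-invariant p-group functor (W assigns to every group Q a subgroup W(Q), nontrivial whenever Q is a nontrivial finite p-group, and every isomorphism from a finite p-group Q onto a group R carries W(Q) onto W(R)). Suppose N_G(W(S)) has a normal p-complement, and W(T) controls strong fusion in every section G* = K/R of G all of whose sections are p-stable in the normalizer form, for every Sylow p-subgroup T of G*. Then G has a normal p-complement. -/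
theorem result {G : Type u} [Group G] [Finite G] {p : ℕ} [Fact p.Prime] (hp : p ≠ 2) (W : ∀ (Q : Type u) [Group Q], Subgroup Q) (hW : Cfsg.IsCharPFunctor.{u} p W) (S : Sylow p G) (hN : Cfsg.HasNormalPComplement p ↥(Subgroup.normalizer ((Cfsg.inducedFunctor (G := G) W (S : Subgroup G) : Subgroup G) : Set G))) (hctl : ∀ (K R : Subgroup G) [hR : (R.subgroupOf K).Normal], (∀ (K' R' : Subgroup (↥K ⧸ R.subgroupOf K)) [hR' : (R'.subgroupOf K').Normal], Cfsg.IsNormalizerPStable p (↥K' ⧸ R'.subgroupOf K')) → ∀ T : Sylow p (↥K ⧸ R.subgroupOf K), Cfsg.ControlsStrongFusion p (Cfsg.inducedFunctor (G := (↥K ⧸ R.subgroupOf K)) W (T : Subgroup (↥K ⧸ R.subgroupOf K)))) : Cfsg.HasNormalPComplement p G := by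
  open H9 Subgroup in open scoped commutatorElement in
  refine npc_top_iff.1 (of_all_sections_self (isoInv_det hW) (sec_induction (isoInv_det hW) ?_) S
    (syl_top_of_sylow S) (npc_iff.2 hN))
  intro K R _ h S hS h1
  by_contra hG
  obtain ⟨-, a2, a3, a4⟩ := npc_min hW h hS h1 hG
  obtain ⟨T, rfl⟩ := hS.exists_sylow_top
  have a5 := hctl K R (allNPS_iff.1 ((allNPS_iff_not_qd hp).2 fun h => not_sect_of_coatom hp hS a3 a2 h.sl2_of_qd)) T
  have a6 := cf_le_normalizer (cf_iF hW) hS.isP
  refine hG ((npc_iff_rall hS.isP le_rfl hS).2 fun A hA g _ hg => (fz_subgroup_iff hg).2 ?_)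
  rcases a6.eq_or_lt with e | e
  · exact e ▸ csf_any a5 hS a6 A hA g hg
  · exact absurd (normal_of_top_le (a3.2 _ e).ge) a4

end Cfsg.Agent.S1990
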