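import Cfsg.Statements.S1992
import Cfsg.Agent.H9.Glb2
import Cfsg.Agent.S1991
import Cfsg.Agent.H3.Galois
import Cfsg.Agent.H1.Basic

set_option autoImplicit false
open Cfsg

namespace Cfsg.Agent.S1992

/-- Let G be a finite group in which, for every prime q dividing the order of G, every Sylow q-subgroup is its own normalizer. Then the order of G is a power of a single prime (G is a q-group for some prime q; for G trivial any prime works). -/
theorem result {G : Type*} [Group G] [Finite G] (h : ∀ q : ℕ, q.Prime → q ∣ Nat.card G → ∀ Q : Sylow q G, Subgroup.normalizer ((Q : Subgroup G) : Set G) = Q) : ∃ q : ℕ, q.Prime ∧ IsPGroup q G := by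
  open H9 Subgroup in open scoped commutatorElement in
  have key : ∀ N : Subgroup G, N.Normal → N.index.Prime → ∃ q : ℕ, q.Prime ∧ IsPGroup q G := by
    intro N hN hp
    have := Fact.mk hp
    refine ⟨_, hp, IsPGroup.iff_card.2 ⟨_, Nat.eq_prime_pow_of_unique_prime_dvd Nat.card_pos.ne'
      fun {q} hq hd => ?_⟩⟩
    by_contra hne
    have := Fact.mk hq
    obtain ⟨Q⟩ : Nonempty (Sylow q G) := inferInstance
    have h1 : (Q : Subgroup G) ≤ N := H1.le_of_coprime_index (cop_of_isPGroup_ne hne Q.isPGroup')
    have h2 := ((syl_top_of_sylow Q).mono h1 le_top).frattini le_top (top_le_normalizer N)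
    rw [top_inf_eq, h q hq hd Q, sup_eq_left.2 h1] at h2
    exact hp.ne_one (index_eq_one.2 h2)
  by_cases h5 : ∃ p : ℕ, p.Prime ∧ p ∣ Nat.card G ∧ 5 ≤ p
  · obtain ⟨p, hp, hd, h5⟩ := h5
    have := Fact.mk hp
    obtain ⟨S⟩ : Nonempty (Sylow p G) := inferInstance
    have hS := syl_top_of_sylow S
    obtain ⟨N, h1, h2⟩ := Cfsg.Agent.S1991.result h5 S
      (fun e => cop_iff.1 (hS.eq_bot_iff.1 e) (by simpa using hd)) fun g hg hc => by
        rw [h p hp hd S] at hg
        rw [H2.eq_one_of_coprime_of_mem hS.isP hg hc]; exact one_mem _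
    exact key N h1 (h2 ▸ hp)
  rcases subsingleton_or_nontrivial G with h0 | h0
  · exact ⟨2, Nat.prime_two, IsPGroup.of_card (n := 0) (by simp)⟩
  have : Group.IsSolvable G := H3.burnside_paqb (a := (Nat.card G).factorization 2)
    (b := (Nat.card G).factorization 3) Nat.prime_two Nat.prime_three (by
      refine (Nat.factorization_prime_le_iff_dvd Nat.card_pos.ne' (by positivity)).1 fun q hq => ?_
      rw [Nat.factorization_mul (by positivity) (by positivity), Nat.prime_two.factorization_pow,
        Nat.prime_three.factorization_pow]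
      by_cases h2 : q = 2
      · subst h2; simp
      by_cases h3 : q = 3
      · subst h3; simp
      rw [Nat.factorization_eq_zero_of_not_dvd fun hd => h5 ⟨q, hq, hd, hq.five_le_of_ne_two_of_ne_three h2 h3⟩]
      exact Nat.zero_le _)
  obtain ⟨M, h1, h2⟩ := H1.exists_normal_prime_index (G := G)
  exact key M h1 h2

end Cfsg.Agent.S1992
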