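import Cfsg.Statements.S1996
import Cfsg.Agent.H9.Sec

set_option autoImplicit false
universe u
open Cfsg

namespace Cfsg.Agent.S1996

/-- Let p be a prime, G a finite group and W₁, W₂ two isomorphism-invariant p-group functors (W assigns to every group Q a subgroup W(Q), nontrivial whenever Q is a nontrivial finite p-group, and every isomorphism from a finite p-group Q onto a group R carries W(Q) onto W(R)). Suppose that G* = N_{G*}(W₁(S*)) N_{G*}(W₂(S*)) whenever G* = K/R is a section of G with C_{G*}(O_p(G*)) ≤ O_p(G*) and S* is a Sylow p-subgroup of G*. Then the pair {W₁, W₂} controls strong fusion in G. -/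
theorem result {G : Type u} [Group G] [Finite G] {p : ℕ} [Fact p.Prime] (W₁ W₂ : ∀ (Q : Type u) [Group Q], Subgroup Q) (hW₁ : Cfsg.IsCharPFunctor.{u} p W₁) (hW₂ : Cfsg.IsCharPFunctor.{u} p W₂) (hfac : ∀ (K R : Subgroup G) [hR : (R.subgroupOf K).Normal], Subgroup.centralizer ((Cfsg.pCore p (↥K ⧸ R.subgroupOf K) : Subgroup (↥K ⧸ R.subgroupOf K)) : Set (↥K ⧸ R.subgroupOf K)) ≤ Cfsg.pCore p (↥K ⧸ R.subgroupOf K) → ∀ T : Sylow p (↥K ⧸ R.subgroupOf K), ∀ x : (↥K ⧸ R.subgroupOf K), ∃ a ∈ Subgroup.normalizer ((Cfsg.inducedFunctor (G := (↥K ⧸ R.subgroupOf K)) W₁ (T : Subgroup (↥K ⧸ R.subgroupOf K)) : Subgroup (↥K ⧸ R.subgroupOf K)) : Set (↥K ⧸ R.subgroupOf K)), ∃ b ∈ Subgroup.normalizer ((Cfsg.inducedFunctor (G := (↥K ⧸ R.subgroupOf K)) W₂ (T : Subgroup (↥K ⧸ R.subgroupOf K)) : Subgroup (↥K ⧸ R.subgroupOf K)) : Set (↥K ⧸ R.subgroupOf K)), x = a * b) : Cfsg.FamilyControlsStrongFusionIn p {Cfsg.inducedFunctor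 (G := G) W₁, Cfsg.inducedFunctor (G := G) W₂} ⊤ := by
  open H9 Subgroup in open scoped commutatorElement in
  have h𝓦 : ∀ W ∈ ({W₁, W₂} : Set (∀ (Q : Type u) [Group Q], Subgroup Q)), IsCharPFunctor.{u} p W := by
    rintro _ (rfl | rfl) <;> assumption
  rw [← Set.image_pair (fun W => inducedFunctor (G := G) W)]
  refine (cf_iff (cf_iW h𝓦)).2 (of_all_sections_self (isoInv_cf h𝓦) (sec_induction (isoInv_cf h𝓦) ?_))
  intro K R _ h
  by_cases hC : centralizer (pCore p (K ⧸ R.subgroupOf K) : Set (K ⧸ R.subgroupOf K)) ≤ pCore p _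
  swap
  · exact cf_step h𝓦 h hC
  intro S hS A hA g _ hg
  obtain ⟨T, rfl⟩ := hS.exists_sylow_top
  obtain ⟨a, ha, b, hb, rfl⟩ := hfac K R hC T g
  have s1 := cf_le_normalizer (cf_iF hW₁) hS.isP
  have s2 := cf_le_normalizer (cf_iF hW₂) hS.isP
  obtain ⟨d, hd, h1⟩ := (hS.mono (le_inf s1 s2) le_top).exists_cj_le (isPGroup_cj b (hS.isP.to_le hA))
    (le_inf (by
      rw [← cj_inv_cj a (cj b A), ← cj_mul a b]
      exact cj_le_of_mem (inv_mem ha) (hg.trans s1)) (cj_le_of_mem hb (hA.trans s2)))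
  have m1 : a * d⁻¹ ∈ EW (iW {W₁, W₂} _) ⊤ (T : Subgroup (K ⧸ R.subgroupOf K)) :=
    ⟨_, ⟨W₁, Or.inl rfl, rfl⟩, trivial, mul_mem ha (Subgroup.inv_mem _ hd.1)⟩
  have m2 : d * b ∈ EW (iW {W₁, W₂} _) ⊤ (T : Subgroup (K ⧸ R.subgroupOf K)) :=
    ⟨_, ⟨W₂, Or.inr rfl, rfl⟩, trivial, mul_mem hd.2 hb⟩
  exact ⟨(a * d⁻¹) * ((d * b) * 1), (Ch.one.step m2 (by rwa [mul_one, cj_mul])).step m1
    (by simpa [mul_assoc] using hg), by simp [mul_assoc]⟩

end Cfsg.Agent.S1996
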