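import Cfsg.Statements.S2004
import Cfsg.Agent.H9.Qd

set_option autoImplicit false
open Cfsg

namespace Cfsg.Agent.S2004

/-- Let p be an odd prime and G a finite group such that SL₂(p) is not involved in N_G(P) for any nonidentity p-subgroup P of G. Then every section of G is p-stable in the normalizer form: in each section, whenever an element of the normalizer of a p-subgroup Q acts quadratically on Q, its image in N(Q)/C(Q) lies in O_p(N(Q)/C(Q)). -/
theorem result {G : Type*} [Group G] [Finite G] {p : ℕ} [Fact p.Prime] (hp : p ≠ 2) (h : ∀ P : Subgroup G, IsPGroup p ↥P → P ≠ ⊥ → ¬ Cfsg.Involves (Matrix.SpecialLinearGroup (Fin 2) (ZMod p)) ↥(Subgroup.normalizer ((P : Subgroup G) : Set G))) : ∀ (K R : Subgroup G) [hR : (R.subgroupOf K).Normal], Cfsg.IsNormalizerPStable p (↥K ⧸ R.subgroupOf K) := by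
  open H9 Subgroup in open scoped commutatorElement in
  refine allNPS_iff.1 ((allNPS_iff_not_qd hp).2 fun ⟨L, _, f, hf⟩ => ?_)
  obtain ⟨D⟩ : Nonempty (QdD (ZMod p) (qd p)) := ⟨qdD p⟩
  obtain ⟨P, h1, h2⟩ := Syl.exists_of_im f (pre_le f D.V) (P' := D.V) (by rw [im_pre_surj f hf]; exact syl_self (D.V_p p))
  refine h P h1.isP (fun e => ?_) (involves_iff.2 ?_)
  · rw [e, im_bot] at h2
    simpa using D.hz_eq_iff.1 ((mem_bot.1 (h2.ge (D.hz_mem_V.2 rfl : D.hz 1 0 0 ∈ _))).trans D.hz_zero.symm)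
  have h3 := congrArg (im (D.θ.comp f)) (h1.frattini (pre_le f _) (le_normalizer_pre f le_rfl le_normalizer_of_normal))
  rw [im_sup _ (pre_le f _) inf_le_left, im_self (D.θ.comp f) (D.θ_surj.comp hf), (im_eq_bot_iff _ (pre_le f _)).2 fun x hx =>
    let ⟨a, b⟩ := (mem_pre f).1 hx; (mem_kr _).2 ⟨a, D.mem_V.1 b⟩, bot_sup_eq] at h3
  obtain ⟨K, h4, g, hg⟩ : Sect (Matrix.SpecialLinearGroup (Fin 2) (ZMod p)) (L ⊓ normalizer (P : Set G)) :=
    Sect.of_im (D.θ.comp f) (by rw [h3]; exact ⟨⊤, le_rfl, (⊤ : Subgroup _).subtype, fun x => ⟨⟨x, trivial⟩, rfl⟩⟩)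
  exact ⟨K.subgroupOf _, le_top, g.comp (subgroupOfEquivOfLe (h4.trans inf_le_right)).toMonoidHom,
    hg.comp (MulEquiv.surjective _)⟩

end Cfsg.Agent.S2004
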