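import Cfsg.Statements.S2009
import Cfsg.Agent.H9.Basic

set_option autoImplicit false
open Cfsg

namespace Cfsg.Agent.S2009

theorem aux {H : Type*} [Group H] [Finite H] (z : H) (hz : orderOf z = 2) (E : Subgroup H) (hE : IsKleinFour ↥E) (hzE : z ∈ E) (hc : ∀ e ∈ E, e ≠ 1 → IsConj z e) (N : Subgroup H) [hN : N.Normal] (h : N ⊓ Subgroup.centralizer ({z} : Set H) = ⊥) : N = ⊥ := by
  have fp : ∀ e ∈ E, e ≠ 1 → ∀ n ∈ N, e * n * e⁻¹ = n → n = 1 := by
    intro e he h1 n hn hf
    obtain ⟨c, hc⟩ := isConj_iff.1 (hc e he h1)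
    have : c⁻¹ * n * c ∈ N ⊓ Subgroup.centralizer ({z} : Set H) := by
      refine Subgroup.mem_inf.2 ⟨by simpa using hN.conj_mem n hn c⁻¹, ?_⟩
      rw [Subgroup.mem_centralizer_singleton_iff]
      subst hc
      have h2 : n = c * z * c⁻¹ * n * (c * z * c⁻¹)⁻¹ := hf.symm
      calc c⁻¹ * n * c * z = c⁻¹ * (c * z * c⁻¹ * n * (c * z * c⁻¹)⁻¹) * c * z := by rw [← h2]
        _ = z * (c⁻¹ * n * c) := by group
    rw [h, Subgroup.mem_bot] at this
    calc n = c * (c⁻¹ * n * c) * c⁻¹ := by group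
      _ = 1 := by rw [this]; simp
  have sq : ∀ e ∈ E, e * e = 1 := fun e he => by
    have := IsKleinFour.mul_self (G := E) ⟨e, he⟩
    exact congrArg Subtype.val this
  have inv : ∀ e ∈ E, e ≠ 1 → ∀ n ∈ N, e * n * e⁻¹ = n⁻¹ := by
    intro e he h1 n hn
    let φ : N →* N := (MulAut.conjNormal e : MulAut N).toMonoidHom
    have hφ : MonoidHom.FixedPointFree φ := fun x hx => Subtype.ext (fp e he h1 x x.2 (congrArg Subtype.val hx))
    have hi : Function.Involutive φ := fun x => Subtype.ext (by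
      show e * (e * (x : H) * e⁻¹) * e⁻¹ = x
      have h2 : e⁻¹ = e := inv_eq_of_mul_eq_one_right (sq e he)
      rw [h2]
      calc e * (e * x * e) * e = (e * e) * x * (e * e) := by group
        _ = x := by rw [sq e he]; simp)
    have := congrFun (hφ.coe_eq_inv_of_involutive hi) ⟨n, hn⟩
    exact congrArg Subtype.val this
  have hz1 : z ≠ 1 := by rintro rfl; simp at hz
  obtain ⟨w, hw1, hw2⟩ : ∃ w : E, w ≠ 1 ∧ w ≠ ⟨z, hzE⟩ := by
    by_contra hcon
    push Not at hcon
    have : Nat.card E ≤ 2 := by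
      classical
      have : (Set.univ : Set E) ⊆ {1, ⟨z, hzE⟩} := fun x _ => by
        by_cases h : x = 1
        · simp [h]
        · simp [hcon x h]
      have h3 := Set.ncard_le_ncard this
      rw [Set.ncard_univ] at h3
      exact h3.trans ((Set.ncard_insert_le _ _).trans (by simp))
    rw [hE.card_four] at this
    omega
  have hw1' : (w : H) ≠ 1 := fun e => hw1 (Subtype.ext e)
  have hzw : z * w ≠ 1 := fun e => hw2 (Subtype.ext (by
    have := sq z hzE
    exact mul_left_cancel (e.trans this.symm)))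
  rw [eq_bot_iff]
  intro n hn
  refine fp (z * w) (E.mul_mem hzE w.2) hzw n hn ?_
  calc z * w * n * (z * w)⁻¹ = z * (w * n * (w : H)⁻¹) * z⁻¹ := by group
    _ = n := by rw [inv w w.2 hw1' n hn, inv z hzE hz1 _ (N.inv_mem hn), inv_inv]

/-- Let H be a finite group and z an involution such that every proper normal subgroup of H meets the centralizer of z trivially, and suppose z lies in a Klein four-subgroup E of H all three of whose involutions are conjugate to z in H. Then H is simple. -/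
theorem result {H : Type*} [Group H] [Finite H] (z : H) (hz : orderOf z = 2) (hN : ∀ N : Subgroup H, N.Normal → N ≠ ⊤ → N ⊓ Subgroup.centralizer ({z} : Set H) = ⊥) (E : Subgroup H) (hE : IsKleinFour ↥E) (hzE : z ∈ E) (hc : ∀ e ∈ E, e ≠ 1 → IsConj z e) : IsSimpleGroup H := by
  have hz1 : z ≠ 1 := by rintro rfl; simp at hz
  haveI : Nontrivial H := ⟨z, 1, hz1⟩
  refine ⟨fun N hn => ?_⟩
  by_cases h : N = ⊤
  · exact Or.inr h
  · exact Or.inl (aux z hz E hE hzE hc N (hN N hn h))

end Cfsg.Agent.S2009
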