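import Cfsg.Statements.S2008
import Cfsg.Agent.S2009

set_option autoImplicit false
open Cfsg

namespace Cfsg.Agent.S2008

/-- Let H be a finite group and z an involution such that every proper normal subgroup of H meets the centralizer of z trivially, and suppose z lies in a Klein four-subgroup E of H all three of whose involutions are conjugate to z in H. Then H has no non-trivial abelian normal subgroup. -/
theorem result {H : Type*} [Group H] [Finite H] (z : H) (hz : orderOf z = 2) (hN : ∀ N : Subgroup H, N.Normal → N ≠ ⊤ → N ⊓ Subgroup.centralizer ({z} : Set H) = ⊥) (E : Subgroup H) (hE : IsKleinFour ↥E) (hzE : z ∈ E) (hc : ∀ e ∈ E, e ≠ 1 → IsConj z e) (N : Subgroup H) [N.Normal] (hab : IsMulCommutative ↥N) : N = ⊥ := by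
  have hs := Cfsg.Agent.S2009.result z hz hN E hE hzE hc
  rcases hs.eq_bot_or_eq_top_of_normal N inferInstance with h | h
  · exact h
  exfalso
  subst h
  have hall : ∀ e ∈ E, e ≠ 1 → e = z := by
    intro e he h1
    obtain ⟨c, hc⟩ := isConj_iff.1 (hc e he h1)
    have := congrArg Subtype.val (hab.is_comm.comm (⟨c, trivial⟩ : (⊤ : Subgroup H)) ⟨z, trivial⟩)
    have h2 : c * z = z * c := this
    rw [← hc, h2]; simp
  have : Nat.card E ≤ 2 := by
    classical
    have : (Set.univ : Set E) ⊆ {1, ⟨z, hzE⟩} := fun x _ => by
      by_cases h : x = 1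
      · simp [h]
      · have := hall x x.2 (fun e => h (Subtype.ext e))
        exact Or.inr (Subtype.ext this)
    have h3 := Set.ncard_le_ncard this
    rw [Set.ncard_univ] at h3
    exact h3.trans ((Set.ncard_insert_le _ _).trans (by simp))
  rw [hE.card_four] at this
  omega

end Cfsg.Agent.S2008
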