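import Cfsg.Statements.S2037
import Cfsg.Agent.H8.Mathieu
import Cfsg.Agent.H8.MM23
-- import your own Cfsg.Agent.* helpers here

set_option autoImplicit false
open Cfsg

namespace Cfsg.Agent.S2037

/-- The Schur multiplier of the Mathieu group M₂₃ (the stabiliser of a point in the automorphism group of the length-24 binary code) is trivial; here the Schur multiplier is described through stem extensions, as in the definitions: surjective homomorphisms onto the group from a finite group, whose kernel is central in that finite group and contained in that finite group's commutator subgroup. -/
theorem result : Cfsg.HasCyclicSchurMultiplier ↥Cfsg.Spor.M23 1 := by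
  exact L.hasSchur_congr_left H8.isoM23.some.symm H8.M23.mult

end Cfsg.Agent.S2037
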