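import Cfsg.Statements.S2086
import Cfsg.Agent.H6.Mult5

set_option autoImplicit false
open Cfsg

namespace Cfsg.Agent.S2086

/-- Schur multipliers of the linear groups: for n ≥ 2 and a field F with q elements (q ≥ 4 when n = 2), apart from the five exceptional pairs (n, q) = (2, 4), (2, 9), (3, 2), (3, 4), (4, 2), the Schur multiplier of PSL_n(F) is cyclic of order gcd(n, q − 1); here the Schur multiplier is described through stem extensions, as in the definitions. -/
theorem result {F : Type*} [Field F] [Fintype F] {q : ℕ} (hF : Fintype.card F = q) (n : ℕ) (hn : 2 ≤ n) (h2 : n = 2 → 4 ≤ q) (hexc : (n, q) ∉ ({(2, 4), (2, 9), (3, 2), (3, 4), (4, 2)} : Set (ℕ × ℕ))) : Cfsg.HasCyclicSchurMultiplier (Matrix.ProjectiveSpecialLinearGroup (Fin n) F) (Nat.gcd n (q - 1)) := by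
  subst hF
  simp only [Set.mem_insert_iff, Set.mem_singleton_iff, Prod.mk.injEq, not_or, not_and] at hexc
  obtain ⟨l, rfl⟩ : ∃ l, n = l + 1 := ⟨n - 1, by omega⟩
  rcases hn.eq_or_lt with e | e
  · obtain rfl : l = 1 := by omega
    exact H6.CA.schur_PSL2 (by have := h2 rfl; have := hexc.1 rfl; omega) (hexc.2.1 rfl)
  refine H6.CA.schurA (by omega) (fun e => ?_) fun e => H6.Chev.exists_ne_of_card (hexc.2.2.2.2 (by omega))
  have a := hexc.2.2.1 (by omega)
  have b := hexc.2.2.2.1 (by omega)
  rcases H6.Chev.four_or_three (H6.Chev.exists_ne_of_card a) with ⟨s, hs⟩ | h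
  · have := s.card_le_univ
    exact H6.Mult.exists_pow_ne (by simp) (by omega)
  · exact ⟨-1, by simp, fun e => one_ne_zero (α := F) (by linear_combination h.2 + e)⟩

end Cfsg.Agent.S2086
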