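import Cfsg.Statements.S2107
import Cfsg.Agent.H6.Mult4

set_option autoImplicit false
open Cfsg

namespace Cfsg.Agent.S2107

/-- Schur multipliers of the Chevalley groups of type E₈: over every finite field the Schur multiplier of E₈(q) is trivial (here the Schur multiplier is described through stem extensions, as in the definitions). -/
theorem result {F : Type*} [Field F] [Fintype F] : Cfsg.HasCyclicSchurMultiplier ↥(Cfsg.Lie.chevE8.group F) 1 := by
  exact H6.Chev.certE8.schur_one (H6.Chev.rk2_of_mem (by simp) _) (H6.Chev.st_perfect (by simp) H6.Chev.certE8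
    fun h => absurd (h.imp (congrArg (·.rank)) (congrArg (·.rank))) (by decide))
    (fun _ _ => H6.Chev.lfE8) H6.Chev.kerE8

end Cfsg.Agent.S2107
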