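import Cfsg.Statements.S2115
import Cfsg.Agent.H8.XTi2
import Cfsg.Agent.H8.MTi
-- import your own Cfsg.Agent.* helpers here

set_option autoImplicit false
set_option maxRecDepth 200000
open Cfsg

namespace Cfsg.Agent.S2115

/-- The Tits group, the commutator subgroup of ²F₄(2), has trivial Schur multiplier (here the Schur multiplier is described through stem extensions, as in the definitions). -/
theorem result : Cfsg.HasCyclicSchurMultiplier Cfsg.Lie.TitsGroup 1 := by
  exact L.hasSchur_congr_left (Q := H8.Ti.P) (Q' := Lie.TitsGroup) H8.Ti.iso.some.symm H8.Ti.mult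

end Cfsg.Agent.S2115
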