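import Cfsg.Statements.S2122
import Cfsg.Agent.H6.AutOut

set_option autoImplicit false
open Cfsg

namespace Cfsg.Agent.S2122

/-- Outer automorphisms of the Chevalley groups of type F₄: over a field with q = p^f (p prime) elements, the outer automorphism group of F₄(q) has order gcd(2, p) · f (field automorphisms, and in characteristic 2 also the exceptional graph automorphism). -/
theorem result {F : Type*} [Field F] [Fintype F] (p f : ℕ) [Fact p.Prime] [CharP F p] (hF : Fintype.card F = p ^ f) : Nat.card (Cfsg.Out ↥(Cfsg.Lie.chevF4.group F)) = Nat.gcd 2 p * f := by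
  open H6.Chev Cfsg.Lie in
  have hD : chevF4 ∈ [chevG2, chevB2, chevD4, chevF4, chevE6, chevE7, chevE8] := by simp
  have := nonempty_of_mem hD
  rw [certF4.card_out (rk2_of_mem hD _) (irr_of_mem hD _) lenF4 kerF4 p f hF,
    grpF4, ringChar.eq F p]
  split_ifs with h
  · simp [h, mul_comm]
  · simp [show Nat.gcd 2 p = 1 from (Nat.coprime_primes Nat.prime_two Fact.out).2 (Ne.symm h)]

end Cfsg.Agent.S2122
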