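import Cfsg.Statements.S2149
import Cfsg.Agent.H8.YU35
import Cfsg.Agent.H8.XU35
import Cfsg.Agent.H8.SU35
-- import your own Cfsg.Agent.* helpers here

set_option autoImplicit false
set_option maxRecDepth 200000
open Cfsg

namespace Cfsg.Agent.S2149

open Subgroup in
theorem keyB {B : Type*} [Group B] {S : Subgroup B} {z t : B} (hB : Nat.card B = 1000) (hN : S.Normal) (hS : Nat.card S = 125) (ht : t ^ 8 = 1)
    (h1 : ∃ u v : S, (u : B) * v = z * v * u) (h2 : ∀ g : B, ∃ i, g * z ^ i = z * g)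
    (h3 : ∀ b : B, b ≠ 1 → b ^ 5 = 1 → ∃ i, b ^ i = z ∨ (b * ((t * (b * t ^ 7)) * (b ^ 4 * (t * (b * t ^ 7)) ^ 4))) ^ i = z)
    (L : Subgroup B) (hL : L.index < 50) : z ∈ L := by
  haveI : Finite B := Nat.finite_of_card_ne_zero (by rw [hB]; norm_num)
  have e := L.index_mul_card
  rw [hB] at e
  have hd := (show ∀ i < 50, i ∣ 1000 → (¬ 2 ∣ i ∧ 5 ∣ 1000 / i) ∨ 25 ∣ 1000 / i by decide +kernel) _ hL (Dvd.intro _ e)
  rw [← e, Nat.mul_div_cancel_left _ (Nat.pos_of_ne_zero index_ne_zero_of_finite)] at hd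
  rcases hd with ⟨h, h5⟩ | h
  · obtain ⟨g, hg⟩ := H8.exists_conj_le Nat.prime_two L h (A := zpowers t) fun x => ⟨3, by
      obtain ⟨_, i, rfl⟩ := x
      exact Subtype.ext (show (t ^ i) ^ 8 = 1 by rw [← zpow_natCast, ← zpow_mul, mul_comm, zpow_mul, zpow_natCast, ht, one_zpow])⟩
    haveI : Fact (Nat.Prime 5) := ⟨by norm_num⟩
    obtain ⟨b, hb⟩ := exists_prime_orderOf_dvd_card' 5 h5
    let K := L.comap (MulAut.conj g).toMonoidHom
    have hbK : g⁻¹ * b * g ∈ K := by simp [K, mul_assoc]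
    have htK : t ∈ K := hg t (mem_zpowers t)
    have ho : orderOf (g⁻¹ * b * g) = 5 := by rw [← hb, ← orderOf_coe, ← H8.orderOf_conj' g⁻¹ b, inv_inv]
    obtain ⟨i, hi⟩ := h3 (g⁻¹ * b * g) (fun h => by rw [h, orderOf_one] at ho; omega) (ho ▸ pow_orderOf_eq_one _)
    have hc := mul_mem htK (mul_mem hbK (pow_mem htK 7))
    have hz : z ∈ K := hi.elim (· ▸ pow_mem hbK i) (· ▸ pow_mem (mul_mem hbK (mul_mem hc (mul_mem (pow_mem hbK 4) (pow_mem hc 4)))) i)
    obtain ⟨j, hj⟩ := h2 g
    have : g * z ^ j * g⁻¹ ∈ L := pow_mem hz j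
    rwa [hj, mul_inv_cancel_right] at this
  · have a1 := (S.subgroupOf L).index_mul_card
    have a2 : (S.subgroupOf L).index ∣ S.index := relIndex_dvd_index_of_normal S L
    have a3 := S.index_mul_card
    have a4 : Nat.card (S.subgroupOf L) = Nat.card (L.subgroupOf S) := by
      rw [← inf_subgroupOf_right, ← inf_subgroupOf_left L S]
      exact (Nat.card_congr (subgroupOfEquivOfLe inf_le_right).toEquiv).trans (Nat.card_congr (subgroupOfEquivOfLe inf_le_left).toEquiv).symm
    have a5 := (L.subgroupOf S).index_mul_card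
    rw [hS, hB] at a3
    rw [show S.index = 8 by omega] at a2
    obtain ⟨c, hc⟩ : 25 ∣ Nat.card (L.subgroupOf S) :=
      a4 ▸ (Nat.Coprime.coprime_dvd_right a2 (by norm_num)).dvd_of_dvd_mul_left (a1 ▸ h)
    rw [hS, hc] at a5
    have a6 : (L.subgroupOf S).index ∣ 5 := ⟨c, by nlinarith⟩
    obtain ⟨u, v, huv⟩ := h1
    have hz : z = (u * v * u⁻¹ * v⁻¹ : S) := by
      push_cast
      rw [huv]; group
    rw [hz]
    rcases (Nat.dvd_prime (by norm_num)).1 a6 with h | h
    · exact (index_eq_one.1 h ▸ mem_top _ : u * v * u⁻¹ * v⁻¹ ∈ L.subgroupOf S)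
    · haveI := normal_of_index_eq_minFac_card (H := L.subgroupOf S) (by rw [h, hS]; norm_num)
      haveI : Fact (Nat.Prime 5) := ⟨by norm_num⟩
      exact Normal.quotient_commutative_iff_commutator_le.1 (isCyclic_of_prime_card (α := S ⧸ L.subgroupOf S) h).isMulCommutative
        (commutator_mem_commutator (mem_top u) (mem_top v))
open Subgroup in
theorem key {G : Type*} [Group G] [Finite G] [IsSimpleGroup G] {B : Subgroup G} {z : B} (hz : z ≠ 1) (h : ∀ L : Subgroup B, L.index < 50 → z ∈ L)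
    (H : Subgroup G) (hH : H ≠ ⊤) : 50 ≤ H.index := by
  by_contra! c
  have : (z : G) ∈ H.normalCore := fun g => h ((H.comap (MulAut.conj g).toMonoidHom).subgroupOf B) (by
    refine lt_of_le_of_lt (relIndex_le_of_le_right (L := ⊤) le_top ?_) ?_ <;> rw [relIndex_top_right]
    · exact index_ne_zero_of_finite
    · rwa [index_comap_of_surjective _ (MulAut.conj g).surjective])
  rw [H.normalCore_normal.eq_bot_or_eq_top.resolve_right fun e => hH (top_le_iff.1 (e ▸ H.normalCore_le))] at this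
  exact hz (Subtype.ext this)

/-- Minimal index of a proper subgroup of PSU₃(5), realised over the field with 25 elements: every proper subgroup has index at least 50, and that index is attained. -/
theorem result {F : Type*} [Field F] [Fintype F] (hF : Fintype.card F = 25) : (∀ H : Subgroup (Cfsg.PSU 3 F 5), H ≠ ⊤ → 50 ≤ H.index) ∧ (∃ H : Subgroup (Cfsg.PSU 3 F 5), H.index = 50) := by
  obtain ⟨e⟩ := H8.U35.iso hF
  obtain ⟨B, S, z, t, h1, h2, h3, h4, h5, h6, h7, h8⟩ := H8.U35.borel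
  obtain ⟨A, hA⟩ := H8.U35.a7
  haveI := H8.U35.simple
  refine ⟨fun H hH => ?_, A.comap e.toMonoidHom, by rw [Subgroup.index_comap_of_surjective _ e.surjective, hA]⟩
  rw [← Subgroup.index_map_of_bijective (f := e.toMonoidHom) e.bijective]
  refine key h4 (keyB h1 h2 h3 h5 h6 h7 h8) _ fun h => hH ?_
  rw [← Subgroup.comap_map_eq_self_of_injective (f := e.toMonoidHom) e.injective H, h, Subgroup.comap_top]

end Cfsg.Agent.S2149
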