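import Cfsg.Statements.S2154
import Cfsg.Agent.H6.Kempf

set_option autoImplicit false
open Cfsg

namespace Cfsg.Agent.S2154

/-- The Borel–Tits property of the finite Chevalley groups of types G₂, B₂, D₄, F₄, E₆, E₇, E₈ over a finite field of characteristic p: for every non-trivial p-subgroup U of the group G there are an element g of G and a proper set J of fundamental roots such that the normaliser of U in G lies in the conjugate by g of the standard parabolic subgroup P_J and U lies in the conjugate by g of its unipotent radical U_J. -/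
theorem result {F : Type*} [Field F] [Fintype F] (p : ℕ) [Fact p.Prime] [CharP F p] (D : Cfsg.Lie.ChevalleyDatum) (hD : D ∈ [Cfsg.Lie.chevG2, Cfsg.Lie.chevB2, Cfsg.Lie.chevD4, Cfsg.Lie.chevF4, Cfsg.Lie.chevE6, Cfsg.Lie.chevE7, Cfsg.Lie.chevE8]) (U : Subgroup (GL D.Idx F)) (hUG : U ≤ D.group F) (hU : IsPGroup p ↥U) (hne : U ≠ ⊥) : ∃ g ∈ D.group F, ∃ J : Set ℕ, (∃ i, i < D.rank ∧ i ∉ J) ∧ Subgroup.normalizer (U : Set (GL D.Idx F)) ⊓ D.group F ≤ (D.parabolicSubgroup F J).map (MulAut.conj g).toMonoidHom ∧ U ≤ (D.unipotentRadical F J).map (MulAut.conj g).toMonoidHom := by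
  open H6 H6.Chev Cfsg.Lie in
  obtain ⟨C⟩ := cert_of_mem hD
  rw [C.group_eq] at hUG ⊢
  obtain ⟨g₀, hg₀, h₀⟩ := ChevSys.exists_conj_le_Up p C.r3 hUG hU
  obtain ⟨g, hg, J, ⟨i, hi⟩, h1, h2⟩ := (C.sys F).borel_tits
    (X := U.map (MulAut.conj g₀⁻¹).toMonoidHom) (by
      rintro _ ⟨y, hy, rfl⟩; simpa using h₀ y hy)
    (by rwa [Ne, Subgroup.map_eq_bot_iff_of_injective _ (MulAut.conj g₀⁻¹).injective])
  have hJ : {i : Fin D.rank | (i : ℕ) ∈ Fin.val '' J} = J := Set.ext fun i =>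
    Fin.val_injective.mem_set_image
  refine ⟨g₀ * g, mul_mem hg₀ hg, Fin.val '' J, ⟨i, i.2, fun h => hi (hJ ▸ h)⟩, fun n hn => ?_,
    fun y hy => ?_⟩
  · rw [C.parabolicSubgroup_eq, hJ]
    refine ⟨_, h2 (g₀⁻¹ * n * g₀) (mul_mem (mul_mem (inv_mem hg₀) hn.2) hg₀) ?_, by simp [mul_assoc]⟩
    exact Subgroup.le_normalizer_map _ ⟨n, hn.1, by simp⟩
  · rw [C.unipotentRadical_eq, hJ]
    exact ⟨_, h1 _ ⟨y, hy, rfl⟩, by simp [mul_assoc]⟩

end Cfsg.Agent.S2154
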