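import Cfsg.Statements.S2155
import Cfsg.Agent.H4.St4
import Cfsg.Agent.H9.Comp
import Cfsg.Agent.H6.ChevAll

set_option autoImplicit false
open Cfsg

namespace Cfsg.Agent.S2155

theorem aux {Φ ι : Type} [Fintype ι] [DecidableEq ι] {R : H6.RS Φ ι} {F : Type*} [Field F]
    {G : Type*} [Group G] [Fintype Φ] {S : H6.ChevSys R F G} [Finite G] [Finite F] (p : ℕ)
    [hp : Fact p.Prime] [CharP F p] (hA : S.Adj) (hR : R.Irred) {J : Set ι}
    (hJ : ∃ i, i ∉ J) : IsPGroup p (H9.Fst (S.P J)) := by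
  have hU : IsPGroup p (S.UJ J) := by
    have := Fintype.ofFinite G; exact (H4.St.pU p).to_le (H4.St.UJ_le_Up J)
  have hC : IsPGroup p ↥(S.P J ⊓ Subgroup.centralizer (S.UJ J : Set G)) := by
    rintro ⟨g, hg', hg⟩
    refine ⟨(orderOf g).factorization p, Subtype.ext ?_⟩
    have h1 := H4.St.central_of_cent (S := S.restrict) p S.restrict_grp
      (S.restrict.nconj.r3 (S.restrict_adj hA)) hR hJ
      (g := ⟨g ^ (p ^ (orderOf g).factorization p), pow_mem (S.P_le_grp J hg') _⟩)
      (fun v hv => Subtype.ext ((Subgroup.pow_mem _ hg (p ^ (orderOf g).factorization p)) v.1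
        ((H6.StSys.restrict_U (S := S.toStSys) _).le hv))) (by
        rw [← Subgroup.orderOf_coe]
        simp only []
        rw [orderOf_pow_of_dvd (pow_ne_zero _ hp.out.ne_zero) (Nat.ordProj_dvd _ _)]
        exact Nat.not_dvd_ordCompl hp.out (orderOf_pos g).ne')
    rw [S.restrict.center_eq_bot (S.restrict_adj hA) S.restrict_grp] at h1
    have h2 := congrArg Subtype.val (Subgroup.mem_bot.1 h1)
    exact h2
  have h1 : S.UJ J ≤ H9.Op p (S.P J) := H9.le_Op (S.nconj.UJ_sup_LJ J ▸ le_sup_left)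
    (S.nconj.P_le_normalizer J) hU
  have h2 : S.P J ⊓ Subgroup.centralizer (S.UJ J : Set G) ≤ H9.Op p (S.P J) := H9.le_Op inf_le_left
    (fun g hg => Subgroup.mem_normalizer_iff.2 fun x => and_congr
      (Subgroup.mem_normalizer_iff.1 (Subgroup.le_normalizer hg) x)
      (H4.mem_centralizer_conj_iff (S.nconj.P_le_normalizer J hg) x).symm) hC
  rw [H9.Fst_eq_Op_iff_centralizer_le.2 ((inf_le_inf_left _ (Subgroup.centralizer_le h1)).trans h2)]
  exact H9.Op_p p _

/-- In a Chevalley group of type G₂, B₂, D₄, F₄, E₆, E₇ or E₈ over a finite field of characteristic p (for types G₂ and B₂ the field is assumed to have at least 3 elements, so that the group is simple), the generalized Fitting subgroup of every proper standard parabolic subgroup P_J is a p-group (P_J is p-constrained with trivial largest normal subgroup of order prime to p). -/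
theorem result {F : Type*} [Field F] [Fintype F] (p : ℕ) [Fact p.Prime] [CharP F p] (D : Cfsg.Lie.ChevalleyDatum) (hD : D ∈ [Cfsg.Lie.chevG2, Cfsg.Lie.chevB2, Cfsg.Lie.chevD4, Cfsg.Lie.chevF4, Cfsg.Lie.chevE6, Cfsg.Lie.chevE7, Cfsg.Lie.chevE8]) (hq : (D = Cfsg.Lie.chevG2 ∨ D = Cfsg.Lie.chevB2) → 3 ≤ Fintype.card F) (J : Set ℕ) (hJ : ∃ i, i < D.rank ∧ i ∉ J) : IsPGroup p ↥(Cfsg.generalizedFittingSubgroup ↥(D.parabolicSubgroup F J)) := by
  obtain ⟨C⟩ := H6.Chev.cert_of_mem hD
  obtain ⟨i, hi, hiJ⟩ := hJ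
  have h := aux p (S := C.sys F) C.adj (H6.Chev.irr_of_mem hD C)
    (J := {i | (i : ℕ) ∈ J}) ⟨⟨i, hi⟩, hiJ⟩
  rw [← C.parabolicSubgroup_eq, ← H9.Fst_eq] at h
  exact h.of_equiv (Subgroup.equivMapOfInjective _ _ (Subgroup.subtype_injective _)).symm

end Cfsg.Agent.S2155
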