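import Cfsg.Statements.S2161
import Cfsg.Agent.H6.AutOut

set_option autoImplicit false
open Cfsg

namespace Cfsg.Agent.S2161

open H6 in
lemma cor_eq {Φ ι : Type} [Fintype ι] [DecidableEq ι] {R : RS Φ ι}
    (h : ∀ i j, R.A i (R.simple j) = R.A j (R.simple i)) (r : Φ) : R.cor r = R.vec r := by
  refine R.root_induction (P := fun r => R.cor r = R.vec r)
    (fun j => by rw [R.cor_simple, R.vec_simple]) (fun j r e => ?_) r
  rw [R.cor_refl, R.vec_refl, e, R.A_eq j r]
  simp only [h j]

open H6 in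
lemma vec_word {Φ ι : Type} [Fintype ι] [DecidableEq ι] {R : RS Φ ι} (π : Equiv.Perm ι)
    (h : ∀ i j, R.A (π i) (R.simple (π j)) = R.A i (R.simple j)) (l : List ι) (i j : ι) :
    R.vec (R.act (R.gen.wp (l.map π)) (R.simple (π i))) (π j) =
      R.vec (R.act (R.gen.wp l) (R.simple i)) j := by
  induction l generalizing j with
  | nil => simp [R.vec_simple, Pi.single_apply]
  | cons k l ih =>
    simp only [List.map_cons, InvGen.wp_cons, RS.gen_s, RS.act_mul, RS.act_s, R.vec_refl,
      Pi.sub_apply, ih, Pi.smul_apply, Pi.single_apply, π.injective.eq_iff]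
    rw [R.A_eq (π k), ← Equiv.sum_comp π, R.A_eq k]
    simp only [ih, h]

/-- For the Chevalley groups of types D₄ and E₆ (one root length) over any field: if `π` is a symmetry of the Dynkin diagram and `φ` is an automorphism sending `x_{p_i}(t)` to `x_{p_{π i}}(t)` and `x_{-p_i}(t)` to `x_{-p_{π i}}(t)` for every fundamental root `p_i`, then for every root `r` there is a sign `ε = ±1` with `φ(x_r(t)) = x_{π·r}(ε t)` for all `t`, where `π·r` is the root whose coefficients are those of `r` permuted by `π`. -/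
theorem result {F : Type*} [Field F] (D : Cfsg.Lie.ChevalleyDatum) (hD : D ∈ [Cfsg.Lie.chevD4, Cfsg.Lie.chevE6])
    (π : Equiv.Perm (Fin D.rank)) (hπ : D.IsDiagramSymmetry π) (φ : ↥(D.group F) ≃* ↥(D.group F))
    (hφ : ∀ (g : ↥(D.group F)) (i : Fin D.rank) (t : F),
      (((g : GL D.Idx F) : Matrix D.Idx D.Idx F) = D.x F (D.simple i) t →
        ((φ g : GL D.Idx F) : Matrix D.Idx D.Idx F) = D.x F (D.simple (π i)) t) ∧
      (((g : GL D.Idx F) : Matrix D.Idx D.Idx F) = D.x F (D.neg (D.simple i)) t →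
        ((φ g : GL D.Idx F) : Matrix D.Idx D.Idx F) = D.x F (D.neg (D.simple (π i))) t))
    (r : ℕ) (hr : r < D.nroots) :
    ∃ ε : F, (ε = 1 ∨ ε = -1) ∧ ∀ (g : ↥(D.group F)) (t : F),
      ((g : GL D.Idx F) : Matrix D.Idx D.Idx F) = D.x F r t →
        ((φ g : GL D.Idx F) : Matrix D.Idx D.Idx F) = D.x F (D.permRoot π r) (ε * t) := by
  open H6 H6.Chev Cfsg.Lie in
  have hD' : D ∈ [chevG2, chevB2, chevD4, chevF4, chevE6, chevE7, chevE8] := by
    simp only [List.mem_cons, List.not_mem_nil, or_false] at hD ⊢; tauto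
  obtain ⟨C⟩ := cert_of_mem hD'
  obtain ⟨T, lng, hl, -⟩ := len_of_mem hD'
  have hs : ∀ i j, C.R.A i (C.R.simple j) = C.R.A j (C.R.simple i) := by
    simp only [List.mem_cons, List.not_mem_nil, or_false] at hD
    rcases hD with rfl | rfl
    · simp only [C.A_eq_mat lenD4]; decide +kernel
    · simp only [C.A_eq_mat lenE6]; decide +kernel
  have hA : ∀ i j, C.R.A (π i) (C.R.simple (π j)) = C.R.A i (C.R.simple j) := fun i j => by
    by_cases hij : i = j
    · rw [hij, C.R.A_simple_self, C.R.A_simple_self]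
    have h1 : C.R.A (π i) (C.R.simple (π j)) * C.R.A (π j) (C.R.simple (π i)) =
      C.R.A i (C.R.simple j) * C.R.A j (C.R.simple i) := hπ i j hij
    have h2 := C.len hl i j hij
    have h3 := C.len hl _ _ (π.injective.ne hij)
    rw [hs j i] at h1 h2
    rw [hs (π j)] at h1 h3
    rcases h2 with h2 | h2 | h2 | h2 <;> rcases h3 with h3 | h3 | h3 | h3 <;>
      simp only [h2.1, h3.1] at h1 ⊢ <;> omega
  have hφ' := (C.simple_iff (e := fun _ t => t)).1 hφ
  obtain ⟨w, i, e⟩ := C.R.exists_act_simple ⟨r, hr⟩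
  obtain ⟨l, -, rfl⟩ := C.R.gen.exists_word w
  obtain ⟨d, -, hd, h⟩ := StSys.Data.word (θ := φ.toMonoidHom) (ρ := π) (c := fun _ => 1)
    (f := fun _ => RingEquiv.refl F) (C.gsys F).nconj (fun i t => by simpa using hφ' i t) l i
  refine ⟨d, hd fun _ => rfl, fun g t hg => ?_⟩
  rw [(C.eq_gx_iff hr).1 hg, ← e]
  refine (congrArg _ (congrArg _ (h t))).trans ((C.gsys_x _ _).trans ?_)
  congr 1
  have hv := vec_word π hA l i
  rw [e] at hv
  generalize C.R.act (C.R.gen.wp (l.map π)) (C.R.simple (π i)) = s at hv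
  simp only [← cor_eq hs, C.R_cor, co] at hv
  unfold ChevalleyDatum.permRoot
  cases hf : List.find? _ (List.range D.nroots) with
  | none => exact absurd (List.find?_eq_none.1 hf s (List.mem_range.2 s.2)) (by simpa using hv)
  | some s' =>
    have h1 := List.find?_some hf
    have h2 := List.mem_range.1 (List.mem_of_find?_eq_some hf)
    simp only [List.all_eq_true, List.mem_finRange, beq_iff_eq, forall_const] at h1
    refine congrArg Fin.val (C.R.vec_inj (a₂ := ⟨s', h2⟩) (funext fun j => ?_))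
    obtain ⟨j, rfl⟩ := π.surjective j
    simp only [← cor_eq hs, C.R_cor, co, hv, h1]

end Cfsg.Agent.S2161
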