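import Cfsg.Statements.S2298
import Cfsg.Agent.H3.G2b

set_option autoImplicit false
open Cfsg

namespace Cfsg.Agent.S2298

open H3 H3.G2 H5

/-- Over a finite field F with q elements, every irreducible complex character of GL₂ has degree 1, q − 1, q or q + 1; and when q ≥ 3 (so that these four numbers are distinct) there are exactly q − 1 irreducible characters of degree 1, exactly q − 1 of degree q, exactly (q − 1)(q − 2)/2 of degree q + 1 and exactly q(q − 1)/2 of degree q − 1. -/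
theorem result {F : Type*} [Field F] [Fintype F] :
    (∀ χ : Matrix.GeneralLinearGroup (Fin 2) F → ℂ, Cfsg.IsIrrCharacter (Matrix.GeneralLinearGroup (Fin 2) F) χ →
      χ 1 = 1 ∨ χ 1 = (Fintype.card F : ℂ) - 1 ∨ χ 1 = (Fintype.card F : ℂ) ∨ χ 1 = (Fintype.card F : ℂ) + 1) ∧
    (3 ≤ Fintype.card F →
      Nat.card {χ : Cfsg.IrrCharacter (Matrix.GeneralLinearGroup (Fin 2) F) // (χ : Matrix.GeneralLinearGroup (Fin 2) F → ℂ) 1 = 1} = Fintype.card F - 1 ∧
      Nat.card {χ : Cfsg.IrrCharacter (Matrix.GeneralLinearGroup (Fin 2) F) // (χ : Matrix.GeneralLinearGroup (Fin 2) F → ℂ) 1 = (Fintype.card F : ℂ)} = Fintype.card F - 1 ∧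
      Nat.card {χ : Cfsg.IrrCharacter (Matrix.GeneralLinearGroup (Fin 2) F) // (χ : Matrix.GeneralLinearGroup (Fin 2) F → ℂ) 1 = (Fintype.card F : ℂ) + 1} = (Fintype.card F - 1) * (Fintype.card F - 2) / 2 ∧
      Nat.card {χ : Cfsg.IrrCharacter (Matrix.GeneralLinearGroup (Fin 2) F) // (χ : Matrix.GeneralLinearGroup (Fin 2) F → ℂ) 1 = (Fintype.card F : ℂ) - 1} = Fintype.card F * (Fintype.card F - 1) / 2) := by
  classical
  obtain ⟨w, hw⟩ := exists_not_rt (F := F)
  refine ⟨fun χ hχ => ?_, fun hq => ⟨?_, ?_, ?_, ?_⟩⟩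
  · rcases irr_GL2 hw hχ with ⟨α, rfl⟩ | ⟨α, rfl⟩ | ⟨α, β, -, rfl⟩ | ⟨θ, -, rfl⟩ <;>
      simp [st_one, ps_one, cusp_one hw]
  · exact (card_irr_of_inj (fun α => lin α) (· 1 = 1) (fun _ => irr_mhom _) (fun _ => map_one _)
      (fun _ => deg_one hw hq) lin_inj).trans card_mc
  · exact (card_irr_of_inj st (· 1 = _) irr_st st_one (fun _ => deg_q hw) st_inj).trans card_mc
  · refine (card_irr_of_two (fun p : {p : MulChar F ℂ × MulChar F ℂ // p.1 ≠ p.2} => ps p.1.1 p.1.2) (· 1 = _)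
      (fun p => irr_ps p.2) (fun _ => ps_one _ _) (fun χ hχ h => ?_) (fun p => ⟨p.1.swap, p.2.symm⟩)
      (fun p e => p.2 (congrArg (·.1.2) e)) (fun a b => ?_)).trans ?_
    · obtain ⟨α, β, h, e⟩ := deg_succ hw hχ h
      exact ⟨⟨(α, β), h⟩, e⟩
    · rw [ps_eq_iff]; simp only [Subtype.ext_iff, Prod.ext_iff, Prod.fst_swap, Prod.snd_swap]; tauto
    · rw [Nat.card_eq_fintype_card, Fintype.card_subtype, Finset.filter_congr_decidable,
        show Finset.univ.filter (fun p : MulChar F ℂ × MulChar F ℂ => p.1 ≠ p.2) = Finset.univ.offDiag by ext; simp,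
        Finset.offDiag_card, Finset.card_univ, ← Nat.card_eq_fintype_card, card_mc, ← Nat.mul_sub_one]
      rfl
  · refine (card_irr_of_two (fun θ : {θ : T w →* ℂˣ // barH θ ≠ θ} => cusp θ.1) (· 1 = _)
      (fun θ => irr_cusp hw θ.2) (fun _ => cusp_one hw _) (fun χ hχ h => ?_)
      (fun θ => ⟨barH θ.1, by rw [barH_barH]; exact θ.2.symm⟩) (fun p e => p.2 (congrArg (·.1) e))
      (fun a b => ?_)).trans (by rw [card_bar_ne hw])
    · obtain ⟨θ, h, e⟩ := deg_pred hw hq hχ h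
      exact ⟨⟨θ, h⟩, e⟩
    · rw [cusp_eq_iff hw]; simp only [Subtype.ext_iff]

end Cfsg.Agent.S2298
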