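import Cfsg.Statements.S2299
import Cfsg.Agent.H3.G2d

set_option autoImplicit false
open Cfsg

namespace Cfsg.Agent.S2299

open H3 H3.G2 H5

/-- Over a finite field F with q elements, q odd, every irreducible complex character of SL₂ has degree 1, q, q + 1, q − 1, (q + 1)/2 or (q − 1)/2; and when q ≥ 5 (so that these six numbers are distinct) there are exactly one irreducible character of degree 1, one of degree q, (q − 3)/2 of degree q + 1, (q − 1)/2 of degree q − 1, two of degree (q + 1)/2 and two of degree (q − 1)/2. -/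
theorem result {F : Type*} [Field F] [Fintype F] (hodd : Odd (Fintype.card F)) :
    (∀ χ : Matrix.SpecialLinearGroup (Fin 2) F → ℂ, Cfsg.IsIrrCharacter (Matrix.SpecialLinearGroup (Fin 2) F) χ →
      χ 1 = 1 ∨ χ 1 = (Fintype.card F : ℂ) ∨ χ 1 = (Fintype.card F : ℂ) + 1 ∨ χ 1 = (Fintype.card F : ℂ) - 1 ∨
        χ 1 = (((Fintype.card F + 1) / 2 : ℕ) : ℂ) ∨ χ 1 = (((Fintype.card F - 1) / 2 : ℕ) : ℂ)) ∧
    (5 ≤ Fintype.card F →
      Nat.card {χ : Cfsg.IrrCharacter (Matrix.SpecialLinearGroup (Fin 2) F) // (χ : Matrix.SpecialLinearGroup (Fin 2) F → ℂ) 1 = 1} = 1 ∧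
      Nat.card {χ : Cfsg.IrrCharacter (Matrix.SpecialLinearGroup (Fin 2) F) // (χ : Matrix.SpecialLinearGroup (Fin 2) F → ℂ) 1 = (Fintype.card F : ℂ)} = 1 ∧
      Nat.card {χ : Cfsg.IrrCharacter (Matrix.SpecialLinearGroup (Fin 2) F) // (χ : Matrix.SpecialLinearGroup (Fin 2) F → ℂ) 1 = (Fintype.card F : ℂ) + 1} = (Fintype.card F - 3) / 2 ∧
      Nat.card {χ : Cfsg.IrrCharacter (Matrix.SpecialLinearGroup (Fin 2) F) // (χ : Matrix.SpecialLinearGroup (Fin 2) F → ℂ) 1 = (Fintype.card F : ℂ) - 1} = (Fintype.card F - 1) / 2 ∧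
      Nat.card {χ : Cfsg.IrrCharacter (Matrix.SpecialLinearGroup (Fin 2) F) // (χ : Matrix.SpecialLinearGroup (Fin 2) F → ℂ) 1 = (((Fintype.card F + 1) / 2 : ℕ) : ℂ)} = 2 ∧
      Nat.card {χ : Cfsg.IrrCharacter (Matrix.SpecialLinearGroup (Fin 2) F) // (χ : Matrix.SpecialLinearGroup (Fin 2) F → ℂ) 1 = (((Fintype.card F - 1) / 2 : ℕ) : ℂ)} = 2) := by
  classical
  obtain ⟨w, hw⟩ := exists_not_rt (F := F)
  rw [cast_hs hodd, cast_hp hodd]
  refine ⟨fun χ hχ => (sdeg hw hχ).imp (·.1) (.imp (·.1) (.imp (·.1) (.imp (·.1) (.imp (·.1) (·.1))))), fun hq => ?_⟩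
  have hq' : 4 ≤ Fintype.card F := by omega
  have := isCyclic_T1 hw
  obtain ⟨a, b, h⟩ := exists_half_qc hodd
  obtain ⟨η, h2, h1⟩ := exists_hom_two (T1_even hw hodd)
  obtain ⟨c, d, h'⟩ := exists_half_cs hw h2 h1
  refine ⟨card_sone hw hq', card_sq hw, ?_, ?_, card_half h (by rw [ps_one]) fun _ h1 => sdeg_hs hw h1 hq',
    card_half h' (by rw [cusp_one hw]) fun _ e1 e2 => ?_⟩
  · rw [card_succ hw, card_sq_ne_even (card_units_even hodd), Nat.card_eq_fintype_card, Fintype.card_units]; rfl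
  · rw [card_pred hw hq', card_sq_ne_even (T1_even hw hodd), card_T1' hw]; rfl
  · obtain ⟨η', χ', e3, e4, e5⟩ := sdeg_hp hw e1 hq' e2
    exact ⟨χ', hom_two_uniq (T1_even hw hodd) e3 e4 h2 h1 ▸ e5⟩

end Cfsg.Agent.S2299
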