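import Cfsg.Statements.S2301
import Cfsg.Agent.H5.SL2Cl

set_option autoImplicit false
open Cfsg

namespace Cfsg.Agent.S2301

open H5

theorem key {F : Type*} [Field F] [Fintype F] (p : ℕ) [Fact p.Prime] [CharP F p] {g : SL2 F} (hg : orderOf g = p) :
    ∃ b, b ≠ 0 ∧ IsConj g (up b) := by
  obtain ⟨x, hx⟩ := exists_UG_of_pow p (g := toG g) (n := 1) (by rw [pow_one, ← map_pow, ← hg, pow_orderOf_eq_one, map_one])
  obtain ⟨b, hb⟩ := exists_conj_up (g := g) hx
  refine ⟨b, ?_, hb⟩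
  rintro rfl
  rw [up_eq_one.2 rfl, isConj_one_left] at hb
  rw [hb, orderOf_one] at hg
  exact (Fact.out : p.Prime).one_lt.ne hg

/-- Over a finite field with q elements of odd characteristic p, the elements of order p of SL₂ (the non-identity unipotent elements) fall into exactly two conjugacy classes, each of size (q² − 1)/2; two upper unitriangular matrices with non-zero off-diagonal entries b and b′ are conjugate exactly when bb′ is a square. -/
theorem result {F : Type*} [Field F] [Fintype F] (p : ℕ) [Fact p.Prime] [CharP F p] (hp : p ≠ 2) :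
    Nat.card {C : ConjClasses (Matrix.SpecialLinearGroup (Fin 2) F) // ∃ g : Matrix.SpecialLinearGroup (Fin 2) F, orderOf g = p ∧ ConjClasses.mk g = C} = 2 ∧
    (∀ g : Matrix.SpecialLinearGroup (Fin 2) F, orderOf g = p → Nat.card (ConjClasses.mk g).carrier = (Fintype.card F ^ 2 - 1) / 2) ∧
    ∀ g h : Matrix.SpecialLinearGroup (Fin 2) F, (g : Matrix (Fin 2) (Fin 2) F) 0 0 = 1 → (g : Matrix (Fin 2) (Fin 2) F) 1 1 = 1 → (g : Matrix (Fin 2) (Fin 2) F) 1 0 = 0 → (g : Matrix (Fin 2) (Fin 2) F) 0 1 ≠ 0 →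
      (h : Matrix (Fin 2) (Fin 2) F) 0 0 = 1 → (h : Matrix (Fin 2) (Fin 2) F) 1 1 = 1 → (h : Matrix (Fin 2) (Fin 2) F) 1 0 = 0 → (h : Matrix (Fin 2) (Fin 2) F) 0 1 ≠ 0 →
      (IsConj g h ↔ IsSquare ((g : Matrix (Fin 2) (Fin 2) F) 0 1 * (h : Matrix (Fin 2) (Fin 2) F) 0 1)) := by
  have h2 : (2 : F) ≠ 0 := (char_ne_two p).1 hp
  have ho : Odd (Fintype.card F) := Nat.not_even_iff_odd.1 (mt even_iff_two_eq_zero.1 h2)
  have hu : ∀ b : F, b ≠ 0 → orderOf (up b) = p := fun b hb =>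
    orderOf_eq_prime (by rw [upper_pow, CharP.cast_eq_zero, zero_mul]; exact up_eq_one.2 rfl) (mt up_eq_one.1 hb)
  refine ⟨?_, fun g hg => ?_, fun g h a1 a2 a3 a4 b1 b2 b3 b4 => ?_⟩
  · obtain ⟨v, hv⟩ := FiniteField.exists_nonsquare (F := F) (by rwa [ringChar.eq F p])
    have hv0 : v ≠ 0 := by rintro rfl; exact hv IsSquare.zero
    have h3 : ConjClasses.mk (up (1 : F)) ≠ ConjClasses.mk (up v) := fun e =>
      hv (by simpa using (isConj_up_iff one_ne_zero hv0).1 (ConjClasses.mk_eq_mk_iff_isConj.1 e))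
    refine ((Nat.card_coe_set_eq {C | ∃ g : SL2 F, orderOf g = p ∧ ConjClasses.mk g = C}).trans
      (congrArg Set.ncard (Set.ext fun C => ⟨?_, ?_⟩))).trans (Set.ncard_pair h3)
    · rintro ⟨g, hg, rfl⟩
      obtain ⟨b, hb, h⟩ := key p hg
      by_cases hs : IsSquare b
      · exact Or.inl (ConjClasses.mk_eq_mk_iff_isConj.2 (h.trans ((isConj_up_iff hb one_ne_zero).2 (by simpa))))
      · exact Or.inr (ConjClasses.mk_eq_mk_iff_isConj.2 (h.trans ((isConj_up_iff hb hv0).2 (isSquare_mul_of_not hs hv))))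
    · rintro (rfl | rfl)
      exacts [⟨_, hu 1 one_ne_zero, rfl⟩, ⟨_, hu v hv0, rfl⟩]
  · obtain ⟨b, hb, h⟩ := key p hg
    have h3 : mkS (up b) ∈ UP OnePoint.infty := mkS_up b ▸ mem_UP_infty.2 ⟨b, rfl⟩
    have h4 := (Subgroup.centralizer {up b}).card_mul_index
    rw [centralizer_US h3 (by simp [mkS_up, aff_eq_one, hb]), card_comap_mkS, inf_eq_left.2 (UP_le_PS _), card_UP,
      gcd_two_of_odd ho, card_SL2, Nat.card_eq_fintype_card] at h4
    rw [ConjClasses.mk_eq_mk_iff_isConj.2 h, card_carrier, centralizer_US h3 (by simp [mkS_up, aff_eq_one, hb])]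
    have h5 := Fintype.card_pos (α := F)
    refine Nat.eq_div_of_mul_eq_right two_ne_zero (Nat.eq_of_mul_eq_mul_left h5 ?_)
    rw [← one_pow 2, Nat.sq_sub_sq]
    linear_combination h4
  · obtain ⟨a, b, c, d, e, rfl⟩ := exists_sl2 g
    obtain ⟨a', b', c', d', e', rfl⟩ := exists_sl2 h
    simp at a1 a2 a3 a4 b1 b2 b3 b4
    subst a1 a2 a3 b1 b2 b3
    exact isConj_up_iff a4 b4


end Cfsg.Agent.S2301
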