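import Cfsg.Statements.S2302
import Cfsg.Agent.H5.SL2Cl

set_option autoImplicit false
open Cfsg

namespace Cfsg.Agent.S2302

open H5

/-- Over a finite field with q elements of characteristic 2, the involutions of SL₂ (the non-identity unipotent elements) form a single conjugacy class, of size q² − 1. -/
theorem result {F : Type*} [Field F] [Fintype F] [CharP F 2] (g h : Matrix.SpecialLinearGroup (Fin 2) F) (hg : orderOf g = 2) (hh : orderOf h = 2) :
    IsConj g h ∧ Nat.card (ConjClasses.mk g).carrier = Fintype.card F ^ 2 - 1 := by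
  have h2 : (2 : F) = 0 := CharP.cast_eq_zero F 2
  have hs : ∀ a : F, IsSquare a := FiniteField.isSquare_of_char_two (ringChar.eq F 2)
  have key : ∀ g : SL2 F, orderOf g = 2 → mkS g ≠ 1 ∧ g.1.trace = 0 := fun g hg => by
    have h1 : mkS g ≠ 1 := fun e => by simp [(map_eq_one_iff _ (mkS_inj h2)).1 e] at hg
    exact ⟨h1, (sq_eq_neg_one_iff h1).1 (by rw [H5.neg_one_eq_one_iff.2 h2, ← sq]; exact orderOf_dvd_iff_pow_eq_one.1 hg.dvd)⟩
  refine ⟨isConj_of_trace_sq hs (key g hg).1 (key h hh).1 ((key g hg).2.trans (key h hh).2.symm), ?_⟩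
  obtain ⟨x, hx⟩ := exists_US_of_trace ((key g hg).2.trans h2.symm)
  have h4 := (Subgroup.centralizer {g}).card_mul_index
  have h5 := Fintype.card_pos (α := F)
  rw [← card_carrier, centralizer_US (mkS_mem_UP hx) (key g hg).1, card_comap_mkS, inf_eq_left.2 (UP_le_PS _), card_UP,
    gcd_two_of_even (even_iff_two_eq_zero.2 h2) h5.ne', card_SL2, Nat.card_eq_fintype_card] at h4
  refine Nat.eq_of_mul_eq_mul_left h5 ?_
  rw [← one_pow 2, Nat.sq_sub_sq]
  linear_combination h4


end Cfsg.Agent.S2302
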