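import Cfsg.Statements.S2303
import Cfsg.Agent.H5.SL2Cl

set_option autoImplicit false
open Cfsg

namespace Cfsg.Agent.S2303

open H5

/-- Over a finite field with q elements: a diagonal element of GL₂ with two distinct diagonal entries has centralizer of order (q − 1)² (so q(q + 1) conjugates), and an element of GL₂ with no eigenvector in F² has centralizer of order q² − 1 (so q(q − 1) conjugates). -/
theorem result {F : Type*} [Field F] [Fintype F] (g : Matrix.GeneralLinearGroup (Fin 2) F) :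
    ((g : Matrix (Fin 2) (Fin 2) F) 0 1 = 0 → (g : Matrix (Fin 2) (Fin 2) F) 1 0 = 0 → (g : Matrix (Fin 2) (Fin 2) F) 0 0 ≠ (g : Matrix (Fin 2) (Fin 2) F) 1 1 →
      Nat.card (Subgroup.centralizer ({g} : Set (Matrix.GeneralLinearGroup (Fin 2) F))) = (Fintype.card F - 1) ^ 2) ∧
    ((∀ (c : F) (v : Fin 2 → F), v ≠ 0 → (g : Matrix (Fin 2) (Fin 2) F).mulVec v ≠ c • v) →
      Nat.card (Subgroup.centralizer ({g} : Set (Matrix.GeneralLinearGroup (Fin 2) F))) = Fintype.card F ^ 2 - 1) := by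
  refine ⟨fun h1 h2 h3 => ?_, fun h => ?_⟩
  · rw [card_centralizer_GL (g := g) (by rw [ne_eq, mkG_eq_one_iff]; tauto)]
    obtain ⟨a, b, c, d, e, rfl⟩ := exists_gl2 g
    simp at h1 h2 h3
    subst h1 h2
    have : ∀ p : F × F, p.1 ^ 2 + (gl2 a 0 0 d e).1.trace * p.1 * p.2 + (gl2 a 0 0 d e).1.det * p.2 ^ 2 ≠ 0 ↔
        p.1 + a * p.2 ≠ 0 ∧ p.1 + d * p.2 ≠ 0 := fun p => by
      rw [← mul_ne_zero_iff]
      simp only [gl2_coe, Matrix.trace_fin_two_of, Matrix.det_fin_two_of]
      exact Iff.of_eq (by congr 1; ring)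
    simp only [this]
    have h4 : a - d ≠ 0 := sub_ne_zero.2 h3
    rw [← Nat.card_eq_fintype_card, ← Nat.card_units, sq, ← Nat.card_prod]
    refine Nat.card_congr (Equiv.ofBijective (fun p => (Units.mk0 _ p.2.1, Units.mk0 _ p.2.2)) ⟨fun p q h => ?_, fun ⟨u, v⟩ => ?_⟩)
    · simp only [Prod.mk.injEq, Units.mk0_inj] at h
      have h5 : p.1.2 = q.1.2 := mul_left_cancel₀ h4 (by linear_combination h.1 - h.2)
      exact Subtype.ext (Prod.ext (by linear_combination h.1 - a * h5) h5)
    · have h5 : (u : F) - a * ((u - v) / (a - d)) + a * ((u - v) / (a - d)) = u := by ring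
      have h6 : (u : F) - a * ((u - v) / (a - d)) + d * ((u - v) / (a - d)) = v := by field_simp; ring
      exact ⟨⟨(u - a * ((u - v) / (a - d)), (u - v) / (a - d)), by simp only [h5, h6]; simp⟩,
        Prod.ext (Units.ext h5) (Units.ext h6)⟩
  · have h1 : ∀ c : F, c ^ 2 - g.1.trace * c + g.1.det ≠ 0 := fun c e => by
      obtain ⟨v, hv, e⟩ := eigen_of_root e; exact h c v hv e
    rw [card_centralizer_GL (g := g) fun e => by
      obtain ⟨c, v, hv, e⟩ := exists_fix_iff.1 ⟨OnePoint.infty, by rw [e, one_smul]⟩; exact h c v hv e]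
    have : ∀ p : F × F, p.1 ^ 2 + g.1.trace * p.1 * p.2 + g.1.det * p.2 ^ 2 ≠ 0 ↔ p ≠ 0 := fun p => by
      refine ⟨by rintro h rfl; simp at h, fun hp e => ?_⟩
      by_cases h2 : p.2 = 0
      · exact hp (Prod.ext (by simpa [h2] using e) h2)
      · exact h1 (-(p.1 / p.2)) (by field_simp; linear_combination e)
    simp only [this]
    classical
    rw [Nat.card_eq_fintype_card, Fintype.card_subtype_compl, Fintype.card_prod, sq]
    simp


end Cfsg.Agent.S2303
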