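import Cfsg.Statements.S2308
import Cfsg.Agent.H5.SL2Cl

set_option autoImplicit false
open Cfsg

namespace Cfsg.Agent.S2308

open H5 OnePoint MulAction in
theorem key {F : Type*} [Field F] (g : GL2 F) :
    Cfsg.fixedPointCharacter (Cfsg.upperTriangularGL 2 F) g = {x : OnePoint F | mkG g • x = x}.ncard := by
  classical
  have h : Cfsg.upperTriangularGL 2 F = stabilizer (GL2 F) (∞ : OnePoint F) := by
    ext g
    refine Iff.trans ?_ (mem_BG_infty (g := g)).symm
    refine ⟨fun h => h (show (0 : Fin 2) < 1 by decide), fun h i j hij => ?_⟩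
    fin_cases i <;> fin_cases j <;> simp at hij
    exact h
  rw [Cfsg.fixedPointCharacter, h, card_fixedBy_quot exists_mkG_smul]
  rfl

open H5 OnePoint

/-- Values of the permutation character of GL₂ over a finite field F with q elements on the cosets of its upper triangular subgroup (equivalently, the number of lines of F² that an element maps to themselves): q + 1 at a scalar matrix, 2 at a diagonal matrix with two different diagonal entries, 0 at an element with no eigenvector in F², and 1 at an upper triangular matrix with equal diagonal entries and non-zero upper right entry. -/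
theorem result {F : Type*} [Field F] [Fintype F] (g : Matrix.GeneralLinearGroup (Fin 2) F) :
    ((∃ a : F, (g : Matrix (Fin 2) (Fin 2) F) = a • (1 : Matrix (Fin 2) (Fin 2) F)) → Cfsg.fixedPointCharacter (Cfsg.upperTriangularGL 2 F) g = Fintype.card F + 1) ∧
    ((g : Matrix (Fin 2) (Fin 2) F) 0 1 = 0 → (g : Matrix (Fin 2) (Fin 2) F) 1 0 = 0 → (g : Matrix (Fin 2) (Fin 2) F) 0 0 ≠ (g : Matrix (Fin 2) (Fin 2) F) 1 1 →
      Cfsg.fixedPointCharacter (Cfsg.upperTriangularGL 2 F) g = 2) ∧
    ((∀ (c : F) (v : Fin 2 → F), v ≠ 0 → (g : Matrix (Fin 2) (Fin 2) F).mulVec v ≠ c • v) → Cfsg.fixedPointCharacter (Cfsg.upperTriangularGL 2 F) g = 0) ∧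
    ((g : Matrix (Fin 2) (Fin 2) F) 1 0 = 0 → (g : Matrix (Fin 2) (Fin 2) F) 0 0 = (g : Matrix (Fin 2) (Fin 2) F) 1 1 → (g : Matrix (Fin 2) (Fin 2) F) 0 1 ≠ 0 →
      Cfsg.fixedPointCharacter (Cfsg.upperTriangularGL 2 F) g = 1) := by
  rw [key]
  obtain ⟨a, b, c, d, e, rfl⟩ := exists_gl2 g
  refine ⟨fun ⟨t, h⟩ => ?_, fun h1 h2 h3 => ?_, fun h => ?_, fun h1 h2 h3 => ?_⟩
  · rw [mkG_eq_one_iff.2 (by simp only [h]; simp)]
    simp [-Nat.card_eq_fintype_card, card_onePoint]
  · simp at h1 h2 h3
    subst h1 h2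
    have : {x : OnePoint F | mkG (gl2 a 0 0 d e) • x = x} = {∞, ((0 : F) : OnePoint F)} := by
      ext x
      cases x with
      | infty => simp [mkG_gl2, pg_infty_eq_iff]
      | coe t => simp [mkG_gl2, pg_coe_eq_iff, mul_comm t, h3]
    rw [this, Set.ncard_pair (by simp)]; simp
  · have : {x : OnePoint F | mkG (gl2 a b c d e) • x = x} = ∅ := Set.eq_empty_of_forall_notMem fun x hx => by
      obtain ⟨c, v, hv, e⟩ := exists_fix_iff.1 ⟨x, hx⟩; exact h c v hv e
    simp [this]
  · simp at h1 h2 h3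
    subst h1 h2
    have : {x : OnePoint F | mkG (gl2 a b 0 a e) • x = x} = {∞} := by
      ext x
      cases x with
      | infty => simp [mkG_gl2, pg_infty_eq_iff]
      | coe t => simp [mkG_gl2, pg_coe_eq_iff, mul_comm t, h3]
    simp [this]


end Cfsg.Agent.S2308
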