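import Cfsg.Statements.S2310
import Cfsg.Agent.H3.G2b

set_option autoImplicit false
open Cfsg

namespace Cfsg.Agent.S2310

open H3 H3.G2 H5

/-- Over a finite field F with q ≥ 3 elements, let u be the upper unitriangular matrix of GL₂ with off-diagonal entry 1. An irreducible complex character χ of GL₂ takes at u the value 1 if χ has degree 1 or q + 1, the value −1 if χ has degree q − 1, and the value 0 if χ has degree q. -/
theorem result {F : Type*} [Field F] [Fintype F] (hq : 3 ≤ Fintype.card F) (χ : Matrix.GeneralLinearGroup (Fin 2) F → ℂ) (hχ : Cfsg.IsIrrCharacter (Matrix.GeneralLinearGroup (Fin 2) F) χ)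
    (u : Matrix.GeneralLinearGroup (Fin 2) F) (hu : (u : Matrix (Fin 2) (Fin 2) F) = !![1, 1; 0, 1]) :
    (χ 1 = 1 → χ u = 1) ∧ (χ 1 = (Fintype.card F : ℂ) + 1 → χ u = 1) ∧
    (χ 1 = (Fintype.card F : ℂ) - 1 → χ u = -1) ∧ (χ 1 = (Fintype.card F : ℂ) → χ u = 0) := by
  classical
  obtain ⟨w, hw⟩ := exists_not_rt (F := F)
  obtain rfl : u = bm 1 1 1 := Units.ext hu
  refine ⟨fun h => ?_, fun h => ?_, fun h => ?_, fun h => ?_⟩
  · obtain ⟨α, rfl⟩ := deg_one hw hq hχ h
    simp [lin_bm]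
  · obtain ⟨α, β, -, rfl⟩ := deg_succ hw hχ h
    simp [ps_bm, nf]
  · obtain ⟨θ, -, rfl⟩ := deg_pred hw hq hχ h
    simp [cusp_bm hw, nf]
  · obtain ⟨α, rfl⟩ := deg_q hw hχ h
    simp [st_bm, nf]

end Cfsg.Agent.S2310
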