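import Cfsg.Statements.S2313
import Cfsg.Agent.H4.St2

set_option autoImplicit false
open Cfsg

namespace Cfsg.Agent.S2313

open H4 H1 MonoidAlgebra
open scoped Pointwise


/-- In a Chevalley group of type G₂, B₂, D₄, F₄, E₆, E₇ or E₈ over a finite field, the restriction of the Steinberg character to the subgroup B = UH is the permutation character of B on the cosets of the diagonal subgroup H: at b ∈ B its value is the number of cosets xH, x ∈ B, with bxH = xH. -/
theorem result {F : Type*} [Field F] [Fintype F] (D : Cfsg.Lie.ChevalleyDatum) (hD : D ∈ [Cfsg.Lie.chevG2, Cfsg.Lie.chevB2, Cfsg.Lie.chevD4, Cfsg.Lie.chevF4, Cfsg.Lie.chevE6, Cfsg.Lie.chevE7, Cfsg.Lie.chevE8]) (b : ↥((D.borelSubgroup F).subgroupOf (D.group F))) :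
    D.steinbergCharacter F ((((D.borelSubgroup F).subgroupOf (D.group F)).subtype) b) =
      Cfsg.fixedPointCharacter (((D.diagonalSubgroup F).subgroupOf (D.group F)).subgroupOf ((D.borelSubgroup F).subgroupOf (D.group F))) b := by
  classical
  obtain ⟨C⟩ := H6.Chev.cert_of_mem hD
  have := Fintype.ofFinite (D.group F)
  rw [C.st_eq, H4.St.st_B C.gsys_grp (b := Subgroup.subtype _ b) (by rw [C.gsys_B]; exact b.2), Cfsg.fixedPointCharacter,
    ← congrFun (H3.indFun_one_eq_perm _) b, H3.indFun_const_one_apply]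
  revert b
  rw [← C.gsys_B, ← C.gsys_H]
  intro b
  rw [Nat.card_congr (Subgroup.subgroupOfEquivOfLe (C.gsys F).H_le_B).toEquiv]
  congr 2
  exact Nat.card_congr ⟨fun y => ⟨⟨y.1, y.2.1⟩, y.2.2⟩, fun y => ⟨y.1.1, y.1.2, y.2⟩,
    fun _ => rfl, fun _ => rfl⟩

end Cfsg.Agent.S2313
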