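import Cfsg.Statements.S2315
import Cfsg.Agent.H4.St4

set_option autoImplicit false
open Cfsg

namespace Cfsg.Agent.S2315

open H4 H1 MonoidAlgebra
open scoped Pointwise


/-- Steinberg's count of unipotent elements for the general linear group: over a finite field with q elements of characteristic p, the number of elements of GL_n of p-power order (the unipotent matrices) is q^(n(n−1)). -/
theorem result {F : Type*} [Field F] [Fintype F] (p : ℕ) [Fact p.Prime] [CharP F p] (n : ℕ) :
    Nat.card {g : Matrix.GeneralLinearGroup (Fin n) F // ∃ k : ℕ, orderOf g = p ^ k} = Fintype.card F ^ (n * (n - 1)) := by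
  rcases n with _ | l
  · simp only [zero_mul, pow_zero]
    exact Nat.card_eq_one_iff_exists.2 ⟨⟨1, 0, by simp⟩, fun _ => Subsingleton.elim _ _⟩
  have := Fintype.ofFinite (Matrix.SpecialLinearGroup (Fin (l + 1)) F)
  have h1 := St.card_unip p (St.sysSL_top (F := F) l) (St.sysSL_r3 l)
  have h2 : {r | (H6.CA.rsA l).Pos r}.ncard * 2 = (l + 1) * l := by
    have e : {r | (H6.CA.rsA l).Pos r}.ncard = {r | ¬ (H6.CA.rsA l).Pos r}.ncard :=
      Set.ncard_congr (fun r _ => (H6.CA.rsA l).neg r) (fun r h => by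
        simpa [H6.RS.pos_neg_iff] using h) (fun _ _ _ _ => (H6.CA.rsA l).neg_inj)
        fun r h => ⟨(H6.CA.rsA l).neg r, ((H6.CA.rsA l).pos_neg_iff r).2 h, by simp⟩
    have := Set.ncard_add_ncard_compl {r | (H6.CA.rsA l).Pos r}
    rw [mul_two]
    conv_lhs => enter [2]; rw [e]
    refine this.trans ?_
    rw [Nat.card_eq_fintype_card, Fintype.card_subtype,
      show (Finset.univ.filter fun p : Fin (l + 1) × Fin (l + 1) => p.1 ≠ p.2) =
        Finset.univ.offDiag by ext; simp, Finset.offDiag_card]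
    simp [Nat.mul_succ]
  rw [St.card_Up, ← pow_mul, h2, Nat.card_eq_fintype_card (α := F)] at h1
  rw [Nat.add_sub_cancel, ← h1]
  symm
  refine Nat.card_eq_of_bijective (fun g => ⟨Matrix.SpecialLinearGroup.toGL g.1, by
    rw [orderOf_injective _ Matrix.SpecialLinearGroup.toGL_injective]; exact g.2⟩)
    ⟨fun a b e => Subtype.ext (Matrix.SpecialLinearGroup.toGL_injective (Subtype.ext_iff.1 e)),
      fun ⟨g, k, hk⟩ => ?_⟩
  have h3 : Matrix.GeneralLinearGroup.det g = 1 := H6.eq_one_of_pow_card (F := F) p (k := k)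
    (by rw [← map_pow, ← hk, pow_orderOf_eq_one, map_one])
    (by rw [← Nat.card_units]; exact pow_card_eq_one')
  obtain ⟨g', h4⟩ : ∃ g' : Matrix.SpecialLinearGroup (Fin (l + 1)) F,
      Matrix.SpecialLinearGroup.toGL g' = g :=
    ⟨⟨g.1, by simpa using congrArg Units.val h3⟩, Units.ext rfl⟩
  exact ⟨⟨g', k, (orderOf_injective _ Matrix.SpecialLinearGroup.toGL_injective g').symm.trans
    (by rw [h4, hk])⟩, Subtype.ext h4⟩

end Cfsg.Agent.S2315
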