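import Cfsg.Statements.S2317
import Cfsg.Agent.H5.Sim2

set_option autoImplicit false
open Cfsg

namespace Cfsg.Agent.S2317

open H5 Matrix Polynomial

/-- Over a finite field of characteristic p, the conjugacy classes of GL_n consisting of elements of p-power order (the unipotent classes) are as many as the partitions of n. -/
theorem result {F : Type*} [Field F] [Fintype F] (p : ℕ) [Fact p.Prime] [CharP F p] (n : ℕ) :
    Nat.card {C : ConjClasses (Matrix.GeneralLinearGroup (Fin n) F) //
      ∃ g : Matrix.GeneralLinearGroup (Fin n) F, (∃ k : ℕ, orderOf g = p ^ k) ∧ ConjClasses.mk g = C} =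
      Fintype.card (Nat.Partition n) := by
  simp only [and_comm (b := ConjClasses.mk _ = _)]
  rw [card_classes (X := Nat.Partition (Fintype.card (Fin n))) fun g μ => JT (g.1 - 1) μ.parts]
  · simp
  · refine fun g => ⟨fun ⟨k, e⟩ => exists_jt ⟨_, (unip_iff p k).1 (by rw [← e, ← Units.val_pow_eq_pow_val, pow_orderOf_eq_one, Units.val_one])⟩,
      fun ⟨μ, h⟩ => ?_⟩
    obtain ⟨k, -, e⟩ := (Nat.dvd_prime_pow Fact.out).1 (orderOf_dvd_of_pow_eq_one (x := g) (Units.ext ((Units.val_pow_eq_pow_val _ _).trans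
      ((unip_iff p (Fintype.card (Fin n))).2 (pow_eq_zero_of_le (Nat.lt_pow_self (Fact.out : p.Prime).one_lt).le (nil_pow_card h.nil))))))
    exact ⟨k, e⟩
  · intro μ
    obtain ⟨N, h⟩ := exists_of_jt (F := F) _ μ.parts_sum
    exact ⟨h.nil.isUnit_add_one.unit, by simpa using h⟩
  exact fun g g' μ ν h h' => isConj_GL.trans (isConj_sub_one_iff.trans (h.conj_iff h'))


end Cfsg.Agent.S2317
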