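import Cfsg.Statements.S2320
import Cfsg.Agent.H3.G2b

set_option autoImplicit false
open Cfsg

namespace Cfsg.Agent.S2320

open H3 H3.G2 H5

/-- Over a finite field F with q elements, every irreducible complex character of GL₂ of degree q takes a value of absolute value 1 at every diagonal matrix with two different diagonal entries and at every element with no eigenvector in F². -/
theorem result {F : Type*} [Field F] [Fintype F] (χ : Matrix.GeneralLinearGroup (Fin 2) F → ℂ) (hχ : Cfsg.IsIrrCharacter (Matrix.GeneralLinearGroup (Fin 2) F) χ) (hdeg : χ 1 = (Fintype.card F : ℂ)) (g : Matrix.GeneralLinearGroup (Fin 2) F) :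
    ((g : Matrix (Fin 2) (Fin 2) F) 0 1 = 0 → (g : Matrix (Fin 2) (Fin 2) F) 1 0 = 0 → (g : Matrix (Fin 2) (Fin 2) F) 0 0 ≠ (g : Matrix (Fin 2) (Fin 2) F) 1 1 → ‖χ g‖ = 1) ∧
    ((∀ (c : F) (v : Fin 2 → F), v ≠ 0 → (g : Matrix (Fin 2) (Fin 2) F).mulVec v ≠ c • v) → ‖χ g‖ = 1) := by
  classical
  obtain ⟨w, hw⟩ := exists_not_rt (F := F)
  obtain ⟨α, rfl⟩ := deg_q hw hχ hdeg
  have n : ∀ a : Fˣ, ‖α a‖ = 1 := fun a => by simpa using norm_hom α.toUnitHom a
  refine ⟨fun h1 h2 h3 => ?_, fun h1 => ?_⟩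
  · obtain ⟨a, d, x, rfl⟩ := exists_bm h2
    have h4 : a ≠ d := fun e => h3 (congrArg Units.val e)
    simp [st_bm, nf, h4, n]
  · rw [st_not_rt _ (not_rt h1), norm_neg]
    exact n (Matrix.GeneralLinearGroup.det g)

end Cfsg.Agent.S2320
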