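import Cfsg.Statements.S2322
import Cfsg.Agent.H3.G2d

set_option autoImplicit false
open Cfsg

namespace Cfsg.Agent.S2322

open H3 H3.G2 H5

/-- Over a finite field F with q elements, q odd: every irreducible complex character of SL₂ of degree q − 1 or (q − 1)/2 vanishes at every diagonal matrix whose diagonal entry a has a² ≠ 1, and every irreducible complex character of degree q + 1 or (q + 1)/2 vanishes at every element with no eigenvector in F². -/
theorem result {F : Type*} [Field F] [Fintype F] (hodd : Odd (Fintype.card F)) (χ : Matrix.SpecialLinearGroup (Fin 2) F → ℂ) (hχ : Cfsg.IsIrrCharacter (Matrix.SpecialLinearGroup (Fin 2) F) χ) (g : Matrix.SpecialLinearGroup (Fin 2) F) :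
    ((χ 1 = (Fintype.card F : ℂ) - 1 ∨ χ 1 = (((Fintype.card F - 1) / 2 : ℕ) : ℂ)) →
      (g : Matrix (Fin 2) (Fin 2) F) 0 1 = 0 → (g : Matrix (Fin 2) (Fin 2) F) 1 0 = 0 → (g : Matrix (Fin 2) (Fin 2) F) 0 0 ^ 2 ≠ 1 → χ g = 0) ∧
    ((χ 1 = (Fintype.card F : ℂ) + 1 ∨ χ 1 = (((Fintype.card F + 1) / 2 : ℕ) : ℂ)) →
      (∀ (c : F) (v : Fin 2 → F), v ≠ 0 → (g : Matrix (Fin 2) (Fin 2) F).mulVec v ≠ c • v) → χ g = 0) := by
  classical
  rw [cast_hs hodd, cast_hp hodd]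
  refine ⟨fun h h1 h2 h3 => ?_, fun h h1 => ?_⟩
  · obtain ⟨w, hw⟩ := exists_not_rt (F := F)
    obtain ⟨a, x, e, e1, e2, e3⟩ := exists_bmS h2
    have h4 := ne_inv_of_sq (e1 ▸ h3)
    rcases h with h | h
    · obtain ⟨η, -, rfl⟩ := sdeg_pred hw hχ (five_le h4) h
      simp [cs, res, e, cusp_bm hw, nf, h4]
    · obtain ⟨η, χ', -, -, h⟩ := sdeg_hp hw hχ (five_le h4) h
      simp [h.ss (tr_ne_four e h4), e, cusp_bm hw, nf, h4]
  · have hw : ¬ Rt (toG g).1 := not_rt h1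
    rcases h with h | h
    · obtain ⟨α, -, rfl⟩ := sdeg_succ hw hχ h
      exact ps_not_rt _ _ hw
    · rcases sdeg_hs' hw hχ h with ⟨χ', h⟩ | ⟨h3, η, hη, rfl⟩
      · rw [h.ss (tr_ne_four' hw), ps_not_rt _ _ hw, zero_div]
      · have := ne_one_of_not_rt hw
        have h4 : g ∈ T1 (toG g) := Subgroup.mem_centralizer_singleton_iff.2 rfl
        rw [cs_T hw η ⟨g, h4⟩ this, cs_three hw h3 hη ⟨g, h4⟩ this, neg_zero]

end Cfsg.Agent.S2322
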