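import Cfsg.Statements.S2324
import Cfsg.Agent.H3.G2d

set_option autoImplicit false
open Cfsg

namespace Cfsg.Agent.S2324

open H3 H3.G2 H5

/-- Over a finite field F with q elements, q odd and q ≥ 5, let u be the upper unitriangular matrix of SL₂ with off-diagonal entry 1 and let δ = (−1)^((q−1)/2). Every irreducible complex character χ of SL₂ of degree (q + 1)/2 satisfies (2χ(u) − 1)² = δq, and every irreducible complex character χ of degree (q − 1)/2 satisfies (2χ(u) + 1)² = δq; that is, χ(u) = (1 ± √(δq))/2 in the first case and χ(u) = (−1 ± √(δq))/2 in the second. Moreover two different irreducible characters of degree (q + 1)/2 take the two different values (their values at u add up to 1), and likewise for degree (q − 1)/2 (values adding up to −1). -/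
theorem result {F : Type*} [Field F] [Fintype F] (hodd : Odd (Fintype.card F)) (hq : 5 ≤ Fintype.card F)
    (u : Matrix.SpecialLinearGroup (Fin 2) F) (hu : (u : Matrix (Fin 2) (Fin 2) F) = !![1, 1; 0, 1]) :
    (∀ χ : Matrix.SpecialLinearGroup (Fin 2) F → ℂ, Cfsg.IsIrrCharacter (Matrix.SpecialLinearGroup (Fin 2) F) χ → χ 1 = (((Fintype.card F + 1) / 2 : ℕ) : ℂ) → (2 * χ u - 1) ^ 2 = (-1 : ℂ) ^ ((Fintype.card F - 1) / 2) * (Fintype.card F : ℂ)) ∧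
    (∀ χ : Matrix.SpecialLinearGroup (Fin 2) F → ℂ, Cfsg.IsIrrCharacter (Matrix.SpecialLinearGroup (Fin 2) F) χ → χ 1 = (((Fintype.card F - 1) / 2 : ℕ) : ℂ) → (2 * χ u + 1) ^ 2 = (-1 : ℂ) ^ ((Fintype.card F - 1) / 2) * (Fintype.card F : ℂ)) ∧
    (∀ χ₁ χ₂ : Matrix.SpecialLinearGroup (Fin 2) F → ℂ, Cfsg.IsIrrCharacter (Matrix.SpecialLinearGroup (Fin 2) F) χ₁ → Cfsg.IsIrrCharacter (Matrix.SpecialLinearGroup (Fin 2) F) χ₂ → χ₁ ≠ χ₂ →
      χ₁ 1 = (((Fintype.card F + 1) / 2 : ℕ) : ℂ) → χ₂ 1 = (((Fintype.card F + 1) / 2 : ℕ) : ℂ) → χ₁ u + χ₂ u = 1) ∧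
    (∀ χ₁ χ₂ : Matrix.SpecialLinearGroup (Fin 2) F → ℂ, Cfsg.IsIrrCharacter (Matrix.SpecialLinearGroup (Fin 2) F) χ₁ → Cfsg.IsIrrCharacter (Matrix.SpecialLinearGroup (Fin 2) F) χ₂ → χ₁ ≠ χ₂ →
      χ₁ 1 = (((Fintype.card F - 1) / 2 : ℕ) : ℂ) → χ₂ 1 = (((Fintype.card F - 1) / 2 : ℕ) : ℂ) → χ₁ u + χ₂ u = -1) := by
  classical
  obtain ⟨w, hw⟩ := exists_not_rt (F := F)
  obtain rfl : u = up 1 := Subtype.ext hu
  have hq' : 4 ≤ Fintype.card F := by omega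
  have := isCyclic_T1 hw
  rw [cast_hs hodd, cast_hp hodd]
  refine ⟨fun χ hχ h => ?_, fun χ hχ h => ?_, fun χ ψ hχ hψ hn h h' => ?_, fun χ ψ hχ hψ hn h h' => ?_⟩
  · obtain ⟨χ', h⟩ := sdeg_hs hw hχ hq' h
    exact h.gauss (ps_up _ _) (ps_one _ _)
  · obtain ⟨η, χ', -, -, h⟩ := sdeg_hp hw hχ hq' h
    simpa using h.gauss (cusp_up hw _) (cusp_one hw _)
  · obtain ⟨χ', h⟩ := sdeg_hs hw hχ hq' h
    obtain ⟨ψ', h'⟩ := sdeg_hs hw hψ hq' h'
    obtain rfl := (h.uniq h').resolve_left hn.symm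
    rw [h.add, toG_up, ps_up _ _ 1 one_ne_zero]
  · obtain ⟨η, χ', e1, e2, h⟩ := sdeg_hp hw hχ hq' h
    obtain ⟨η', ψ', e3, e4, h'⟩ := sdeg_hp hw hψ hq' h'
    obtain rfl := hom_two_uniq (T1_even hw hodd) e1 e2 e3 e4
    obtain rfl := (h.uniq h').resolve_left hn.symm
    rw [h.add, toG_up, cusp_up hw _ 1 one_ne_zero]

end Cfsg.Agent.S2324
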