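import Cfsg.Statements.S2325
import Cfsg.Agent.H5.SL2Cl

set_option autoImplicit false
open Cfsg

namespace Cfsg.Agent.S2325

open H5

/-- Over a finite field with q elements, q odd, the special linear group SL₂ has exactly q + 4 conjugacy classes. -/
theorem result {F : Type*} [Field F] [Fintype F] (hodd : Odd (Fintype.card F)) :
    Nat.card (ConjClasses (Matrix.SpecialLinearGroup (Fin 2) F)) = Fintype.card F + 4 := by
  classical
  have h2 := two_ne_of_odd hodd
  have h4 : (2 : F) ≠ -2 := fun e => h2 ((mul_self_eq_zero (a := (2 : F))).1 (by linear_combination e))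
  obtain ⟨v, hv⟩ := FiniteField.exists_nonsquare (F := F) fun e => h2 (by simpa [e] using ringChar.Nat.cast_ringChar (R := F))
  have hv0 : v ≠ 0 := by rintro rfl; exact hv IsSquare.zero
  let b : Fin 3 → F := ![0, 1, v]
  have hb : ∀ i j, IsConj (up (b i)) (up (b j)) → i = j := fun i j h => by
    obtain ⟨x, hx, e⟩ := isConj_up.1 h
    fin_cases i <;> fin_cases j <;> simp [b, hx, hv0] at e ⊢
    · exact hx (pow_eq_zero_iff two_ne_zero |>.1 e.symm)
    · exact hv ⟨x, e.trans (sq x)⟩
    · exact hv ⟨x⁻¹, by field_simp; linear_combination -e⟩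
  have hb' : ∀ g : SL2 F, g.1.trace = 2 → ∃ i, IsConj g (up (b i)) := fun g hg => by
    obtain ⟨c, h⟩ := exists_conj_up_of_trace hg
    by_cases hc : c = 0
    · subst hc; exact ⟨0, h⟩
    by_cases hs : IsSquare c
    · exact ⟨1, h.trans ((isConj_up_iff hc one_ne_zero).2 (by simpa))⟩
    · exact ⟨2, h.trans ((isConj_up_iff hc hv0).2 (isSquare_mul_of_not hs hv))⟩
  rw [card_conjClasses_of_reps (X := {t : F // ¬ (t = 2 ∨ t = -2)} ⊕ Fin 3 ⊕ Fin 3)
    (Sum.elim (fun t => sl2 0 (-1) 1 t.1 (by simp)) (Sum.elim (fun i => up (b i)) fun i => -up (b i)))]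
  · have := Fintype.one_lt_card (α := F)
    simp only [Nat.card_eq_fintype_card, Fintype.card_sum, Fintype.card_subtype_compl, Fintype.card_fin,
      Fintype.card_subtype_eq_or_eq_of_ne h4]
    omega
  · intro g
    by_cases h : g.1.trace = 2
    · obtain ⟨i, hi⟩ := hb' g h
      exact ⟨.inr (.inl i), hi⟩
    by_cases h' : g.1.trace = -2
    · obtain ⟨i, hi⟩ := hb' (-g) (by rw [trace_neg_SL, h', neg_neg])
      exact ⟨.inr (.inr i), by simpa using isConj_neg_iff.2 hi⟩
    · exact ⟨.inl ⟨_, not_or.2 ⟨h, h'⟩⟩, isConj_of_trace (by simp) fun e => (not_or.2 ⟨h, h'⟩)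
        (sq_eq_sq_iff_eq_or_eq_neg.1 (e.trans (by norm_num)))⟩
  · rintro (⟨t, ht⟩ | i | i) (⟨s, hs⟩ | j | j) h <;> have h3 := IsConj.trace_eq h <;>
      simp only [Sum.elim_inl, Sum.elim_inr, trace_neg_SL, trace_up] at h h3
    · simpa using h3
    · exact (ht (Or.inl (by simpa using h3))).elim
    · exact (ht (Or.inr (by simpa using h3))).elim
    · exact (hs (Or.inl (by simpa using h3.symm))).elim
    · rw [hb i j h]
    · exact (h4 h3).elim
    · exact (hs (Or.inr (by simpa using h3.symm))).elim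
    · exact (h4 h3.symm).elim
    · rw [hb i j (isConj_neg_iff.1 h)]


end Cfsg.Agent.S2325
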