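import Cfsg.Statements.S2327
import Cfsg.Agent.H4.St2

set_option autoImplicit false
open Cfsg

namespace Cfsg.Agent.S2327

open H4 H1 MonoidAlgebra
open scoped Pointwise


/-- In a Chevalley group of type G₂, B₂, D₄, F₄, E₆, E₇ or E₈ over a finite field with q elements, the Steinberg character (the alternating sum of the permutation characters on the standard parabolic subgroups) has degree q^N, N the number of positive roots; this is the order of U and the largest power of the characteristic dividing the group order. -/
theorem result {F : Type*} [Field F] [Fintype F] (D : Cfsg.Lie.ChevalleyDatum) (hD : D ∈ [Cfsg.Lie.chevG2, Cfsg.Lie.chevB2, Cfsg.Lie.chevD4, Cfsg.Lie.chevF4, Cfsg.Lie.chevE6, Cfsg.Lie.chevE7, Cfsg.Lie.chevE8]) :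
    D.steinbergCharacter F 1 = (Fintype.card F : ℂ) ^ (D.nroots / 2) := by
  obtain ⟨C⟩ := H6.Chev.cert_of_mem hD
  have := Fintype.ofFinite (D.group F)
  rw [C.st_eq, H4.St.st_one C.gsys_grp, C.card_gUp, Nat.cast_pow]

end Cfsg.Agent.S2327
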