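import Cfsg.Statements.S2329
import Cfsg.Agent.H5.SL2

set_option autoImplicit false
open Cfsg

namespace Cfsg.Agent.S2329

open H5

/-- Over a finite field of characteristic p, any two elements of order p of GL₂ are conjugate: there is a single conjugacy class of non-identity unipotent elements. -/
theorem result {F : Type*} [Field F] [Fintype F] (p : ℕ) [Fact p.Prime] [CharP F p] (g h : Matrix.GeneralLinearGroup (Fin 2) F)
    (hg : orderOf g = p) (hh : orderOf h = p) : IsConj g h := by
  have k : ∀ g : GL2 F, orderOf g = p → IsConj (gl2 1 1 0 1 (by simp)) g := fun g hg => by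
    obtain ⟨x, hx⟩ := exists_UG_of_pow p (g := g) (n := 1) (by rw [pow_one, ← hg, pow_orderOf_eq_one])
    obtain ⟨_, ⟨b, rfl⟩, rfl⟩ := hx
    have hb : b ≠ 0 := by
      rintro rfl
      simp [← one_eq_gl2] at hg
      exact (Fact.out : p.Prime).ne_one hg.symm
    refine IsConj.trans ?_ (isConj_iff.2 ⟨_, rfl⟩)
    refine isConj_iff.2 ⟨gl2 b 0 0 1 (by simpa using hb), ?_⟩
    rw [mul_inv_eq_iff_eq_mul]
    simp [gl2_mul, gl2_eq_iff]
  exact (k g hg).symm.trans (k h hh)


end Cfsg.Agent.S2329
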