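import Cfsg.Statements.S2330
import Cfsg.Agent.H5.SL2Cl

set_option autoImplicit false
open Cfsg

namespace Cfsg.Agent.S2330

open H5

/-- Over a finite field with q elements, the general linear group GL₂ has exactly q² − 1 conjugacy classes. -/
theorem result {F : Type*} [Field F] [Fintype F] :
    Nat.card (ConjClasses (Matrix.GeneralLinearGroup (Fin 2) F)) = Fintype.card F ^ 2 - 1 := by
  have hc : ∀ (a : Fˣ) (g : GL2 F), IsConj (gl2 a.1 0 0 a (by simp)) g → gl2 a.1 0 0 a (by simp) = g := fun a g h => by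
    obtain ⟨c, rfl⟩ := isConj_iff.1 h
    obtain ⟨x, y, z, w, h, rfl⟩ := exists_gl2 c
    rw [eq_mul_inv_iff_mul_eq, gl2_mul, gl2_mul, gl2_eq_iff]
    simp [mul_comm]
  rw [card_conjClasses_of_reps (X := Fˣ ⊕ F × Fˣ)
    (Sum.elim (fun a => gl2 a.1 0 0 a (by simp)) fun p => gl2 0 (-p.2.1) 1 p.1 (by simp))]
  · have := Fintype.card_pos (α := F)
    rw [Nat.card_sum, Nat.card_prod, Nat.card_units, Nat.card_eq_fintype_card, ← one_pow 2, Nat.sq_sub_sq]
    generalize Fintype.card F - 1 = m
    ring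
  · intro g
    by_cases h : mkG g = 1
    · obtain ⟨a, b, c, d, e, rfl⟩ := exists_gl2 g
      obtain ⟨rfl, rfl, rfl⟩ := pg_eq_one_iff.1 h
      exact ⟨.inl (Units.mk0 a (by simpa using e)), IsConj.refl _⟩
    · exact ⟨.inr (g.1.trace, Units.mk0 _ g.det_ne_zero), (isConj_iff.2 (exists_conj_companion h)).symm⟩
  · rintro (a | ⟨t, d⟩) (b | ⟨s, e⟩) h
    · have := hc _ _ h
      exact congrArg _ (Units.ext (congrArg (·.1 0 0) this))
    · have := hc _ _ h
      simpa using congrArg (·.1 1 0) this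
    · have := hc _ _ h.symm
      simpa using congrArg (·.1 1 0) this
    · obtain ⟨c, hc⟩ := isConj_iff.1 h
      have h1 := Matrix.trace_units_conj c (gl2 0 (-d.1) 1 t (by simp)).1
      have h2 := Matrix.det_units_conj c (gl2 0 (-d.1) 1 t (by simp)).1
      rw [← Units.val_mul, ← Units.val_mul] at h1 h2
      simp only [Sum.elim_inr] at hc
      rw [hc] at h1 h2
      simp at h1 h2
      rw [h1, Units.ext h2]


end Cfsg.Agent.S2330
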