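import Cfsg.Statements.S2331
import Cfsg.Agent.H5.SL2Cl

set_option autoImplicit false
open Cfsg

namespace Cfsg.Agent.S2331

open H5

/-- Over a finite field with q elements, q even, the special linear group SL₂ has exactly q + 1 conjugacy classes. -/
theorem result {F : Type*} [Field F] [Fintype F] [CharP F 2] :
    Nat.card (ConjClasses (Matrix.SpecialLinearGroup (Fin 2) F)) = Fintype.card F + 1 := by
  have h2 : (2 : F) = 0 := CharP.cast_eq_zero F 2
  have hs : ∀ a : F, IsSquare a := FiniteField.isSquare_of_char_two (ringChar.eq F 2)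
  have h1 : ∀ t : F, sl2 0 (-1) 1 t (by simp) ≠ 1 := fun t => by rw [one_eq_sl2, ne_eq, sl2_eq_iff]; simp
  rw [card_conjClasses_of_reps (X := Option F) (fun o => o.elim 1 fun t => sl2 0 (-1) 1 t (by simp))]
  · simp
  · intro g
    by_cases h : g = 1
    · exact ⟨none, h ▸ IsConj.refl _⟩
    · exact ⟨some g.1.trace, isConj_of_trace_sq hs (by rwa [ne_eq, map_eq_one_iff _ (mkS_inj h2)])
        (by rw [ne_eq, map_eq_one_iff _ (mkS_inj h2)]; exact h1 _) (by simp)⟩
  · rintro (_ | t) (_ | s) h
    · rfl
    · exact (h1 _ (isConj_one_right.1 h)).elim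
    · exact (h1 _ (isConj_one_left.1 h)).elim
    · simpa using IsConj.trace_eq h


end Cfsg.Agent.S2331
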