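import Cfsg.Statements.S2363
import Cfsg.Agent.H2.LieOrd
import Cfsg.Agent.S0243
import Cfsg.Agent.S0245
import Cfsg.Agent.S0246
import Cfsg.Agent.S0280
import Cfsg.Agent.S0292
import Cfsg.Agent.S0293
import Cfsg.Agent.S0294
import Cfsg.Agent.S1059
import Cfsg.Agent.S1062
import Cfsg.Agent.S1063
import Cfsg.Agent.S1064
import Cfsg.Agent.S1065
import Cfsg.Agent.S1066
import Cfsg.Agent.S1067
import Cfsg.Agent.S1068
import Cfsg.Agent.S1069
import Cfsg.Agent.H6.Suz2

set_option autoImplicit false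
open Cfsg

namespace Cfsg.Agent.S2363

open H2L

theorem m2 {a b c d : ℕ} (h1 : a < b) (h2 : c ≤ d) (h : 0 < d) : a * c < b * d :=
  Nat.mul_lt_mul_of_lt_of_le h1 h2 h

theorem pm {q a e f : ℕ} (hq : 2 ≤ q) (h : a < q ^ e) : a * (q ^ f - 1) < q ^ (e + f) := by
  rw [pow_add]; exact m2 h (sub_lt hq f).le (pow_pos (by omega) f)

theorem pp {q a e f : ℕ} (hq : 2 ≤ q) (h : a < q ^ e) : a * (q ^ f + 1) < q ^ (e + (f + 1)) := by
  rw [pow_add]; exact m2 h (add_le hq f) (pow_pos (by omega) _)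

theorem cg {q e : ℕ} (hq : 2 ≤ q) (he : e ≠ 0) (a : ℕ) : (Nat.gcd a (q ^ e - 1)).Coprime q :=
  (cop_sub hq he).coprime_dvd_left (Nat.gcd_dvd_right _ _)

theorem cg' {q e : ℕ} (he : e ≠ 0) (a : ℕ) : (Nat.gcd a (q ^ e + 1)).Coprime q :=
  (cop_add he).coprime_dvd_left (Nat.gcd_dvd_right _ _)

theorem psl {F : Type} [Field F] [Fintype F] (n : ℕ) : ∃ R,
    Nat.gcd (n + 2) (Fintype.card F - 1) * Nat.card (Matrix.ProjectiveSpecialLinearGroup (Fin (n + 2)) F) =
      Fintype.card F ^ tri (n + 2) * R ∧ R < Fintype.card F ^ (tri (n + 2) + n + 1) ∧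
      R.Coprime (Fintype.card F) := by
  have hq := Fintype.one_lt_card (α := F)
  obtain ⟨R, h1, h2, h3⟩ := prod_sl hq n
  refine ⟨R, ?_, h2, h3⟩
  have := Cfsg.Agent.S0243.result (F := F) rfl (n + 2) (by omega)
  rw [prod_gl, h1] at this
  refine Nat.eq_of_mul_eq_mul_left (show 0 < Fintype.card F - 1 by omega) ?_
  rw [mul_left_comm, this]; ring

theorem main {G : Type*} [Group G] [Finite G] (p : ℕ) (hp : p.Prime) (hG : Cfsg.IsLieTypeChar p G) :
    (Nat.card G < p ^ (3 * (Nat.card G).factorization p) ∧ ∃ (F : Type) (_ : Field F) (_ : Fintype F), Fintype.card F = p ^ (Nat.card G).factorization p ∧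
          Nonempty (G ≃* Matrix.ProjectiveSpecialLinearGroup (Fin 2) F)) ∨ Gd p (Nat.card G) := by
  have h0 : Nat.card G ≠ 0 := Nat.card_pos.ne'
  rcases hG with ⟨F, _, _, _, n, hn, -, ⟨e⟩⟩ | ⟨F, _, _, _, m, hm, -, ⟨e⟩⟩ | ⟨F, _, _, _, n, q, hF, hn, -, ⟨e⟩⟩ |
    ⟨F, _, _, _, m, hm, ho, ⟨e⟩⟩ | ⟨F, _, _, _, m, hm, ⟨e⟩⟩ | ⟨F, _, _, _, m, a, b, hm, hab, ⟨e⟩⟩ |
    ⟨F, _, _, _, h⟩ | ⟨F, _, _, _, q, hq', h⟩ | ⟨rfl, F, _, _, m, hm, hF, ⟨e⟩⟩ |
    ⟨rfl, F, _, _, m, hm, hF, ⟨e⟩⟩ | ⟨rfl, F, _, _, m, hm, hF, ⟨e⟩⟩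
  · obtain ⟨hf, hq⟩ := char_pow (p := p) one_ne_zero (pow_one (Fintype.card F)).symm
    obtain ⟨n, rfl⟩ := Nat.exists_eq_add_of_le' hn
    obtain ⟨R, h1, h2, h3⟩ := psl (F := F) n
    rw [← Nat.card_congr e.toEquiv] at h1
    have hc := cg hq one_ne_zero (n + 2)
    rw [pow_one] at hc
    have hd : Nat.gcd (n + 2) (Fintype.card F - 1) ≠ 0 := by simp
    rcases n with _ | n
    · left
      obtain ⟨f, hf⟩ := hf
      simp only [tri, zero_add, pow_one] at h1 h2
      have hf0 : f ≠ 0 := by rintro rfl; simp at hf; omega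
      have h4 : (Nat.card G).factorization p = f := by
        have hR : R ≠ 0 := by rintro rfl; simp [h0] at h1
        have := congrArg (fun x => x.factorization p) h1
        rw [hf] at hc h3
        simp only [Nat.factorization_mul hd h0, Nat.factorization_mul (by omega : Fintype.card F ≠ 0) hR,
          Finsupp.add_apply] at this
        rw [hf, Nat.factorization_eq_zero_of_not_dvd (hp.coprime_iff_not_dvd.1
          ((Nat.coprime_pow_right_iff (Nat.pos_of_ne_zero hf0) _ _).1 hc).symm),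
          Nat.factorization_eq_zero_of_not_dvd (hp.coprime_iff_not_dvd.1
          ((Nat.coprime_pow_right_iff (Nat.pos_of_ne_zero hf0) _ _).1 h3).symm), hp.factorization_pow] at this
        simpa using this
      refine ⟨?_, F, _, _, by rw [h4, hf], ⟨e⟩⟩
      rw [h4, mul_comm, pow_mul, ← hf]
      calc Nat.card G ≤ _ := Nat.le_mul_of_pos_left _ (Nat.pos_of_ne_zero hd)
        _ = _ := h1
        _ < _ := by rw [pow_succ' _ 2]; exact Nat.mul_lt_mul_of_pos_left h2 (by omega)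
    · refine Or.inr (gd_of hp hf h0 h1 hc hd h2 ?_)
      have := two_tri (n + 1 + 2)
      nlinarith
  · obtain ⟨hf, hq⟩ := char_pow (p := p) one_ne_zero (pow_one (Fintype.card F)).symm
    have h1 := Cfsg.Agent.S0245.result (F := F) rfl m
    rw [Subgroup.card_eq_card_quotient_mul_card_subgroup (Subgroup.center _),
      Cfsg.Agent.S0246.result (F := F) rfl m (by omega), ← Nat.card_congr e.toEquiv, mul_comm] at h1
    have hc := cg hq one_ne_zero 2
    rw [pow_one] at hc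
    exact Or.inr (gd_of hp hf h0 h1 hc (by simp) (prod_sp_lt hq (by omega)) (by nlinarith))
  · obtain ⟨hf, hq⟩ := char_pow (p := p) two_ne_zero hF
    have h1 := Cfsg.Agent.S0280.result hF n (by omega)
    obtain ⟨n, rfl⟩ := Nat.exists_eq_add_of_le' hn
    obtain ⟨R, h2, h3⟩ := prod_su hq (n + 1)
    rw [h2, tri_eq, ← Nat.card_congr e.toEquiv] at h1
    have h4 : Nat.gcd (n + 3) (q + 1) * Nat.card G = q ^ tri (n + 3) * R := by
      refine Nat.eq_of_mul_eq_mul_left (show 0 < q + 1 by omega) ?_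
      rw [mul_left_comm, h1]; ring
    have hc := cg' (q := q) one_ne_zero (n + 3)
    rw [pow_one] at hc
    refine Or.inr (gd_of hp hf h0 h4 hc (by simp) h3 ?_)
    have := two_tri (n + 3)
    change 3 * (tri (n + 3) + (n + 1) + 1) ≤ _
    nlinarith
  · obtain ⟨hf, hq⟩ := char_pow (p := p) one_ne_zero (pow_one (Fintype.card F)).symm
    have h1 := Cfsg.Agent.S0292.result (F := F) rfl ho m hm
    rw [← Nat.card_congr e.toEquiv] at h1
    exact Or.inr (gd_of hp hf h0 h1 (Nat.coprime_two_left.2 ho) (by simp) (prod_sp_lt hq (by omega))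
      (by nlinarith))
  · obtain ⟨hf, hq⟩ := char_pow (p := p) one_ne_zero (pow_one (Fintype.card F)).symm
    have h1 := Cfsg.Agent.S0293.result (F := F) rfl m hm
    rw [← Nat.card_congr e.toEquiv, mul_assoc, mul_comm (_ - 1)] at h1
    refine Or.inr (gd_of hp hf h0 h1 (cg hq (by omega) _) (by simp) (pm hq (prod_sp_lt hq (by omega))) ?_)
    obtain ⟨m, rfl⟩ := Nat.exists_eq_add_of_le' hm
    simp only [show m + 4 - 1 = m + 3 from rfl]
    nlinarith
  · obtain ⟨hf, hq⟩ := char_pow (p := p) one_ne_zero (pow_one (Fintype.card F)).symm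
    have h1 := Cfsg.Agent.S0294.result (F := F) rfl m hm a b hab
    rw [← Nat.card_congr e.toEquiv, mul_assoc, mul_comm (_ + 1)] at h1
    refine Or.inr (gd_of hp hf h0 h1 (cg' (by omega) _) (by simp) (pp hq (prod_sp_lt hq (by omega))) ?_)
    obtain ⟨m, rfl⟩ := Nat.exists_eq_add_of_le' hm
    simp only [show m + 4 - 1 = m + 3 from rfl]
    nlinarith
  · obtain ⟨hf, hq⟩ := char_pow (p := p) one_ne_zero (pow_one (Fintype.card F)).symm
    have c3 := cg hq one_ne_zero 3
    have c2 := cg hq one_ne_zero 2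
    rw [pow_one] at c3 c2
    right
    rcases h with ⟨-, ⟨e⟩⟩ | ⟨⟨e⟩⟩ | ⟨⟨e⟩⟩ | ⟨⟨e⟩⟩ | ⟨⟨e⟩⟩
    · have h1 := Cfsg.Agent.S1059.result (F := F) rfl
      rw [← Nat.card_congr e.toEquiv] at h1
      exact gd_of (d := 1) (N := 6) hp hf h0 (by rw [h1]; ring) (by simp) (by simp)
        (pm (f := 6) hq (sub_lt hq 2)) (by norm_num)
    · have h1 := Cfsg.Agent.S1062.result (F := F) rfl
      rw [← Nat.card_congr e.toEquiv] at h1
      exact gd_of (d := 1) (N := 24) hp hf h0 (by rw [h1]; ring) (by simp) (by simp)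
        (pm (f := 12) hq (pm (f := 8) hq (pm (f := 6) hq (sub_lt hq 2)))) (by norm_num)
    · have h1 := Cfsg.Agent.S1063.result (F := F) rfl
      rw [← Nat.card_congr e.toEquiv] at h1
      exact gd_of (N := 36) hp hf h0 (by rw [h1]; ring) c3 (by simp)
        (pm (f := 12) hq (pm (f := 9) hq (pm (f := 8) hq (pm (f := 6) hq (pm (f := 5) hq (sub_lt hq 2))))))
        (by norm_num)
    · have h1 := Cfsg.Agent.S1064.result (F := F) rfl
      rw [← Nat.card_congr e.toEquiv] at h1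
      exact gd_of (N := 63) hp hf h0 (by rw [h1]; ring) c2 (by simp)
        (pm (f := 18) hq (pm (f := 14) hq (pm (f := 12) hq (pm (f := 10) hq (pm (f := 8) hq
          (pm (f := 6) hq (sub_lt hq 2))))))) (by norm_num)
    · have h1 := Cfsg.Agent.S1065.result (F := F) rfl
      rw [← Nat.card_congr e.toEquiv] at h1
      exact gd_of (d := 1) (N := 120) hp hf h0 (by rw [h1]; ring) (by simp) (by simp)
        (pm (f := 30) hq (pm (f := 24) hq (pm (f := 20) hq (pm (f := 18) hq (pm (f := 14) hq (pm (f := 12) hq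
          (pm (f := 8) hq (sub_lt hq 2)))))))) (by norm_num)
  · right
    rcases h with ⟨hF, ⟨e⟩⟩ | ⟨hF, ⟨e⟩⟩
    · obtain ⟨hf, hq⟩ := char_pow (p := p) two_ne_zero hF
      have h1 := Cfsg.Agent.S1066.result hq' hF
      rw [← Nat.card_congr e.toEquiv] at h1
      have c3 := cg' (q := q) one_ne_zero 3
      rw [pow_one] at c3
      exact gd_of (N := 36) hp hf h0 (by rw [h1]; ring) c3 (by simp)
        (pm (f := 12) hq (pp (f := 9) hq (pm (f := 8) hq (pm (f := 6) hq (pp (f := 5) hq (sub_lt hq 2))))))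
        (by norm_num)
    · obtain ⟨hf, hq⟩ := char_pow (p := p) three_ne_zero hF
      have h1 := Cfsg.Agent.S1067.result hq' hF
      rw [← Nat.card_congr e.toEquiv] at h1
      have h2 : q ^ 8 + q ^ 4 + 1 ≤ q ^ 10 := by
        have h3 : q ^ 4 ≤ q ^ 8 := Nat.pow_le_pow_right (by omega) (by omega)
        have h4 : 1 ≤ q ^ 8 := Nat.one_le_pow _ _ (by omega)
        have h5 : 2 ^ 2 ≤ q ^ 2 := Nat.pow_le_pow_left hq 2
        rw [show q ^ 10 = q ^ 8 * q ^ 2 by ring]
        nlinarith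
      exact gd_of (d := 1) (N := 12) (E := 2 + 6 + 10) (R := (q ^ 2 - 1) * (q ^ 6 - 1) * (q ^ 8 + q ^ 4 + 1)) hp hf h0 (by rw [h1]; ring) (by simp) (by simp)
        (by rw [pow_add _ _ 10]; exact m2 (pm (f := 6) hq (sub_lt hq 2)) h2 (by positivity)) (by norm_num)
  · have h1 := (H6.Suz.Par.lie ⟨m, hm, hF⟩).card_eq
    have hq : 2 ≤ 2 ^ (2 * m + 1) := hF ▸ Fintype.one_lt_card
    rw [← Nat.card_congr e.toEquiv] at h1
    have h2 := pair_lt hq 1
    exact Or.inr (gd_of (d := 1) (N := 2) hp ⟨_, rfl⟩ h0 (by rw [h1, pow_one, one_mul, mul_assoc]) (by simp) (by simp) h2 (by norm_num))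
  · have h1 := Cfsg.Agent.S1068.result hF
    have hq : 2 ≤ 2 ^ (2 * m + 1) := hF ▸ Fintype.one_lt_card
    rw [← Nat.card_congr e.toEquiv] at h1
    exact Or.inr (gd_of (d := 1) (N := 12) hp ⟨_, rfl⟩ h0 (by rw [h1, pow_one, one_mul]; simp only [mul_assoc]) (by simp) (by simp)
      (pp (f := 6) hq (pm (f := 4) hq (pp (f := 3) hq (sub_lt hq 1)))) (by norm_num))
  · have h1 := Cfsg.Agent.S1069.result hF
    have hq : 2 ≤ 3 ^ (2 * m + 1) := hF ▸ Fintype.one_lt_card
    rw [← Nat.card_congr e.toEquiv] at h1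
    exact Or.inr (gd_of (d := 1) (N := 3) hp ⟨_, rfl⟩ h0 (by rw [h1, pow_one, one_mul, mul_assoc]) (by simp) (by simp)
      (pp (f := 3) hq (sub_lt hq 1)) (by norm_num))

/-- Let G be a finite simple group of Lie type in characteristic p and let p^k be the exact power of p dividing the order of G. Then the order of G is less than p^(3k); and unless G is isomorphic to PSL(2, F) for the field F with p^k elements, the cube of the order of G is less than p^(8k) (that is, the order is below p^(8k/3)). -/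
theorem result {G : Type*} [Group G] [Finite G] (p : ℕ) (hp : p.Prime) (hG : Cfsg.IsLieTypeChar p G) :
    Nat.card G < p ^ (3 * (Nat.card G).factorization p) ∧
      ((¬ ∃ (F : Type) (_ : Field F) (_ : Fintype F), Fintype.card F = p ^ (Nat.card G).factorization p ∧
          Nonempty (G ≃* Matrix.ProjectiveSpecialLinearGroup (Fin 2) F)) →
        Nat.card G ^ 3 < p ^ (8 * (Nat.card G).factorization p)) := by
  rcases main p hp hG with ⟨h1, h2⟩ | h
  · exact ⟨h1, fun h => absurd h2 h⟩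
  · exact ⟨h.lt hp, fun _ => h⟩

end Cfsg.Agent.S2363
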