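import Cfsg.Statements.S2364
import Cfsg.Agent.H5.Spec

set_option autoImplicit false
open Cfsg

namespace Cfsg.Agent.S2364

open H5 Matrix

/-- Let F be a finite field of characteristic p, n ≥ 4, and let a, b be commuting elements of PSL(n, F) with a of order p. Then every prime divisor of the order of b divides the order of SL(n − 2, F). -/
theorem result {F : Type*} [Field F] [Fintype F] (p : ℕ) [Fact p.Prime] [CharP F p] (n : ℕ) (hn : 4 ≤ n)
    (a b : Matrix.ProjectiveSpecialLinearGroup (Fin n) F) (ha : orderOf a = p) (hab : Commute a b) :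
    (orderOf b).primeFactors ⊆ (Nat.card (Matrix.SpecialLinearGroup (Fin (n - 2)) F)).primeFactors := by
  intro r hr
  obtain ⟨h1, h2, -⟩ := Nat.mem_primeFactors.1 hr
  refine Nat.mem_primeFactors.2 ⟨h1, ?_, Nat.card_pos.ne'⟩
  have q0 : 0 < Fintype.card F := Fintype.card_pos
  by_cases c : r = p
  · obtain ⟨f, -, hf⟩ := FiniteField.card F p
    exact ((c ▸ hf ▸ dvd_pow_self p f.ne_zero : r ∣ Fintype.card F).mul_right _).trans (dvd_card_SL le_rfl (by omega))
  have r0 := cast_ne (F := F) p h1 c
  have k0 := ord_pos h1 r0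
  by_cases k : orderOf (Fintype.card F : ZMod r) = 1
  · exact (((dvd_pow_iff q0 2).2 (by simp [k])).mul_left _).trans (dvd_card_SL le_rfl (by omega))
  refine (((dvd_pow_iff q0 _).2 dvd_rfl).mul_left _).trans (dvd_card_SL (by omega) ?_)
  have o := orderOf_pow_orderOf_div (orderOf_pos b).ne' h2
  obtain ⟨u, rfl, hu⟩ := psl_lift a (ha ▸ cop_char p)
  obtain ⟨y, e, hy⟩ := psl_lift _ (o.symm ▸ cop_of_ord q0 h1 k)
  rw [ha] at hu; rw [o] at hy
  have cm := comm_lift (cop_char p) hu (e ▸ hab.pow_right _)
  have := ord_add_two_le (A := y.1) (N := u.1 - (1 : F) • 1) h1 r0 (congrArg Subtype.val hy)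
    (by simpa using lift_ne (g := y) (t := 1) (by rw [e, o]; simpa using h1.ne_one))
    (nil_of_pow p (k := 1) (by simpa using congrArg Subtype.val hu))
    (by simpa [sub_eq_zero] using lift_ne (g := u) (t := 1) (by rw [ha]; simpa using (Fact.out : p.Prime).ne_one))
    (by simpa [sub_mul, mul_sub] using congrArg Subtype.val cm.eq) (by omega)
  simp only [Fintype.card_fin] at this
  omega


end Cfsg.Agent.S2364
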