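import Cfsg.Statements.S2365
import Cfsg.Agent.H5.Un2
import Cfsg.Agent.H5.Li

set_option autoImplicit false
open Cfsg

namespace Cfsg.Agent.S2365

open H5 H5.Form Module

theorem core {F : Type*} [Field F] [Fintype F] {q : ℕ} {hF : Fintype.card F = q ^ 2} {m : ℕ} (hm : 4 ≤ m) (p : ℕ) [hp : Fact p.Prime] [CharP F p] {r : ℕ} [Fact r.Prime] {w : (ZMod r)ˣ} (ok : OrdOK (unitK hF) w)
    {A B : (Fin m → F) ≃ₗ[F] (Fin m → F)} (a1 : A ≠ 1) (a2 : A ^ p = 1) (b0 : B ∈ (hermF m hF).isom) (b1 : B ≠ 1) (b2 : B ^ r = 1) (c : ∀ x, A (B x) = B (A x)) : orderOf w + 2 ≤ m := by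
  classical
  haveI : NeZero m := ⟨by omega⟩
  haveI : CharP (End F (Fin m → F)) p := charP_of_injective_algebraMap (algebraMap F _).injective p
  have n : nl A ^ p = 0 := by rw [sub_pow_char_of_commute _ (Commute.one_right _), coe_pow_end, a2, one_pow]; exact sub_self _
  have c' : ∀ x, nl A (B x) = B (nl A x) := by simp [c]
  obtain ⟨v, v1, v2⟩ : ∃ v, nl A (nl A v) = 0 ∧ nl A v ≠ 0 := by
    by_contra! h
    have : ∀ k v, (nl A ^ k) v = 0 → nl A v = 0 := fun k => by
      induction k with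
      | zero => simp +contextual
      | succ k i => exact fun v e => h v (i _ e)
    exact a1 (LinearEquiv.ext fun v => by simpa [sub_eq_zero] using this p v (by simp [n]))
  obtain ⟨Y, y1, y2⟩ := exists_inv_compl (z := 1) ok.ne (b2.trans (map_one _).symm) (W := LinearMap.ker (nl A)) fun v h => by rw [LinearMap.mem_ker, c', show nl A v = 0 from h, map_zero]
  let R := Y ⊓ LinearMap.ker (nl A ∘ₗ nl A)
  have i : ∀ v ∈ R, B v ∈ R := fun v h => ⟨y2 v h.1, show nl A (nl A (B v)) = 0 by rw [c', c', show nl A (nl A v) = 0 from h.2, map_zero]⟩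
  let j : (R × R) →ₗ[F] (Fin m → F) := R.subtype.coprod (nl A ∘ₗ R.subtype)
  have k : ∀ x : R, nl A x = 0 → x = 0 := fun x e => Subtype.ext (Submodule.disjoint_def.1 y1.disjoint _ e x.2.1)
  have hj : Function.Injective j := (injective_iff_map_eq_zero _).2 fun ⟨x, y⟩ e => by
    replace e : x.1 + nl A y = 0 := e
    obtain rfl := k x (by simpa only [map_add, show nl A (nl A y) = 0 from y.2.2, add_zero, map_zero] using congrArg (nl A) e)
    rw [k y (by simpa only [Submodule.coe_zero, zero_add] using e)]; rfl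
  have i' : ∀ v ∈ LinearMap.range j, B v ∈ LinearMap.range j := by rintro _ ⟨⟨x, y⟩, rfl⟩; exact ⟨(⟨_, i _ x.2⟩, ⟨_, i _ y.2⟩), show B x + nl A (B y) = B (x + nl A y) by rw [c', map_add]⟩
  obtain ⟨D, d1, d2⟩ := exists_inv_compl (z := 1) ok.ne (b2.trans (map_one _).symm) i'
  have e := ev_sumAut d1 (resAut B _ i') (resAut B D d2)
  rw [← eq_sumAut, ← ev_congr (a := (resAut B R i : End F R).prodMap (resAut B R i : End F R)) (b := (resAut B _ i' : End F (LinearMap.range j))) (LinearEquiv.ofInjective j hj) fun ⟨x, y⟩ => Subtype.ext (show B x + nl A (B y) = B (x + nl A y) by rw [c', map_add]), ev_prod] at e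
  obtain ⟨ψ, hψ⟩ := exists_char ok.ne
  obtain ⟨N, n1, n2⟩ := exists_ev ok hψ (hermF_nondeg m hF) b0 b2
  obtain ⟨l, hl⟩ := Multiset.card_pos_iff_exists_mem.1 (show 0 < (ev (resAut B R i : End F R)).card by
    obtain ⟨y, y', rfl⟩ := exists_add_of_isCompl y1 v
    rw [map_add, show nl A y = 0 from y.2, zero_add] at v1 v2
    rw [card_ev]; exact finrank_pos_iff_exists_ne_zero.2 ⟨⟨y', y'.2, v1⟩, fun z => v2 (by rw [show y'.1 = 0 from congrArg Subtype.val z, map_zero])⟩)
  have t : 2 ≤ (ev (B : End F (Fin m → F))).count l := by rw [e, Multiset.count_add, Multiset.count_add]; have := Multiset.count_pos.2 hl; omega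
  obtain ⟨x, -, rfl⟩ := Multiset.mem_map.1 (n2 ▸ Multiset.count_pos.1 (by omega : 0 < (ev (B : End F (Fin m → F))).count l))
  have N0 : N.card ≠ 0 := fun z => b1 (LinearEquiv.toLinearMap_injective (eq_one_of_ev ok.ne (by rw [coe_pow_end, b2]; rfl) (by simp [n2, Multiset.card_eq_zero.1 z, olift])))
  rw [n2, Multiset.count_map_eq_count' _ _ hψ.1, Multiset.count_add, Multiset.count_replicate] at t
  simp only [finrank_fin_fun] at n1 t
  have := Nat.le_mul_of_pos_right (orderOf w) (Nat.pos_of_ne_zero N0)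
  split_ifs at t with z
  · rw [← z, Multiset.count_eq_zero_of_notMem (zero_notMem_olift w N)] at t; omega
  · rw [← Units.val_mk0 (Ne.symm z), count_olift] at t
    have := Nat.mul_le_mul_left (orderOf w) (t.trans ((zero_add _).trans_le (Multiset.count_le_card ..)))
    omega

/-- Let q be a power of the prime p, F the field with q² elements, m ≥ 4, and let a, b be commuting elements of PSU(m, q) with a of order p. Then every prime divisor of the order of b divides the order of SU(m − 2, q). -/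
theorem result {F : Type*} [Field F] [Fintype F] (p : ℕ) [Fact p.Prime] [CharP F p] (m q : ℕ) (hm : 4 ≤ m) (hF : Fintype.card F = q ^ 2)
    (a b : Cfsg.PSU m F q) (ha : orderOf a = p) (hab : Commute a b) :
    (orderOf b).primeFactors ⊆ (Nat.card ↥(Cfsg.SU (m - 2) F q)).primeFactors := by
  intro r hr
  obtain ⟨pr, hr, -⟩ := Nat.mem_primeFactors.1 hr
  haveI := Fact.mk pr
  have q2 := two_le_of_card_sq hF
  obtain ⟨n, rfl⟩ : ∃ n, m = n + 2 + 2 := ⟨m - 4, by omega⟩
  have c := card_sisom_unit (hermF_nondeg (n + 2) hF) (n := n + 2) (by simp) (by omega)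
  rw [← Nat.card_congr (suEquiv _ hF).toEquiv, guOrd, Finset.prod_range_succ', show uf q 0 = q + 1 by simp [uf], ← mul_assoc, mul_comm, Nat.mul_left_inj (by omega)] at c
  refine Nat.mem_primeFactors.2 ⟨pr, (c ▸ ?_ : r ∣ Nat.card (Cfsg.SU (n + 2) F q)), Nat.card_pos.ne'⟩
  obtain ⟨p', k, pp, _, k0, hq⟩ := exists_pow_of_card_sq hF
  obtain rfl : p = p' := CharP.eq F ‹_› ‹_›
  by_cases rp : r = p
  · exact Dvd.dvd.mul_right (dvd_pow (by rw [hq, rp]; exact dvd_pow_self p (by omega)) (by simp [mul_comm]; nlinarith)) _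
  suffices ∃ i < n + 1, r ∣ uf q (i + 1) from this.elim fun i h => Dvd.dvd.mul_left (h.2.trans (Finset.dvd_prod_of_mem (fun i => uf q (i + 1)) (Finset.mem_range.2 h.1))) _
  by_cases d : r ∣ q ^ 2 - 1
  · exact ⟨0, by omega, by simpa [uf] using d⟩
  have r0 := cast_ne (F := F) p pr rp
  obtain ⟨u, hu⟩ := exists_qu (hF := hF) r0
  have r2 : r ≠ 2 := by
    rintro rfl
    have : Odd q := hq ▸ (pp.odd_of_ne_two (Ne.symm rp)).pow
    exact d (even_iff_two_dvd.1 (Nat.Odd.sub_odd this.pow odd_one))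
  have d' : ¬ r ∣ q + 1 := fun e => d (hF ▸ card_sq_sub_one hF ▸ e.mul_right _)
  have z : ∀ z ∈ Subgroup.center (Cfsg.SU (n + 2 + 2) F q), z ^ (q + 1) = 1 := fun z h => by
    have := (orderOf_dvd_natCard (⟨z, h⟩ : Subgroup.center _)).trans ((card_center_congr (suEquiv _ hF)).trans (card_center_sisom_unit (hermF_nondeg _ hF) (n := n + 2 + 2) (by simp) (by omega))).dvd
    exact congrArg Subtype.val (orderOf_dvd_iff_pow_eq_one.1 (this.trans (Nat.gcd_dvd_right ..)))
  have l : ∀ (x : Cfsg.SU (n + 2 + 2) F q) {s}, s.Prime → ¬ s ∣ q + 1 → orderOf (QuotientGroup.mk x : Cfsg.PSU (n + 2 + 2) F q) = s → (suEquiv _ hF (x ^ (q + 1))).1 ≠ 1 ∧ (suEquiv _ hF (x ^ (q + 1))).1 ^ s = 1 := fun x s _ h e =>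
    ⟨fun k => h (by rw [← e]; exact orderOf_dvd_of_pow_eq_one (by rw [← QuotientGroup.mk_pow, (suEquiv _ hF).map_eq_one_iff.1 (Subtype.ext k)]; rfl)), by
      rw [← Subgroup.coe_pow, ← map_pow, pow_right_comm, z _ ((QuotientGroup.eq_one_iff _).1 (by rw [QuotientGroup.mk_pow, ← e, pow_orderOf_eq_one])), map_one]; rfl⟩
  obtain ⟨A, rfl⟩ := QuotientGroup.mk_surjective a
  obtain ⟨B, hB⟩ := QuotientGroup.mk_surjective (b ^ (orderOf b / r))
  have e : B⁻¹ * A * B = A * ((B * A)⁻¹ * (A * B)) := by group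
  have e' : (B * A)⁻¹ * (A * B) ∈ Subgroup.center _ := QuotientGroup.eq.1 (by rw [QuotientGroup.mk_mul, QuotientGroup.mk_mul, hB, (hab.pow_right _).eq])
  have e2 : Commute (A ^ (q + 1)) B := by
    have := congrArg (· ^ (q + 1)) e
    simp only [Commute.mul_pow (show Commute A _ from Subgroup.mem_center_iff.1 e' A), z _ e', mul_one] at this
    rw [show B⁻¹ * A * B = B⁻¹ * A * B⁻¹⁻¹ by simp, conj_pow, inv_inv, mul_assoc, inv_mul_eq_iff_eq_mul] at this
    exact this
  obtain ⟨a1, a2⟩ := l A pp (fun e => pp.one_lt.ne' (Nat.dvd_one.1 ((Nat.dvd_add_right (hq ▸ dvd_pow_self p (by omega))).1 e))) ha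
  obtain ⟨b1, b2⟩ := l B pr d' (hB ▸ orderOf_pow_orderOf_div (orderOf_pos b).ne' hr)
  have := core hm p (w := -u) ⟨r2, r0, p, k, pp, ‹_›, fun a => hq ▸ rfl, .inr (.inl (by rw [← hq, Units.val_neg, hu]))⟩ a1 a2 (suEquiv _ hF _).2.1 b1 b2
    fun x => LinearEquiv.congr_fun (congrArg Subtype.val ((e2.pow_right (q + 1)).map (suEquiv _ hF)).eq) x
  have e3 := congrArg Units.val (pow_orderOf_eq_one (-u))
  obtain ⟨i, hi⟩ : ∃ i, orderOf (-u) = i + 2 := ⟨orderOf (-u) - 2, by
    have := orderOf_pos (-u)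
    have : orderOf (-u) ≠ 1 := fun e => d' ((ZMod.natCast_eq_zero_iff _ _).1 (by rw [e] at e3; simp [hu] at e3; push_cast; linear_combination -e3))
    omega⟩
  refine ⟨i, by omega, (ZMod.natCast_eq_zero_iff _ _).1 ?_⟩
  have := congrArg (Int.cast : ℤ → ZMod r) (uf_cast (by omega : 1 ≤ q) (i + 1))
  rw [hi, Units.val_pow_eq_pow_val, Units.val_neg, hu, neg_pow] at e3
  push_cast at this e3
  rw [this]
  rcases neg_one_pow_eq_or (ZMod r) i with k | k <;> simp only [pow_succ (-1 : ZMod r), k] at e3 ⊢ <;> [linear_combination e3; linear_combination -e3]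


end Cfsg.Agent.S2365
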