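import Cfsg.Statements.S2367
import Cfsg.Agent.H2.LieOrd

set_option autoImplicit false
open Cfsg

namespace Cfsg.Agent.S2367

theorem spor {N a : ℕ} (h1 : N ∣ (Nat.factorial 71) ^ 50) (h2 : 2 ^ a ∣ N) (h0 : N ≠ 0)
    (h : ∀ p ∈ [3, 5, 7, 11, 13, 17, 19, 23, 29, 31, 37, 41, 43, 47, 53, 59, 61, 67, 71], p ^ 3 ∣ N →
      p ^ 4 ∣ N ∨ p ^ 3 < 2 ^ a) {p : ℕ} (hp : p.Prime) (hodd : p ≠ 2) (h3 : N.factorization p = 3) :
    p ^ 3 < 2 ^ N.factorization 2 := by
  have d3 : p ^ 3 ∣ N := (hp.pow_dvd_iff_le_factorization h0).2 h3.ge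
  have d4 : ¬ p ^ 4 ∣ N := by rw [hp.pow_dvd_iff_le_factorization h0]; omega
  have h4 : p ≤ 71 := hp.dvd_factorial.1 (hp.dvd_of_dvd_pow (((dvd_pow_self p (by norm_num)).trans d3).trans h1))
  have h5 : p ∈ [3, 5, 7, 11, 13, 17, 19, 23, 29, 31, 37, 41, 43, 47, 53, 59, 61, 67, 71] := by
    interval_cases p <;> first | decide | exact absurd rfl hodd | exact absurd hp (by norm_num)
  exact ((h p h5 d3).resolve_left d4).trans_le (Nat.pow_le_pow_right two_pos
    ((Nat.prime_two.pow_dvd_iff_le_factorization h0).1 h2))

theorem cube_lt {p : ℕ} (h : 5 ≤ p) : p ^ 3 < 2 ^ (2 * p - 1) := by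
  induction p, h using Nat.le_induction with
  | base => norm_num
  | succ p hp ih =>
    rw [show 2 * (p + 1) - 1 = 2 * p - 1 + 2 by omega, pow_add]
    nlinarith [Nat.mul_le_mul hp (le_refl (p * p)), Nat.mul_le_mul hp (le_refl p)]

theorem fac_ge (p n k : ℕ) (hp : p.Prime) :
    ∑ i ∈ Finset.Ico 1 (k + 1), n / p ^ i ≤ (Nat.factorial n).factorization p := by
  rw [Nat.factorization_factorial hp (b := max (k + 1) (Nat.log p n + 1)) (by omega)]
  exact Finset.sum_le_sum_of_subset (Finset.Ico_subset_Ico_right (le_max_left _ _))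

/-- Let G be an alternating group of degree at least 5 or a simple group with the order of one of the 26 sporadic groups, and let p be an odd prime such that p³ is the exact power of p dividing the order of G. Then p³ is less than the 2-part of the order of G. -/
theorem result {G : Type*} [Group G] [Finite G] (hG : Cfsg.IsAlternating G ∨ Cfsg.IsSporadic G)
    (p : ℕ) (hp : p.Prime) (hodd : p ≠ 2) (h3 : (Nat.card G).factorization p = 3) :
    p ^ 3 < 2 ^ (Nat.card G).factorization 2 := by
  rcases hG with ⟨n, hn, ⟨e⟩⟩ | h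
  · haveI : Nontrivial (Fin n) := Fin.nontrivial_iff_two_le.2 (by omega)
    have h1 := two_mul_nat_card_alternatingGroup (α := Fin n)
    rw [Nat.card_perm, Nat.card_eq_fintype_card (α := Fin n), Fintype.card_fin,
      ← Nat.card_congr e.toEquiv] at h1
    have h0 : Nat.card G ≠ 0 := Nat.card_pos.ne'
    have h2 : ∀ r, (Nat.factorial n).factorization r = (2 : ℕ).factorization r + (Nat.card G).factorization r :=
      fun r => by rw [← h1, Nat.factorization_mul two_ne_zero h0, Finsupp.add_apply]
    have h4 := h2 p
    have h5 := h2 2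
    rw [Nat.prime_two.factorization, Finsupp.single_eq_of_ne hodd, h3] at h4
    rw [Nat.prime_two.factorization_self] at h5
    have h6 := fac_ge 2 n 2 Nat.prime_two
    have h7 := fac_ge p n 2 hp
    simp only [Finset.sum_Ico_succ_top, Finset.Ico_self, le_refl, Finset.sum_empty,
      Nat.reduceLeDiff, pow_one] at h6 h7
    have hp3 : 3 ≤ p := by have := hp.two_le; omega
    have h8 : n < p ^ 2 := by
      by_contra hc
      have a1 : 1 ≤ n / p ^ 2 := (Nat.le_div_iff_mul_le (by positivity)).2 (by omega)
      have a2 : p ≤ n / p := (Nat.le_div_iff_mul_le hp.pos).2 (by rw [← pow_two]; omega)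
      omega
    have h9 : (Nat.factorial n).factorization p = n / p := by
      rw [Nat.factorization_factorial hp (b := 2) (Nat.log_lt_of_lt_pow (by omega) h8)]
      simp
    have h10 : 3 * p ≤ n := (Nat.le_div_iff_mul_le hp.pos).1 (by omega)
    have hp5 : 5 ≤ p := by
      by_contra hc
      have : p = 3 ∨ p = 4 := by omega
      rcases this with rfl | rfl
      · omega
      · exact absurd hp (by norm_num)
    exact (cube_lt hp5).trans_le (Nat.pow_le_pow_right two_pos (by omega))
  rcases h with ⟨-, h⟩ | ⟨-, h⟩ | ⟨-, h⟩ | ⟨-, h⟩ | ⟨-, h⟩ | ⟨-, h⟩ | ⟨-, h⟩ | ⟨-, h⟩ | ⟨-, h⟩ | ⟨-, h⟩ | ⟨-, h⟩ | ⟨-, h⟩ | ⟨-, h⟩ | ⟨-, h⟩ | ⟨-, h⟩ | ⟨-, h⟩ | ⟨-, h⟩ | ⟨-, h⟩ | ⟨-, h⟩ | ⟨-, h⟩ | ⟨-, h⟩ | ⟨-, h⟩ | ⟨-, h⟩ | ⟨-, h⟩ | ⟨-, h⟩ | ⟨-, h⟩ <;> rw [h] at h3 ⊢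
  · exact spor (a := 4) (by decide +kernel) (by decide +kernel) (by decide +kernel) (by decide +kernel) hp hodd h3
  · exact spor (a := 6) (by decide +kernel) (by decide +kernel) (by decide +kernel) (by decide +kernel) hp hodd h3
  · exact spor (a := 7) (by decide +kernel) (by decide +kernel) (by decide +kernel) (by decide +kernel) hp hodd h3
  · exact spor (a := 7) (by decide +kernel) (by decide +kernel) (by decide +kernel) (by decide +kernel) hp hodd h3
  · exact spor (a := 10) (by decide +kernel) (by decide +kernel) (by decide +kernel) (by decide +kernel) hp hodd h3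
  · exact spor (a := 3) (by decide +kernel) (by decide +kernel) (by decide +kernel) (by decide +kernel) hp hodd h3
  · exact spor (a := 7) (by decide +kernel) (by decide +kernel) (by decide +kernel) (by decide +kernel) hp hodd h3
  · exact spor (a := 7) (by decide +kernel) (by decide +kernel) (by decide +kernel) (by decide +kernel) hp hodd h3
  · exact spor (a := 21) (by decide +kernel) (by decide +kernel) (by decide +kernel) (by decide +kernel) hp hodd h3
  · exact spor (a := 21) (by decide +kernel) (by decide +kernel) (by decide +kernel) (by decide +kernel) hp hodd h3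
  · exact spor (a := 18) (by decide +kernel) (by decide +kernel) (by decide +kernel) (by decide +kernel) hp hodd h3
  · exact spor (a := 10) (by decide +kernel) (by decide +kernel) (by decide +kernel) (by decide +kernel) hp hodd h3
  · exact spor (a := 17) (by decide +kernel) (by decide +kernel) (by decide +kernel) (by decide +kernel) hp hodd h3
  · exact spor (a := 18) (by decide +kernel) (by decide +kernel) (by decide +kernel) (by decide +kernel) hp hodd h3
  · exact spor (a := 21) (by decide +kernel) (by decide +kernel) (by decide +kernel) (by decide +kernel) hp hodd h3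
  · exact spor (a := 9) (by decide +kernel) (by decide +kernel) (by decide +kernel) (by decide +kernel) hp hodd h3
  · exact spor (a := 7) (by decide +kernel) (by decide +kernel) (by decide +kernel) (by decide +kernel) hp hodd h3
  · exact spor (a := 10) (by decide +kernel) (by decide +kernel) (by decide +kernel) (by decide +kernel) hp hodd h3
  · exact spor (a := 14) (by decide +kernel) (by decide +kernel) (by decide +kernel) (by decide +kernel) hp hodd h3
  · exact spor (a := 13) (by decide +kernel) (by decide +kernel) (by decide +kernel) (by decide +kernel) hp hodd h3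
  · exact spor (a := 9) (by decide +kernel) (by decide +kernel) (by decide +kernel) (by decide +kernel) hp hodd h3
  · exact spor (a := 14) (by decide +kernel) (by decide +kernel) (by decide +kernel) (by decide +kernel) hp hodd h3
  · exact spor (a := 8) (by decide +kernel) (by decide +kernel) (by decide +kernel) (by decide +kernel) hp hodd h3
  · exact spor (a := 15) (by decide +kernel) (by decide +kernel) (by decide +kernel) (by decide +kernel) hp hodd h3
  · exact spor (a := 41) (by decide +kernel) (by decide +kernel) (by decide +kernel) (by decide +kernel) hp hodd h3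
  · exact spor (a := 46) (by decide +kernel) (by decide +kernel) (by decide +kernel) (by decide +kernel) hp hodd h3

end Cfsg.Agent.S2367
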