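import Cfsg.Statements.S2369
import Cfsg.Agent.H6.InvTF4

set_option autoImplicit false
open Cfsg

namespace Cfsg.Agent.S2369

/-- Let q = 2^(2m+1) with m ≥ 1 and let a, b be commuting elements of the large Ree group ²F₄(q) with a an involution. Then every prime divisor of the order of b divides q(q⁴ − 1). -/
theorem result {K : Type*} [Field K] [Fintype K] (m : ℕ) (hm : 1 ≤ m) (hK : Fintype.card K = 2 ^ (2 * m + 1))
    (a b : ↥(Cfsg.Lie.twistedF4 K (2 ^ m))) (ha : orderOf a = 2) (hab : Commute a b) :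
    (orderOf b).primeFactors ⊆ (2 ^ (2 * m + 1) * ((2 ^ (2 * m + 1)) ^ 4 - 1)).primeFactors := by
  obtain ⟨X, f, h⟩ := H6.Chev.F4.exists_pack hK
  obtain ⟨z, hz, hc⟩ := h.ex' ha
  obtain ⟨g, rfl⟩ := isConj_iff.1 hc
  obtain ⟨k, hk⟩ := h.cent_le hz
  have h1 := (Subgroup.orderOf_dvd_natCard _ (Subgroup.mem_inf.2 ⟨hk (g⁻¹ * b * g) (by
    simpa [mul_assoc] using hab.map (MulAut.conj g⁻¹)), (g⁻¹ * b * g).2⟩)).trans (h.card_P hK k).dvd
  rw [Subgroup.orderOf_coe, show g⁻¹ * b * g = MulAut.conj g⁻¹ b by simp, MulEquiv.orderOf_eq] at h1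
  have hq : 2 ≤ 2 ^ (2 * m + 1) := Nat.le_self_pow (by omega) 2
  generalize 2 ^ (2 * m + 1) = q at *
  obtain ⟨r, rfl⟩ : ∃ r, q = r + 1 := ⟨q - 1, by omega⟩
  have e : (r + 1) ^ 4 - 1 = r * (1 + (r + 1) ^ 1) * (1 + (r + 1) ^ 2) := by
    rw [Nat.sub_eq_iff_eq_add (Nat.one_le_pow _ _ (by omega))]; ring
  intro p hp
  have hp' := Nat.prime_of_mem_primeFactors hp
  refine Nat.mem_primeFactors.2 ⟨hp', ?_, by rw [e]; have : 0 < r := by omega
                                             positivity⟩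
  have h2 := (Nat.dvd_of_mem_primeFactors hp).trans h1
  rw [e]
  simp only [hp'.dvd_mul, Nat.add_sub_cancel] at h2 ⊢
  rcases h2 with (h2 | h2) | h2
  · exact Or.inl (hp'.dvd_of_dvd_pow h2)
  · exact Or.inr (Or.inl (Or.inl (hp'.dvd_of_dvd_pow h2)))
  · fin_cases k
    exacts [Or.inr (Or.inl (Or.inr h2)), Or.inr (Or.inr h2)]

end Cfsg.Agent.S2369
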