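import Cfsg.Statements.S2370
import Cfsg.Agent.H6.InvTF4

set_option autoImplicit false
open Cfsg

namespace Cfsg.Agent.S2370

/-- Let q = 2^(2m+1) with m ≥ 1. Every element of 2-power order of the large Ree group ²F₄(q) has order at most 32. -/
theorem result {K : Type*} [Field K] [Fintype K] (m : ℕ) (hm : 1 ≤ m) (hK : Fintype.card K = 2 ^ (2 * m + 1))
    (x : ↥(Cfsg.Lie.twistedF4 K (2 ^ m))) (hx : ∃ j : ℕ, orderOf x = 2 ^ j) : orderOf x ≤ 32 := by
  obtain ⟨X, f, h⟩ := H6.Chev.F4.exists_pack hK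
  have := h.char
  obtain ⟨j, hj⟩ := hx
  obtain ⟨g, -, hg⟩ := H6.ChevSys.exists_conj_le_Up 2 H6.Chev.certF4.r3 (X := Subgroup.zpowers x.1)
    (Subgroup.zpowers_le_of_mem (h.good.le x.2).1)
    (IsPGroup.of_card (by rw [Nat.card_zpowers, Subgroup.orderOf_coe, hj]))
  have h1 := (H6.Chev.certF4.sys K).pow_eq_one_of_ht (p := 2) (n := 4) (by decide +kernel)
    (hg _ (Subgroup.mem_zpowers _))
  rw [show g⁻¹ * x.1 * g = g⁻¹ * x.1 * g⁻¹⁻¹ by simp, conj_pow, conj_eq_one_iff] at h1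
  exact (orderOf_le_of_pow_eq_one (by norm_num) (Subtype.ext h1)).trans (by norm_num)

end Cfsg.Agent.S2370
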