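import Cfsg.Statements.S2379
import Cfsg.Agent.H5.Hom

set_option autoImplicit false
open Cfsg

namespace Cfsg.Agent.S2379

open H5 Matrix

/-- Sylow subgroups of `SL_n(q)` for large primes. Let `F` be a field with `q` elements and `r` a prime with `r > n` and `r ∤ q` (so `r` does not divide the order `n!` of the Weyl group). Let `d` be the multiplicative order of `q` modulo `r`, `a` the number of integers `i` with `2 ≤ i ≤ n` divisible by `d` (the degrees of the Weyl group are `2, …, n`), and `m` the `r`-part of the value at `q` of the `d`-th cyclotomic polynomial. Then every Sylow `r`-subgroup of `SL_n(q)` is a direct product of `a` cyclic groups of order `m`. -/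
theorem result {F : Type*} [Field F] [Fintype F] {q : ℕ} (hq : Fintype.card F = q) (n : ℕ)
    (r : ℕ) [Fact r.Prime] (hrn : n < r) (hrq : ¬ r ∣ q) (P : Sylow r (Matrix.SpecialLinearGroup (Fin n) F)) :
    Nonempty (↥(P : Subgroup (Matrix.SpecialLinearGroup (Fin n) F)) ≃*
      (Fin ((Finset.Icc 2 n).filter (fun i => orderOf (q : ZMod r) ∣ i)).card →
        Multiplicative (ZMod (r ^ padicValNat r ((Polynomial.cyclotomic (orderOf (q : ZMod r)) ℤ).eval (q : ℤ)).natAbs)))) := by
  subst hq
  have q1 : 1 < Fintype.card F := Fintype.one_lt_card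
  have nd : ∀ i ∈ Finset.Icc 1 n, ¬ r ∣ i := fun i hi d => by simp at hi; have := Nat.le_of_dvd hi.1 d; omega
  refine Emb.sylow ?_ ?_ P
  · by_cases d : orderOf (Fintype.card F : ZMod r) = 1
    · have e := gl_zmod hrq
      rcases n with _ | n
      · exact ⟨1, fun _ _ _ => funext fun i => absurd i.2 (by simp)⟩
      rw [show ((Finset.Icc 2 (n + 1)).filter fun i => orderOf (Fintype.card F : ZMod r) ∣ i).card = n by simp [d]]
      obtain ⟨φ, hφ⟩ := pi_emb (fun n => GL (Fin n) F) gl_emb e (a := n) (n := n) (by simp [d])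
      refine (Emb.sl ((blkHom _ _).comp (((Units.coeHom _).comp φ).prod ((Units.coeHom _).comp ((GeneralLinearGroup.scalar (Fin 1)).comp
        (invMonoidHom.comp (GeneralLinearGroup.det.comp φ)))))).toHomUnits (fun x y e => hφ (Units.ext ?_)) fun x => ?_).trans
        (.of_equiv (slCongr finSumFinEquiv))
      · exact (fromBlocks_inj.1 (show fromBlocks (φ x).1 0 0 _ = fromBlocks (φ y).1 0 0 _ from congrArg Units.val e)).1
      · simp [blkHom, (φ x).det_ne_zero]
    · obtain ⟨φ, hφ⟩ := pi_emb (fun n => GL (Fin n) F) gl_emb (gl_zmod hrq) (n := n)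
        (a := ((Finset.Icc 2 n).filter fun i => orderOf (Fintype.card F : ZMod r) ∣ i).card) (by
          have d0 := ord_pos' q1 hrq
          rw [← Nat.le_div_iff_mul_le d0, ← Nat.card_multiples]
          exact Finset.card_le_card_of_injOn (· - 1) (fun i hi => by
            simp at hi ⊢; rw [Nat.sub_add_cancel (by omega)]; exact ⟨by omega, hi.2⟩) fun i hi j hj e => by simp at hi hj e; omega)
      refine Emb.sl φ hφ fun x => ?_
      have h1 := congrArg (fun t : GL (Fin n) F => t.1.det) ((map_pow φ x _).symm.trans ((congrArg φ pow_card_eq_one').trans (map_one φ)))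
      simp only [Units.val_pow_eq_pow_val, det_pow, Units.val_one, det_one] at h1
      have := pow_gcd_eq_one.2 ⟨h1, FiniteField.pow_card_sub_one_eq_one _ (φ x).det_ne_zero⟩
      rwa [card_pi_zmod, ((cop_of_ord (by omega) Fact.out d).pow_left _ :), pow_one] at this
  rcases n with _ | n
  · simp [Nat.card_unique]
  obtain ⟨k, hk⟩ := card_GL' (F := F) (n + 1)
  rw [← card_SL_mul_eq_card_GL, ← Finset.insert_Icc_add_one_left_eq_Icc (by omega), Finset.prod_insert (by simp), pow_one,
    mul_left_comm, Nat.mul_right_inj (by omega)] at hk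
  have := Nat.card_pos (α := Matrix.SpecialLinearGroup (Fin (n + 1)) F)
  rw [card_pi_zmod, hk, val_mul q1 hrq _ (by rintro e; rw [hk, e] at this; simp at this), val_prod q1 hrq _ (fun i => i) fun i hi =>
    nd i (by simp at hi ⊢; omega)]
  rfl


end Cfsg.Agent.S2379
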