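import Cfsg.Statements.S2380
import Cfsg.Agent.H5.Hom

set_option autoImplicit false
open scoped MatrixGroups
open Cfsg

namespace Cfsg.Agent.S2380

open H5

/-- Sylow subgroups of `GL_n(q)` for large primes. Let `F` be a field with `q` elements and `r` a prime with `r > n` and `r ∤ q`. Let `d` be the multiplicative order of `q` modulo `r` and `m` the `r`-part of the value at `q` of the `d`-th cyclotomic polynomial. Then every Sylow `r`-subgroup of `GL_n(q)` is a direct product of `⌊n/d⌋` cyclic groups of order `m` (the degrees of the Weyl group being `1, …, n`). -/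
theorem result {F : Type*} [Field F] [Fintype F] {q : ℕ} (hq : Fintype.card F = q) (n : ℕ)
    (r : ℕ) [Fact r.Prime] (hrn : n < r) (hrq : ¬ r ∣ q) (P : Sylow r (GL (Fin n) F)) :
    Nonempty (↥(P : Subgroup (GL (Fin n) F)) ≃*
      (Fin (n / orderOf (q : ZMod r)) →
        Multiplicative (ZMod (r ^ padicValNat r ((Polynomial.cyclotomic (orderOf (q : ZMod r)) ℤ).eval (q : ℤ)).natAbs)))) := by
  subst hq
  have q1 : 1 < Fintype.card F := Fintype.one_lt_card
  refine (pi_emb (fun n => GL (Fin n) F) gl_emb (gl_zmod hrq) (Nat.div_mul_le_self _ _)).sylow ?_ P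
  obtain ⟨k, hk⟩ := card_GL' (F := F) n
  have := Nat.card_pos (α := GL (Fin n) F)
  rw [card_pi_zmod, hk, val_mul q1 hrq _ (by rintro e; simp [hk, e] at this), val_prod q1 hrq _ (fun i => i) fun i hi d => by
    simp at hi; have := Nat.le_of_dvd hi.1 d; omega, ← Nat.card_multiples]
  congr 2
  exact Finset.card_bij (fun i _ => i + 1) (by simp) (by simp) fun b hb => ⟨b - 1, by
    simp at hb ⊢; rw [Nat.sub_add_cancel hb.1.1]; exact ⟨by omega, hb.2⟩, by simp at hb; omega⟩


end Cfsg.Agent.S2380
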