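import Cfsg.Statements.S2381
import Cfsg.Agent.S2380

set_option autoImplicit false
open Cfsg

namespace Cfsg.Agent.S2381

open H5 Matrix

/-- Sylow subgroups of `Sp_{2n}(q)` for large primes. Let `F` be a field with `q` elements and `r` an odd prime with `r > n` and `r ∤ q` (so `r` does not divide the order `2^n n!` of the Weyl group). Let `d` be the multiplicative order of `q` modulo `r`, `a` the number of `i` with `1 ≤ i ≤ n` and `d ∣ 2i` (the degrees being `2, 4, …, 2n`), and `m` the `r`-part of the value at `q` of the `d`-th cyclotomic polynomial. Then every Sylow `r`-subgroup of the symplectic group `Sp_{2n}(q)` is a direct product of `a` cyclic groups of order `m`. -/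
theorem result {F : Type*} [Field F] [Fintype F] {q : ℕ} (hq : Fintype.card F = q) (n : ℕ)
    (r : ℕ) [Fact r.Prime] (hr2 : r ≠ 2) (hrn : n < r) (hrq : ¬ r ∣ q) (P : Sylow r ↥(Matrix.symplecticGroup (Fin n) F)) :
    Nonempty (↥(P : Subgroup ↥(Matrix.symplecticGroup (Fin n) F)) ≃*
      (Fin ((Finset.Icc 1 n).filter (fun i => orderOf (q : ZMod r) ∣ 2 * i)).card →
        Multiplicative (ZMod (r ^ padicValNat r ((Polynomial.cyclotomic (orderOf (q : ZMod r)) ℤ).eval (q : ℤ)).natAbs)))) := by
  subst hq
  have q1 : 1 < Fintype.card F := Fintype.one_lt_card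
  set d := orderOf (Fintype.card F : ZMod r)
  have d0 : 0 < d := ord_pos' q1 hrq
  have val : ∀ n < r, padicValNat r (Nat.card (symplecticGroup (Fin n) F)) =
      padicValNat r (cyc d (Fintype.card F)) * ((Finset.Icc 1 n).filter fun i => d ∣ 2 * i).card := fun n hn => by
    have := Nat.card_pos (α := symplecticGroup (Fin n) F)
    rw [Nat.card_congr (spEquiv n).toEquiv, Form.card_isom_symp rfl (sympF_nondeg n) (m := n) (by simp; ring), spOrd] at this ⊢
    rw [val_mul q1 hrq _ (by rintro e; simp [e] at this), ← val_prod q1 hrq _ _ fun i hi e => by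
      simp at hi
      rcases (Nat.Prime.dvd_mul Fact.out).1 e with e | e
      · exact hr2 ((Nat.prime_dvd_prime_iff_eq Fact.out Nat.prime_two).1 e)
      · have := Nat.le_of_dvd hi.1 e; omega, ← Finset.Ico_add_one_right_eq_Icc, Finset.prod_Ico_eq_prod_range]
    simp [add_comm]
  have le : ∀ e, 0 < e → (∀ i, d ∣ 2 * i → e ∣ i) → ((Finset.Icc 1 n).filter fun i => d ∣ 2 * i).card * e ≤ n := fun e e0 h => by
    rw [← Nat.le_div_iff_mul_le e0, ← Nat.card_multiples]
    exact Finset.card_le_card_of_injOn (· - 1) (fun i hi => by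
      simp at hi ⊢; rw [Nat.sub_add_cancel (by omega)]; exact ⟨by omega, h i hi.2⟩) fun i hi j hj e => by simp at hi hj e; omega
  refine Emb.sylow ?_ (by rw [card_pi_zmod, val n hrn]; rfl) P
  rcases d.even_or_odd with ⟨e, he⟩ | c
  · refine pi_emb (fun n => symplecticGroup (Fin n) F) sp_emb ?_ (le e (by omega) fun i h => by
      rwa [he, ← two_mul, Nat.mul_dvd_mul_iff_left two_pos] at h)
    have dr : d < r := by
      have := (Fact.out : r.Prime).two_le
      have := Nat.le_of_dvd (by omega) (orderOf_dvd_of_pow_eq_one (ZMod.pow_card_sub_one_eq_one (a := (Fintype.card F : ZMod r))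
        (by rwa [Ne, ZMod.natCast_eq_zero_iff])))
      omega
    obtain ⟨S⟩ : Nonempty (Sylow r (symplecticGroup (Fin e) F)) := inferInstance
    let φ := ((glCongr (finSumFinEquiv.trans (finCongr he.symm))).toMonoidHom.comp (spToGL (F := F) e)).comp S.1.subtype
    have hφ : Function.Injective φ := fun a b h => Subtype.ext (Subtype.ext (congrArg Units.val
      ((glCongr (finSumFinEquiv.trans (finCongr he.symm))).injective h)))
    obtain ⟨Q, hQ⟩ := (S.2.of_equiv (MonoidHom.ofInjective hφ)).exists_le_sylow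
    obtain ⟨ψ⟩ := S2380.result rfl d r dr hrq Q
    have e1 : φ.range = Q := Subgroup.eq_of_le_of_card_ge hQ (by
      rw [Nat.card_congr ψ.toEquiv, card_pi_zmod, ← Nat.card_congr (MonoidHom.ofInjective hφ).toEquiv, S.card_eq_multiplicity,
        Nat.factorization_def _ Fact.out, val e (by omega), Nat.div_self d0]
      exact Nat.pow_le_pow_right (Fact.out : r.Prime).pos (Nat.mul_le_mul_left _ (Finset.card_pos.2 ⟨e, by simp [he, two_mul]; omega⟩)))
    refine Emb.trans ⟨MonoidHom.pi fun _ => .id _, fun a b h => congrFun h ⟨0, Nat.div_pos le_rfl d0⟩⟩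
      ((Emb.of_equiv (ψ.symm.trans ((MulEquiv.subgroupCongr e1.symm).trans (MonoidHom.ofInjective hφ).symm))).trans
        ⟨_, S.1.subtype_injective⟩)
  · exact (pi_emb (fun n => GL (Fin n) F) gl_emb (gl_zmod hrq) (le d d0 fun i h =>
      (Nat.coprime_two_right.2 c).dvd_of_dvd_mul_left h)).trans (gl_sp_emb n)


end Cfsg.Agent.S2381
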