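import Cfsg.Statements.S2384
import Cfsg.Agent.H5.Sim2

set_option autoImplicit false
open Cfsg

namespace Cfsg.Agent.S2384

open H5 Matrix Polynomial

/-- In `SL_n(q)`, `q` a power of the prime `p`, the number of conjugacy classes of elements of order prime to `p` (the semisimple classes) is `q^(n-1)`. -/
theorem result {F : Type*} [Field F] [Fintype F] {q : ℕ} (hq : Fintype.card F = q) (p : ℕ) [Fact p.Prime] [CharP F p] (n : ℕ) (hn : 1 ≤ n) :
    Nat.card {c : ConjClasses (Matrix.SpecialLinearGroup (Fin n) F) //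
      ∃ g : Matrix.SpecialLinearGroup (Fin n) F, ConjClasses.mk g = c ∧ (orderOf g).Coprime p} = q ^ (n - 1) := by
  obtain ⟨n, rfl⟩ := Nat.exists_eq_add_of_le' hn
  have s : (-1 : F) ^ (n + 1) * (-1) ^ (n + 1) = 1 := by rw [← mul_pow]; simp
  rw [card_classes (X := Fin n → F) (fun g x => (orderOf g).Coprime p ∧ toFn _ g.1.charpoly = Fin.cons ((-1) ^ (n + 1)) x)]
  · simp [hq]
  · refine fun g => ⟨fun h => ⟨_, h, (Fin.cons_self_tail _).symm.trans (congrArg (Fin.cons (α := fun _ => F) · (Fin.tail (toFn (n + 1) g.1.charpoly))) ?_)⟩, fun ⟨_, h, _⟩ => h⟩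
    exact mul_left_cancel₀ (by simp) ((det_eq_toFn g.1).symm.trans (g.2.trans s.symm))
  · intro x
    obtain ⟨g, h1, h2⟩ := exists_ss p (Fin.cons ((-1 : F) ^ (n + 1)) x) (by simp)
    let y : Matrix.SpecialLinearGroup _ F := ⟨g.1, by rw [det_eq_toFn, h2]; exact s⟩
    exact ⟨y, by rwa [← orderOf_injective _ SpecialLinearGroup.toGL_injective y, show SpecialLinearGroup.toGL y = g from Units.ext rfl], h2⟩
  have k : ∀ g : Matrix.SpecialLinearGroup (Fin (n + 1)) F, _ → Module.End.IsSemisimple (toLin' g.1) :=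
    fun g h => ss_of_coprime (p := p) SpecialLinearGroup.coeMonoidHom (g := g) h
  refine fun g g' x x' h h' => ⟨fun c => ?_, fun e => isConj_SL (isConj_of_charpoly (k _ h.1) (k _ h'.1) (charpoly_ext (by rw [h.2, h'.2, e])))
    fun c _ => exists_comm_det (k _ h.1) c⟩
  have : g.1.charpoly = g'.1.charpoly := IsConj.charpoly (SpecialLinearGroup.coeMonoidHom.map_isConj c)
  exact (Fin.cons_injective2.eq_iff.1 (h.2.symm.trans ((congrArg _ this).trans h'.2))).2


end Cfsg.Agent.S2384
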