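import Cfsg.Statements.S2385
import Cfsg.Agent.H5.SS

set_option autoImplicit false
open Cfsg

namespace Cfsg.Agent.S2385

open H5 Matrix Polynomial

/-- In the symplectic group `Sp_{2n}(q)`, `q` a power of the prime `p`, the number of conjugacy classes of elements of order prime to `p` is `q^n`. -/
theorem result {F : Type*} [Field F] [Fintype F] {q : ℕ} (hq : Fintype.card F = q) (p : ℕ) [Fact p.Prime] [CharP F p] (n : ℕ) :
    Nat.card {c : ConjClasses ↥(Matrix.symplecticGroup (Fin n) F) //
      ∃ g : ↥(Matrix.symplecticGroup (Fin n) F), ConjClasses.mk g = c ∧ (orderOf g).Coprime p} = q ^ n := by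
  classical
  have fin : Finite (symplecticGroup (Fin n) F) := inferInstance
  have c : ∀ {g h : symplecticGroup (Fin n) F}, IsConj g h → g.1.charpoly = h.1.charpoly := fun e =>
    IsConj.charpoly ((symplecticGroup (Fin n) F).subtype.map_isConj e)
  rw [show q ^ n = Nat.card (Fin n → F) by simp [hq]]
  apply le_antisymm
  · refine Nat.card_le_card_of_injective (fun x i => x.2.choose.1.charpoly.coeff (n + i)) fun x y e => Subtype.ext ?_
    obtain ⟨h1, h2⟩ := x.2.choose_spec
    obtain ⟨k1, k2⟩ := y.2.choose_spec
    rw [← h1, ← k1, ConjClasses.mk_eq_mk_iff_isConj]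
    refine sp_conj p h2 k2 ?_
    beta_reduce at e
    generalize x.2.choose = g at e
    generalize y.2.choose = h at e
    have P : ∀ g : symplecticGroup (Fin n) F, ∀ i ≤ n + n, g.1.charpoly.coeff i = g.1.charpoly.coeff (n + n - i) := fun g i hi => by
      have := coeff_charpoly_inv (SymplecticGroup.det_eq_one g.2) (i := i) (by simpa)
      rwa [SymplecticGroup.inv_eq_symplectic_inv _ g.2, mul_assoc, charpoly_mul_comm, mul_assoc, mul_neg, J_squared,
        neg_neg, mul_one, charpoly_transpose, Fintype.card_sum, Fintype.card_fin, Even.neg_one_pow ⟨n, rfl⟩, one_mul] at this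
    have Q : ∀ i, n ≤ i → g.1.charpoly.coeff i = h.1.charpoly.coeff i := fun i hi => by
      have d : ∀ g : symplecticGroup (Fin n) F, g.1.charpoly.natDegree = n + n := fun g => by simp
      rcases lt_trichotomy i (n + n) with k | rfl | k
      · simpa [Nat.add_sub_cancel' hi] using congrFun e ⟨i - n, by omega⟩
      · rw [← d g, (charpoly_monic _).coeff_natDegree, d g, ← d h, (charpoly_monic _).coeff_natDegree]
      · rw [coeff_eq_zero_of_natDegree_lt (d g ▸ k), coeff_eq_zero_of_natDegree_lt (d h ▸ k)]
    ext i
    by_cases hi : n ≤ i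
    · exact Q i hi
    · rw [P g i (by omega), P h i (by omega), Q _ (by omega)]
  · have E : ∀ v : Fin n → F, ∃ g : symplecticGroup (Fin n) F, (orderOf g).Coprime p ∧ ∀ x : AlgebraicClosure F, x ≠ 0 →
        aeval x g.1.charpoly = x ^ n * aeval (x + x⁻¹) (X ^ n + ofFn n v) := fun v => by
      obtain ⟨g, hg⟩ := exists_sp_charpoly (monic_X_pow_add (ofFn_degree_lt v)) (n := n) (by
        rw [natDegree_add_eq_left_of_degree_lt (by simpa using ofFn_degree_lt v), natDegree_X_pow])
      obtain ⟨g', h1, h2⟩ := exists_ss_part p (symplecticGroup (Fin n) F).subtype g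
      exact ⟨g', h1, fun x hx => (congrArg _ h2).trans (hg x hx)⟩
    choose g h1 h2 using E
    refine Nat.card_le_card_of_injective (fun v => ⟨ConjClasses.mk (g v), g v, rfl, h1 v⟩) fun v w e => ?_
    have e := c (ConjClasses.mk_eq_mk_iff_isConj.1 (congrArg Subtype.val e))
    refine injective_ofFn n (add_left_cancel (a := X ^ n) (map_injective _ (algebraMap F (AlgebraicClosure F)).injective
      (Polynomial.funext fun t => ?_)))
    obtain ⟨x, hx⟩ := IsAlgClosed.exists_root (X ^ 2 - C t * X + 1) (ne_of_eq_of_ne (show _ = 2 by compute_degree!) (by simp))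
    simp only [IsRoot, eval_add, eval_sub, eval_pow, eval_X, eval_mul, eval_C, eval_one] at hx
    have x0 : x ≠ 0 := by rintro rfl; simp at hx
    obtain rfl : t = x + x⁻¹ := by field_simp; linear_combination -hx
    rw [eval_map, eval_map]
    exact mul_left_cancel₀ (pow_ne_zero n x0) ((h2 v x x0).symm.trans (e ▸ h2 w x x0))


end Cfsg.Agent.S2385
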