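import Cfsg.Statements.S2386
import Cfsg.Agent.H5.SS

set_option autoImplicit false
open Cfsg

namespace Cfsg.Agent.S2386

open H5 Matrix Polynomial

/-- In the special unitary group `SU_n(q)` (matrices of determinant one over the field with `q²` elements preserving the standard Hermitian form), `q` a power of the prime `p`, the number of conjugacy classes of elements of order prime to `p` is `q^(n-1)`. -/
theorem result {F : Type*} [Field F] [Fintype F] {q : ℕ} (hF : Fintype.card F = q ^ 2) (p : ℕ) [Fact p.Prime] [CharP F p] (n : ℕ) (hn : 1 ≤ n) :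
    Nat.card {c : ConjClasses ↥(Cfsg.SU n F q) // ∃ g : ↥(Cfsg.SU n F q), ConjClasses.mk g = c ∧ (orderOf g).Coprime p} = q ^ (n - 1) := by
  obtain ⟨n, rfl⟩ := Nat.exists_eq_add_of_le' hn
  let ε : F := (-1) ^ (n + 1)
  have s : ε * ε = 1 := by rw [← mul_pow]; simp
  have sε : conj hF ε = ε := by simp [ε]
  let φ := SpecialLinearGroup.coeMonoidHom.comp (Cfsg.SU (n + 1) F q).subtype
  have L : ∀ A : Matrix (Fin (n + 1)) (Fin (n + 1)) F, A.det = 1 → ∀ i ≤ n + 1,
      ((A.map (conj hF))ᵀ)⁻¹.charpoly.coeff i = ε * conj hF (A.charpoly.coeff (n + 1 - i)) := fun A h i hi => by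
    rw [coeff_charpoly_inv (by rw [det_transpose, ← RingHom.mapMatrix_apply, ← RingHom.map_det, h, map_one]) (by simpa),
      charpoly_transpose, charpoly_map, coeff_map, Fintype.card_fin]
  rw [card_classes (X := {w : Fin n → F // ∀ i, w i = ε * conj hF (w i.rev)})
    (fun g x => (orderOf g).Coprime p ∧ toFn _ g.1.1.charpoly = Fin.cons ε x.1)]
  · obtain ⟨θ, hθ⟩ := DFunLike.ne_iff.1 (conj_ne_id hF)
    have hθ : θ - conj hF θ ≠ 0 := sub_ne_zero.2 (Ne.symm hθ)
    have := Nat.card_eq_of_bijective (fun x : {w : Fin n → F // ∀ i, w i = ε * conj hF (w i.rev)} ×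
      {w : Fin n → F // ∀ i, w i = ε * conj hF (w i.rev)} => x.1.1 + θ • x.2.1) ⟨fun ⟨⟨a, ha⟩, b, hb⟩ ⟨⟨c, hc⟩, d, hd⟩ e => by
        have k : ∀ i, b i = d i := fun i => by
          have e1 := congrFun e i
          have e2 := congrArg (conj hF) (congrFun e i.rev)
          simp only [Pi.add_apply, Pi.smul_apply, smul_eq_mul, map_add, map_mul] at e1 e2
          exact mul_left_cancel₀ hθ (by linear_combination e1 - ε * e2 - ha i + hc i - conj hF θ * hb i + conj hF θ * hd i)
        obtain rfl : b = d := funext k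
        obtain rfl : a = c := add_right_cancel e
        rfl, fun w => by
        have t : conj hF θ - θ ≠ 0 := fun h => hθ (by linear_combination -h)
        refine ⟨⟨⟨fun i => (θ * (ε * conj hF (w i.rev)) - conj hF θ * w i) / (θ - conj hF θ), fun i => ?_⟩,
          ⟨fun i => (w i - ε * conj hF (w i.rev)) / (θ - conj hF θ), fun i => ?_⟩⟩, funext fun i => ?_⟩
        · simp [conj_conj, sε]; field_simp; linear_combination -(conj hF θ) * (θ - conj hF θ) * w i * s
        · simp [conj_conj, sε]; field_simp; linear_combination (θ - conj hF θ) * w i * s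
        · simp; field_simp; ring⟩
    rw [Nat.card_prod, Nat.card_fun, Nat.card_eq_fintype_card (α := F), hF, ← sq, ← pow_mul, mul_comm, pow_mul] at this
    simpa using Nat.pow_left_injective two_ne_zero this
  · refine fun g => ⟨fun h => ⟨⟨Fin.tail (toFn (n + 1) g.1.1.charpoly), fun i => ?_⟩, h, (Fin.cons_self_tail _).symm.trans
      (congrArg (Fin.cons (α := fun _ => F) · (Fin.tail (toFn (n + 1) g.1.1.charpoly))) ?_)⟩, fun ⟨_, h, _⟩ => h⟩
    · have : ((g.1.1.map (conj hF))ᵀ)⁻¹ = g.1.1 := inv_eq_right_inv (matrix_ext_mulVec fun x => (hermF_nondeg _ hF).ext_left fun y => by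
        obtain ⟨y, rfl⟩ := (suEquiv _ hF g).1.symm.surjective y
        rw [← mulVec_mulVec, herm_adj, one_mulVec, ← suEquiv_apply _ hF, ← suEquiv_apply _ hF, (suEquiv _ hF g).2.1.1])
      have := this ▸ L _ g.1.2 (i + 1) (by omega)
      simpa [toFn, Fin.tail, show n - (i + 1) + 1 = n - i by omega] using this
    exact mul_left_cancel₀ (by simp) ((det_eq_toFn g.1.1).symm.trans (g.1.2.trans s.symm))
  · intro x
    obtain ⟨g, h1, h2⟩ := exists_ss p (Fin.cons ε x.1) (by simp [ε])
    have d : g.1.det = 1 := by rw [det_eq_toFn, h2]; exact s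
    let ψ : GL (Fin (n + 1)) F →* Matrix _ _ F := Units.coeHom _
    have hn : ((orderOf g : ℕ) : F) ≠ 0 := mt (CharP.cast_eq_zero_iff F p _).1 ((Fact.out : p.Prime).coprime_iff_not_dvd.1 h1.symm)
    have g1 : g.1 ^ orderOf g = 1 := by rw [← Units.val_pow_eq_pow_val, pow_orderOf_eq_one, Units.val_one]
    obtain ⟨B, hB⟩ := exists_gu hF (A := g) (isConj_of_charpoly (semisimple_of_pow hn g1) (semisimple_of_pow hn (by
      rw [inv_pow', ← transpose_pow, ← RingHom.mapMatrix_apply, ← map_pow, g1]; simp)) (charpoly_ext (funext fun i => by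
        have c : ∀ j : Fin (n + 1), g.1.charpoly.coeff j = Fin.cons (α := fun _ => F) ε x.1 j := fun j => congrFun h2 j
        change g.1.charpoly.coeff i = ((g.1.map (conj hF))ᵀ)⁻¹.charpoly.coeff i
        rw [L _ d _ i.2.le, c]
        refine i.cases ?_ fun i => ?_
        · have : g.1.charpoly.coeff (n + 1) = 1 := by simpa using (charpoly_monic g.1).coeff_natDegree
          simp [this]
        · have := c i.rev.succ
          simp [show n - (i + 1) + 1 = n - i by omega] at this
          simp [this, ← x.2 i])))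
    let y : Cfsg.SU (n + 1) F q := (suEquiv _ hF).symm ⟨_, (guEquiv _ hF B).2, Units.ext (by
      rw [LinearEquiv.coe_det]; exact (det_glEquiv B.1).trans (by rw [det_eq_toFn, ← IsConj.charpoly hB, h2]; exact s))⟩
    have e : y.1.1 = B.1.1 := matrix_ext_mulVec fun v => by rw [← suEquiv_apply _ hF]; simp [y]; rfl
    refine ⟨y, ?_, by rw [e, ← IsConj.charpoly hB, h2]⟩
    refine h1.coprime_dvd_left (orderOf_dvd_of_pow_eq_one (Subtype.ext (Subtype.ext ?_)))
    have := hB.pow (orderOf g)
    rw [g1, isConj_one_right, ← e] at this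
    exact this
  refine fun g g' x x' h h' => ⟨fun c => ?_, fun e => su_conj_ss hF p h.1 h'.1 (charpoly_ext (by rw [h.2, h'.2, e]))⟩
  have : g.1.1.charpoly = g'.1.1.charpoly := IsConj.charpoly (φ.map_isConj c)
  exact Subtype.ext (Fin.cons_injective2.eq_iff.1 (h.2.symm.trans ((congrArg _ this).trans h'.2))).2


end Cfsg.Agent.S2386
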