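import Cfsg.Statements.S2387
import Cfsg.Agent.H5.Sim2

set_option autoImplicit false
open scoped MatrixGroups
open Cfsg

namespace Cfsg.Agent.S2387

open H5 Matrix Polynomial

/-- In `GL_n(q)` with `n ≥ 1`, `q` a power of the prime `p`, the number of conjugacy classes of elements of order prime to `p` (diagonalisable over the algebraic closure; determined by the characteristic polynomial) is `(q - 1) q^(n-1)`. -/
theorem result {F : Type*} [Field F] [Fintype F] {q : ℕ} (hq : Fintype.card F = q) (p : ℕ) [Fact p.Prime] [CharP F p] (n : ℕ) (hn : 1 ≤ n) :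
    Nat.card {c : ConjClasses (GL (Fin n) F) // ∃ g : GL (Fin n) F, ConjClasses.mk g = c ∧ (orderOf g).Coprime p} = (q - 1) * q ^ (n - 1) := by
  obtain ⟨n, rfl⟩ := Nat.exists_eq_add_of_le' hn
  rw [card_classes (X := Fˣ × (Fin n → F)) (fun g x => (orderOf g).Coprime p ∧ toFn _ g.1.charpoly = Fin.cons x.1.1 x.2)]
  · simp [hq, card_units_eq]
  · exact fun g => ⟨fun h => ⟨⟨Units.mk0 (toFn (n + 1) g.1.charpoly 0) fun e => g.det_ne_zero (by rw [det_eq_toFn, e, mul_zero]), _⟩, h, (Fin.cons_self_tail _).symm⟩,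
      fun ⟨_, h, _⟩ => h⟩
  · exact fun x => exists_ss p _ x.1.ne_zero
  refine fun g g' x x' h h' => ⟨fun c => ?_, fun e => isConj_GL.2 (isConj_of_charpoly (ss_of_coprime (Units.coeHom (Matrix (Fin (n + 1)) (Fin (n + 1)) F)) h.1 :)
    (ss_of_coprime (Units.coeHom (Matrix (Fin (n + 1)) (Fin (n + 1)) F)) h'.1 :) (charpoly_ext (by rw [h.2, h'.2, e])))⟩
  have := Fin.cons_injective2.eq_iff.1 (h.2.symm.trans ((congrArg _ (IsConj.charpoly (isConj_GL.1 c))).trans h'.2))
  exact Prod.ext (Units.ext this.1) this.2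


end Cfsg.Agent.S2387
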