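import Cfsg.Statements.S2388
import Cfsg.Agent.H5.Sim2

set_option autoImplicit false
open Cfsg

namespace Cfsg.Agent.S2388

open H5 Matrix

/-- In `SL_n(q)`, `q` a power of the prime `p`, two elements of order prime to `p` with the same characteristic polynomial are conjugate in `SL_n(q)` (not merely in `GL_n`). -/
theorem result {F : Type*} [Field F] [Fintype F] (p : ℕ) [Fact p.Prime] [CharP F p] (n : ℕ)
    (g h : Matrix.SpecialLinearGroup (Fin n) F) (hg : (orderOf g).Coprime p) (hh : (orderOf h).Coprime p)
    (hc : (g : Matrix (Fin n) (Fin n) F).charpoly = (h : Matrix (Fin n) (Fin n) F).charpoly) : IsConj g h := by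
  have k : ∀ g : SpecialLinearGroup (Fin n) F, (orderOf g).Coprime p → Module.End.IsSemisimple (toLin' g.1) := fun g hg =>
    semisimple_of_pow (mt (CharP.cast_eq_zero_iff F p _).1 ((Nat.Prime.coprime_iff_not_dvd Fact.out).1 hg.symm))
      (congrArg Subtype.val (pow_orderOf_eq_one g))
  cases n
  · rw [Subsingleton.elim g h]
  exact isConj_SL (isConj_of_charpoly (k g hg) (k h hh) hc) fun c _ => exists_comm_det (k g hg) c


end Cfsg.Agent.S2388
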