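import Cfsg.Statements.S2391
import Mathlib

set_option autoImplicit false
open Cfsg

namespace Cfsg.Agent.S2391

open Matrix

/-- The Borel–Tits property of `SL_n(q)` in flag form: for a field `F` of characteristic `p` with finitely many elements and a non-trivial `p`-subgroup `U` of `SL_n(F)`, there is a flag `0 = V₀ < V₁ < ⋯ < V_{k+1} = F^n` with at least one proper non-zero member such that every element of the normaliser of `U` maps each `V_i` onto itself and every element of `U` acts trivially on each quotient `V_{i+1}/V_i` (so the normaliser lies in the parabolic subgroup of the flag and `U` in its unipotent radical). -/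
theorem result {F : Type*} [Field F] [Fintype F] (p : ℕ) [Fact p.Prime] [CharP F p] (n : ℕ)
    (U : Subgroup (Matrix.SpecialLinearGroup (Fin n) F)) (hU : IsPGroup p ↥U) (hne : U ≠ ⊥) :
    ∃ (k : ℕ) (V : Fin (k + 2) → Submodule F (Fin n → F)), 1 ≤ k ∧ StrictMono V ∧ V 0 = ⊥ ∧ V (Fin.last (k + 1)) = ⊤ ∧
      (∀ g ∈ Subgroup.normalizer (U : Set (Matrix.SpecialLinearGroup (Fin n) F)), ∀ i, (V i).map (Matrix.mulVecLin (g : Matrix (Fin n) (Fin n) F)) = V i) ∧
      (∀ u ∈ U, ∀ i : Fin (k + 1), ∀ v ∈ V i.succ, (u : Matrix (Fin n) (Fin n) F).mulVec v - v ∈ V (Fin.castSucc i)) := by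
  let W : ℕ → Submodule F (Fin n → F) := fun i => Nat.rec ⊥ (fun _ X => ⨅ u : U, X.comap (mulVecLin u.1.1 - LinearMap.id)) i
  have hW : ∀ i v, v ∈ W (i + 1) ↔ ∀ u ∈ U, u.1 *ᵥ v - v ∈ W i := fun i v => by simp [W, Submodule.mem_iInf]
  have inv : ∀ i, ∀ g ∈ Subgroup.normalizer (U : Set (SpecialLinearGroup (Fin n) F)), ∀ v ∈ W i, g.1 *ᵥ v ∈ W i := fun i => by
    induction i with
    | zero => rintro g - _ rfl; simp
    | succ i ih =>
      intro g hg v hv
      refine (hW i _).2 fun u hu => ?_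
      have := ih g hg _ ((hW i v).1 hv _ ((Subgroup.mem_normalizer_iff''.1 hg u).1 hu))
      rwa [mulVec_sub, mulVec_mulVec, show g.1 * (g⁻¹ * u * g).1 = u.1 * g.1 from
        congrArg Subtype.val (show g * (g⁻¹ * u * g) = u * g by group), ← mulVec_mulVec] at this
  have lt : ∀ i, W i ≠ ⊤ → W i < W (i + 1) := fun i h => by
    refine lt_of_le_of_ne (fun v hv => (hW i v).2 fun u hu => sub_mem (inv i u (U.le_normalizer hu) v hv) hv) fun e => ?_
    let ρ : Representation F U (Fin n → F) := (toLinAlgEquiv' : _ ≃ₐ[F] Module.End F _).toMonoidHom.comp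
      ((SpecialLinearGroup.coeMonoidHom).comp U.subtype)
    let := MulAction.compHom ((Fin n → F) ⧸ W i) (ρ.quotient (W i) fun u v hv => inv i u (U.le_normalizer u.2) v hv)
    have := Submodule.Quotient.nontrivial_iff.2 h
    obtain ⟨b, hb, ne⟩ := hU.exists_fixed_point_of_prime_dvd_card_of_fixed_point ((Fin n → F) ⧸ W i) (a := 0) (by
      obtain ⟨f, -, hf⟩ := FiniteField.card F p
      rw [Module.natCard_eq_pow_finrank (K := F), Nat.card_eq_fintype_card, hf]
      exact dvd_pow (dvd_pow_self p f.ne_zero) Module.finrank_pos.ne')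
      fun u => map_zero (ρ.quotient (W i) (fun u v hv => inv i u (U.le_normalizer u.2) v hv) u)
    obtain ⟨b, rfl⟩ := Submodule.Quotient.mk_surjective _ b
    exact ne ((Submodule.Quotient.mk_eq_zero _).2 (e ▸ (hW i b).2 fun u hu => (Submodule.Quotient.eq _).1 (hb ⟨u, hu⟩))).symm
  have ex : ∃ m, W m = ⊤ := by
    by_contra! H
    exact not_injective_infinite_finite W (strictMono_nat_of_lt_succ fun i => lt i (H i)).injective
  classical
  have h1 : W 1 ≠ ⊤ := fun e => hne (eq_bot_iff.2 fun u hu => Subtype.ext (toLin'.injective (LinearMap.ext fun v => by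
    simpa [W, sub_eq_zero] using (hW 0 v).1 (e ▸ trivial) u hu)))
  have h0 : W 0 ≠ ⊤ := fun e => h1 (eq_top_iff.2 fun v _ => (hW 0 v).2 fun u _ => e ▸ trivial)
  obtain ⟨k, hk⟩ : ∃ k, Nat.find ex = k + 1 := Nat.exists_eq_succ_of_ne_zero fun e => h0 (by
    have := Nat.find_spec ex; rwa [e] at this)
  have mn : ∀ i < k + 1, W i ≠ ⊤ := fun i hi => Nat.find_min ex (by rwa [hk])
  refine ⟨k, fun i => W i, ?_, Fin.strictMono_iff_lt_succ.2 fun i => lt _ (mn _ i.2), rfl, ?_, fun g hg i => ?_,
    fun u hu i v hv => (hW i v).1 hv u hu⟩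
  · by_contra! c
    obtain rfl : k = 0 := by omega
    exact h1 (by have := Nat.find_spec ex; rwa [hk] at this)
  · have := Nat.find_spec ex; rwa [hk] at this
  · refine le_antisymm (by rintro _ ⟨v, hv, rfl⟩; exact inv i g hg v hv) fun v hv => ⟨_, inv i _ (inv_mem hg) v hv, ?_⟩
    rw [mulVecLin_apply, mulVec_mulVec, show g.1 * (g⁻¹).1 = 1 from congrArg Subtype.val (mul_inv_cancel g), one_mulVec]


end Cfsg.Agent.S2391
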