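import Cfsg.Statements.S2392
import Cfsg.Agent.H5.Wt

set_option autoImplicit false
open scoped MatrixGroups
open Cfsg

namespace Cfsg.Agent.S2392

open H5 Matrix Module

theorem sl_step {F ι : Type*} [Field F] [Fintype ι] [DecidableEq ι] {a b : ι → F} (ha : a ≠ 0) (h : b ∉ F ∙ a) :
    ∃ g : Matrix.SpecialLinearGroup ι F, g.1 *ᵥ a = b := by
  obtain ⟨f, h1, h2⟩ := Submodule.exists_dual_map_eq_bot_of_notMem (p := F ∙ (b - a)) (x := a) (fun c => by
    obtain ⟨c, e⟩ := Submodule.mem_span_singleton.1 c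
    have c0 : c ≠ 0 := by rintro rfl; exact ha (by simpa using e.symm)
    exact h (Submodule.mem_span_singleton.2 ⟨c⁻¹ + 1, by rw [add_smul, one_smul]; nth_rw 1 [← e]; simp [c0]⟩)) inferInstance
  have k : ∀ x, (fun i => f (Pi.single i 1)) ⬝ᵥ x = f x := fun x => by
    conv_rhs => rw [pi_eq_sum_univ' x]
    simp [dotProduct, mul_comm]
  have k2 : f (b - a) = 0 := h2.le ⟨_, Submodule.mem_span_singleton_self _, rfl⟩
  exact ⟨⟨1 + vecMulVec (b - a) ((f a)⁻¹ • fun i => f (Pi.single i 1)), by
    rw [vecMulVec_eq Unit, det_one_add_replicateCol_mul_replicateRow, smul_dotProduct, k, k2]; simp⟩, by simp [add_mulVec, smul_mulVec, vecMulVec_mulVec, k, h1, smul_smul]⟩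

theorem sl_move {F ι : Type*} [Field F] [Fintype ι] [DecidableEq ι] (h : 2 ≤ Fintype.card ι) {a b : ι → F} (ha : a ≠ 0) (hb : b ≠ 0) :
    ∃ g : Matrix.SpecialLinearGroup ι F, g.1 *ᵥ a = b := by
  by_cases c : b ∈ F ∙ a
  · obtain ⟨x, -, hx⟩ := SetLike.exists_of_lt (show (F ∙ a) < ⊤ from lt_top_iff_ne_top.2 fun e => by
      have := finrank_span_singleton (K := F) ha
      rw [e] at this; simp at this; omega)
    have x0 : x ≠ 0 := by rintro rfl; simp at hx
    obtain ⟨g, e⟩ := sl_step ha hx
    obtain ⟨g', e'⟩ := sl_step x0 (b := b) fun k => by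
      obtain ⟨t, rfl⟩ := Submodule.mem_span_singleton.1 k
      exact hx ((Submodule.smul_mem_iff _ (left_ne_zero_of_smul hb)).1 c)
    exact ⟨g' * g, by rw [← e', ← e, mulVec_mulVec]; rfl⟩
  · exact sl_step ha c

theorem char_inj {F K ι : Type*} [Field F] [Field K] [Fintype ι] [DecidableEq ι] {ψ : AddChar F K} (h : ψ ≠ 1) {u v : ι → F}
    (e : ∀ x, ψ (x ⬝ᵥ u) = ψ (x ⬝ᵥ v)) : u = v := funext fun i => by_contra fun c => h (DFunLike.ext _ _ fun a => by
  have := e (Pi.single i (a / (u i - v i)))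
  rw [single_dotProduct, single_dotProduct, show a / (u i - v i) * u i = a + a / (u i - v i) * v i by field_simp [sub_ne_zero.2 c]; ring,
    ψ.map_add_eq_mul] at this
  exact mul_right_cancel₀ (ψ.val_isUnit _).ne_zero (this.trans (one_mul _).symm))

/-- A lower bound for representations in cross characteristic: for `n ≥ 3` and a field `F` with `q` elements, every homomorphism from `SL_n(F)` to `GL_d(K)`, `K` a field of characteristic different from that of `F`, whose kernel is central has `d ≥ q^(n-1) - 1`. -/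
theorem result {F : Type*} [Field F] [Fintype F] {q : ℕ} (hq : Fintype.card F = q) (n : ℕ) (hn : 3 ≤ n)
    {K : Type*} [Field K] (hK : ringChar K ≠ ringChar F) {d : ℕ}
    (ρ : Matrix.SpecialLinearGroup (Fin n) F →* GL (Fin d) K) (hker : ρ.ker ≤ Subgroup.center (Matrix.SpecialLinearGroup (Fin n) F)) :
    q ^ (n - 1) - 1 ≤ d := by
  subst hq
  obtain ⟨m, rfl⟩ := Nat.exists_eq_add_of_le' (show 1 ≤ n by omega)
  let L := AlgebraicClosure K
  let e : Unit ⊕ Fin m ≃ Fin (m + 1) := Fintype.equivFinOfCardEq (by simp [add_comm])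
  let σ : Matrix.SpecialLinearGroup (Unit ⊕ Fin m) F →* End L (Fin d → L) := (toLinAlgEquiv' : Matrix _ _ L ≃ₐ[L] _).toMonoidHom.comp
    ((algebraMap K L).mapMatrix.toMonoidHom.comp ((Units.coeHom _).comp (ρ.comp (slCongr e).toMonoidHom)))
  let x : (Fin m → F) → Matrix.SpecialLinearGroup (Unit ⊕ Fin m) F := fun φ => ⟨fromBlocks 1 (replicateRow Unit φ) 0 1, by simp⟩
  have xa : ∀ a b, x (a + b) = x a * x b := fun a b => Subtype.ext (by
    change _ = (x a).1 * (x b).1
    simp [x, fromBlocks_multiply, replicateRow_add, add_comm])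
  have x0 : x 0 = 1 := Subtype.ext (by simp [x])
  have hc : ∀ a b, Commute (σ (x a)) (σ (x b)) := fun a b => Commute.map (by rw [Commute, SemiconjBy, ← xa, ← xa, add_comm]) σ
  have xp : ∀ k a, x a ^ k = x (k • a) := fun k a => by induction k <;> simp [*, pow_succ, add_smul]
  let i0 : Fin m := ⟨0, by omega⟩
  obtain ⟨χ, v, v0, hv, ne⟩ : ∃ (χ : (Fin m → F) → L) (v : _), v ≠ 0 ∧ (∀ a, σ (x a) v = χ a • v) ∧ χ (Pi.single i0 1) ≠ 1 := by
    by_contra! H
    have := wt_ext hc (m := ringChar F) (fun c => by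
      rw [CharP.cast_eq_zero_iff L (ringChar K)] at c
      rcases (CharP.char_is_prime F (ringChar F)).eq_one_or_self_of_dvd _ c with c | c
      exacts [CharP.ringChar_ne_one c, hK c]) (fun a => by rw [← map_pow, xp, ← Nat.cast_smul_eq_nsmul F]; simp [x0])
      (a := σ (x (Pi.single i0 1))) (b := σ 1) fun χ v v0 hv => by simp [hv, H χ v v0 hv]
    have k := (mem_center_congr (slCongr e) _).2 (hker (show slCongr e (x (Pi.single i0 1)) ∈ ρ.ker from (Units.val_injective
      ((map_injective (algebraMap K L).injective) (toLinAlgEquiv'.injective this))).trans (by simp)))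
    obtain ⟨r, -, k⟩ := Matrix.SpecialLinearGroup.mem_center_iff.1 k
    simpa [x] using congrFun (congrFun k (.inl ())) (.inr i0)
  let χ' : AddChar (Fin m → F) L := ⟨χ, smul_left_injective L v0 (by simp [← hv, x0]), fun a b => smul_left_injective L v0 (by
    simp only [← hv, xa, map_mul, End.mul_apply]; rw [hv b, map_smul, hv, smul_smul, mul_comm])⟩
  let ψ : AddChar F L := χ'.compAddMonoidHom (.single (fun _ => F) i0)
  have ψ1 : ψ ≠ 1 := fun c => ne (DFunLike.congr_fun c 1)

  have li := (linearIndependent_monoidHom (Multiplicative (Fin m → F)) L).comp AddChar.toMonoidHom AddChar.toMonoidHomEquiv.injective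
  have := li.finite
  have := Fintype.ofFinite (AddChar (Fin m → F) L)
  have inj : Function.Injective fun u : Fin m → F => ψ.compAddMonoidHom (dotProductBilin F F u).toAddMonoidHom := fun a b e =>
    char_inj ψ1 fun y => by simpa [dotProduct_comm] using DFunLike.congr_fun e y
  obtain ⟨u, hu⟩ := (inj.bijective_of_nat_card_le (by simpa using li.fintype_card_le_finrank)).2 χ'
  · have k : ∀ a, χ a = ψ (a ⬝ᵥ u) := fun a => by rw [dotProduct_comm]; exact (DFunLike.congr_fun hu a).symm
    have u0 : u ≠ 0 := by rintro rfl; simp [k] at ne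
    have := (wt_card hc (fun w : {w : Fin m → F // w ≠ 0} => fun a => ψ (a ⬝ᵥ w)) (fun a b e => Subtype.ext (char_inj ψ1 (congrFun e))) fun w => by
      obtain ⟨h, e⟩ := sl_move (by simp; omega) u0 w.2
      let g : Matrix.SpecialLinearGroup (Unit ⊕ Fin m) F := ⟨fromBlocks 1 0 0 h.1, by simp⟩
      refine ⟨σ g v, fun c => v0 (by simpa [← End.mul_apply, ← map_mul] using congrArg (σ g⁻¹) c), fun a => ?_⟩
      have : x a * g = g * x (a ᵥ* h.1) := Subtype.ext (by
        change (x a).1 * g.1 = g.1 * (x _).1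
        simp [x, g, fromBlocks_multiply, replicateRow_vecMul])
      rw [← End.mul_apply, ← map_mul, this, map_mul, End.mul_apply, hv, map_smul, k, ← e, ← dotProduct_mulVec]).2
    classical
    rw [Nat.card_eq_fintype_card] at this
    simpa using this


end Cfsg.Agent.S2392
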