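import Cfsg.Statements.S2393
import Cfsg.Agent.H5.Wt
import Cfsg.Agent.S2392

set_option autoImplicit false
open scoped MatrixGroups
open Cfsg

namespace Cfsg.Agent.S2393

open H5 Matrix Module

/-- A lower bound for representations in cross characteristic: for `n ≥ 2` and a field `F` with `q` elements, `q` odd, every homomorphism from the symplectic group `Sp_{2n}(F)` to `GL_d(K)`, `K` a field of characteristic different from that of `F`, whose kernel is central has `d ≥ q^(n-1)(q-1)/2`. -/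
theorem result {F : Type*} [Field F] [Fintype F] {q : ℕ} (hq : Fintype.card F = q) (hodd : Odd q) (n : ℕ) (hn : 2 ≤ n)
    {K : Type*} [Field K] (hK : ringChar K ≠ ringChar F) {d : ℕ}
    (ρ : ↥(Matrix.symplecticGroup (Fin n) F) →* GL (Fin d) K) (hker : ρ.ker ≤ Subgroup.center ↥(Matrix.symplecticGroup (Fin n) F)) :
    q ^ (n - 1) * (q - 1) / 2 ≤ d := by
  subst hq
  classical
  have h2 : (2 : F) ≠ 0 := fun c => by
    have := (CharP.charP_iff_prime_eq_zero Nat.prime_two).2 c
    exact (Nat.not_even_iff_odd.2 hodd) (FiniteField.even_card_of_char_two (ringChar.eq F 2) |> Nat.even_iff.2)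
  obtain ⟨m, rfl⟩ := Nat.exists_eq_add_of_le' (show 1 ≤ n by omega)
  let L := AlgebraicClosure K
  let σ : symplecticGroup (Fin (m + 1)) F →* End L (Fin d → L) := (toLinAlgEquiv' : Matrix _ _ L ≃ₐ[L] _).toMonoidHom.comp
    ((algebraMap K L).mapMatrix.toMonoidHom.comp ((Units.coeHom _).comp ρ))
  let e : Fin (m + 1) → F := Pi.single 0 1
  let x : (Fin (m + 1) → F) → symplecticGroup (Fin (m + 1)) F := fun φ => ⟨fromBlocks 1 (vecMulVec e φ + vecMulVec φ e) 0 1, by
    simp [SymplecticGroup.mem_iff, J, fromBlocks_transpose, fromBlocks_multiply, add_comm]; abel⟩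
  have xa : ∀ a b, x (a + b) = x a * x b := fun a b => Subtype.ext (by
    simp [x, fromBlocks_multiply, vecMulVec_add, add_vecMulVec]; abel)
  have x0 : x 0 = 1 := Subtype.ext (by simp [x])
  have hc : ∀ a b, Commute (σ (x a)) (σ (x b)) := fun a b => Commute.map (by rw [Commute, SemiconjBy, ← xa, ← xa, add_comm a]) σ
  have xp : ∀ k a, x a ^ k = x (k • a) := fun k a => by induction k <;> simp [*, pow_succ, add_smul]
  obtain ⟨χ, v, v0, hv, ne⟩ : ∃ (χ : (Fin (m + 1) → F) → L) (v : _), v ≠ 0 ∧ (∀ a, σ (x a) v = χ a • v) ∧ χ e ≠ 1 := by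
    by_contra! H
    have := wt_ext hc (m := ringChar F) (fun c => by
      rw [CharP.cast_eq_zero_iff L (ringChar K)] at c
      rcases (CharP.char_is_prime F (ringChar F)).eq_one_or_self_of_dvd _ c with c | c
      exacts [CharP.ringChar_ne_one c, hK c]) (fun a => by rw [← map_pow, xp, ← Nat.cast_smul_eq_nsmul F]; simp [x0])
      (a := σ (x e)) (b := σ 1) fun χ v v0 hv => by simp [hv, H χ v v0 hv]
    have k := Subgroup.mem_center_iff.1 (hker (show x e ∈ ρ.ker from (Units.val_injective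
      ((map_injective (algebraMap K L).injective) (toLinAlgEquiv'.injective this))).trans (by simp))) ⟨_, SymplecticGroup.J_mem _ _⟩
    have := congrArg (·.1 (.inl 0) (.inl 0)) k
    simp [x, e, J, fromBlocks_multiply, vecMulVec_apply, -fromBlocks_zero, one_add_one_eq_two, h2.symm] at this
  let χ' : AddChar (Fin (m + 1) → F) L := ⟨χ, smul_left_injective L v0 (by simp [← hv, x0]), fun a b => smul_left_injective L v0 (by
    simp only [← hv, xa, map_mul, End.mul_apply]; rw [hv b, map_smul, hv, smul_smul, mul_comm])⟩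
  let ψ : AddChar F L := χ'.compAddMonoidHom (LinearMap.toSpanSingleton F _ e).toAddMonoidHom
  have ψ1 : ψ ≠ 1 := fun c => ne (show χ' e = 1 by simpa [ψ] using DFunLike.congr_fun c 1)
  let S := (powMonoidHom 2 : Fˣ →* Fˣ).range
  choose r hr using fun s : S => s.2
  have := (wt_card hc (fun w : S × (Fin m → F) => fun a => χ' ((r w.1).1 • a) * ψ ((Fin.cons ((r w.1).1 ^ 2 - r w.1) w.2 : Fin (m + 1) → F) ⬝ᵥ a)) ?_ ?_).2
  · have k := (powMonoidHom 2 : Fˣ →* Fˣ).ker.card_mul_index
    rw [Subgroup.index_ker, show Nat.card (powMonoidHom 2 : Fˣ →* Fˣ).ker = _ from card_pow_eq_one_units 2, card_units_eq,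
      Nat.gcd_eq_left (even_iff_two_dvd.1 (Nat.Odd.sub_odd hodd odd_one))] at k
    simp only [Nat.card_prod, Nat.card_fun, finrank_fin_fun, Nat.card_eq_fintype_card (α := F), Nat.card_eq_fintype_card (α := Fin m), Fintype.card_fin] at this
    rw [← k, mul_left_comm, Nat.mul_div_cancel_left _ two_pos, mul_comm]; exact this
  · rintro ⟨s, a⟩ ⟨t, b⟩ h
    have k : ∀ (c : Fˣ) (a : Fin m → F) y, χ' (c.1 • y • e) * ψ ((Fin.cons (c.1 ^ 2 - c) a : Fin (m + 1) → F) ⬝ᵥ y • e) = ψ (y * c ^ 2) := fun c a y => by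
      rw [smul_smul, show χ' ((c.1 * y) • e) = ψ (c.1 * y) from rfl, ← ψ.map_add_eq_mul]; simp [e]; ring_nf
    obtain rfl : s = t := Subtype.ext (Units.ext (by
      have := S2392.char_inj ψ1 (ι := Unit) (u := fun _ => (r s).1 ^ 2) (v := fun _ => (r t).1 ^ 2) fun y => by
        simpa using (k ..).symm.trans ((congrFun h (y () • e)).trans (k ..))
      simpa [← hr] using congrFun this ()))
    have := S2392.char_inj ψ1 fun y => (congrArg ψ (dotProduct_comm ..)).trans
      ((mul_left_cancel₀ (χ'.val_isUnit _).ne_zero (congrFun h y)).trans (congrArg ψ (dotProduct_comm ..)))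
    exact Prod.ext rfl (Fin.cons_right_injective _ this)
  · rintro ⟨s, w⟩
    obtain ⟨c, hc⟩ : ∃ c, r s = c := ⟨_, rfl⟩
    let y : Fin (m + 1) → F := c⁻¹.1 • Fin.cons (c.1 ^ 2 - c) w
    let h : GL (Fin (m + 1)) F := .mkOfDetNeZero (1 + vecMulVec e y) (by
      rw [vecMulVec_eq Unit, det_one_add_replicateCol_mul_replicateRow]; simp [e, y, mul_sub, sq])
    let g : symplecticGroup (Fin (m + 1)) F := ⟨fromBlocks h.1 0 0 (h⁻¹).1ᵀ, by
      simp [SymplecticGroup.mem_iff, J, fromBlocks_transpose, fromBlocks_multiply, ← transpose_mul]⟩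
    refine ⟨σ g⁻¹ v, fun c => v0 (by simpa [← End.mul_apply, ← map_mul] using congrArg (σ g) c), fun a => ?_⟩
    have hh : ∀ a, h.1 *ᵥ a = a + (y ⬝ᵥ a) • e := fun a => by simp [h, add_mulVec, vecMulVec_mulVec]
    have he : h.1 *ᵥ e = c.1 • e := by simp [hh, e, y, mul_sub, sq, sub_smul]
    have : g * x a = x (c.1 • h.1 *ᵥ a) * g := Subtype.ext (by
      simp only [x, g, Submonoid.coe_mul, fromBlocks_multiply]
      have : (h⁻¹).1 *ᵥ (c.1 • e) = e := by rw [← he, mulVec_mulVec]; simp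
      simp only [mul_add, add_mul, mul_vecMulVec, vecMulVec_mul, he, vecMul_transpose, mulVec_smul, mulVec_mulVec, Units.inv_mul, one_mulVec,
        smul_vecMulVec, vecMulVec_smul, mul_one, one_mul, mul_zero, zero_mul, add_zero, zero_add, smul_mul_assoc] at this ⊢
      rw [← vecMulVec_smul _ (h.1 *ᵥ a), this])
    rw [← End.mul_apply, ← map_mul, show x a * g⁻¹ = g⁻¹ * x (c.1 • h.1 *ᵥ a) by rw [eq_inv_mul_iff_mul_eq, ← mul_assoc, this, mul_inv_cancel_right],
      map_mul, End.mul_apply, hv, map_smul, hc]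
    congr 1
    refine Eq.trans ?_ (χ'.map_add_eq_mul (c.1 • a) ((Fin.cons (c.1 ^ 2 - c) w ⬝ᵥ a) • e))
    simp [hh, y, smul_smul, χ']


end Cfsg.Agent.S2393
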