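import Cfsg.Statements.S2394
import Cfsg.Agent.S0245
import Cfsg.Agent.H5.SL
import Cfsg.Agent.H5.Zsig

set_option autoImplicit false
open scoped MatrixGroups
open Cfsg

namespace Cfsg.Agent.S2394

open scoped Pointwise


/-- The smallest degree of a faithful representation of the symplectic group `Sp_{2n}(q)` over its own field `F_q` is `2n`: every injective homomorphism from `Sp_{2n}(F)` to `GL_d(F)`, `F` the field with `q` elements, has `d ≥ 2n`. -/
theorem result {F : Type*} [Field F] [Fintype F] (n : ℕ) {d : ℕ}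
    (ρ : ↥(Matrix.symplecticGroup (Fin n) F) →* GL (Fin d) F) (hρ : Function.Injective ρ) : 2 * n ≤ d := by
  classical
  by_contra hc
  push Not at hc
  set q := Fintype.card F with hq
  have hq2 : 1 < q := Fintype.one_lt_card
  have h1 := Subgroup.card_dvd_of_injective ρ hρ
  rw [Cfsg.Agent.S0245.result hq.symm n, H5.card_GL, Fintype.card_fin, ← hq] at h1
  have hn : 1 ≤ n := by omega
  by_cases h6 : q = 2 ∧ 2 * n = 6
  · obtain ⟨h7, h8⟩ := h6
    obtain rfl : n = 3 := by omega
    rw [h7] at h1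
    revert h1
    have : d < 6 := hc
    interval_cases d <;> decide +kernel
  by_cases h2 : n = 1
  · subst h2
    have hd : d ≤ 1 := by omega
    have h3 : q ∣ ∏ i : Fin d, (q ^ d - q ^ (i : ℕ)) := (Dvd.dvd.mul_right (by simp) _).trans h1
    interval_cases d
    · simp at h3; omega
    · have h4 : q ∣ q - 1 := by simpa using (show q ∣ q ^ 1 - q ^ 0 from by rwa [Fin.prod_univ_one] at h3) 
      have := Nat.le_of_dvd (by omega) h4
      omega
  obtain ⟨r, hr, ho⟩ := H5.zsigmondy hq2 (show 1 < 2 * n by omega) h6 (by omega)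
  haveI := Fact.mk hr
  have h3 : r ∣ q ^ (2 * n) - 1 := by
    rw [← ZMod.natCast_eq_zero_iff, Nat.cast_sub (Nat.one_le_pow _ _ (by omega))]
    push_cast
    rw [← ho, pow_orderOf_eq_one, sub_self]
  have h4 : r ∣ ∏ i : Fin d, (q ^ d - q ^ (i : ℕ)) := by
    refine (h3.trans (Dvd.dvd.mul_left ?_ _)).trans h1
    have := Finset.dvd_prod_of_mem (fun i => q ^ (2 * (i + 1)) - 1) (Finset.mem_range.2 (show n - 1 < n by omega))
    simpa [Nat.sub_add_cancel hn] using this
  obtain ⟨i, -, hi⟩ := (Prime.dvd_finset_prod_iff hr.prime _).1 h4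
  rw [← ZMod.natCast_eq_zero_iff, Nat.cast_sub (Nat.pow_le_pow_right (by omega) i.2.le)] at hi
  push_cast at hi
  have h0 : (q : ZMod r) ≠ 0 := fun h => by
    rw [h, orderOf_zero] at ho
    omega
  obtain ⟨k, hk⟩ := Nat.exists_eq_add_of_lt i.2
  have h5 : (q : ZMod r) ^ (k + 1) = 1 := by
    rw [sub_eq_zero, show (q : ZMod r) ^ d = (q : ZMod r) ^ (i : ℕ) * (q : ZMod r) ^ (k + 1) by rw [← pow_add]; congr 1] at hi
    exact mul_left_cancel₀ (pow_ne_zero _ h0) (hi.trans (mul_one _).symm)
  have := Nat.le_of_dvd (by omega) (ho ▸ orderOf_dvd_of_pow_eq_one h5)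
  omega

end Cfsg.Agent.S2394
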