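import Cfsg.Statements.S2399
import Cfsg.Agent.H6.Mult4

set_option autoImplicit false
open scoped MatrixGroups
open Cfsg

namespace Cfsg.Agent.S2399

/-- Projective representations in the natural characteristic lift: for each of the types G₂, B₂, D₄, F₄, E₆, E₇, E₈ over any field `K` (for types B₂ and G₂ the field must have more than two elements — the cases where the Chevalley group is not simple are set aside), every homomorphism from the Chevalley group to `PGL_n(L) = GL_n(L)/Z`, `L` a field of the same characteristic as `K`, lifts uniquely to a homomorphism from the group Δ presented by (R1), (R2) to `GL_n(L)`, compatibly with the projection Δ → Chevalley group sending x̄_r(t) to x_r(t). -/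
theorem result {K : Type*} [Field K] (D : Cfsg.Lie.ChevalleyDatum) (hD : D ∈ [Cfsg.Lie.chevG2, Cfsg.Lie.chevB2, Cfsg.Lie.chevD4, Cfsg.Lie.chevF4, Cfsg.Lie.chevE6, Cfsg.Lie.chevE7, Cfsg.Lie.chevE8]) (hK : D ∈ [Cfsg.Lie.chevB2, Cfsg.Lie.chevG2] → ∃ x : K, x ≠ 0 ∧ x ≠ 1)
    (θ : D.SteinbergCover K →* ↥(D.group K))
    (hθ : ∀ (r : ℕ) (t : K), r < D.nroots → ((θ (D.scGen K r t) : GL D.Idx K) : Matrix D.Idx D.Idx K) = D.x K r t)
    {L : Type*} [Field L] (hL : ringChar L = ringChar K) {n : ℕ}
    (φ : ↥(D.group K) →* GL (Fin n) L ⧸ Subgroup.center (GL (Fin n) L)) :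
    ∃! ψ : D.SteinbergCover K →* GL (Fin n) L, (QuotientGroup.mk' (Subgroup.center (GL (Fin n) L))).comp ψ = φ.comp θ := by
  have h1 := _root_.L.PB1_isCE φ (ξ := QuotientGroup.mk' (Subgroup.center (GL (Fin n) L)))
    ⟨QuotientGroup.mk'_surjective _, by simp⟩
  obtain ⟨C, Y, hY⟩ := H6.Chev.exists_lift_tf hD hK ⟨h1.1, h1.2⟩ (fun p hp h0 z hz hz' => by
    have e := _root_.L.PB_comm φ _ z
    rw [hz, map_one, eq_comm, QuotientGroup.mk'_apply, QuotientGroup.eq_one_iff,
      Matrix.GeneralLinearGroup.mem_center_iff_val_mem_range_scalar] at e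
    obtain ⟨a, ha⟩ := e
    have hp' : ringChar L = p := by
      rw [hL]; exact CharP.ringChar_of_prime_eq_zero hp h0
    haveI := ringChar.of_eq hp'
    haveI := Fact.mk hp
    have e2 := congrArg (fun g => ((_root_.L.PB2 φ _ g : GL (Fin n) L) : Matrix (Fin n) (Fin n) L)) hz'
    simp only [map_pow, map_one, Units.val_pow_eq_pow_val, Units.val_one, ← ha] at e2
    refine Subtype.ext (Prod.ext hz (Units.ext ?_))
    change ((_root_.L.PB2 φ _ z : GL (Fin n) L) : Matrix (Fin n) (Fin n) L) = 1
    rw [← ha]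
    ext i j
    have e3 := congrFun (congrFun e2 i) i
    rw [← map_pow] at e3
    simp only [Matrix.scalar_apply, Matrix.diagonal_apply_eq, Matrix.one_apply_eq] at e3
    have e4 : a = 1 := by
      rw [← sub_eq_zero, ← pow_eq_zero_iff hp.ne_zero, sub_pow_char, e3, one_pow, sub_self]
    simp [e4])
  have hR := H6.Chev.rk2_of_mem hD C
  have hP := H6.Chev.perfect_of_mem hD C (C.scSys K hR).nconj (C.scSys_grp hR)
    (fun h => hK (by rcases h with rfl | rfl <;> simp))
  have key : (QuotientGroup.mk' (Subgroup.center (GL (Fin n) L))).comp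
      ((_root_.L.PB2 φ _).comp (H6.Chev.Cert.scLift Y)) = φ.comp θ := by
    refine H6.StSys.hom_ext (C.scSys_grp hR) fun r t => ?_
    refine (_root_.L.PB_comm φ (QuotientGroup.mk' (Subgroup.center (GL (Fin n) L)))
      (H6.Chev.Cert.scLift Y ((C.scSt K).x r t))).symm.trans (congrArg φ ?_)
    refine ((congrArg _ (H6.Chev.Cert.scLift_x Y r t)).trans (hY r t)).trans ?_
    exact ((C.eq_gx_iff r.2).1 (hθ r t r.2)).symm
  refine ⟨_, key, fun ψ hψ => H6.Mult.eq_of_perfect hP fun g => ?_⟩
  exact QuotientGroup.eq.1 ((DFunLike.congr_fun hψ g).trans (DFunLike.congr_fun key g).symm)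

end Cfsg.Agent.S2399
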