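import Cfsg.Statements.S2401
import Cfsg.Agent.H6.Mult5

set_option autoImplicit false
open Cfsg

namespace Cfsg.Agent.S2401

open scoped commutatorElement in
theorem aux {K G : Type*} [Field K] [Group G] {l : ℕ} (x : H6.CA.Rt l → K → G)
    (h1 : ∀ a t u, x a t * x a u * (x a (t + u))⁻¹ = 1)
    (h2 : ∀ a b t u, a.1.1 ≠ b.1.2 → a.1.2 ≠ b.1.1 → x a t * x b u * (x a t)⁻¹ * (x b u)⁻¹ = 1)
    (h3 : ∀ a b (h : a.1.1 ≠ b.1.2) t u, a.1.2 = b.1.1 → x a t * x b u * (x a t)⁻¹ * (x b u)⁻¹ *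
      (x ⟨(a.1.1, b.1.2), h⟩ (t * u))⁻¹ = 1) : ∃ Y : H6.StSys (H6.CA.rsA l) K G, Y.x = x := by
  have add : ∀ a t u, x a (t + u) = x a t * x a u := fun a t u => (mul_inv_eq_one.1 (h1 a t u)).symm
  have z : ∀ a, x a 0 = 1 := fun a => by simpa using add a 0 0
  have ng : ∀ a t, x a (-t) = (x a t)⁻¹ := fun a t => eq_inv_of_mul_eq_one_left (by rw [← add]; simp [z])
  refine ⟨⟨x, add, fun r s e1 e2 t u => ?_⟩, rfl⟩
  simp only [H6.CA.rsA] at e2 ⊢
  split_ifs with c d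
  · have := mul_inv_eq_one.1 (h3 r s c.2 (-t) (-u) c.1)
    simp only [List.map_cons, List.map_nil, List.prod_cons, List.prod_nil, mul_one, pow_one, Int.cast_one,
      one_mul, neg_mul, ng, mul_neg, neg_neg, inv_inv] at this ⊢
    rw [← this]; group
  · have := mul_inv_eq_one.1 (h3 s r d.2 (-u) (-t) d.1)
    simp only [List.map_cons, List.map_nil, List.prod_cons, List.prod_nil, mul_one, pow_one, Int.cast_one,
      Int.cast_neg, one_mul, neg_mul, ng, mul_neg, neg_neg, inv_inv] at this ⊢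
    rw [mul_comm t, ← this]; group
  · have a : r.1.2 ≠ s.1.1 := fun e => e2 (Subtype.ext (Prod.ext e.symm (by
      by_contra f; exact c ⟨e, Ne.symm f⟩)))
    have b : r.1.1 ≠ s.1.2 := fun e => d ⟨e.symm, a.symm⟩
    have := h2 r s t u b a
    rw [mul_inv_eq_one, mul_inv_eq_iff_eq_mul] at this
    simpa using this.symm

/-- The Steinberg presentation of `SL_n` over a finite field for `n ≥ 3`: the group generated by symbols `x_ij(t)` (`i ≠ j`, `t` in the field) subject to `x_ij(t) x_ij(u) = x_ij(t + u)` and, for `i ≠ l`, `x_ij(t) x_kl(u) x_ij(t)⁻¹ x_kl(u)⁻¹ = x_il(tu)` if `j = k` and `= 1` if `j ≠ k`, is isomorphic to `SL_n` by an isomorphism sending `x_ij(t)` to the elementary matrix `1 + t E_ij`. -/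
theorem result {K : Type*} [Field K] [Finite K] (n : ℕ) (hn : 3 ≤ n) :
    ∃ e : PresentedGroup
        ({g : FreeGroup ({ij : Fin n × Fin n // ij.1 ≠ ij.2} × K) | ∃ (a : {ij : Fin n × Fin n // ij.1 ≠ ij.2}) (t u : K),
            g = FreeGroup.of (a, t) * FreeGroup.of (a, u) * (FreeGroup.of (a, t + u))⁻¹} ∪
          {g | ∃ (a b : {ij : Fin n × Fin n // ij.1 ≠ ij.2}) (t u : K), a.1.1 ≠ b.1.2 ∧ a.1.2 ≠ b.1.1 ∧
            g = FreeGroup.of (a, t) * FreeGroup.of (b, u) * (FreeGroup.of (a, t))⁻¹ * (FreeGroup.of (b, u))⁻¹} ∪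
          {g | ∃ (a b : {ij : Fin n × Fin n // ij.1 ≠ ij.2}) (h : a.1.1 ≠ b.1.2) (t u : K), a.1.2 = b.1.1 ∧
            g = FreeGroup.of (a, t) * FreeGroup.of (b, u) * (FreeGroup.of (a, t))⁻¹ * (FreeGroup.of (b, u))⁻¹ *
              (FreeGroup.of (⟨(a.1.1, b.1.2), h⟩, t * u))⁻¹}) ≃* Matrix.SpecialLinearGroup (Fin n) K,
      ∀ (a : {ij : Fin n × Fin n // ij.1 ≠ ij.2}) (t : K), ((e (PresentedGroup.of (a, t)) : Matrix (Fin n) (Fin n) K)) = Matrix.transvection a.1.1 a.1.2 t := by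
  obtain ⟨l, rfl⟩ : ∃ l, n = l + 1 := ⟨n - 1, by omega⟩
  set rels : Set (FreeGroup ({ij : Fin (l + 1) × Fin (l + 1) // ij.1 ≠ ij.2} × K)) := _ ∪ _ ∪ _ with hrels
  obtain ⟨Y, hY⟩ := aux (G := PresentedGroup rels) (fun a t => PresentedGroup.of (a, t))
    (fun a t u => PresentedGroup.one_of_mem (rels := rels) (Or.inl (Or.inl ⟨a, t, u, rfl⟩)))
    (fun a b t u h h' => PresentedGroup.one_of_mem (rels := rels) (Or.inl (Or.inr ⟨a, b, t, u, h, h', rfl⟩)))
    (fun a b h t u h' => PresentedGroup.one_of_mem (rels := rels) (Or.inr ⟨a, b, h, t, u, h', rfl⟩))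
  let θ : PresentedGroup rels →* Matrix.SpecialLinearGroup (Fin (l + 1)) K :=
    PresentedGroup.toGroup (f := fun p => (H6.CA.stA K l).x p.1 p.2) (by
      rintro _ ((⟨a, t, u, rfl⟩ | ⟨a, b, t, u, h, h', rfl⟩) | ⟨a, b, h, t, u, h', rfl⟩)
      · simp [H6.StSys.add]
      · simp only [map_mul, map_inv, FreeGroup.lift_apply_of, mul_inv_eq_one, mul_inv_eq_iff_eq_mul]
        refine H5.SL_ext ?_
        simp [H6.CA.stA, Matrix.SpecialLinearGroup.transvection_coe, mul_add, add_mul,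
          Matrix.single_mul_single_of_ne, h', Ne.symm h]
        abel
      · simp only [map_mul, map_inv, FreeGroup.lift_apply_of, mul_inv_eq_one]
        obtain ⟨⟨i, j⟩, hij⟩ := a
        obtain ⟨⟨k, m⟩, hkm⟩ := b
        obtain rfl : j = k := h'
        exact H5.commutator_transvection hij hkm h t u)
  have hθ : ∀ r t, θ (Y.x r t) = (H6.CA.stA K l).x r t := fun r t => by
    rw [hY]; exact PresentedGroup.toGroup.of _
  refine ⟨MulEquiv.ofBijective θ (H6.CA.bijA (by omega) ?_ hθ), fun a t => ?_⟩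
  · rw [eq_top_iff, ← PresentedGroup.closure_range_of, Subgroup.closure_le]
    rintro _ ⟨⟨a, t⟩, rfl⟩
    have := Y.x_mem_grp a t
    rwa [hY] at this
  · have := hθ a t
    rw [hY] at this
    exact congrArg Subtype.val this

end Cfsg.Agent.S2401
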