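import Cfsg.Statements.S2403
import Cfsg.Agent.H5.SL

set_option autoImplicit false
open Cfsg

namespace Cfsg.Agent.S2403

open H5 Matrix

theorem gen {K : Type*} [Field K] (n : ℕ) (hn : 1 ≤ n) (w : SpecialLinearGroup (Fin (n + 1)) K)
    (hw : (w : Matrix (Fin (n + 1)) (Fin (n + 1)) K) =
      Matrix.of (fun i j => if j.val = i.val + 1 then 1 else if i.val = n ∧ j.val = 0 then (-1) ^ n else 0))
    (H : Subgroup (SpecialLinearGroup (Fin (n + 1)) K)) (h1 : w ∈ H)
    (h2 : ∀ h c, SpecialLinearGroup.transvection (i := 0) (j := 1) h c ∈ H) : H = ⊤ := by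
  let ε : Fin (n + 1) → K := fun i => if i.val = n then (-1) ^ n else 1
  have εε : ∀ i, ε i * ε i = 1 := fun i => by simp only [ε]; split_ifs <;> simp [← mul_pow]
  have hw' : ∀ i j, w.1 i j = if j = i + 1 then ε i else 0 := fun i j => by
    have := i.2
    rw [hw]; simp only [of_apply, Fin.ext_iff, Fin.val_add_one, ε, Fin.val_last]; split_ifs <;> first | rfl | omega
  let P : Fin (n + 1) → Fin (n + 1) → Prop := fun i j => ∀ h c, SpecialLinearGroup.transvection (i := i) (j := j) h c ∈ H
  have sh : ∀ i j, P i j → P (i + 1) (j + 1) := fun i j p h c => by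
    have e : w * SpecialLinearGroup.transvection h c = SpecialLinearGroup.transvection (i := i) (j := j) (by simpa using h)
        (ε i * c * ε j) * w := Subtype.ext (by
      change w.1 * transvection _ _ _ = transvection _ _ _ * w.1
      ext a b
      simp only [transvection, mul_add, add_mul, mul_one, one_mul, Matrix.add_apply]
      congr 1
      by_cases k : b = j + 1 <;> by_cases k' : i = a <;> simp [mul_apply, single_apply, hw', k, k', ite_and, mul_assoc, εε, Ne.symm]
      exact (Finset.sum_eq_zero fun x _ => by split_ifs <;> simp_all).symm)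
    exact eq_inv_mul_iff_mul_eq.2 e ▸ mul_mem (inv_mem h1) (mul_mem (p _ _) h1)
  have one : ∀ i, P i (i + 1) := fun i => by
    induction i using Fin.induction with
    | zero => rw [zero_add]; exact h2
    | succ i ih => simpa [Fin.coeSucc_eq_succ] using sh _ _ ih
  have all : ∀ d i, P i (i + d) := fun d => by
    induction d using Fin.induction with
    | zero => intro i h; simp at h
    | succ d ih =>
      intro i h c
      by_cases k : d.castSucc = 0
      · revert h; rw [← Fin.coeSucc_eq_succ, k, zero_add]; exact fun h => one i h c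
      have e : i + d.succ = i + d.castSucc + 1 := by rw [← Fin.coeSucc_eq_succ, add_assoc]
      have k1 : i ≠ i + d.castSucc := by simpa using k
      have k2 : i + d.castSucc ≠ i + d.succ := by simpa using Fin.castSucc_lt_succ.ne
      have := commutator_transvection k1 k2 h c 1
      rw [mul_one] at this
      have a := ih i k1 c
      have b : SpecialLinearGroup.transvection k2 (1 : K) ∈ H := (e ▸ one _ : P _ _) k2 1
      exact this ▸ mul_mem (mul_mem (mul_mem a b) (inv_mem a)) (inv_mem b)
  exact eq_top_of_transvection_mem H fun i j h c => by simpa using all (j - i) i (by simpa using h) c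

/-- Explicit two-element generation of `PSL_{n+1}(K)` over the fields with two or three elements: with `x = 1 + E₁₂` and `w` the monomial matrix with entries `1` in positions `(i, i+1)` and `(−1)^n` in position `(n+1, 1)`, the elements `x` and `w` generate `SL_{n+1}(K)` modulo its centre. -/
theorem result {K : Type*} [Field K] [Fintype K] (hK : Fintype.card K ≤ 3) (n : ℕ) (hn : 1 ≤ n)
    (x w : Matrix.SpecialLinearGroup (Fin (n + 1)) K)
    (hx : (x : Matrix (Fin (n + 1)) (Fin (n + 1)) K) = Matrix.transvection (0 : Fin (n + 1)) (1 : Fin (n + 1)) 1)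
    (hw : (w : Matrix (Fin (n + 1)) (Fin (n + 1)) K) =
      Matrix.of (fun i j => if j.val = i.val + 1 then 1 else if i.val = n ∧ j.val = 0 then (-1) ^ n else 0)) :
    Subgroup.closure ({x, w} : Set (Matrix.SpecialLinearGroup (Fin (n + 1)) K)) ⊔
      Subgroup.center (Matrix.SpecialLinearGroup (Fin (n + 1)) K) = ⊤ := by
  refine gen n hn w hw _ (Subgroup.mem_sup_left (Subgroup.subset_closure (by simp))) fun h c => Subgroup.mem_sup_left ?_
  have hx' : SpecialLinearGroup.transvection h 1 ∈ Subgroup.closure {x, w} := Subgroup.subset_closure (.inl (Subtype.ext hx.symm))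
  have : c = 0 ∨ c = 1 ∨ c = -1 := by
    by_contra! H
    classical
    by_cases k : (-1 : K) = 1
    · have := Finset.card_le_univ ({0, 1, c, c + 1} : Finset K)
      rw [Finset.card_eq_four.2 ⟨0, 1, c, c + 1, by simp, H.1.symm, fun e => H.2.2 (by linear_combination -e), H.2.1.symm,
        by simpa using H.1, by simp, rfl⟩] at this
      omega
    · have := Finset.card_le_univ ({0, 1, -1, c} : Finset K)
      rw [Finset.card_eq_four.2 ⟨0, 1, -1, c, by simp, by simp, H.1.symm, Ne.symm k, H.2.1.symm, H.2.2.symm, rfl⟩] at this
      omega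
  rcases this with rfl | rfl | rfl
  · simpa using one_mem _
  · exact hx'
  · exact SpecialLinearGroup.transvection_inv h (1 : K) ▸ inv_mem hx'


end Cfsg.Agent.S2403
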