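import Cfsg.Statements.S2402
import Cfsg.Agent.S2403
import Cfsg.Agent.H5.Simple

set_option autoImplicit false
open Cfsg

namespace Cfsg.Agent.S2402

open H5 Matrix

/-- Explicit two-element generation of `PSL_{n+1}(K)` for a finite field `K` with more than three elements: let `k` generate the multiplicative group of `K`, `h = diag(k, k⁻¹, 1, …, 1)`, `x = 1 + E₁₂` (the elementary transvection) and `w` the monomial matrix with entries `1` in positions `(i, i+1)` and `(−1)^n` in position `(n+1, 1)`. Then `h` and `x·w` generate `SL_{n+1}(K)` modulo its centre: the subgroup they generate together with the centre is everything. -/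
theorem result {K : Type*} [Field K] [Fintype K] (hK : 3 < Fintype.card K) (n : ℕ) (hn : 1 ≤ n)
    (k : Kˣ) (hk : ∀ u : Kˣ, u ∈ Subgroup.zpowers k)
    (h x w : Matrix.SpecialLinearGroup (Fin (n + 1)) K)
    (hh : (h : Matrix (Fin (n + 1)) (Fin (n + 1)) K) =
      Matrix.diagonal (fun i => if i.val = 0 then (k : K) else if i.val = 1 then ((k⁻¹ : Kˣ) : K) else 1))
    (hx : (x : Matrix (Fin (n + 1)) (Fin (n + 1)) K) = Matrix.transvection (0 : Fin (n + 1)) (1 : Fin (n + 1)) 1)
    (hw : (w : Matrix (Fin (n + 1)) (Fin (n + 1)) K) =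
      Matrix.of (fun i j => if j.val = i.val + 1 then 1 else if i.val = n ∧ j.val = 0 then (-1) ^ n else 0)) :
    Subgroup.closure ({h, x * w} : Set (Matrix.SpecialLinearGroup (Fin (n + 1)) K)) ⊔
      Subgroup.center (Matrix.SpecialLinearGroup (Fin (n + 1)) K) = ⊤ := by
  set H := Subgroup.closure ({h, x * w} : Set (SpecialLinearGroup (Fin (n + 1)) K)) ⊔ Subgroup.center _
  have m1 : h ∈ H := Subgroup.mem_sup_left (Subgroup.subset_closure (by simp))
  have m2 : x * w ∈ H := Subgroup.mem_sup_left (Subgroup.subset_closure (by simp))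
  have h01 : (0 : Fin (n + 1)) ≠ 1 := by simp; omega
  let t := SpecialLinearGroup.transvection (F := K) h01
  have D : ∀ (g : SpecialLinearGroup (Fin (n + 1)) K) d, g.1 = diagonal d → ∀ c c', d 0 * c = c' * d 1 → g * t c = t c' * g :=
    fun g d e c c' k => Subtype.ext (by
      change g.1 * transvection _ _ _ = transvection _ _ _ * g.1
      rw [e, transvection, transvection, mul_add, add_mul, mul_one, one_mul, add_right_inj]; ext a b
      simp only [diagonal_mul, mul_diagonal, single_apply]
      split_ifs with s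
      · obtain ⟨rfl, rfl⟩ := s; simp [k]
      · simp)
  have v1 : (1 : Fin (n + 1)).val = 1 := by simp; omega
  have hd : ∀ c, h * t c = t (k * k * c) * h := fun c => D h _ hh _ _ (by simp only [v1]; simp; field_simp)
  have k2 : k * k ≠ 1 := fun e => by
    have := Nat.le_of_dvd two_pos (orderOf_dvd_of_pow_eq_one ((pow_two k).trans e))
    rw [orderOf_eq_card_of_forall_mem_zpowers hk, Nat.card_units, Nat.card_eq_fintype_card] at this
    omega
  have k3 : (k : K) * k - 1 ≠ 0 := fun e => k2 (Units.ext (sub_eq_zero.1 e))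
  obtain ⟨d, d0, d1, e⟩ : ∃ d, d 1 ≠ 0 ∧ d 1 ≠ d 0 ∧ (w * h * w⁻¹).1 = diagonal d := by
    let d : Fin (n + 1) → K := fun i => if i.val = 0 then (k : K) else if i.val = 1 then ((k⁻¹ : Kˣ) : K) else 1
    refine ⟨fun i => d (i + 1), by simp only [d]; split_ifs <;> simp, ?_, ?_⟩
    · simp only [d, zero_add, v1, Fin.val_add]
      rcases hn.eq_or_lt with rfl | c
      · simpa [← mul_eq_one_iff_eq_inv₀, sub_eq_zero] using k3
      · rw [Nat.mod_eq_of_lt (by omega)]
        simp; rintro rfl; simp at k2
    have : w.1 * h.1 = diagonal (fun i => d (i + 1)) * w.1 := by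
      ext a b
      have := a.2
      rw [hh, mul_diagonal, diagonal_mul, hw, mul_comm, of_apply]
      by_cases c : b = a + 1
      · rw [c]
      · have k1 : ¬ b.val = a.val + 1 ∧ ¬ (a.val = n ∧ b.val = 0) := by
          have := b.2
          simp only [Fin.ext_iff, Fin.val_add_one, Fin.val_last] at c; split_ifs at c <;> omega
        rw [if_neg k1.1, if_neg k1.2, mul_zero, mul_zero]
    change w.1 * h.1 * (w⁻¹).1 = _
    rw [this, mul_assoc, show w.1 * (w⁻¹).1 = 1 from congrArg Subtype.val (mul_inv_cancel w), mul_one]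
  have ta : ∀ a b, t (a + b) = t a * t b := SpecialLinearGroup.transvection_add h01
  have ti : ∀ a, (t a)⁻¹ = t (-a) := SpecialLinearGroup.transvection_inv h01
  obtain rfl : x = t 1 := Subtype.ext hx
  have e1 : t 1 * w * h * (t 1 * w)⁻¹ = t (1 + -d 0 / d 1) * (w * h * w⁻¹) := by
    rw [ta, mul_assoc (t 1) (t _), ← D _ d e (-1) _ (by field_simp), ← ti]; group
  have cm : h * (w * h * w⁻¹) = (w * h * w⁻¹) * h := Subtype.ext (by
    change h.1 * (w * h * w⁻¹).1 = (w * h * w⁻¹).1 * h.1
    rw [e, hh, diagonal_mul_diagonal, diagonal_mul_diagonal]; simp only [mul_comm])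
  have m3 : t (1 + -d 0 / d 1) * (w * h * w⁻¹) ∈ H := e1 ▸ mul_mem (mul_mem m2 m1) (inv_mem m2)
  have b0 : 1 + -d 0 / d 1 ≠ 0 := fun c => d1 (by field_simp at c; linear_combination c)
  generalize 1 + -d 0 / d 1 = b at m3 b0
  have m4 : t ((k * k - 1) * b) ∈ H := by
    have := mul_mem (mul_mem (mul_mem m1 m3) (inv_mem m1)) (inv_mem m3)
    rwa [← mul_assoc h, hd, mul_assoc _ h, cm, show ∀ a b c d : SpecialLinearGroup (Fin (n + 1)) K, a * (b * c) * c⁻¹ * (d * b)⁻¹ = a * d⁻¹ from
      fun _ _ _ _ => by group, ti, ← ta, ← sub_eq_add_neg, ← sub_one_mul] at this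
  have b1 := mul_ne_zero k3 b0
  generalize (k * k - 1) * b = b at m4 b1
  have m5 : ∀ u : K, t (u * u * b) ∈ H := fun u => by
    by_cases c : u = 0
    · simpa [c, t] using one_mem H
    obtain ⟨j, hj⟩ := mem_powers_iff_mem_zpowers.2 (hk (Units.mk0 u c))
    obtain rfl : (k : K) ^ j = u := by simpa using congrArg Units.val hj
    clear hj c
    induction j with
    | zero => simpa using m4
    | succ j ih =>
      have := mul_mem (mul_mem m1 ih) (inv_mem m1)
      rw [hd, mul_inv_cancel_right] at this
      convert this using 2; ring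
  have m6 : ∀ c, t c ∈ H := fun c => by
    by_cases h2 : (2 : K) = 0
    · obtain ⟨u, hu⟩ := FiniteField.isSquare_of_char_two (ringChar.eq _ 2 (C := (CharP.charP_iff_prime_eq_zero Nat.prime_two).2 h2)) (c / b)
      simpa [← hu, b1] using m5 u
    · have := mul_mem (m5 ((c / b + 1) / 2)) (inv_mem (m5 ((c / b - 1) / 2)))
      rw [ti, ← ta] at this
      convert this using 2; field_simp; ring
  exact S2403.gen n hn w hw H (by simpa using mul_mem (inv_mem (m6 1)) m2) fun _ => m6


end Cfsg.Agent.S2402
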