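import Cfsg.Statements.S2405
import Cfsg.Agent.H6.TG5

set_option autoImplicit false
open Cfsg

namespace Cfsg.Agent.S2405

/-- Each Chevalley group of type G₂, B₂, D₄, F₄, E₆, E₇ or E₈ over a finite field is generated by two of its elements (types B₂ and G₂ over the field with two elements, where the group is not simple, excepted). -/
theorem result {F : Type*} [Field F] [Finite F] (D : Cfsg.Lie.ChevalleyDatum) (hD : D ∈ [Cfsg.Lie.chevG2, Cfsg.Lie.chevB2, Cfsg.Lie.chevD4, Cfsg.Lie.chevF4, Cfsg.Lie.chevE6, Cfsg.Lie.chevE7, Cfsg.Lie.chevE8])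
    (hF : D ∈ [Cfsg.Lie.chevB2, Cfsg.Lie.chevG2] → ∃ x : F, x ≠ 0 ∧ x ≠ 1) :
    ∃ a b : ↥(D.group F), Subgroup.closure ({a, b} : Set ↥(D.group F)) = ⊤ := by
  have := Fintype.ofFinite F
  have k : D ∈ [Cfsg.Lie.chevB2, Cfsg.Lie.chevG2] → Fintype.card F ≠ 2 := fun h c => by
    obtain ⟨x, h0, h1⟩ := hF h
    exact (H6.TG.two_cases c x).elim h0 h1
  simp only [List.mem_cons, List.not_mem_nil, or_false] at hD
  by_cases c : Fintype.card F = 2
  · rcases hD with rfl | rfl | rfl | rfl | rfl | rfl | rfl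
    exacts [absurd c (k (.tail _ (.head _))), absurd c (k (.head _)), H6.TG.smallD4 c, H6.TG.smallF4 c, H6.TG.smallE6 c,
      H6.TG.smallE7 c, H6.TG.smallE8 c]
  · rcases hD with rfl | rfl | rfl | rfl | rfl | rfl | rfl
    exacts [H6.TG.bigG2 c, H6.TG.bigB2 c, H6.TG.bigD4 c, H6.TG.bigF4 c, H6.TG.bigE6 c, H6.TG.bigE7 c, H6.TG.bigE8 c]

end Cfsg.Agent.S2405
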