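import Cfsg.Statements.S2410
import Cfsg.Agent.H6.Suz4

set_option autoImplicit false
open Cfsg

namespace Cfsg.Agent.S2410

/-- The Suzuki group over the field with `2^(2m+1)` elements, `m ≥ 1` (realised as the stabiliser in `SL₄` of the Suzuki–Tits ovoid), is generated by two of its elements. -/
theorem result {F : Type*} [Field F] [Fintype F] {m : ℕ} (hm : 1 ≤ m) (hF : Fintype.card F = 2 ^ (2 * m + 1)) :
    ∃ a b : ↥(Cfsg.Sz F m), Subgroup.closure ({a, b} : Set ↥(Cfsg.Sz F m)) = ⊤ := by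
  let Q := H6.Suz.Par.mk m hm hF
  let X := Q.sz
  obtain ⟨k, hk⟩ := IsCyclic.exists_generator (α := Fˣ)
  refine ⟨X.D k, X.T 1 0 * X.W, ?_⟩
  set K := Subgroup.closure {X.D k, X.T 1 0 * X.W}
  have hb : X.T 1 0 * X.W ∈ K := Subgroup.subset_closure (by simp)
  have hH : X.H ≤ K := by
    rintro _ ⟨l, rfl⟩
    obtain ⟨n, rfl⟩ := hk l
    exact map_zpow X.D k n ▸ K.zpow_mem (Subgroup.subset_closure (by simp)) n
  obtain ⟨l, hl⟩ := Q.exists_unit_ne
  have h := K.mul_mem (K.mul_mem (K.mul_mem hb (hH (X.D_mem l⁻¹))) (K.inv_mem hb)) (hH (X.D_mem l⁻¹))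
  rw [mul_inv_rev, X.W_inv, mul_assoc (X.T 1 0), mul_assoc (X.T 1 0), ← mul_assoc _ X.W, X.W_D, inv_inv,
    X.T_inv, map_inv, mul_assoc (X.T 1 0), X.D_T, X.T_mul] at h
  refine X.eq_top_of_U (H6.Suz.SzS.le_U hH (fun e => hl (Units.ext ?_)) h) hb
    (by simpa using H6.Suz.SzS.not_mem_B (X.T_mem_B 1 0) (one_mem _))
  have := Q.two
  change (l : F) = 1
  grind

end Cfsg.Agent.S2410
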