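import Cfsg.Statements.S2413
import Cfsg.Agent.H6.TG3

set_option autoImplicit false
open Cfsg

namespace Cfsg.Agent.S2413

/-- The simple orthogonal group `PΩ_{2m+1}(q)` (commutator subgroup of the orthogonal group of `x₀² + Σ x_i y_i` modulo its centre) with `m ≥ 2` and `q` odd is generated by two of its elements. -/
theorem result {F : Type*} [Field F] [Fintype F] (hodd : Odd (Fintype.card F)) (m : ℕ) (hm : 2 ≤ m) :
    ∃ a b : Cfsg.POmega F (Cfsg.quadFormOdd m F), Subgroup.closure ({a, b} : Set (Cfsg.POmega F (Cfsg.quadFormOdd m F))) = ⊤ := by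
  have h2 : (2 : F) ≠ 0 := fun e => by
    obtain ⟨k, hk⟩ := hodd
    simpa [hk, e] using FiniteField.cast_card_eq_zero F
  obtain rfl | ⟨l, rfl⟩ : m = 2 ∨ ∃ l, m = l + 3 := by
    by_cases c : 3 ≤ m; exacts [.inr ⟨m - 3, by omega⟩, by omega]
  · obtain ⟨i⟩ := H6.TC.isoC (F := F) (l := 0)
    obtain ⟨j⟩ := Cfsg.Agent.S0301.result hodd
    exact (H6.TG.twoC (H6.TC.sysC F 0).restrict.nconj H6.StSys.restrict_grp fun _ e => by
      rw [e] at hodd; exact absurd hodd (by decide)).equiv (i.trans j.symm)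
  · obtain ⟨i⟩ := H6.TB.isoB (F := F) (l := l) h2
    exact (H6.TG.twoB (H6.TB.sysB l F).restrict.nconj H6.StSys.restrict_grp h2).equiv i

end Cfsg.Agent.S2413
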