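import Cfsg.Statements.S2414
import Cfsg.Agent.H6.TG3

set_option autoImplicit false
open Cfsg

namespace Cfsg.Agent.S2414

/-- The simple orthogonal group `PΩ⁺_{2m}(q)` (commutator subgroup of the orthogonal group of `Σ x_i y_i` modulo its centre) with `m ≥ 4` is generated by two of its elements. -/
theorem result {F : Type*} [Field F] [Fintype F] (m : ℕ) (hm : 4 ≤ m) :
    ∃ a b : Cfsg.POmega F (Cfsg.quadFormPlus m F), Subgroup.closure ({a, b} : Set (Cfsg.POmega F (Cfsg.quadFormPlus m F))) = ⊤ := by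
  obtain ⟨l, rfl⟩ : ∃ l, m = l + 4 := ⟨m - 4, by omega⟩
  obtain ⟨i⟩ := H6.DN.isoD (F := F) (l := l)
  exact (H6.TG.twoD (H6.DN.sysD F l).restrict.nconj H6.StSys.restrict_grp).equiv i

end Cfsg.Agent.S2414
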