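import Cfsg.Statements.S2416
import Cfsg.Agent.H6.GenN

set_option autoImplicit false
open scoped MatrixGroups
open Cfsg

namespace Cfsg.Agent.S2416

/-- A Chevalley group of type G₂, B₂, D₄, F₄, E₆, E₇ or E₈ over a finite field lies in (indeed equals) the subgroup generated by its monomial subgroup `N` and a single fundamental root subgroup `X_p`, where `p` is a short fundamental root if there are two root lengths (any fundamental root otherwise), provided the characteristic is not 2 for types B₂, F₄ and not 3 for type G₂ (and the field has more than two elements for B₂, G₂). -/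
theorem result {K : Type*} [Field K] [Finite K] (D : Cfsg.Lie.ChevalleyDatum) (hD : D ∈ [Cfsg.Lie.chevG2, Cfsg.Lie.chevB2, Cfsg.Lie.chevD4, Cfsg.Lie.chevF4, Cfsg.Lie.chevE6, Cfsg.Lie.chevE7, Cfsg.Lie.chevE8])
    (hK : D ∈ [Cfsg.Lie.chevB2, Cfsg.Lie.chevG2] → ∃ x : K, x ≠ 0 ∧ x ≠ 1)
    (h2 : D ∈ [Cfsg.Lie.chevB2, Cfsg.Lie.chevF4] → ringChar K ≠ 2) (h3 : D = Cfsg.Lie.chevG2 → ringChar K ≠ 3)
    (i : ℕ) (hi : i < D.rank) (hshort : D.isLong (D.simple i) = false) :
    D.group K ≤ D.monomialSubgroup K ⊔ D.rootSubgroup K (D.simple i) := by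
  obtain ⟨C⟩ := H6.Chev.cert_of_mem hD
  have key : ∀ (m : ℤ) (E : List (ℕ × ℕ)), (m : K) ≠ 0 →
      E.all (fun e => H6.Chev.edge D m e.1 e.2) = true →
      (H6.Chev.allLt D.rank fun i => H6.Chev.full D.rank E [i] || D.isLong (D.simple i)) = true →
      D.group K ≤ D.monomialSubgroup K ⊔ D.rootSubgroup K (D.simple i) := by
    intro m E hm hE hL
    have := (H6.Chev.allLt_iff _ _).1 hL i hi
    rw [hshort, Bool.or_false] at this
    exact C.le_of_full hm hE this le_sup_left (by simp [hi])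
  have hc : ∀ p : ℕ, p.Prime → ringChar K ≠ p → ((p : ℤ) : K) ≠ 0 := by
    intro p hp h e
    rw [Int.cast_natCast, ringChar.spec] at e
    rcases hp.eq_one_or_self_of_dvd _ e with h1 | h1
    · exact CharP.ringChar_ne_one h1
    · exact h h1
  simp only [List.mem_cons, List.not_mem_nil, or_false] at hD
  rcases hD with rfl | rfl | rfl | rfl | rfl | rfl | rfl
  · exact key (3 : ℕ) [(0, 1)] (hc 3 Nat.prime_three (h3 rfl)) (by decide +kernel) (by decide +kernel)
  · exact key (2 : ℕ) [(0, 1)] (hc 2 Nat.prime_two (h2 (by simp))) (by decide +kernel)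
      (by decide +kernel)
  · exact key 1 [(0, 1), (1, 0), (1, 2), (1, 3), (2, 1), (3, 1)] (by simp) (by decide +kernel)
      (by decide +kernel)
  · exact key (2 : ℕ) [(0, 1), (1, 0), (1, 2), (2, 3), (3, 2)] (hc 2 Nat.prime_two (h2 (by simp)))
      (by decide +kernel) (by decide +kernel)
  · exact key 1 [(0, 2), (1, 3), (2, 0), (2, 3), (3, 1), (3, 2), (3, 4), (4, 3), (4, 5), (5, 4)]
      (by simp) (by decide +kernel) (by decide +kernel)
  · exact key 1 [(0, 2), (1, 3), (2, 0), (2, 3), (3, 1), (3, 2), (3, 4), (4, 3), (4, 5), (5, 4),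
      (5, 6), (6, 5)] (by simp) (by decide +kernel) (by decide +kernel)
  · exact key 1 [(0, 2), (1, 3), (2, 0), (2, 3), (3, 1), (3, 2), (3, 4), (4, 3), (4, 5), (5, 4),
      (5, 6), (6, 5), (6, 7), (7, 6)] (by simp) (by decide +kernel) (by decide +kernel)

end Cfsg.Agent.S2416
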