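import Cfsg.Statements.S2417
import Cfsg.Agent.H6.GenN

set_option autoImplicit false
open scoped MatrixGroups
open Cfsg

namespace Cfsg.Agent.S2417

/-- In the characteristics with an exceptional graph symmetry — type B₂ or F₄ in characteristic 2 (field of more than two elements for B₂) and type G₂ in characteristic 3 — the Chevalley group lies in the subgroup generated by its monomial subgroup `N` and the two fundamental root subgroups `X_a`, `X_b` of a short root `a` and a long root `b` joined in the Dynkin diagram. -/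
theorem result {K : Type*} [Field K] [Finite K] (e : Cfsg.Lie.ChevalleyDatum × ℕ)
    (he : e ∈ [(Cfsg.Lie.chevB2, 2), (Cfsg.Lie.chevF4, 2), (Cfsg.Lie.chevG2, 3)]) [CharP K e.2]
    (hK : e.1 = Cfsg.Lie.chevB2 → ∃ x : K, x ≠ 0 ∧ x ≠ 1)
    (i j : ℕ) (hi : i < e.1.rank) (hj : j < e.1.rank) (hshort : e.1.isLong (e.1.simple i) = false)
    (hlong : e.1.isLong (e.1.simple j) = true) (hbond : e.1.bonds i j ≠ 0) :
    e.1.group K ≤ e.1.monomialSubgroup K ⊔ e.1.rootSubgroup K (e.1.simple i) ⊔ e.1.rootSubgroup K (e.1.simple j) := by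
  have key : ∀ (E : List (ℕ × ℕ)), Nonempty (H6.Chev.Cert e.1) →
      E.all (fun a => H6.Chev.edge e.1 1 a.1 a.2) = true →
      (H6.Chev.allLt e.1.rank fun i => H6.Chev.allLt e.1.rank fun j =>
        H6.Chev.full e.1.rank E [i, j] || e.1.isLong (e.1.simple i) || !e.1.isLong (e.1.simple j)) = true →
      e.1.group K ≤ e.1.monomialSubgroup K ⊔ e.1.rootSubgroup K (e.1.simple i) ⊔
        e.1.rootSubgroup K (e.1.simple j) := by
    rintro E ⟨C⟩ hE hL
    have := (H6.Chev.allLt_iff _ _).1 ((H6.Chev.allLt_iff _ _).1 hL i hi) j hj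
    rw [hshort, hlong, Bool.or_false, Bool.not_true, Bool.or_false] at this
    refine C.le_of_full (by simp) hE this (le_sup_of_le_left le_sup_left) ?_
    simp only [List.mem_cons, List.not_mem_nil, or_false]
    rintro k (rfl | rfl)
    · exact ⟨hi, le_sup_of_le_left le_sup_right⟩
    · exact ⟨hj, le_sup_right⟩
  simp only [List.mem_cons, List.not_mem_nil, or_false] at he
  rcases he with rfl | rfl | rfl
  · exact key [] ⟨H6.Chev.certB2⟩ (by decide +kernel) (by decide +kernel)
  · exact key [(0, 1), (1, 0), (2, 3), (3, 2)] ⟨H6.Chev.certF4⟩ (by decide +kernel) (by decide +kernel)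
  · exact key [] ⟨H6.Chev.certG2⟩ (by decide +kernel) (by decide +kernel)

end Cfsg.Agent.S2417
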