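import Cfsg.Statements.S2418
import Cfsg.Agent.H6.WeylData

set_option autoImplicit false
open Cfsg

namespace Cfsg.Agent.S2418

open H6 H6.Chev Subgroup

def one (A : List (List ℤ)) (l : ℕ) (w : List (Fin l)) (a : ℤ) : Bool :=
  eqLZ (stepW A (w.map Fin.val) (0, List.replicate l 1)).2 (List.replicate l a)

variable (l : ℕ) [NeZero l] {Φ : Type} [Fintype Φ] {R : RS Φ (Fin l)} {M : CoxeterMatrix (Fin l)} {A : List (List ℤ)}

lemma cen (hA : CartOK R A) (h1 : ∀ i : Fin l, mat A i i ≠ 0)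
    (h2 : ∀ S : Finset (Fin l), 0 ∈ S → (∀ i ∈ S, ∀ j : Fin l, mat A i j ≠ 0 → j ∈ S) → S = Finset.univ)
    (u : List (Fin l)) (h3 : one A l u (-1) = true) {z : R.W} (hz : z ∈ center R.W) : z = 1 ∨ z = (R.gen.wp u)⁻¹ := by
  have sc : ∀ z ∈ center R.W, ∃ c : ℤ, ∀ f j, R.dact z f j = c * f j := fun z hz => by
    have k : ∀ f (i j : Fin l), f i * R.dact z (fun j => mat A i j) j = mat A i j * R.dact z f i := fun f i j => by
      have := congrFun (congrArg (R.dact · f) (mem_center_iff.1 hz (R.s i))) j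
      simp only [R.dact_mul, R.dact_s] at this
      rw [show R.dact (R.s i) f = fun j => f j - mat A i j * f i from funext fun j => by rw [R.dact_s, (hA i).2], ← (hA i).2] at this
      simp only [RS.dact, RS.fv, mul_sub, Finset.sum_sub_distrib, Finset.mul_sum] at this ⊢
      rw [← sub_right_inj.1 this.symm]
      exact Finset.sum_congr rfl fun _ _ => by ring
    have k1 : ∀ f i, R.dact z f i = R.dact z 1 i * f i := fun f i => mul_left_cancel₀ (h1 i) (by
      have := k 1 i i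
      rw [Pi.one_apply, one_mul] at this
      rw [← k, this]; ring)
    refine ⟨R.dact z 1 0, fun f j => ?_⟩
    have := h2 (Finset.univ.filter fun i => R.dact z 1 i = R.dact z 1 0) (by simp) fun i hi j h => by
      simp only [Finset.mem_filter, Finset.mem_univ, true_and] at hi ⊢
      have := k 1 i j
      rw [k1, Pi.one_apply, one_mul, mul_comm] at this
      rw [mul_left_cancel₀ h this, hi]
    rw [k1, (Finset.mem_filter.1 (this.ge (Finset.mem_univ j))).2]
  have fx : ∀ w, R.dact w 1 = 1 → w = 1 := fun w h => by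
    simpa [RS.WJ] using RS.Dom.mem_WJ (K := Set.univ) (J := ∅) (f := 1) ⟨Set.subset_univ _, by simp, by simp⟩
      (R.WJ_univ ▸ mem_top _) h
  obtain ⟨c, hc⟩ := sc z hz
  obtain ⟨d, hd⟩ := sc _ (inv_mem hz)
  have e := congrFun (R.dact_mul z z⁻¹ 1) 0
  rw [mul_inv_cancel, R.dact_one, hc, hd, Pi.one_apply, mul_one] at e
  have h4 := (hA.stepW u (x := (0, List.replicate l 1)) (by simp)).2
  rw [eqLZ_iff.1 h3, show toF l (List.replicate l 1) = 1 from funext fun j => by simp [toF]] at h4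
  rcases Int.eq_one_or_neg_one_of_mul_eq_one e.symm with rfl | rfl
  · exact Or.inl (fx _ (funext fun j => by simp [hc]))
  · exact Or.inr (eq_inv_of_mul_eq_one_left (fx _ (funext fun j => by rw [R.dact_mul, hc, ← h4]; simp [toF])))

lemma tr (h : ∃ e : R.W ≃* M.Group, ∀ i, e (R.s i) = M.simple i) {n : ℕ}
    (k : Nat.card (center R.W) = n ∧ center R.W ≤ zpowers (R.gen.wp (List.finRange l))) :
    Nat.card (center M.Group) = n ∧ center M.Group ≤ zpowers ((List.finRange l).map M.simple).prod := by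
  obtain ⟨e, he⟩ := h
  refine ⟨(Nat.card_congr (centerCongr e).toEquiv).symm.trans k.1, fun x hx => ?_⟩
  obtain ⟨j, hj⟩ := k.2 ((centerCongr e).symm ⟨x, hx⟩).2
  refine ⟨j, ?_⟩
  have := congrArg e hj
  rw [map_zpow, InvGen.wp, map_list_prod, List.map_map, List.map_congr_left (f := e ∘ R.gen.s) fun i _ => he i] at this
  exact this.trans (e.apply_symm_apply x)

lemma key (hA : CartOK R A) (m : ℕ) (h : (∀ i : Fin l, mat A i i ≠ 0) ∧
    (∀ S : Finset (Fin l), 0 ∈ S → (∀ i ∈ S, ∀ j : Fin l, mat A i j ≠ 0 → j ∈ S) → S = Finset.univ) ∧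
    ∀ u ∈ [(List.replicate m (List.finRange l)).flatten], one A l u (-1) = true ∧ one A l u 1 ≠ true ∧
      ∀ i, one A l (i :: u ++ i :: u.reverse) 1 = true) :
    Nat.card (center R.W) = 2 ∧ center R.W ≤ zpowers (R.gen.wp (List.finRange l)) := by
  obtain ⟨h1, h2, h⟩ := h
  obtain ⟨h3, h4, h5⟩ := h _ List.mem_cons_self
  have c := fun z => cen l hA h1 h2 _ h3 (z := z)
  rw [← wp_pow] at c
  refine ⟨?_, fun z hz => (c z hz).elim (· ▸ one_mem _) (· ▸ inv_mem (npow_mem_zpowers _ _))⟩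
  have k : R.gen.wp (List.finRange l) ^ m ∈ center R.W := mem_center_iff.2 fun g => by
    obtain ⟨v, rfl⟩ := R.gen.gen g
    refine (Commute.list_prod_left _ _ (by
      simp only [List.mem_map]
      rintro _ ⟨i, -, rfl⟩
      have := (hA.wp_eq_one _).2 (h5 i)
      rw [InvGen.wp_append, InvGen.wp_cons, InvGen.wp_cons, InvGen.wp_reverse, ← wp_pow, ← mul_assoc, mul_inv_eq_one] at this
      rw [Commute, SemiconjBy, ← InvGen.mul_s_mul_s _ i (_ * _), this])).eq
  refine (Nat.card_eq_two_iff' 1).2 ⟨⟨_, inv_mem k⟩, fun e => h4 ((hA.wp_eq_one _).1 ?_), fun z hz =>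
    Subtype.ext ((c z z.2).resolve_left fun e => hz (Subtype.ext e))⟩
  rw [← wp_pow]; exact inv_eq_one.1 (congrArg Subtype.val e)

lemma key' (hA : CartOK R A) (u : List (Fin l)) (h : (∀ i : Fin l, mat A i i ≠ 0) ∧
    (∀ S : Finset (Fin l), 0 ∈ S → (∀ i ∈ S, ∀ j : Fin l, mat A i j ≠ 0 → j ∈ S) → S = Finset.univ) ∧
    one A l u (-1) = true ∧ one A l (0 :: u ++ 0 :: u.reverse) 1 ≠ true) :
    Nat.card (center R.W) = 1 ∧ center R.W ≤ zpowers (R.gen.wp (List.finRange l)) := by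
  have : center R.W = ⊥ := eq_bot_iff.2 fun z hz => (cen l hA h.1 h.2.1 u h.2.2.1 hz).resolve_right fun e =>
    h.2.2.2 ((hA.wp_eq_one _).1 (by
      rw [InvGen.wp_append, InvGen.wp_cons, InvGen.wp_cons, InvGen.wp_reverse, ← e, mem_center_iff.1 hz, ← mul_assoc,
        mul_assoc (R.gen.s 0), e, mul_inv_cancel, mul_one, R.gen.sq]))
  simp [this]

/-- For the Coxeter groups of types B₂, G₂, D₄, F₄, E₇, E₈ the centre has order 2 (the element acting as −1 on the root system) and is generated by a power of the Coxeter element `s₁ s₂ ⋯ s_l`; the Coxeter group of type E₆ has trivial centre. -/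
theorem result (c : (Σ n : ℕ, CoxeterMatrix (Fin n)) × ℕ)
    (hc : c ∈ [(⟨2, CoxeterMatrix.B 2⟩, 2), (⟨2, CoxeterMatrix.G₂⟩, 2), (⟨4, Cfsg.Lie.coxeterD4⟩, 2), (⟨4, CoxeterMatrix.F₄⟩, 2),
      (⟨6, CoxeterMatrix.E₆⟩, 1), (⟨7, CoxeterMatrix.E₇⟩, 2), (⟨8, CoxeterMatrix.E₈⟩, 2)]) :
    Nat.card (Subgroup.center c.1.2.Group) = c.2 ∧
      Subgroup.center c.1.2.Group ≤ Subgroup.zpowers ((List.finRange c.1.1).map c.1.2.simple).prod := by
  simp only [List.mem_cons, List.not_mem_nil, or_false] at hc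
  rcases hc with rfl | rfl | rfl | rfl | rfl | rfl | rfl
  exacts [tr 2 coxB2 (key 2 cartB2OK 2 (by decide +kernel)), tr 2 coxG2 (key 2 cartG2OK 3 (by decide +kernel)),
    tr 4 coxD4 (key 4 cartD4OK 3 (by decide +kernel)), tr 4 coxF4 (key 4 cartF4OK 6 (by decide +kernel)),
    tr 6 coxE6 (key' 6 cartE6OK [0, 2, 3, 4, 5, 1, 3, 4, 2, 3, 0, 2, 1, 3, 4, 5, 1, 3, 4, 2, 3, 0, 2, 1, 3, 4, 2, 3, 0, 2, 1, 3, 0, 2, 1, 0] (by decide +kernel)),
    tr 7 coxE7 (key 7 cartE7OK 9 (by decide +kernel)), tr 8 coxE8 (key 8 cartE8OK 15 (by decide +kernel))]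

end Cfsg.Agent.S2418
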