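import Cfsg.Statements.S2419
import Cfsg.Agent.H6.WeylData

set_option autoImplicit false
open Cfsg

namespace Cfsg.Agent.S2419

open H6 H6.Chev Subgroup

def ex (l : ℕ) [NeZero l] : ℕ → List (Fin l)
  | 0 => List.finRange l
  | 1 => (List.finRange l).reverse
  | n + 2 => [Fin.ofNat l n]

def one (A : List (List ℤ)) (l : ℕ) (w : List (Fin l)) : Bool :=
  eqLZ (stepW A (w.map Fin.val) (0, List.replicate l 1)).2 (List.replicate l 1)

lemma key (l : ℕ) [NeZero l] {Φ : Type} [Fintype Φ] {R : RS Φ (Fin l)} {M : CoxeterMatrix (Fin l)}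
    (h : ∃ e : R.W ≃* M.Group, ∀ i, e (R.s i) = M.simple i) {A : List (List ℤ)} (hA : CartOK R A) (T : Finset (Fin l))
    (W : List (List ℕ)) (h1 : ∀ i j, one A l [i, j] = true → i = j)
    (h2 : ∀ i : Fin l, one A l ((W.getD i []).flatMap (ex l) ++ [i]) = true ∧ ∀ n ∈ W.getD i [], n < 2 ∨ Fin.ofNat l (n - 2) ∈ T) :
    ∃ S : Finset M.Group, S.card = T.card ∧ (∀ t ∈ S, ∃ (g : M.Group) (i : Fin l), t = g * M.simple i * g⁻¹) ∧
      closure (({((List.finRange l).map M.simple).prod} : Set M.Group) ∪ ↑S) = ⊤ := by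
  classical
  obtain ⟨e, he⟩ := h
  have w : ∀ u, e (R.gen.wp u) = (u.map M.simple).prod := fun u => by
    rw [InvGen.wp, map_list_prod, List.map_map]
    exact congrArg _ (List.map_congr_left fun i _ => he i)
  refine ⟨T.image M.simple, Finset.card_image_of_injective _ fun i j k => h1 i j ((hA.wp_eq_one _).1 ?_), fun t ht => ?_, ?_⟩
  · simpa [e.injective ((he i).trans (k.trans (he j).symm))] using R.s_sq j
  · obtain ⟨i, -, rfl⟩ := Finset.mem_image.1 ht
    exact ⟨1, i, by simp⟩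
  generalize hK : Subgroup.closure (G := M.Group) _ = K
  have c : e (R.gen.wp (List.finRange l)) ∈ K := hK ▸ subset_closure (Or.inl (w _))
  have k : ∀ u : List ℕ, (∀ n ∈ u, n < 2 ∨ Fin.ofNat l (n - 2) ∈ T) → e (R.gen.wp (u.flatMap (ex l))) ∈ K := fun u hu => by
    induction u with
    | nil => simp
    | cons n u ih =>
      rw [List.flatMap_cons, InvGen.wp_append, map_mul]
      refine mul_mem ?_ (ih fun m hm => hu m (List.mem_cons_of_mem _ hm))
      match n, hu n List.mem_cons_self with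
      | 0, _ => exact c
      | 1, _ => rw [ex, InvGen.wp_reverse, map_inv]; exact inv_mem c
      | n + 2, h => exact hK ▸ subset_closure (Or.inr (Finset.mem_image.2 ⟨_, h.resolve_left (by omega), by simp [ex, he]⟩))
  have s : ∀ i, e (R.s i) ∈ K := fun i => by
    have := (hA.wp_eq_one _).2 (h2 i).1
    rw [InvGen.wp_append, InvGen.wp_singleton] at this
    rw [← R.gen_s, eq_inv_of_mul_eq_one_right this, map_inv]
    exact inv_mem (k _ (h2 i).2)
  refine eq_top_iff.2 fun x _ => ?_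
  obtain ⟨y, rfl⟩ := e.surjective x
  obtain ⟨u, rfl⟩ := R.gen.gen y
  rw [map_list_prod, List.map_map]
  exact list_prod_mem (by simpa using fun a _ => s a)

/-- The Coxeter groups of types B₂, G₂, E₆, E₇, E₈ are generated by the Coxeter element `s₁ s₂ ⋯ s_l` together with one suitable reflection (a conjugate of a simple reflection); for types D₄ and F₄ the Coxeter element together with two suitable reflections suffices. -/
theorem result (c : (Σ n : ℕ, CoxeterMatrix (Fin n)) × ℕ)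
    (hc : c ∈ [(⟨2, CoxeterMatrix.B 2⟩, 1), (⟨2, CoxeterMatrix.G₂⟩, 1), (⟨4, Cfsg.Lie.coxeterD4⟩, 2), (⟨4, CoxeterMatrix.F₄⟩, 2),
      (⟨6, CoxeterMatrix.E₆⟩, 1), (⟨7, CoxeterMatrix.E₇⟩, 1), (⟨8, CoxeterMatrix.E₈⟩, 1)]) :
    ∃ T : Finset c.1.2.Group, T.card = c.2 ∧ (∀ t ∈ T, ∃ (g : c.1.2.Group) (i : Fin c.1.1), t = g * c.1.2.simple i * g⁻¹) ∧
      Subgroup.closure (({((List.finRange c.1.1).map c.1.2.simple).prod} : Set c.1.2.Group) ∪ ↑T) = ⊤ := by
  simp only [List.mem_cons, List.not_mem_nil, or_false] at hc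
  rcases hc with rfl | rfl | rfl | rfl | rfl | rfl | rfl
  exacts [key 2 coxB2 cartB2OK {0} [[2], [1, 2]] (by decide +kernel) (by decide +kernel),
    key 2 coxG2 cartG2OK {0} [[2], [1, 2]] (by decide +kernel) (by decide +kernel),
    key 4 coxD4 cartD4OK {1, 2} [[1, 3, 0], [3], [4], [0, 4, 3, 4, 1]] (by decide +kernel) (by decide +kernel),
    key 4 coxF4 cartF4OK {0, 2} [[2], [0, 2, 1], [4], [0, 4, 1]] (by decide +kernel) (by decide +kernel),
    key 6 coxE6 cartE6OK {3} [[1, 1, 1, 1, 1, 5, 0, 0, 0, 0, 0], [5, 1, 1, 1, 5, 0, 0, 0, 5], [1, 1, 1, 1, 5, 0, 0, 0, 0], [5],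
      [0, 5, 1], [0, 0, 5, 1, 1]] (by decide +kernel) (by decide +kernel),
    key 7 coxE7 cartE7OK {3} [[1, 5, 1, 1, 1, 1, 5, 0, 0, 0, 0, 5, 0], [5, 0, 5, 1, 1, 1, 1, 5, 0, 0, 0, 0, 5, 1, 5],
      [5, 1, 1, 1, 1, 5, 0, 0, 0, 0, 5], [5], [0, 5, 1], [0, 0, 5, 1, 1], [0, 0, 0, 5, 1, 1, 1]]
      (by decide +kernel) (by decide +kernel),
    key 8 coxE8 cartE8OK {3} [[1, 5, 0, 0, 0, 0, 0, 0, 5, 1, 1, 1, 1, 1, 1, 5, 0],
      [5, 0, 5, 0, 0, 0, 0, 0, 0, 5, 1, 1, 1, 1, 1, 1, 5, 1, 5], [5, 0, 0, 0, 0, 0, 0, 5, 1, 1, 1, 1, 1, 1, 5], [5], [0, 5, 1],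
      [0, 0, 5, 1, 1], [0, 0, 0, 5, 1, 1, 1], [0, 0, 0, 0, 5, 1, 1, 1, 1]] (by decide +kernel) (by decide +kernel)]

end Cfsg.Agent.S2419
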