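import Cfsg.Statements.S2426
import Cfsg.Agent.H6.SC5

set_option autoImplicit false
open Cfsg

namespace Cfsg.Agent.S2426

/-- The rank-one Steinberg presentation of `SL₂` over a finite field `K`: generators `x(t)`, `y(t)` (`t ∈ K`; the two opposite root subgroups) subject to additivity `x(t)x(u) = x(t+u)`, `y(t)y(u) = y(t+u)` and, with `w(t) = x(t) y(−t⁻¹) x(t)` and `w'(t) = y(t) x(−t⁻¹) y(t)` for `t ≠ 0`, the relations `w(t) x(u) w(t)⁻¹ = y(−t⁻² u)` and `w'(t) y(u) w'(t)⁻¹ = x(−t⁻² u)`, present `SL₂(K)`, with `x(t) ↦ (1 t; 0 1)` and `y(t) ↦ (1 0; t 1)`. -/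
theorem result {K : Type*} [Field K] [Finite K] :
    ∃ e : PresentedGroup
        ({g : FreeGroup (Bool × K) | ∃ (b : Bool) (t u : K), g = FreeGroup.of (b, t) * FreeGroup.of (b, u) * (FreeGroup.of (b, t + u))⁻¹} ∪
          {g | ∃ (b : Bool) (t u : K), t ≠ 0 ∧
            g = (FreeGroup.of (b, t) * FreeGroup.of (!b, -t⁻¹) * FreeGroup.of (b, t)) * FreeGroup.of (b, u) *
                  (FreeGroup.of (b, t) * FreeGroup.of (!b, -t⁻¹) * FreeGroup.of (b, t))⁻¹ * (FreeGroup.of (!b, -(t⁻¹ ^ 2 * u)))⁻¹})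
        ≃* Matrix.SpecialLinearGroup (Fin 2) K,
      (∀ t : K, ((e (PresentedGroup.of (true, t)) : Matrix (Fin 2) (Fin 2) K)) = !![1, t; 0, 1]) ∧
      (∀ t : K, ((e (PresentedGroup.of (false, t)) : Matrix (Fin 2) (Fin 2) K)) = !![1, 0; t, 1]) := by
  generalize hR : ({g : FreeGroup (Bool × K) | ∃ (b : Bool) (t u : K), g = _} ∪ _ : Set (FreeGroup (Bool × K))) = R
  let θ : PresentedGroup R →* Matrix.SpecialLinearGroup (Fin 2) K :=
    PresentedGroup.toGroup (f := fun a => H6.SC.X2 a.1 a.2) (by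
      subst hR
      rintro _ (⟨b, t, u, rfl⟩ | ⟨b, t, u, ht, rfl⟩) <;> simp only [map_mul, map_inv, FreeGroup.lift_apply_of, mul_inv_eq_one]
      · exact H6.SC.X2_add b t u
      · rw [H6.SC.X2_conj b ht, mul_inv_cancel_right])
  have hθ : ∀ b t, θ (PresentedGroup.of (b, t)) = H6.SC.X2 b t := fun b t => PresentedGroup.toGroup.of _
  refine ⟨MulEquiv.ofBijective θ (H6.SC.sl2_pres (fun b t => PresentedGroup.of (b, t)) (fun b t u => ?_) (fun b t u ht => ?_)
    (fun H h => ?_) hθ), fun t => congrArg Subtype.val (hθ true t), fun t => congrArg Subtype.val (hθ false t)⟩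
  · have := PresentedGroup.one_of_mem (rels := R) (hR.le (Or.inl ⟨b, t, u, rfl⟩))
    rw [map_mul, map_mul, map_inv, mul_inv_eq_one] at this
    exact this.symm
  · have := PresentedGroup.one_of_mem (rels := R) (hR.le (Or.inr ⟨b, t, u, ht, rfl⟩))
    simp only [map_mul, map_inv, mul_inv_eq_one] at this
    exact this
  · rw [eq_top_iff, ← PresentedGroup.closure_range_of, Subgroup.closure_le]
    rintro _ ⟨⟨b, t⟩, rfl⟩
    exact h b t

end Cfsg.Agent.S2426
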