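import Cfsg.Statements.S2427
import Cfsg.Agent.H5.SL2Cl
import Cfsg.Agent.S0257

set_option autoImplicit false
open Cfsg

namespace Cfsg.Agent.S2427

open H5

/-- The group SL₂ over the field with 3 elements has order 24 and centre of order 2; its commutator subgroup has order 8, is isomorphic to the quaternion group of order 8 and is complemented by every Sylow 3-subgroup (so the group is a semidirect product of a quaternion group of order 8 by a cyclic group of order 3); and its only normal subgroups besides the trivial subgroup and the whole group are the centre and the commutator subgroup. -/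
theorem result :
    Nat.card (Matrix.SpecialLinearGroup (Fin 2) (ZMod 3)) = 24 ∧
    Nat.card (Subgroup.center (Matrix.SpecialLinearGroup (Fin 2) (ZMod 3))) = 2 ∧
    Nat.card (commutator (Matrix.SpecialLinearGroup (Fin 2) (ZMod 3))) = 8 ∧
    Nonempty (commutator (Matrix.SpecialLinearGroup (Fin 2) (ZMod 3)) ≃* QuaternionGroup 2) ∧
    (∀ P : Sylow 3 (Matrix.SpecialLinearGroup (Fin 2) (ZMod 3)),
      Subgroup.IsComplement' (commutator (Matrix.SpecialLinearGroup (Fin 2) (ZMod 3)))
        (P : Subgroup (Matrix.SpecialLinearGroup (Fin 2) (ZMod 3)))) ∧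
    ∀ N : Subgroup (Matrix.SpecialLinearGroup (Fin 2) (ZMod 3)), N.Normal →
      N = ⊥ ∨ N = ⊤ ∨ N = Subgroup.center (Matrix.SpecialLinearGroup (Fin 2) (ZMod 3)) ∨
        N = commutator (Matrix.SpecialLinearGroup (Fin 2) (ZMod 3)) := by
  obtain ⟨⟨Q, hQ, hi, ⟨e⟩⟩, hZ⟩ := Cfsg.Agent.S0257.result (F := ZMod 3) (by simp)
  have hG : Nat.card (SL2 (ZMod 3)) = 24 := by rw [card_SL2]; simp
  have hc : Nat.card Q = 8 := by rw [card_equiv e, Nat.card_eq_fintype_card, QuaternionGroup.card]
  have h2 : (2 : ZMod 3) ≠ 0 := by decide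
  have k1 : ∀ N : Subgroup (SL2 (ZMod 3)), N.Normal → ∀ g ∈ N, g.1.trace = 2 → g ≠ 1 → N = ⊤ := fun N hN g hg h1 h3 => by
    obtain ⟨b, hb⟩ := exists_conj_up_of_trace h1
    obtain ⟨c, hc⟩ := isConj_iff.1 hb
    have h4 : up b ∈ N := hc ▸ hN.conj_mem g hg c
    have h5 : b ≠ 0 := by rintro rfl; rw [up_eq_one.2 rfl, isConj_one_left] at hb; exact h3 hb
    have h6 : ∀ a, up a ∈ N := fun a => by
      have := N.pow_mem h4 (a * b).val
      rwa [upper_pow, ZMod.natCast_zmod_val, (by decide : ∀ a b : ZMod 3, b ≠ 0 → a * b * b = a) a b h5] at this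
    refine SL2_eq_top N h6 fun a => ?_
    have := hN.conj_mem _ (h6 (-a)) (sl2 0 (-1) 1 0 (by simp))
    rw [sl2_inv, sl2_mul, sl2_mul] at this
    simpa using this
  have k2 : ∀ N : Subgroup (SL2 (ZMod 3)), N.Normal → N ≠ ⊤ → ∀ g ∈ N, g = 1 ∨ g = -1 ∨ g.1.trace = 0 := fun N hN h g hg => by
    by_contra! h3
    have : ∀ t : ZMod 3, t ≠ 0 → t = 2 ∨ -t = 2 := by decide
    rcases this _ h3.2.2 with h4 | h4
    · exact h (k1 N hN g hg h4 h3.1)
    · rw [← trace_neg_SL] at h4
      obtain ⟨x, hx⟩ := exists_US_of_trace h4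
      have h5 : (-g) ^ 3 = 1 := toG_inj (by rw [map_pow, map_one]; exact pow_char_UG 3 hx)
      refine h (k1 N hN _ ?_ h4 fun e => h3.2.1 (neg_eq_iff_eq_neg.1 e))
      have := N.pow_mem hg 4
      rwa [← Even.neg_pow (by decide), pow_succ, h5, one_mul] at this
  have hQt : Q ≠ ⊤ := by rintro rfl; simp at hi
  have k3 : ∀ g : SL2 (ZMod 3), g ^ 4 = 1 → g ∈ Q := fun g hg => by
    have h3 := Q.pow_index_mem g
    rw [hi] at h3
    have := Q.inv_mem h3
    rwa [← eq_inv_of_mul_eq_one_right (by rw [← pow_succ, hg] : g ^ 3 * g = 1)] at this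
  have k4 : ∀ g : SL2 (ZMod 3), g.1.trace = 0 → g * g = -1 := fun g h => (sq_eq_neg_one_iff fun e => by
    rcases mkS_eq_one_iff.1 e with rfl | rfl <;> revert h <;> decide).2 h
  have k5 : ∀ N : Subgroup (SL2 (ZMod 3)), N.Normal → N = ⊥ ∨ N = ⊤ ∨ N = Subgroup.center _ ∨ N = Q := fun N hN => by
    by_cases h : N = ⊤
    · exact Or.inr (Or.inl h)
    by_cases h3 : ∃ g ∈ N, g.1.trace = 0
    · obtain ⟨g, hg, h3⟩ := h3
      refine Or.inr (Or.inr (Or.inr (le_antisymm (fun x hx => k3 x ?_) fun x hx => ?_)))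
      · rcases k2 N hN h x hx with rfl | rfl | h4
        · simp
        · exact Even.neg_one_pow (by decide)
        · rw [show 4 = 2 * 2 from rfl, pow_mul, sq x, k4 x h4]; simp
      · rcases k2 Q hQ hQt x hx with rfl | rfl | h4
        · exact one_mem _
        · exact k4 g h3 ▸ mul_mem hg hg
        · obtain ⟨c, rfl⟩ := isConj_iff.1 (isConj_of_trace (h3.trans h4.symm) (by rw [h3]; decide))
          exact hN.conj_mem g hg c
    by_cases h4 : -1 ∈ N
    · refine Or.inr (Or.inr (Or.inl (le_antisymm (fun x hx => mem_center_SL2.2 ?_) fun x hx => ?_)))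
      · exact (or_assoc.2 (k2 N hN h x hx)).resolve_right fun e => h3 ⟨x, hx, e⟩
      · rcases mem_center_SL2.1 hx with rfl | rfl
        exacts [one_mem _, h4]
    · refine Or.inl (eq_bot_iff.2 fun x hx => ?_)
      rcases k2 N hN h x hx with rfl | rfl | h5
      exacts [one_mem _, (h4 hx).elim, (h3 ⟨x, hx, h5⟩).elim]
  have k6 : commutator (SL2 (ZMod 3)) = Q := by
    have h3 : commutator (SL2 (ZMod 3)) ≤ Q := by
      have : Fact (Nat.Prime 3) := ⟨Nat.prime_three⟩
      have : IsCyclic (_ ⧸ Q) := isCyclic_of_prime_card (p := 3) hi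
      exact Subgroup.Normal.quotient_commutative_iff_commutator_le.1 inferInstance
    have h4 : ¬ commutator (SL2 (ZMod 3)) ≤ Subgroup.center _ := fun h => by
      have := mem_center_SL2.1 (h (Subgroup.commutator_mem_commutator (Subgroup.mem_top (up (1 : ZMod 3)))
        (Subgroup.mem_top (sl2 (1 : ZMod 3) 0 1 1 (by simp)))))
      simp only [commutatorElement_def, sl2_inv, sl2_mul, one_eq_sl2, neg_sl2, sl2_eq_iff] at this
      revert this; decide
    rcases k5 _ (inferInstance : (commutator (SL2 (ZMod 3))).Normal) with h | h | h | h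
    · exact (h4 (h ▸ bot_le)).elim
    · exact (hQt (top_le_iff.1 (h ▸ h3))).elim
    · exact (h4 h.le).elim
    · exact h
  rw [k6]
  refine ⟨hG, hZ, hc, ⟨e⟩, fun P => ?_, k5⟩
  have hP : Nat.card P = 3 := by
    rw [P.card_eq_multiplicity, hG, Nat.factorization_def _ Nat.prime_three]; decide +kernel
  exact Subgroup.isComplement'_of_coprime (by rw [hc, hG]; exact congrArg _ hP) (by rw [hc, hP]; decide)


end Cfsg.Agent.S2427
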