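import Cfsg.Statements.S2428
import Cfsg.Agent.H5.SL2Cl

set_option autoImplicit false
open Cfsg

namespace Cfsg.Agent.S2428

open H5

/-- Let F be a finite field with q elements, q odd, and let d be a diagonal element of SL₂ over F whose diagonal entry a has a² ≠ 1 (such d exist exactly when q > 3). Then the centraliser of d is precisely the diagonal subgroup T; the normaliser of T has order 2(q − 1) and exactly (q + 5)/2 conjugacy classes; and every element of that normaliser outside T has square equal to −1. -/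
theorem result {F : Type*} [Field F] [Fintype F] (hodd : Odd (Fintype.card F))
    (d : Matrix.SpecialLinearGroup (Fin 2) F) (hd01 : (d : Matrix (Fin 2) (Fin 2) F) 0 1 = 0) (hd10 : (d : Matrix (Fin 2) (Fin 2) F) 1 0 = 0) (hda : (d : Matrix (Fin 2) (Fin 2) F) 0 0 ^ 2 ≠ 1) :
    (∀ g : Matrix.SpecialLinearGroup (Fin 2) F, g ∈ Subgroup.centralizer ({d} : Set (Matrix.SpecialLinearGroup (Fin 2) F)) ↔ ((g : Matrix (Fin 2) (Fin 2) F) 0 1 = 0 ∧ (g : Matrix (Fin 2) (Fin 2) F) 1 0 = 0)) ∧
    Nat.card (Subgroup.normalizer ((Subgroup.centralizer ({d} : Set (Matrix.SpecialLinearGroup (Fin 2) F))) : Set (Matrix.SpecialLinearGroup (Fin 2) F))) = 2 * (Fintype.card F - 1) ∧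
    Nat.card (ConjClasses (Subgroup.normalizer ((Subgroup.centralizer ({d} : Set (Matrix.SpecialLinearGroup (Fin 2) F))) : Set (Matrix.SpecialLinearGroup (Fin 2) F)))) = (Fintype.card F + 5) / 2 ∧
    ∀ g : Matrix.SpecialLinearGroup (Fin 2) F, g ∈ Subgroup.normalizer ((Subgroup.centralizer ({d} : Set (Matrix.SpecialLinearGroup (Fin 2) F))) : Set (Matrix.SpecialLinearGroup (Fin 2) F)) →
      g ∉ Subgroup.centralizer ({d} : Set (Matrix.SpecialLinearGroup (Fin 2) F)) → ((g * g) : Matrix (Fin 2) (Fin 2) F) = -1 := by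
  have h2 := two_ne_of_odd hodd
  have hT := isTor_split (F := F)
  have hm : ∀ g : SL2 F, mkS g ∈ splitT F ↔ g.1 0 1 = 0 ∧ g.1 1 0 = 0 := fun g => by
    obtain ⟨a, b, c, d, h, rfl⟩ := exists_sl2 g
    rw [mkS_sl2, splitT, Subgroup.mem_inf, MulAction.mem_stabilizer_iff, MulAction.mem_stabilizer_iff, pg_infty_eq_iff,
      pg_coe_eq_iff]
    simp [and_comm]
  have h1 : mkS d ≠ 1 := fun e => by rcases mkS_eq_one_iff.1 e with rfl | rfl <;> simp at hda
  have hd := (hm d).2 ⟨hd01, hd10⟩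
  rw [hT.centralizer_SL hd h1, hT.normalizer_SL le_rfl hd h1]
  obtain ⟨e⟩ := hT.quat_D h2
  have := Fintype.one_lt_card (α := F)
  obtain ⟨k, hk⟩ := hodd
  refine ⟨hm, hT.card_D_SL, ?_, fun g hg hg' => congrArg Subtype.val (hT.sq_SL hg hg')⟩
  rw [card_conjClasses_equiv e, card_conjClasses_quat (by omega)]
  omega


end Cfsg.Agent.S2428
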