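import Cfsg.Statements.S2429
import Cfsg.Agent.H5.SL2Cl

set_option autoImplicit false
open Cfsg

namespace Cfsg.Agent.S2429

open H5

/-- Let F be a finite field with q elements, q odd. Then SL₂ over F contains a cyclic subgroup T′ of order q + 1 (a non-split torus) with the following properties: T′ is its own centraliser, and indeed the centraliser of each element of T′ other than 1 and −1 is exactly T′; every element of SL₂ having no eigenvector in F² is conjugate to an element of T′; the normaliser of T′ has order 2(q + 1) and exactly (q + 7)/2 conjugacy classes; and every element of that normaliser outside T′ has square −1. -/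
theorem result {F : Type*} [Field F] [Fintype F] (hodd : Odd (Fintype.card F)) :
    ∃ T' : Subgroup (Matrix.SpecialLinearGroup (Fin 2) F), IsCyclic T' ∧ Nat.card T' = Fintype.card F + 1 ∧
      Subgroup.centralizer ((T' : Set (Matrix.SpecialLinearGroup (Fin 2) F))) = T' ∧
      (∀ g : Matrix.SpecialLinearGroup (Fin 2) F, g ∈ T' → (g : Matrix (Fin 2) (Fin 2) F) ≠ 1 → (g : Matrix (Fin 2) (Fin 2) F) ≠ -1 → Subgroup.centralizer ({g} : Set (Matrix.SpecialLinearGroup (Fin 2) F)) = T') ∧
      (∀ g : Matrix.SpecialLinearGroup (Fin 2) F, (∀ (c : F) (v : Fin 2 → F), v ≠ 0 → (g : Matrix (Fin 2) (Fin 2) F).mulVec v ≠ c • v) → ∃ h : Matrix.SpecialLinearGroup (Fin 2) F, h * g * h⁻¹ ∈ T') ∧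
      Nat.card (Subgroup.normalizer (T' : Set (Matrix.SpecialLinearGroup (Fin 2) F))) = 2 * (Fintype.card F + 1) ∧
      Nat.card (ConjClasses (Subgroup.normalizer (T' : Set (Matrix.SpecialLinearGroup (Fin 2) F)))) = (Fintype.card F + 7) / 2 ∧
      ∀ g : Matrix.SpecialLinearGroup (Fin 2) F, g ∈ Subgroup.normalizer (T' : Set (Matrix.SpecialLinearGroup (Fin 2) F)) → g ∉ T' → ((g * g) : Matrix (Fin 2) (Fin 2) F) = -1 := by
  have h2 := two_ne_of_odd hodd
  obtain ⟨T, D, hT, -, hT2⟩ := exists_nonsplit F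
  have := Fintype.one_lt_card (α := F)
  obtain ⟨r, hr, ho⟩ := hT.exists_gen_PS
  have hr' : r ∈ T ⊓ PS F := hr ▸ Subgroup.mem_zpowers r
  obtain ⟨t, rfl⟩ := hr'.2
  obtain ⟨k, hk⟩ := id hodd
  have h1 : mkS t ≠ 1 := fun e => by
    change orderOf (mkS t) = _ at ho
    rw [e, orderOf_one, gcd_two_of_odd hodd] at ho; omega
  have hN := hT.normalizer_SL le_rfl (t := t) hr'.1 h1
  obtain ⟨e⟩ := hT.quat_D h2
  refine ⟨T.comap mkS, hT.isCyclic_SL, hT.card_SL, le_antisymm ?_ fun g hg h hh => hT.comm_SL hh hg,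
    fun g hg a b => hT.centralizer_SL hg fun e => ?_, fun g hg => ?_, hN ▸ hT.card_D_SL, ?_,
    fun g hg hg' => congrArg Subtype.val (hT.sq_SL (show g ∈ D.comap mkS from hN ▸ hg) hg')⟩
  · rw [← hT.centralizer_SL hr'.1 h1]
    exact Subgroup.centralizer_le (Set.singleton_subset_iff.2 (Subgroup.mem_centralizer_singleton_iff.2 rfl))
  · rcases mkS_eq_one_iff.1 e with rfl | rfl
    exacts [a rfl, b rfl]
  · have hf : ∀ x : OnePoint F, mkS g • x ≠ x := fun x hx => by
      obtain ⟨c, v, hv, e⟩ := (exists_fix_iff (g := toG g)).1 ⟨x, hx⟩; exact hg c v hv e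
    obtain ⟨c, hc⟩ := hT2 _ hf
    obtain ⟨c, rfl⟩ := mkG_surj c
    have h3 : g.1.trace ^ 2 ≠ 4 := fun e => by
      obtain ⟨v, hv, e⟩ := eigen_of_root (g := g.1) (c := g.1.trace / 2) (by
        rw [g.2]; field_simp; linear_combination -e)
      exact hg _ v hv e
    obtain ⟨h, hh⟩ := isConj_iff.1 (isConj_of_trace (trace_conjSL c⁻¹ g).symm h3)
    refine ⟨h, ?_⟩
    rw [hh, Subgroup.mem_comap, mkS_conjSL, map_inv, inv_inv]
    exact mem_cj.1 hc
  · rw [hN, card_conjClasses_equiv e, card_conjClasses_quat (by omega)]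
    omega


end Cfsg.Agent.S2429
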