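import Cfsg.Statements.S2430
import Cfsg.Agent.H5.SL2Cl

set_option autoImplicit false
open Cfsg

namespace Cfsg.Agent.S2430

open H5

theorem key {F : Type*} [Field F] [Fintype F] (ℓ : ℕ) [Fact ℓ.Prime] (hℓ : ℓ ≠ 2) (P : Sylow ℓ (SL2 F)) {n : ℕ}
    (hn : n = Fintype.card F - 1 ∨ n = Fintype.card F + 1) (h : ℓ ∣ n) :
    Nat.card (Subgroup.centralizer ((P : Subgroup (SL2 F)) : Set (SL2 F))) = n ∧
    IsCyclic (Subgroup.centralizer ((P : Subgroup (SL2 F)) : Set (SL2 F))) ∧
    Nat.card (Subgroup.normalizer ((P : Subgroup (SL2 F)) : Set (SL2 F))) = 2 * n := by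
  have hq := Fintype.one_lt_card (α := F)
  have hl : ℓ.Prime := Fact.out
  obtain ⟨p, hp⟩ := CharP.exists F
  have : Fact p.Prime := ⟨CharP.char_is_prime F p⟩
  have h2 : ¬ ℓ ∣ 2 := fun h => hℓ ((Nat.prime_dvd_prime_iff_eq hl Nat.prime_two).1 h)
  have hpl : p ≠ ℓ := by
    rintro rfl
    obtain ⟨T, D, hT⟩ := exists_tor hn
    exact hT.not_dvd p h
  have hP := P.isPGroup'.map (mkS (F := F))
  obtain ⟨m, T, D, hT, hle⟩ := le_tor_of_odd p (not_dvd_card_of_isPGroup hP Fact.out hpl)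
    (not_dvd_card_of_isPGroup hP Nat.prime_two hℓ.symm)
  have hd : ℓ ∣ Nat.card (SL2 F) := by
    rw [card_SL2]
    rcases hn with rfl | rfl
    exacts [(h.mul_left _).mul_right _, h.mul_left _]
  obtain ⟨t, ht⟩ := exists_prime_orderOf_dvd_card' (G := P) ℓ (P.dvd_card_of_dvd_card hd)
  rw [← Subgroup.orderOf_coe] at ht
  have h1 : mkS (t : SL2 F) ≠ 1 := fun e => h2 (by
    rw [← ht, orderOf_dvd_iff_pow_eq_one]
    rcases mkS_eq_one_iff.1 e with e | e <;> simp [e])
  have hle' := Subgroup.map_le_iff_le_comap.1 hle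
  have h3 : ℓ ∣ m := ht ▸ hT.card_SL ▸ Subgroup.orderOf_dvd_natCard _ (hle' t.2)
  obtain rfl : n = m := by
    by_contra hne
    refine h2 ?_
    rcases hn with rfl | rfl <;> rcases hT.eq with rfl | rfl
    · exact (hne rfl).elim
    · exact (Nat.dvd_add_right h).1 (by convert h3 using 1; omega)
    · exact (Nat.dvd_add_right h3).1 (by convert h using 1; omega)
    · exact (hne rfl).elim
  have hC : Subgroup.centralizer ((P : Subgroup (SL2 F)) : Set (SL2 F)) = T.comap mkS := le_antisymm (by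
    rw [← hT.centralizer_SL (hle' t.2) h1]
    exact Subgroup.centralizer_le (Set.singleton_subset_iff.2 t.2)) fun g hg h hh => hT.comm_SL (hle' hh) hg
  rw [hC, hT.normalizer_SL hle' t.2 h1]
  exact ⟨hT.card_SL, hT.isCyclic_SL, hT.card_D_SL⟩

/-- Let F be a finite field with q elements, q odd, ℓ an odd prime, and P a Sylow ℓ-subgroup of SL₂ over F. If ℓ divides q − 1, the centraliser of P is cyclic of order q − 1 (a split torus) and the normaliser of P has order 2(q − 1); if ℓ divides q + 1, the centraliser of P is cyclic of order q + 1 (a non-split torus) and the normaliser of P has order 2(q + 1). -/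
theorem result {F : Type*} [Field F] [Fintype F] (hodd : Odd (Fintype.card F)) (ℓ : ℕ) [Fact ℓ.Prime] (hℓ : ℓ ≠ 2)
    (P : Sylow ℓ (Matrix.SpecialLinearGroup (Fin 2) F)) :
    (ℓ ∣ Fintype.card F - 1 →
      Nat.card (Subgroup.centralizer ((P : Subgroup (Matrix.SpecialLinearGroup (Fin 2) F)) : Set (Matrix.SpecialLinearGroup (Fin 2) F))) = Fintype.card F - 1 ∧
      IsCyclic (Subgroup.centralizer ((P : Subgroup (Matrix.SpecialLinearGroup (Fin 2) F)) : Set (Matrix.SpecialLinearGroup (Fin 2) F))) ∧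
      Nat.card (Subgroup.normalizer ((P : Subgroup (Matrix.SpecialLinearGroup (Fin 2) F)) : Set (Matrix.SpecialLinearGroup (Fin 2) F))) = 2 * (Fintype.card F - 1)) ∧
    (ℓ ∣ Fintype.card F + 1 →
      Nat.card (Subgroup.centralizer ((P : Subgroup (Matrix.SpecialLinearGroup (Fin 2) F)) : Set (Matrix.SpecialLinearGroup (Fin 2) F))) = Fintype.card F + 1 ∧
      IsCyclic (Subgroup.centralizer ((P : Subgroup (Matrix.SpecialLinearGroup (Fin 2) F)) : Set (Matrix.SpecialLinearGroup (Fin 2) F))) ∧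
      Nat.card (Subgroup.normalizer ((P : Subgroup (Matrix.SpecialLinearGroup (Fin 2) F)) : Set (Matrix.SpecialLinearGroup (Fin 2) F))) = 2 * (Fintype.card F + 1)) := by
  exact ⟨key ℓ hℓ P (Or.inl rfl), key ℓ hℓ P (Or.inr rfl)⟩


end Cfsg.Agent.S2430
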