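import Cfsg.Statements.S2434
import Cfsg.Agent.H3.G2d

set_option autoImplicit false
open Cfsg

namespace Cfsg.Agent.S2434

open H3 H3.G2 H5

/-- Let F be a finite field with q elements, q odd, and C a cyclic subgroup of order q + 1 of SL₂ over F (a non-split torus; it contains the centre). For every homomorphism θ from C to the non-zero complex numbers with θ² ≠ 1 there is an irreducible complex character χ of degree q − 1 such that χ(c) = −θ(c) − θ(c)⁻¹ for every non-central c in C, χ(zg) = θ(z)χ(g) for central z in C, χ vanishes at diagonal elements with entry a, a² ≠ 1, and χ takes the value −1 at every upper unitriangular element other than 1. Conversely every irreducible character of degree q − 1 has, for some such θ, the values −θ(c) − θ(c)⁻¹ at the non-central elements c of C (for q ≥ 5 these are exactly the cuspidal characters of degree q − 1). -/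
theorem result {F : Type*} [Field F] [Fintype F] (hodd : Odd (Fintype.card F))
    (C : Subgroup (Matrix.SpecialLinearGroup (Fin 2) F)) (hC : IsCyclic C) (hcard : Nat.card C = Fintype.card F + 1) :
    (∀ θ : C →* ℂˣ, (∃ c : C, θ c ^ 2 ≠ 1) →
      ∃ χ : Matrix.SpecialLinearGroup (Fin 2) F → ℂ, Cfsg.IsIrrCharacter (Matrix.SpecialLinearGroup (Fin 2) F) χ ∧ χ 1 = (Fintype.card F : ℂ) - 1 ∧
        (∀ c : C, (c : Matrix.SpecialLinearGroup (Fin 2) F) ∉ Subgroup.center (Matrix.SpecialLinearGroup (Fin 2) F) → χ c = -((θ c).val + (θ c)⁻¹.val)) ∧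
        (∀ c : C, (c : Matrix.SpecialLinearGroup (Fin 2) F) ∈ Subgroup.center (Matrix.SpecialLinearGroup (Fin 2) F) → ∀ g : Matrix.SpecialLinearGroup (Fin 2) F, χ ((c : Matrix.SpecialLinearGroup (Fin 2) F) * g) = (θ c).val * χ g) ∧
        (∀ g : Matrix.SpecialLinearGroup (Fin 2) F, (g : Matrix (Fin 2) (Fin 2) F) 0 1 = 0 → (g : Matrix (Fin 2) (Fin 2) F) 1 0 = 0 → (g : Matrix (Fin 2) (Fin 2) F) 0 0 ^ 2 ≠ 1 → χ g = 0) ∧
        (∀ g : Matrix.SpecialLinearGroup (Fin 2) F, (g : Matrix (Fin 2) (Fin 2) F) 1 0 = 0 → (g : Matrix (Fin 2) (Fin 2) F) 0 0 = 1 → (g : Matrix (Fin 2) (Fin 2) F) 1 1 = 1 → (g : Matrix (Fin 2) (Fin 2) F) 0 1 ≠ 0 → χ g = -1)) ∧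
    (∀ χ : Matrix.SpecialLinearGroup (Fin 2) F → ℂ, Cfsg.IsIrrCharacter (Matrix.SpecialLinearGroup (Fin 2) F) χ → χ 1 = (Fintype.card F : ℂ) - 1 →
      ∃ θ : C →* ℂˣ, (∃ c : C, θ c ^ 2 ≠ 1) ∧
        ∀ c : C, (c : Matrix.SpecialLinearGroup (Fin 2) F) ∉ Subgroup.center (Matrix.SpecialLinearGroup (Fin 2) F) → χ c = -((θ c).val + (θ c)⁻¹.val)) := by
  classical
  obtain ⟨w, hw, rfl⟩ : ∃ w : GL2 F, ¬ Rt w.1 ∧ C = T1 w := by
    obtain ⟨c, hc⟩ := IsCyclic.exists_generator (α := C)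
    have hw := not_rt_of_order (g := c.1)
      (by rw [Subgroup.orderOf_coe, orderOf_eq_card_of_forall_mem_zpowers hc, hcard])
    refine ⟨_, hw, Subgroup.eq_of_le_of_card_ge (fun x hx => ?_) (by rw [card_T1' hw, hcard])⟩
    exact Subgroup.mem_centralizer_singleton_iff.2 (by
      rw [← map_mul, ← map_mul]; exact congrArg (toG ·.1) (cyc_comm hC ⟨x, hx⟩ c))
  have k : ∀ θ : T1 w →* ℂˣ, (∃ c, θ c ^ 2 ≠ 1) ↔ θ ^ 2 ≠ 1 := fun θ => by
    simp only [Ne, MonoidHom.ext_iff, not_forall]; rfl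
  simp only [k, ← mkG_toG_iff]
  refine ⟨fun θ hθ => ⟨cs hw θ, irr_cs hw hθ, cs_one hw θ, cs_T hw θ, fun c hc g => ?_, fun g h1 h2 h3 => ?_,
    fun g h1 h2 h3 h4 => ?_⟩, fun χ hχ h => ?_⟩
  · obtain ⟨a, ha⟩ := mkG_eq_one.1 hc
    rw [cs, res, res, map_mul, ha, cusp_scG_mul hw ((barH_ne_iff hw).2 (by
      rw [ext_jT]; rintro rfl; exact hθ (by ext; simp))), show sc w a = jT w c from Subtype.ext ha.symm,
      ← MonoidHom.comp_apply, ext_jT]
  · obtain ⟨a, x, e, e1, e2, e3⟩ := exists_bmS h2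
    simp [cs, res, e, cusp_bm hw, nf, ne_inv_of_sq (e1 ▸ h3)]
  · rw [cs, res, show toG g = bm 1 1 (g.1 0 1) from Units.ext (by
      ext i j; fin_cases i <;> fin_cases j <;> simp [h1, h2, h3]), cusp_up hw _ _ h4]
  · have h3 : 3 ≤ Fintype.card F := by have := Fintype.one_lt_card (α := F); obtain ⟨k, hk⟩ := hodd; omega
    rcases sdeg_pred' hw hχ h3 h with ⟨η, h1, rfl⟩ | ⟨h3, χ', h1⟩
    · exact ⟨η, h1, cs_T hw η⟩
    · have := card_sq_ne_even (T1_even hw hodd)
      rw [hcard, h3] at this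
      obtain ⟨⟨η, hη⟩⟩ := (Nat.card_ne_zero.1 (this.trans_ne two_ne_zero)).1
      refine ⟨η, hη, fun c hc => ?_⟩
      have : ¬ Rt (toG c.1).1 := not_rt_T hw (jT w c) hc
      rw [cs_three hw h3 hη c hc, h1.ss (tr_ne_four' this), ps_not_rt _ _ this]; simp

end Cfsg.Agent.S2434
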