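import Cfsg.Statements.S2435
import Cfsg.Agent.H3.G2d

set_option autoImplicit false
open Cfsg

namespace Cfsg.Agent.S2435

open H3 H3.G2 H5

/-- Let F be a finite field with q elements, q odd and q ≥ 5, and χ an irreducible complex character of SL₂ over F. If χ has degree (q + 1)/2, then at a diagonal element with entry a, a² ≠ 1, χ takes the value 1 when a is a square in F and −1 otherwise. If χ has degree (q − 1)/2, then at an element g with no eigenvector in F² (so g has order dividing q + 1), χ takes the value −1 when g raised to the power (q + 1)/2 is the identity and the value 1 otherwise. -/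
theorem result {F : Type*} [Field F] [Fintype F] (hodd : Odd (Fintype.card F)) (hq : 5 ≤ Fintype.card F)
    (χ : Matrix.SpecialLinearGroup (Fin 2) F → ℂ) (hχ : Cfsg.IsIrrCharacter (Matrix.SpecialLinearGroup (Fin 2) F) χ) (g : Matrix.SpecialLinearGroup (Fin 2) F) :
    (χ 1 = (((Fintype.card F + 1) / 2 : ℕ) : ℂ) → (g : Matrix (Fin 2) (Fin 2) F) 0 1 = 0 → (g : Matrix (Fin 2) (Fin 2) F) 1 0 = 0 → (g : Matrix (Fin 2) (Fin 2) F) 0 0 ^ 2 ≠ 1 →
      (IsSquare ((g : Matrix (Fin 2) (Fin 2) F) 0 0) → χ g = 1) ∧ (¬ IsSquare ((g : Matrix (Fin 2) (Fin 2) F) 0 0) → χ g = -1)) ∧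
    (χ 1 = (((Fintype.card F - 1) / 2 : ℕ) : ℂ) → (∀ (c : F) (v : Fin 2 → F), v ≠ 0 → (g : Matrix (Fin 2) (Fin 2) F).mulVec v ≠ c • v) →
      (((g ^ ((Fintype.card F + 1) / 2)) : Matrix (Fin 2) (Fin 2) F) = 1 → χ g = -1) ∧ (((g ^ ((Fintype.card F + 1) / 2)) : Matrix (Fin 2) (Fin 2) F) ≠ 1 → χ g = 1)) := by
  classical
  have hq' : 4 ≤ Fintype.card F := by omega
  rw [cast_hs hodd, cast_hp hodd]
  refine ⟨fun h h1 h2 h3 => ?_, fun h h1 => ?_⟩
  · obtain ⟨w, hw⟩ := exists_not_rt (F := F)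
    obtain ⟨a, x, e, e1, e2, e3⟩ := exists_bmS h2
    have h4 := ne_inv_of_sq (e1 ▸ h3)
    obtain ⟨χ', h⟩ := sdeg_hs hw hχ hq' h
    rw [h.ss (tr_ne_four e h4), e, ps_bm, nf, if_neg h4, e1, MulChar.one_apply_coe, MulChar.one_apply_coe]
    refine ⟨fun h => ?_, fun h => ?_⟩
    · rw [qc_of_sq a.ne_zero h, qc_of_sq a⁻¹.ne_zero (by simpa using h)]; norm_num
    · rw [qc_of_nsq h, qc_of_nsq (by simpa using h)]; norm_num
  · have hw : ¬ Rt (toG g).1 := not_rt h1
    have := isCyclic_T1 hw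
    obtain ⟨η, χ', e1, e2, h⟩ := sdeg_hp hw hχ hq' h
    have h4 : g ∈ T1 (toG g) := Subgroup.mem_centralizer_singleton_iff.2 rfl
    have h5 : cusp (ext hw η) (toG g) = _ := cs_T hw η ⟨g, h4⟩ (ne_one_of_not_rt hw)
    have h6 := hom_two_apply e1 e2 (m := (Fintype.card F + 1) / 2)
      (by rw [card_T1' hw]; obtain ⟨k, hk⟩ := hodd; omega) ⟨g, h4⟩
    rw [h.ss (tr_ne_four' hw), h5, Units.val_inv_eq_inv_val, h6]
    simp only [Subtype.ext_iff, SubmonoidClass.coe_pow, OneMemClass.coe_one]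
    refine ⟨fun h => ?_, fun h => ?_⟩
    · rw [if_pos (show g ^ _ = 1 from Subtype.ext (by simpa using h))]; norm_num
    · rw [if_neg fun e => h (by simpa using congrArg Subtype.val e)]; norm_num

end Cfsg.Agent.S2435
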