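import Cfsg.Statements.S2437


set_option autoImplicit false
open Cfsg

namespace Cfsg.Agent.S2437

open scoped Pointwise
section
variable {F : Type*} [Field F]

/-- coordinates on the Borel subgroup -/
def eqv : ((Cfsg.upperTriangularGL 2 F).comap (Matrix.SpecialLinearGroup.toGL (n := Fin 2) (R := F))) ≃ Fˣ × F where
  toFun g := (Units.mkOfMulEqOne (g.1.1 0 0) (g.1.1 1 1) (by
    have h1 := g.1.2
    have h2 : g.1.1 1 0 = 0 := g.2 (show (id 0 : Fin 2) < id 1 by decide)
    rw [Matrix.det_fin_two, h2] at h1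
    simpa using h1), g.1.1 0 1)
  invFun x := ⟨⟨!![(x.1 : F), x.2; 0, ((x.1⁻¹ : Fˣ) : F)], by simp [Matrix.det_fin_two]⟩, by
    intro i j h
    fin_cases i <;> fin_cases j <;> first | rfl | simp at h⟩
  left_inv g := by
    have h2 : g.1.1 1 0 = 0 := g.2 (show (id 0 : Fin 2) < id 1 by decide)
    have h1 := g.1.2
    rw [Matrix.det_fin_two, h2] at h1
    apply Subtype.ext; apply Subtype.ext
    ext i j
    fin_cases i <;> fin_cases j <;> simp [h2]
    exact inv_eq_of_mul_eq_one_right (by simpa using h1)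
  right_inv x := by
    ext <;> simp

theorem comm_iff (x y : Fˣ × F) : Commute (eqv.symm x) (eqv.symm y) ↔
    y.2 * ((x.1 : F) - (x.1 : F)⁻¹) = x.2 * ((y.1 : F) - (y.1 : F)⁻¹) := by
  unfold Commute SemiconjBy
  rw [Subtype.ext_iff]
  refine Subtype.ext_iff.trans ?_
  show !![(x.1 : F), x.2; 0, ((x.1⁻¹ : Fˣ) : F)] * !![(y.1 : F), y.2; 0, ((y.1⁻¹ : Fˣ) : F)] =
    !![(y.1 : F), y.2; 0, ((y.1⁻¹ : Fˣ) : F)] * !![(x.1 : F), x.2; 0, ((x.1⁻¹ : Fˣ) : F)] ↔ _
  simp only [Matrix.mul_fin_two]
  constructor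
  · intro h
    have := congrFun (congrFun h 0) 1
    simp at this
    linear_combination this
  · intro h
    ext i j
    fin_cases i <;> fin_cases j <;> simp [mul_comm]
    linear_combination h
end

/-- Over a finite field F with q elements, q odd, the upper triangular subgroup of SL₂ (a Borel subgroup, of order q(q − 1)) has exactly q + 3 conjugacy classes. -/
theorem result {F : Type*} [Field F] [Fintype F] (hodd : Odd (Fintype.card F)) :
    Nat.card (ConjClasses ((Cfsg.upperTriangularGL 2 F).comap Matrix.SpecialLinearGroup.toGL)) = Fintype.card F + 3 := by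
  classical
  set q := Fintype.card F with hq
  have hc := card_comm_eq_card_conjClasses_mul_card ((Cfsg.upperTriangularGL 2 F).comap (Matrix.SpecialLinearGroup.toGL (n := Fin 2) (R := F)))
  have hB : Nat.card ((Cfsg.upperTriangularGL 2 F).comap (Matrix.SpecialLinearGroup.toGL (n := Fin 2) (R := F))) = (q - 1) * q := by
    rw [Nat.card_congr eqv, Nat.card_prod, Nat.card_units, Nat.card_eq_fintype_card]
  let s : Fˣ → F := fun a => (a : F) - (a : F)⁻¹
  have e1 : Nat.card {p : ((Cfsg.upperTriangularGL 2 F).comap (Matrix.SpecialLinearGroup.toGL (n := Fin 2) (R := F))) ×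
      ((Cfsg.upperTriangularGL 2 F).comap (Matrix.SpecialLinearGroup.toGL (n := Fin 2) (R := F))) // Commute p.1 p.2} =
      ∑ a : Fˣ, ∑ c : Fˣ, (Finset.univ.filter fun bd : F × F => bd.2 * s a = bd.1 * s c).card := by
    have : {p : ((Cfsg.upperTriangularGL 2 F).comap (Matrix.SpecialLinearGroup.toGL (n := Fin 2) (R := F))) ×
      ((Cfsg.upperTriangularGL 2 F).comap (Matrix.SpecialLinearGroup.toGL (n := Fin 2) (R := F))) // Commute p.1 p.2} ≃
      Σ a : Fˣ, Σ c : Fˣ, {bd : F × F // bd.2 * s a = bd.1 * s c} :=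
      { toFun := fun p => ⟨(eqv p.1.1).1, (eqv p.1.2).1, ⟨((eqv p.1.1).2, (eqv p.1.2).2), (comm_iff _ _).1 (by simpa using p.2)⟩⟩
        invFun := fun x => ⟨(eqv.symm (x.1, x.2.2.1.1), eqv.symm (x.2.1, x.2.2.1.2)), (comm_iff _ _).2 x.2.2.2⟩
        left_inv := fun p => by simp
        right_inv := fun ⟨a, c, ⟨b, d⟩, h⟩ => by
          have : ∀ (x y : Fˣ × F) (h' : y.2 * s x.1 = x.2 * s y.1), x = (a, b) → y = (c, d) →
            (⟨x.1, y.1, ⟨(x.2, y.2), h'⟩⟩ : Σ a : Fˣ, Σ c : Fˣ, {bd : F × F // bd.2 * s a = bd.1 * s c}) = ⟨a, c, ⟨(b, d), h⟩⟩ := by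
            rintro _ _ _ rfl rfl; rfl
          exact this _ _ _ (Equiv.apply_symm_apply _ _) (Equiv.apply_symm_apply _ _) }
    rw [Nat.card_congr this, Nat.card_eq_fintype_card]
    simp only [Fintype.card_sigma, Fintype.card_subtype]
  have e2 : ∀ a c : Fˣ, (Finset.univ.filter fun bd : F × F => bd.2 * s a = bd.1 * s c).card =
      q + if s a = 0 then (if s c = 0 then q * (q - 1) else 0) else 0 := by
    intro a c
    have hq1 : 1 ≤ q := Fintype.card_pos
    split_ifs with h1 h2
    · simp only [h1, h2, mul_zero, Finset.filter_true, Finset.card_univ, Fintype.card_prod, ← hq]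
      obtain ⟨r, hr⟩ := Nat.exists_eq_add_of_le hq1
      rw [hr, Nat.add_sub_cancel_left]; ring
    · rw [add_zero, hq, ← Finset.card_univ]
      symm
      refine Finset.card_bij (fun d _ => (0, d)) (fun d _ => by simp [h1]) (fun _ _ _ _ h => by simpa using h) ?_
      rintro ⟨b, d⟩ h
      simp only [h1, mul_zero, Finset.mem_filter, Finset.mem_univ, true_and] at h
      exact ⟨d, Finset.mem_univ _, by rw [(mul_eq_zero.1 h.symm).resolve_right h2]⟩
    · rw [add_zero, hq, ← Finset.card_univ]
      symm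
      refine Finset.card_bij (fun b _ => (b, b * s c / s a)) (fun d _ => by simp [h1]) (fun _ _ _ _ h => congrArg Prod.fst h) ?_
      rintro ⟨b, d⟩ h
      simp only [Finset.mem_filter, Finset.mem_univ, true_and] at h
      exact ⟨b, Finset.mem_univ _, by rw [← h, mul_div_cancel_right₀ _ h1]⟩
  have h2 : (Finset.univ.filter fun a : Fˣ => s a = 0).card = 2 := by
    have hne : (1 : Fˣ) ≠ -1 := by
      intro h
      have h3 : (2 : F) = 0 := by
        have := congrArg Units.val h
        simp only [Units.val_one, Units.val_neg] at this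
        linear_combination this
      have h4 : ringChar F ∣ 2 := (ringChar.spec F 2).1 (by exact_mod_cast h3)
      have h5 : ringChar F = 2 := ((Nat.dvd_prime Nat.prime_two).1 h4).resolve_left CharP.ringChar_ne_one
      have := FiniteField.even_card_iff_char_two.1 h5
      rw [Nat.odd_iff] at hodd
      omega
    rw [← Finset.card_pair hne]
    congr 1
    ext a
    simp only [Finset.mem_filter, Finset.mem_univ, true_and, Finset.mem_insert, Finset.mem_singleton, s, sub_eq_zero,
      Units.ext_iff, Units.val_one, Units.val_neg]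
    rw [← mul_self_eq_one_iff, mul_eq_one_iff_eq_inv₀ a.ne_zero]
  rw [e1, hB] at hc
  simp only [e2, Finset.sum_add_distrib, Finset.sum_const, Finset.card_univ, Fintype.card_units, smul_eq_mul, ← hq] at hc
  simp only [Finset.sum_ite_irrel, Finset.sum_const_zero] at hc
  simp only [← Finset.sum_filter, Finset.sum_const, h2, smul_eq_mul] at hc
  have hq2 : 2 ≤ q := Fintype.one_lt_card
  obtain ⟨r, hr⟩ := Nat.exists_eq_add_of_le hq2
  have hr1 : q - 1 = r + 1 := by omega
  rw [hr1] at hc
  apply Nat.eq_of_mul_eq_mul_right (show 0 < (r + 1) * q by positivity)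
  rw [← hc, hr]; ring

end Cfsg.Agent.S2437
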