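import Cfsg.Statements.S2439
import Cfsg.Agent.H4.St4

set_option autoImplicit false
open Cfsg

namespace Cfsg.Agent.S2439

open H4 H1 MonoidAlgebra
open scoped Pointwise


/-- Let F be a finite field with q elements of odd characteristic p, and M a maximal ideal of the algebraic integers containing p. Then SL₂ over F has exactly three p-blocks relative to M: the irreducible character of degree q (the Steinberg character) alone; the other irreducible characters taking the same value at −1 as at 1 (the principal block); and the irreducible characters χ with χ(−1) = −χ(1). Every Sylow p-subgroup is a defect group of each of the last two blocks. -/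
theorem result {F : Type*} [Field F] [Fintype F] (p : ℕ) [Fact p.Prime] [CharP F p] (hp : p ≠ 2)
    (M : Ideal Cfsg.AlgInt) (hM : Cfsg.IsPModular p M) :
    (∀ B : Set (Cfsg.IrrCharacter (Matrix.SpecialLinearGroup (Fin 2) F)), Cfsg.IsPBlock M B ↔
      (B = {χ : Cfsg.IrrCharacter (Matrix.SpecialLinearGroup (Fin 2) F) | (χ : Matrix.SpecialLinearGroup (Fin 2) F → ℂ) 1 = (Fintype.card F : ℂ)} ∨
       B = {χ : Cfsg.IrrCharacter (Matrix.SpecialLinearGroup (Fin 2) F) | (χ : Matrix.SpecialLinearGroup (Fin 2) F → ℂ) (-1) = (χ : Matrix.SpecialLinearGroup (Fin 2) F → ℂ) 1 ∧ (χ : Matrix.SpecialLinearGroup (Fin 2) F → ℂ) 1 ≠ (Fintype.card F : ℂ)} ∨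
       B = {χ : Cfsg.IrrCharacter (Matrix.SpecialLinearGroup (Fin 2) F) | (χ : Matrix.SpecialLinearGroup (Fin 2) F → ℂ) (-1) = -(χ : Matrix.SpecialLinearGroup (Fin 2) F → ℂ) 1})) ∧
    Nat.card {B : Set (Cfsg.IrrCharacter (Matrix.SpecialLinearGroup (Fin 2) F)) // Cfsg.IsPBlock M B} = 3 ∧
    ∀ P : Sylow p (Matrix.SpecialLinearGroup (Fin 2) F),
      Cfsg.IsDefectGroup p M {χ : Cfsg.IrrCharacter (Matrix.SpecialLinearGroup (Fin 2) F) | (χ : Matrix.SpecialLinearGroup (Fin 2) F → ℂ) (-1) = (χ : Matrix.SpecialLinearGroup (Fin 2) F → ℂ) 1 ∧ (χ : Matrix.SpecialLinearGroup (Fin 2) F → ℂ) 1 ≠ (Fintype.card F : ℂ)} (P : Subgroup (Matrix.SpecialLinearGroup (Fin 2) F)) ∧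
      Cfsg.IsDefectGroup p M {χ : Cfsg.IrrCharacter (Matrix.SpecialLinearGroup (Fin 2) F) | (χ : Matrix.SpecialLinearGroup (Fin 2) F → ℂ) (-1) = -(χ : Matrix.SpecialLinearGroup (Fin 2) F → ℂ) 1} (P : Subgroup (Matrix.SpecialLinearGroup (Fin 2) F)) := by
  have := Fintype.ofFinite (Matrix.SpecialLinearGroup (Fin 2) F)
  have hS := St.sysSL_top (F := F) 1
  have h3 := St.sysSL_r3 (F := F) 1
  have hR := St.irred_A 1
  have h2 : (2 : F) ≠ 0 := fun h => hp ((Nat.prime_dvd_prime_iff_eq Fact.out Nat.prime_two).1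
    ((CharP.cast_eq_zero_iff F p 2).1 h))
  have hq : Nat.card (St.sysSL F 1).Up = Fintype.card F := by
    rw [St.card_Up, Nat.card_eq_fintype_card, show {r | (H6.CA.rsA 1).Pos r} =
      {(H6.CA.rsA 1).simple 0} from Set.ext (by decide), Set.ncard_singleton, pow_one]
  have hz : (-1 : Matrix.SpecialLinearGroup (Fin 2) F) ∈ Subgroup.center _ :=
    Subgroup.mem_center_iff.2 fun g => by simp
  have hne : (-1 : Matrix.SpecialLinearGroup (Fin 2) F) ≠ 1 := fun e => h2 (by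
    have := congrFun₂ (congrArg Subtype.val e) 0 0
    simp at this
    linear_combination -this)
  have hZ : ∀ z ∈ Subgroup.center (Matrix.SpecialLinearGroup (Fin 2) F), z = 1 ∨ z = -1 :=
    fun z h => by
      obtain ⟨r, h1, h4⟩ := Matrix.SpecialLinearGroup.mem_center_iff.1 h
      rcases sq_eq_one_iff.1 h1 with rfl | rfl
      · exact .inl (Subtype.ext (by simpa using h4.symm))
      · exact .inr (Subtype.ext (by rw [← h4]; ext i j; fin_cases i <;> fin_cases j <;> simp))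
  have hst : ∀ χ : Cfsg.IrrCharacter (Matrix.SpecialLinearGroup (Fin 2) F),
      χ.1 1 = Fintype.card F ↔ χ.1 = St.st (St.sysSL F 1) := fun χ =>
    ⟨fun h => St.eq_st_of_nu p hS h3 χ.2 (by
      rw [← St.nu_st p hS h3, nu, nu, Cfsg.charDegree, Cfsg.charDegree, h, St.st_one hS, hq]),
      fun h => by rw [h, St.st_one hS, hq]⟩
  have hst' : St.st (St.sysSL F 1) (-1 : Matrix.SpecialLinearGroup (Fin 2) F) = St.st (St.sysSL F 1) 1 := by
    rw [St.st_B hS ((St.sysSL F 1).H_le_B (St.center_le_H hS hz)),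
      St.st_B hS (Subgroup.one_mem _)]
    have := St.center_le_H hS hz
    simp [this]
  have hfull : ∀ χ : Cfsg.IrrCharacter (Matrix.SpecialLinearGroup (Fin 2) F),
      χ.1 1 ≠ Fintype.card F → Cfsg.blockDefect p (Cfsg.blockOf M χ.1) =
        (Nat.card (Matrix.SpecialLinearGroup (Fin 2) F)).factorization p := fun χ h =>
    (St.dichotomy hS h3 hR hM (isPBlock_blockOf χ.2)).resolve_left fun e => h ((hst χ).2
      (St.eq_st_of_nu p hS h3 χ.2 ((blockDefect_blockOf_eq_zero_iff hM).1 e)))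
  have hsing : Cfsg.blockOf M (St.st (St.sysSL F 1)) =
      {χ : Cfsg.IrrCharacter (Matrix.SpecialLinearGroup (Fin 2) F) | χ.1 1 = Fintype.card F} := by
    rw [blockOf_eq_singleton hM (χ := ⟨_, St.irr_st hS⟩) (St.nu_st p hS h3)]
    ext χ; simp [hst, Subtype.ext_iff]
  have hb : ∀ χ : Cfsg.IrrCharacter (Matrix.SpecialLinearGroup (Fin 2) F),
      χ.1 1 ≠ Fintype.card F → ∀ ψ, ψ ∈ Cfsg.blockOf M χ.1 ↔
        ψ.1 (-1) / ψ.1 1 = χ.1 (-1) / χ.1 1 ∧ ψ.1 1 ≠ Fintype.card F := fun χ h ψ => by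
    refine ⟨fun k => ⟨central_eq_of_mem hM (isPBlock_blockOf χ.2) k (mem_blockOf_self hM χ) hz
      (not_dvd_orderOf_of_mem (St.not_dvd_center p hS h3) hz), fun e => h ?_⟩, fun k => ?_⟩
    · have := block_eq_of_mem hM (isPBlock_blockOf χ.2) (isPBlock_blockOf (St.irr_st hS)) k
        (hsing ▸ e)
      exact (hsing ▸ this ▸ mem_blockOf_self hM χ : χ ∈ {χ : Cfsg.IrrCharacter
        (Matrix.SpecialLinearGroup (Fin 2) F) | χ.1 1 = Fintype.card F})
    · rw [full_eq hM (St.full_central hS h3 hR) (isPBlock_blockOf χ.2) (isPBlock_blockOf ψ.2)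
        (hfull χ h) (hfull ψ k.2) (mem_blockOf_self hM χ) (mem_blockOf_self hM ψ) fun z hz => ?_]
      · exact mem_blockOf_self hM ψ
      rcases hZ z hz with rfl | rfl
      · rw [div_self (H3.irr_one_ne_zero χ.2), div_self (H3.irr_one_ne_zero ψ.2)]
      · exact k.1.symm
  have hp1 : ∀ χ : Cfsg.IrrCharacter (Matrix.SpecialLinearGroup (Fin 2) F),
      χ.1 1 ≠ Fintype.card F → χ.1 (-1) / χ.1 1 = 1 → Cfsg.blockOf M χ.1 =
        {χ : Cfsg.IrrCharacter (Matrix.SpecialLinearGroup (Fin 2) F) |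
          χ.1 (-1) = χ.1 1 ∧ χ.1 1 ≠ Fintype.card F} := fun χ h e => Set.ext fun ψ => by
    rw [hb χ h, e, div_eq_one_iff_eq (H3.irr_one_ne_zero ψ.2)]; rfl
  have hm0 : ∀ χ : Cfsg.IrrCharacter (Matrix.SpecialLinearGroup (Fin 2) F),
      χ.1 (-1) / χ.1 1 = -1 → χ.1 1 ≠ Fintype.card F := fun χ h e => by
    rw [(hst χ).1 e, hst', div_self (H3.irr_one_ne_zero (St.irr_st hS))] at h
    norm_num at h
  have hm1 : ∀ χ : Cfsg.IrrCharacter (Matrix.SpecialLinearGroup (Fin 2) F),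
      χ.1 (-1) / χ.1 1 = -1 → Cfsg.blockOf M χ.1 = {χ | χ.1 (-1) = -χ.1 1} :=
    fun χ e => Set.ext fun ψ => by
      rw [hb χ (hm0 χ e), e, and_iff_left_of_imp (hm0 ψ),
        div_eq_iff (H3.irr_one_ne_zero ψ.2), neg_one_mul]; rfl
  have ht : (triv (Matrix.SpecialLinearGroup (Fin 2) F)).1 1 ≠ Fintype.card F := by
    rw [triv_apply]; exact_mod_cast Fintype.one_lt_card.ne
  obtain ⟨μ, hμ⟩ := H3.exists_hom_ne_one (G := Subgroup.center (Matrix.SpecialLinearGroup (Fin 2) F))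
    (g := ⟨-1, hz⟩) (by
      rw [(commutator_eq_bot_iff_center_eq_top _).2 (eq_top_iff.2 fun a _ =>
        Subgroup.mem_center_iff.2 fun b => Subtype.ext (Subgroup.mem_center_iff.1 a.2 b)),
        Subgroup.mem_bot]
      exact fun e => hne (congrArg Subtype.val e))
  obtain ⟨χ₀, h0, -⟩ := exists_full (G := Matrix.SpecialLinearGroup (Fin 2) F) hM
    (St.not_dvd_center p hS h3) μ
  have h0' : χ₀.1 (-1) / χ₀.1 1 = -1 := (central_inv_sign χ₀.2 hz (by simp)).resolve_left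
    fun e => hμ (Units.ext (h0 ▸ e))
  have hdg : ∀ (B : Set (Cfsg.IrrCharacter (Matrix.SpecialLinearGroup (Fin 2) F))) (P : Sylow p (Matrix.SpecialLinearGroup (Fin 2) F)), Cfsg.IsPBlock M B →
      Cfsg.blockDefect p B = (Nat.card (Matrix.SpecialLinearGroup (Fin 2) F)).factorization p →
        Cfsg.IsDefectGroup p M B (P : Subgroup (Matrix.SpecialLinearGroup (Fin 2) F)) :=
    fun B P hB h => by
    obtain ⟨D, hD⟩ := exists_dg hM hB
    obtain ⟨x, -, hx⟩ := (isSylowIn_of_card (p := p) (P := D) le_top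
      (by rw [dg_card hM hB hD, h, Subgroup.card_top])).conj (isSylowIn_top P)
    rw [← hx]; exact dg_conj hM hB hD x
  refine ⟨fun B => ⟨fun hB => ?_, ?_⟩, ?_, fun P => ⟨?_, ?_⟩⟩
  · obtain ⟨χ, rfl⟩ := hB
    by_cases h : χ.1 1 = Fintype.card F
    · exact .inl ((hst χ).1 h ▸ hsing)
    exact .inr ((central_inv_sign χ.2 hz (by simp)).imp (hp1 χ h) (hm1 χ))
  · rintro (rfl | rfl | rfl)
    · exact hsing ▸ isPBlock_blockOf (St.irr_st hS)
    · exact hp1 _ ht (by simp) ▸ isPBlock_blockOf (triv _).2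
    · exact hm1 _ h0' ▸ isPBlock_blockOf χ₀.2
  · rw [St.card_blocks hS h3 hR hM, H5.card_center_SL, Fintype.card_fin, Nat.gcd_eq_left]
    have := FiniteField.odd_card_of_char_ne_two (F := F) (by rwa [ringChar.eq F p])
    omega
  · exact hp1 _ ht (by simp) ▸ hdg _ P (isPBlock_blockOf (triv _).2) (hfull _ ht)
  · exact hm1 _ h0' ▸ hdg _ P (isPBlock_blockOf χ₀.2) (hfull _ (hm0 _ h0'))

end Cfsg.Agent.S2439
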