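import Cfsg.Statements.S2531
import Mathlib

set_option autoImplicit false
open Cfsg

namespace Cfsg.Agent.S2531

open Module

/-- Let `F` be a finite field and `n ≥ 3`. No set of permutations of the points of the projective space of `Fⁿ`, each induced by an invertible semilinear transformation of `Fⁿ` (so a subset of the full projective semilinear group), is sharply 2-transitive on the points: it is impossible that for all pairs of distinct points `(a, b)` and `(c, d)` exactly one member of the set sends `a` to `c` and `b` to `d`. -/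
theorem result {F : Type*} [Field F] [Finite F]
    (n : ℕ) (hn : 3 ≤ n) (S : Set (Equiv.Perm (Projectivization F (Fin n → F))))
    (hS : ∀ s ∈ S, ∃ (σ : F ≃+* F) (f : (Fin n → F) →ₛₗ[(σ : F →+* F)] (Fin n → F)) (hf : Function.Injective f),
      ∀ x, s x = Projectivization.map f hf x) :
    ¬ (∀ a b c d : Projectivization F (Fin n → F), a ≠ b → c ≠ d →
        ∃! s, s ∈ S ∧ s a = c ∧ s b = d) := by
  intro H
  classical
  obtain ⟨p, hp⟩ := CharP.exists F
  have := Fintype.ofFinite F
  obtain ⟨k, pp, hk⟩ := FiniteField.card F p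
  have := Fact.mk pp
  have q0 : (Nat.card F : ZMod p) = 0 := by rw [Nat.card_eq_fintype_card, hk]; simp [k.ne_zero]
  have cnt : ∀ W : Submodule F (Fin n → F), W ≠ ⊥ → (Nat.card {x : Projectivization F (Fin n → F) // x.rep ∈ W} : ZMod p) = 1 := fun W hW => by
    have := Submodule.nontrivial_iff_ne_bot.2 hW
    have e : Nat.card (Projectivization F W) = Nat.card {x : Projectivization F (Fin n → F) // x.rep ∈ W} := by
      rw [← Nat.card_range_of_injective (Projectivization.map_injective W.subtype W.subtype_injective)]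
      refine Nat.card_congr (Equiv.subtypeEquivRight fun x => ⟨?_, fun h => ⟨.mk F ⟨_, h⟩ (by simpa using x.rep_nonzero), by
        simp [Projectivization.map_mk]⟩⟩)
      rintro ⟨y, rfl⟩
      induction y using Projectivization.ind with
      | h v hv =>
        obtain ⟨a, ha⟩ := Projectivization.exists_smul_eq_mk_rep F v.1 (by simpa using hv)
        rw [Projectivization.map_mk]; exact ha ▸ W.smul_mem a v.2
    obtain ⟨d, hd⟩ := Nat.exists_eq_succ_of_ne_zero (finrank_pos (R := F) (M := W)).ne'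
    rw [← e, Projectivization.card_of_finrank F W hd, Finset.sum_range_succ']
    simp [pow_succ, q0, -Nat.card_eq_fintype_card]
  let i0 : Fin n := ⟨0, by omega⟩
  let W : Submodule F (Fin n → F) := LinearMap.ker (LinearMap.proj i0)
  let a := Projectivization.mk F (Pi.single i0 1 : Fin n → F) (by simp)
  have mem : ∀ v hv, (Projectivization.mk F v hv).rep ∈ W ↔ v ∈ W := fun v hv => by
    obtain ⟨c, hc⟩ := Projectivization.exists_smul_eq_mk_rep F v hv
    rw [← hc]; exact W.smul_mem_iff c.ne_zero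
  have ha : ∀ x : Projectivization F (Fin n → F), x.rep ∈ W → a ≠ x := by rintro _ h rfl; simpa [W] using (mem _ _).1 h
  have W0 : W ≠ ⊥ := (Submodule.ne_bot_iff _).2 ⟨Pi.single ⟨1, by omega⟩ 1, by simp [W, i0, Fin.ext_iff], by simp⟩
  obtain ⟨v, hv, v0⟩ := (Submodule.ne_bot_iff _).1 W0
  have b0 := ha _ ((mem v v0).2 hv)
  have c1 : Nat.card {s // s ∈ S ∧ s a = a} = Nat.card {x // a ≠ x} := Nat.card_eq_of_bijective
    (fun s => ⟨s.1 (.mk F v v0), (s.1.injective.ne b0 <| s.2.2.trans ·)⟩) ⟨fun s t e => Subtype.ext ((H a _ a _ b0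
      (s.1.injective.ne b0 <| s.2.2.trans ·)).unique
      ⟨s.2.1, s.2.2, rfl⟩ ⟨t.2.1, t.2.2, (congrArg Subtype.val e).symm⟩), fun x => by
        obtain ⟨s, h, -⟩ := H a _ a _ b0 x.2
        exact ⟨⟨s, h.1, h.2.1⟩, Subtype.ext h.2.2⟩⟩
  have c2 : Nat.card (Σ s : {s // s ∈ S ∧ s a = a}, {x : Projectivization F (Fin n → F) // x.rep ∈ W ∧ (s.1 x).rep ∈ W}) =
      Nat.card ({x : Projectivization F (Fin n → F) // x.rep ∈ W} × {x : Projectivization F (Fin n → F) // x.rep ∈ W}) :=
    Nat.card_eq_of_bijective (fun t => (⟨t.2.1, t.2.2.1⟩, ⟨_, t.2.2.2⟩)) ⟨by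
      rintro ⟨s, x, h⟩ ⟨t, y, h'⟩ e
      obtain rfl : x = y := congrArg (·.1.1) e
      obtain rfl : s = t := Subtype.ext ((H a _ a _ (ha _ h.1) (ha _ h.2)).unique ⟨s.2.1, s.2.2, rfl⟩
        ⟨t.2.1, t.2.2, (congrArg (·.2.1) e).symm⟩)
      rfl, fun x => by
        obtain ⟨s, h, -⟩ := H a _ a _ (ha _ x.1.2) (ha _ x.2.2)
        exact ⟨⟨⟨s, h.1, h.2.1⟩, x.1, x.1.2, h.2.2.symm ▸ x.2.2⟩, Prod.ext rfl (Subtype.ext h.2.2)⟩⟩
  have c3 : ∀ s : {s // s ∈ S ∧ s a = a}, (Nat.card {x : Projectivization F (Fin n → F) // x.rep ∈ W ∧ (s.1 x).rep ∈ W} : ZMod p) = 1 := fun s => by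
    obtain ⟨σ, f, hf, e⟩ := hS s s.2.1
    rw [← cnt (W ⊓ W.comap f) ?_]
    · refine congrArg _ (Nat.card_congr (Equiv.subtypeEquivRight fun x => and_congr_right fun _ => ?_))
      rw [e, ← x.mk_rep, Projectivization.map_mk, mem, x.mk_rep]; rfl
    · intro c
      let g : (Fin n → F) →+ F × F := (Pi.evalAddMonoidHom _ i0).prod ((Pi.evalAddMonoidHom _ i0).comp f.toAddMonoidHom)
      have := Nat.card_le_card_of_injective g ((injective_iff_map_eq_zero g).2 fun x hx => c.le ⟨congrArg Prod.fst hx, congrArg Prod.snd hx⟩)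
      rw [Nat.card_prod, Nat.card_fun, ← sq, Nat.pow_le_pow_iff_right Finite.one_lt_card] at this
      simp at this; omega
  have := Fintype.ofFinite {s // s ∈ S ∧ s a = a}
  have c4 := congrArg (Nat.cast : ℕ → ZMod p) c2
  rw [Nat.card_sigma, Nat.card_prod, Nat.cast_sum, Nat.cast_mul, cnt W W0, Finset.sum_congr rfl fun s _ => c3 s] at c4
  have c5 := cnt ⊤ (ne_bot_of_le_ne_bot W0 le_top)
  have c6 := Nat.card_congr (Equiv.sumCompl fun x => a = x)
  rw [Nat.card_sum, ← c1, ← Nat.card_congr (Equiv.subtypeUnivEquiv fun x : Projectivization F (Fin n → F) => Submodule.mem_top (R := F) (x := x.rep))] at c6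
  rw [← c6] at c5
  simp at c4 c5
  simp [c4] at c5


end Cfsg.Agent.S2531
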