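import Cfsg.Statements.S2532
import Mathlib

set_option autoImplicit false
open Cfsg

namespace Cfsg.Agent.S2532

open Equiv MulAction

/-- There is a function `f` of two natural-number arguments such that, whenever `m ≥ f(n, r)`, every subgroup of order `n` of the alternating group of degree `m` centralizes some subgroup of that alternating group isomorphic to the alternating group of degree `r`. -/
theorem result :
    ∃ f : ℕ → ℕ → ℕ, ∀ (m r : ℕ) (H : Subgroup ↥(alternatingGroup (Fin m))), f (Nat.card H) r ≤ m →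
      ∃ K : Subgroup ↥(alternatingGroup (Fin m)), Nonempty (↥K ≃* ↥(alternatingGroup (Fin r))) ∧
        K ≤ Subgroup.centralizer (H : Set ↥(alternatingGroup (Fin m))) := by
  classical
  refine ⟨fun n r => 2 ^ n * (n * r), fun m r H h => ?_⟩
  have := Fintype.ofFinite H
  have := Fintype.ofFinite (Subgroup H)
  have n0 : 0 < Nat.card H := Nat.card_pos
  obtain ⟨K, hK⟩ := Fintype.exists_le_card_fiber_of_mul_le_card (fun x : Fin m => stabilizer H x) (n := Nat.card H * r) (by
    refine le_trans (Nat.mul_le_mul_right _ ?_) (h.trans (Fintype.card_fin m).ge)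
    simpa using Fintype.card_le_of_injective (fun K : Subgroup H => (K : Set H)) SetLike.coe_injective)
  have k := hK.trans (Finset.card_le_mul_card_image (f := Quotient.mk (orbitRel H (Fin m))) _ (Nat.card H) fun b hb => by
    obtain ⟨y, -, rfl⟩ := Finset.mem_image.1 hb
    rw [Nat.card_eq_fintype_card, ← Finset.card_univ]
    refine le_trans (Finset.card_le_card (t := Finset.univ.image (· • y : H → Fin m)) fun z hz => ?_) Finset.card_image_le
    obtain ⟨g, e⟩ : z ∈ orbit H y := Quotient.exact (Finset.mem_filter.1 hz).2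
    exact Finset.mem_image.2 ⟨g, by simp, e⟩)
  obtain ⟨j⟩ := Function.Embedding.nonempty_of_card_le (α := Fin r)
    (((Fintype.card_fin r).trans_le (Nat.le_of_mul_le_mul_left k n0)).trans (Fintype.card_coe _).ge)
  choose x hx hx' using fun i => Finset.mem_image.1 (j i).2
  simp only [Finset.mem_filter, Finset.mem_univ, true_and] at hx
  have out : ∀ (g : H) i, (g : H ⧸ K).out • x i = g • x i := fun g i => by
    obtain ⟨k, e⟩ := QuotientGroup.mk_out_eq_mul K g
    rw [e, mul_smul, mem_stabilizer_iff.1 ((hx i).ge k.2)]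
  let ι : (H ⧸ K) × Fin r ↪ Fin m := ⟨fun c => c.1.out • x c.2, by
    rintro ⟨c, i⟩ ⟨d, l⟩ e
    have e' : x l = (d.out⁻¹ * c.out) • x i := by rw [mul_smul, eq_inv_smul_iff]; exact e.symm
    obtain rfl : i = l := j.injective (Subtype.ext ((hx' i).symm.trans ((Quotient.sound (orbitRel_apply.2 ⟨_, e'.symm⟩)).symm.trans (hx' l))))
    exact Prod.ext (by rw [← c.out_eq', ← d.out_eq', eq_comm, QuotientGroup.eq]; exact (hx i).le e'.symm) rfl⟩
  have hι : ∀ (g : H) c i, g • ι (c, i) = ι (g • c, i) := fun g c i => by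
    obtain ⟨c, rfl⟩ := QuotientGroup.mk_surjective c
    change g • (c : H ⧸ K).out • x i = ((g * c : H) : H ⧸ K).out • x i
    rw [out, out, mul_smul]
  let ρ : Perm (Fin r) →* Perm ((H ⧸ K) × Fin r) := .mk' (fun σ => prodCongrRight fun _ => σ) fun _ _ => rfl
  let ψ := (((Perm.viaEmbeddingHom ι).comp ρ).comp (alternatingGroup (Fin r)).subtype).codRestrict (alternatingGroup (Fin m)) fun σ => by
    have : Perm.sign (ρ σ) = 1 := (Perm.sign_prodCongrRight fun _ => σ.1).trans (by simp [Perm.mem_alternatingGroup.1 σ.2])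
    simpa [Perm.viaEmbeddingHom_apply, Perm.viaEmbedding] using this
  refine ⟨ψ.range, ⟨(MonoidHom.ofInjective fun a b e => Subtype.ext (Equiv.ext fun i => ?_)).symm⟩, ?_⟩
  · exact congrArg (fun t : Perm ((H ⧸ K) × Fin r) => (t (((1 : H) : H ⧸ K), i)).2) (Perm.viaEmbeddingHom_injective ι (congrArg Subtype.val e))
  · rintro _ ⟨σ, rfl⟩ g hg
    refine Subtype.ext (Equiv.ext fun z => ?_)
    change (⟨g, hg⟩ : H) • (ρ σ).viaEmbedding ι z = (ρ σ).viaEmbedding ι ((⟨g, hg⟩ : H) • z)
    by_cases c : z ∈ Set.range ι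
    · obtain ⟨⟨c, i⟩, rfl⟩ := c
      rw [hι, Perm.viaEmbedding_apply, Perm.viaEmbedding_apply]; exact hι _ _ _
    · rw [Perm.viaEmbedding_apply_of_notMem _ _ _ c, Perm.viaEmbedding_apply_of_notMem]
      rintro ⟨⟨d, i⟩, e⟩
      exact c ⟨_, by rw [← hι, e, inv_smul_smul]⟩


end Cfsg.Agent.S2532
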