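import Cfsg.Statements.S2533
import Cfsg.Agent.H1.Basic

set_option autoImplicit false
open Cfsg

namespace Cfsg.Agent.S2533

open scoped Pointwise
open H1
open Matrix

@[ext] structure HH (F : Type) where
  v : Fin 3 → F
  e : ℤˣ

section
variable {F : Type} [Field F]

def c (F : Type) [Field F] (e : ℤˣ) : F := ((e : ℤ) : F)

theorem c_mul (e d : ℤˣ) : c F (e * d) = c F e * c F d := by simp [c]
theorem c_one : c F 1 = 1 := by simp [c]
theorem c_neg : c F (-1) = -1 := by simp [c]
theorem c_sq (e : ℤˣ) : c F e * c F e = 1 := by rw [← c_mul, Int.units_mul_self, c_one]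

instance : Mul (HH F) := ⟨fun x y => ⟨y.v + c F y.e • x.v, x.e * y.e⟩⟩
instance : One (HH F) := ⟨⟨0, 1⟩⟩
instance : Inv (HH F) := ⟨fun x => ⟨-(c F x.e • x.v), x.e⟩⟩

theorem mul_v (x y : HH F) : (x * y).v = y.v + c F y.e • x.v := rfl
theorem mul_e (x y : HH F) : (x * y).e = x.e * y.e := rfl

instance : Group (HH F) := Group.ofLeftAxioms
  (fun x y z => HH.ext (by simp only [mul_v, mul_e, c_mul]; module) (mul_assoc _ _ _))
  (fun x => HH.ext (by change _ + _ • (0 : Fin 3 → F) = _; simp) (one_mul _))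
  (fun x => HH.ext (by change _ + _ • (-(c F x.e • x.v)) = (0 : Fin 3 → F); simp [smul_smul, c_sq])
    (Int.units_mul_self _))

def eq : HH F ≃ ℤˣ × (Fin 3 → F) := ⟨fun x => (x.e, x.v), fun x => ⟨x.2, x.1⟩, fun _ => rfl, fun _ => rfl⟩

variable {m : ℕ}

def M (m : ℕ) (v : Fin 3 → F) : Matrix (Fin (m + 1)) (Fin m) F :=
  of fun i j => if i.1 = j.1 then v 0 else if i.1 = j.1 + 1 then v 1 else if i.1 + 1 = j.1 then v 2 else 0

theorem M_add (v w : Fin 3 → F) (t : F) : M m (w + t • v) = M m w + t • M m v := by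
  ext i j; simp only [M, of_apply, Matrix.add_apply, Matrix.smul_apply]; split_ifs <;> simp

def blk (m : ℕ) (x : HH F) : Matrix (Fin (m + 1) ⊕ Fin m) (Fin (m + 1) ⊕ Fin m) F :=
  fromBlocks 1 (M m x.v) 0 (c F x.e • 1)

theorem blk_mul (x y : HH F) : blk m (x * y) = blk m x * blk m y := by
  simp [blk, fromBlocks_multiply, mul_v, mul_e, M_add, c_mul, smul_smul, mul_comm]

theorem blk_det (h : Even m) (x : HH F) : (blk m x).det = 1 := by
  obtain ⟨k, rfl⟩ := h
  simp [blk, det_fromBlocks_zero₂₁, pow_add, ← mul_pow, c_sq]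

theorem blk_tr (h : (m : F) = 0) (x : HH F) : (blk m x).trace = 1 := by
  simp [blk, trace, Fintype.sum_sum_type, h]

theorem M0 : M m (0 : Fin 3 → F) = 0 := by ext i j; simp [M]

theorem scal (h2 : (2 : F) ≠ 0) (g : Matrix (Fin (m + 1) ⊕ Fin m) (Fin (m + 1) ⊕ Fin m) F)
    (h : ∀ x, g * blk m x = blk m x * g) : ∃ a : F, g = a • 1 := by
  obtain ⟨A, B, C, D, rfl⟩ : ∃ A B C D, g = fromBlocks A B C D := ⟨_, _, _, _, (fromBlocks_toBlocks g).symm⟩
  have := h ⟨0, -1⟩
  simp only [blk, fromBlocks_multiply, M0, c_neg, fromBlocks_inj] at this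
  obtain rfl : B = 0 := by
    have e : (2 : F) • B = 0 := by
      have := this.2.1
      simp at this
      linear_combination (norm := module) -this
    exact (smul_eq_zero.1 e).resolve_left h2
  obtain rfl : C = 0 := by
    have e : (2 : F) • C = 0 := by
      have := this.2.2.1
      simp at this
      linear_combination (norm := module) this
    exact (smul_eq_zero.1 e).resolve_left h2
  have k : ∀ v i j, ∑ l, A i l * M m v l j = ∑ l, M m v i l * D l j := fun v i j => by
    have := h ⟨v, 1⟩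
    simp only [blk, fromBlocks_multiply, fromBlocks_inj] at this
    have := this.2.1
    simp only [c_one, one_smul, Matrix.mul_one, Matrix.one_mul, add_zero, zero_add] at this
    exact congrFun (congrFun this i) j
  have a1 : ∀ i (j : Fin m), A i j.castSucc = ∑ l : Fin m, if i = l.castSucc then D l j else 0 := fun i j => by
    have := k ![1, 0, 0] i j
    simp only [M, of_apply] at this
    rw [Finset.sum_eq_single j.castSucc (fun b _ hb => by simp [show b.1 ≠ j.1 from fun c => hb (Fin.ext c)])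
      (by simp)] at this
    simpa [Fin.ext_iff] using this
  have a2 : ∀ i (j : Fin m), A i j.succ = ∑ l : Fin m, if i = l.succ then D l j else 0 := fun i j => by
    have := k ![0, 1, 0] i j
    simp only [M, of_apply] at this
    rw [Finset.sum_eq_single j.succ (fun b _ hb => by simp [show b.1 ≠ j.1 + 1 from fun c => hb (Fin.ext c)])
      (by simp)] at this
    simp only [Fin.ext_iff]
    refine Eq.trans (by simp) (this.trans (Finset.sum_congr rfl fun l _ => ?_))
    by_cases c : i.1 = l.1 + 1 <;> simp [c]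
  have b1 : ∀ i j : Fin m, A i.castSucc j.castSucc = D i j := fun i j => by simp [a1]
  have b2 : ∀ i j : Fin m, A i.succ j.succ = D i j := fun i j => by simp [a2]
  have b3 : ∀ j : Fin m, A (Fin.last m) j.castSucc = 0 := fun j => by simp [a1, (Fin.castSucc_ne_last _).symm]
  have b4 : ∀ j : Fin m, A 0 j.succ = 0 := fun j => by simp [a2, (Fin.succ_ne_zero _).symm]
  have d1 : ∀ i j : Fin (m + 1), i < j → A i j = 0 := fun i => by
    induction i using Fin.induction with
    | zero => intro j hj; obtain ⟨j, rfl⟩ := Fin.exists_succ_eq.2 hj.ne'; exact b4 j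
    | succ i ih =>
      intro j hj
      obtain ⟨j, rfl⟩ := Fin.exists_succ_eq.2 ((Fin.zero_le _).trans_lt hj).ne'
      rw [b2, ← b1, ih _ (by simpa using hj)]
  have d2 : ∀ i j : Fin (m + 1), j < i → A i j = 0 := fun i => by
    induction i using Fin.reverseInduction with
    | last => intro j hj; obtain ⟨j, rfl⟩ := Fin.exists_castSucc_eq.2 hj.ne; exact b3 j
    | cast i ih =>
      intro j hj
      obtain ⟨j, rfl⟩ := Fin.exists_castSucc_eq.2 (hj.trans_le (Fin.le_last _)).ne
      rw [b1, ← b2, ih _ (by simpa using hj)]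
  have d3 : ∀ i : Fin (m + 1), A i i = A 0 0 := fun i => by
    induction i using Fin.induction with
    | zero => rfl
    | succ i ih => rw [b2, ← b1, ih]
  have eA : ∀ i j, A i j = if i = j then A 0 0 else 0 := fun i j => by
    split_ifs with c
    · rw [← c, d3]
    · exact (lt_or_gt_of_ne c).elim (d1 i j) (d2 i j)
  refine ⟨A 0 0, ?_⟩
  rw [← fromBlocks_one, fromBlocks_smul, smul_zero, smul_zero]
  congr 1 <;> ext i j
  · rw [eA]; simp [one_apply]
  · rw [← b1, eA]; simp [one_apply]

end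

/-- For every odd prime `p` there is a finite group `H` of order `2p³` which, for infinitely many `n`, embeds in the projective special linear group `PSL(n, p)` as a subgroup with trivial centralizer. -/
theorem result
    (p : ℕ) [Fact p.Prime] (hp : p ≠ 2) :
    ∃ (H : Type) (_ : Group H) (_ : Finite H), Nat.card H = 2 * p ^ 3 ∧
      ∀ N : ℕ, ∃ n, N ≤ n ∧ ∃ φ : H →* Matrix.ProjectiveSpecialLinearGroup (Fin n) (ZMod p),
        Function.Injective φ ∧ Subgroup.centralizer (φ.range : Set (Matrix.ProjectiveSpecialLinearGroup (Fin n) (ZMod p))) = ⊥ := by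
  have h2 : (2 : ZMod p) ≠ 0 := fun h => hp ((Nat.prime_dvd_prime_iff_eq Fact.out Nat.prime_two).1
    ((ZMod.natCast_eq_zero_iff 2 p).1 (by exact_mod_cast h)))
  refine ⟨HH (ZMod p), inferInstance, Finite.of_equiv _ eq.symm, by rw [Nat.card_congr eq]; simp, fun N => ?_⟩
  obtain ⟨m, hm, m1, m2, m3⟩ : ∃ m, N ≤ m ∧ 2 ≤ m ∧ Even m ∧ (m : ZMod p) = 0 := by
    have := (Fact.out : p.Prime).pos
    exact ⟨2 * (p * (N + 1)), by nlinarith, by nlinarith, even_two_mul _, by simp⟩
  let ψ := reindexAlgEquiv (ZMod p) (ZMod p) (finSumFinEquiv (m := m + 1) (n := m))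
  let Φ : HH (ZMod p) →* Matrix.SpecialLinearGroup (Fin (m + 1 + m)) (ZMod p) := MonoidHom.mk'
    (fun x => ⟨ψ (blk m x), (det_reindex_self _ _).trans (blk_det m2 x)⟩)
    fun x y => Subtype.ext (by change ψ _ = ψ _ * ψ _; rw [blk_mul, map_mul])
  have eΦ : ∀ x, (Φ x).1 = ψ (blk m x) := fun _ => rfl
  clear_value Φ ψ
  refine ⟨m + 1 + m, by omega, (QuotientGroup.mk' _).comp Φ, (injective_iff_map_eq_one _).2 fun x hx => ?_,
    eq_bot_iff.2 fun g hg => ?_⟩
  · obtain ⟨r, -, hr⟩ := Matrix.SpecialLinearGroup.mem_center_iff.1 ((QuotientGroup.eq_one_iff (Φ x)).1 hx)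
    have : blk m x = r • 1 := ψ.injective (by rw [← eΦ, ← hr, map_smul, map_one, scalar_apply, smul_one_eq_diagonal])
    rw [← fromBlocks_one, fromBlocks_smul, blk, fromBlocks_inj] at this
    obtain ⟨h1, h3, -, h4⟩ := this
    have r1 : 1 = r := by simpa using congrFun (congrFun h1 0) 0
    have v0 := congrFun (congrFun h3 ⟨0, by omega⟩) ⟨0, by omega⟩
    have v1 := congrFun (congrFun h3 ⟨1, by omega⟩) ⟨0, by omega⟩
    have v2 := congrFun (congrFun h3 ⟨0, by omega⟩) ⟨1, by omega⟩
    have e1 := congrFun (congrFun h4 ⟨0, by omega⟩) ⟨0, by omega⟩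
    simp [M, ← r1] at v0 v1 v2 e1
    refine HH.ext (funext fun i => by fin_cases i; exacts [v0, v1, v2]) ((Int.units_eq_one_or _).resolve_right fun h => h2 ?_)
    rw [h, c_neg] at e1
    linear_combination -e1
  · obtain ⟨g, rfl⟩ := QuotientGroup.mk_surjective g
    have gi : ψ.symm g.1 * ψ.symm g⁻¹.1 = 1 := by
      rw [← map_mul, ← Matrix.SpecialLinearGroup.coe_mul, mul_inv_cancel, Matrix.SpecialLinearGroup.coe_one, map_one]
    obtain ⟨a, ha⟩ := scal h2 (ψ.symm g.1) fun x => by
      obtain ⟨r, -, hr⟩ := Matrix.SpecialLinearGroup.mem_center_iff.1 ((QuotientGroup.eq (a := Φ x * g) (b := g * Φ x)).1 (hg _ ⟨x, rfl⟩))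
      have e : ψ.symm g.1 * blk m x = r • (blk m x * ψ.symm g.1) := ψ.injective (by
        have : (g * Φ x).1 = (Φ x * g * ((Φ x * g)⁻¹ * (g * Φ x))).1 := by rw [mul_inv_cancel_left]
        rw [Matrix.SpecialLinearGroup.coe_mul (Φ x * g), ← hr, scalar_apply, ← smul_one_eq_diagonal, mul_smul_comm,
          mul_one] at this
        simpa [eΦ] using this)
      have t := congrArg (fun y => trace (y * ψ.symm g⁻¹.1)) e
      simp only [smul_mul_assoc, trace_smul, mul_assoc, gi, mul_one] at t
      rw [← mul_assoc, trace_mul_cycle, mul_eq_one_comm.1 gi, one_mul, blk_tr m3, smul_eq_mul, mul_one] at t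
      rw [e, ← t, one_smul]
    have : g.1 = a • 1 := by rw [← ψ.apply_symm_apply g.1, ha, map_smul, map_one]
    exact (QuotientGroup.eq_one_iff _).2 (Subgroup.mem_center_iff.2 fun y => Subtype.ext (by simp [this]))

end Cfsg.Agent.S2533
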