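import Cfsg.Statements.S2537
import Cfsg.Agent.H5.SL2Cl
import Cfsg.Agent.H1.Hall

set_option autoImplicit false
open Cfsg

namespace Cfsg.Agent.S2537

open H5

theorem eq_parts {u : ℕ} (hu : u ≠ 0) (h : ∀ p : ℕ, p.Prime → p ∣ u → p ∈ ({2, 3} : Set ℕ)) :
    u = 2 ^ u.factorization 2 * 3 ^ u.factorization 3 := by
  refine Nat.eq_of_factorization_eq hu (by positivity) fun p => ?_
  rw [Nat.factorization_mul (by positivity) (by positivity), Nat.prime_two.factorization_pow, Nat.prime_three.factorization_pow]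
  by_cases h2 : p = 2
  · simp [h2]
  by_cases h3 : p = 3
  · simp [h3]
  have : u.factorization p = 0 := by
    by_contra h4
    have := h p (Nat.prime_of_mem_primeFactors (Finsupp.mem_support_iff.2 h4)) (Nat.dvd_of_factorization_pos h4)
    simp [h2, h3] at this
  simp [this, h2, h3]

theorem hall_iff {u v q N : ℕ} (h : 2 * u * v = q * N) (h0 : q * N ≠ 0) (h2 : ¬ 2 ∣ q) (h3 : ¬ 3 ∣ q) :
    ((∀ p : ℕ, p.Prime → p ∣ u → p ∈ ({2, 3} : Set ℕ)) ∧ ∀ p : ℕ, p.Prime → p ∈ ({2, 3} : Set ℕ) → ¬ p ∣ v) ↔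
      2 ^ N.factorization 2 * 3 ^ N.factorization 3 = 2 * u := by
  have hv : v ≠ 0 := by rintro rfl; simp [← h] at h0
  have hu : 2 * u ≠ 0 := fun e => by simp [← h, e] at h0
  have h4 := congrArg Nat.factorization h
  rw [Nat.factorization_mul hu hv, Nat.factorization_mul (left_ne_zero_of_mul h0) (right_ne_zero_of_mul h0)] at h4
  have h5 := DFunLike.congr_fun h4 2
  have h6 := DFunLike.congr_fun h4 3
  simp only [Finsupp.add_apply, Nat.factorization_eq_zero_of_not_dvd h2, Nat.factorization_eq_zero_of_not_dvd h3, zero_add] at h5 h6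
  constructor
  · rintro ⟨a, b⟩
    rw [← h5, ← h6, Nat.factorization_eq_zero_of_not_dvd (b 2 Nat.prime_two (by simp)),
      Nat.factorization_eq_zero_of_not_dvd (b 3 Nat.prime_three (by simp))]
    refine (eq_parts hu fun p hp hd => ?_).symm
    rcases (Nat.Prime.dvd_mul hp).1 hd with hd | hd
    · exact Or.inl ((Nat.prime_dvd_prime_iff_eq hp Nat.prime_two).1 hd)
    · exact a p hp hd
  · intro e
    refine ⟨fun p hp hd => ?_, ?_⟩
    · rcases (Nat.Prime.dvd_mul hp).1 (e ▸ hd.mul_left 2) with hd | hd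
      · exact Or.inl ((Nat.prime_dvd_prime_iff_eq hp Nat.prime_two).1 (hp.dvd_of_dvd_pow hd))
      · exact Or.inr ((Nat.prime_dvd_prime_iff_eq hp Nat.prime_three).1 (hp.dvd_of_dvd_pow hd))
    · rw [← e, Nat.factorization_mul (by positivity) (by positivity), Nat.prime_two.factorization_pow,
        Nat.prime_three.factorization_pow] at h5 h6
      simp at h5 h6
      rintro p hp (rfl | rfl) hd
      · exact (hp.factorization_pos_of_dvd hv hd).ne' h5
      · exact (hp.factorization_pos_of_dvd hv hd).ne' h6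

/-- Let `F` be a finite field with `q` elements of characteristic `p ≥ 5`, and `ε = 1` if `q ≡ 1 (mod 4)`, `ε = -1` otherwise. Then `PSL(2, F)` has a Hall `{2, 3}`-subgroup if and only if `3` divides `q − ε`, or the `{2,3}`-part of `q² − 1` is 24, or the `{2,3}`-part of `q² − 1` is 48 (the `{2,3}`-part of `m` being the largest divisor of `m` with no prime factor other than 2 and 3). -/
theorem result {F : Type*} [Field F] [Fintype F] {p : ℕ} [Fact p.Prime] [CharP F p]
    (hp : 5 ≤ p) (q : ℕ) (hq : Fintype.card F = q) :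
    (∃ H : Subgroup (Matrix.ProjectiveSpecialLinearGroup (Fin 2) F), Cfsg.IsPiHall ({2, 3} : Set ℕ) H) ↔
      (3 ∣ q - 1 ∧ q % 4 = 1) ∨ (3 ∣ q + 1 ∧ q % 4 = 3) ∨
        2 ^ (q ^ 2 - 1).factorization 2 * 3 ^ (q ^ 2 - 1).factorization 3 = 24 ∨
        2 ^ (q ^ 2 - 1).factorization 2 * 3 ^ (q ^ 2 - 1).factorization 3 = 48 := by
  subst hq
  have hq := Fintype.one_lt_card (α := F)
  have hd : ∀ r : ℕ, r.Prime → r ∣ Fintype.card F → r = p := fun r hr h => by
    obtain ⟨n, -, hn⟩ := FiniteField.card F p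
    exact (Nat.prime_dvd_prime_iff_eq hr Fact.out).1 (hr.dvd_of_dvd_pow (hn ▸ h))
  have h2 : ¬ 2 ∣ Fintype.card F := fun h => by have := hd 2 Nat.prime_two h; omega
  have h3 : ¬ 3 ∣ Fintype.card F := fun h => by have := hd 3 Nat.prime_three h; omega
  have ho : Odd (Fintype.card F) := Nat.odd_iff.2 (by omega)
  have h2' := two_ne_of_odd ho
  have hs : Fintype.card F ^ 2 - 1 = (Fintype.card F + 1) * (Fintype.card F - 1) := Nat.sq_sub_sq _ 1
  have hG := card_PSL2_mul (F := F)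
  rw [gcd_two_of_odd ho] at hG
  have key : ∀ H : Subgroup (PSL2 F), IsPiHall {2, 3} H ↔ 2 ^ (Fintype.card F ^ 2 - 1).factorization 2 *
      3 ^ (Fintype.card F ^ 2 - 1).factorization 3 = 2 * Nat.card H := fun H => hall_iff
    (by rw [mul_assoc, H.card_mul_index, hG, hs]; ring) (by rw [hs]; exact mul_ne_zero (by omega) (mul_ne_zero (by omega) (by omega))) h2 h3
  have hidx : ∀ {n T D}, IsTor (F := F) n T D → ∃ m, (n = Fintype.card F - 1 ∧ m = Fintype.card F + 1 ∨
      n = Fintype.card F + 1 ∧ m = Fintype.card F - 1) ∧ 2 * (D.comap psl).index = Fintype.card F * m := fun {n T D} hT => by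
    have h1 := (D.comap psl).card_mul_index
    have h4 := hT.gcd_dvd
    have h6 := hT.pos
    rw [card_comap_psl, hT.inf_PS_dihedral.1] at h1
    rw [gcd_two_of_odd ho] at h1 h4
    rw [Nat.mul_div_cancel' h4] at h1
    rcases hT.eq with rfl | rfl
    · exact ⟨_, Or.inl ⟨rfl, rfl⟩, Nat.eq_of_mul_eq_mul_left h6 (by linear_combination 2 * h1 + hG)⟩
    · exact ⟨_, Or.inr ⟨rfl, rfl⟩, Nat.eq_of_mul_eq_mul_left h6 (by linear_combination 2 * h1 + hG)⟩
  constructor
  · rintro ⟨H, hH⟩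
    have h4 : ¬ p ∣ Nat.card (H.map psl) := fun h => by
      have := hH.1 p Fact.out (card_equiv (pslSub H) ▸ h)
      simp at this; omega
    have h5 := (key H).1 hH
    rw [card_equiv (pslSub H)] at h5
    rcases dickson_ss' p h4 with ⟨n, T, D, hT, hle⟩ | ⟨⟨e⟩⟩ | ⟨⟨e⟩⟩ | ⟨⟨e⟩⟩
    · obtain ⟨m, hm, h6⟩ := hidx hT
      have h7 := Subgroup.index_dvd_of_le (Subgroup.map_le_iff_le_comap.1 hle)
      have h8 : ¬ 4 ∣ m := fun ⟨j, hj⟩ => hH.2 2 Nat.prime_two (by simp) (Dvd.dvd.trans ⟨Fintype.card F * j,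
        Nat.eq_of_mul_eq_mul_left two_pos (by rw [h6, hj]; ring)⟩ h7)
      have h9 : ¬ 3 ∣ m := fun h => hH.2 3 Nat.prime_three (by simp) (Dvd.dvd.trans
        ((Nat.Coprime.dvd_mul_left (by norm_num)).1 (h6 ▸ h.mul_left _)) h7)
      rcases hm with ⟨-, rfl⟩ | ⟨-, rfl⟩
      · exact Or.inl ⟨by clear h8 h2; omega, by omega⟩
      · exact Or.inr (Or.inl ⟨by clear h8 h2; omega, by omega⟩)
    · rw [card_equiv e, KB.card_A4] at h5; omega
    · rw [card_equiv e, KB.card_S4] at h5; omega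
    · have := hH.1 5 Nat.prime_five (by rw [card_equiv (pslSub H), card_equiv e, KB.card_A5]; norm_num)
      simp at this
  · have k1 : ∀ n, (n = Fintype.card F - 1 ∨ n = Fintype.card F + 1) → 3 ∣ n → 4 ∣ n →
        ∃ H : Subgroup (PSL2 F), IsPiHall {2, 3} H := fun n hn a b => by
      obtain ⟨T, D, hT⟩ := exists_tor hn
      obtain ⟨m, hm, h6⟩ := hidx hT
      obtain ⟨H, h7, h8, h9⟩ := H1.exists_piHallOf {2, 3} (M := D.comap psl) (isSolvable_of_equiv (pslSub _)
        (isSolvable_of_le (Subgroup.map_comap_le _ _) hT.isSolvable))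
      refine ⟨H, h8, fun r hr hr' hd => ?_⟩
      rw [← Subgroup.relIndex_mul_index h7] at hd
      rcases (Nat.Prime.dvd_mul hr).1 hd with hd | ⟨j, hj⟩
      · exact h9 r hr hr' hd
      rw [hj] at h6
      rcases hr' with rfl | rfl
      · have : 4 ∣ Fintype.card F * m := ⟨j, by omega⟩
        have := (Nat.Coprime.dvd_mul_left (Nat.Coprime.pow_left 2 ((Nat.coprime_two_left).2 ho))).1 this
        omega
      · have : 3 ∣ Fintype.card F * m := ⟨2 * j, by omega⟩
        have := (Nat.Prime.dvd_mul Nat.prime_three).1 this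
        omega
    rintro (h | h | h | h)
    · exact k1 _ (Or.inl rfl) h.1 (by omega)
    · exact k1 _ (Or.inr rfl) h.1 (by omega)
    · obtain ⟨X, ⟨e⟩⟩ := exists_A4 h2'
      obtain ⟨H, ⟨e⟩⟩ := exists_psl_sub.2 ⟨X, A4_le_PS e, ⟨e⟩⟩
      exact ⟨H, (key H).2 (by rw [h, card_equiv e, KB.card_A4])⟩
    · obtain ⟨X, ⟨e⟩⟩ := exists_S4 h2'
      have h4 : 16 ∣ Fintype.card F ^ 2 - 1 := Dvd.dvd.trans
        ((Nat.Coprime.dvd_mul_right (Nat.Coprime.pow_right _ (by norm_num))).1 (h ▸ (by norm_num : 16 ∣ 48))) (Nat.ordProj_dvd _ _)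
      have h5 : Fintype.card F % 8 = 1 ∨ Fintype.card F % 8 = 7 := by
        have h6 : Fintype.card F ^ 2 % 16 = (Fintype.card F % 16) ^ 2 % 16 := Nat.pow_mod _ _ _
        have h7 : Fintype.card F ^ 2 % 16 = 1 := by have := Nat.one_le_pow 2 _ (zero_lt_one.trans hq); omega
        have h8 : Fintype.card F % 8 = Fintype.card F % 16 % 8 := by omega
        have h9 := Nat.mod_lt (Fintype.card F) (show 16 > 0 by norm_num)
        rw [h7] at h6
        generalize Fintype.card F % 16 = r at *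
        interval_cases r <;> simp at h6 <;> omega
      obtain ⟨H, ⟨e⟩⟩ := exists_psl_sub.2 ⟨X, (S4_le_PS e).2 ((isSquare_two_iff h2').2 h5), ⟨e⟩⟩
      exact ⟨H, (key H).2 (by rw [h, card_equiv e, KB.card_S4])⟩


end Cfsg.Agent.S2537
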