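import Cfsg.Statements.S2540
import Cfsg.Agent.H5.SL
import Cfsg.Agent.H5.Simple

set_option autoImplicit false
open Cfsg

namespace Cfsg.Agent.S2540

open H5 Matrix
open scoped commutatorElement

/-- Let F be a finite field and n ≥ 1, excluding the case n = 2 with #F ≤ 3. A subgroup of GL_n(F) that is normalized by every element of SL_n(F) either consists of scalar matrices or contains SL_n(F). -/
theorem result {F : Type*} [Field F] [Fintype F] (n : ℕ) (hn : 1 ≤ n) (hex : ¬ (n = 2 ∧ Fintype.card F ≤ 3)) (G : Subgroup (Matrix.GeneralLinearGroup (Fin n) F)) (hG : ∀ s : Matrix.SpecialLinearGroup (Fin n) F, ∀ g ∈ G, (Matrix.SpecialLinearGroup.toGL s) * g * (Matrix.SpecialLinearGroup.toGL s)⁻¹ ∈ G) : (∀ g ∈ G, ∃ c : F, (g : Matrix (Fin n) (Fin n) F) = c • (1 : Matrix (Fin n) (Fin n) F)) ∨ (Matrix.SpecialLinearGroup.toGL : Matrix.SpecialLinearGroup (Fin n) F →* _).range ≤ G := by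
  refine or_iff_not_imp_left.2 fun ns => ?_
  have n2 : 2 ≤ n := by
    by_contra! c
    obtain rfl : n = 1 := by omega
    exact ns fun g _ => ⟨g.1 0 0, by ext i j; simp [Subsingleton.elim i 0, Subsingleton.elim j 0]⟩
  obtain ⟨pf, sm⟩ : commutator (SpecialLinearGroup (Fin n) F) = ⊤ ∧ IsSimpleGroup (ProjectiveSpecialLinearGroup (Fin n) F) := by
    rcases n2.eq_or_lt with rfl | c
    · have h4 : 4 ≤ Fintype.card F := by omega
      obtain ⟨a, h1, h2⟩ := exists_sq_ne_one h4
      exact ⟨SL2.commutator_eq_top h1 (by rwa [sq]), ProjectiveSpecialLinearGroup.rank_two_simple (by simpa using h4)⟩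
    · exact ⟨commutator_SL_eq_top (by simp; omega), PSL_simple (by simp; omega)⟩
  let N := G.comap (SpecialLinearGroup.toGL : SpecialLinearGroup (Fin n) F →* _)
  have hN : N.Normal := ⟨fun g hg s => by simpa [N] using hG s _ hg⟩
  rcases (hN.map _ (QuotientGroup.mk'_surjective (Subgroup.center _))).eq_bot_or_eq_top with c | c
  · rw [Subgroup.map_eq_bot_iff, QuotientGroup.ker_mk'] at c
    set S := (SpecialLinearGroup.toGL : SpecialLinearGroup (Fin n) F →* _).range
    have SS : ⁅S, S⁆ = S := by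
      simp only [S, MonoidHom.range_eq_map]; rw [← Subgroup.map_commutator, ← commutator_def, pf]
    have h1 : ⁅⁅S, G⁆, S⁆ = ⊥ := Subgroup.commutator_eq_bot_iff_le_centralizer.2 (Subgroup.commutator_le.2 (by
      rintro _ ⟨s, rfl⟩ g hg _ ⟨t, rfl⟩
      obtain ⟨u, hu⟩ : ⁅SpecialLinearGroup.toGL s, g⁆ ∈ S := by
        simp [S, range_toGL, commutatorElement_def]
      have := c (show u ∈ N from by
        rw [Subgroup.mem_comap, hu]; exact mul_mem (hG s g hg) (inv_mem hg))
      rw [← hu, ← map_mul, ← map_mul, Subgroup.mem_center_iff.1 this]))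
    have h2 := Subgroup.commutator_commutator_eq_bot_of_rotate h1 (by rwa [Subgroup.commutator_comm G])
    rw [SS, Subgroup.commutator_eq_bot_iff_le_centralizer] at h2
    refine (ns fun g hg => ?_).elim
    obtain ⟨c, hc⟩ := mem_range_scalar_of_commute_transvectionStruct (M := g.1) fun t =>
      (congrArg Units.val (h2 ⟨⟨t.toMatrix, t.det⟩, rfl⟩ g hg)).symm
    exact ⟨c, by rw [← hc, scalar_apply, smul_one_eq_diagonal]⟩
  · have := congrArg (Subgroup.comap (QuotientGroup.mk' _)) c
    rw [Subgroup.comap_map_eq, QuotientGroup.ker_mk', Subgroup.comap_top] at this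
    have := pf ▸ Subgroup.Normal.commutator_le_of_self_sup_commutative_eq_top this inferInstance
    rintro _ ⟨s, rfl⟩
    exact this trivial


end Cfsg.Agent.S2540
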