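import Cfsg.Statements.S2541
import Cfsg.Agent.H5.SL2Cl

set_option autoImplicit false
open Cfsg

namespace Cfsg.Agent.S2541

open H5

/-- Let F be a field with 9 elements. The symmetric group S_6 is not isomorphic to PGL_2(F) (although both have index-2 subgroups isomorphic to A_6). -/
theorem result {F : Type*} [Field F] [Fintype F] (hF : Fintype.card F = 9) : ¬ Nonempty (Equiv.Perm (Fin 6) ≃* Matrix.ProjGenLinGroup (Fin 2) F) := by
  rintro ⟨e⟩
  obtain ⟨T, D, h⟩ := exists_tor (F := F) (n := 10) (Or.inr (by omega))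
  obtain ⟨r, -, hr⟩ := h.exists_gen
  rw [← e.symm.orderOf_eq] at hr
  generalize e.symm r = s at hr
  have h1 : s ^ 12 = 1 ∨ s ^ 5 = 1 := by clear hr; revert s; decide +kernel
  rcases h1 with h1 | h1 <;> have := hr ▸ orderOf_dvd_of_pow_eq_one h1 <;> omega


end Cfsg.Agent.S2541
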