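import Cfsg.Statements.S2542
import Cfsg.Agent.H5.SL2Cl

set_option autoImplicit false
open Cfsg

namespace Cfsg.Agent.S2542

open H5 MulAction

/-- Let F be a field with 11 elements. PSL_2(F) has a subgroup H of index 11 isomorphic to the alternating group A_5, and the action of PSL_2(F) on the cosets of H is 2-transitive (of degree 11). -/
theorem result {F : Type*} [Field F] [Fintype F] (hF : Fintype.card F = 11) : ∃ H : Subgroup (Matrix.ProjectiveSpecialLinearGroup (Fin 2) F), H.index = 11 ∧ Nonempty (H ≃* alternatingGroup (Fin 5)) ∧ MulAction.IsMultiplyPretransitive (Matrix.ProjectiveSpecialLinearGroup (Fin 2) F) ((Matrix.ProjectiveSpecialLinearGroup (Fin 2) F) ⧸ H) 2 := by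
  classical
  obtain ⟨X, ⟨e⟩⟩ := (exists_A5_iff (F := F)).2 (by rw [hF]; norm_num)
  obtain ⟨H, hH, ⟨e⟩⟩ := exists_psl_coatom (A5_covBy (p := 11) (by norm_num) (Or.inl ⟨hF, by norm_num⟩) e) ⟨e⟩
  have hG : Nat.card (PSL2 F) = 660 := card_PSL2.trans (card_PS_of hF (by norm_num))
  have hc : Nat.card H = 60 := by rw [card_equiv e, KB.card_A5]
  have hi : H.index = 11 := by have := H.card_mul_index; rw [hc, hG] at this; omega
  have := Matrix.ProjectiveSpecialLinearGroup.rank_two_simple (F := F) (by simp [hF])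
  have := e.isSimpleGroup
  have : CharP F 11 := char_of_card (n := 1) (by norm_num) hF
  have : Fact (Nat.Prime 11) := ⟨by norm_num⟩
  refine ⟨H, hi, ⟨e⟩, ?_⟩
  let a : PSL2 F ⧸ H := (1 : PSL2 F)
  have ha : ∀ g : PSL2 F, g • a = a ↔ g ∈ H := fun g => by rw [← mem_stabilizer_iff, stabilizer_quotient]
  -- fixed points of elements of order three
  have hfix : ∀ x : H, orderOf x = 3 → Nat.card (fixedBy (PSL2 F ⧸ H) (x : PSL2 F)) ≤ 2 := fun x hx => by
    have hx' : orderOf (x : PSL2 F) = 3 := (Subgroup.orderOf_coe x).trans hx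
    obtain ⟨n, T, D, hT, h⟩ := exists_tor_of_orderOf 11 (g := psl (x : PSL2 F)) (by rw [orderOf_psl, hx']; omega)
    have h1 := hT.card_centralizer h (sq_ne_one_of_three_le hx'.ge)
    have h2 := hT.eq
    rw [hF] at h1 h2
    have h3 : Nat.card (Subgroup.centralizer {(x : PSL2 F)}) ≤ 6 := by rw [h1]; rcases h2 with rfl | rfl <;> decide
    have : Fintype (PSL2 F) := Fintype.ofFinite _
    have h4 := Finset.card_le_mul_card_image (f := fun g : PSL2 F => g⁻¹ * x * g)
      (Finset.univ.filter fun g : PSL2 F => g⁻¹ * x * g ∈ H) 6 fun y hy => by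
        obtain ⟨g, -, rfl⟩ := Finset.mem_image.1 hy
        refine le_trans ?_ h3
        rw [← Nat.card_eq_finsetCard]
        refine Nat.card_le_card_of_injective (fun k => ⟨k.1 * g⁻¹, Subgroup.mem_centralizer_singleton_iff.2 ?_⟩)
          fun k l h => Subtype.ext (by simpa using h)
        have := (Finset.mem_filter.1 k.2).2
        calc k.1 * g⁻¹ * x = k.1 * (g⁻¹ * x * g) * g⁻¹ := by group
          _ = k.1 * ((k.1)⁻¹ * x * k.1) * g⁻¹ := by rw [this]
          _ = _ := by group
    have h5 : ((Finset.univ.filter fun g : PSL2 F => g⁻¹ * x * g ∈ H).image fun g : PSL2 F => g⁻¹ * x * g).card ≤ 20 := by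
      rw [← (by decide +kernel : (Finset.univ.filter fun a : A5 => a ^ 3 = 1 ∧ a ≠ 1).card = 20)]
      refine le_trans (Finset.card_le_card fun y hy => ?_) (Finset.card_image_le (f := fun a => (e.symm a : PSL2 F)))
      obtain ⟨g, hg, rfl⟩ := Finset.mem_image.1 hy
      have h6 : orderOf (e ⟨_, (Finset.mem_filter.1 hg).2⟩) = 3 := by
        rw [e.orderOf_eq, ← Subgroup.orderOf_coe, ← hx', ← orderOf_conj' g⁻¹ (x : PSL2 F), inv_inv]
      exact Finset.mem_image.2 ⟨e ⟨_, (Finset.mem_filter.1 hg).2⟩, Finset.mem_filter.2 ⟨Finset.mem_univ _,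
        orderOf_dvd_iff_pow_eq_one.1 h6.dvd, fun h => by simp [h] at h6⟩, by simp⟩
    have h6 := QuotientGroup.card_preimage_mk H (fixedBy (PSL2 F ⧸ H) (x : PSL2 F))
    have h7 : QuotientGroup.mk ⁻¹' fixedBy (PSL2 F ⧸ H) (x : PSL2 F) =
        ↑(Finset.univ.filter fun g : PSL2 F => g⁻¹ * x * g ∈ H) := by
      ext g
      simp [eq_comm (b := (g : PSL2 F ⧸ H)), QuotientGroup.eq, mul_assoc]
    rw [h7, hc, Finset.coe_sort_coe, Nat.card_eq_finsetCard] at h6
    omega
  have horb : ∀ y : PSL2 F ⧸ H, y ≠ a → 5 ≤ (orbit H y).ncard ∧ (orbit H y).ncard ≠ 5 ∧ (orbit H y).ncard ∣ 60 := fun y hy => by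
    rw [← index_stabilizer]
    have h1 : stabilizer H y ≠ ⊤ := fun h => by
      obtain ⟨g, rfl⟩ := QuotientGroup.mk_surjective y
      have h2 : cj g⁻¹ H ≤ H := by
        rintro _ ⟨x, hx, rfl⟩
        have : (⟨x, hx⟩ : H) ∈ stabilizer H (g : PSL2 F ⧸ H) := h ▸ Subgroup.mem_top _
        simpa [mul_assoc] using QuotientGroup.eq.1 this.symm
      have h3 := cj_eq_self_iff.1 (le_antisymm h2 (le_of_card_le h2 (card_cj _ _).ge))
      rcases hH.le_iff.1 Subgroup.le_normalizer with h4 | h4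
      · rcases (Subgroup.normalizer_eq_top_iff.1 h4).eq_bot_or_eq_top with h5 | h5
        · simp [h5] at hc
        · exact hH.1 h5
      · exact hy (QuotientGroup.eq.2 (by simpa [h4] using h3))
    refine ⟨?_, fun h5 => ?_, hc ▸ Subgroup.index_dvd_card _⟩
    · by_contra! h2
      have h3 := Subgroup.card_dvd_of_injective _ (toPermHom_quotient_injective h1)
      rw [hc, Nat.card_perm, ← Subgroup.index] at h3
      generalize (stabilizer H y).index = k at *
      interval_cases k <;> simp [Nat.factorial] at h3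
    · obtain ⟨x, hx⟩ := exists_prime_orderOf_dvd_card' (G := H) 3 (by rw [hc]; norm_num)
      have h2 : IsPGroup 3 (Subgroup.zpowers x) := IsPGroup.of_card (n := 1) (by rw [Nat.card_zpowers, hx]; rfl)
      have h3 := h2.card_modEq_card_fixedPoints (orbit H y)
      rw [Nat.card_coe_set_eq, ← index_stabilizer, h5] at h3
      have h4 : Nat.card (Option (fixedPoints (Subgroup.zpowers x) (orbit H y))) ≤ 2 := by
        refine le_trans (Nat.card_le_card_of_injective (fun o => o.elim ⟨a, (ha _).2 x.2⟩ fun z =>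
          ⟨z.1.1, congrArg Subtype.val (z.2 ⟨x, Subgroup.mem_zpowers x⟩)⟩) ?_) (hfix x hx)
        have h6 : ∀ z : orbit H y, z.1 ≠ a := by
          rintro ⟨_, g, rfl⟩ h
          exact hy ((eq_inv_smul_iff.2 h).trans ((ha _).2 g⁻¹.2))
        rintro (_ | z) (_ | w) h
        · rfl
        · exact (h6 _ (congrArg Subtype.val h).symm).elim
        · exact (h6 _ (congrArg Subtype.val h)).elim
        · have := congrArg Subtype.val h
          exact congrArg _ (Subtype.ext (Subtype.ext this))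
      rw [Finite.card_option] at h4
      unfold Nat.ModEq at h3
      omega
  have hna : ∀ y : PSL2 F ⧸ H, y ≠ a → orbit H y ⊆ {a}ᶜ := by
    rintro y hy _ ⟨g, rfl⟩ h
    exact hy ((eq_inv_smul_iff.2 h).trans ((ha _).2 g⁻¹.2))
  have h10 : ({a}ᶜ : Set (PSL2 F ⧸ H)).ncard = 10 := by
    have := Set.ncard_add_ncard_compl ({a} : Set (PSL2 F ⧸ H))
    rw [Set.ncard_singleton, ← Subgroup.index, hi] at this; omega
  have key : ∀ y z : PSL2 F ⧸ H, y ≠ a → z ≠ a → z ∈ orbit H y := fun y z hy hz => by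
    by_contra h
    have h1 : Disjoint (orbit H y) (orbit H z) := Set.disjoint_left.2 fun w h1 h2 =>
      h (by rw [← orbit_eq_iff.2 h1, orbit_eq_iff.2 h2]; exact mem_orbit_self z)
    have h2 := Set.ncard_le_ncard (Set.union_subset (hna y hy) (hna z hz))
    rw [Set.ncard_union_eq h1, h10] at h2
    have := horb y hy
    have := horb z hz
    omega
  refine is_two_pretransitive_iff.2 fun {x y z w} hxy hzw => ?_
  obtain ⟨g, rfl⟩ := exists_smul_eq (PSL2 F) a x
  obtain ⟨h, rfl⟩ := exists_smul_eq (PSL2 F) a z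
  obtain ⟨k, hk⟩ := key (g⁻¹ • y) (h⁻¹ • w) (fun e => hxy (inv_smul_eq_iff.1 e).symm) fun e => hzw (inv_smul_eq_iff.1 e).symm
  exact ⟨h * k * g⁻¹, by rw [mul_smul, inv_smul_smul, mul_smul, (ha _).2 k.2], by
    rw [mul_smul, mul_smul]; exact smul_eq_iff_eq_inv_smul _ |>.2 hk⟩


end Cfsg.Agent.S2542
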