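import Cfsg.Statements.S2543
import Cfsg.Agent.H5.SL2Cl

set_option autoImplicit false
open scoped Pointwise
open Cfsg

namespace Cfsg.Agent.S2543

open H5

/-- Let F be a field with 11 elements. PSL_2(F) has exactly 22 subgroups isomorphic to the alternating group A_5, and they form two conjugacy classes: there are two such subgroups that are not conjugate, and every such subgroup is conjugate to one of these two. -/
theorem result {F : Type*} [Field F] [Fintype F] (hF : Fintype.card F = 11) : Nat.card {H : Subgroup (Matrix.ProjectiveSpecialLinearGroup (Fin 2) F) // Nonempty (H ≃* alternatingGroup (Fin 5))} = 22 ∧ ∃ H K : Subgroup (Matrix.ProjectiveSpecialLinearGroup (Fin 2) F), Nonempty (H ≃* alternatingGroup (Fin 5)) ∧ Nonempty (K ≃* alternatingGroup (Fin 5)) ∧ (∀ g : Matrix.ProjectiveSpecialLinearGroup (Fin 2) F, MulAut.conj g • H ≠ K) ∧ ∀ L : Subgroup (Matrix.ProjectiveSpecialLinearGroup (Fin 2) F), Nonempty (L ≃* alternatingGroup (Fin 5)) → ∃ g : Matrix.ProjectiveSpecialLinearGroup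 (Fin 2) F, MulAut.conj g • L = H ∨ MulAut.conj g • L = K := by
  have ho : Odd (Fintype.card F) := by rw [hF]; decide
  obtain ⟨X, ⟨e⟩⟩ := (exists_A5_iff (F := F)).2 (by rw [hF]; norm_num)
  have hle := A5_le_PS e
  have hPS : Nat.card (PS F) = 660 := card_PS_of hF (by norm_num)
  have hN : Subgroup.normalizer (X : Set (PG F)) = X := by
    refine le_antisymm (A5_max e Subgroup.le_normalizer (fun h => ?_) fun k0 hk => ?_) Subgroup.le_normalizer
    · have := Matrix.ProjectiveSpecialLinearGroup.rank_two_simple (F := F) (by simp [hF])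
      have := (psEquiv F).symm.isSimpleGroup
      have hc : Nat.card (X.subgroupOf (PS F)) = 60 := by
        rw [card_equiv (Subgroup.subgroupOfEquivOfLe hle), card_equiv e, KB.card_A5]
      rcases ((Subgroup.normal_subgroupOf_iff_le_normalizer hle).2 h).eq_bot_or_eq_top with h | h <;> rw [h] at hc
      · simp at hc
      · rw [Subgroup.card_top, hPS] at hc; omega
    · exact (hk (subfield_eq_top_of_prime (by rw [hF]; norm_num) k0)).elim
  have hcj : ∀ c, Nonempty (cj c X ≃* A5) := fun c => ⟨(cjEquiv c X).symm.trans e⟩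
  constructor
  · have h1 := card_family (fun W : Subgroup (PG F) => Nonempty (W ≃* A5)) (V := X) fun W =>
      ⟨fun ⟨e'⟩ => A5_conj e e', by rintro ⟨c, rfl⟩; exact hcj c⟩
    have h3 := X.card_mul_index
    rw [hN] at h1
    rw [card_equiv e, KB.card_A5, ← h1, card_PG, hF] at h3
    have h4 : Nat.card {V : Subgroup (PSL2 F) // Nonempty (V ≃* A5)} = Nat.card {W : Subgroup (PG F) // Nonempty (W ≃* A5)} :=
      Nat.card_congr (Equiv.ofBijective (fun V => ⟨V.1.map psl, ⟨(pslSub _).symm.trans V.2.some⟩⟩)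
        ⟨fun V W h => Subtype.ext (Subgroup.map_injective psl_inj (congrArg Subtype.val h)), fun ⟨W, ⟨h⟩⟩ => by
          obtain ⟨K, rfl⟩ := exists_map_psl (A5_le_PS h)
          exact ⟨⟨K, ⟨(pslSub _).trans h⟩⟩, rfl⟩⟩)
    rw [h4]
    omega
  · obtain ⟨d, hd⟩ := exists_not_mem_PS ho
    obtain ⟨V₂, h4⟩ := exists_map_psl (A5_le_PS (hcj d).some)
    obtain ⟨V₁, rfl⟩ := exists_map_psl hle
    refine ⟨V₁, V₂, ⟨(pslSub _).trans e⟩, ⟨(pslSub _).trans (h4 ▸ (hcj d).some)⟩, ?_, fun W ⟨hW⟩ => ?_⟩
    · rintro g rfl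
      exact not_cj_two (hN.le.trans hle) hd (psl_mem g) ((map_cj psl g V₁).symm.trans h4)
    · obtain ⟨c, hc⟩ := A5_conj e ((pslSub _).symm.trans hW)
      obtain ⟨g, hg, h6⟩ := exists_cj_two (index_PS_odd ho) (V₁.map psl) hd c
      obtain ⟨g, rfl⟩ := exists_psl hg
      refine ⟨g⁻¹, ?_⟩
      rw [hc, ← h4, ← map_cj, ← map_cj] at h6
      rcases h6 with h6 | h6
      · exact Or.inl (cj_eq_iff.1 (Subgroup.map_injective psl_inj h6)).symm
      · exact Or.inr (cj_eq_iff.1 (Subgroup.map_injective psl_inj h6)).symm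


end Cfsg.Agent.S2543
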