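import Cfsg.Statements.S2550
import Cfsg.Agent.H8.Z1
import Cfsg.Agent.H8.XL42
import Cfsg.Agent.H8.XL34
-- import your own Cfsg.Agent.* helpers here

set_option autoImplicit false
set_option maxRecDepth 200000
open Cfsg

namespace Cfsg.Agent.S2550

/-- Let F be a field with 2 elements and K a field with 4 elements. PSL_4(F) and PSL_3(K) have the same order (20160) but are not isomorphic. -/
theorem result {F K : Type*} [Field F] [Fintype F] [Field K] [Fintype K] (hF : Fintype.card F = 2) (hK : Fintype.card K = 4) : Nat.card (Matrix.ProjectiveSpecialLinearGroup (Fin 4) F) = Nat.card (Matrix.ProjectiveSpecialLinearGroup (Fin 3) K) ∧ ¬ Nonempty (Matrix.ProjectiveSpecialLinearGroup (Fin 4) F ≃* Matrix.ProjectiveSpecialLinearGroup (Fin 3) K) := by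
  obtain ⟨e⟩ := H8.L42.iso hF
  obtain ⟨e'⟩ := H8.L34.iso hK
  refine ⟨by rw [Nat.card_congr e.toEquiv, Nat.card_congr e'.toEquiv, H8.L42.card, H8.L34.card], fun ⟨f⟩ => ?_⟩
  obtain ⟨x, hx⟩ := H8.Z1.l42
  have := H8.Z1.l34 ((e.symm.trans (f.trans e')) x)
  rw [MulEquiv.orderOf_eq, hx] at this
  exact absurd (this (by norm_num)) (by norm_num)

end Cfsg.Agent.S2550
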