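import Cfsg.Statements.S2551
import Cfsg.Agent.S0256

set_option autoImplicit false
open Cfsg

namespace Cfsg.Agent.S2551

open MulAction

theorem fixmod {H X : Type*} [Group H] [MulAction H X] [Finite X] (g : H) (p : ℕ) [Fact p.Prime]
    (hg : g ^ p = 1) : Nat.card X ≡ Nat.card {x : X // g • x = x} [MOD p] := by
  classical
  have := Fintype.ofFinite X
  have hf : (MulAction.toEndHom (M := H) (α := X) g) ^ p ^ 1 = 1 := by
    rw [pow_one, ← map_pow, hg, map_one]
  have h := Equiv.Perm.card_fixedPoints_modEq hf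
  rw [← Nat.card_eq_fintype_card, ← Nat.card_eq_fintype_card] at h
  exact h

def fixA {H V : Type*} [Group H] [AddCommGroup V] [DistribMulAction H V] (g : H) : AddSubgroup V where
  carrier := {x | g • x = x}
  add_mem' := by
    intro a b ha hb
    simp only [Set.mem_setOf_eq] at *
    rw [smul_add, ha, hb]
  zero_mem' := by simp
  neg_mem' := by
    intro a ha
    simp only [Set.mem_setOf_eq] at *
    rw [smul_neg, ha]

theorem fix_card {H V : Type*} [Group H] [AddCommGroup V] [Finite V] [DistribMulAction H V]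
    (hV : Nat.card V = 16) (hf : ∀ g : H, (∀ x : V, g • x = x) → g = 1) (g : H) (p : ℕ) [Fact p.Prime]
    (hg : orderOf g = p) : Nat.card (fixA (V := V) g) ∣ 16 ∧ Nat.card (fixA (V := V) g) ≠ 16 ∧
      16 ≡ Nat.card (fixA (V := V) g) [MOD p] := by
  refine ⟨hV ▸ AddSubgroup.card_addSubgroup_dvd_card _, ?_, ?_⟩
  · intro h
    have ht : fixA (V := V) g = ⊤ := AddSubgroup.eq_top_of_card_eq _ (h.trans hV.symm)
    have : g = 1 := hf g fun x => by
      have : x ∈ fixA (V := V) g := ht ▸ AddSubgroup.mem_top x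
      exact this
    rw [this, orderOf_one] at hg
    exact (Fact.out : p.Prime).one_lt.ne hg
  · have := fixmod (X := V) g p (hg ▸ pow_orderOf_eq_one g)
    rw [hV] at this
    exact this

theorem fix5 {H V : Type*} [Group H] [AddCommGroup V] [Finite V] [DistribMulAction H V]
    (hV : Nat.card V = 16) (hf : ∀ g : H, (∀ x : V, g • x = x) → g = 1) (g : H)
    (hg : orderOf g = 5) (v : V) (hv : g • v = v) : v = 0 := by
  haveI : Fact (Nat.Prime 5) := ⟨by norm_num⟩
  obtain ⟨h1, h2, h3⟩ := fix_card hV hf g 5 hg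
  have h4 : Nat.card (fixA (V := V) g) = 1 := by
    have h5 := Nat.le_of_dvd (by norm_num) h1
    generalize Nat.card (fixA (V := V) g) = n at *
    unfold Nat.ModEq at h3
    interval_cases n <;> simp_all
  have h6 : fixA (V := V) g = ⊥ := AddSubgroup.eq_bot_of_card_eq _ h4
  have : v ∈ fixA (V := V) g := hv
  rw [h6] at this
  exact this

theorem fix7 {H V : Type*} [Group H] [AddCommGroup V] [Finite V] [DistribMulAction H V]
    (hV : Nat.card V = 16) (hf : ∀ g : H, (∀ x : V, g • x = x) → g = 1) (g : H)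
    (hg : orderOf g = 7) (v w : V) (hv : g • v = v) (hw : g • w = w) (hv0 : v ≠ 0) (hw0 : w ≠ 0) : v = w := by
  haveI : Fact (Nat.Prime 7) := ⟨by norm_num⟩
  obtain ⟨h1, h2, h3⟩ := fix_card hV hf g 7 hg
  have h4 : Nat.card (fixA (V := V) g) = 2 := by
    have h5 := Nat.le_of_dvd (by norm_num) h1
    generalize Nat.card (fixA (V := V) g) = n at *
    unfold Nat.ModEq at h3
    interval_cases n <;> simp_all
  obtain ⟨y, -, hy⟩ := (Nat.card_eq_two_iff' (0 : fixA (V := V) g)).1 h4
  have a1 := hy ⟨v, hv⟩ (fun h => hv0 (congrArg Subtype.val h))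
  have a2 := hy ⟨w, hw⟩ (fun h => hw0 (congrArg Subtype.val h))
  exact congrArg Subtype.val (a1.trans a2.symm)

theorem dvd_index {H : Type*} [Group H] [Finite H] (S : Subgroup H) (p : ℕ) [Fact p.Prime]
    (hp : p ∣ Nat.card H) (h : ∀ g ∈ S, orderOf g ≠ p) : p ∣ S.index := by
  rw [← S.card_mul_index] at hp
  rcases (Nat.Prime.dvd_mul Fact.out).1 hp with h1 | h1
  · obtain ⟨x, hx⟩ := exists_prime_orderOf_dvd_card' p h1
    exact absurd ((Subgroup.orderOf_coe x).trans hx) (h x x.2)
  · exact h1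

theorem idx15 {H V : Type*} [Group H] [Finite H] [AddCommGroup V] [Finite V] [DistribMulAction H V]
    (hH : Nat.card H = 2520) (hV : Nat.card V = 16) (hf : ∀ g : H, (∀ x : V, g • x = x) → g = 1)
    (v : V) (hv : v ≠ 0) : (stabilizer H v).index = 15 := by
  haveI : Fact (Nat.Prime 5) := ⟨by norm_num⟩
  haveI : Fact (Nat.Prime 7) := ⟨by norm_num⟩
  have h5 : 5 ∣ (stabilizer H v).index :=
    dvd_index _ 5 (by rw [hH]; norm_num) fun g hg ho => hv (fix5 hV hf g ho v hg)
  have hi : (stabilizer H v).index = Nat.card (orbit H v) := by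
    rw [index_stabilizer]; rfl
  have hne : ∀ x ∈ orbit H v, x ≠ 0 := by
    rintro x ⟨g, rfl⟩ h
    exact hv ((smul_eq_zero_iff_eq g).1 h)
  have hlt : Nat.card (orbit H v) < 16 := by
    rw [← hV]
    exact Finite.card_subtype_lt (p := fun x => x ∈ orbit H v) (x := 0) (fun h => hne 0 h rfl)
  obtain ⟨g, hg⟩ := exists_prime_orderOf_dvd_card' (G := H) 7 (by rw [hH]; norm_num)
  have hm := fixmod (X := orbit H v) g 7 (hg ▸ pow_orderOf_eq_one g)
  have h1 : Nat.card {x : orbit H v // g • x = x} ≤ 1 := by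
    rw [Finite.card_le_one_iff_subsingleton]
    refine ⟨fun a b => Subtype.ext (Subtype.ext ?_)⟩
    exact fix7 hV hf g hg _ _ (congrArg Subtype.val a.2) (congrArg Subtype.val b.2) (hne _ a.1.2) (hne _ b.1.2)
  have hpos : (stabilizer H v).index ≠ 0 := Subgroup.index_ne_zero_of_finite
  rw [hi] at h5 hpos ⊢
  unfold Nat.ModEq at hm
  generalize Nat.card {x : orbit H v // g • x = x} = m at *
  generalize Nat.card (orbit H v) = n at *
  interval_cases m <;> interval_cases n <;> simp_all

theorem key {H V : Type*} [Group H] [Finite H] [AddCommGroup V] [Finite V] [DistribMulAction H V]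
    (hH : Nat.card H = 2520) (hV : Nat.card V = 16) (hf : ∀ g : H, (∀ x : V, g • x = x) → g = 1)
    (v w v' w' : V) (h1 : v ≠ 0) (h2 : w ≠ 0) (h3 : v ≠ w) (h4 : v' ≠ 0) (h5 : w' ≠ 0) (h6 : v' ≠ w') :
    ∃ g : H, g • v = v' ∧ g • w = w' := by
  classical
  haveI : Fact (Nat.Prime 2) := ⟨by norm_num⟩
  haveI : Fact (Nat.Prime 7) := ⟨by norm_num⟩
  have := Fintype.ofFinite V
  obtain ⟨t, ht⟩ := exists_prime_orderOf_dvd_card' (G := H) 2 (by rw [hH]; norm_num)
  have ht1 : t ≠ 1 := by
    rintro rfl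
    simp at ht
  have htt : t * t = 1 := by rw [← pow_two, ← ht, pow_orderOf_eq_one]
  obtain ⟨a, ha⟩ : ∃ a : V, t • a ≠ a := by
    by_contra hc
    push Not at hc
    exact ht1 (hf t hc)
  have ha0 : a ≠ 0 := by
    rintro rfl
    simp at ha
  have hb0 : t • a ≠ 0 := fun h => ha0 ((smul_eq_zero_iff_eq t).1 h)
  let T : Finset (V × V) := (Finset.univ.erase (0 : V)).offDiag
  have hT : T.card = 210 := by
    simp only [T, Finset.offDiag_card, Finset.card_erase_of_mem (Finset.mem_univ _), Finset.card_univ,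
      ← Nat.card_eq_fintype_card, hV]
  have hmem : ∀ x y : V, (x, y) ∈ T ↔ x ≠ 0 ∧ y ≠ 0 ∧ x ≠ y := by
    intro x y
    simp [T]
  have hsub : orbit H (a, t • a) ⊆ (T : Set (V × V)) := by
    rintro x ⟨g, rfl⟩
    show (g • a, g • t • a) ∈ T
    rw [hmem]
    exact ⟨fun h => ha0 ((smul_eq_zero_iff_eq g).1 h), fun h => hb0 ((smul_eq_zero_iff_eq g).1 h),
      fun h => ha (smul_left_cancel g h).symm⟩
  have hi : (stabilizer H (a, t • a)).index = (orbit H (a, t • a)).ncard := index_stabilizer _ _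
  have d15 : 15 ∣ (stabilizer H (a, t • a)).index := by
    rw [← idx15 hH hV hf a ha0]
    exact Subgroup.index_dvd_of_le fun g hg => congrArg Prod.fst (mem_stabilizer_iff.1 hg)
  have d7 : 7 ∣ (stabilizer H (a, t • a)).index :=
    dvd_index _ 7 (by rw [hH]; norm_num) fun g hg ho =>
      ha (fix7 hV hf g ho a (t • a) (congrArg Prod.fst (mem_stabilizer_iff.1 hg))
        (congrArg Prod.snd (mem_stabilizer_iff.1 hg)) ha0 hb0).symm
  have d2 : 2 ∣ (orbit H (a, t • a)).ncard := by
    have hsw : ∀ x ∈ orbit H (a, t • a), x.swap ∈ orbit H (a, t • a) := by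
      rintro x ⟨g, rfl⟩
      refine ⟨g * t, ?_⟩
      show ((g * t) • a, (g * t) • t • a) = (g • t • a, g • a)
      rw [mul_smul, mul_smul, smul_smul t t, htt, one_smul]
    let f : Function.End (orbit H (a, t • a)) := fun x => ⟨x.1.swap, hsw _ x.2⟩
    have hf2 : f ^ 2 ^ 1 = 1 := by
      rw [pow_one, pow_two]
      rfl
    have := Fintype.ofFinite (orbit H (a, t • a))
    have h := Equiv.Perm.card_fixedPoints_modEq hf2
    have he : IsEmpty (Function.fixedPoints f) := by
      refine ⟨fun x => ?_⟩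
      have e1 : x.1.1.swap = x.1.1 := congrArg Subtype.val x.2
      have e2 := (hmem x.1.1.1 x.1.1.2).1 (hsub x.1.2)
      exact e2.2.2 (congrArg Prod.snd e1)
    rw [← Nat.card_eq_fintype_card, ← Nat.card_eq_fintype_card, Nat.card_of_isEmpty (α := Function.fixedPoints f)] at h
    exact (Nat.modEq_zero_iff_dvd).1 h
  have hpos : (stabilizer H (a, t • a)).index ≠ 0 := Subgroup.index_ne_zero_of_finite
  have hle : (orbit H (a, t • a)).ncard ≤ 210 := by
    rw [← hT, ← Set.ncard_coe_finset]
    exact Set.ncard_le_ncard hsub (Finset.finite_toSet T)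
  rw [hi] at d15 d7 hpos
  have heq : orbit H (a, t • a) = (T : Set (V × V)) := by
    refine Set.eq_of_subset_of_ncard_le hsub ?_ (Finset.finite_toSet T)
    rw [Set.ncard_coe_finset, hT]
    omega
  have m1 : (v, w) ∈ orbit H (a, t • a) := by
    rw [heq]; exact (hmem v w).2 ⟨h1, h2, h3⟩
  have m2 : (v', w') ∈ orbit H (a, t • a) := by
    rw [heq]; exact (hmem v' w').2 ⟨h4, h5, h6⟩
  obtain ⟨g1, e1⟩ := m1
  obtain ⟨g2, e2⟩ := m2
  have e3 : (g2 * g1⁻¹) • (v, w) = (v', w') := by
    rw [← e1, ← e2, mul_smul]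
    simp only [inv_smul_smul]
  exact ⟨g2 * g1⁻¹, congrArg Prod.fst e3, congrArg Prod.snd e3⟩

/-- Let F be the field with 2 elements. GL_4(F) (≅ A_8) has a subgroup isomorphic to the alternating group A_7, and every such subgroup acts 2-transitively on the 15 non-zero vectors of F⁴: any ordered pair of distinct non-zero vectors is carried to any other by some element of the subgroup. -/
theorem result {F : Type*} [Field F] [Fintype F] (hF : Fintype.card F = 2) : (∃ H : Subgroup (Matrix.GeneralLinearGroup (Fin 4) F), Nonempty (H ≃* alternatingGroup (Fin 7))) ∧ ∀ H : Subgroup (Matrix.GeneralLinearGroup (Fin 4) F), Nonempty (H ≃* alternatingGroup (Fin 7)) → ∀ v w v' w' : Fin 4 → F, v ≠ 0 → w ≠ 0 → v ≠ w → v' ≠ 0 → w' ≠ 0 → v' ≠ w' → ∃ g ∈ H, (g : Matrix (Fin 4) (Fin 4) F).mulVec v = v' ∧ (g : Matrix (Fin 4) (Fin 4) F).mulVec w = w' := by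
  classical
  constructor
  · obtain ⟨e⟩ := Cfsg.Agent.S0256.result hF
    have hc : Subgroup.center (Matrix.SpecialLinearGroup (Fin 4) F) = ⊥ := by
      rw [eq_bot_iff]
      intro A hA
      obtain ⟨r, hr, hrA⟩ := Matrix.SpecialLinearGroup.mem_center_iff.1 hA
      have hr0 : r ≠ 0 := by
        rintro rfl
        simp at hr
      have hr1 : r = 1 := by
        have := FiniteField.pow_card_sub_one_eq_one r hr0
        rw [hF] at this
        simpa using this
      rw [Subgroup.mem_bot]
      apply Subtype.ext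
      rw [← hrA, hr1]
      simp
    let e2 : Matrix.ProjectiveSpecialLinearGroup (Fin 4) F ≃* Matrix.SpecialLinearGroup (Fin 4) F :=
      (QuotientGroup.quotientMulEquivOfEq hc).trans QuotientGroup.quotientBot
    let φ : alternatingGroup (Fin 7) →* alternatingGroup (Fin 8) :=
      ((Equiv.Perm.extendDomainHom (finSuccAboveEquiv (0 : Fin 8))).comp (alternatingGroup (Fin 7)).subtype).codRestrict _
        (fun x => by
          rw [Equiv.Perm.mem_alternatingGroup]
          show Equiv.Perm.sign (Equiv.Perm.extendDomain x.1 _) = 1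
          rw [Equiv.Perm.sign_extendDomain]
          exact Equiv.Perm.mem_alternatingGroup.1 x.2)
    have hφ : Function.Injective φ := by
      intro x y h
      exact Subtype.ext (Equiv.Perm.extendDomainHom_injective _ (congrArg Subtype.val h))
    let ψ : alternatingGroup (Fin 7) →* Matrix.GeneralLinearGroup (Fin 4) F :=
      Matrix.SpecialLinearGroup.toGL.comp ((e.symm.trans e2).toMonoidHom.comp φ)
    have hψ : Function.Injective ψ :=
      Matrix.SpecialLinearGroup.toGL_injective.comp ((e.symm.trans e2).injective.comp hφ)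
    exact ⟨ψ.range, ⟨(MonoidHom.ofInjective hψ).symm⟩⟩
  · rintro H ⟨e⟩ v w v' w' h1 h2 h3 h4 h5 h6
    have hH : Nat.card H = 2520 := by
      rw [Nat.card_congr e.toEquiv, nat_card_alternatingGroup]
      simp [Nat.factorial]
    haveI : Finite H := Nat.finite_of_card_ne_zero (by rw [hH]; norm_num)
    letI : DistribMulAction H (Fin 4 → F) :=
      { smul := fun g x => ((g : Matrix.GeneralLinearGroup (Fin 4) F) : Matrix (Fin 4) (Fin 4) F).mulVec x
        one_smul := fun x => Matrix.one_mulVec x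
        mul_smul := fun g h x => (Matrix.mulVec_mulVec x _ _).symm
        smul_zero := fun g => Matrix.mulVec_zero _
        smul_add := fun g x y => Matrix.mulVec_add _ x y }
    have hV : Nat.card (Fin 4 → F) = 16 := by
      rw [Nat.card_eq_fintype_card, Fintype.card_fun, hF]
      rfl
    obtain ⟨g, a1, a2⟩ := key (H := H) hH hV (fun g hg => by
      apply Subtype.ext
      apply Units.ext
      apply Matrix.toLin'.injective
      refine LinearMap.ext fun x => ?_
      have h0 : ((g : Matrix.GeneralLinearGroup (Fin 4) F) : Matrix (Fin 4) (Fin 4) F).mulVec x = x := hg x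
      rw [Matrix.toLin'_apply, h0]
      simp) v w v' w' h1 h2 h3 h4 h5 h6
    exact ⟨g, g.2, a1, a2⟩

end Cfsg.Agent.S2551
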