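import Cfsg.Statements.S2552
import Cfsg.Agent.H5.Tr
import Cfsg.Agent.H5.Mx5

set_option autoImplicit false
open Cfsg

namespace Cfsg.Agent.S2552

open H5 H5.Form Module Matrix

/-- Let F be a finite field and n ≥ 1. For every k, the special linear group SL_n(F) acts transitively on the set of k-dimensional subspaces of F^n: any two subspaces of the same dimension are carried onto each other by some matrix of determinant 1. -/
theorem result {F : Type*} [Field F] [Fintype F] (n : ℕ) (hn : 1 ≤ n) (U₁ U₂ : Submodule F (Fin n → F)) (h : Module.finrank F U₁ = Module.finrank F U₂) : ∃ g : Matrix.SpecialLinearGroup (Fin n) F, U₁.map ((Matrix.SpecialLinearGroup.toLin' g : (Fin n → F) ≃ₗ[F] (Fin n → F)) : (Fin n → F) →ₗ[F] (Fin n → F)) = U₂ := by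
  obtain ⟨C₁, h₁⟩ := U₁.exists_isCompl
  obtain ⟨C₂, h₂⟩ := U₂.exists_isCompl
  let g := ((U₁.prodEquivOfIsCompl C₁ h₁).symm.trans ((LinearEquiv.ofFinrankEq U₁ U₂ h).prodCongr (LinearEquiv.ofFinrankEq C₁ C₂ (by
    have := Submodule.finrank_add_eq_of_isCompl h₁; have := Submodule.finrank_add_eq_of_isCompl h₂; omega)))).trans (U₂.prodEquivOfIsCompl C₂ h₂)
  obtain ⟨v, v0, hv⟩ : ∃ v : Fin n → F, v ≠ 0 ∧ (U₁ = ⊥ ∨ v ∈ U₁) := by
    by_cases e : U₁ = ⊥
    · exact ⟨1, fun e => by simpa using congrFun e ⟨0, hn⟩, .inl e⟩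
    · exact (U₁.exists_mem_ne_zero_of_ne_bot e).imp fun _ h => ⟨h.2, .inr h.1⟩
  obtain ⟨φ, hφ, -⟩ := exists_dual (W := (⊥ : Submodule F _)) v0
  have d := (LinearEquiv.det g).ne_zero
  let t := LinearEquiv.dilatransvection (f := ((LinearEquiv.det g : F)⁻¹ - 1) • φ) (v := v) (by simp [hφ, -LinearEquiv.coe_det])
  refine ⟨⟨LinearMap.toMatrix' (g * t : _ ≃ₗ[F] _), by
    rw [LinearMap.det_toMatrix', ← LinearEquiv.coe_det, map_mul, Units.val_mul, LinearEquiv.coe_det t]; simp [t, hφ, -LinearEquiv.coe_det]⟩,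
    Submodule.eq_of_le_of_finrank_eq ?_ ((LinearEquiv.finrank_map_eq _ _).trans h)⟩
  rintro _ ⟨x, hx, rfl⟩
  have : t x ∈ U₁ := by
    rcases hv with rfl | hv
    · simp [(Submodule.mem_bot F).1 hx]
    · exact add_mem hx (U₁.smul_mem _ hv)
  change toLin' (LinearMap.toMatrix' _) x ∈ _
  have k : ∀ y : U₁, g y ∈ U₂ := fun y => by simp [g]
  rw [toLin'_toMatrix']; exact k ⟨_, this⟩


end Cfsg.Agent.S2552
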