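import Cfsg.Statements.S2564
import Cfsg.Agent.H5.Orders

set_option autoImplicit false
open Cfsg

namespace Cfsg.Agent.S2564

open H5 H5.Form Module

theorem nd {m : ℕ} {q : (Fin m ⊕ Fin m → ZMod 2) → ZMod 2} (hq : ∀ u v, q (u + v) = q u + q v + (plusF (ZMod 2) m).B u v) :
    ∃ Φ : Form (Kind.orth (ZMod 2)) (Fin m ⊕ Fin m → ZMod 2), Φ.Q = q ∧ Φ.B = (plusF (ZMod 2) m).B ∧ Φ.Nondeg := by
  have h0 : q 0 = 0 := by simpa using hq 0 0
  exact ⟨ofQuadFun q (plusF (ZMod 2) m).B (fun c x => by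
    rcases (by decide : ∀ a : ZMod 2, a = 0 ∨ a = 1) c with rfl | rfl <;> simp [h0]) hq, rfl, rfl, plusF_nondeg m⟩

theorem pol (m : ℕ) (u v : Fin m ⊕ Fin m → ZMod 2) : Cfsg.quadFormPlus m (ZMod 2) (u + v) - Cfsg.quadFormPlus m (ZMod 2) u -
    Cfsg.quadFormPlus m (ZMod 2) v = (plusF (ZMod 2) m).B u v := by
  rw [← plusF_Q, orth_add]; ring

theorem key {V : Type} [AddCommGroup V] [Module (ZMod 2) V] [FiniteDimensional (ZMod 2) V] {Φ : Form (Kind.orth (ZMod 2)) V}
    (h : Φ.Nondeg) {m : ℕ} (hm : finrank (ZMod 2) V = 2 * (m + 1)) (w : V) :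
    (∃ g : V ≃ₗ[ZMod 2] V, ∀ v, Φ.Q v + Φ.B v w = Φ.Q (g v)) ↔ Φ.Q w = 0 := by
  have z : ∀ a : ZMod 2, a = 0 ∨ a = 1 := by decide
  refine ⟨fun ⟨g, hg⟩ => ?_, fun hw => ?_⟩
  · by_contra c
    have c := (z _).resolve_left c
    have : Finite V := Module.finite_of_finite (ZMod 2)
    have e1 : Nat.card {v // Φ.Q v = 0} = Nat.card {v // ¬ Φ.Q v = 0} := Nat.card_congr (Equiv.subtypeEquiv
      (g.toEquiv.symm.trans (Equiv.addRight w)) fun v => by
        obtain ⟨v, rfl⟩ := g.surjective v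
        change _ ↔ ¬ Φ.Q (g.symm (g v) + w) = 0
        rw [g.symm_apply_apply, ← hg, orth_add, c]
        generalize Φ.Q v = a; generalize Φ.B v w = b; revert a b; decide)
    have e2 := Nat.card_congr (Equiv.sumCompl fun v => Φ.Q v = 0)
    rw [Nat.card_sum, ← e1, natCard_eq_pow_finrank (K := ZMod 2) (V := V), hm, Nat.card_zmod] at e2
    change Φ.numSing + Φ.numSing = _ at e2
    have p : (0 : ℤ) < 2 ^ m := by positivity
    zify at e2
    by_cases t : Φ.HasTS (m + 1)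
    · have := numSing_plus (ZMod.card 2) h hm t
      push_cast at this
      rw [pow_succ, pow_succ] at this
      omega
    · have := numSing_minus (ZMod.card 2) h hm t
      push_cast at this
      rw [mul_add, mul_one, pow_succ] at e2
      rw [pow_succ (2 : ℤ) m] at this
      omega
  · let f : V →ₗ[ZMod 2] V := LinearMap.id + (Φ.B.flip w).smulRight w
    have hf : ∀ v, f v = v + Φ.B v w • w := fun v => rfl
    refine ⟨LinearEquiv.ofInvolutive f fun v => ?_, fun v => ?_⟩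
    · rw [hf, hf, map_add, map_smul, LinearMap.add_apply, LinearMap.smul_apply, Φ.B_self_of_Q hw, add_assoc, ← add_smul]
      simp [CharTwo.add_self_eq_zero]
    · change _ = Φ.Q (f v)
      rw [hf, orth_add, orth_smul, hw, B_smul_right]
      rcases z (Φ.B v w) with e | e <;> simp [e]

/-- On the 2m-dimensional space over the field of two elements (m ≥ 1) let f be the alternating form obtained by polarizing the plus-type form Σ xᵢyᵢ, and let q be any quadratic form polarizing to f. For a vector w, the function q + f(·, w) again polarizes to f, and it is equivalent to q under an invertible linear map (that is, has the same type) if and only if q(w) = 0. -/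
theorem result (m : ℕ) (hm : 1 ≤ m) (q : (Fin m ⊕ Fin m → ZMod 2) → ZMod 2) (hq : (∀ u v : (Fin m ⊕ Fin m → ZMod 2), q (u + v) = q u + q v + (Cfsg.quadFormPlus m (ZMod 2) (u + v) - Cfsg.quadFormPlus m (ZMod 2) u - Cfsg.quadFormPlus m (ZMod 2) v))) (w : (Fin m ⊕ Fin m → ZMod 2)) :
    (∀ u v : (Fin m ⊕ Fin m → ZMod 2), (q (u + v) + (Cfsg.quadFormPlus m (ZMod 2) (u + v + w) - Cfsg.quadFormPlus m (ZMod 2) (u + v) - Cfsg.quadFormPlus m (ZMod 2) w)) =
        (q u + (Cfsg.quadFormPlus m (ZMod 2) (u + w) - Cfsg.quadFormPlus m (ZMod 2) u - Cfsg.quadFormPlus m (ZMod 2) w)) + (q v + (Cfsg.quadFormPlus m (ZMod 2) (v + w) - Cfsg.quadFormPlus m (ZMod 2) v - Cfsg.quadFormPlus m (ZMod 2) w)) +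
        (Cfsg.quadFormPlus m (ZMod 2) (u + v) - Cfsg.quadFormPlus m (ZMod 2) u - Cfsg.quadFormPlus m (ZMod 2) v)) ∧
    ((∃ g : (Fin m ⊕ Fin m → ZMod 2) ≃ₗ[ZMod 2] (Fin m ⊕ Fin m → ZMod 2), ∀ v, q v + (Cfsg.quadFormPlus m (ZMod 2) (v + w) - Cfsg.quadFormPlus m (ZMod 2) v - Cfsg.quadFormPlus m (ZMod 2) w) = q (g v)) ↔ q w = 0) := by
  simp only [pol] at hq ⊢
  obtain ⟨m, rfl⟩ := Nat.exists_eq_add_of_le' hm
  obtain ⟨Φ, rfl, e, h⟩ := nd hq
  refine ⟨fun u v => by rw [hq, map_add, LinearMap.add_apply]; ring, ?_⟩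
  rw [← e]
  exact key h (m := m) (by simp; ring) w


end Cfsg.Agent.S2564
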