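import Cfsg.Statements.S2561
import Cfsg.Agent.S2564

set_option autoImplicit false
open Cfsg

namespace Cfsg.Agent.S2561

open H5 H5.Form Module S2564

abbrev VV (m : ℕ) := Fin (m + 1) ⊕ Fin (m + 1) → ZMod 2

/-- Fix the non-singular alternating form on the 2m-dimensional space over the field of two elements obtained by polarizing the plus-type form Σ xᵢyᵢ (m ≥ 1). The functions q on the space with q(u + v) = q(u) + q(v) + f(u, v) (the quadratic forms polarizing to f) number 2^(2m); each is equivalent under an invertible linear map either to the plus-type form or to the minus-type form Σ xᵢyᵢ + (z₁² + z₁z₂ + z₂²); and those of plus type number 2^(2m−1) + 2^(m−1), those of minus type 2^(2m−1) − 2^(m−1). -/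
theorem result (m : ℕ) (hm : 1 ≤ m) :
    Nat.card {q : (Fin m ⊕ Fin m → ZMod 2) → ZMod 2 // (∀ u v : (Fin m ⊕ Fin m → ZMod 2), q (u + v) = q u + q v + (Cfsg.quadFormPlus m (ZMod 2) (u + v) - Cfsg.quadFormPlus m (ZMod 2) u - Cfsg.quadFormPlus m (ZMod 2) v))} = 2 ^ (2 * m) ∧
    (∀ q : (Fin m ⊕ Fin m → ZMod 2) → ZMod 2, (∀ u v : (Fin m ⊕ Fin m → ZMod 2), q (u + v) = q u + q v + (Cfsg.quadFormPlus m (ZMod 2) (u + v) - Cfsg.quadFormPlus m (ZMod 2) u - Cfsg.quadFormPlus m (ZMod 2) v)) →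
      (∃ g : (Fin m ⊕ Fin m → ZMod 2) ≃ₗ[ZMod 2] (Fin m ⊕ Fin m → ZMod 2), ∀ v, q v = Cfsg.quadFormPlus m (ZMod 2) (g v)) ∨
      (∃ g : (Fin m ⊕ Fin m → ZMod 2) ≃ₗ[ZMod 2] ((Fin (m - 1) ⊕ Fin (m - 1)) ⊕ Fin 2 → ZMod 2), ∀ v, q v = Cfsg.quadFormMinus (m - 1) (ZMod 2) 1 1 (g v))) ∧
    Nat.card {q : (Fin m ⊕ Fin m → ZMod 2) → ZMod 2 // (∀ u v : (Fin m ⊕ Fin m → ZMod 2), q (u + v) = q u + q v + (Cfsg.quadFormPlus m (ZMod 2) (u + v) - Cfsg.quadFormPlus m (ZMod 2) u - Cfsg.quadFormPlus m (ZMod 2) v)) ∧ ∃ g : (Fin m ⊕ Fin m → ZMod 2) ≃ₗ[ZMod 2] (Fin m ⊕ Fin m → ZMod 2), ∀ v, q v = Cfsg.quadFormPlus m (ZMod 2) (g v)} = 2 ^ (2 * m - 1) + 2 ^ (m - 1) ∧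
    Nat.card {q : (Fin m ⊕ Fin m → ZMod 2) → ZMod 2 // (∀ u v : (Fin m ⊕ Fin m → ZMod 2), q (u + v) = q u + q v + (Cfsg.quadFormPlus m (ZMod 2) (u + v) - Cfsg.quadFormPlus m (ZMod 2) u - Cfsg.quadFormPlus m (ZMod 2) v)) ∧ ∃ g : (Fin m ⊕ Fin m → ZMod 2) ≃ₗ[ZMod 2] ((Fin (m - 1) ⊕ Fin (m - 1)) ⊕ Fin 2 → ZMod 2), ∀ v, q v = Cfsg.quadFormMinus (m - 1) (ZMod 2) 1 1 (g v)} = 2 ^ (2 * m - 1) - 2 ^ (m - 1) := by
  simp only [pol]
  obtain ⟨m, rfl⟩ := Nat.exists_eq_add_of_le' hm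
  set P := plusF (ZMod 2) (m + 1)
  have nP := plusF_nondeg (F := ZMod 2) (m + 1)
  have dim : finrank (ZMod 2) (Fin (m + 1) ⊕ Fin (m + 1) → ZMod 2) = 2 * (m + 1) := by simp; ring
  let f : (Fin (m + 1) ⊕ Fin (m + 1) → ZMod 2) → (Fin (m + 1) ⊕ Fin (m + 1) → ZMod 2) → ZMod 2 := fun w v => P.Q v + P.B v w
  have inj : Function.Injective f := fun w w' h => nP.ext fun x => add_left_cancel (a := P.Q x) (congrFun h x)
  have rg : ∀ q : VV m → ZMod 2, (∀ u v, q (u + v) = q u + q v + P.B u v) ↔ ∃ w, f w = q := fun q => ⟨fun h => by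
    let a : VV m →+ ZMod 2 := AddMonoidHom.mk' (fun v : VV m => q v - P.Q v) fun u v => by rw [h, orth_add]; ring
    obtain ⟨w, hw⟩ := nP.exists_rep (a.toZModLinearMap 2)
    exact ⟨w, funext fun v => by
      have := hw v
      change P.B v w = q v - P.Q v at this
      simp only [f, this]; ring⟩, by
    rintro ⟨w, rfl⟩ u v; simp only [f, orth_add, map_add, LinearMap.add_apply]; ring⟩
  have cnt : ∀ (R : (VV m → ZMod 2) → Prop) (S : VV m → Prop), (∀ w, R (f w) ↔ S w) →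
      Nat.card {q : VV m → ZMod 2 // (∀ u v, q (u + v) = q u + q v + P.B u v) ∧ R q} = Nat.card {w // S w} := fun R S h =>
    (Nat.card_congr (Equiv.ofBijective (fun w : {w // S w} => (⟨f w, (rg _).2 ⟨_, rfl⟩, (h _).2 w.2⟩ :
      {q : VV m → ZMod 2 // (∀ u v, q (u + v) = q u + q v + P.B u v) ∧ R q}))
      ⟨fun a b e => Subtype.ext (inj (congrArg Subtype.val e)), fun ⟨q, h1, h2⟩ => by
        obtain ⟨w, rfl⟩ := (rg q).1 h1
        exact ⟨⟨w, (h w).1 h2⟩, rfl⟩⟩)).symm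
  have an : ∀ z₁ z₂ : ZMod 2, z₁ ^ 2 + 1 * z₁ * z₂ + 1 * z₂ ^ 2 = 0 → z₁ = 0 ∧ z₂ = 0 := by decide
  have ty : ∀ q : VV m → ZMod 2, (∀ u v, q (u + v) = q u + q v + P.B u v) → Xor (∃ g : VV m ≃ₗ[ZMod 2] _, ∀ v, q v = Cfsg.quadFormPlus (m + 1) (ZMod 2) (g v))
      (∃ g : VV m ≃ₗ[ZMod 2] _, ∀ v, q v = Cfsg.quadFormMinus m (ZMod 2) 1 1 (g v)) := fun q h => by
    obtain ⟨Φ, rfl, e, n⟩ := nd h
    have iso : ∀ {W : Type} [AddCommGroup W] [Module (ZMod 2) W] (Ψ : Form (Kind.orth (ZMod 2)) W) (g : VV m ≃ₗ[ZMod 2] W),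
        (∀ v, Φ.Q v = Ψ.Q (g v)) → Φ.IsIso Ψ g := fun Ψ g k => ⟨fun x y => by
      have := k (x + y)
      rw [map_add, orth_add, orth_add, k, k] at this
      exact (add_left_cancel this).symm, fun x => (k x).symm⟩
    by_cases t : Φ.HasTS (m + 1)
    · obtain ⟨g, hg⟩ := split_iso n nP dim dim t (plusF_hasTS _)
      exact .inl ⟨⟨g, fun v => (hg.2 v).symm⟩, fun ⟨g, k⟩ => minusF_not_hasTS m an ((iso (minusF m 1 1) g k).hasTS t)⟩
    · obtain ⟨g, hg⟩ := minus_iso n (minusF_nondeg m (disc_ne_zero_of_aniso an)) dim (by simp; ring) t (minusF_not_hasTS m an)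
      exact .inr ⟨⟨g, fun v => (hg.2 v).symm⟩, fun ⟨g, k⟩ => t ((iso P g k).hasTS_iff.2 (plusF_hasTS _))⟩
  have c0 : Nat.card (Fin (m + 1) ⊕ Fin (m + 1) → ZMod 2) = 2 ^ (2 * (m + 1)) := by
    rw [natCard_eq_pow_finrank (K := ZMod 2), dim, Nat.card_zmod]
  have c1 : Nat.card {w // P.Q w = 0} = 2 ^ (2 * m + 1) + 2 ^ m := by
    have := numSing_plus (ZMod.card 2) nP dim (plusF_hasTS _)
    push_cast at this
    rw [pow_succ, pow_succ, mul_add, mul_one, pow_succ] at this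
    change P.numSing = _
    change 2 * (P.numSing : ℤ) = _ at this
    zify; omega
  refine ⟨?_, fun q h => (ty q h).or, (cnt _ _ (key nP dim)).trans c1, (cnt _ (¬ P.Q · = 0) fun w => ?_).trans ?_⟩
  · rw [← c0, ← Nat.card_range_of_injective inj]
    exact Nat.card_congr (Equiv.subtypeEquivRight rg)
  · rw [← key nP dim]
    exact (xor_iff_not_iff _ _).1 (ty _ ((rg _).2 ⟨w, rfl⟩)) |> not_iff.1 |>.symm
  · have e2 := Nat.card_congr (Equiv.sumCompl fun v : VV m => P.Q v = 0)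
    rw [Nat.card_sum, c0, c1, mul_add, mul_one, pow_succ 2 (2 * m + 1)] at e2
    exact Nat.eq_sub_of_add_eq (show _ + 2 ^ m = 2 ^ (2 * m + 1) by omega)


end Cfsg.Agent.S2561
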