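import Cfsg.Statements.S2562
import Cfsg.Agent.H5.Om3

set_option autoImplicit false
open Cfsg

namespace Cfsg.Agent.S2562

open H5 H5.Form Module Matrix

/-- Witt indices over the field of two elements, m ≥ 1: for the plus-type form Σ xᵢyᵢ in dimension 2m some m-dimensional subspace is totally singular and no totally singular subspace has larger dimension; for the minus-type form Σ xᵢyᵢ + (z₁² + z₁z₂ + z₂²) in dimension 2m the maximal dimension of a totally singular subspace is m − 1. -/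
theorem result (m : ℕ) (hm : 1 ≤ m) :
    (∃ U : Submodule (ZMod 2) (Fin m ⊕ Fin m → ZMod 2), (∀ u ∈ U, Cfsg.quadFormPlus m (ZMod 2) u = 0) ∧ Module.finrank (ZMod 2) ↥U = m) ∧
    (∀ U : Submodule (ZMod 2) (Fin m ⊕ Fin m → ZMod 2), (∀ u ∈ U, Cfsg.quadFormPlus m (ZMod 2) u = 0) → Module.finrank (ZMod 2) ↥U ≤ m) ∧
    (∃ U : Submodule (ZMod 2) ((Fin (m - 1) ⊕ Fin (m - 1)) ⊕ Fin 2 → ZMod 2), (∀ u ∈ U, Cfsg.quadFormMinus (m - 1) (ZMod 2) 1 1 u = 0) ∧ Module.finrank (ZMod 2) ↥U = m - 1) ∧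
    (∀ U : Submodule (ZMod 2) ((Fin (m - 1) ⊕ Fin (m - 1)) ⊕ Fin 2 → ZMod 2), (∀ u ∈ U, Cfsg.quadFormMinus (m - 1) (ZMod 2) 1 1 u = 0) → Module.finrank (ZMod 2) ↥U ≤ m - 1) := by
  refine ⟨(plusF_hasTS m).imp fun U h => ⟨h.2.1, h.1⟩, fun U h => ?_, (minusF_hasTS _ 1 1).imp fun U h => ⟨h.2.1, h.1⟩, fun U h => ?_⟩
  · have := (orth_ts (Φ := plusF _ m).2 h).two_mul_le (plusF_nondeg m)
    simp at this; omega
  · by_contra! k
    exact minusF_not_hasTS _ aniso_two (HasTS.mono ⟨U, rfl, orth_ts.2 h⟩ k)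


end Cfsg.Agent.S2562
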