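import Cfsg.Statements.S2563
import Cfsg.Agent.H5.PermMod2

set_option autoImplicit false
open Cfsg

namespace Cfsg.Agent.S2563

open H5 H5.Form Module

/-- For k ≥ 1 the symmetric group of degree 4k + 4 embeds in a full orthogonal group in dimension 4k + 2 over the field of two elements: in the isometry group of the plus-type form Σ xᵢyᵢ when k is odd, and in that of the minus-type form Σ xᵢyᵢ + (z₁² + z₁z₂ + z₂²) when k is even (through its action on even partitions of a (4k+4)-set, with the form 'half the size of a part, modulo 2'). -/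
theorem result (k : ℕ) (hk : 1 ≤ k) :
    (Odd k → ∃ φ : Equiv.Perm (Fin (4 * k + 4)) →* ↥(Cfsg.isometryGroup (ZMod 2) (Cfsg.quadFormPlus (2 * k + 1) (ZMod 2))), Function.Injective φ) ∧
    (Even k → ∃ φ : Equiv.Perm (Fin (4 * k + 4)) →* ↥(Cfsg.isometryGroup (ZMod 2) (Cfsg.quadFormMinus (2 * k) (ZMod 2) 1 1)), Function.Injective φ) := by
  obtain ⟨H, n₀, t, n, d, ρ, h⟩ := exists_perm_hom' (N := 4 * (k + 1)) (by omega) ⟨2 * (k + 1), by ring⟩ (rfl : (2 : ZMod 2) = 0) (fun _ => rfl) e2F_B e2F_Q (e2F_one rfl _)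
  have s := e2F_numSing (k + 1)
  have p : (0 : ℤ) < 4 ^ (k + 1) := by positivity
  have e : (2 : ℤ) ^ (2 * k + 1) * 2 = 4 ^ (k + 1) := by rw [← pow_succ, show 2 * k + 1 + 1 = 2 * (k + 1) by ring, pow_mul]; norm_num
  refine ⟨fun o => ?_, fun o => ?_⟩
  · have t : ((e2F _ _).res H).HasTS (2 * k + 1) := (t _).1 (by_contra fun c => by
      have := numSing_minus (ZMod.card 2) n₀ (m := 2 * k + 1) (by simp; omega) c
      rw [this, o.add_one.neg_pow, show 4 * (k + 1) = 2 * (2 * k + 1) + 1 + 1 by ring] at s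
      simp only [pow_succ (2 : ℤ) (2 * k + 1), pow_succ (2 : ℤ) (2 * (2 * k + 1) + 1), Nat.cast_ofNat] at s; linarith)
    obtain ⟨e, he⟩ := split_iso n (plusF_nondeg (2 * k + 1)) (by omega) (by simp; omega) t (plusF_hasTS _)
    exact ⟨(he.isomCongr.trans (oEquiv (plusF _ _)).symm).toMonoidHom.comp ρ, (he.isomCongr.trans (oEquiv (plusF _ _)).symm).injective.comp h⟩
  · have t : ¬ ((e2F _ _).res H).HasTS (2 * k + 1) := fun c => by
      have := numSing_plus (ZMod.card 2) n₀ (m := 2 * k + 1 + 1) (by simp; omega) ((t _).2 c)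
      rw [Nat.cast_ofNat, s, o.add_one.neg_pow, show 4 * (k + 1) = 2 * (2 * k + 1 + 1) by ring] at this
      simp only [pow_succ (2 : ℤ) (2 * k + 1), pow_succ (2 : ℤ) (2 * k + 1 + 1)] at this; linarith
    obtain ⟨e, he⟩ := minus_iso n (minusF_nondeg (2 * k) (a := 1) (b := 1) (by decide)) (m := 2 * k) (by omega) (by simp; omega) t (minusF_not_hasTS _ (by decide))
    exact ⟨(he.isomCongr.trans (oEquiv (minusF _ _ _)).symm).toMonoidHom.comp ρ, (he.isomCongr.trans (oEquiv (minusF _ _ _)).symm).injective.comp h⟩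


end Cfsg.Agent.S2563
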