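import Cfsg.Statements.S2565
import Cfsg.Agent.H8.Or3
-- import your own Cfsg.Agent.* helpers here

set_option autoImplicit false
set_option maxRecDepth 200000
open Cfsg

namespace Cfsg.Agent.S2565

/-- The commutator subgroup of the full orthogonal group of the plus-type form Σ xᵢyᵢ in dimension 6 over the field of two elements (the group Ω⁺₆(2), of index 2) is isomorphic to the alternating group of degree 8. -/
theorem result :
    (Cfsg.Omega (ZMod 2) (Cfsg.quadFormPlus 3 (ZMod 2))).index = 2 ∧
    Nonempty (↥(Cfsg.Omega (ZMod 2) (Cfsg.quadFormPlus 3 (ZMod 2))) ≃* alternatingGroup (Fin 8)) := by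
  obtain ⟨e⟩ := H8.Or3.o6p (ZMod.card 2)
  have h : (alternatingGroup (Fin 8)).map e.toMonoidHom = Omega (ZMod 2) (quadFormPlus 3 (ZMod 2)) := by
    rw [← alternatingGroup.commutator_perm_eq (by simp), map_commutator_eq, MonoidHom.range_eq_top.2 e.surjective]; rfl
  rw [← h]
  exact ⟨(Subgroup.index_map_equiv _ e).trans alternatingGroup.index_eq_two, ⟨((alternatingGroup _).equivMapOfInjective _ e.injective).symm⟩⟩

end Cfsg.Agent.S2565
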