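import Cfsg.Statements.S2566
import Cfsg.Agent.H8.Or3
-- import your own Cfsg.Agent.* helpers here

set_option autoImplicit false
set_option maxRecDepth 200000
open Cfsg

namespace Cfsg.Agent.S2566

/-- The full orthogonal group of the plus-type form x₁y₁ + x₂y₂ in dimension 4 over the field of two elements has order 72 and is isomorphic to the wreath product of the symmetric group of degree 3 by a group of order 2: it has a normal subgroup isomorphic to the direct product of two symmetric groups of degree 3, of index 2, whose two direct factors are interchanged by conjugation by some element. -/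
theorem result :
    Nat.card ↥(Cfsg.isometryGroup (ZMod 2) (Cfsg.quadFormPlus 2 (ZMod 2))) = 72 ∧
    ∃ (A B : Subgroup ↥(Cfsg.isometryGroup (ZMod 2) (Cfsg.quadFormPlus 2 (ZMod 2)))),
      Nonempty (↥A ≃* Equiv.Perm (Fin 3)) ∧ Nonempty (↥B ≃* Equiv.Perm (Fin 3)) ∧ A ⊓ B = ⊥ ∧ (∀ a ∈ A, ∀ b ∈ B, a * b = b * a) ∧
      (A ⊔ B).index = 2 ∧ ∃ g : ↥(Cfsg.isometryGroup (ZMod 2) (Cfsg.quadFormPlus 2 (ZMod 2))), A.map (MulAut.conj g).toMonoidHom = B := by
  have hc := (H8.Or3.ach (ZMod.card 2)).card.trans (show _ = 72 by decide +kernel)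
  obtain ⟨A, g, ⟨e⟩, h1, h2⟩ := H8.Or3.o4p (ZMod.card 2)
  have hg : g⁻¹ = g := inv_eq_of_mul_eq_one_right h1
  have e' := A.equivMapOfInjective (MulAut.conj g).toMonoidHom (MulAut.conj g).injective
  have c : ∀ a ∈ A, ∀ b ∈ A.map (MulAut.conj g).toMonoidHom, a * b = b * a := by
    rintro a ha _ ⟨b, hb, rfl⟩; simpa [hg] using (h2 a ha b hb).1
  have d : Disjoint A (A.map (MulAut.conj g).toMonoidHom) := Subgroup.disjoint_def.2 fun {a} ha ⟨b, hb, e⟩ =>
    (h2 a ha b hb).2 (by simpa [hg] using e.symm)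
  refine ⟨hc, A, _, ⟨e⟩, ⟨e'.symm.trans e⟩, d.eq_bot, c, ?_, g, rfl⟩
  let f := A.subtype.noncommCoprod (A.map (MulAut.conj g).toMonoidHom).subtype fun a b => c _ a.2 _ b.2
  have I : Function.Injective f := (MonoidHom.noncommCoprod_injective _ _ _).2 ⟨A.subtype_injective, Subgroup.subtype_injective _, by rwa [Subgroup.range_subtype, Subgroup.range_subtype]⟩
  have R : f.range = A ⊔ A.map (MulAut.conj g).toMonoidHom := by
    rw [show f.range = _ from MonoidHom.noncommCoprod_range _ _ _, Subgroup.range_subtype, Subgroup.range_subtype]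
  have := f.range.card_mul_index
  rw [← Nat.card_congr (MonoidHom.ofInjective I).toEquiv, Nat.card_prod, ← Nat.card_congr e'.toEquiv, Nat.card_congr e.toEquiv, hc,
    H8.Alt.s3ch.card.trans (show _ = 6 by decide +kernel), R] at this
  omega

end Cfsg.Agent.S2566
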