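import Cfsg.Statements.S2567
import Cfsg.Agent.H5.Sim2

set_option autoImplicit false
open Cfsg

namespace Cfsg.Agent.S2567

open H5 Matrix Polynomial

/-- Lifting elements of prime order from PGL to GL: let F be a finite field with q elements, r a prime not dividing q − 1, and x an element of order r in GL_n(F) modulo its centre (the scalar matrices). Then x has exactly one preimage in GL_n(F) of order r. -/
theorem result {F : Type*} [Field F] [Fintype F] {q n r : ℕ} (hF : Fintype.card F = q) (hr : r.Prime) (hdiv : ¬ r ∣ q - 1) (x : GL (Fin n) F ⧸ Subgroup.center (GL (Fin n) F)) (hx : orderOf x = r) : ∃! g : GL (Fin n) F, (QuotientGroup.mk g : GL (Fin n) F ⧸ Subgroup.center (GL (Fin n) F)) = x ∧ orderOf g = r := by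
  have z : ∀ g ∈ Subgroup.center (GL (Fin n) F), g ^ (q - 1) = 1 := fun g hg => by
    rw [GeneralLinearGroup.center_eq_range_scalar] at hg
    obtain ⟨a, rfl⟩ := hg
    rw [← map_pow, ← hF, ← card_units_eq, pow_card_eq_one', map_one]
  have c : (q - 1).Coprime r := (hr.coprime_iff_not_dvd.2 hdiv).symm
  obtain ⟨g, rfl⟩ := QuotientGroup.mk_surjective x
  obtain ⟨a, ha⟩ := Nat.exists_mul_mod_eq_one_of_coprime c hr.one_lt
  have e : ((g ^ ((q - 1) * a) : GL (Fin n) F) : GL (Fin n) F ⧸ Subgroup.center _) = g := by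
    rw [QuotientGroup.mk_pow, ← pow_mod_orderOf, hx, ha.2, pow_one]
  haveI := Fact.mk hr
  refine existsUnique_of_exists_of_unique ⟨_, e, orderOf_eq_prime ?_ fun h => hr.ne_one (by rw [← hx, ← e, h]; simp)⟩ fun y y' h h' => ?_
  · rw [← pow_mul, mul_comm, pow_mul, pow_mul, z _ ((QuotientGroup.eq_one_iff _).1 (by rw [QuotientGroup.mk_pow, ← hx, pow_orderOf_eq_one])), one_pow]
  have m := QuotientGroup.eq.1 (h.1.trans h'.1.symm)
  have : (y⁻¹ * y') ^ r = 1 := by
    have := (show Commute y (y⁻¹ * y') from Subgroup.mem_center_iff.1 m y).mul_pow r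
    rwa [mul_inv_cancel_left, ← h'.2, pow_orderOf_eq_one, h'.2, ← h.2, pow_orderOf_eq_one, one_mul, h.2, eq_comm] at this
  exact inv_mul_eq_one.1 (orderOf_eq_one_iff.1 (Nat.eq_one_of_dvd_coprimes c (orderOf_dvd_of_pow_eq_one (z _ m)) (orderOf_dvd_of_pow_eq_one this)))


end Cfsg.Agent.S2567
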