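import Cfsg.Statements.S2569
import Cfsg.Agent.H5.Sim2

set_option autoImplicit false
open Cfsg

namespace Cfsg.Agent.S2569

open H5 Matrix

/-- In GL_n over a finite field of characteristic p, the conjugacy class of a semisimple element (an element of order prime to p) under the special linear group is its whole GL-conjugacy class: for every such x and every invertible g there is h of determinant one with h x h⁻¹ = g x g⁻¹. -/
theorem result {F : Type*} [Field F] [Fintype F] {p : ℕ} [Fact p.Prime] [CharP F p] {n : ℕ} (x g : GL (Fin n) F) (hx : (orderOf x).Coprime p) : ∃ h : GL (Fin n) F, (h : Matrix (Fin n) (Fin n) F).det = 1 ∧ h * x * h⁻¹ = g * x * g⁻¹ := by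
  cases n
  · exact ⟨g, by simp, rfl⟩
  obtain ⟨y, h1, h2⟩ := exists_comm_det (semisimple_of_pow (mt (CharP.cast_eq_zero_iff F p _).1 ((Nat.Prime.coprime_iff_not_dvd Fact.out).1 hx.symm))
    (congrArg Units.val (pow_orderOf_eq_one x))) g.1.det⁻¹
  let z := GeneralLinearGroup.mkOfDetNeZero y (h2 ▸ inv_ne_zero g.det_ne_zero)
  have : z * x = x * z := Units.ext h1
  exact ⟨g * z, by simp [z, h2, g.det_ne_zero], by rw [mul_assoc g, this]; group⟩


end Cfsg.Agent.S2569
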