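import Cfsg.Statements.S2570
import Cfsg.Agent.H5.Sim2

set_option autoImplicit false
open Cfsg

namespace Cfsg.Agent.S2570

open H5 Matrix Polynomial

/-- Number of conjugacy classes of elements of order p in GL_n over a finite field of characteristic p: they correspond to the Jordan types, that is, to the partitions of n with all parts at most p other than the partition into ones, so there are (number of partitions of n with parts ≤ p) − 1 of them. -/
theorem result {F : Type*} [Field F] [Fintype F] {p : ℕ} [Fact p.Prime] [CharP F p] (n : ℕ) : Nat.card {C : ConjClasses (GL (Fin n) F) // ∃ g : GL (Fin n) F, ConjClasses.mk g = C ∧ orderOf g = p} = (Finset.univ.filter (fun μ : Nat.Partition n => ∀ a ∈ μ.parts, a ≤ p)).card - 1 := by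
  rw [card_classes (X := {μ : Nat.Partition (Fintype.card (Fin n)) // (∀ a ∈ μ.parts, a ≤ p) ∧ ¬ ∀ a ∈ μ.parts, a ≤ 1}) fun g μ => JT (g.1 - 1) μ.1.parts]
  · rw [card_parts_le _ (Fact.out : p.Prime).one_le, Fintype.card_fin]
  · exact fun g => (orderOf_eq_iff_jt p (Units.coeHom (Matrix (Fin n) (Fin n) F)) Units.val_injective :)
  · intro μ
    obtain ⟨N, h⟩ := exists_of_jt (F := F) _ μ.1.parts_sum
    exact ⟨h.nil.isUnit_add_one.unit, by simpa using h⟩
  exact fun g g' μ ν h h' => isConj_GL.trans (isConj_sub_one_iff.trans ((h.conj_iff h').trans Subtype.ext_iff.symm))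


end Cfsg.Agent.S2570
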