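import Cfsg.Statements.S2572
import Cfsg.Agent.H5.Root2
import Cfsg.Agent.H5.Para

set_option autoImplicit false
open Cfsg

namespace Cfsg.Agent.S2572

open H5 Matrix

/-- Centraliser of a transvection in GL_n(q), n ≥ 2: if t − 1 has rank one and square zero, the centraliser of t in GL_n(q) has order q^(2n−3) (q − 1) |GL_(n−2)(q)| (a group of order q^(2n−3) extended by GL_1(q) × GL_(n−2)(q)). -/
theorem result {F : Type*} [Field F] [Fintype F] {q n : ℕ} (hF : Fintype.card F = q) (hn : 2 ≤ n) (t : GL (Fin n) F) (ht : Cfsg.IsTransvection (t : Matrix (Fin n) (Fin n) F)) : Nat.card ↥(Subgroup.centralizer ({t} : Set (GL (Fin n) F))) = q ^ (2 * n - 3) * (q - 1) * ∏ i : Fin (n - 2), (q ^ (n - 2) - q ^ (i : ℕ)) := by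
  classical
  obtain ⟨n, rfl⟩ := Nat.exists_eq_add_of_le' hn
  have q1 : 1 < q := hF ▸ Fintype.one_lt_card
  have rk : ∀ N : Matrix (Fin (n + 2)) (Fin (n + 2)) F, N.rank = 1 → N * N = 0 → N ∈ rk1 F (Fin (n + 2)) := fun N h k => by
    obtain ⟨u, φ, hu, hφ, rfl⟩ := exists_vecMulVec h
    exact ⟨u, φ, hu, hφ, by simpa [vecMulVec_mul_vecMulVec, hu, hφ] using k, rfl⟩
  have c1 := card_eq_orbit_mul (G := ConjAct (GL (Fin (n + 2)) F)) ⊤ (t.1 - 1) (· ∈ rk1 F (Fin (n + 2))) fun N => ⟨fun h => by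
    obtain ⟨g, e⟩ := rk1_isConj (rk _ ht.1 ht.2) h
    exact ⟨ConjAct.toConjAct g, trivial, by simp [ConjAct.units_smul_def, e.eq]⟩, by
    rintro ⟨g, -, rfl⟩
    obtain ⟨u, φ, hu, hφ, h, e⟩ := rk _ ht.1 ht.2
    refine ⟨_, _, fun c => hu ?_, fun c => hφ ?_, ?_, by rw [ConjAct.units_smul_def, e, mul_vecMulVec, vecMulVec_mul]⟩
    · simpa using congrArg ((ConjAct.ofConjAct g)⁻¹.1 *ᵥ ·) c
    · simpa using congrArg (· ᵥ* (ConjAct.ofConjAct g).1) c
    · simpa [dotProduct_mulVec] using h⟩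
  have c2 : Nat.card ↥((⊤ : Subgroup (ConjAct (GL (Fin (n + 2)) F))) ⊓ MulAction.stabilizer _ (t.1 - 1)) = Nat.card (Subgroup.centralizer {t}) :=
    Nat.card_congr (Equiv.subtypeEquiv ConjAct.ofConjAct.toEquiv fun g => by
      simp [Subgroup.mem_centralizer_singleton_iff, ConjAct.units_smul_def, mul_sub, sub_mul, Units.ext_iff, Units.mul_inv_eq_iff_eq_mul, -coe_units_inv])
  let P := {x : (Fin (n + 2) → F) × (Fin (n + 2) → F) // x.1 ≠ 0 ∧ x.2 ≠ 0 ∧ x.2 ⬝ᵥ x.1 = 0}
  have c3 : Nat.card (rk1 F (Fin (n + 2)) × Fˣ) = Nat.card P := by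
    choose u φ hu hφ h e using fun N : rk1 F (Fin (n + 2)) => N.2
    refine Nat.card_eq_of_bijective (fun x => ⟨(x.2.1 • u x.1, x.2⁻¹.1 • φ x.1), by simp [hu, hφ, h]⟩) ⟨?_, ?_⟩
    · rintro ⟨N, c⟩ ⟨M, d⟩ k
      obtain ⟨k1, k2⟩ := Prod.ext_iff.1 (congrArg Subtype.val k)
      have := congrArg₂ vecMulVec k1 k2
      simp only [smul_vecMulVec, vecMulVec_smul, smul_smul, Units.inv_mul, Units.mul_inv, one_smul, ← e] at this
      obtain rfl : N = M := Subtype.ext this
      exact Prod.ext rfl (Units.ext (smul_left_injective F (hu N) k1))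
    · rintro ⟨⟨v, ψ⟩, hv, hψ, k⟩
      let N : rk1 F (Fin (n + 2)) := ⟨_, v, ψ, hv, hψ, k, rfl⟩
      have k1 : ∀ a b, v a * ψ b = u N a * φ N b := fun a b => congrFun (congrFun (e N) a) b
      obtain ⟨a, ha⟩ := Function.ne_iff.1 hv
      obtain ⟨b, hb⟩ := Function.ne_iff.1 hψ
      simp only [Pi.zero_apply] at ha hb
      have k2 : φ N b ≠ 0 := right_ne_zero_of_mul (k1 a b ▸ mul_ne_zero ha hb)
      refine ⟨(N, Units.mk0 (φ N b / ψ b) (div_ne_zero k2 hb)), Subtype.ext (Prod.ext (funext fun x => ?_) (funext fun x => ?_))⟩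
      · simp; field_simp; linear_combination -k1 x b
      · simp; field_simp
        exact mul_left_cancel₀ ha (by linear_combination φ N x * k1 a b - φ N b * k1 a x)
  have c4 : Nat.card P = (q ^ (n + 2) - 1) * (q ^ (n + 1) - 1) := by
    rw [Nat.card_congr (Equiv.subtypeProdEquivSigmaSubtype fun u φ : Fin (n + 2) → F => u ≠ 0 ∧ φ ≠ 0 ∧ φ ⬝ᵥ u = 0), Nat.card_sigma,
      ← Finset.sum_erase (a := 0) _ (by simp), Finset.sum_congr rfl (g := fun _ => q ^ (n + 1) - 1) fun u hu => ?_]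
    · simp [hF]
    · have h0 := Finset.ne_of_mem_erase hu
      let l : (Fin (n + 2) → F) →ₗ[F] F := dotProductBilin F F u
      have k := l.finrank_range_add_finrank_ker
      rw [LinearMap.range_eq_top.2 (LinearMap.surjective fun c => h0 (dotProduct_eq_zero_iff.1 (LinearMap.congr_fun c)))] at k
      have k2 := Module.natCard_eq_pow_finrank (K := F) (V := LinearMap.ker l)
      rw [show Module.finrank F (LinearMap.ker l) = n + 1 by simp at k; omega, Nat.card_eq_fintype_card (α := F), hF] at k2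
      rw [← k2, Nat.card_congr ((Equiv.subtypeEquivRight fun φ => ?_).trans
        (Equiv.subtypeSubtypeEquivSubtypeInter (· ∈ LinearMap.ker l) (· ≠ 0)).symm)]
      · rw [Nat.card_congr (Equiv.subtypeEquivRight (q := fun x : LinearMap.ker l => x ≠ 0) (by simp))]; simp
      · simp [l, h0, dotProduct_comm, and_comm]
  rw [Subgroup.card_top, c2, Nat.card_congr ConjAct.ofConjAct.toEquiv, card_GL, Fintype.card_fin, hF, Fin.prod_univ_succ, Fin.prod_univ_succ,
    Finset.prod_congr rfl (g := fun i : Fin n => q ^ 2 * (q ^ n - q ^ i.1)) fun i _ => by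
      simp [mul_tsub, ← pow_add, add_comm, add_left_comm], Finset.prod_mul_distrib] at c1
  rw [c4, Nat.card_prod, card_units_eq, hF] at c3
  have p1 := Nat.one_lt_pow (n + 1).succ_ne_zero q1
  have p2 := Nat.one_lt_pow n.succ_ne_zero q1
  refine Nat.eq_of_mul_eq_mul_left (Nat.mul_pos (Nat.sub_pos_of_lt p1) (Nat.sub_pos_of_lt p2)) ?_
  have e : q ^ (n + 2) - q ^ 1 = q * (q ^ (n + 1) - 1) := by rw [mul_tsub, ← pow_succ', mul_one, pow_one]
  simp only [Fin.val_zero, pow_zero, Fin.val_succ, zero_add, e, Finset.prod_const, Finset.card_fin] at c1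
  rw [show 2 * (n + 2) - 3 = 2 * n + 1 by omega, Nat.add_sub_cancel]
  refine (congrArg (· * _) c3.symm).trans ?_
  rw [mul_right_comm, ← show _ = Nat.card (rk1 F (Fin (n + 2))) * _ from c1, ← pow_mul]; simp only [Nat.succ_eq_add_one]; ring


end Cfsg.Agent.S2572
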