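import Cfsg.Statements.S2574
import Cfsg.Agent.H5.Sim2

set_option autoImplicit false
open Cfsg

namespace Cfsg.Agent.S2574

open H5 H5.Form Matrix Polynomial

/-- A regular unipotent element of the symplectic group has totally isotropic small invariant subspaces: over a finite field, if u ∈ Sp_2m(F) satisfies (u − 1)^(2m) = 0 and rank(u − 1) = 2m − 1, and W is a u-invariant subspace with 2 dim W ≤ 2m, then the alternating form vanishes identically on W. -/
theorem result {F : Type*} [Field F] [Finite F] {m : ℕ} (u : Matrix.symplecticGroup (Fin m) F) (hnil : ((u : Matrix (Fin m ⊕ Fin m) (Fin m ⊕ Fin m) F) - 1) ^ (2 * m) = 0) (hreg : ((u : Matrix (Fin m ⊕ Fin m) (Fin m ⊕ Fin m) F) - 1).rank = 2 * m - 1) (W : Submodule F (Fin m ⊕ Fin m → F)) (hW : ∀ v ∈ W, (u : Matrix (Fin m ⊕ Fin m) (Fin m ⊕ Fin m) F).mulVec v ∈ W) (hdim : 2 * Module.finrank F W ≤ 2 * m) : ∀ v ∈ W, ∀ w ∈ W, Cfsg.sympForm m F v w = 0 := by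
  have j := JT.reg (by simp [two_mul]) hnil hreg
  have k := fun W (hW : ∀ v ∈ W, u.1 *ᵥ v ∈ W) => j.eq_ker (W := W) (by simp [two_mul]) fun v hv => by simpa [sub_mulVec] using W.sub_mem (hW v hv) hv
  have d := (sympF_nondeg (F := F) m).finrank_perp W
  simp only [Module.finrank_fintype_fun_eq_card, Fintype.card_sum, Fintype.card_fin] at d
  intro v hv
  refine fun w hw => (sympF_B m v w).symm.trans ((mem_perp (sympF F m)).1 ?_ w hw)
  rw [k _ (isom_perp_mem (spEquiv m u).2 hW)]
  rw [k W hW] at hv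
  obtain ⟨c, hc⟩ := Nat.exists_eq_add_of_le' (show Module.finrank F W ≤ Module.finrank F ((sympF F m).perp W) by omega)
  rw [hc, pow_add]
  change _ *ᵥ v = 0 at hv ⊢
  rw [← mulVec_mulVec, hv, mulVec_zero]


end Cfsg.Agent.S2574
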