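import Cfsg.Statements.S2575
import Mathlib

set_option autoImplicit false
open Cfsg

namespace Cfsg.Agent.S2575

/-- Which diagonal involutions of PGL_n(q) lie in PSL_n(q), q odd: for the diagonal matrix t with i entries −1 and n − i entries 1, some non-zero scalar multiple of t has determinant one if and only if i is even or the 2-part of q − 1 exceeds the 2-part of n (that is, −1 is an n-th power in the field exactly in the latter case). -/
theorem result {F : Type*} [Field F] [Fintype F] {q : ℕ} (hF : Fintype.card F = q) (hq : Odd q) {n : ℕ} (hn : 1 ≤ n) (i : ℕ) (hi : i ≤ n) : (∃ c : F, c ≠ 0 ∧ (c • Matrix.diagonal (fun j : Fin n => if (j : ℕ) < i then (-1 : F) else 1)).det = 1) ↔ (Even i ∨ padicValNat 2 n < padicValNat 2 (q - 1)) := by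
  rw [show (∃ c : F, c ≠ 0 ∧ (c • Matrix.diagonal (fun j : Fin n => if (j : ℕ) < i then (-1 : F) else 1)).det = 1) ↔
    ∃ c : F, c ≠ 0 ∧ c ^ n * (-1) ^ i = 1 by
      simp [Matrix.det_diagonal, Finset.prod_ite, Fin.card_filter_val_lt, hi]]
  have q1 : 1 < q := hF ▸ Fintype.one_lt_card
  have h2 : (-1 : F) ≠ 1 := Ring.neg_one_ne_one_of_char_ne_two fun e => by
    have := FiniteField.even_card_of_char_two e
    obtain ⟨t, ht⟩ := hq
    omega
  rcases i.even_or_odd with e | e
  · simpa [e, e.neg_one_pow] using ⟨1, by simp⟩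
  rw [e.neg_one_pow, or_iff_right (Nat.not_even_iff_odd.2 e)]
  obtain ⟨v, m, k1, rfl⟩ := Nat.exists_eq_two_pow_mul_odd (n := n) (by omega)
  rw [show padicValNat 2 (2 ^ v * m) = v by
    rw [padicValNat.mul (by simp) k1.pos.ne', padicValNat.prime_pow, padicValNat.eq_zero_of_not_dvd k1.not_two_dvd_nat, add_zero]]
  rw [Nat.lt_iff_add_one_le, ← padicValNat_dvd_iff_le (by omega)]
  refine ⟨fun ⟨c, c0, h⟩ => ?_, fun h => ?_⟩
  · obtain ⟨w, m', k2, e'⟩ := Nat.exists_eq_two_pow_mul_odd (n := q - 1) (by omega)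
    by_contra d
    have : w ≤ v := by
      by_contra! c
      exact d (e' ▸ (pow_dvd_pow 2 c).mul_right _)
    obtain ⟨u, rfl⟩ := Nat.exists_eq_add_of_le this
    have h1 := FiniteField.pow_card_sub_one_eq_one c c0
    have h3 := congrArg (· ^ m') (show c ^ (2 ^ (w + u) * m) = -1 by linear_combination -h)
    simp only [k2.neg_one_pow, ← pow_mul] at h3
    rw [show 2 ^ (w + u) * m * m' = (2 ^ w * m') * (2 ^ u * m) by ring, ← e', ← hF, pow_mul, h1, one_pow] at h3
    exact h2 h3.symm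
  · obtain ⟨z, hz⟩ := IsCyclic.exists_ofOrder_eq_natCard (α := Fˣ)
    rw [Nat.card_units, Nat.card_eq_fintype_card, hF] at hz
    obtain ⟨t, ht⟩ := h
    have t0 : t ≠ 0 := by rintro rfl; omega
    have o : orderOf (z ^ t) = 2 ^ (v + 1) := by rw [orderOf_pow_of_dvd t0 (hz ▸ ht ▸ Dvd.intro_left _ rfl), hz, ht, Nat.mul_div_cancel _ (by omega)]
    have h3 : (z ^ t).1 ^ 2 ^ v = -1 := (mul_self_eq_one_iff.1 (by
      rw [← pow_add, ← mul_two, ← pow_succ, ← o, ← Units.val_pow_eq_pow_val, pow_orderOf_eq_one]; rfl)).resolve_left fun c =>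
        pow_ne_one_of_lt_orderOf (x := z ^ t) (by simp) (o ▸ Nat.pow_lt_pow_right one_lt_two v.lt_succ_self) (Units.ext c)
    exact ⟨(z ^ t).1, Units.ne_zero _, by rw [pow_mul, h3, k1.neg_one_pow]; simp⟩


end Cfsg.Agent.S2575
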