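import Cfsg.Statements.S2576
import Mathlib

set_option autoImplicit false
open Cfsg

namespace Cfsg.Agent.S2576

/-- Which involutions of PGL_2m(q) coming from a scalar of the quadratic extension field lie in PSL_2m(q), q odd: let μ generate the Sylow 2-subgroup of the multiplicative group of the field with q elements (μ has order the 2-part of q − 1) and let t be the block-diagonal matrix with m diagonal blocks [[0, 1], [μ, 0]] (so t² is the scalar μ and t is an involution modulo scalars). Then some non-zero scalar multiple of t has determinant one if and only if q ≡ 3 (mod 4) or the 2-part of q − 1 is less than the 2-part of 2m. -/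
theorem result {F : Type*} [Field F] [Fintype F] {q : ℕ} (hF : Fintype.card F = q) (hq : Odd q) {m : ℕ} (hm : 1 ≤ m) (μ : F) (hμ : orderOf μ = 2 ^ padicValNat 2 (q - 1)) : (∃ c : F, c ≠ 0 ∧ (c • Matrix.blockDiagonal (fun _ : Fin m => !![(0 : F), 1; μ, 0])).det = 1) ↔ (q % 4 = 3 ∨ padicValNat 2 (q - 1) < padicValNat 2 (2 * m)) := by
  rw [show (∃ c : F, c ≠ 0 ∧ (c • Matrix.blockDiagonal (fun _ : Fin m => !![(0 : F), 1; μ, 0])).det = 1) ↔
    ∃ c : F, c ≠ 0 ∧ c ^ (2 * m) * (-μ) ^ m = 1 by simp [Matrix.det_blockDiagonal]]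
  have q1 : 1 < q := hF ▸ Fintype.one_lt_card
  have h2 : (-1 : F) ≠ 1 := Ring.neg_one_ne_one_of_char_ne_two fun e => by
    have := FiniteField.even_card_of_char_two e
    obtain ⟨t, ht⟩ := hq
    omega
  have V : ∀ v m, Odd m → padicValNat 2 (2 ^ v * m) = v := fun v m k1 => by
    rw [padicValNat.mul (by simp) k1.pos.ne', padicValNat.prime_pow, padicValNat.eq_zero_of_not_dvd k1.not_two_dvd_nat, add_zero]
  obtain ⟨v, m, k1, rfl⟩ := Nat.exists_eq_two_pow_mul_odd (n := m) (by omega)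
  obtain ⟨w, m', k2, e'⟩ := Nat.exists_eq_two_pow_mul_odd (n := q - 1) (by omega)
  rw [e', V _ _ k2] at hμ
  rw [← mul_assoc, ← pow_succ', e', V _ _ k1, V _ _ k2]
  obtain ⟨w, rfl⟩ : ∃ u, w = u + 1 := Nat.exists_eq_succ_of_ne_zero (by
    rintro rfl
    obtain ⟨t, ht⟩ := hq
    obtain ⟨s, hs⟩ := k2
    omega)
  have h3 : μ ^ 2 ^ w = -1 := (mul_self_eq_one_iff.1 (by
    rw [← pow_add, ← mul_two, ← pow_succ, ← hμ, pow_orderOf_eq_one])).resolve_left
      (pow_ne_one_of_lt_orderOf (by simp) (hμ ▸ Nat.pow_lt_pow_right one_lt_two w.lt_succ_self))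
  rcases w with _ | w
  · obtain ⟨s, hs⟩ := k2
    simp only [pow_zero, pow_one, zero_add] at h3 e'
    exact iff_of_true ⟨1, by simp [h3]⟩ (.inl (by omega))
  have h4 : (-μ) ^ 2 ^ (w + 1) = -1 := by rw [Even.neg_pow (by simp [pow_succ]), h3]
  rw [or_iff_right (by rw [show 2 ^ (w + 1 + 1) * m' = 4 * (2 ^ w * m') by ring] at e'; omega)]
  refine ⟨fun ⟨c, c0, h⟩ => ?_, fun h => ⟨1, one_ne_zero, ?_⟩⟩
  · by_contra! d
    obtain ⟨u, hu⟩ := Nat.exists_eq_add_of_le (show v ≤ w + 1 by omega)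
    have h1 := FiniteField.pow_card_sub_one_eq_one c c0
    have h5 := congrArg (· ^ (2 ^ u * m')) h
    simp only [mul_pow, ← pow_mul, one_pow] at h5
    rw [show 2 ^ (v + 1) * m * (2 ^ u * m') = (2 ^ (w + 1 + 1) * m') * m by rw [hu]; ring, ← e', ← hF, pow_mul, h1,
      show 2 ^ v * m * (2 ^ u * m') = 2 ^ (w + 1) * (m * m') by rw [hu]; ring, pow_mul, h4, (k1.mul k2).neg_one_pow] at h5
    exact h2 (by simpa using h5)
  · obtain ⟨u, rfl⟩ := Nat.exists_eq_add_of_le (show w + 2 ≤ v by omega)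
    rw [show 2 ^ (w + 2 + u) * m = 2 ^ (w + 1) * (2 * (2 ^ u * m)) by ring, one_pow, pow_mul, h4, pow_mul]; simp


end Cfsg.Agent.S2576
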