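import Cfsg.Statements.S2578
import Cfsg.Agent.H5.Sim2

set_option autoImplicit false
open Cfsg

namespace Cfsg.Agent.S2578

open H5 Matrix Polynomial

/-- Regular unipotent classes of SL_n(q): for n ≥ 2 over the field with q elements, the matrices u of determinant one with (u − 1)^n = 0 and rank(u − 1) = n − 1 form a single GL_n(q)-class which splits into exactly gcd(n, q − 1) conjugacy classes of SL_n(q). -/
theorem result {F : Type*} [Field F] [Fintype F] {q : ℕ} (hF : Fintype.card F = q) {n : ℕ} (hn : 2 ≤ n) : Nat.card {C : ConjClasses (Matrix.SpecialLinearGroup (Fin n) F) // ∃ u : Matrix.SpecialLinearGroup (Fin n) F, ConjClasses.mk u = C ∧ ((u : Matrix (Fin n) (Fin n) F) - 1) ^ n = 0 ∧ ((u : Matrix (Fin n) (Fin n) F) - 1).rank = n - 1} = Nat.gcd n (q - 1) := by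
  haveI : Nonempty (Fin n) := ⟨⟨0, by omega⟩⟩
  obtain ⟨N, hN⟩ := exists_of_jt (F := F) (ι := Fin n) {n} (by simp)
  have n0 : IsNilpotent N := ⟨n, by simp [hN.isNilpotent]⟩
  let x : SpecialLinearGroup (Fin n) F := ⟨N + 1, by
    have := det_aeval_nil n0 (X + 1); rwa [map_add, map_one, aeval_X, coeff_add, coeff_X_zero, coeff_one_zero, zero_add, one_pow] at this⟩
  erw [card_split GeneralLinearGroup.det GeneralLinearGroup.det_surjective SpecialLinearGroup.toGL SpecialLinearGroup.toGL_injective
    (fun g => (SetLike.ext_iff.1 range_toGL g).symm) x fun h => (hN.reg_iff (by simp) (by omega)).trans (isConj_GL (g := SpecialLinearGroup.toGL x) (h := SpecialLinearGroup.toGL h)).symm,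
    show Subgroup.map _ _ = (powMonoidHom n).range from ?_, IsCyclic.index_powMonoidHom_range, card_units_eq, hF, Nat.gcd_comm]
  ext a
  refine ⟨fun ⟨g, h, e⟩ => ?_, fun ⟨c, e⟩ => ⟨GeneralLinearGroup.scalar _ c, Subgroup.mem_centralizer_singleton_iff.2
    (GeneralLinearGroup.scalar_commute _ _), by simpa using e⟩⟩
  obtain ⟨f, hf⟩ := comm_poly (A := N) (y := g.1) (by simp [hN.minpoly_reg]) (by
    simpa [mul_add, add_mul] using show g.1 * (N + 1) = (N + 1) * g.1 from congrArg Units.val (Subgroup.mem_centralizer_singleton_iff.1 h))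
  have : f.coeff 0 ^ n = a := by simp [← e, hf, det_aeval_nil n0]
  exact ⟨Units.mk0 (f.coeff 0) fun k => a.ne_zero (by rw [← this, k, zero_pow (by omega)]), Units.ext (by simpa using this)⟩


end Cfsg.Agent.S2578
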