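import Cfsg.Statements.S2579
import Cfsg.Agent.H5.Sim2

set_option autoImplicit false
open Cfsg

namespace Cfsg.Agent.S2579

open H5 Matrix

/-- In SL_n(F) with n ≥ 3, over a finite field F, any two transvections (matrices t with t − 1 of rank one and square zero) are conjugate by an element of SL_n(F). -/
theorem result {F : Type*} [Field F] [Finite F] {n : ℕ} (hn : 3 ≤ n) (s t : Matrix.SpecialLinearGroup (Fin n) F) (hs : Cfsg.IsTransvection (s : Matrix (Fin n) (Fin n) F)) (ht : Cfsg.IsTransvection (t : Matrix (Fin n) (Fin n) F)) : IsConj s t := by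
  refine isConj_SL (isConj_of_sq hs.2 ht.2 (hs.1.trans ht.1.symm)) fun c _ => ?_
  obtain ⟨x, h1, h2⟩ := exists_comm_det_ker (N := s.1 - 1) (fun h => by
    have := Submodule.finrank_mono h; have := rank_add_ker (s.1 - 1); have := hs.1; simp only [Matrix.rank, Fintype.card_fin] at *; omega) c
  exact ⟨x, comm_of_sub_one h1, h2⟩


end Cfsg.Agent.S2579
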