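import Cfsg.Statements.S2581
import Cfsg.Agent.H5.Cay
import Cfsg.Agent.H5.Para

set_option autoImplicit false
open Cfsg

namespace Cfsg.Agent.S2581

open H5 H5.Form Module Matrix Finset
universe u
variable {F : Type*} [Field F] {V : Type u} [AddCommGroup V] [Module F V] [FiniteDimensional F V]

theorem exists_ext (T : End F V) {α : LinearMap.range T ≃ₗ[F] LinearMap.range T} (hα : α ∈ H5.comm (dT T)) (β : LinearMap.ker T ≃ₗ[F] LinearMap.ker T)
    (h : ∀ (x : LinearMap.range T) (y : LinearMap.ker T), (x : V) = y → (α x : V) = β y) :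
    ∃ g ∈ H5.comm T, (∀ x : LinearMap.range T, g x = α x) ∧ ∀ x : LinearMap.ker T, g x = β x := by
  obtain ⟨s, hs⟩ := T.rangeRestrict.exists_rightInverse_of_surjective T.range_rangeRestrict
  have hs : ∀ w, T (s w) = w := fun w => congrArg Subtype.val (LinearMap.congr_fun hs w)
  let a : LinearMap.range T →ₗ[F] LinearMap.ker T := ((LinearMap.range T).subtype ∘ₗ α.toLinearMap - s ∘ₗ α.toLinearMap ∘ₗ dT T).codRestrict _ fun x => by
    have : T (α x) = α (dT T x) := (congrArg Subtype.val (hα x)).symm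
    simp [hs, this]
  have ha : ∀ x, (a x : V) = α x - s (α (dT T x)) := fun _ => rfl
  have H : ∀ (x : LinearMap.range T) (y : LinearMap.ker T), (x : V) = y → a x = β y := fun x y e => Subtype.ext (by
    simp [ha, h x y e, show dT T x = 0 from Subtype.ext ((congrArg T e).trans y.2)])
  obtain ⟨k, hk⟩ := (LinearPMap.sup ⟨_, a⟩ ⟨_, β.toLinearMap⟩ H).toFun.exists_extend
  have k1 : ∀ x : LinearMap.range T, k x = a x := fun x => (LinearMap.congr_fun hk ⟨x, Submodule.mem_sup_left x.2⟩).trans
    ((LinearPMap.left_le_sup ⟨_, a⟩ ⟨_, β.toLinearMap⟩ H).2 rfl).symm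
  have k2 : ∀ x : LinearMap.ker T, k x = β x := fun x => (LinearMap.congr_fun hk ⟨x, Submodule.mem_sup_right x.2⟩).trans
    ((LinearPMap.right_le_sup ⟨_, a⟩ ⟨_, β.toLinearMap⟩ H).2 rfl).symm
  let g : End F V := s ∘ₗ α.toLinearMap ∘ₗ T.rangeRestrict + (LinearMap.ker T).subtype ∘ₗ k
  have g0 : ∀ x, T (g x) = α (T.rangeRestrict x) := fun x => by simp [g, hs, show T (k x) = 0 from (k x).2]
  have g1 : ∀ x : LinearMap.range T, g x = α x := fun x => by simp [g, k1, ha, show T.rangeRestrict x = dT T x from rfl]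
  have g2 : ∀ x : LinearMap.ker T, g x = β x := fun x => by simp [g, k2, show T.rangeRestrict x = 0 from Subtype.ext x.2]
  refine ⟨.ofInjectiveEndo g ((injective_iff_map_eq_zero g).2 fun x hx => ?_), fun x => (g1 (T.rangeRestrict x)).trans (g0 x).symm, g1, g2⟩
  have : T x = 0 := congrArg Subtype.val (α.map_eq_zero_iff.1 (Subtype.ext ((g0 x).symm.trans (by rw [hx, map_zero]; rfl))))
  exact congrArg Subtype.val (β.map_eq_zero_iff.1 (Subtype.ext ((g2 ⟨x, this⟩).symm.trans hx)))

theorem card_fixSub [Finite F] (U : Submodule F V) :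
    Nat.card (fixSub U) = Nat.card F ^ (finrank F U * (finrank F V - finrank F U)) * Nat.card ((V ⧸ U) ≃ₗ[F] V ⧸ U) := by
  have := card_inf_stabSub ⊤ U
  rw [MonoidHom.range_eq_top.2 fun φ => ?_, card_congr_subgroup (top_inf_eq (stabSub U)), card_congr_subgroup (top_inf_eq (fixSub U)), card_stabSub,
    Subgroup.card_top, mul_right_comm, mul_comm] at this
  · have : Finite V := Module.finite_of_finite F
    have : Finite (U ≃ₗ[F] U) := .of_injective _ DFunLike.coe_injective
    exact (Nat.eq_of_mul_eq_mul_left Nat.card_pos ‹_›).symm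
  · obtain ⟨g, hg⟩ := Submodule.exists_linearEquiv_restrict_eq φ
    exact ⟨⟨g, trivial, mem_stabSub'.2 fun v hv => hg ⟨v, hv⟩ ▸ (φ _).2⟩, LinearEquiv.ext fun x => Subtype.ext (hg x).symm⟩

theorem card_ker [Finite F] (T : End F V) : Nat.card ↥(H5.comm T ⊓ fixSub (LinearMap.range T) ⊓ fixSub (LinearMap.ker T)) =
    Nat.card F ^ (finrank F (V ⧸ (LinearMap.range T ⊔ LinearMap.ker T)) * finrank F (LinearMap.ker T)) := by
  rw [← Module.finrank_linearMap, ← Module.natCard_eq_pow_finrank]
  have z : ∀ (h : (V ⧸ (LinearMap.range T ⊔ LinearMap.ker T)) →ₗ[F] LinearMap.ker T) x, x ∈ LinearMap.range T ⊔ LinearMap.ker T →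
    h (Submodule.Quotient.mk x) = 0 := fun h x hx => by rw [(Submodule.Quotient.mk_eq_zero _).2 hx, map_zero]
  refine (Nat.card_congr (.ofBijective (fun h => ⟨.ofInjectiveEndo (1 + Submodule.subtype _ ∘ₗ h ∘ₗ Submodule.mkQ _)
    ((injective_iff_map_eq_zero _).2 fun x hx => by
      have : x = -(h (Submodule.Quotient.mk x) : V) := eq_neg_of_add_eq_zero_left hx
      rw [this, z h x (Submodule.mem_sup_right (by rw [this]; exact neg_mem (h _).2))]; simp),
    ⟨fun x => by simp [z h (T x) (Submodule.mem_sup_left ⟨x, rfl⟩), show T (h _) = 0 from (h _).2],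
      fun x hx => by simp [z h x (Submodule.mem_sup_left hx)]⟩, fun x hx => by simp [z h x (Submodule.mem_sup_right hx)]⟩)
    ⟨fun h h' e => ?_, fun g => ?_⟩)).symm
  · ext x
    simpa using congrArg (fun g => g.1 x) e
  · refine ⟨Submodule.liftQ _ ((g.1.toLinearMap - 1).codRestrict _ fun x => ?_) (sup_le (fun x hx => ?_) fun x hx => ?_), Subtype.ext (by ext; simp)⟩
    · simp [← g.2.1.1 x, g.2.1.2 _ ⟨x, rfl⟩]
    · exact Subtype.ext (by simp [g.2.1.2 x hx])
    · exact Subtype.ext (by simp [g.2.2 x hx])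

theorem card_step [Fintype F] {T : End F V} {μ} (j : JE T μ) {s : ℕ} (hs : (μ.filter (1 < ·)).card = s) :
    Nat.card (H5.comm T) = Nat.card (H5.comm (dT T)) * (Fintype.card F ^ (2 * (s * μ.count 1) + s ^ 2) *
      ∏ i ∈ range (μ.count 1), (Fintype.card F ^ μ.count 1 - Fintype.card F ^ i)) := by
  have j1 := j 1
  have j2 := j.dT 1
  rw [pow_one, (sum_min_one μ).2, hs] at j1
  rw [pow_one, (sum_min_one μ).1, hs] at j2
  have e : LinearMap.range T ⊓ LinearMap.ker T = (LinearMap.ker (dT T)).map (Submodule.subtype _) := by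
    ext x
    exact ⟨fun h => ⟨⟨x, h.1⟩, Subtype.ext h.2, rfl⟩, by rintro ⟨x, hx, rfl⟩; exact ⟨x.2, congrArg Subtype.val hx⟩⟩
  have e1 : finrank F ↥(LinearMap.range T ⊓ LinearMap.ker T) = s := by rw [e, Submodule.finrank_map_subtype_eq, j2]
  have e2 : finrank F ((LinearMap.range T).comap (LinearMap.ker T).subtype) = s := by
    rw [← Submodule.finrank_map_subtype_eq, Submodule.map_comap_subtype, inf_comm, e1]
  have e3 := Submodule.finrank_sup_add_finrank_inf_eq (LinearMap.range T) (LinearMap.ker T)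
  have e4 := T.finrank_range_add_finrank_ker
  have e5 := (LinearMap.range T ⊔ LinearMap.ker T).finrank_quotient_add_finrank
  have e6 := ((LinearMap.range T).comap (LinearMap.ker T).subtype).finrank_quotient_add_finrank
  have s1 : H5.comm T ≤ stabSub (LinearMap.range T) := fun g hg => mem_stabSub'.2 (by rintro _ ⟨x, rfl⟩; exact ⟨_, (hg x).symm⟩)
  have s2 : H5.comm T ≤ stabSub (LinearMap.ker T) := fun g hg => mem_stabSub'.2 fun x hx => (hg x).symm.trans (by rw [show T x = 0 from hx, map_zero])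
  rw [← card_congr_subgroup (inf_eq_left.2 s1), card_inf_stabSub, ← card_congr_subgroup (inf_eq_left.2 (inf_le_left.trans s2 : _ ⊓ fixSub _ ≤ _)),
    card_inf_stabSub, card_ker, card_congr_subgroup (B := H5.comm (dT T)), card_congr_subgroup (A := MonoidHom.range _)
    (B := fixSub ((LinearMap.range T).comap (LinearMap.ker T).subtype)), card_fixSub, card_aut, Fin.prod_univ_eq_prod_range fun i => _ - _ ^ i,
    show finrank F (_ ⧸ Submodule.comap _ _) = μ.count 1 by omega, show finrank F (V ⧸ _) = s by omega, e2, j1, Nat.card_eq_fintype_card (α := F),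
    Nat.add_sub_cancel_left]
  · ring
  · refine le_antisymm ?_ fun β hβ => ?_
    · rintro _ ⟨g, rfl⟩ x hx; exact Subtype.ext (g.2.1.2 _ hx)
    · obtain ⟨g, h1, h2, h3⟩ := exists_ext T (one_mem _) β fun x y e => e.trans (congrArg Subtype.val (hβ y (e ▸ x.2 :))).symm
      exact ⟨⟨g, ⟨h1, fun x hx => h2 ⟨x, hx⟩⟩, s2 h1⟩, LinearEquiv.ext fun x => Subtype.ext (h3 x)⟩
  · refine le_antisymm ?_ fun α hα => ?_
    · rintro _ ⟨g, rfl⟩ x; exact Subtype.ext (g.2.1 x)
    · let i : (LinearMap.range T).comap (LinearMap.ker T).subtype →ₗ[F] LinearMap.range T := (LinearMap.ker T).subtype.restrict fun _ h => h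
      obtain ⟨β, hβ⟩ := Submodule.exists_linearEquiv_restrict_eq (LinearEquiv.ofInjectiveEndo (((Submodule.subtype _ ∘ₗ α.toLinearMap ∘ₗ i).codRestrict
        (LinearMap.ker T) fun x => (congrArg Subtype.val (hα (i x))).symm.trans (by
          rw [show dT T (i x) = 0 from Subtype.ext x.1.2, map_zero]; rfl)).codRestrict _ fun x => (α (i x)).2) fun x y e => Subtype.ext (Subtype.ext
        (congrArg Subtype.val (α.injective (a₁ := i x) (a₂ := i y) (Subtype.ext (congrArg (·.1.1) e :))) :)))
      obtain ⟨g, h1, h2, -⟩ := exists_ext T hα β fun x y e => by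
        have : x = i ⟨y, show y.1 ∈ _ from e ▸ x.2⟩ := Subtype.ext e
        rw [this]; exact congrArg Subtype.val (hβ ⟨y, _⟩)
      exact ⟨⟨g, h1, s1 h1⟩, LinearEquiv.ext fun x => Subtype.ext (h2 x)⟩

theorem card_comm [Fintype F] (n : ℕ) : ∀ {V : Type u} [AddCommGroup V] [Module F V] [FiniteDimensional F V] {T : End F V} {μ : Multiset ℕ},
    JE T μ → finrank F V = μ.sum → (∀ a ∈ μ, a ≤ n) → ∀ {s : ℕ → ℕ}, (∀ i, (μ.filter (i + 1 < ·)).card = s i) → Nat.card (H5.comm T) =
    ∏ i ∈ range n, Fintype.card F ^ (2 * (s i * μ.count (i + 1)) + s i ^ 2) * ∏ j ∈ range (μ.count (i + 1)), (Fintype.card F ^ μ.count (i + 1) - Fintype.card F ^ j) := by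
  induction n with
  | zero =>
    intro V _ _ _ T μ _ e h _ _
    rw [Multiset.sum_eq_zero fun a ha => Nat.le_zero.1 (h a ha)] at e
    have := finrank_zero_iff.1 e
    exact Nat.card_unique
  | succ n ih =>
    intro V _ _ _ T μ j e b s hs
    rw [card_step j (hs 0), prod_range_succ', ih j.dT (j.finrank_range e) (by simpa using b) (s := fun i => s (i + 1)) fun i => (filter_pred μ i).trans (hs _)]
    simp only [count_pred]

/-- Order of the centraliser in GL of a unipotent matrix of given Jordan type over the field with q elements: if the type has a_i blocks of size i (all block sizes at least 1), the invertible matrices commuting with it number q^γ · Π_i |GL_(a_i)(q)| with γ = 2 Σ_(i<j) i a_i a_j + Σ_i (i − 1) a_i² (a group of order q^γ extended by Π GL_(a_i)(q)). -/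
theorem result {F : Type*} [Field F] [Fintype F] {q : ℕ} (hF : Fintype.card F = q) {t : ℕ} (d : Fin t → ℕ) (hd : ∀ k, 1 ≤ d k) : Nat.card {g : GL ((k : Fin t) × Fin (d k)) F // (g : Matrix ((k : Fin t) × Fin (d k)) ((k : Fin t) × Fin (d k)) F) * Cfsg.jordanTypeMatrix d F = Cfsg.jordanTypeMatrix d F * (g : Matrix ((k : Fin t) × Fin (d k)) ((k : Fin t) × Fin (d k)) F)} = q ^ (2 * (∑ i ∈ Finset.range (Finset.univ.sup d + 1), ∑ j ∈ Finset.range (Finset.univ.sup d + 1), if i < j then i * (Finset.univ.filter (fun k : Fin t => d k = i)).card * (Finset.univ.filter (fun k : Fin t => d k = j)).card else 0) + ∑ i ∈ Finset.range (Finset.univ.sup d + 1), (i - 1) * (Finset.univ.filter (fun k : Fin t => d k = i)).card ^ 2) * ∏ i ∈ Finset.range (Finset.univ.sup d + 1), ∏ j : Fin ((Finset.univ.filter (fun k : Fin t => d k = i)).card), (q ^ (Finset.univ.filter (fun k : Fin t => d k = i)).card - q ^ (j : ℕ)) := by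
  subst hF
  have b : ∀ a ∈ univ.val.map d, a ≤ univ.sup d := by simpa using fun k => le_sup (f := d) (mem_univ k)
  rw [Nat.card_congr (glEquiv.toEquiv.subtypeEquiv (q := (· ∈ H5.comm (toLin' (jordanTypeMatrix d F - 1)))) fun g => ?_)]
  · refine (card_comm (univ.sup d) (jt_iff_je.1 (jt_jordan d)) (by simp [List.sum_ofFn]) b fun i => card_filter_eq b (i + 1)).trans ?_
    simp only [fun c => Fin.prod_univ_eq_prod_range fun j => c - Fintype.card F ^ j, ← count_map_univ]
    rw [← sum_gamma, prod_range_succ', Multiset.count_eq_zero.2 (by simpa using fun k => Nat.one_le_iff_ne_zero.1 (hd k)), ← prod_pow_eq_pow_sum,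
      prod_range_zero, mul_one, prod_mul_distrib]
  · refine ⟨fun h x => ?_, fun h => matrix_ext_mulVec fun x => by simpa [sub_mulVec, mulVec_sub] using h x⟩
    simp [sub_mulVec, mulVec_sub, h]


end Cfsg.Agent.S2581
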