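import Cfsg.Statements.S2582
import Cfsg.Agent.H5.Uni

set_option autoImplicit false
open Cfsg

namespace Cfsg.Agent.S2582

open H5 H5.Form Module Matrix

/-- Which unipotent Jordan types occur in the finite symplectic group: over a finite field, a unipotent matrix with Jordan block sizes d_1, …, d_t (sum 2m, all at least 1) is similar to an element of Sp_2m(F) if and only if every odd block size occurs an even number of times. -/
theorem result {F : Type*} [Field F] [Fintype F] {m t : ℕ} (d : Fin t → ℕ) (hd : ∀ k, 1 ≤ d k) (hsum : ∑ k, d k = 2 * m) : (∃ e : ((k : Fin t) × Fin (d k)) ≃ (Fin m ⊕ Fin m), ∃ A : Matrix.symplecticGroup (Fin m) F, IsConj (Matrix.reindex e e (Cfsg.jordanTypeMatrix d F)) (A : Matrix (Fin m ⊕ Fin m) (Fin m ⊕ Fin m) F)) ↔ ∀ j : ℕ, Odd j → Even (Finset.univ.filter (fun k : Fin t => d k = j)).card := by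
  simp only [jordan_conj_iff, ← count_map_univ]
  refine ⟨fun ⟨_, A, h⟩ j hj => (sympF_nondeg m).even_count_alt (fun _ => rfl) (symp_self _) (spEquiv m A).2 h hj, fun h => ?_⟩
  obtain ⟨U, _, _, _, Ψ, g, h1, h2, h3, h4⟩ := realU_of (κ := .symp F) (fun _ => rfl) (by simp) (P := Even)
    (fun a ⟨k, hk⟩ => hk ▸ two_mul k ▸ realU_symp k) fun j hj => h j (Nat.not_even_iff_odd.1 hj)
  obtain ⟨e, he⟩ := symp_iso h1 (sympF_nondeg m) (by simpa [h4, two_mul, List.sum_ofFn] using hsum)
  refine ⟨Fintype.equivOfCardEq (by simpa [two_mul] using hsum), (spEquiv m).symm (he.isomCongr ⟨g, h2⟩), h3.congr e fun x => ?_⟩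
  simp [spEquiv_symm_mulVec, IsIso.isomCongr]


end Cfsg.Agent.S2582
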