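import Cfsg.Statements.S2583
import Cfsg.Agent.H5.Uni

set_option autoImplicit false
open Cfsg

namespace Cfsg.Agent.S2583

open H5 H5.Form Module Matrix

/-- Which unipotent Jordan types occur in a finite orthogonal group in odd characteristic: over a finite field of odd order, a unipotent matrix with Jordan block sizes d_1, …, d_t (sum n, all at least 1) is similar to an isometry of some quadratic form on F^n with non-degenerate polar form if and only if every even block size occurs an even number of times. -/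
theorem result {F : Type*} [Field F] [Fintype F] (h2 : (2 : F) ≠ 0) {n t : ℕ} (d : Fin t → ℕ) (hd : ∀ k, 1 ≤ d k) (hsum : ∑ k, d k = n) : (∃ Q : QuadraticForm F (Fin n → F), (QuadraticMap.polarBilin Q).Nondegenerate ∧ ∃ e : ((k : Fin t) × Fin (d k)) ≃ Fin n, ∃ A : ↥(Cfsg.isometryGroup F ⇑Q), IsConj (Matrix.reindex e e (Cfsg.jordanTypeMatrix d F)) ((A : Matrix.GeneralLinearGroup (Fin n) F) : Matrix (Fin n) (Fin n) F)) ↔ ∀ j : ℕ, Even j → 0 < j → Even (Finset.univ.filter (fun k : Fin t => d k = j)).card := by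
  simp only [jordan_conj_iff, ← count_map_univ]
  refine ⟨fun ⟨Q, hQ, _, A, h⟩ j hj => (ofQuad_nondeg hQ).even_count_orth h2 (oEquiv (ofQuad Q) A).2 h hj, fun h => ?_⟩
  obtain ⟨U, _, _, _, Ψ, g, h1, h2, h3, h4⟩ := realU_of (κ := .orth F) (μ := Finset.univ.val.map d) (fun _ => rfl) (by simp) (P := Odd)
    (fun a ⟨k, hk⟩ => hk ▸ realU_orth h2 k) fun j hj => j.eq_zero_or_pos.elim (fun e => by
      rw [e, Multiset.count_eq_zero.2 (by simpa using fun k => Nat.one_le_iff_ne_zero.1 (hd k))]; simp) (h j (Nat.not_odd_iff_even.1 hj))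
  obtain ⟨Q, k1, A, k2⟩ := exists_quadratic h1 h2 h3 (h4.trans hsum)
  exact ⟨Q, k1, Fintype.equivOfCardEq (by simpa using hsum), A, k2⟩


end Cfsg.Agent.S2583
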