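import Cfsg.Statements.S2584
import Cfsg.Agent.H5.Uni

set_option autoImplicit false
open Cfsg

namespace Cfsg.Agent.S2584

open H5 H5.Form Module Matrix

/-- Which unipotent Jordan types occur in a finite orthogonal group in characteristic two: over a finite field of characteristic 2 and in even dimension 2m, a unipotent matrix with Jordan block sizes d_1, …, d_t (sum 2m, all at least 1) is similar to an isometry of some quadratic form on F^(2m) with non-degenerate polar form if and only if every odd block size occurs an even number of times (the same condition as for the symplectic group, which contains these orthogonal groups). -/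
theorem result {F : Type*} [Field F] [Fintype F] [CharP F 2] {m t : ℕ} (d : Fin t → ℕ) (hd : ∀ k, 1 ≤ d k) (hsum : ∑ k, d k = 2 * m) : (∃ Q : QuadraticForm F (Fin (2 * m) → F), (QuadraticMap.polarBilin Q).Nondegenerate ∧ ∃ e : ((k : Fin t) × Fin (d k)) ≃ Fin (2 * m), ∃ A : ↥(Cfsg.isometryGroup F ⇑Q), IsConj (Matrix.reindex e e (Cfsg.jordanTypeMatrix d F)) ((A : Matrix.GeneralLinearGroup (Fin (2 * m)) F) : Matrix (Fin (2 * m)) (Fin (2 * m)) F)) ↔ ∀ j : ℕ, Odd j → Even (Finset.univ.filter (fun k : Fin t => d k = j)).card := by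
  simp only [jordan_conj_iff, ← count_map_univ]
  refine ⟨fun ⟨Q, hQ, _, A, h⟩ j hj => (ofQuad_nondeg hQ).even_count_alt (fun _ => rfl) (fun x => by
    rw [orth_self, CharTwo.two_eq_zero, zero_mul]) (oEquiv (ofQuad Q) A).2 h hj, fun h => ?_⟩
  obtain ⟨U, _, _, _, Ψ, g, h1, h2, h3, h4⟩ := realU_of (κ := .symp F) (fun _ => rfl) (by simp) (P := Even)
    (fun a ⟨k, hk⟩ => hk ▸ two_mul k ▸ realU_symp k) fun j hj => h j (Nat.not_even_iff_odd.1 hj)
  obtain ⟨Φ, k1, k2⟩ := dye h1 h2
  obtain ⟨Q, k1, A, k2⟩ := exists_quadratic (fun y hy => h1 y fun x => (k1 x y).symm.trans (hy x)) k2 h3 (h4.trans hsum)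
  exact ⟨Q, k1, Fintype.equivOfCardEq (by simpa using hsum), A, k2⟩


end Cfsg.Agent.S2584
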