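import Cfsg.Statements.S2585
import Cfsg.Agent.H5.Kinds

set_option autoImplicit false
open Cfsg

namespace Cfsg.Agent.S2585

open H5 Matrix

/-- Over a finite field of characteristic two every element of the symplectic group is orthogonal for a suitable quadratic form: for each A in Sp_2m(F) there is a quadratic form Q on F^(2m) whose polar form is the alternating form defining Sp_2m(F) (so Q is non-degenerate) and which A preserves. Equivalently, for m ≥ 1, Sp_2m(F) is the union of the conjugates of its two orthogonal subgroups O⁺_2m(F) and O⁻_2m(F). -/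
theorem result {F : Type*} [Field F] [Fintype F] [CharP F 2] {m : ℕ} (A : Matrix.symplecticGroup (Fin m) F) : ∃ Q : QuadraticForm F (Fin m ⊕ Fin m → F), (∀ u v : Fin m ⊕ Fin m → F, QuadraticMap.polar ⇑Q u v = Cfsg.sympForm m F u v) ∧ ∀ v : Fin m ⊕ Fin m → F, Q ((A : Matrix (Fin m ⊕ Fin m) (Fin m ⊕ Fin m) F).mulVec v) = Q v := by
  have h2 : (2 : F) = 0 := CharP.cast_eq_zero F 2
  let Q : QuadraticForm F (Fin m ⊕ Fin m → F) := (plusF F m).toQuad
  have hQ : ∀ u v, QuadraticMap.polar Q u v = sympForm m F u v := fun u v => by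
    rw [Form.coe_toQuad, Form.orth_polar, plusF_B, sympForm_eq]
    exact Finset.sum_congr rfl fun i _ => by linear_combination (u (.inl i) * v (.inr i)) * h2
  have hA := (mem_symplectic_iff m A.1).1 A.2
  have : PerfectRing F 2 := .ofFiniteOfIsReduced 2 F
  let φ := frobeniusEquiv F 2
  have φs : ∀ x, φ x = x * x := fun x => (frobenius_def 2 x).trans (sq x)
  let l : (Fin m ⊕ Fin m → F) →ₗ[F] F :=
    { toFun := fun x => φ.symm (Q (A.1 *ᵥ x) - Q x)
      map_add' := fun x y => by
        rw [← map_add, mulVec_add, QuadraticMap.map_add Q, QuadraticMap.map_add Q x, hQ, hQ, hA]; congr 1; ring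
      map_smul' := fun c x => φ.injective (by simp [mulVec_smul, QuadraticMap.map_smul, φs c]; ring) }
  obtain ⟨μ, hμ⟩ : l ∈ LinearMap.range (A.1.mulVecLin - LinearMap.id).dualMap := by
    rw [LinearMap.range_dualMap_eq_dualAnnihilator_ker, Submodule.mem_dualAnnihilator]
    intro x hx
    have : A.1 *ᵥ x = x := by simpa [sub_eq_zero] using hx
    simp [l, this]
  refine ⟨Q + QuadraticMap.linMulLin μ μ, fun u v => ?_, fun v => ?_⟩
  · rw [← hQ]; simp only [QuadraticMap.polar, QuadraticMap.add_apply, QuadraticMap.linMulLin_apply, map_add]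
    linear_combination (μ u * μ v) * h2
  · have := congrArg φ (LinearMap.congr_fun hμ v)
    simp only [l, LinearMap.coe_mk, AddHom.coe_mk, RingEquiv.apply_symm_apply, LinearMap.dualMap_apply, LinearMap.sub_apply,
      mulVecLin_apply, LinearMap.id_apply, map_sub μ] at this
    rw [φs] at this
    simp only [QuadraticMap.add_apply, QuadraticMap.linMulLin_apply]
    linear_combination (μ (A.1 *ᵥ v) * μ (A.1 *ᵥ v) - μ (A.1 *ᵥ v) * μ v) * h2 - this


end Cfsg.Agent.S2585
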