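import Cfsg.Statements.S2586
import Cfsg.Agent.H5.Sim2

set_option autoImplicit false
open Cfsg

namespace Cfsg.Agent.S2586

open H5 Matrix

/-- Over a finite field, every element of the symplectic group Sp_2m(F) is conjugate by an invertible matrix to its inverse. -/
theorem result {F : Type*} [Field F] [Finite F] {m : ℕ} (A : Matrix.symplecticGroup (Fin m) F) : IsConj (A : Matrix (Fin m ⊕ Fin m) (Fin m ⊕ Fin m) F) ((A⁻¹ : Matrix.symplecticGroup (Fin m) F) : Matrix (Fin m ⊕ Fin m) (Fin m ⊕ Fin m) F) := by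
  refine (isConj_transpose A.1).trans ?_
  rw [SymplecticGroup.coe_inv]
  exact ⟨Units.mkOfMulEqOne (J (Fin m) F) (-J (Fin m) F) (by simp [J_squared]), by simp [SemiconjBy, mul_assoc, J_squared]⟩


end Cfsg.Agent.S2586
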