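import Cfsg.Statements.S2588
import Cfsg.Agent.H5.Adj
import Cfsg.Agent.H5.Para

set_option autoImplicit false
open Cfsg

namespace Cfsg.Agent.S2588

open H5 Matrix

/-- An invertible matrix A over the field with q² elements is conjugate in GL_n(q²) to an element of the general unitary group GU_n(q) (isometries of the Hermitian form Σ u_i v_i^q) if and only if A is similar to the inverse transpose of its entrywise q-th power (A ~ A^(−qT), the image of A under the map sending a matrix to the inverse transpose of its entrywise q-th power — inverse transpose composed with the field automorphism — whose fixed points form GU_n(q)). -/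
theorem result {K : Type*} [Field K] [Fintype K] {q n : ℕ} (hK : Fintype.card K = q ^ 2) (A : GL (Fin n) K) : (∃ B : ↥(Cfsg.GU n K q), IsConj A (B : GL (Fin n) K)) ↔ IsConj (A : Matrix (Fin n) (Fin n) K) (((A : Matrix (Fin n) (Fin n) K).map (fun x : K => x ^ q)).transpose)⁻¹ := by
  refine ⟨fun ⟨B, h⟩ => ?_, fun h => (exists_gu hK h).imp fun B h => isConj_GL.2 h⟩
  let φ := invT.toMonoidHom.comp (GeneralLinearGroup.map (n := Fin n) (conj hK))
  have e : ∀ g, (φ g).1 = ((g.1.map (conj hK))ᵀ)⁻¹ := fun g => by rw [← transpose_nonsing_inv]; exact congrArg transpose (coe_units_inv (GeneralLinearGroup.map (conj hK) g))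
  have : φ B = B := Units.ext ((e _).trans (inv_eq_right_inv (matrix_ext_mulVec fun v => (hermF_nondeg n hK).ext_left fun x => by
    rw [← mulVec_mulVec, herm_adj, one_mulVec]; exact (guEquiv n hK B).2.1 v x)))
  exact e A ▸ isConj_GL.1 (h.trans (this ▸ (φ.map_isConj h).symm))


end Cfsg.Agent.S2588
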