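import Cfsg.Statements.S2589
import Cfsg.Agent.H5.Adj

set_option autoImplicit false
open Cfsg

namespace Cfsg.Agent.S2589

open H5 H5.Form Matrix

/-- Two semisimple elements of the finite symplectic group Sp_2m(F) (elements of order prime to the characteristic) are conjugate in Sp_2m(F) if and only if they are conjugate in GL_2m(F). -/
theorem result {F : Type*} [Field F] [Fintype F] {p : ℕ} [Fact p.Prime] [CharP F p] {m : ℕ} (A B : Matrix.symplecticGroup (Fin m) F) (hA : (orderOf A).Coprime p) : IsConj A B ↔ IsConj (A : Matrix (Fin m ⊕ Fin m) (Fin m ⊕ Fin m) F) (B : Matrix (Fin m ⊕ Fin m) (Fin m ⊕ Fin m) F) := by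
  refine ⟨fun h => isConj_GL.1 ((spToGL m).map_isConj h), fun h => ?_⟩
  obtain ⟨e, he⟩ := isConj_iff.1 ((isConj_glEquiv (g := spToGL m A) (h := spToGL m B)).2 h)
  exact (isConj_congr (spEquiv m)).1 (isConj_iff_eqv.2 (eqv_symp (sympF_nondeg m) (spEquiv m A).2 (spEquiv m B).2 (sympF_nondeg m) e
    (fun x => LinearEquiv.congr_fun (mul_inv_eq_iff_eq_mul.1 he) x)
    (mt (CharP.cast_eq_zero_iff F p _).1 ((Nat.Prime.coprime_iff_not_dvd Fact.out).1 hA.symm))
    (congrArg Subtype.val ((map_pow (spEquiv m) A _).symm.trans (by rw [pow_orderOf_eq_one, map_one])))))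


end Cfsg.Agent.S2589
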