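import Cfsg.Statements.S2590
import Cfsg.Agent.H5.Adj

set_option autoImplicit false
open Cfsg

namespace Cfsg.Agent.S2590

open H5 H5.Form Matrix

/-- Two semisimple elements of odd order of a finite orthogonal group (isometry group of a quadratic form on F^n with non-degenerate polar form, F finite of characteristic p; the elements have odd order prime to p) are conjugate in the orthogonal group if and only if they are conjugate in GL_n(F). -/
theorem result {F : Type*} [Field F] [Fintype F] {p : ℕ} [Fact p.Prime] [CharP F p] {n : ℕ} (Q : QuadraticForm F (Fin n → F)) (hQ : (QuadraticMap.polarBilin Q).Nondegenerate) (A B : ↥(Cfsg.isometryGroup F ⇑Q)) (hodd : Odd (orderOf A)) (hA : (orderOf A).Coprime p) : IsConj A B ↔ IsConj ((A : Matrix.GeneralLinearGroup (Fin n) F) : Matrix (Fin n) (Fin n) F) ((B : Matrix.GeneralLinearGroup (Fin n) F) : Matrix (Fin n) (Fin n) F) := by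
  refine ⟨fun h => isConj_GL.1 ((Subgroup.subtype _).map_isConj h), fun h => ?_⟩
  obtain ⟨e, he⟩ := isConj_iff.1 (isConj_glEquiv.2 h)
  exact (isConj_congr (oEquiv (ofQuad Q)) (a := A) (b := B)).1 (isConj_iff_eqv.2 (eqv_odd (ofQuad_nondeg hQ) (oEquiv (ofQuad Q) A).2
    (oEquiv (ofQuad Q) B).2 (ofQuad_nondeg hQ) e
    (fun x => LinearEquiv.congr_fun (mul_inv_eq_iff_eq_mul.1 he) x)
    (mt (CharP.cast_eq_zero_iff F p _).1 ((Nat.Prime.coprime_iff_not_dvd Fact.out).1 hA.symm))
    (congrArg Subtype.val ((map_pow (oEquiv (ofQuad Q)) A _).symm.trans (by erw [pow_orderOf_eq_one, map_one]))) hodd ⟨.refl _ _, isIso_of_mem (one_mem _)⟩))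


end Cfsg.Agent.S2590
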