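import Cfsg.Statements.S2592
import Cfsg.Agent.H5.Cay
import Cfsg.Agent.H5.Inv3

set_option autoImplicit false
open Cfsg

namespace Cfsg.Agent.S2592

open H5 H5.Form Module Matrix Finset
theorem reg {F : Type*} [Field F] {m : ℕ} (hm : 1 ≤ m) (u : symplecticGroup (Fin m) F) (hnil : (u.1 - 1) ^ (2 * m) = 0) (hreg : (u.1 - 1).rank = 2 * m - 1) :
    JE (nl (spEquiv m u).1) {2 * m} := by
  have e : nl (spEquiv m u).1 = toLin' (u.1 - 1) := by ext; simp
  refine e ▸ JE.reg (by simp [two_mul]) (by rw [← toLin'_pow, hnil, map_zero]) ?_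
  have := rank_add_ker (u.1 - 1)
  rw [hreg, Fintype.card_sum, Fintype.card_fin] at this
  exact Nat.le_of_add_le_add_left (this.trans_le (by omega))

/-- Over a finite field with q elements, q odd, the centraliser in Sp_2m(F) (m ≥ 1) of a regular unipotent element (u − 1 nilpotent of rank 2m − 1) has order 2 q^m. -/
theorem result {F : Type*} [Field F] [Fintype F] {q : ℕ} (hF : Fintype.card F = q) (hq : Odd q) {m : ℕ} (hm : 1 ≤ m) (u : Matrix.symplecticGroup (Fin m) F) (hnil : ((u : Matrix (Fin m ⊕ Fin m) (Fin m ⊕ Fin m) F) - 1) ^ (2 * m) = 0) (hreg : ((u : Matrix (Fin m ⊕ Fin m) (Fin m ⊕ Fin m) F) - 1).rank = 2 * m - 1) : Nat.card ↥(Subgroup.centralizer ({u} : Set ↥(Matrix.symplecticGroup (Fin m) F))) = 2 * q ^ m := by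
  have h2 : (2 : F) ≠ 0 := two_ne_zero_of_odd (hF ▸ hq)
  have hn : finrank F (Fin m ⊕ Fin m → F) = ({2 * m} : Multiset ℕ).sum := by simp [two_mul]
  obtain ⟨T, c, ad, jT⟩ := Form.exists_cay (η := -1) (α := 1) (spEquiv m u).2 (reg hm u hnil hreg) hn (by simp) (by simpa [one_add_one_eq_two] using h2)
  obtain ⟨m, rfl⟩ := Nat.exists_eq_add_of_le' hm
  rw [card_centralizer_congr (spEquiv _), c.card_centralizer]
  refine (card_unip (2 * m + 2) (altK (.symp F) (.orth F)) (fun i => (dual_so h2).alt i) (Φ := sympF F (m + 1))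
    (fun i => if i = 2 * m + 1 then 2 else 1) (sympF_nondeg _) ad jT hn (by simp; omega) ?_ (s := fun i => if i < 2 * m + 1 then 1 else 0)
    fun i => by simp [Multiset.filter_singleton]; split_ifs <;> simp <;> omega).trans ?_
  swap
  · rw [prod_range_succ, prod_congr rfl (g := fun i => if Even i then q else 1) fun i hi => ?_, mul_comm]
    · congr 1
      · simp
      · clear * -
        induction m with
        | zero => simp
        | succ m ih => rw [show 2 * (m + 1) + 1 = 2 * m + 1 + 1 + 1 by ring, prod_range_succ, prod_range_succ, ih]; simp [parity_simps, pow_succ]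
    · have := mem_range.1 hi
      rw [if_pos this, if_neg this.ne, Multiset.count_singleton, if_neg (by omega), altK_eq]
      split_ifs <;> simp [card_ker_symp, card_ker_orth, hF]
  · intro i _
    split_ifs with h
    · rw [altK_eq, if_neg (by simp [h]), h]
      intro W _ _ _ Ψ k e
      rw [k.card_isom_line (e.trans (Multiset.count_singleton_self _))]
      exact card_sq_eq_one h2
    · exact fun W _ _ _ Ψ _ e => card_isom_zero (by rw [e, Multiset.count_singleton, if_neg (by omega)])


end Cfsg.Agent.S2592
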