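import Cfsg.Statements.S2676
import Cfsg.Agent.H5.UCl

set_option autoImplicit false
open Classical
open Cfsg

namespace Cfsg.Agent.S2676

open H5 H5.Form Module Matrix Finset
theorem jt_iff {F : Type*} [Field F] {m : ℕ} (u : symplecticGroup (Fin m) F) (μ) : JT (u.1 - 1) μ ↔ JE (nl (spEquiv m u).1) μ := by
  rw [jt_iff_je, show nl (spEquiv m u).1 = toLin' (u.1 - 1) by ext; simp]

/-- Number of conjugacy classes of elements of order p in Sp_2m(q), q a power of the odd prime p: the classes correspond to the signed partitions of 2m — partitions with all parts at most p in which every odd part has even multiplicity, each even part size that occurs carrying a sign — other than the all-ones partition; so the count is the sum over such partitions of 2^(number of distinct even parts), minus one. -/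
theorem result {F : Type*} [Field F] [Fintype F] {p : ℕ} [Fact p.Prime] [CharP F p] (hp : p ≠ 2) (m : ℕ) : Nat.card {C : ConjClasses ↥(Matrix.symplecticGroup (Fin m) F) // ∃ g : Matrix.symplecticGroup (Fin m) F, ConjClasses.mk g = C ∧ orderOf g = p} = (∑ μ ∈ Finset.univ.filter (fun μ : Nat.Partition (2 * m) => (∀ a ∈ μ.parts, a ≤ p) ∧ ∀ j : ℕ, Odd j → Even (μ.parts.count j)), 2 ^ ((μ.parts.toFinset.filter (fun j : ℕ => Even j)).card)) - 1 := by
  have h2 : (2 : F) ≠ 0 := fun h => hp ((Nat.prime_dvd_prime_iff_eq Fact.out Nat.prime_two).1 ((CharP.cast_eq_zero_iff F p 2).1 h))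
  have e : Fintype.card (Fin m ⊕ Fin m) = 2 * m := by simp [two_mul]
  rw [card_unip_symp h2 (sympF_nondeg m) (N := 2 * m) (by simp [two_mul]) (fun μ => (∀ a ∈ μ.parts, a ≤ p) ∧ ¬ ∀ a ∈ μ.parts, a ≤ 1) (spEquiv m) fun g => by
    rw [orderOf_eq_iff_jt p (symplecticGroup (Fin m) F).subtype Subtype.val_injective, e]
    simp [← jt_iff]]
  let o : (2 * m).Partition := ⟨Multiset.replicate (2 * m) 1, fun h => by simp [Multiset.eq_of_mem_replicate h], by simp⟩
  have k : ∀ μ : (2 * m).Partition, (∀ a ∈ μ.parts, a ≤ 1) ↔ μ = o := fun μ => ⟨fun h => Nat.Partition.ext (by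
    have := Multiset.eq_replicate_card.2 fun a ha => le_antisymm (h a ha) (μ.parts_pos ha)
    have e := (congrArg Multiset.sum this).symm.trans μ.parts_sum
    exact this.trans (congrArg (Multiset.replicate · 1) (by simpa using e))), by rintro rfl a h; exact (Multiset.eq_of_mem_replicate h).le⟩
  symm
  rw [← sum_erase_add (a := o) _ _ (mem_filter.2 ⟨mem_univ _, fun a h => ((k o).2 rfl a h).trans (Fact.out : p.Prime).one_le, fun j _ => by
    simp only [o, Multiset.count_replicate]; split_ifs <;> simp⟩), (filter_eq_empty_iff (s := o.parts.toFinset)).2 fun a h => by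
    simp [Multiset.eq_of_mem_replicate (Multiset.mem_toFinset.1 h)], card_empty, pow_zero, Nat.add_sub_cancel]
  refine sum_congr ?_ fun _ _ => by congr
  ext; simp only [k, mem_filter, mem_erase, mem_univ]; tauto


end Cfsg.Agent.S2676
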