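import Cfsg.Statements.S2591
import Cfsg.Agent.S2676
import Cfsg.Agent.S2592

set_option autoImplicit false
open Cfsg

namespace Cfsg.Agent.S2591

open H5 H5.Form Module Matrix Finset

/-- Over a finite field of odd order and for m ≥ 1, the regular unipotent elements of Sp_2m(F) (u − 1 nilpotent of rank 2m − 1, a single Jordan block) form exactly two conjugacy classes of Sp_2m(F) (one class under the similarity group, which splits in two). -/
theorem result {F : Type*} [Field F] [Fintype F] {q : ℕ} (hF : Fintype.card F = q) (hq : Odd q) {m : ℕ} (hm : 1 ≤ m) : Nat.card {C : ConjClasses ↥(Matrix.symplecticGroup (Fin m) F) // ∃ u : Matrix.symplecticGroup (Fin m) F, ConjClasses.mk u = C ∧ ((u : Matrix (Fin m ⊕ Fin m) (Fin m ⊕ Fin m) F) - 1) ^ (2 * m) = 0 ∧ ((u : Matrix (Fin m ⊕ Fin m) (Fin m ⊕ Fin m) F) - 1).rank = 2 * m - 1} = 2 := by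
  have h2 : (2 : F) ≠ 0 := two_ne_zero_of_odd (hF ▸ hq)
  have e : Fintype.card (Fin m ⊕ Fin m) = 2 * m := by simp [two_mul]
  let o : (2 * m).Partition := ⟨{2 * m}, by simp; omega, by simp⟩
  rw [card_unip_symp h2 (sympF_nondeg m) (N := 2 * m) (by simp [two_mul]) (· = o) (spEquiv m) fun g => ⟨fun h => ⟨o, rfl, S2592.reg hm g h.1 h.2⟩, ?_⟩,
    sum_eq_single o (fun μ h ne => by simp [ne] at h) fun h => (h (by
      simp only [mem_filter, mem_univ, true_and]
      intro j hj
      rw [Multiset.count_singleton, if_neg (by rintro rfl; exact absurd hj (by simp))]; simp)).elim]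
  · simp [o, filter_singleton]
  · rintro ⟨_, rfl, h⟩
    rw [← S2676.jt_iff] at h
    have := h 1
    refine ⟨(h.isNilpotent (by simp [o, two_mul])).2 (by simp [o]), ?_⟩
    simp only [o, pow_one, e, Multiset.map_singleton, Multiset.sum_singleton] at this
    omega


end Cfsg.Agent.S2591
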