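import Cfsg.Statements.S2680
import Cfsg.Agent.H5.Inv3

set_option autoImplicit false
open Cfsg

namespace Cfsg.Agent.S2680

open H5 H5.Form Module

/-- Centraliser order of an involution t of Sp_2m(q), q even, with s = rank(t − 1) odd (type b_s): |C(t)| = q^(2ms − (3s² − s)/2) · |Sp_(s−1)(q)| · |Sp_(2m−2s)(q)|, where |Sp_2k(q)| = q^(k²) Π_(i=1)^k (q^(2i) − 1). -/
theorem result {F : Type*} [Field F] [Fintype F] [CharP F 2] {q : ℕ} (hF : Fintype.card F = q) {m s : ℕ} (t : Matrix.symplecticGroup (Fin m) F) (ht : t ^ 2 = 1) (hs : ((t : Matrix (Fin m ⊕ Fin m) (Fin m ⊕ Fin m) F) - 1).rank = s) (hodd : Odd s) : Nat.card ↥(Subgroup.centralizer ({t} : Set ↥(Matrix.symplecticGroup (Fin m) F))) = q ^ (2 * m * s - (3 * s ^ 2 - s) / 2) * ((q : ℕ) ^ (((s - 1) / 2) ^ 2) * ∏ i : Fin ((s - 1) / 2), (q ^ (2 * ((i : ℕ) + 1)) - 1)) * ((q : ℕ) ^ ((m - s) ^ 2) * ∏ i : Fin (m - s), (q ^ (2 * ((i : ℕ) + 1)) - 1))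 := by
  have h2 := CharTwo.two_eq_zero (R := F)
  have t2 : (spEquiv m t).1 * (spEquiv m t).1 = 1 := by rw [← Subgroup.coe_mul, ← map_mul, ← sq, ht, map_one]; rfl
  rw [rank_sub_one (spEquiv_apply m t)] at hs
  obtain ⟨β, h⟩ := (c2_symp h2).exists_bet (sympF_nondeg m) (spEquiv m t).2 t2
  obtain ⟨a, rfl⟩ := hodd
  obtain ⟨r, rfl⟩ : ∃ r, m = 2 * a + 1 + r := Nat.exists_eq_add_of_le (by
    have := (c2_symp h2).two_mul_le (sympF_nondeg m) (spEquiv m t).2 t2; simp [hs] at this; omega)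
  rw [card_centralizer_congr (spEquiv _), (sympF_nondeg _).card_cent_symp hF h2 t2 hs (r := r) (by simp [two_mul]) h, (card_bisom h2 hF h.1).2.2 hs,
    show (2 * a + 1 - 1) / 2 = a by omega, Nat.add_sub_cancel_left, spOrd, spOrd, Finset.prod_range, Finset.prod_range,
    show 2 * (2 * a + 1 + r) * (2 * a + 1) - (3 * (2 * a + 1) ^ 2 - (2 * a + 1)) / 2 = (2 * a + 1) * (2 * r) + (2 * a + 1) * (2 * a + 1 - 1) / 2 + (2 * a + 1) by
      ring_nf; simp only [Nat.add_sub_cancel_left]; ring_nf; omega]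
  ring


end Cfsg.Agent.S2680
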