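import Cfsg.Statements.S2594
import Cfsg.Agent.H5.Inv3
import Cfsg.Agent.S2680

set_option autoImplicit false
open Cfsg

namespace Cfsg.Agent.S2594

open H5 H5.Form Module

/-- Over a finite field with q elements, q even, an element t of Sp_2m(F) with rank(t − 1) = 1 (a symplectic transvection) has centraliser in Sp_2m(F) of order q^(2m−1) · |Sp_(2m−2)(q)| = q^(2m−1) · q^((m−1)²) · Π_(i=1)^(m−1) (q^(2i) − 1). -/
theorem result {F : Type*} [Field F] [Fintype F] [CharP F 2] {q : ℕ} (hF : Fintype.card F = q) {m : ℕ} (hm : 1 ≤ m) (t : Matrix.symplecticGroup (Fin m) F) (ht : ((t : Matrix (Fin m ⊕ Fin m) (Fin m ⊕ Fin m) F) - 1).rank = 1) : Nat.card ↥(Subgroup.centralizer ({t} : Set ↥(Matrix.symplecticGroup (Fin m) F))) = q ^ (2 * m - 1) * (q ^ ((m - 1) ^ 2) * ∏ i : Fin (m - 1), (q ^ (2 * ((i : ℕ) + 1)) - 1)) := by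
  have k := rank_sub_one (spEquiv_apply m t)
  rw [ht] at k
  rw [S2680.result hF t ((spEquiv m).injective (Subtype.ext ?_)) ht odd_one]
  · simp
  rw [sq, map_mul, map_one]
  refine (c2_symp CharTwo.two_eq_zero).quad_iff.1 (((sympF_nondeg m).perp_range_sub (spEquiv m t).2).le.trans' fun u hu v hv => ?_)
  obtain ⟨w, -, h⟩ := finrank_eq_one_iff'.1 k.symm
  obtain ⟨a, h1⟩ := h ⟨u, hu⟩
  obtain ⟨b, h2⟩ := h ⟨v, hv⟩
  rw [show u = _ from (congrArg Subtype.val h1).symm, show v = _ from (congrArg Subtype.val h2).symm]; simp [-sympF_B, symp_self]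


end Cfsg.Agent.S2594
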