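import Cfsg.Statements.S2599
import Cfsg.Agent.H5.Tr

set_option autoImplicit false
open Cfsg

namespace Cfsg.Agent.S2599

open H5 H5.Form Module Matrix

/-- An irreducible invariant subspace of a semisimple isometry is non-degenerate or totally singular: let Q be a quadratic form on F^n (F finite of characteristic p) with non-degenerate polar form f, x an isometry of Q of order prime to p, and U a non-zero x-invariant subspace containing no x-invariant subspace other than 0 and U. Then U meets its f-orthogonal trivially, or Q vanishes on U, or p = 2, U is a line spanned by a non-singular vector and x fixes U pointwise. -/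
theorem result {F : Type*} [Field F] [Fintype F] {p : ℕ} [Fact p.Prime] [CharP F p] {n : ℕ} (Q : QuadraticForm F (Fin n → F)) (hQ : (QuadraticMap.polarBilin Q).Nondegenerate) (x : ↥(Cfsg.isometryGroup F ⇑Q)) (hx : (orderOf x).Coprime p) (U : Submodule F (Fin n → F)) (hU0 : U ≠ ⊥) (hUx : ∀ u ∈ U, ((x : Matrix.GeneralLinearGroup (Fin n) F) : Matrix (Fin n) (Fin n) F).mulVec u ∈ U) (hirr : ∀ W : Submodule F (Fin n → F), W ≤ U → (∀ w ∈ W, ((x : Matrix.GeneralLinearGroup (Fin n) F) : Matrix (Fin n) (Fin n) F).mulVec w ∈ W) → W = ⊥ ∨ W = U) : U ⊓ LinearMap.BilinForm.orthogonal (QuadraticMap.polarBilin Q) U = ⊥ ∨ (∀ u ∈ U, Q u = 0) ∨ (p = 2 ∧ Module.finrank F U = 1 ∧ (∃ u ∈ U, Q u ≠ 0) ∧ ∀ u ∈ U, ((x : Matrix.GeneralLinearGroup (Fin n) F) : Matrix (Fin n) (Fin n) F).mulVec u = u) := by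
  have hg := (oEquiv (ofQuad Q) x).2
  rcases hirr (U ⊓ (ofQuad Q).perp U) inf_le_left (fun w hw => ⟨hUx w hw.1, isom_perp_mem hg hUx w hw.2⟩) with h | h
  · left; rw [← h]; congr 1; ext y; exact (mem_perp' (ofQuad Q)).symm
  have o : ∀ u ∈ U, ∀ v ∈ U, (ofQuad Q).B u v = 0 := fun u hu => (mem_perp _).1 (h.ge hu).2
  by_cases h2 : (2 : F) = 0
  swap
  · exact .inr (.inl fun u hu => mul_left_cancel₀ h2 (by simpa using (orth_self (ofQuad Q) u).symm.trans (o u hu u hu)))
  let U₀ : Submodule F (Fin n → F) := ⟨⟨⟨{u | u ∈ U ∧ Q u = 0}, fun {a b} ha hb => ⟨add_mem ha.1 hb.1, by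
    have := orth_add (ofQuad Q) a b; rw [o a ha.1 b hb.1] at this; simpa [ha.2, hb.2] using this⟩⟩, by simp⟩,
    fun c a ha => ⟨U.smul_mem c ha.1, by simp [QuadraticMap.map_smul, ha.2]⟩⟩
  rcases hirr U₀ (fun _ h => h.1) (fun w hw => ⟨hUx w hw.1, (hg.2 w).trans hw.2⟩) with h | h
  swap
  · exact .inr (.inl fun u hu => (h.ge hu).2)
  have k : ∀ u ∈ U, ∀ v ∈ U, Q u = Q v → u = v := fun u hu v hv e => sub_eq_zero.1 (h.le ⟨sub_mem hu hv, by
    have := orth_sub (ofQuad Q) u v; rw [o u hu v hv] at this; simp only [ofQuad_Q] at this; linear_combination this + e + Q v * h2⟩)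
  obtain ⟨u, hu, u0⟩ := Submodule.exists_mem_ne_zero_of_ne_bot hU0
  have q0 : Q u ≠ 0 := fun e => u0 (k u hu 0 (zero_mem _) (by simpa using e))
  refine .inr (.inr ⟨((Nat.prime_dvd_prime_iff_eq Fact.out Nat.prime_two).1 ((CharP.cast_eq_zero_iff F p 2).1 (by simpa using h2))), ?_,
    ⟨u, hu, q0⟩, fun v hv => k _ (hUx v hv) v hv (hg.2 v)⟩)
  refine (finrank_eq_one_iff_of_nonzero' (⟨u, hu⟩ : U) (by simpa using u0)).2 fun v => ?_
  obtain ⟨c, hc⟩ := sq_of_two h2 (Q v / Q u)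
  exact ⟨c, Subtype.ext (k _ (U.smul_mem c hu) _ v.2 (by rw [QuadraticMap.map_smul, ← hc]; simp [q0]))⟩


end Cfsg.Agent.S2599
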