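import Cfsg.Statements.S2612
import Cfsg.Agent.H5.Om3

set_option autoImplicit false
open Cfsg

namespace Cfsg.Agent.S2612

open H5 H5.Form Module Matrix

/-- For the hyperbolic quadratic form Σ x_i y_i on F^(2m) (F finite, m ≥ 1, excluding m = 2 over the field of two elements), Ω⁺_2m(F) (the commutator subgroup of the orthogonal group) contains an element interchanging the two complementary maximal totally singular subspaces {y = 0} and {x = 0} if and only if m is even (dimension divisible by 4). -/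
theorem result {F : Type*} [Field F] [Fintype F] {m : ℕ} (hm : 1 ≤ m) (h : Fintype.card F ≠ 2 ∨ m ≠ 2) : (∃ g : ↥(Cfsg.isometryGroup F (Cfsg.quadFormPlus m F)), g ∈ Cfsg.Omega F (Cfsg.quadFormPlus m F) ∧ (∀ v : Fin m ⊕ Fin m → F, (∀ i, v (Sum.inr i) = 0) → ∀ i, (((g : Matrix.GeneralLinearGroup (Fin m ⊕ Fin m) F) : Matrix (Fin m ⊕ Fin m) (Fin m ⊕ Fin m) F).mulVec v) (Sum.inl i) = 0) ∧ (∀ v : Fin m ⊕ Fin m → F, (∀ i, v (Sum.inl i) = 0) → ∀ i, (((g : Matrix.GeneralLinearGroup (Fin m ⊕ Fin m) F) : Matrix (Fin m ⊕ Fin m) (Fin m ⊕ Fin m) F).mulVec v) (Sum.inr i) = 0)) ↔ Even m := by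
  have G := good_plus h
  have k : ∀ g ∈ (plusF F m).isom, (∀ v ∈ pU F m, ∀ i, g v (.inl i) = 0) → (dick g = 1 ↔ Even m) := fun g hg e => by
    rw [G.dick_eq_one_iff (pU_ts m) (by simp [finrank_pU, two_mul]) hg rfl, finrank_pU, show pU F m ⊓ _ = ⊥ from eq_bot_iff.2 (by
      rintro _ ⟨h1, v, hv, rfl⟩; ext (i | i); exacts [e v hv i, mem_pU.1 h1 i])]; simp
  refine ⟨fun ⟨g, h1, h2, _⟩ => (k _ (oEquiv (plusF F m) g).2 fun v hv => h2 v (mem_pU.1 hv)).1
    (congrArg Prod.fst (G.ab_of_Om ((mem_Omega_iff (plusF F m) g).1 h1))), fun he => ?_⟩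
  let s := LinearEquiv.funCongrLeft F F (Equiv.sumComm (Fin m) (Fin m))
  have hs : s ∈ (plusF F m).isom := (mem_isom_orth _).2 fun v => by simp [s, Cfsg.quadFormPlus, mul_comm]
  obtain ⟨t, ⟨h1, h2⟩, h3⟩ := G.adjust hs ((k s hs fun v hv i => mem_pU.1 hv i).2 he)
    (S := stabSub (pU F m) ⊓ stabSub (LinearMap.ker (LinearMap.funLeft F F (Sum.inl : Fin m → Fin m ⊕ Fin m)))) fun _ c hc => by
      obtain ⟨t, h1, h2, h3⟩ := Hyp.exists_torus G.nd (e := Pi.single (.inl ⟨0, hm⟩) 1) (f := Pi.single (.inr ⟨0, hm⟩) 1)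
        ⟨by simp [Cfsg.quadFormPlus], by simp [Cfsg.quadFormPlus], by simp [plusF_B, Pi.single_apply]⟩ hc
      refine ⟨t, ⟨mem_stabSub'.2 fun v hv => funext fun i => ?_, mem_stabSub'.2 fun v hv => funext fun i => ?_⟩, RG_le_isom h1, h2⟩
      · simp [h3, plusF_B, mem_pU.1 hv]
      · have : ∀ i, v (.inl i) = 0 := funext_iff.1 hv
        simp [h3, plusF_B, this]
  obtain ⟨x, k1, k2⟩ := exists_omega _ h3
  exact ⟨x, k1, fun v hv i => (congrFun (LinearMap.congr_fun k2 v) _).trans (congrFun (mem_stabSub'.1 h1 v (funext hv)) i),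
    fun v hv i => (congrFun (LinearMap.congr_fun k2 v) _).trans (congrFun (mem_stabSub'.1 h2 v (funext hv)) i)⟩


end Cfsg.Agent.S2612
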