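import Cfsg.Statements.S2613
import Cfsg.Agent.H5.Om3

set_option autoImplicit false
open Cfsg

namespace Cfsg.Agent.S2613

open H5 H5.Form Module Matrix

/-- For the hyperbolic form Σ x_j y_j on F^(2m), F finite with q elements, q odd, and 1 ≤ i ≤ m: the involution negating the first i hyperbolic pairs (x_j, y_j ↦ −x_j, −y_j for j < i) and fixing the rest lies in Ω⁺_2m(q) (commutator subgroup of the orthogonal group) if and only if q^i ≡ 1 (mod 4); its (−1)-eigenspace is a hyperbolic 2i-space. -/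
theorem result {F : Type*} [Field F] [Fintype F] {q : ℕ} (hF : Fintype.card F = q) (hq : Odd q) {m : ℕ} (i : ℕ) (hi : 1 ≤ i) (him : i ≤ m) : (∃ g : ↥(Cfsg.isometryGroup F (Cfsg.quadFormPlus m F)), g ∈ Cfsg.Omega F (Cfsg.quadFormPlus m F) ∧ ((g : Matrix.GeneralLinearGroup (Fin m ⊕ Fin m) F) : Matrix (Fin m ⊕ Fin m) (Fin m ⊕ Fin m) F) = Matrix.diagonal (fun k : Fin m ⊕ Fin m => if (Sum.elim (fun j : Fin m => (j : ℕ)) (fun j : Fin m => (j : ℕ)) k) < i then (-1 : F) else 1)) ↔ q ^ i % 4 = 1 := by
  subst hF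
  have h2 := two_ne_zero_of_odd hq
  have G := (plusF_nondeg (F := F) m).good h2
  have d : (diagonal fun j : Fin m => if (j : ℕ) < i then (-1 : F) else 1).det = (-1) ^ i := by
    rw [det_diagonal, Finset.prod_ite, Finset.prod_const, Finset.prod_const_one, mul_one, Fin.card_filter_val_lt, min_eq_right him]
  obtain ⟨g, h1, h3, h4⟩ := exists_levi_plus G (A := diagonal fun j : Fin m => if (j : ℕ) < i then (-1 : F) else 1) (by simp [d])
  refine (exists_omega_iff (plusF F m) (g := g) fun v => ?_).trans ?_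
  · rw [h3, inv_eq_right_inv (B := diagonal fun j : Fin m => if (j : ℕ) < i then (-1 : F) else 1) (by
      rw [diagonal_mul_diagonal, ← diagonal_one]; congr 1; ext j; split_ifs <;> simp), diagonal_transpose, fromBlocks_diagonal]
    congr 2; ext (j | j) <;> rfl
  rw [G.mem_Om h1, h4, d, Prod.mk_eq_one, sgn_eq_one, isSquare_neg_one_pow_iff h2]; simp


end Cfsg.Agent.S2613
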