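import Cfsg.Statements.S2614
import Cfsg.Agent.H5.Om3
import Cfsg.Agent.S2613

set_option autoImplicit false
open Cfsg

namespace Cfsg.Agent.S2614

open H5 H5.Form Module Matrix

/-- For the form x_0² + Σ x_j y_j on F^(2m+1), F finite with q elements, q odd, and 1 ≤ i ≤ m: the involution of determinant one negating the first i hyperbolic pairs (and fixing x_0 and the other pairs) lies in Ω_(2m+1)(q) (commutator subgroup of the orthogonal group) if and only if q^i ≡ 1 (mod 4); its (−1)-eigenspace is a hyperbolic 2i-space. -/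
theorem result {F : Type*} [Field F] [Fintype F] {q : ℕ} (hF : Fintype.card F = q) (hq : Odd q) {m : ℕ} (i : ℕ) (hi : 1 ≤ i) (him : i ≤ m) : (∃ g : ↥(Cfsg.isometryGroup F (Cfsg.quadFormOdd m F)), g ∈ Cfsg.Omega F (Cfsg.quadFormOdd m F) ∧ ((g : Matrix.GeneralLinearGroup (Unit ⊕ (Fin m ⊕ Fin m)) F) : Matrix (Unit ⊕ (Fin m ⊕ Fin m)) (Unit ⊕ (Fin m ⊕ Fin m)) F) = Matrix.diagonal (fun k : Unit ⊕ (Fin m ⊕ Fin m) => if (Sum.elim (fun _ : Unit => i) (Sum.elim (fun j : Fin m => (j : ℕ)) (fun j : Fin m => (j : ℕ))) k) < i then (-1 : F) else 1)) ↔ q ^ i % 4 = 1 := by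
  have h2 := two_ne_zero_of_odd (hF ▸ hq)
  let d {ι : Type} (p : ι → ℕ) : (ι → F) ≃ₗ[F] (ι → F) := LinearEquiv.piCongrRight fun k => if p k < i then .neg F else .refl F F
  have hd : ∀ {ι : Type} [Fintype ι] [DecidableEq ι] (p : ι → ℕ) v, d p v = (diagonal fun k => if p k < i then (-1 : F) else 1) *ᵥ v :=
    fun p v => by ext k; by_cases h : p k < i <;> simp [d, mulVec_diagonal, h]
  refine (exists_omega_iff (oddF F m) (hd _)).trans (Iff.trans ?_ ((exists_omega_iff (plusF F m) (hd _)).symm.trans (S2613.result hF hq i hi him)))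
  refine ((oddF_nondeg h2 m).good h2).mem_Om_emb ((plusF_nondeg m).good h2)
    (j := (LinearEquiv.sumArrowLequivProdArrow _ _ F F).symm.toLinearMap ∘ₗ .inr _ _ _) (fun x => by simp [Cfsg.quadFormOdd, Cfsg.quadFormPlus])
    ((mem_isom_orth _).2 fun v => by
      simp only [plusF_Q, quadFormPlus]; exact Finset.sum_congr rfl fun k _ => by by_cases h : (k : ℕ) < i <;> simp [d, h])
    (fun x => by ext (k | k | k) <;> simp [d] <;> rfl) fun y hy => ?_
  ext (k | k | k)
  · simp [d]
  · have : y (.inr (.inl k)) = 0 := by simpa [oddF_B, Pi.single_apply] using hy (Pi.single (.inr k) 1)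
    simp [d, this]
  · have : y (.inr (.inr k)) = 0 := by simpa [oddF_B, Pi.single_apply] using hy (Pi.single (.inl k) 1)
    simp [d, this]


end Cfsg.Agent.S2614
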