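import Cfsg.Statements.S2615
import Cfsg.Agent.H5.Om3
import Cfsg.Agent.S2613

set_option autoImplicit false
open Cfsg

namespace Cfsg.Agent.S2615

open H5 H5.Form Module Matrix

/-- For an elliptic form Σ_(j<m−1) x_j y_j + (z₁² + a z₁z₂ + b z₂²) (anisotropic binary part) on F^(2m), F finite with q elements, q odd, and 1 ≤ i ≤ m − 1: the involution negating the first i hyperbolic pairs and fixing the rest lies in Ω⁻_2m(q) (commutator subgroup of the orthogonal group) if and only if q^i ≡ 1 (mod 4). -/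
theorem result {F : Type*} [Field F] [Fintype F] {q : ℕ} (hF : Fintype.card F = q) (hq : Odd q) {m : ℕ} (a b : F) (hab : ∀ z₁ z₂ : F, z₁ ^ 2 + a * z₁ * z₂ + b * z₂ ^ 2 = 0 → z₁ = 0 ∧ z₂ = 0) (i : ℕ) (hi : 1 ≤ i) (him : i + 1 ≤ m) : (∃ g : ↥(Cfsg.isometryGroup F (Cfsg.quadFormMinus (m - 1) F a b)), g ∈ Cfsg.Omega F (Cfsg.quadFormMinus (m - 1) F a b) ∧ ((g : Matrix.GeneralLinearGroup ((Fin (m - 1) ⊕ Fin (m - 1)) ⊕ Fin 2) F) : Matrix ((Fin (m - 1) ⊕ Fin (m - 1)) ⊕ Fin 2) ((Fin (m - 1) ⊕ Fin (m - 1)) ⊕ Fin 2) F) = Matrix.diagonal (fun k : (Fin (m - 1) ⊕ Fin (m - 1)) ⊕ Fin 2 => if (Sum.elim (Sum.elim (fun j : Fin (m - 1) => (j : ℕ)) (fun j : Fin (m - 1) => (j : ℕ))) (fun _ : Fin 2 => i) k) < i then (-1 : F) else 1)) ↔ q ^ i % 4 = 1 := by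
  have h2 := two_ne_zero_of_odd (hF ▸ hq)
  let d {ι : Type} (p : ι → ℕ) : (ι → F) ≃ₗ[F] (ι → F) := LinearEquiv.piCongrRight fun k => if p k < i then .neg F else .refl F F
  have hd : ∀ {ι : Type} [Fintype ι] [DecidableEq ι] (p : ι → ℕ) v, d p v = (diagonal fun k => if p k < i then (-1 : F) else 1) *ᵥ v :=
    fun p v => by ext k; by_cases h : p k < i <;> simp [d, mulVec_diagonal, h]
  refine (exists_omega_iff (minusF (m - 1) a b) (hd _)).trans (Iff.trans ?_ ((exists_omega_iff (plusF F (m - 1)) (hd _)).symm.trans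
    (S2613.result hF hq i hi (by omega))))
  refine ((minusF_nondeg _ (disc_ne_zero_of_aniso hab)).good h2).mem_Om_emb ((plusF_nondeg _).good h2)
    (j := (LinearEquiv.sumArrowLequivProdArrow _ _ F F).symm.toLinearMap ∘ₗ .inl _ _ _) (fun x => by simp [Cfsg.quadFormMinus, Cfsg.quadFormPlus])
    ((mem_isom_orth _).2 fun v => by
      simp only [plusF_Q, quadFormPlus]; exact Finset.sum_congr rfl fun k _ => by by_cases h : (k : ℕ) < i <;> simp [d, h])
    (fun x => by ext ((k | k) | k) <;> simp [d] <;> rfl) fun y hy => ?_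
  ext ((k | k) | k)
  · have : y (.inl (.inl k)) = 0 := by simpa [minusF_B, Pi.single_apply] using hy (Pi.single (.inr k) 1)
    simp [d, this]
  · have : y (.inl (.inr k)) = 0 := by simpa [minusF_B, Pi.single_apply] using hy (Pi.single (.inl k) 1)
    simp [d, this]
  · simp [d]


end Cfsg.Agent.S2615
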