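import Cfsg.Statements.S2619
import Cfsg.Agent.H5.Om3

set_option autoImplicit false
open Cfsg

namespace Cfsg.Agent.S2619

open H5 H5.Form Module Matrix

/-- Over a finite field of characteristic two, given an alternating bilinear form B on a finite-dimensional space, a basis (v_i) and scalars (λ_i), there is exactly one quadratic form whose polar form is B and whose value at each v_i is λ_i. -/
theorem result {F V ι : Type*} [Field F] [Finite F] [CharP F 2] [AddCommGroup V] [Module F V] [Fintype ι] (b : Module.Basis ι F V) (B : LinearMap.BilinForm F V) (hB : B.IsAlt) (c : ι → F) : ∃! Q : QuadraticForm F V, QuadraticMap.polarBilin Q = B ∧ ∀ i, Q (b i) = c i := by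
  classical
  letI : LinearOrder ι := linearOrderOfSTO WellOrderingRel
  have h2 : (2 : F) = 0 := CharTwo.two_eq_zero
  refine ⟨LinearMap.BilinMap.toQuadraticMap (b.constr F fun i => b.constr F fun j => if i < j then B (b i) (b j) else if i = j then c i else 0),
    ⟨?_, fun i => by simp [LinearMap.BilinMap.toQuadraticMap_apply, -Basis.constr_apply_fintype]⟩, fun Q ⟨h1, h3⟩ => ?_⟩
  · rw [LinearMap.BilinMap.polarBilin_toQuadraticMap]
    refine b.ext fun i => b.ext fun j => ?_
    simp only [LinearMap.add_apply, LinearMap.flip_apply, Basis.constr_basis]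
    rcases lt_trichotomy i j with h | rfl | h
    · simp [h, h.not_gt, h.ne']
    · simp [hB.self_eq_zero, CharTwo.add_self_eq_zero]
    · simp [h, h.not_gt, h.ne', ← hB.neg_eq (b j), CharTwo.neg_eq]
  · rw [← Q.toQuadraticMap_toBilin b]
    refine congrArg LinearMap.BilinMap.toQuadraticMap (b.ext fun i => b.ext fun j => ?_)
    rw [QuadraticMap.toBilin_apply, Basis.constr_basis, Basis.constr_basis, h3, ← h1]
    rcases lt_trichotomy i j with h | rfl | h
    · rw [if_neg h.ne, if_pos h, if_pos h]; rfl
    · simp
    · simp [h.ne', h.not_gt]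


end Cfsg.Agent.S2619
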