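import Cfsg.Statements.S2621
import Cfsg.Agent.H5.Om3

set_option autoImplicit false
open Cfsg

namespace Cfsg.Agent.S2621

open H5 H5.Form Module Matrix

/-- Discriminant of an elliptic quadratic form Σ_(i<m−1) x_i y_i + z₁² + a z₁z₂ + c z₂² (binary part anisotropic) in dimension 2m over a field with q elements, q odd, m ≥ 1: the determinant of the Gram matrix of its polar form in any basis is a square if and only if m(q − 1)/2 is odd (equivalently q^m ≡ 3 (mod 4)). -/
theorem result {F : Type*} [Field F] [Fintype F] {q : ℕ} (hF : Fintype.card F = q) (hq : Odd q) {m : ℕ} (hm : 1 ≤ m) (a c : F) (hac : ∀ z₁ z₂ : F, z₁ ^ 2 + a * z₁ * z₂ + c * z₂ ^ 2 = 0 → z₁ = 0 ∧ z₂ = 0) {ι : Type*} [Fintype ι] [DecidableEq ι] (b : Module.Basis ι F ((Fin (m - 1) ⊕ Fin (m - 1)) ⊕ Fin 2 → F)) : IsSquare (Matrix.of (fun i j : ι => QuadraticMap.polar (Cfsg.quadFormMinus (m - 1) F a c) (b i) (b j))).det ↔ ¬ Even (m * (q - 1) / 2) := by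
  subst hF
  obtain ⟨k, rfl⟩ : ∃ k, m = k + 1 := ⟨m - 1, by omega⟩
  have h2 := two_ne_zero_of_odd hq
  have n := minusF_nondeg k (disc_ne_zero_of_aniso hac)
  have := mt (n.hasTS_iff_det h2 (m := k + 1) (by simp [two_mul]; omega) b).2 (minusF_not_hasTS k hac)
  rw [even_iff_four hq, ← isSquare_neg_one_pow_iff h2, show (Matrix.of fun i j => QuadraticMap.polar (quadFormMinus (k + 1 - 1) F a c) (b i) (b j)) = (minusF k a c).gram b from
    Matrix.ext fun i j => orth_polar (minusF k a c) _ _]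
  exact ⟨fun h h' => this (h'.mul h), fun h => by_contra fun h' => this (isSquare_mul_of_not h h')⟩


end Cfsg.Agent.S2621
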