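import Cfsg.Statements.S2623
import Cfsg.Agent.H5.Om3

set_option autoImplicit false
open Cfsg

namespace Cfsg.Agent.S2623

open H5 H5.Form Module Matrix

/-- Over a finite field of odd order, two quadratic forms on F^n with non-degenerate polar forms are isometric (related by an invertible linear change of variables) if and only if their discriminants (determinants of the Gram matrices of their polar forms) lie in the same square class. -/
theorem result {F : Type*} [Field F] [Fintype F] (h2 : (2 : F) ≠ 0) {n : ℕ} (Q₁ Q₂ : QuadraticForm F (Fin n → F)) (h₁ : (QuadraticMap.polarBilin Q₁).Nondegenerate) (h₂ : (QuadraticMap.polarBilin Q₂).Nondegenerate) : (∃ g : (Fin n → F) ≃ₗ[F] (Fin n → F), ∀ v, Q₂ (g v) = Q₁ v) ↔ IsSquare ((Matrix.of (fun i j : Fin n => QuadraticMap.polar ⇑Q₁ (Pi.single i 1) (Pi.single j 1))).det * (Matrix.of (fun i j : Fin n => QuadraticMap.polar ⇑Q₂ (Pi.single i 1) (Pi.single j 1))).det) := by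
  rw [gram_quad, gram_quad]
  refine ⟨fun ⟨g, h⟩ => ?_, fun h => (iso_of_det' (ofQuad_nondeg h₁) (ofQuad_nondeg h₂) h2 _ _ h).imp fun _ h => h.2⟩
  have := congrArg det ((ofQuad Q₂).gram_comp (Pi.basisFun F _) (Pi.basisFun F _) g.toLinearMap)
  rw [show ((ofQuad Q₂).gram fun i => g.toLinearMap (Pi.basisFun F _ i)) = (ofQuad Q₁).gram (Pi.basisFun F _) from
    Matrix.ext fun i j => (isIso_orth (Φ := ofQuad Q₁) (Ψ := ofQuad Q₂) h).1 _ _, det_mul, det_mul, det_transpose] at this
  exact ⟨(LinearMap.toMatrix (Pi.basisFun F _) (Pi.basisFun F _) g.toLinearMap).det * ((ofQuad Q₂).gram (Pi.basisFun F _)).det,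
    by rw [this]; erw [Matrix.map_id]; ring⟩


end Cfsg.Agent.S2623
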