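import Cfsg.Statements.S2625
import Cfsg.Agent.H5.Om3

set_option autoImplicit false
open Cfsg

namespace Cfsg.Agent.S2625

open H5 H5.Form Module Matrix

/-- For a quadratic form Q on F^n with non-degenerate polar form, F finite and n odd (so |F| is odd), the multiplier of any similarity is a square: if g is an invertible linear map with Q(g v) = c·Q(v) for all v then c is a square. -/
theorem result {F : Type*} [Field F] [Fintype F] {n : ℕ} (hn : Odd n) (Q : QuadraticForm F (Fin n → F)) (hQ : (QuadraticMap.polarBilin Q).Nondegenerate) (g : (Fin n → F) ≃ₗ[F] (Fin n → F)) (c : F) (hg : ∀ v, Q (g v) = c * Q v) : IsSquare c := by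
  by_cases hc : c = 0
  · simp [hc]
  have := congrArg det ((ofQuad Q).gram_comp (Pi.basisFun F _) (Pi.basisFun F _) g.toLinearMap)
  rw [show (ofQuad Q).gram _ = c • (ofQuad Q).gram (Pi.basisFun F _) from
    Matrix.ext fun i j => B_of_sim (Φ := ofQuad Q) (Ψ := ofQuad Q) (e := g.toLinearMap) hg _ _, det_mul, det_mul, det_transpose, det_smul] at this
  erw [Matrix.map_id] at this
  obtain ⟨k, rfl⟩ := hn
  rw [← isSquare_sq_mul (pow_ne_zero k hc)]
  exact ⟨(LinearMap.toMatrix (Pi.basisFun F _) (Pi.basisFun F _) g.toLinearMap).det,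
    mul_right_cancel₀ ((ofQuad_nondeg hQ).det_gram_ne (Pi.basisFun F _)) (by simp only [Fintype.card_fin] at this; linear_combination this)⟩


end Cfsg.Agent.S2625
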