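import Cfsg.Statements.S2627
import Cfsg.Agent.H5.Om3

set_option autoImplicit false
open Cfsg

namespace Cfsg.Agent.S2627

open H5 H5.Form Module Matrix

/-- For an orthogonal direct sum Q = Q₁ ⊕ Q₂ of quadratic forms with non-degenerate polar forms over a finite field, an isometry g₁ of Q₁ extended by the identity on the second summand lies in Ω(Q) (the commutator subgroup of the orthogonal group of Q) if and only if g₁ lies in Ω(Q₁). (Excluded: the field of two elements when the first summand or the whole space has dimension 4, where the commutator subgroup of O⁺₄(2) is smaller than the group usually called Ω.) -/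
theorem result {F : Type*} [Field F] [Fintype F] {k l : ℕ} (h : Fintype.card F ≠ 2 ∨ (k ≠ 4 ∧ k + l ≠ 4)) (Q₁ : QuadraticForm F (Fin k → F)) (Q₂ : QuadraticForm F (Fin l → F)) (h₁ : (QuadraticMap.polarBilin Q₁).Nondegenerate) (h₂ : (QuadraticMap.polarBilin Q₂).Nondegenerate) (g₁ : ↥(Cfsg.isometryGroup F ⇑Q₁)) : (∃ g : ↥(Cfsg.isometryGroup F (fun v : Fin k ⊕ Fin l → F => Q₁ (v ∘ Sum.inl) + Q₂ (v ∘ Sum.inr))), g ∈ Cfsg.Omega F (fun v : Fin k ⊕ Fin l → F => Q₁ (v ∘ Sum.inl) + Q₂ (v ∘ Sum.inr)) ∧ ((g : Matrix.GeneralLinearGroup (Fin k ⊕ Fin l) F) : Matrix (Fin k ⊕ Fin l) (Fin k ⊕ Fin l) F) = Matrix.fromBlocks ((g₁ : Matrix.GeneralLinearGroup (Fin k) F) : Matrix (Fin k) (Fin k) F) 0 0 1) ↔ g₁ ∈ Cfsg.Omega F ⇑Q₁ := by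
  have G := good_quad h₁ (h.imp_right And.left)
  have n := sumF_nondeg G.nd (ofQuad_nondeg h₂)
  suffices ∀ (Φ : Form (Kind.orth F) (Fin k → F)) (Ψ : Form (Kind.orth F) (Fin l → F)), Φ.OGood → (sumF Φ Ψ).Nondeg → ∀ g₁ : isometryGroup F Φ.Q,
    (∃ g : isometryGroup F (sumF Φ Ψ).Q, g ∈ Omega F _ ∧ g.1.1 = fromBlocks g₁.1.1 0 0 1) ↔ g₁ ∈ Omega F _ from this _ _ G n g₁
  intro Φ Ψ G n g₁
  obtain ⟨s, hs⟩ : ∃ s : (Fin k ⊕ Fin l → F) ≃ₗ[F] (Fin k ⊕ Fin l → F), ∀ v, s v = fromBlocks g₁.1.1 0 0 1 *ᵥ v :=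
    ⟨glEquiv (blockHom (g₁.1, 1)), fun _ => rfl⟩
  refine (exists_omega_iff (sumF Φ Ψ) hs).trans (Iff.trans ?_ (mem_Omega_iff Φ g₁).symm)
  refine OGood.mem_Om_emb ⟨n, by simpa using h.imp_right And.right⟩ G (j := (LinearEquiv.sumArrowLequivProdArrow _ _ F F).symm.toLinearMap ∘ₗ .inl _ _ _)
    (fun x => by simp [sumF_Q, Function.comp_def, ← Pi.zero_def]) (oEquiv _ g₁).2
    (fun x => by
      ext (i | i) <;> simp [hs, fromBlocks_mulVec, Function.comp_def]) fun y hy => ?_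
  have := G.nd.left (y ∘ .inl) fun x => by simpa [sumF_B, Function.comp_def, ← Pi.zero_def] using hy x
  ext (i | i) <;> simp [hs, fromBlocks_mulVec, this]; exact (congrFun this i).symm


end Cfsg.Agent.S2627
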