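import Cfsg.Statements.S2628
import Cfsg.Agent.H5.Om3

set_option autoImplicit false
open Cfsg

namespace Cfsg.Agent.S2628

open H5 H5.Form Module Matrix

/-- For the orthogonal direct sum Q ⊕ Q of two copies of a quadratic form Q with non-degenerate polar form on F^k (F finite), every isometry g of Q acting diagonally, diag(g, g), lies in Ω(Q ⊕ Q), the commutator subgroup of the orthogonal group of Q ⊕ Q. (Excluded: k = 2 over the field of two elements, where Q ⊕ Q is the hyperbolic 4-space whose orthogonal group's commutator subgroup is smaller than the group usually called Ω.) -/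
theorem result {F : Type*} [Field F] [Fintype F] {k : ℕ} (h : Fintype.card F ≠ 2 ∨ k ≠ 2) (Q : QuadraticForm F (Fin k → F)) (hQ : (QuadraticMap.polarBilin Q).Nondegenerate) (g : ↥(Cfsg.isometryGroup F ⇑Q)) : ∃ x : ↥(Cfsg.isometryGroup F (fun v : Fin k ⊕ Fin k → F => Q (v ∘ Sum.inl) + Q (v ∘ Sum.inr))), x ∈ Cfsg.Omega F (fun v : Fin k ⊕ Fin k → F => Q (v ∘ Sum.inl) + Q (v ∘ Sum.inr)) ∧ ((x : Matrix.GeneralLinearGroup (Fin k ⊕ Fin k) F) : Matrix (Fin k ⊕ Fin k) (Fin k ⊕ Fin k) F) = Matrix.fromBlocks ((g : Matrix.GeneralLinearGroup (Fin k) F) : Matrix (Fin k) (Fin k) F) 0 0 ((g : Matrix.GeneralLinearGroup (Fin k) F) : Matrix (Fin k) (Fin k) F) := by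
  have G : (sumF (ofQuad Q) (ofQuad Q)).OGood := ⟨sumF_nondeg (ofQuad_nondeg hQ) (ofQuad_nondeg hQ), h.imp_right fun h => by simp; omega⟩
  let s := LinearEquiv.funCongrLeft F F (Equiv.sumComm (Fin k) (Fin k))
  have hs : s ∈ (sumF (ofQuad Q) (ofQuad Q)).isom := (mem_isom_orth _).2 fun v => add_comm _ _
  refine ⟨sumHom (ofQuad Q) (ofQuad Q) (g, g), (mem_Omega_iff (sumF (ofQuad Q) (ofQuad Q)) _).2 ?_, rfl⟩
  let x := oEquiv _ (sumHom (ofQuad Q) (ofQuad Q) (g, 1))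
  convert G.mul_mem_Om x.2 (mul_mem (mul_mem hs x.2) (inv_mem hs)) ?_
  · refine LinearEquiv.ext fun v => ?_
    change fromBlocks g.1.1 0 0 g.1.1 *ᵥ v = fromBlocks g.1.1 0 0 1 *ᵥ s (fromBlocks g.1.1 0 0 1 *ᵥ s⁻¹ v)
    ext (i | i) <;> simp [s, fromBlocks_mulVec, Function.comp_def, LinearEquiv.coe_inv]
  · have := map_mul G.abHom (⟨s, hs⟩ * x) ⟨s, hs⟩⁻¹
    rw [map_mul G.abHom ⟨s, hs⟩ x, map_inv, mul_inv_cancel_comm] at this
    exact this.symm


end Cfsg.Agent.S2628
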