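import Cfsg.Statements.S2629
import Cfsg.Agent.H5.Om3

set_option autoImplicit false
open Cfsg

namespace Cfsg.Agent.S2629

open H5 H5.Form Module Matrix

/-- For the hyperbolic form Σ x_i y_i on F^(2m) over a finite field of odd order (m ≥ 1), an isometry g preserves the class of the maximal totally singular subspace U₀ = {y = 0} (that is, m − dim(U₀ ∩ gU₀) is even) if and only if det g = 1: the stabiliser of each of the two classes of maximal totally singular subspaces is SO. -/
theorem result {F : Type*} [Field F] [Fintype F] (h2 : (2 : F) ≠ 0) {m : ℕ} (hm : 1 ≤ m) (g : ↥(Cfsg.isometryGroup F (Cfsg.quadFormPlus m F))) : Even (m - Module.finrank F ↥(LinearMap.ker (LinearMap.funLeft F F (Sum.inr : Fin m → Fin m ⊕ Fin m)) ⊓ (LinearMap.ker (LinearMap.funLeft F F (Sum.inr : Fin m → Fin m ⊕ Fin m))).map (Matrix.mulVecLin ((g : Matrix.GeneralLinearGroup (Fin m ⊕ Fin m) F) : Matrix (Fin m ⊕ Fin m) (Fin m ⊕ Fin m) F)))) ↔ ((g : Matrix.GeneralLinearGroup (Fin m ⊕ Fin m) F) : Matrix (Fin m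 ⊕ Fin m) (Fin m ⊕ Fin m) F).det = 1 := by
  have n := plusF_nondeg (F := F) m
  have := (n.good h2).dick_eq_one_iff (pU_ts m) (by simp [finrank_pU, two_mul]) (oEquiv _ g).2 rfl
  rw [finrank_pU, ← n.mem_sisom_iff_dick h2 (oEquiv _ g).2, mem_sisom, and_iff_right (oEquiv (plusF F m) g).2] at this
  exact this.symm.trans (by rw [← det_glEquiv]; rfl)


end Cfsg.Agent.S2629
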