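import Cfsg.Statements.S2631
import Cfsg.Agent.H5.Om3

set_option autoImplicit false
open Cfsg

namespace Cfsg.Agent.S2631

open H5 H5.Form Module Matrix

/-- For the hyperbolic form Σ x_i y_i on F^(2m) over a finite field (m ≥ 1, excluding m = 2 over the field of two elements), Ω (the commutator subgroup of the orthogonal group) acts transitively on each of the two classes of maximal totally singular subspaces: if U and W are m-dimensional totally singular subspaces with m − dim(U ∩ W) even, some element of Ω carries U to W. -/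
theorem result {F : Type*} [Field F] [Fintype F] {m : ℕ} (hm : 1 ≤ m) (h : Fintype.card F ≠ 2 ∨ m ≠ 2) (U W : Submodule F (Fin m ⊕ Fin m → F)) (hU : Module.finrank F U = m) (hW : Module.finrank F W = m) (hU0 : ∀ u ∈ U, Cfsg.quadFormPlus m F u = 0) (hW0 : ∀ w ∈ W, Cfsg.quadFormPlus m F w = 0) (he : Even (m - Module.finrank F ↥(U ⊓ W))) : ∃ g : ↥(Cfsg.isometryGroup F (Cfsg.quadFormPlus m F)), g ∈ Cfsg.Omega F (Cfsg.quadFormPlus m F) ∧ U.map (Matrix.mulVecLin ((g : Matrix.GeneralLinearGroup (Fin m ⊕ Fin m) F) : Matrix (Fin m ⊕ Fin m) (Fin m ⊕ Fin m) F)) = W := by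
  have G := good_plus h
  have tU : (plusF F m).TS U := orth_ts.2 hU0
  obtain ⟨g, hg, e⟩ := G.nd.ts_conj' tU (orth_ts.2 hW0) (hU.trans hW.symm)
  obtain ⟨s, h1, h2⟩ := G.adjust hg ((G.dick_eq_one_iff tU (by simp [hU, two_mul]) hg e).2 (by rwa [hU]))
    fun _ c hc => G.torus_stab tU (by rintro rfl; simp at hU; omega) hc
  obtain ⟨x, k1, k2⟩ := exists_omega _ h2
  exact ⟨x, k1, by rw [k2, LinearEquiv.coe_toLinearMap_mul, Module.End.mul_eq_comp, Submodule.map_comp, mem_stabSub_iff_map.1 h1, e]⟩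


end Cfsg.Agent.S2631
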