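import Cfsg.Statements.S2632
import Cfsg.Agent.H5.Om3

set_option autoImplicit false
open Cfsg

namespace Cfsg.Agent.S2632

open H5 H5.Form Module Matrix

/-- Ω is transitive on non-degenerate subspaces of each isometry type: for a quadratic form Q on F^n, n ≥ 3, with non-degenerate polar form (F finite; excluding dimension 4 over the field of two elements), if U and W are subspaces on which the polar form is non-degenerate and there is a Q-preserving linear isomorphism U → W, then some element of Ω (the commutator subgroup of the orthogonal group) carries U to W. (In dimension 2 this fails: Ω can be {±1}, which fixes every line.) -/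
theorem result {F : Type*} [Field F] [Fintype F] {n : ℕ} (hn : 3 ≤ n) (h : Fintype.card F ≠ 2 ∨ n ≠ 4) (Q : QuadraticForm F (Fin n → F)) (hQ : (QuadraticMap.polarBilin Q).Nondegenerate) (U W : Submodule F (Fin n → F)) (hU : U ⊓ LinearMap.BilinForm.orthogonal (QuadraticMap.polarBilin Q) U = ⊥) (hW : W ⊓ LinearMap.BilinForm.orthogonal (QuadraticMap.polarBilin Q) W = ⊥) (e : U ≃ₗ[F] W) (he : ∀ u : U, Q (e u : Fin n → F) = Q (u : Fin n → F)) : ∃ g : ↥(Cfsg.isometryGroup F ⇑Q), g ∈ Cfsg.Omega F ⇑Q ∧ U.map (Matrix.mulVecLin ((g : Matrix.GeneralLinearGroup (Fin n) F) : Matrix (Fin n) (Fin n) F)) = W := by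
  have G := good_quad hQ h
  have nU : ((ofQuad Q).res U).Nondeg := (res_nondeg_iff _ _).2 (by
    rw [← hU]; congr 1; ext x; exact (mem_perp' _).trans Iff.rfl)
  have I := isIso_orth (Φ := (ofQuad Q).res U) (Ψ := (ofQuad Q).res W) he
  obtain ⟨g, hg, e1⟩ := G.nd.witt' U (W.subtype ∘ₗ e) (W.injective_subtype.comp e.injective) I.1 I.2
  have k : ∀ c, ∃ v, (ofQuad Q).Q v = c ∧ (ofQuad Q).r v ∈ stabSub U := fun c => by
    have := G.nd.finrank_perp U
    rcases le_or_gt 2 (finrank F U) with h | h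
    · obtain ⟨v, hv⟩ := nU.orth_universal h c
      exact ⟨v, hv, mem_stabSub'.2 fun x hx => by rw [r_apply]; exact sub_mem hx (U.smul_mem _ v.2)⟩
    · obtain ⟨v, hv⟩ := (G.nd.perp_nondeg nU).orth_universal (by simp at this; omega) c
      exact ⟨v, hv, mem_stabSub'.2 fun x hx => by rwa [r_of_perp ((mem_perp' _).1 v.2 x hx)]⟩
  obtain ⟨v, hv, h1⟩ := k 1
  obtain ⟨s, h1, h2⟩ := G.adjust' hg h1 (r_mem _ v) (G.nd.dick_r (by simp [hv])) fun _ c hc => by
    obtain ⟨w, hw, h2⟩ := k c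
    exact ⟨_, mul_mem h1 h2, mul_mem (r_mem _ v) (r_mem _ w), by rw [G.nd.ab_rr (by simp [hv]) (by rwa [hw]), hv, hw, one_mul]⟩
  obtain ⟨x, k1, k2⟩ := exists_omega _ h2
  refine ⟨x, k1, ?_⟩
  rw [k2, LinearEquiv.coe_toLinearMap_mul, Module.End.mul_eq_comp, Submodule.map_comp, mem_stabSub_iff_map.1 h1]
  refine le_antisymm (by rintro _ ⟨u, hu, rfl⟩; exact (e1 ⟨u, hu⟩).symm ▸ (e _).2) fun w hw => ⟨e.symm ⟨w, hw⟩, (e.symm _).2, by simpa using e1 (e.symm ⟨w, hw⟩)⟩


end Cfsg.Agent.S2632
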