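import Cfsg.Statements.S2633
import Cfsg.Agent.H5.Om3

set_option autoImplicit false
open Cfsg

namespace Cfsg.Agent.S2633

open H5 H5.Form Module Matrix

/-- Ω is transitive on totally singular subspaces of each dimension less than half the dimension: for a quadratic form Q on F^n with non-degenerate polar form (F finite; excluding dimension 4 over the field of two elements), if U and W are subspaces of the same dimension k with 2k < n on which Q vanishes, then some element of Ω (the commutator subgroup of the orthogonal group) carries U to W. -/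
theorem result {F : Type*} [Field F] [Fintype F] {n : ℕ} (h : Fintype.card F ≠ 2 ∨ n ≠ 4) (Q : QuadraticForm F (Fin n → F)) (hQ : (QuadraticMap.polarBilin Q).Nondegenerate) (U W : Submodule F (Fin n → F)) {k : ℕ} (hk : 2 * k < n) (hU : Module.finrank F U = k) (hW : Module.finrank F W = k) (hU0 : ∀ u ∈ U, Q u = 0) (hW0 : ∀ w ∈ W, Q w = 0) : ∃ g : ↥(Cfsg.isometryGroup F ⇑Q), g ∈ Cfsg.Omega F ⇑Q ∧ U.map (Matrix.mulVecLin ((g : Matrix.GeneralLinearGroup (Fin n) F) : Matrix (Fin n) (Fin n) F)) = W := by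
  have G := good_quad hQ h
  by_cases U0 : U = ⊥
  · subst U0
    exact ⟨1, one_mem _, by rw [Submodule.map_bot, eq_comm, ← Submodule.finrank_eq_zero, hW, ← hU, finrank_bot]⟩
  have tU : (ofQuad Q).TS U := orth_ts.2 hU0
  obtain ⟨g, hg, e⟩ := G.nd.ts_conj' tU (orth_ts.2 hW0) (hU.trans hW.symm)
  obtain ⟨v, h1, hv⟩ : ∃ v ∈ (ofQuad Q).perp U, (ofQuad Q).Q v ≠ 0 := by
    by_contra! k
    have := (orth_ts.2 k).two_mul_le G.nd
    have := G.nd.finrank_perp U
    simp at *; omega
  obtain ⟨s, h1, h2⟩ := G.adjust' hg (mem_stabSub'.2 fun x hx => by rwa [r_of_perp ((mem_perp' _).1 h1 x hx)]) (r_mem _ v) (G.nd.dick_r hv)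
    fun _ c hc => G.torus_stab tU U0 hc
  obtain ⟨x, k1, k2⟩ := exists_omega _ h2
  exact ⟨x, k1, by rw [k2, LinearEquiv.coe_toLinearMap_mul, Module.End.mul_eq_comp, Submodule.map_comp, mem_stabSub_iff_map.1 h1, e]⟩


end Cfsg.Agent.S2633
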