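import Cfsg.Statements.S2634
import Cfsg.Agent.H5.Om3

set_option autoImplicit false
open Cfsg

namespace Cfsg.Agent.S2634

open H5 H5.Form Module Matrix

/-- Over a finite field of characteristic two, Ω (the commutator subgroup of the orthogonal group of a quadratic form Q on F^n with non-degenerate polar form; excluding dimension 4 over the field of two elements) acts transitively on the non-singular 1-spaces: for u, v with Q(u) ≠ 0 and Q(v) ≠ 0 some element of Ω carries the line through u to the line through v. -/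
theorem result {F : Type*} [Field F] [Fintype F] [CharP F 2] {n : ℕ} (h : Fintype.card F ≠ 2 ∨ n ≠ 4) (Q : QuadraticForm F (Fin n → F)) (hQ : (QuadraticMap.polarBilin Q).Nondegenerate) (u v : Fin n → F) (hu : Q u ≠ 0) (hv : Q v ≠ 0) : ∃ g : ↥(Cfsg.isometryGroup F ⇑Q), g ∈ Cfsg.Omega F ⇑Q ∧ (F ∙ ((g : Matrix.GeneralLinearGroup (Fin n) F) : Matrix (Fin n) (Fin n) F).mulVec u) = F ∙ v := by
  have G := good_quad hQ h
  obtain ⟨c, hc⟩ := sq_of_two CharTwo.two_eq_zero (Q u / Q v)
  have c0 : c ≠ 0 := by rintro rfl; simp [hu, hv] at hc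
  obtain ⟨g, hg, e, -⟩ := G.nd.witt_step (H := ⊥) (x := u) (y := c • v) (by rintro rfl; simp at hu) (by
    simpa [c0] using (by rintro rfl; simp at hv : v ≠ 0)) (by rw [orth_smul, ← hc]; simp [hv]) (by simp)
  obtain ⟨s, h1, h2⟩ := G.adjust' hg (S := stabSub (F ∙ u)) (mem_stabSub'.2 fun x hx => by
    rw [r_apply]; exact sub_mem hx (Submodule.smul_mem _ _ (Submodule.mem_span_singleton_self u))) (r_mem _ u) (G.nd.dick_r hu) fun h => (h CharTwo.two_eq_zero).elim
  obtain ⟨x, k1, k2⟩ := exists_omega _ h2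
  refine ⟨x, k1, ?_⟩
  rw [← mulVecLin_apply, ← Set.image_singleton, ← Submodule.map_span, k2, LinearEquiv.coe_toLinearMap_mul, Module.End.mul_eq_comp,
    Submodule.map_comp, mem_stabSub_iff_map.1 h1, Submodule.map_span, Set.image_singleton, LinearEquiv.coe_coe, e,
    Submodule.span_singleton_smul_eq c0.isUnit]


end Cfsg.Agent.S2634
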