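import Cfsg.Statements.S2635
import Cfsg.Agent.H5.Om3

set_option autoImplicit false
open Cfsg

namespace Cfsg.Agent.S2635

open H5 H5.Form Module Matrix

/-- Over a finite field of characteristic two, for a quadratic form Q on F^n with non-degenerate polar form, n ≥ 2, other than dimension 4 over the field of two elements, Ω (the commutator subgroup of the orthogonal group) is exactly the subgroup generated by the products of two reflections (orthogonal transvections) x ↦ x − Q(v)⁻¹ f(x, v) v, Q(v) ≠ 0: the products of an even number of reflections. -/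
theorem result {F : Type*} [Field F] [Fintype F] [CharP F 2] {n : ℕ} (hn : 2 ≤ n) (h : Fintype.card F ≠ 2 ∨ n ≠ 4) (Q : QuadraticForm F (Fin n → F)) (hQ : (QuadraticMap.polarBilin Q).Nondegenerate) : Cfsg.Omega F ⇑Q = Subgroup.closure {g : ↥(Cfsg.isometryGroup F ⇑Q) | ∃ u v : Fin n → F, Q u ≠ 0 ∧ Q v ≠ 0 ∧ ((g : Matrix.GeneralLinearGroup (Fin n) F) : Matrix (Fin n) (Fin n) F) = Cfsg.reflectionMatrix ⇑Q u * Cfsg.reflectionMatrix ⇑Q v} := by
  have G := good_quad hQ h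
  have k : ∀ (g : Cfsg.isometryGroup F Q) u v, g.1.1 = Cfsg.reflectionMatrix Q u * Cfsg.reflectionMatrix Q v ↔
      (oEquiv (ofQuad Q) g).1 = (ofQuad Q).r u * (ofQuad Q).r v := fun g u v =>
    ⟨fun h => LinearEquiv.ext fun x => (show _ = g.1.1 *ᵥ x from rfl).trans (by simp [h, ← mulVec_mulVec, ← reflectionMatrix_mulVec]),
      fun h => matrix_ext_mulVec fun x => (LinearEquiv.congr_fun h x).trans (by simp [← mulVec_mulVec, ← reflectionMatrix_mulVec])⟩
  refine le_antisymm (fun g hg => ?_) ((Subgroup.closure_le _).2 fun g ⟨u, v, hu, hv, e⟩ => (mem_Omega_iff (ofQuad Q) g).2 ?_)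
  · generalize hK : Subgroup.closure (G := Cfsg.isometryGroup F Q) _ = K
    have p : ∀ u v, Q u ≠ 0 → Q v ≠ 0 → (ofQuad Q).r u * (ofQuad Q).r v ∈ (K.map (oEquiv (ofQuad Q)).toMonoidHom).map (Subgroup.subtype _) := fun u v hu hv =>
      ⟨⟨_, mul_mem (r_mem _ u) (r_mem _ v)⟩, ⟨(oEquiv (ofQuad Q)).symm ⟨_, mul_mem (r_mem _ u) (r_mem _ v)⟩, by
        rw [← hK]; exact Subgroup.subset_closure ⟨u, v, hu, hv, (k _ _ _).2 (congrArg Subtype.val ((oEquiv _).apply_symm_apply _))⟩,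
        (oEquiv _).apply_symm_apply _⟩, rfl⟩
    have := RG_induction (Φ := ofQuad Q) (P := fun g => (dick g = 1 → g ∈ (K.map (oEquiv (ofQuad Q)).toMonoidHom).map (Subgroup.subtype _)) ∧
        (dick g = -1 → ∀ u, Q u ≠ 0 → (ofQuad Q).r u * g ∈ (K.map (oEquiv (ofQuad Q)).toMonoidHom).map (Subgroup.subtype _)))
      ⟨fun _ => one_mem _, by simp [dick_one]⟩ (fun v hv g hg ⟨h1, h2⟩ => by
        rw [G.nd.dick_r_mul (RG_le_isom hg) hv]
        exact ⟨fun e => h2 (neg_eq_iff_eq_neg.1 e) v hv, fun e u hu => mul_assoc ((ofQuad Q).r u) _ g ▸ mul_mem (p u v hu hv) (h1 (neg_injective e))⟩)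
      (G.RG.ge (oEquiv _ g).2)
    obtain ⟨_, ⟨y, h1, rfl⟩, h2⟩ := this.1 (congrArg Prod.fst (G.ab_of_Om ((mem_Omega_iff (ofQuad Q) g).1 hg)))
    exact (oEquiv (ofQuad Q)).injective (Subtype.ext h2) ▸ h1
  · rw [(k g u v).1 e, G.mem_Om (mul_mem (r_mem _ u) (r_mem _ v)), G.nd.ab_rr hu hv, sgn_eq_one.2 (sq_of_two CharTwo.two_eq_zero _)]; rfl


end Cfsg.Agent.S2635
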