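import Cfsg.Statements.S2638
import Cfsg.Agent.H5.Sing

set_option autoImplicit false
open Cfsg

namespace Cfsg.Agent.S2638

open H5 Module

/-- If an element x of GL_n(q), n ≥ 1, has prime order r and the multiplicative order of q modulo r is n (r is a primitive prime divisor of q^n − 1, so x acts irreducibly), then the centraliser of x in GL_n(q) is cyclic of order q^n − 1 (the multiplicative group of the field with q^n elements, a Singer cycle). -/
theorem result {F : Type*} [Field F] [Fintype F] {p q : ℕ} [Fact p.Prime] [CharP F p] (hF : Fintype.card F = q) {n r : ℕ} (hn : 1 ≤ n) (hr : r.Prime) (hrp : r ≠ p) (hi : orderOf (q : ZMod r) = n) (x : GL (Fin n) F) (hx : orderOf x = r) : IsCyclic ↥(Subgroup.centralizer ({x} : Set (GL (Fin n) F))) ∧ Nat.card ↥(Subgroup.centralizer ({x} : Set (GL (Fin n) F))) = q ^ n - 1 := by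
  subst hF
  have : NeZero n := ⟨by omega⟩
  let e : Matrix (Fin n) (Fin n) F ≃ₐ[F] End F (Fin n → F) := Matrix.toLinAlgEquiv'
  have d : finrank F (FiniteField.Extension F p n) = finrank F (Fin n → F) := by rw [FiniteField.finrank_extension]; simp
  have x1 : e x ^ r = 1 := by rw [← map_pow, ← hx, ← Units.val_pow_eq_pow_val, pow_orderOf_eq_one]; simp
  obtain ⟨i1, i2⟩ := irr_of_order hr x1 (fun c => hr.ne_one (hx ▸ orderOf_eq_one_iff.2 (Units.ext (e.injective (by simpa using c)))))
    (by simp; omega) (by simpa using hi)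
  obtain ⟨ψ, ⟨a, h1⟩, h2⟩ := exists_emb_irr d i1 i2
  rw [cent_eq_sgp e (e.symm.toAlgHom.comp ψ) d ⟨a, by simp [h1]⟩ fun b => (h2 b).imp fun p hp => by
    simp [hp, Polynomial.aeval_algHom_apply]]
  exact ⟨isCyclic_of_surjective _ (sgpEquiv _).surjective, by rw [card_sgp, FiniteField.natCard_extension, Nat.card_eq_fintype_card]⟩


end Cfsg.Agent.S2638
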