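import Cfsg.Statements.S2639
import Cfsg.Agent.H5.Tr

set_option autoImplicit false
open Cfsg

namespace Cfsg.Agent.S2639

open H5 H5.Form Module Matrix

/-- The unitary group embeds in the symplectic group of twice the dimension over the subfield: for a field K with q² elements and a field F with q elements (isomorphic to the subfield of K of order q), there is an injective homomorphism GU_m(q) → Sp_2m(F). -/
theorem result {K F : Type*} [Field K] [Fintype K] [Field F] [Fintype F] {q : ℕ} (hK : Fintype.card K = q ^ 2) (hF : Fintype.card F = q) (m : ℕ) : ∃ φ : ↥(Cfsg.GU m K q) →* ↥(Matrix.symplecticGroup (Fin m) F), Function.Injective φ := by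
  obtain ⟨ι, -⟩ := exists_emb hK hF
  letI := ι.toAlgebra
  obtain ⟨θ, h0, h⟩ := exists_conj_eq_neg hK
  obtain ⟨e, he⟩ := symp_iso (Φ := (hermF m hK).trS hF h) ((hermF_nondeg m hK).tr (trL_ne hF (hK := hK) h0) fun _ _ => rfl) (sympF_nondeg m)
    (by rw [finrank_res hF hK]; simp [two_mul])
  exact emb_trans (exists_res_hom fun g hg => (mem_isom_symp _).2 fun x y => congrArg (trL hF hK θ) (hg.1 x y)) (guEquiv m hK)
    (he.isomCongr.trans (spEquiv m).symm)


end Cfsg.Agent.S2639
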