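import Cfsg.Statements.S2640
import Cfsg.Agent.H5.Tr

set_option autoImplicit false
open Cfsg

namespace Cfsg.Agent.S2640

open H5 H5.Form Module Matrix

/-- For m even, the unitary group GU_m(q) (over the field with q² elements) embeds in the orthogonal group O⁺_2m(q) of the hyperbolic form Σ x_i y_i over the field with q elements (there is an injective homomorphism). -/
theorem result {K F : Type*} [Field K] [Fintype K] [Field F] [Fintype F] {q : ℕ} (hK : Fintype.card K = q ^ 2) (hF : Fintype.card F = q) (m : ℕ) (hm : Even m) : ∃ φ : ↥(Cfsg.GU m K q) →* ↥(Cfsg.isometryGroup F (Cfsg.quadFormPlus m F)), Function.Injective φ := by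
  obtain ⟨ι, -⟩ := exists_emb hK hF
  letI := ι.toAlgebra
  have n := hermF_nondeg m hK
  obtain ⟨e, he⟩ := split_iso (trO_nondeg hF n) (plusF_nondeg m) (by rw [finrank_res hF hK]; simp) (by simp [two_mul])
    ((trO_hasTS hF n (by simp)).2 hm) (plusF_hasTS m)
  exact emb_trans (exists_res_hom (trO_mem hF)) (guEquiv m hK) (he.isomCongr.trans (oEquiv _).symm)


end Cfsg.Agent.S2640
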