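import Cfsg.Statements.S2641
import Cfsg.Agent.H5.Tr

set_option autoImplicit false
open Cfsg

namespace Cfsg.Agent.S2641

open H5 H5.Form Module Matrix

/-- For m odd, the unitary group GU_m(q) (over the field with q² elements) embeds in the orthogonal group O⁻_2m(q) of an elliptic form (Σ_(i<m−1) x_i y_i plus an anisotropic binary form) over the field with q elements (there is an injective homomorphism). -/
theorem result {K F : Type*} [Field K] [Fintype K] [Field F] [Fintype F] {q : ℕ} (hK : Fintype.card K = q ^ 2) (hF : Fintype.card F = q) (m : ℕ) (hm : Odd m) (a b : F) (hab : ∀ z₁ z₂ : F, z₁ ^ 2 + a * z₁ * z₂ + b * z₂ ^ 2 = 0 → z₁ = 0 ∧ z₂ = 0) : ∃ φ : ↥(Cfsg.GU m K q) →* ↥(Cfsg.isometryGroup F (Cfsg.quadFormMinus (m - 1) F a b)), Function.Injective φ := by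
  obtain ⟨ι, -⟩ := exists_emb hK hF
  letI := ι.toAlgebra
  have n := hermF_nondeg m hK
  obtain ⟨k, rfl⟩ : ∃ k, m = k + 1 := ⟨m - 1, by obtain ⟨_, _⟩ := hm; omega⟩
  obtain ⟨e, he⟩ := minus_iso (trO_nondeg hF n) (minusF_nondeg k (disc_ne_zero_of_aniso hab)) (m := k) (by rw [finrank_res hF hK]; simp; ring)
    (by simp [two_mul]) (mt (trO_hasTS hF n (by simp)).1 (Nat.not_even_iff_odd.2 hm)) (minusF_not_hasTS k hab)
  exact emb_trans (exists_res_hom (trO_mem hF)) (guEquiv _ hK) (he.isomCongr.trans (oEquiv _).symm)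


end Cfsg.Agent.S2641
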