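import Cfsg.Statements.S2642
import Cfsg.Agent.H5.Adj

set_option autoImplicit false
open Cfsg

namespace Cfsg.Agent.S2642

open H5 Matrix

/-- Number of conjugacy classes of elements of order p in the general unitary group GU_n(q), q a power of p: every unipotent Jordan type occurs and the classes correspond to the partitions of n with all parts at most p other than the all-ones partition, exactly as in GL_n; so there are (number of partitions of n with parts ≤ p) − 1 classes. -/
theorem result {K : Type*} [Field K] [Fintype K] {p q n : ℕ} [Fact p.Prime] [CharP K p] (hK : Fintype.card K = q ^ 2) : Nat.card {C : ConjClasses ↥(Cfsg.GU n K q) // ∃ g : ↥(Cfsg.GU n K q), ConjClasses.mk g = C ∧ orderOf g = p} = (Finset.univ.filter (fun μ : Nat.Partition n => ∀ a ∈ μ.parts, a ≤ p)).card - 1 := by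
  rw [card_classes (X := {μ : Nat.Partition (Fintype.card (Fin n)) // (∀ a ∈ μ.parts, a ≤ p) ∧ ¬ ∀ a ∈ μ.parts, a ≤ 1}) fun g μ => JT (g.1.1 - 1) μ.1.parts]
  · rw [card_parts_le _ (Fact.out : p.Prime).one_le, Fintype.card_fin]
  · exact fun g => (orderOf_eq_iff_jt p ((Units.coeHom (Matrix (Fin n) (Fin n) K)).comp (Cfsg.GU n K q).subtype)
      (Units.val_injective.comp Subtype.val_injective) :)
  · exact fun μ => exists_gu_jt hK μ.1
  exact fun g g' μ ν h h' => (gu_conj_iff hK _ _).trans (isConj_sub_one_iff.trans ((h.conj_iff h').trans Subtype.ext_iff.symm))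


end Cfsg.Agent.S2642
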