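import Cfsg.Statements.S2643
import Cfsg.Agent.H5.Adj

set_option autoImplicit false
open Cfsg

namespace Cfsg.Agent.S2643

open H5 H5.Form Matrix Polynomial

/-- Regular unipotent classes of SU_n(q), n ≥ 2: the elements u of the special unitary group (isometries of Σ u_i v_i^q of determinant one over the field with q² elements) with (u − 1)^n = 0 and rank(u − 1) = n − 1 form exactly gcd(n, q + 1) conjugacy classes of SU_n(q). -/
theorem result {K : Type*} [Field K] [Fintype K] {q n : ℕ} (hK : Fintype.card K = q ^ 2) (hn : 2 ≤ n) : Nat.card {C : ConjClasses ↥(Cfsg.SU n K q) // ∃ u : ↥(Cfsg.SU n K q), ConjClasses.mk u = C ∧ (((u : GL (Fin n) K) : Matrix (Fin n) (Fin n) K) - 1) ^ n = 0 ∧ (((u : GL (Fin n) K) : Matrix (Fin n) (Fin n) K) - 1).rank = n - 1} = Nat.gcd n (q + 1) := by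
  haveI : Nonempty (Fin n) := ⟨⟨0, by omega⟩⟩
  obtain ⟨B, hB⟩ := exists_gu_jt hK (.indiscrete (Fintype.card (Fin n)))
  have n0 := hB.nil
  replace hB : JT (B.1.1 - 1) {n} := by simpa [show n ≠ 0 by omega] using hB
  let x : SU n K q := ⟨⟨B.1.1, by
    have := det_aeval_nil n0 (X + 1); rwa [map_add, map_one, aeval_X, coeff_add, coeff_X_zero, coeff_one_zero, zero_add, one_pow, sub_add_cancel] at this⟩, B.2⟩
  let μ := (powMonoidHom (q + 1) : Kˣ →* Kˣ).ker
  have m := map_det_unit (hermF_nondeg n hK) (by simp; omega)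
  let d : GU n K q →* μ := (GeneralLinearGroup.det.comp (Subgroup.subtype _)).codRestrict _ fun g => m.le ⟨_, (guEquiv n hK g).2, det_glEquiv' _⟩
  let j : SU n K q →* GU n K q := (SpecialLinearGroup.toGL.comp (Subgroup.subtype _)).codRestrict _ fun g => g.2
  erw [card_split d (fun c => ?_) j (fun a b h => Subtype.ext (SL_ext (congrArg (·.1.1) h)))
    (fun g => ⟨fun h => ⟨⟨⟨g.1.1, congrArg (·.1.1) h⟩, g.2⟩, Subtype.ext (Units.ext rfl)⟩, by rintro ⟨g, rfl⟩; exact Subtype.ext (Units.ext g.1.2)⟩) x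
    fun h => ((hB.reg_iff (by simp) (by omega)).trans (by rw [sub_add_cancel]; rfl)).trans (gu_conj_iff hK (j x) (j h)).symm,
    show Subgroup.map _ _ = (powMonoidHom n).range from ?_, IsCyclic.index_powMonoidHom_range, card_units_pow_succ hK, Nat.gcd_comm]
  swap
  · obtain ⟨g, h, e⟩ := m.ge c.2
    obtain ⟨g, rfl⟩ := glEquiv.surjective g
    exact ⟨⟨g, (mem_GU_iff n hK g).2 h⟩, Subtype.ext ((det_glEquiv' g).symm.trans e)⟩
  ext a
  refine ⟨fun ⟨g, h, e⟩ => ?_, fun ⟨c, e⟩ => ⟨(guEquiv n hK).symm ⟨scal _ c.1, (scal_mem_iff (hermF_nondeg n hK)).2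
    ((norm_eq_pow hK _).trans (congrArg Units.val c.2))⟩, Subgroup.mem_centralizer_singleton_iff.2 ((guEquiv n hK).injective (Subtype.ext (by
      simp only [map_mul, MulEquiv.apply_symm_apply]; exact (scal_comm _ _).symm))), Subtype.ext ((det_glEquiv' _).symm.trans ?_)⟩⟩
  swap
  · erw [glEquiv.apply_symm_apply, det_scal, ← e]; simp
  obtain ⟨f, hf⟩ := comm_poly (A := B.1.1 - 1) (y := g.1.1) (by simp [hB.minpoly_reg]) (by
    simpa [mul_sub, sub_mul] using show g.1.1 * B.1.1 = B.1.1 * g.1.1 from congrArg (·.1.1) (Subgroup.mem_centralizer_singleton_iff.1 h))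
  have : f.coeff 0 ^ n = a.1 := by simpa [hf, det_aeval_nil n0] using show g.1.1.det = _ from congrArg (·.1.1) e
  refine ⟨⟨Units.mk0 (f.coeff 0) fun k => a.1.ne_zero (by rw [← this, k, zero_pow (by omega)]), Units.ext ((norm_eq_pow hK _).symm.trans ?_)⟩,
    Subtype.ext (Units.ext (by simpa using this))⟩
  obtain ⟨v, h1, v0⟩ := Submodule.exists_mem_ne_zero_of_ne_bot (p := LinearMap.ker (B.1.1 - 1).mulVecLin) fun k => by
    have a := rank_add_ker (B.1.1 - 1); have b := hB 1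
    rw [k] at a; simp at a b; omega
  obtain ⟨w, hw⟩ := (hermF_nondeg n hK).exists_ne v0
  have l := (guEquiv n hK g).2.1 w v
  change (hermF n hK).B (g.1.1 *ᵥ w) (g.1.1 *ᵥ v) = _ at l
  have o := (mem_perp' _).1 (((hermF_nondeg n hK).perp_range_sub (guEquiv n hK B).2).ge (show B.1.1 *ᵥ v = v by simpa [sub_mulVec, sub_eq_zero] using h1))
    ((B.1.1 - 1) *ᵥ (aeval (B.1.1 - 1) f.divX *ᵥ w)) ⟨_, by rw [sub_mulVec, one_mulVec]; rfl⟩
  change _ *ᵥ v = 0 at h1
  rw [hf, ← f.X_mul_divX_add] at l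
  conv_lhs at l => enter [2]; rw [mul_comm]
  simp only [map_add, map_mul, aeval_X, aeval_C, add_mulVec, ← mulVec_mulVec, h1, mulVec_zero, zero_add, Algebra.algebraMap_eq_smul_one,
    smul_mulVec, one_mulVec, LinearMap.add_apply, B_smul_left, B_smul_right, o] at l
  exact mul_right_cancel₀ hw (by erw [one_mul, mul_comm (f.coeff 0), mul_assoc]; simpa using l)


end Cfsg.Agent.S2643
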