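import Cfsg.Statements.S2645
import Cfsg.Agent.H5.Ord

set_option autoImplicit false
open Cfsg

namespace Cfsg.Agent.S2645

open H5 H5.Form Module

/-- Number of conjugacy classes of elements of odd prime order r, r different from the characteristic, in the symplectic group Sp_2m(q): let i be the multiplicative order of q modulo r and t = (r − 1)/i. If i is odd the eigenvalue orbits pair off (Λ ≠ Λ⁻¹) and the classes correspond to the non-zero (t/2)-tuples (a_j) with 2i Σ a_j ≤ 2m, giving C(⌊m/i⌋ + t/2, t/2) − 1 classes; if i is even (Λ = Λ⁻¹) they correspond to the non-zero t-tuples with i Σ a_j ≤ 2m, giving C(⌊2m/i⌋ + t, t) − 1 classes. -/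
theorem result {F : Type*} [Field F] [Fintype F] {p q : ℕ} [Fact p.Prime] [CharP F p] (hF : Fintype.card F = q) (m r i t : ℕ) (hr : r.Prime) (hr2 : r ≠ 2) (hrp : r ≠ p) (hi : i = orderOf (q : ZMod r)) (ht : t * i = r - 1) : Nat.card {C : ConjClasses ↥(Matrix.symplecticGroup (Fin m) F) // ∃ g : Matrix.symplecticGroup (Fin m) F, ConjClasses.mk g = C ∧ orderOf g = r} = if Odd i then Nat.choose (m / i + t / 2) (t / 2) - 1 else Nat.choose (2 * m / i + t) t - 1 := by
  subst hF
  have := Fact.mk hr
  obtain ⟨w, j, ok, o, j0, q1, h⟩ := exists_w hr2 (κ := .symp F) (fun _ => rfl) p hrp hi ht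
  have key := fun t => card_ord_all (Φ := sympF F m) ok Even (fun k hk => by
      rw [o] at hk ⊢; simp only [finrank_fintype_fun_eq_card, Fintype.card_sum, Fintype.card_fin, ← two_mul, mul_assoc, ← Nat.mul_sub]
      exact even_two_mul _) (o ▸ even_two_mul j)
    (by
      rintro _ ⟨a, rfl⟩
      refine ⟨_, _, _, inferInstance, sympF F a, sympF_nondeg a, by simp, fun e => ?_⟩
      obtain rfl : a = j := by omega
      rw [card_isom_symp rfl (sympF_nondeg a) (m := a) (by simp [two_mul]), spOrd]
      refine Dvd.dvd.mul_left (.trans ((ZMod.natCast_eq_zero_iff _ _).1 ?_) (Finset.dvd_prod_of_mem _ (Finset.mem_range.2 (Nat.sub_one_lt j0.ne')))) _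
      rw [Nat.cast_sub (Nat.one_le_pow _ _ Fintype.card_pos), Nat.sub_add_cancel j0]; simp [q1])
    (fun U _ _ _ Ψ h1 h2 => let ⟨e, he⟩ := symp_iso h1 (sympF_nondeg m) h2; ⟨e, fun x => (he.mem_iff x).1⟩) (sympF_nondeg m) (t := t)
  rw [card_classes_congr (spEquiv m)]
  simp only [finrank_fintype_fun_eq_card, Fintype.card_sum, Fintype.card_fin, ← two_mul] at key
  split_ifs at h ⊢
  · rw [key _ h.2.1, o, h.1, Nat.mul_div_mul_left _ _ two_pos]
  · rw [key _ h.2.1, o, h.1]


end Cfsg.Agent.S2645
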