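import Cfsg.Statements.S2646
import Cfsg.Agent.H5.Cay
import Cfsg.Agent.H5.Inv3

set_option autoImplicit false
open Cfsg

namespace Cfsg.Agent.S2646

open H5 H5.Form Module Matrix Finset

/-- Order of the centraliser in the general unitary group GU_n(q) of a unipotent element of given Jordan type: if u ∈ GU_n(q) (isometries of Σ u_i v_i^q over the field with q² elements) is similar to the unipotent matrix with a_i Jordan blocks of size i (all sizes at least 1), then its centraliser in GU_n(q) has order q^γ · Π_i |GU_(a_i)(q)| with γ = 2 Σ_(i<j) i a_i a_j + Σ_i (i − 1) a_i², the same exponent as in GL_n(q), where |GU_a(q)| = q^(a(a−1)/2) Π_(k=1)^a (q^k − (−1)^k). -/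
theorem result {K : Type*} [Field K] [Fintype K] {q n t : ℕ} (hK : Fintype.card K = q ^ 2) (d : Fin t → ℕ) (hd : ∀ k, 1 ≤ d k) (e : ((k : Fin t) × Fin (d k)) ≃ Fin n) (u : ↥(Cfsg.GU n K q)) (hu : IsConj (Matrix.reindex e e (Cfsg.jordanTypeMatrix d K)) ((u : GL (Fin n) K) : Matrix (Fin n) (Fin n) K)) : (Nat.card ↥(Subgroup.centralizer ({u} : Set ↥(Cfsg.GU n K q))) : ℤ) = (q : ℤ) ^ (2 * (∑ i ∈ Finset.range (Finset.univ.sup d + 1), ∑ j ∈ Finset.range (Finset.univ.sup d + 1), if i < j then i * (Finset.univ.filter (fun k : Fin t => d k = i)).card * (Finset.univ.filter (fun k : Fin t => d k = j)).card else 0) + ∑ i ∈ Finset.range (Finset.univ.sup d + 1), (i - 1) * (Finset.univ.filter (fun k : Fin t => d k = i)).card ^ 2) * ∏ i ∈ Finset.range (Finset.univ.sup d + 1), ((q : ℤ) ^ ((Finset.univ.filter (fun k : Fin t => d k = i)).card * ((Finset.univ.filter (fun k : Fin t => d k = i)).card - 1) / 2) * ∏ j : Fin (Finset.univ.filter (fun k : Fin t => d k = i)).card, ((q : ℤ) ^ ((j : ℕ) + 1) - (-1)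 ^ ((j : ℕ) + 1))) := by
  have q2 := two_le_of_card_sq hK
  have j := (jordan_conj_iff d e _).1 hu
  have hn : finrank K (Fin n → K) = (univ.val.map d).sum := by simpa [List.sum_ofFn] using (Fintype.card_congr e).symm
  have ne : ∃ a, a - 1 * (unitK hK).σ a ≠ 0 := by
    by_contra! h
    exact conj_ne_id hK (RingHom.ext fun a => by simpa using (sub_eq_zero.1 (h a)).symm)
  obtain ⟨a, ha⟩ := ne
  obtain ⟨T, c, ad, jT⟩ := Form.exists_cay (guEquiv n hK u).2 j hn (mul_one 1) ha
  have b : ∀ a ∈ univ.val.map d, a ≤ univ.sup d := by simpa using fun k => le_sup (f := d) (mem_univ k)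
  rw [card_centralizer_congr (guEquiv n hK), c.card_centralizer, card_unip (univ.sup d) (fun _ => unitK hK) (fun _ => (tame_unit _ (conj_ne_id hK)).dual)
    (fun i => guOrd q ((univ.val.map d).count (i + 1))) (hermF_nondeg n hK) ad jT hn b (fun i _ W _ _ _ Ψ h => card_isom_unit h)
    fun i => card_filter_eq b (i + 1)]
  simp only [Fin.prod_univ_eq_prod_range fun j => (q : ℤ) ^ (j + 1) - (-1) ^ (j + 1), ← count_map_univ]
  rw [← sum_gamma, prod_range_succ', Multiset.count_eq_zero.2 (by simpa using fun k => Nat.one_le_iff_ne_zero.1 (hd k)), ← prod_pow_eq_pow_sum]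
  rw [Nat.cast_prod, prod_range_zero, Nat.zero_mul, Nat.zero_div, pow_zero, mul_one, mul_one, ← prod_mul_distrib]
  refine prod_congr rfl fun i _ => ?_
  generalize (∑ j ∈ range (univ.sup d + 1), _ : ℕ) = s
  rw [card_trace_ker, Nat.card_eq_fintype_card, hK, ← pow_mul, ← pow_add, mul_add, add_assoc, Nat.mul_div_cancel' (Nat.even_mul_pred_self s).two_dvd,
    show s * (s - 1) + s = s ^ 2 by cases s <;> simp [sq, mul_add], guOrd]
  simp [uf_cast (one_le_two.trans q2), pow_succ]


end Cfsg.Agent.S2646
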