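import Cfsg.Statements.S2668


set_option autoImplicit false
open Cfsg

namespace Cfsg.Agent.S2668

theorem tele {X : Type*} [Group X] (σ : MulAut X) (a : X) (d : ℕ) :
    ((List.range d).map (fun i => (σ ^ i) (a * (σ a)⁻¹))).prod = a * ((σ ^ d) a)⁻¹ := by
  induction d with
  | zero => simp
  | succ d ih =>
    rw [List.range_succ, List.map_append, List.prod_append, ih, pow_succ, MulAut.mul_apply]
    simp [mul_assoc]

theorem comm {X : Type*} [Group X] (σ : MulAut X) (d e : ℕ) (a : X) : (σ ^ d) ((σ ^ e) a) = (σ ^ e) ((σ ^ d) a) := by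
  rw [← MulAut.mul_apply, ← MulAut.mul_apply, pow_mul_comm]

theorem comm' {X : Type*} [Group X] (σ : MulAut X) (e : ℕ) (a : X) : σ ((σ ^ e) a) = (σ ^ e) (σ a) := by
  simpa using comm σ 1 e a

theorem fixp {X : Type*} [Group X] {σ : MulAut X} {x : X} (h : σ x = x) (d : ℕ) : (σ ^ d) x = x := by
  induction d with
  | zero => simp
  | succ d ih => rw [pow_succ, MulAut.mul_apply, h, ih]

theorem fix {X : Type*} [Group X] {σ : MulAut X} {e : ℕ} {a : X} (h : (σ ^ e) (a * (σ a)⁻¹) = a * (σ a)⁻¹) :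
    σ (((σ ^ e) a)⁻¹ * a) = ((σ ^ e) a)⁻¹ * a := by
  rw [map_mul, map_inv] at h
  rw [map_mul, map_inv, comm', eq_inv_mul_of_mul_eq h]
  group

/-- Shintani descent and powers (abstract form). Let `σ` be an automorphism of a group `X`, `e ≥ 1` and `d ≥ 1`, let `g` be fixed by `σᵉ` and let `a` satisfy `g = a σ(a)⁻¹`, so that the Shintani map of `(X, σ, e)` sends the class of `g σ` to the class of `x = σᵉ(a)⁻¹ a`. Put `h = g σ(g) ⋯ σ^(d-1)(g)`, the part in `X` of the `d`-th power `(g σ)^d = h σ^d`. Then `h = a σ^d(a)⁻¹` (so `a` also serves for `h` with respect to `σ^d`), `h` is fixed by `(σ^d)ᵉ`, and `(σ^d)ᵉ(a)⁻¹ a = x^d`: the Shintani map of `(X, σ^d, e)` sends the class of `(g σ)^d` to the class of `x^d`. (When `d` divides `e`, the Shintani map of `(X, σ^d, e/d)` sends it to the class of `x` itself, since `(σ^d)^(e/d) = σᵉ`.) -/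
theorem result {X : Type*} [Group X] (σ : MulAut X) (e d : ℕ) (he : 1 ≤ e) (hd : 1 ≤ d)
    (g : X) (hg : g ∈ (MulEquiv.toMonoidHom (σ ^ e)).eqLocus (MonoidHom.id X)) (a : X) (ha : g = a * (σ a)⁻¹) :
    ((List.range d).map (fun i => (σ ^ i) g)).prod = a * ((σ ^ d) a)⁻¹ ∧
      ((List.range d).map (fun i => (σ ^ i) g)).prod ∈ (MulEquiv.toMonoidHom ((σ ^ d) ^ e)).eqLocus (MonoidHom.id X) ∧
      (((σ ^ d) ^ e) a)⁻¹ * a = (((σ ^ e) a)⁻¹ * a) ^ d := by
  subst ha
  have hx := fix (σ := σ) (e := e) (a := a) hg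
  obtain ⟨x, hx'⟩ : ∃ x, x = ((σ ^ e) a)⁻¹ * a := ⟨_, rfl⟩
  rw [← hx'] at hx ⊢
  have ha : (σ ^ e) a = a * x⁻¹ := by rw [hx']; group
  have hp : (σ ^ d) ^ e = (σ ^ e) ^ d := by rw [← pow_mul, ← pow_mul, mul_comm]
  rw [tele, hp]
  refine ⟨rfl, fixp ?_ d, ?_⟩
  · rw [map_mul, map_inv, comm, ha, map_mul, map_inv, fixp hx]
    group
  · have : ∀ n, ((σ ^ e) ^ n) a = a * (x ^ n)⁻¹ := fun n => by
      induction n with
      | zero => simp
      | succ n ih =>
        rw [pow_succ, MulAut.mul_apply, ha, map_mul, map_inv, ih, fixp (fixp hx e)]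
        group
    rw [this]
    group

end Cfsg.Agent.S2668
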