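import Cfsg.Statements.S2666
import Cfsg.Agent.S2668

set_option autoImplicit false
open Cfsg

namespace Cfsg.Agent.S2666

theorem k1 {X : Type*} [Group X] {σ : MulAut X} {a b k : X} :
    b * (σ b)⁻¹ = k * (a * (σ a)⁻¹) * (σ k)⁻¹ ↔ σ (b⁻¹ * k * a) = b⁻¹ * k * a := by
  rw [map_mul, map_mul, map_inv]
  constructor
  · intro h
    rw [eq_inv_mul_of_mul_eq h]
    group
  · intro h
    rw [eq_mul_inv_of_mul_eq (eq_mul_inv_of_mul_eq h)]
    group

theorem k2 {X : Type*} [Group X] {τ : MulAut X} {a b k : X} (h : τ (b⁻¹ * k * a) = b⁻¹ * k * a) :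
    τ k = k ↔ (τ b)⁻¹ * b = (b⁻¹ * k * a) * ((τ a)⁻¹ * a) * (b⁻¹ * k * a)⁻¹ := by
  rw [map_mul, map_mul, map_inv] at h
  rw [eq_mul_inv_of_mul_eq (eq_mul_inv_of_mul_eq h)]
  constructor
  · intro h
    rw [h]; group
  · intro h'
    have : (τ k)⁻¹ = (b⁻¹ * k * a * (τ a)⁻¹)⁻¹ * (b⁻¹ * k * a * (τ a)⁻¹ * (τ k)⁻¹ * b) * b⁻¹ := by group
    rw [h'] at this
    apply inv_injective
    rw [this]; group

/-- Shintani descent, in an abstract form. Let `σ` be an automorphism of a group `X` such that the maps `a ↦ a·σ(a)⁻¹` and `a ↦ a·σᵉ(a)⁻¹` are surjective on `X` (the Lang–Steinberg property, which holds when `X` is a connected algebraic group and `σ` a Steinberg endomorphism), where `e ≥ 1`. Write `G` for the subgroup of fixed points of `σᵉ` and `H` for the subgroup of fixed points of `σ`. The `G`-conjugacy classes in the coset `G σ` of the semidirect product of `G` by `σ` correspond to the orbits of `G` on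 itself under twisted conjugation `g ↦ k g σ(k)⁻¹`, and the `e`-th power of `g σ` has `G`-part the norm `g σ(g) ⋯ σ^(e-1)(g)`. For `g` in `G` and any `a` with `g = a σ(a)⁻¹`, put `x = σᵉ(a)⁻¹ a`. Then: (1) `x` lies in `H`, and `a⁻¹ · (g σ(g) ⋯ σ^(e-1)(g)) · a = x`; (2) for `g, g'` in `G` with such elements `a, b` and `x, x'`, the elements `g, g'` are twisted-conjugate under `G` if and only if `x, x'` are conjugate in `H`; (3) every element of `H` arises as such an `x`. So `g ↦ x` induces a well-defined bijection from the twisted `G`-classes of `G` onto the conjugacy classes of `H` (the Shintani map). -/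
theorem result {X : Type*} [Group X] (σ : MulAut X) (e : ℕ) (he : 1 ≤ e)
    (hL : ∀ g : X, ∃ a : X, g = a * (σ a)⁻¹) (hLe : ∀ g : X, ∃ a : X, g = a * ((σ ^ e) a)⁻¹) :
    (∀ g ∈ (MulEquiv.toMonoidHom (σ ^ e)).eqLocus (MonoidHom.id X), ∀ a : X, g = a * (σ a)⁻¹ →
        ((σ ^ e) a)⁻¹ * a ∈ (MulEquiv.toMonoidHom σ).eqLocus (MonoidHom.id X) ∧
          a⁻¹ * ((List.range e).map (fun i => (σ ^ i) g)).prod * a = ((σ ^ e) a)⁻¹ * a) ∧
    (∀ g ∈ (MulEquiv.toMonoidHom (σ ^ e)).eqLocus (MonoidHom.id X), ∀ g' ∈ (MulEquiv.toMonoidHom (σ ^ e)).eqLocus (MonoidHom.id X), ∀ a b : X,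
        g = a * (σ a)⁻¹ → g' = b * (σ b)⁻¹ →
          ((∃ k ∈ (MulEquiv.toMonoidHom (σ ^ e)).eqLocus (MonoidHom.id X), g' = k * g * (σ k)⁻¹) ↔
            (∃ h ∈ (MulEquiv.toMonoidHom σ).eqLocus (MonoidHom.id X), ((σ ^ e) b)⁻¹ * b = h * (((σ ^ e) a)⁻¹ * a) * h⁻¹))) ∧
    (∀ x ∈ (MulEquiv.toMonoidHom σ).eqLocus (MonoidHom.id X), ∃ g ∈ (MulEquiv.toMonoidHom (σ ^ e)).eqLocus (MonoidHom.id X), ∃ a : X,
        g = a * (σ a)⁻¹ ∧ ((σ ^ e) a)⁻¹ * a = x) := by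
  refine ⟨fun g hg a ha => ?_, fun g hg g' hg' a b ha hb => ?_, fun x hx => ?_⟩
  · subst ha
    refine ⟨S2668.fix hg, ?_⟩
    rw [S2668.tele]; group
  · subst ha hb
    constructor
    · rintro ⟨k, hk, h⟩
      exact ⟨_, k1.1 h, (k2 (S2668.fixp (k1.1 h) e)).1 hk⟩
    · rintro ⟨h, hh, h'⟩
      have e1 : b⁻¹ * (b * h * a⁻¹) * a = h := by group
      refine ⟨b * h * a⁻¹, (k2 (a := a) (b := b) ?_).2 ?_, k1.2 ?_⟩ <;> rw [e1]
      exacts [S2668.fixp hh e, h', hh]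
  · obtain ⟨c, hc⟩ := hLe x⁻¹
    have hx : σ x = x := hx
    have h1 : (σ ^ e) c = x * c := by rw [← inv_inv x, hc]; group
    refine ⟨_, ?_, c⁻¹, rfl, by rw [map_inv, h1]; group⟩
    show (σ ^ e) (c⁻¹ * (σ c⁻¹)⁻¹) = c⁻¹ * (σ c⁻¹)⁻¹
    simp only [map_mul, map_inv, ← S2668.comm', h1, hx]
    group

end Cfsg.Agent.S2666
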