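import Cfsg.Statements.S2669
import Cfsg.Agent.S2666

set_option autoImplicit false
open Cfsg

namespace Cfsg.Agent.S2669

theorem card_sub {ι X F : Type*} (p : ι → X → Prop) (e : ∀ i, Nonempty ({x // p i x} ≃ F)) :
    Nat.card {z : ι × X // p z.1 z.2} = Nat.card ι * Nat.card F := by
  rw [← Nat.card_prod]
  exact Nat.card_congr ((Equiv.subtypeProdEquivSigmaSubtype p).trans
    ((Equiv.sigmaCongrRight fun i => (e i).some).trans (Equiv.sigmaEquivProd _ _)))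

/-- Shintani descent preserves numbers of fixed points on coset spaces (abstract form). Let `σ` be an automorphism of a group `X` and `e ≥ 1`; write `G` for the fixed points of `σᵉ` and `H` for the fixed points of `σ`, and assume `G` is finite. Let `Y` be a `σ`-stable subgroup of `X` on which the maps `a ↦ a σ(a)⁻¹` and `a ↦ a σᵉ(a)⁻¹` are surjective (as for a closed connected `σ`-stable subgroup of an algebraic group). Let `g ∈ G`, let `a ∈ X` satisfy `g = a σ(a)⁻¹` and put `x = σᵉ(a)⁻¹ a` (the Shintani image, an element of `H`). The element `g σ` of the semidirect product acts on the cosets of `Y ∩ G` in `G` by `k (Y ∩ G) ↦ g σ(k) (Y ∩ G)`, fixing that coset exactly when `k⁻¹ g σ(k) ∈ Y`; and `x` fixes the coset `h (Y ∩ H)` of `H` exactly when `h⁻¹ x h ∈ Y`. Then the two numbers of fixed cosets agree; in cross-multiplied form, `#{k ∈ G : k⁻¹ g σ(k) ∈ Y} · |Y ∩ H|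 = #{h ∈ H : h⁻¹ x h ∈ Y} · |Y ∩ G|`. -/
theorem result {X : Type*} [Group X] (σ : MulAut X) (e : ℕ) (he : 1 ≤ e)
    [Finite ↥((MulEquiv.toMonoidHom (σ ^ e)).eqLocus (MonoidHom.id X))]
    (Y : Subgroup X) (hY : ∀ y : X, y ∈ Y ↔ σ y ∈ Y)
    (hYL : ∀ y ∈ Y, ∃ a ∈ Y, y = a * (σ a)⁻¹) (hYLe : ∀ y ∈ Y, ∃ a ∈ Y, y = a * ((σ ^ e) a)⁻¹)
    (g : X) (hg : g ∈ (MulEquiv.toMonoidHom (σ ^ e)).eqLocus (MonoidHom.id X)) (a : X) (ha : g = a * (σ a)⁻¹) :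
    Nat.card {k : ↥((MulEquiv.toMonoidHom (σ ^ e)).eqLocus (MonoidHom.id X)) // (k : X)⁻¹ * g * σ k ∈ Y} *
        Nat.card ↥(Y ⊓ (MulEquiv.toMonoidHom σ).eqLocus (MonoidHom.id X)) =
      Nat.card {h : ↥((MulEquiv.toMonoidHom σ).eqLocus (MonoidHom.id X)) // (h : X)⁻¹ * (((σ ^ e) a)⁻¹ * a) * h ∈ Y} *
        Nat.card ↥(Y ⊓ (MulEquiv.toMonoidHom (σ ^ e)).eqLocus (MonoidHom.id X)) := by
  subst ha
  have hYe : ∀ n : ℕ, ∀ y ∈ Y, (σ ^ n) y ∈ Y := fun n y hy => by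
    induction n with
    | zero => simpa using hy
    | succ n ih => rw [pow_succ', MulAut.mul_apply]; exact (hY _).1 ih
  rw [← card_sub (fun k c => c ∈ Y ∧ σ (a⁻¹ * k.1.1 * c) = a⁻¹ * k.1.1 * c),
    ← card_sub (fun h c => c ∈ Y ∧ (σ ^ e) (a * h.1.1 * c⁻¹) = a * h.1.1 * c⁻¹)]
  · refine Nat.card_congr ⟨fun z => ⟨(⟨⟨a⁻¹ * z.1.1.1.1 * z.1.2, z.2.2⟩, ?_⟩, z.1.2), z.2.1, ?_⟩,
      fun z => ⟨(⟨⟨a * z.1.1.1.1 * z.1.2⁻¹, z.2.2⟩, ?_⟩, z.1.2), z.2.1, ?_⟩, fun z => ?_, fun z => ?_⟩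
    · obtain ⟨⟨⟨⟨k, hk⟩, h0⟩, c⟩, hc, h⟩ := z
      have := (S2666.k2 (S2668.fixp h e)).1 hk
      dsimp only
      rw [this]
      convert Y.mul_mem (Y.inv_mem (hYe e c hc)) hc using 1
      group
    · obtain ⟨⟨⟨⟨k, hk⟩, h0⟩, c⟩, hc, h⟩ := z
      dsimp only
      have : a * (a⁻¹ * k * c) * c⁻¹ = k := by group
      rw [this]; exact hk
    · obtain ⟨⟨⟨⟨h, hh⟩, h0⟩, c⟩, hc, h'⟩ := z
      have hh : σ h = h := hh
      dsimp only
      simp only [map_mul, map_inv, hh]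
      convert Y.mul_mem hc (Y.inv_mem ((hY c).1 hc)) using 1
      group
    · obtain ⟨⟨⟨⟨h, hh⟩, h0⟩, c⟩, hc, h'⟩ := z
      dsimp only
      have : a⁻¹ * (a * h * c⁻¹) * c = h := by group
      rw [this]; exact hh
    · ext <;> simp [mul_assoc]
    · ext <;> simp [mul_assoc]
  · rintro ⟨⟨h, hh⟩, h0⟩
    have hh : (σ ^ e) h = h := S2668.fixp hh e
    obtain ⟨c, hc, h1⟩ := hYLe _ (Y.inv_mem h0)
    dsimp only at h1 ⊢
    have h2 : (σ ^ e) (a * h * c) = a * h * c := by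
      rw [map_mul, map_mul, hh, ← inv_inv ((σ ^ e) c), ← inv_mul_eq_iff_eq_mul.2 h1]
      group
    refine ⟨⟨fun y => ⟨c⁻¹ * y.1⁻¹, Y.mul_mem (Y.inv_mem hc) (Y.inv_mem y.2.1), ?_⟩,
      fun y => ⟨(c * y.1)⁻¹, Y.inv_mem (Y.mul_mem hc y.2.1), ?_⟩, fun y => by simp, fun y => Subtype.ext (by simp)⟩⟩
    · have : c⁻¹ * y.1⁻¹ = (a * h * c)⁻¹ * (a * h * y.1⁻¹) := by group
      show (σ ^ e) _ = _
      rw [this, map_mul, map_inv, h2, y.2.2]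
      rfl
    · have : (σ ^ e) y.1 = y.1 := y.2.2
      rw [inv_inv, ← mul_assoc, map_mul, h2, this]
  · rintro ⟨⟨k, hk⟩, h0⟩
    obtain ⟨c, hc, h1⟩ := hYL _ h0
    dsimp only at h1 ⊢
    have h2 : σ (a⁻¹ * k * c) = a⁻¹ * k * c := by
      refine S2666.k1.1 ?_
      rw [← h1]; group
    refine ⟨⟨fun y => ⟨c⁻¹ * y.1, Y.mul_mem (Y.inv_mem hc) y.2.1, ?_⟩,
      fun y => ⟨c * y.1, Y.mul_mem hc y.2.1, ?_⟩, fun y => by simp, fun y => Subtype.ext (by simp)⟩⟩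
    · have : c⁻¹ * y.1 = (a⁻¹ * k * c)⁻¹ * (a⁻¹ * k * y.1) := by group
      show σ _ = _
      rw [this, map_mul, map_inv, h2, y.2.2]
      rfl
    · have : σ y.1 = y.1 := y.2.2
      rw [← mul_assoc, map_mul, h2, this]

end Cfsg.Agent.S2669
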