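import Cfsg.Statements.S2671
import Cfsg.Agent.H5.Ord

set_option autoImplicit false
open Cfsg

namespace Cfsg.Agent.S2671

open H5 H5.Form Module

/-- Number of conjugacy classes of elements of odd prime order r in the general unitary group GU_n(q), for r not dividing q(q + 1): let i be the multiplicative order of q modulo r, b = i if i is odd and b = i/2 if i is even, and s = (r − 1)/b. If i ≢ 2 (mod 4) the eigenvalue orbits pair off into dual pairs of totally isotropic blocks and there are C(⌊n/(2b)⌋ + s/2, s/2) − 1 classes; if i ≡ 2 (mod 4) each orbit gives a non-degenerate block of dimension i/2 and there are C(⌊2n/i⌋ + s, s) − 1 classes. -/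
theorem result {K : Type*} [Field K] [Fintype K] {p q n r i b s : ℕ} [Fact p.Prime] [CharP K p] (hK : Fintype.card K = q ^ 2) (hr : r.Prime) (hr2 : r ≠ 2) (hrp : r ≠ p) (hi : i = orderOf (q : ZMod r)) (hi2 : i ≠ 2) (hb : b = if Odd i then i else i / 2) (hs : s * b = r - 1) : Nat.card {C : ConjClasses ↥(Cfsg.GU n K q) // ∃ g : ↥(Cfsg.GU n K q), ConjClasses.mk g = C ∧ orderOf g = r} = if i % 4 = 2 then Nat.choose (2 * n / i + s) s - 1 else Nat.choose (n / (2 * b) + s / 2) (s / 2) - 1 := by
  have := Fact.mk hr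
  have r0 := cast_ne (F := K) p hr hrp
  obtain ⟨p', k, pp, _, -, hq⟩ := exists_pow_of_card_sq hK
  have q0 : (q : ZMod r) ≠ 0 := fun e => by
    have := ord_pos hr r0
    rw [hK] at this
    simp [e] at this
  obtain ⟨u, hu⟩ := q0.isUnit
  have o : orderOf u = i := by rw [hi, ← hu, orderOf_units]
  have ok : OrdOK (unitK hK) (-u) := ⟨hr2, r0, p', k, pp, ‹_›, fun a => hq ▸ rfl, .inr (.inl (by rw [← hq, Units.val_neg, hu]))⟩
  have key := fun t => card_ord_all (Φ := hermF n hK) ok (fun _ => True) (fun _ _ => trivial) trivial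
    (fun a _ => ⟨_, _, _, inferInstance, hermF a hK, hermF_nondeg a hK, by simp, fun e => by
      have a0 : 0 < a := e ▸ orderOf_pos _
      rw [card_isom_unit (hermF_nondeg a hK) (n := a) (by simp), guOrd]
      refine Dvd.dvd.mul_left (.trans ((ZMod.natCast_eq_zero_iff _ _).1 ?_) (Finset.dvd_prod_of_mem _ (Finset.mem_range.2 (Nat.sub_one_lt a0.ne')))) _
      have := congrArg (Int.cast : ℤ → ZMod r) (uf_cast (by have := two_le_of_card_sq hK; omega : 1 ≤ q) (a - 1))
      have e2 := congrArg Units.val (pow_orderOf_eq_one (-u))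
      obtain ⟨a, rfl⟩ := Nat.exists_eq_add_one_of_ne_zero a0.ne'
      rw [← e, Units.val_pow_eq_pow_val, Units.val_neg, hu, neg_pow, Units.val_one] at e2
      push_cast at this
      rw [Nat.add_sub_cancel, this]
      linear_combination (-(-1) ^ a) * e2 - (q : ZMod r) ^ (a + 1) * (show Even (a + a) from ⟨a, rfl⟩).neg_one_pow (α := ZMod r)⟩)
    (fun U _ _ _ Ψ h1 h2 => let ⟨e, he⟩ := unit_iso h1 (hermF_nondeg n hK) h2; ⟨e, fun x => (he.mem_iff x).1⟩) (hermF_nondeg n hK) (t := t)
  rw [card_classes_congr (guEquiv n hK)]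
  simp only [finrank_fintype_fun_eq_card, Fintype.card_fin] at key
  have i0 : 0 < i := o ▸ orderOf_pos u
  have h2 : orderOf (-u) = 2 * b → s / 2 * orderOf (-u) = r - 1 := fun e => by
    have := card_orb (-u)
    have b0 := orderOf_pos (-u)
    rw [e, ← hs] at *
    rw [← Nat.eq_of_mul_eq_mul_right (by omega) ((mul_assoc _ _ _).trans this), Nat.mul_div_cancel _ two_pos, mul_assoc]
  by_cases c : Odd i
  · have e : orderOf (-u) = 2 * b := by rw [orderOf_neg_odd hr2 u (o ▸ c), o, hb, if_pos c]
    rw [if_neg (by have := Nat.odd_iff.1 c; omega), key _ (h2 e), e]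
  obtain ⟨j, rfl⟩ := (Nat.not_odd_iff_even.1 c).two_dvd
  rw [if_neg c, Nat.mul_div_cancel_left _ two_pos] at hb
  subst hb
  have e := orderOf_neg_even u o
  split_ifs at e ⊢ with c1 c2 c2
  · rw [key s (by rw [e, hs]), e, Nat.mul_div_mul_left _ _ two_pos]
  all_goals try (simp only [Nat.odd_iff] at *; omega)
  · rw [key _ (h2 e), e]


end Cfsg.Agent.S2671
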