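import Cfsg.Statements.S2673
import Cfsg.Agent.H5.Ord

set_option autoImplicit false
open Cfsg

namespace Cfsg.Agent.S2673

open H5 H5.Form Module

/-- Number of conjugacy classes of elements of odd prime order r ≠ p in the orthogonal group O_(2m+1)(q) of x_0² + Σ x_j y_j, q odd: with i the multiplicative order of q mod r and t = (r − 1)/i, there are C(⌊m/i⌋ + t/2, t/2) − 1 classes if i is odd (dual pairs of totally singular i-blocks) and C(⌊(2m+1)/i⌋ + t, t) − 1 if i is even (elliptic i-blocks). -/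
theorem result {F : Type*} [Field F] [Fintype F] {p q : ℕ} [Fact p.Prime] [CharP F p] (hF : Fintype.card F = q) (hq : Odd q) (m r i t : ℕ) (hr : r.Prime) (hr2 : r ≠ 2) (hrp : r ≠ p) (hi : i = orderOf (q : ZMod r)) (ht : t * i = r - 1) : Nat.card {C : ConjClasses ↥(Cfsg.isometryGroup F (Cfsg.quadFormOdd m F)) // ∃ g : ↥(Cfsg.isometryGroup F (Cfsg.quadFormOdd m F)), ConjClasses.mk g = C ∧ orderOf g = r} = if Odd i then Nat.choose (m / i + t / 2) (t / 2) - 1 else Nat.choose ((2 * m + 1) / i + t) t - 1 := by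
  subst hF
  have := Fact.mk hr
  have h2 := two_ne_zero_of_odd hq
  obtain ⟨w, j, ok, o, j0, q1, h⟩ := exists_w hr2 (κ := .orth F) (fun _ => rfl) p hrp hi ht
  have d : ∀ a, finrank F (Unit ⊕ (Fin a ⊕ Fin a) → F) = 2 * a + 1 := fun a => by simp; ring
  have key := fun t => card_ord_all (Φ := oddF F m) ok (fun n => Odd n ∨ n = 2 * j) (fun k hk => .inl (by
      rw [o, d, mul_assoc] at *
      exact ⟨m - j * k, by omega⟩)) (.inr o)
    (by
      rintro _ (⟨a, rfl⟩ | rfl)
      · exact ⟨_, _, _, inferInstance, oddF F a, oddF_nondeg h2 a, d a, fun e => by omega⟩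
      · obtain ⟨j, rfl⟩ := Nat.exists_eq_add_one_of_ne_zero j0.ne'
        obtain ⟨U, _, _, _, Ψ, h1, h2, h3⟩ := orth_block q1
        exact ⟨U, _, _, ‹_›, Ψ, h1, h2, fun _ => h3⟩)
    (fun U _ _ _ Ψ h1 h3 => by
      obtain ⟨e, c, -, he⟩ := odd_sim h1 (oddF_nondeg h2 m) (h3.trans (d m)) (d m)
      refine ⟨e, fun x hx => (mem_isom_orth _).2 fun y => ?_⟩
      rw [autCongr_apply, he, hx.2, ← he, e.apply_symm_apply]) (oddF_nondeg h2 m) (t := t)
  refine (card_classes_congr (oEquiv (oddF F m)) r).trans ?_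
  rw [d] at key
  split_ifs at h ⊢
  · rw [key _ h.2.1, o, h.1, ← Nat.div_div_eq_div_mul, show (2 * m + 1) / 2 = m by omega]
  · rw [key _ h.2.1, o, h.1]


end Cfsg.Agent.S2673
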