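import Cfsg.Statements.S2674
import Cfsg.Agent.H5.Ord

set_option autoImplicit false
open Cfsg

namespace Cfsg.Agent.S2674

open H5 H5.Form Module

theorem pascal {M t : ℕ} (hM : 0 < M) (ht : 0 < t) : (M - 1 + t).choose t - 1 = (M + t).choose t - 1 - (M + t - 1).choose (t - 1) := by
  obtain ⟨M, rfl⟩ := Nat.exists_eq_add_one_of_ne_zero hM.ne'
  obtain ⟨t, rfl⟩ := Nat.exists_eq_add_one_of_ne_zero ht.ne'
  rw [show M + 1 + (t + 1) = (M + t + 1) + 1 by ring, Nat.choose_succ_succ', show M + 1 - 1 + (t + 1) = M + t + 1 by omega]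
  simp only [Nat.add_sub_cancel]
  omega

theorem bound {j m : ℕ} (j0 : 0 < j) (P : ℕ → Prop) (k : ℕ) (h : ∀ k, j * k = m → P k) : k ≤ m / j ↔ j * k < m ∨ j * k = m ∧ P k := by
  rw [Nat.le_div_iff_mul_le j0, mul_comm, le_iff_lt_or_eq]
  exact or_congr_right (iff_self_and.2 (h k))

theorem bound' {j m : ℕ} (j0 : 0 < j) (m0 : 0 < m) (d : j ∣ m) (P : ℕ → Prop) (k : ℕ) (h : ¬ P (m / j)) :
    k ≤ m / j - 1 ↔ j * k < m ∨ j * k = m ∧ P k := by
  obtain ⟨c, rfl⟩ := d
  rw [Nat.mul_div_cancel_left _ j0] at *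
  have : 0 < c := Nat.pos_of_mul_pos_left m0
  rw [Nat.mul_lt_mul_left j0, Nat.mul_right_inj j0.ne']
  exact ⟨fun _ => .inl (by omega), fun e => e.elim (by omega) fun e => absurd (e.1 ▸ e.2) h⟩

/-- Number of conjugacy classes of elements of odd prime order r ≠ p in the orthogonal group O⁺_2m(q) of Σ x_j y_j (m ≥ 1): with i the multiplicative order of q mod r and t = (r − 1)/i — if i is odd, C(⌊m/i⌋ + t/2, t/2) − 1; if i is even, C(⌊2m/i⌋ + t, t) − 1 minus, when i divides 2m with odd quotient, the C(2m/i + t − 1, t − 1) tuples using the whole space (an odd number of elliptic i-blocks fills an elliptic, not a hyperbolic, space). -/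
theorem result {F : Type*} [Field F] [Fintype F] {p q : ℕ} [Fact p.Prime] [CharP F p] (hF : Fintype.card F = q) (m r i t : ℕ) (hm : 1 ≤ m) (hr : r.Prime) (hr2 : r ≠ 2) (hrp : r ≠ p) (hi : i = orderOf (q : ZMod r)) (ht : t * i = r - 1) : Nat.card {C : ConjClasses ↥(Cfsg.isometryGroup F (Cfsg.quadFormPlus m F)) // ∃ g : ↥(Cfsg.isometryGroup F (Cfsg.quadFormPlus m F)), ConjClasses.mk g = C ∧ orderOf g = r} = if Odd i then Nat.choose (m / i + t / 2) (t / 2) - 1 else Nat.choose (2 * m / i + t) t - 1 - (if i ∣ 2 * m ∧ Odd (2 * m / i) then Nat.choose (2 * m / i + t - 1) (t - 1) else 0) := by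
  subst hF
  have := Fact.mk hr
  obtain ⟨w, j, ok, o, j0, q1, h⟩ := exists_w hr2 (κ := .orth F) (fun _ => rfl) p hrp hi ht
  have key := fun M hM t => card_ord_even (Φ := plusF F m) (t := t) ok (plusF_nondeg m) (m := m) (by simp [two_mul]) o q1 M hM
  refine (card_classes_congr (oEquiv (plusF F m)) r).trans ?_
  simp only [plusF_hasTS, true_iff] at key
  by_cases c : Odd i <;> simp only [c, if_true, if_false] at h ⊢
  · rw [← h.1, key _ (fun k => bound j0 (fun _ => _) k (by rintro k rfl; rw [h.1, hi, pow_mul, pow_orderOf_eq_one, one_pow])) _ h.2.1]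
  obtain ⟨rfl, h1, h2, h3⟩ := h
  simp only [Nat.mul_div_mul_left _ _ two_pos, Nat.mul_dvd_mul_iff_left two_pos]
  split_ifs with c
  · rw [← pascal (Nat.div_pos (Nat.le_of_dvd hm c.1) j0) h2, key _ (fun k => bound' j0 hm c.1 (fun _ => _) k ?_) _ h1]
    rw [← Nat.mul_div_cancel' c.1, h3]; exact Nat.not_even_iff_odd.2 c.2
  · rw [Nat.sub_zero, key _ (fun k => bound j0 (fun _ => _) k ?_) _ h1]
    rintro k rfl
    rw [h3]; simpa [Nat.mul_div_cancel_left _ j0] using c


end Cfsg.Agent.S2674
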