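import Cfsg.Statements.S2675
import Cfsg.Agent.H5.Ord
import Cfsg.Agent.S2674

set_option autoImplicit false
open Cfsg

namespace Cfsg.Agent.S2675

open H5 H5.Form Module S2674

/-- Number of conjugacy classes of elements of odd prime order r ≠ p in the orthogonal group O⁻_2m(q) of an elliptic form Σ_(j<m−1) x_j y_j + z₁² + a z₁z₂ + c z₂² (binary part anisotropic, m ≥ 1): with i the multiplicative order of q mod r and t = (r − 1)/i — if i is odd, C(⌊m/i⌋ + t/2, t/2) − 1 minus, when i divides m, the C(m/i + t/2 − 1, t/2 − 1) tuples filling the whole space (dual pairs of totally singular blocks fill a hyperbolic space); if i is even, C(⌊2m/i⌋ + t, t) − 1 minus, when i divides 2m with even quotient, the C(2m/i + t − 1, t − 1) tuples filling the whole space with an even number of elliptic blocks. -/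
theorem result {F : Type*} [Field F] [Fintype F] {p q : ℕ} [Fact p.Prime] [CharP F p] (hF : Fintype.card F = q) (m r i t : ℕ) (hm : 1 ≤ m) (a c : F) (hac : ∀ z₁ z₂ : F, z₁ ^ 2 + a * z₁ * z₂ + c * z₂ ^ 2 = 0 → z₁ = 0 ∧ z₂ = 0) (hr : r.Prime) (hr2 : r ≠ 2) (hrp : r ≠ p) (hi : i = orderOf (q : ZMod r)) (ht : t * i = r - 1) : Nat.card {C : ConjClasses ↥(Cfsg.isometryGroup F (Cfsg.quadFormMinus (m - 1) F a c)) // ∃ g : ↥(Cfsg.isometryGroup F (Cfsg.quadFormMinus (m - 1) F a c)), ConjClasses.mk g = C ∧ orderOf g = r} = if Odd i then Nat.choose (m / i + t / 2) (t / 2) - 1 - (if i ∣ m then Nat.choose (m / i + t / 2 - 1) (t / 2 - 1) else 0) else Nat.choose (2 * m / i + t) t - 1 - (if i ∣ 2 * m ∧ Even (2 * m / i) then Nat.choose (2 * m / i + t - 1) (t - 1) else 0) := by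
  subst hF
  have := Fact.mk hr
  obtain ⟨w, j, ok, o, j0, q1, h⟩ := exists_w hr2 (κ := .orth F) (fun _ => rfl) p hrp hi ht
  have key := fun M hM t => card_ord_even (Φ := minusF (m - 1) a c) (t := t) ok (minusF_nondeg _ (disc_ne_zero_of_aniso hac)) (m := m)
    (by simp; omega) o q1 M hM
  refine (card_classes_congr (oEquiv (minusF (m - 1) a c)) r).trans ?_
  have nt := minusF_not_hasTS (m - 1) hac
  rw [Nat.sub_add_cancel hm] at nt
  simp only [nt, false_iff] at key
  by_cases c : Odd i <;> simp only [c, if_true, if_false] at h ⊢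
  · obtain ⟨rfl, h1, h2⟩ := h
    split_ifs with c
    · rw [← pascal (Nat.div_pos (Nat.le_of_dvd hm c) j0) h2, key _ (fun k => bound' j0 hm c (fun _ => _) k ?_) _ h1]
      rw [not_not, ← orderOf_dvd_iff_pow_eq_one, ← hi]; exact c
    · rw [Nat.sub_zero, key _ (fun k => bound j0 (fun _ => _) k ?_) _ h1]
      exact fun k e => absurd ⟨k, e.symm⟩ c
  obtain ⟨rfl, h1, h2, h3⟩ := h
  simp only [Nat.mul_div_mul_left _ _ two_pos, Nat.mul_dvd_mul_iff_left two_pos]
  split_ifs with c
  · rw [← pascal (Nat.div_pos (Nat.le_of_dvd hm c.1) j0) h2, key _ (fun k => bound' j0 hm c.1 (fun _ => _) k ?_) _ h1]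
    rw [← Nat.mul_div_cancel' c.1, h3]; exact not_not.2 c.2
  · rw [Nat.sub_zero, key _ (fun k => bound j0 (fun _ => _) k ?_) _ h1]
    rintro k rfl
    rw [h3]; simpa [Nat.mul_div_cancel_left _ j0] using c


end Cfsg.Agent.S2675
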