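import Cfsg.Statements.S2678
import Cfsg.Agent.H5.Tr

set_option autoImplicit false
open Cfsg

namespace Cfsg.Agent.S2678

open H5 H5.Form Module Matrix

/-- Field-extension embedding of symplectic groups: for a field K with q² elements and a field F with q elements there is an injective homomorphism Sp_2a(K) → Sp_4a(F). -/
theorem result {K F : Type*} [Field K] [Fintype K] [Field F] [Fintype F] {q : ℕ} (hK : Fintype.card K = q ^ 2) (hF : Fintype.card F = q) (a : ℕ) : ∃ φ : ↥(Matrix.symplecticGroup (Fin a) K) →* ↥(Matrix.symplecticGroup (Fin (2 * a)) F), Function.Injective φ := by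
  obtain ⟨ι, -⟩ := exists_emb hK hF
  letI := ι.toAlgebra
  obtain ⟨e, he⟩ := symp_iso (Φ := ofAlt ((sympF K a).trB (trL hF hK 1) fun _ => rfl) fun x => by
      change trL hF hK 1 _ = 0; rw [symp_self, map_zero])
    ((sympF_nondeg a).tr (trL_ne hF (hK := hK) one_ne_zero) fun _ _ => rfl) (sympF_nondeg (2 * a)) (by rw [finrank_res hF hK]; simp; ring)
  exact emb_trans (exists_res_hom fun g hg => (mem_isom_symp _).2 fun x y => congrArg (trL hF hK 1) (hg.1 x y)) (spEquiv a)
    (he.isomCongr.trans (spEquiv _).symm)


end Cfsg.Agent.S2678
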