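import Cfsg.Statements.S2679
import Cfsg.Agent.H5.Tr

set_option autoImplicit false
open Cfsg

namespace Cfsg.Agent.S2679

open H5 H5.Form Module Matrix

/-- An elliptic orthogonal group embeds in the hyperbolic orthogonal group of the same dimension over the quadratic extension: for a field F with q elements and a field K with q² elements there is an injective homomorphism from O⁻_2m(F) (isometries of Σ_(j<m−1) x_j y_j + z₁² + a z₁z₂ + c z₂², binary part anisotropic) to O⁺_2m(K) (isometries of Σ_(j<m) x_j y_j over K). -/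
theorem result {F K : Type*} [Field F] [Fintype F] [Field K] [Fintype K] {q : ℕ} (hF : Fintype.card F = q) (hK : Fintype.card K = q ^ 2) {m : ℕ} (hm : 1 ≤ m) (a c : F) (hac : ∀ z₁ z₂ : F, z₁ ^ 2 + a * z₁ * z₂ + c * z₂ ^ 2 = 0 → z₁ = 0 ∧ z₂ = 0) : ∃ φ : ↥(Cfsg.isometryGroup F (Cfsg.quadFormMinus (m - 1) F a c)) →* ↥(Cfsg.isometryGroup K (Cfsg.quadFormPlus m K)), Function.Injective φ := by
  obtain ⟨ι, -⟩ := exists_emb hK hF
  obtain ⟨k, rfl⟩ : ∃ k, m = k + 1 := ⟨m - 1, by omega⟩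
  obtain ⟨θ, hθ⟩ := exists_root_quadratic hK hF ι a c
  have n : (minusF k (ι a) (ι c)).Nondeg := minusF_nondeg k (by
    have := (_root_.map_ne_zero ι).2 (disc_ne_zero_of_aniso hac); rwa [map_sub, map_pow, map_mul, map_ofNat] at this)
  let j : ((Fin k → K) × K) →ₗ[K] ((Fin k ⊕ Fin k) ⊕ Fin 2 → K) := LinearMap.pi (Sum.elim (Sum.elim (fun i => .proj i ∘ₗ .fst _ _ _) 0)
    ![θ • .snd _ _ _, .snd _ _ _])
  obtain ⟨e, he⟩ := split_iso n (plusF_nondeg (k + 1)) (m := k + 1) (by simp; ring) (by simp [two_mul]) ⟨LinearMap.range j, by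
    rw [LinearMap.finrank_range_of_inj fun x y h => Prod.ext (funext fun i => congrFun h (.inl (.inl i))) (congrFun h (.inr 1))]; simp,
    orth_ts.2 (by rintro _ ⟨x, rfl⟩; simp [j, quadFormMinus]; linear_combination x.2 ^ 2 * hθ)⟩ (plusF_hasTS _)
  have hQ : ∀ x, (minusF k (ι a) (ι c)).Q (ι ∘ x) = ι ((minusF k a c).Q x) := fun x => by simp [quadFormMinus]
  have hB : ∀ x y, (minusF k (ι a) (ι c)).B (ι ∘ x) (ι ∘ y) = ι ((minusF k a c).B x y) := fun x y => by simp [minusF_B, map_ofNat]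
  have s : ∀ i : (Fin k ⊕ Fin k) ⊕ Fin 2, Pi.basisFun K _ i = ι ∘ Pi.single i 1 := fun i => by ext j; simp [Pi.single_apply, apply_ite ι]
  refine emb_trans (G := isometryGroup F (minusF k a c).Q) ⟨(glEquiv.toMonoidHom.comp ((GeneralLinearGroup.map ι).comp
    (Subgroup.subtype _))).codRestrict (minusF k (ι a) (ι c)).isom fun g => ?_, fun g g' h => ?_⟩ (.refl _) (he.isomCongr.trans (oEquiv _).symm)
  · have v : ∀ x, glEquiv (GeneralLinearGroup.map ι g.1) (ι ∘ x) = ι ∘ (oEquiv _ g).1 x := fun x => funext fun i => (ι.map_mulVec g.1.1 x i).symm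
    exact mem_isom_of_span (Pi.basisFun K _).span_eq _ (by rintro _ ⟨i, rfl⟩ _ ⟨j, rfl⟩; erw [s, s, v, v, hB, hB, isom_B (oEquiv _ g).2])
      (by rintro _ ⟨i, rfl⟩; erw [s, v, hQ, hQ, isom_Q (oEquiv _ g).2])
  · exact Subtype.ext (Units.ext (Matrix.map_injective ι.injective (congrArg Units.val (glEquiv.injective (congrArg Subtype.val h)))))


end Cfsg.Agent.S2679
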