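import Cfsg.Statements.S2681
import Cfsg.Agent.H5.Inv3

set_option autoImplicit false
open Cfsg

namespace Cfsg.Agent.S2681

open H5 H5.Form Module

/-- Centraliser order of an involution t of Sp_2m(q), q even, with s = rank(t − 1) even and f(v, tv) = 0 for every v, f the symplectic form (type a_s): |C(t)| = q^(2ms − (3s² − s)/2) · |Sp_s(q)| · |Sp_(2m−2s)(q)|. -/
theorem result {F : Type*} [Field F] [Fintype F] [CharP F 2] {q : ℕ} (hF : Fintype.card F = q) {m s : ℕ} (t : Matrix.symplecticGroup (Fin m) F) (ht : t ^ 2 = 1) (ht1 : t ≠ 1) (hs : ((t : Matrix (Fin m ⊕ Fin m) (Fin m ⊕ Fin m) F) - 1).rank = s) (heven : Even s) (halt : ∀ v : Fin m ⊕ Fin m → F, Cfsg.sympForm m F v ((t : Matrix (Fin m ⊕ Fin m) (Fin m ⊕ Fin m) F).mulVec v) = 0) : Nat.card ↥(Subgroup.centralizer ({t} : Set ↥(Matrix.symplecticGroup (Fin m) F))) = q ^ (2 * m * s - (3 * s ^ 2 - s) / 2) * ((q : ℕ) ^ ((s / 2) ^ 2) * ∏ i : Fin (s / 2),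 (q ^ (2 * ((i : ℕ) + 1)) - 1)) * ((q : ℕ) ^ ((m - s) ^ 2) * ∏ i : Fin (m - s), (q ^ (2 * ((i : ℕ) + 1)) - 1)) := by
  have h2 := CharTwo.two_eq_zero (R := F)
  have t2 : (spEquiv m t).1 * (spEquiv m t).1 = 1 := by rw [← Subgroup.coe_mul, ← map_mul, ← sq, ht, map_one]; rfl
  rw [rank_sub_one (spEquiv_apply m t)] at hs
  obtain ⟨β, h⟩ := (c2_symp h2).exists_bet (sympF_nondeg m) (spEquiv m t).2 t2
  obtain ⟨a, rfl⟩ := heven.two_dvd
  obtain ⟨r, rfl⟩ : ∃ r, m = 2 * a + r := Nat.exists_eq_add_of_le (by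
    have := (c2_symp h2).two_mul_le (sympF_nondeg m) (spEquiv m t).2 t2; simp [hs] at this; omega)
  rw [card_centralizer_congr (spEquiv _), (sympF_nondeg _).card_cent_symp hF h2 t2 hs (r := r) (by simp [two_mul]) h,
    (card_bisom h2 hF h.1).1 ((h.alt (c2_symp h2)).1 (alt_sp.2 halt)) hs,
    show 2 * a / 2 = a by omega, Nat.add_sub_cancel_left, spOrd, spOrd, Finset.prod_range, Finset.prod_range,
    show 2 * (2 * a + r) * (2 * a) - (3 * (2 * a) ^ 2 - 2 * a) / 2 = 2 * a * (2 * r) + 2 * a * (2 * a - 1) / 2 + 2 * a by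
      have := Nat.le_mul_self a; rw [Nat.mul_sub_one]; ring_nf at *; omega]
  ring


end Cfsg.Agent.S2681
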