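import Cfsg.Statements.S2683
import Cfsg.Agent.H5.Inv3

set_option autoImplicit false
open Cfsg

namespace Cfsg.Agent.S2683

open H5 H5.Form Module

/-- For the hyperbolic form Σ x_j y_j on F^(2m) over a finite field with q elements, q even (excluding m = 2 over the field of two elements), and an involution x of the orthogonal group with s = rank(x − 1) odd (type b_s; such x lie outside Ω): the elements of Ω (the commutator subgroup of the orthogonal group) commuting with x number q^(2m(s−1) − (3s² − 3s)/2) · |Sp_(s−1)(q)| · |Sp_(2m−2s)(q)|, where |Sp_2k(q)| = q^(k²) Π_(i=1)^k (q^(2i) − 1). -/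
theorem result {F : Type*} [Field F] [Fintype F] [CharP F 2] {q : ℕ} (hF : Fintype.card F = q) {m s : ℕ} (h : Fintype.card F ≠ 2 ∨ m ≠ 2) (x : ↥(Cfsg.isometryGroup F (Cfsg.quadFormPlus m F))) (hx : x ^ 2 = 1) (hs : (((x : Matrix.GeneralLinearGroup (Fin m ⊕ Fin m) F) : Matrix (Fin m ⊕ Fin m) (Fin m ⊕ Fin m) F) - 1).rank = s) (hodd : Odd s) : Nat.card {g : ↥(Cfsg.Omega F (Cfsg.quadFormPlus m F)) // (g : ↥(Cfsg.isometryGroup F (Cfsg.quadFormPlus m F))) * x = x * (g : ↥(Cfsg.isometryGroup F (Cfsg.quadFormPlus m F)))} = q ^ (2 * m * (s - 1) - (3 * s ^ 2 - 3 * s) / 2) * ((q : ℕ) ^ (((s - 1) / 2) ^ 2) * ∏ i : Fin ((s - 1) / 2), (q ^ (2 * ((i : ℕ) + 1)) - 1)) * ((q : ℕ) ^ ((m - s) ^ 2) * ∏ i : Fin (m - s), (q ^ (2 * ((i : ℕ) + 1)) - 1)) := by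
  have h2 := CharTwo.two_eq_zero (R := F)
  have c := c2_orth h2
  have n := plusF_nondeg (F := F) m
  obtain ⟨t, ht⟩ : ∃ t, oEquiv (plusF F m) x = t := ⟨_, rfl⟩
  have t2 : t.1 * t.1 = 1 := ht ▸ sq_of_pow (oEquiv (plusF F m)) hx
  rw [rank_sub_one (oEquiv_apply (plusF F m) x), ht] at hs
  obtain ⟨β, b⟩ := c.exists_bet n t.2 t2
  have k : ¬ (plusF F m).Alt t.1 := fun k => Nat.not_even_iff_odd.2 hodd (hs ▸ (c.alt_iff_ts n t.2 t2 k).2)
  obtain ⟨a, rfl⟩ := hodd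
  obtain ⟨r, rfl⟩ : ∃ r, m = 2 * a + 1 + r := Nat.exists_eq_add_of_le (by have := c.two_mul_le n t.2 t2; simp [hs] at this; omega)
  refine (card_comm_omega (plusF F _) x).trans (Nat.eq_of_mul_eq_mul_left two_pos ?_)
  rw [ht, n.card_cent_Om h2 (good_plus h).RG t2 (fun l => k l.2), n.card_cent_nalt hF h2 t2 hs (r := r) (by simp [two_mul]) (plusF_hasTS _) k b,
    (card_bisom h2 hF b.1).2.2 hs, show (2 * a + 1 - 1) / 2 = a by omega, Nat.add_sub_cancel_left, spOrd, spOrd, Finset.prod_range, Finset.prod_range,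
    show 2 * (2 * a + 1 + r) * (2 * a + 1 - 1) - (3 * (2 * a + 1) ^ 2 - 3 * (2 * a + 1)) / 2 = 2 * a * (2 * r + 1) + 2 * a * (2 * a - 1) / 2 by
      have := Nat.le_mul_self a; rw [Nat.mul_sub_one (2 * a), Nat.add_sub_cancel]; ring_nf at *; omega]
  ring


end Cfsg.Agent.S2683
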