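import Cfsg.Statements.S2684
import Cfsg.Agent.H5.Inv3

set_option autoImplicit false
open Cfsg

namespace Cfsg.Agent.S2684

open H5 H5.Form Module

/-- For the hyperbolic form Q = Σ x_j y_j on F^(2m) over a finite field with q elements, q even (excluding m = 2 over the field of two elements), and an involution x ≠ 1 of the orthogonal group with s = rank(x − 1) even and Q vanishing on the image of x − 1 (equivalently f(v, xv) = 0 for all v, where f(u, w) = Q(u + w) − Q(u) − Q(w) is the bilinear form of Q; type a_s, which lies in Ω): its centraliser in Ω (the commutator subgroup of the orthogonal group) has order q^(2ms − (3s² + s)/2) · |Sp_s(q)| · |Ω⁺_(2m−2s)(q)|, where |Ω⁺_2k(q)| = q^(k(k−1)) (q^k − 1) Π_(i=1)^(k−1) (q^(2i) − 1) for k ≥ 1 and the last factor is 1 when s = m. -/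
theorem result {F : Type*} [Field F] [Fintype F] [CharP F 2] {q : ℕ} (hF : Fintype.card F = q) {m s : ℕ} (h : Fintype.card F ≠ 2 ∨ m ≠ 2) (x : ↥(Cfsg.isometryGroup F (Cfsg.quadFormPlus m F))) (hx : x ^ 2 = 1) (hx1 : x ≠ 1) (hs : (((x : Matrix.GeneralLinearGroup (Fin m ⊕ Fin m) F) : Matrix (Fin m ⊕ Fin m) (Fin m ⊕ Fin m) F) - 1).rank = s) (heven : Even s) (halt : ∀ v : Fin m ⊕ Fin m → F, Cfsg.quadFormPlus m F ((((x : Matrix.GeneralLinearGroup (Fin m ⊕ Fin m) F) : Matrix (Fin m ⊕ Fin m) (Fin m ⊕ Fin m) F) - 1).mulVec v) = 0) : Nat.card {g : ↥(Cfsg.Omega F (Cfsg.quadFormPlus m F)) // (g : ↥(Cfsg.isometryGroup F (Cfsg.quadFormPlus m F))) * x = x * (g : ↥(Cfsg.isometryGroup F (Cfsg.quadFormPlus m F)))} = q ^ (2 * m * s - (3 * s ^ 2 + s) / 2) * ((q : ℕ) ^ ((s / 2) ^ 2) * ∏ i : Fin (s / 2), (q ^ (2 * ((i : ℕ) + 1)) - 1)) * (if s = m then 1 else q ^ ((m - s) * (m - s - 1)) * (q ^ (m - s) - 1) * ∏ i : Fin (m - s - 1), (q ^ (2 * ((i : ℕ) + 1))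 - 1)) := by
  have h2 := CharTwo.two_eq_zero (R := F)
  have c := c2_orth h2
  have n := plusF_nondeg (F := F) m
  have k : (plusF F m).Alt (oEquiv (plusF F m) x).1 := fun v => (c.Q_nu (oEquiv (plusF F m) x).2 v).symm.trans (by
    have := halt v; rwa [Matrix.sub_mulVec, Matrix.one_mulVec] at this)
  obtain ⟨t, ht⟩ : ∃ t, oEquiv (plusF F m) x = t := ⟨_, rfl⟩
  have t2 : t.1 * t.1 = 1 := ht ▸ sq_of_pow (oEquiv (plusF F m)) hx
  rw [rank_sub_one (oEquiv_apply (plusF F m) x), ht] at hs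
  rw [ht] at k
  obtain ⟨β, b⟩ := c.exists_bet n t.2 t2
  obtain ⟨a, rfl⟩ := heven.two_dvd
  obtain ⟨r, rfl⟩ : ∃ r, m = 2 * a + r := Nat.exists_eq_add_of_le (by have := c.two_mul_le n t.2 t2; simp [hs] at this; omega)
  have e : 2 * (2 * a + r) * (2 * a) - (3 * (2 * a) ^ 2 + 2 * a) / 2 = 2 * a * (2 * r) + 2 * a * (2 * a - 1) / 2 := by
    have := Nat.le_mul_self a; rw [Nat.mul_sub_one]; ring_nf at *; omega
  have l := fun N => n.card_cent_alt hF h2 t2 hs (r := r) (N := N) (by simp [two_mul]) (plusF_hasTS _) k b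
  rw [(card_bisom h2 hF b.1).1 ((b.alt c).1 k) hs, spOrd, Finset.prod_range] at l
  refine (card_comm_omega (plusF F _) x).trans ?_
  rw [ht, e, show 2 * a / 2 = a by omega, Nat.add_sub_cancel_left]
  rcases r with _ | r
  · rw [(good_plus h).card_cent_top h2 t2 k ((congrArg _ hs).trans (by simp; omega)), l 1 fun W _ _ _ Ψ _ h _ => card_isom_zero h]; simp; ring
  · refine Nat.eq_of_mul_eq_mul_left two_pos ?_
    rw [n.card_cent_Om h2 (good_plus h).RG t2 (fun l => by have := l.1; simp [hs] at this; omega), l _ fun W _ _ _ Ψ a => card_isom_plus hF a, if_neg (by omega),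
      Finset.prod_range, Nat.add_sub_cancel]
    ring


end Cfsg.Agent.S2684
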