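import Cfsg.Statements.S2685
import Cfsg.Agent.H5.Inv3

set_option autoImplicit false
open Cfsg

namespace Cfsg.Agent.S2685

open H5 H5.Form Module

/-- For the hyperbolic form Q = Σ x_j y_j on F^(2m) over a finite field with q elements, q even (excluding m = 2 over the field of two elements), and an involution x of the orthogonal group with s = rank(x − 1) even and Q not vanishing on the image of x − 1 (f(v, xv) ≠ 0 for some v, where f(u, w) = Q(u + w) − Q(u) − Q(w) is the bilinear form of Q; type c_s, which lies in Ω): its centraliser in Ω (the commutator subgroup of the orthogonal group) has order q^(2m(s−1) − (3s² − 5s)/2 − 1) · |Sp_(s−2)(q)| · |Sp_(2m−2s)(q)|. -/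
theorem result {F : Type*} [Field F] [Fintype F] [CharP F 2] {q : ℕ} (hF : Fintype.card F = q) {m s : ℕ} (h : Fintype.card F ≠ 2 ∨ m ≠ 2) (x : ↥(Cfsg.isometryGroup F (Cfsg.quadFormPlus m F))) (hx : x ^ 2 = 1) (hs : (((x : Matrix.GeneralLinearGroup (Fin m ⊕ Fin m) F) : Matrix (Fin m ⊕ Fin m) (Fin m ⊕ Fin m) F) - 1).rank = s) (heven : Even s) (hna : ∃ v : Fin m ⊕ Fin m → F, Cfsg.quadFormPlus m F ((((x : Matrix.GeneralLinearGroup (Fin m ⊕ Fin m) F) : Matrix (Fin m ⊕ Fin m) (Fin m ⊕ Fin m) F) - 1).mulVec v) ≠ 0) : Nat.card {g : ↥(Cfsg.Omega F (Cfsg.quadFormPlus m F)) // (g : ↥(Cfsg.isometryGroup F (Cfsg.quadFormPlus m F))) * x = x * (g : ↥(Cfsg.isometryGroup F (Cfsg.quadFormPlus m F)))} = q ^ (2 * m * (s - 1) - (3 * s ^ 2 - 5 * s) / 2 - 1) * ((q : ℕ) ^ (((s - 2) / 2) ^ 2) * ∏ i : Fin ((s - 2) / 2), (q ^ (2 * ((i : ℕ) + 1)) - 1)) * ((q : ℕ) ^ ((m - s) ^ 2) * ∏ i : Fin (m - s), (q ^ (2 * ((i : ℕ) + 1)) - 1))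 := by
  have h2 := CharTwo.two_eq_zero (R := F)
  have c := c2_orth h2
  have n := plusF_nondeg (F := F) m
  have k : ¬ (plusF F m).Alt (oEquiv (plusF F m) x).1 := fun k => let ⟨v, hv⟩ := hna; hv (by
    rw [Matrix.sub_mulVec, Matrix.one_mulVec]; exact (c.Q_nu (oEquiv (plusF F m) x).2 v).trans (k v))
  obtain ⟨t, ht⟩ : ∃ t, oEquiv (plusF F m) x = t := ⟨_, rfl⟩
  have t2 : t.1 * t.1 = 1 := ht ▸ sq_of_pow (oEquiv (plusF F m)) hx
  rw [rank_sub_one (oEquiv_apply (plusF F m) x), ht] at hs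
  rw [ht] at k
  obtain ⟨β, b⟩ := c.exists_bet n t.2 t2
  have l := not_forall.1 (mt (b.alt c).2 k)
  obtain ⟨a, rfl⟩ : ∃ a, s = 2 * a + 2 := by
    obtain ⟨a, rfl⟩ := heven
    obtain ⟨u, k⟩ := l
    have := (finrank_pos_iff_exists_ne_zero (R := F)).2 (⟨u, fun e => k (by simp [e])⟩ : ∃ u : mv t.1, u ≠ 0); exact ⟨a - 1, by have := this.trans_eq hs; omega⟩
  obtain ⟨r, rfl⟩ : ∃ r, m = 2 * a + 2 + r := Nat.exists_eq_add_of_le (by have := c.two_mul_le n t.2 t2; simp [hs] at this; omega)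
  refine (card_comm_omega (plusF F _) x).trans (Nat.eq_of_mul_eq_mul_left two_pos ?_)
  rw [ht, n.card_cent_Om h2 (good_plus h).RG t2 (fun l => k l.2), n.card_cent_nalt hF h2 t2 (k := 2 * a + 1) hs (r := r) (by simp [two_mul]) (plusF_hasTS _) k b,
    (card_bisom h2 hF b.1).2.1 l hs, show (2 * a + 2 - 2) / 2 = a by omega, Nat.add_sub_cancel_left, spOrd, spOrd, Finset.prod_range, Finset.prod_range,
    show 2 * (2 * a + 2 + r) * (2 * a + 2 - 1) - (3 * (2 * a + 2) ^ 2 - 5 * (2 * a + 2)) / 2 - 1 =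
      (2 * a + 1) * (2 * r + 1) + (2 * a + 1) * (2 * a + 1 - 1) / 2 + (2 * a + 1) by
      rw [Nat.add_sub_cancel, show 2 * a + 2 - 1 = 2 * a + 1 from rfl]; ring_nf; omega]
  ring


end Cfsg.Agent.S2685
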