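import Cfsg.Statements.S2689
import Cfsg.Agent.H6.CA11

set_option autoImplicit false
open Cfsg

namespace Cfsg.Agent.S2689

/-- The automorphism group of a simple projective special linear group PSL_n(F) over a finite field (n ≥ 2; |F| ≥ 4 when n = 2) is generated by the automorphisms induced by invertible semilinear maps of F^n (the image of the projective semilinear group) together with the inverse-transpose automorphism. -/
theorem result {F : Type*} [Field F] [Fintype F] {p f : ℕ} [Fact p.Prime] (hF : Fintype.card F = p ^ f) (hf : 1 ≤ f) {n : ℕ} (hn : 2 ≤ n) (hs : n = 2 → 4 ≤ Fintype.card F) :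
    Cfsg.gammaPSL n F ⊔ Cfsg.autSubgroupOf (fun β : Matrix.ProjectiveSpecialLinearGroup (Fin n) F ≃* Matrix.ProjectiveSpecialLinearGroup (Fin n) F => Cfsg.IsInverseTransposeAutPSL β) = ⊤ := by
  obtain ⟨l, rfl⟩ := Nat.exists_eq_add_of_le' hn
  have key : H6.CA.indL.range ≤ Cfsg.gammaPSL (l + 2) F := by
    rintro _ ⟨⟨s, τ, h⟩, rfl⟩
    obtain ⟨g, rfl⟩ := h.exists_sm
    exact Subgroup.subset_closure ⟨g, τ, ((H6.CA.nmSL F _).ind_iff H6.CA.slE_apply _).2 rfl⟩
  refine eq_top_iff.2 fun β _ => (H6.CA.aut_psl β).elim (fun h => Subgroup.mem_sup_left (key h)) fun h => ?_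
  exact (mul_mem_cancel_right (Subgroup.mem_sup_right (Subgroup.subset_closure (H6.CA.itP_iff.2 rfl)))).1
    (Subgroup.mem_sup_left (key h))

end Cfsg.Agent.S2689
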