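import Cfsg.Statements.S2703
import Cfsg.Agent.H6.GA3

set_option autoImplicit false
open Cfsg

namespace Cfsg.Agent.S2703

/-- Let T = PSL_n(F) over the field with q elements, q odd, n = 2m ≥ 4 even, and ι the inverse-transpose automorphism. Its centralizer in G = Inndiag(T) (the image of PGL_n(F)) is isomorphic to the projective conformal orthogonal group of the plus-type form Σ xᵢ yᵢ in dimension n when n(q − 1)/4 is even, and to that of a minus-type form (Σ xᵢ yᵢ + z₁² + a z₁ z₂ + b z₂² with anisotropic binary part) when n(q − 1)/4 is odd. -/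
theorem result {F : Type*} [Field F] [Fintype F] (hodd : Odd (Fintype.card F)) {n m : ℕ} (hm : 2 ≤ m) (hnm : n = 2 * m) (ι : MulAut (Matrix.ProjectiveSpecialLinearGroup (Fin n) F)) (hι : Cfsg.IsInverseTransposeAutPSL ι) :
    (Even (n * (Fintype.card F - 1) / 4) → Nonempty (↥(Cfsg.inndiagPSL n F ⊓ Subgroup.centralizer {ι}) ≃* Cfsg.PGO F (Cfsg.quadFormPlus m F))) ∧ (¬ Even (n * (Fintype.card F - 1) / 4) → ∃ a b : F, (∀ z₁ z₂ : F, z₁ ^ 2 + a * z₁ * z₂ + b * z₂ ^ 2 = 0 → z₁ = 0 ∧ z₂ = 0) ∧ Nonempty (↥(Cfsg.inndiagPSL n F ⊓ Subgroup.centralizer {ι}) ≃* Cfsg.PGO F (Cfsg.quadFormMinus (m - 1) F a b))) := by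
  have : Nontrivial (Fin n) := Fin.nontrivial_iff_two_le.2 (by omega)
  have h2 : (2 : F) ≠ 0 := fun h => Nat.not_even_iff_odd.2 hodd (H5.even_iff_two_eq_zero.2 h)
  obtain rfl := H6.CA.itP_iff.1 hι
  have c := (H6.GA.dictL (F := F) (n := n) (by omega)).cent ⟨H6.GA.dot_nd, .inl H6.GA.dot_sy⟩ H6.GA.rl_dot
  have k : Even (n * (Fintype.card F - 1) / 4) ↔ H6.GA.Pl (H6.GA.dot F n) m := by
    obtain ⟨r, hr⟩ := hodd
    rw [H6.GA.dot_pl h2 hnm, hnm, hr, Nat.add_sub_cancel, show 2 * m * (2 * r) = 4 * (m * r) by ring,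
      Nat.mul_div_cancel_left _ (by norm_num), Nat.even_mul]
    rcases Nat.even_or_odd m with e | e
    · simp [e, e.neg_one_pow]
    · rw [e.neg_one_pow, FiniteField.isSquare_neg_one_iff, hr, Nat.even_iff, Nat.even_iff, Nat.odd_iff.1 e]
      omega
  obtain ⟨m, rfl⟩ : ∃ k, m = k + 1 := ⟨m - 1, by omega⟩
  have hV : Module.finrank F (Fin n → F) = 2 * m + 2 := by simpa
  refine ⟨fun h => H6.GA.ne_trans c (H6.GA.plus_pq h2 H6.GA.dot_nd H6.GA.dot_sy hV (k.1 h)), fun h => ?_⟩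
  obtain ⟨a, b, hab⟩ := H6.CA.exists_aniso (F := F)
  exact ⟨a, b, hab, H6.GA.ne_trans c (H6.GA.minus_pq h2 H6.GA.dot_nd H6.GA.dot_sy hV (mt k.2 h) hab)⟩

end Cfsg.Agent.S2703
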