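import Cfsg.Statements.S2710
import Cfsg.Agent.H6.GA4

set_option autoImplicit false
open Cfsg

namespace Cfsg.Agent.S2710

/-- Let T = PSU_n(q) with n ≥ 4 divisible by 4 (n = 2m) and q odd, realised over the field F with q² elements, G = Inndiag(T) the image of PGU_n(q), and φ the standard field automorphism of T attached to the q-th power map of F (it induces inverse-transpose on the unitary matrices and is a graph automorphism). Its centralizer in G is isomorphic to the projective conformal orthogonal group of the plus-type form Σ xᵢ yᵢ in dimension n over a field F₀ with q elements. (Dimensions n ≡ 2 (mod 4) are not covered.) -/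
theorem result {F : Type*} [Field F] [Fintype F] {q : ℕ} (hodd : Odd q) (hF : Fintype.card F = q ^ 2) {n m : ℕ} (hm : 2 ≤ m) (hnm : n = 2 * m) (h4 : 4 ∣ n) (F₀ : Type*) [Field F₀] [Fintype F₀] (hF₀ : Fintype.card F₀ = q) (σ : F ≃+* F) (hσ : ∀ a : F, σ a = a ^ q) (φ : MulAut (Cfsg.PSU n F q)) (hφ : Cfsg.IsFieldAutPSUOf σ φ) :
    Nonempty (↥(Cfsg.inndiagPSU n F q ⊓ Subgroup.centralizer {φ}) ≃* Cfsg.PGO F₀ (Cfsg.quadFormPlus m F₀)) := by
  obtain ⟨τ, ψ, hτ, hψ⟩ := H6.GA.exists_su_data hF hF₀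
  obtain rfl : σ = τ := RingEquiv.ext fun x => (hσ x).trans (hτ x).symm
  have h2 : (2 : F₀) ≠ 0 := fun h => Nat.not_even_iff_odd.2 hodd (hF₀ ▸ H5.even_iff_two_eq_zero.2 h)
  have c := (H6.GA.dictU (n := n) (by omega) (by omega) hτ hψ).cent ⟨H6.GA.dot_nd, .inl H6.GA.dot_sy⟩
    (H6.GA.ru_dot _ _ hτ hψ hφ)
  have k : H6.GA.Pl (H6.GA.dot F₀ n) m := by
    rw [H6.GA.dot_pl h2 hnm, (show Even m from even_iff_two_dvd.2 (by omega)).neg_one_pow]
    exact IsSquare.one
  obtain ⟨m, rfl⟩ : ∃ k, m = k + 1 := ⟨m - 1, by omega⟩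
  exact H6.GA.ne_trans c (H6.GA.plus_pq h2 H6.GA.dot_nd H6.GA.dot_sy (by simpa) k)

end Cfsg.Agent.S2710
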