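import Cfsg.Statements.S2719
import Cfsg.Agent.H6.GA5

set_option autoImplicit false
open Cfsg

namespace Cfsg.Agent.S2719

/-- Let T = PΩ⁻_{2m+2}(F) with m ≥ 3 and |F| = q odd (form with anisotropic binary part z₁² + a z₁ z₂ + b z₂²), G = Inndiag(T), and γ an involutory graph automorphism of T (an automorphism in the image of the semisimilarity group, not inner-diagonal, of order 2). Then the G-class of γ is either a single T-class or the union of exactly two T-classes, and it is the union of two unless m is even and q ≡ 1 (mod 4). -/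
theorem result {F : Type*} [Field F] [Fintype F] (hodd : Odd (Fintype.card F)) {m : ℕ} (hm : 3 ≤ m) (a b : F) (hab : (∀ z₁ z₂ : F, z₁ ^ 2 + a * z₁ * z₂ + b * z₂ ^ 2 = 0 → z₁ = 0 ∧ z₂ = 0)) (γ : MulAut (Cfsg.POmega F (Cfsg.quadFormMinus m F a b))) (hγ : Cfsg.IsGraphAutClassPOmegaMinus m a b γ) (hγ2 : orderOf γ = 2) :
    (Cfsg.splitClassCount (Cfsg.inndiagPOmegaMinus m F a b) (Cfsg.Inn (Cfsg.POmega F (Cfsg.quadFormMinus m F a b))) γ = 1 ∨ Cfsg.splitClassCount (Cfsg.inndiagPOmegaMinus m F a b) (Cfsg.Inn (Cfsg.POmega F (Cfsg.quadFormMinus m F a b))) γ = 2) ∧ (¬ (Even m ∧ Fintype.card F % 4 = 1) → Cfsg.splitClassCount (Cfsg.inndiagPOmegaMinus m F a b) (Cfsg.Inn (Cfsg.POmega F (Cfsg.quadFormMinus m F a b))) γ = 2) := by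
  have h3 : 2 ≤ m := by omega
  have h2 := H6.GB.two_ne hodd
  have : Nontrivial (H6.CA.IM m → F) := (H6.CA.bigO (H6.CA.nd_minus hab) (H6.CA.c5_minus h3)).nm'.nt
  have o : γ ^ 2 = 1 := orderOf_dvd_iff_pow_eq_one.1 hγ2.dvd
  obtain ⟨g, rfl⟩ := H6.GB.minus_graph h3 hab hγ.1 o
  obtain ⟨ε, E⟩ := H6.CA.exists_eo_minus hab h3
  have e := H6.CA.inn_minus hab h3 E
  have := H6.GB.graph_count E (H6.CA.c5_minus h3) (by simp; ring) h2 (g := g)
    (Int.units_ne_iff_eq_neg.1 fun k => hγ.2.1 (e ▸ ⟨g, k, rfl⟩)) o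
  rw [e]
  refine ⟨this.1, fun k => this.2 ?_⟩
  rw [H6.CA.neg_minus hab h3 h2, Nat.odd_add_one, Nat.even_add_one, Nat.not_odd_iff_even]
  have := Nat.odd_iff.1 hodd
  by_cases hm : Even m
  · exact .inl ⟨hm, by simp only [hm, true_and] at k; omega⟩
  · exact .inr hm

end Cfsg.Agent.S2719
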