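import Cfsg.Statements.S2734
import Cfsg.Agent.H6.FoldE

set_option autoImplicit false
open Cfsg

namespace Cfsg.Agent.S2734

/-- In the Chevalley group of type D₄ over a finite field F (the matrix group generated by the root elements), a graph automorphism attached to a symmetry π of the Dynkin diagram (sending each fundamental root element x_p(t) to x_{π(p)}(t) and each x_{−p}(t) to x_{−π(p)}(t)) that has order 3 — a standard triality graph automorphism, π being a 3-cycle of the three outer nodes — has fixed-point subgroup isomorphic to the Chevalley group of type G₂ over F. -/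
theorem result {F : Type*} [Field F] [Fintype F] (τ : MulAut ↥(Cfsg.Lie.chevD4.group F)) (hτ : Cfsg.Lie.chevD4.IsGraphAut τ) (hτ3 : orderOf τ = 3) :
    Nonempty (↥(MonoidHom.eqLocus τ.toMonoidHom (MonoidHom.id ↥(Cfsg.Lie.chevD4.group F))) ≃* ↥(Cfsg.Lie.chevG2.group F)) := by
  open H6 H6.Chev Cfsg.Lie in
  obtain ⟨π, h1, h2⟩ := certD4.graph_simple lenD4 hτ
  open H6 H6.Chev Cfsg.Lie in
  have h3 : π * π = 1 ∨ π = symD4.π ∨ π⁻¹ = symD4.π := by
    have e := fun i : Fin chevD4.rank => Cert.pl_getD π i i.2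
    have : ∀ l ∈ ext tD4 chevD4.rank chevD4.rank, ∀ i : Fin chevD4.rank, ∀ j : Fin chevD4.rank,
        (l.getD i 0 = j → l.getD j 0 = i) ∧ l ≠ [2, 1, 3, 0] ∧ l ≠ [3, 1, 0, 2] ∨
        l = [2, 1, 3, 0] ∧ (symD4.π i : ℕ) = l.getD i 0 ∨
        l = [3, 1, 0, 2] ∧ (l.getD i 0 = j → symD4.π j = i) := by decide +kernel
    have h := this _ h1
    by_cases k1 : Cert.pl π chevD4.rank = [2, 1, 3, 0]
    · refine Or.inr (Or.inl (Equiv.ext fun i => Fin.ext ?_))
      rw [← e]
      rcases h i i with h | h | h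
      exacts [(h.2.1 k1).elim, h.2.symm, by rw [k1] at h; exact absurd h.1 (by decide)]
    by_cases k2 : Cert.pl π chevD4.rank = [3, 1, 0, 2]
    · refine Or.inr (Or.inr (Equiv.ext fun i => ?_))
      obtain ⟨i, rfl⟩ := π.surjective i
      rcases h i (π i) with h | h | h
      exacts [(h.2.2 k2).elim, (k1 h.1).elim, by rw [h.2 (e i)]; simp]
    refine Or.inl (Equiv.ext fun i => Fin.ext ?_)
    rcases h i (π i) with h | h | h
    exacts [(e _).symm.trans (h.1 (e i)), (k1 h.1).elim, (k2 h.1).elim]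
  open H6 H6.Chev Cfsg.Lie in
  rcases h3 with h | h | h
  · exfalso
    have e : ∀ i, π (π i) = i := fun i => DFunLike.congr_fun h i
    have : (τ ^ 2).toMonoidHom = MonoidHom.id _ :=
      (certD4.gsys F).nconj.hom_ext certD4.gsys_grp (fun i t => by simp [sq, h2, e])
        fun i t => by simp [sq, h2, e]
    have h4 : τ ^ 2 = 1 := MulEquiv.ext fun g => DFunLike.congr_fun this g
    have := orderOf_dvd_of_pow_eq_one h4
    rw [hτ3] at this; omega
  · exact foldD4 (τ := τ.toMonoidHom) (h ▸ h2) fun g => Iff.rfl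
  · refine foldD4 (τ := τ.symm.toMonoidHom) (fun i t => ?_) fun g => ?_
    · obtain ⟨i, rfl⟩ := π.surjective i
      rw [← h, ← (h2 i t).1, ← (h2 i t).2]; simp
    · exact (τ.symm_apply_eq.trans eq_comm).symm

end Cfsg.Agent.S2734
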