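import Cfsg.Statements.S2736
import Cfsg.Agent.H6.CA17

set_option autoImplicit false
open Cfsg

namespace Cfsg.Agent.S2736

/-- Let T = PΩ⁺_{2m}(F) with m ≥ 5 (dimension ≠ 8) and x a field automorphism or a graph-field automorphism of T of prime order r. Then an element y of the coset Inndiag(T)·x (y = δ x with δ induced by a class-preserving similarity) has order r if and only if y is conjugate to x by an element of Inndiag(T). -/
theorem result {F : Type*} [Field F] [Fintype F] {m : ℕ} (hm : 5 ≤ m) (x δ : MulAut (Cfsg.POmega F (Cfsg.quadFormPlus m F))) (hx : Cfsg.IsFieldAutClassPOmega (Cfsg.quadFormPlus m F) x ∨ Cfsg.IsGraphFieldAutClassPOmegaPlus m x) {r : ℕ} (hr : r.Prime) (hxr : orderOf x = r) (hδ : δ ∈ Cfsg.inndiagPOmegaPlus m F) :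
    orderOf (δ * x) = r ↔ Cfsg.IsConjUnder (Cfsg.inndiagPOmegaPlus m F) x (δ * x) := by
  obtain ⟨p, f, _, hF⟩ := H6.CA.exists_pf (F := F)
  have h3 : 3 ≤ m := by omega
  have I := H6.CA.inn_plus (F := F) h3
  replace hδ := I.le hδ
  rw [I]
  rcases hx with hx | hx
  · have := H6.CA.plus_field h3 (H6.CA.plus_normal hm) hF hx hr hxr
    obtain ⟨K, _, _, hK⟩ := H6.CA.exists_field p _ (H6.CA.div_ne hF this.1)
    exact (this.2 K hK).2.2 δ hδ
  · obtain ⟨m, rfl⟩ := Nat.exists_eq_add_one_of_ne_zero (by omega : m ≠ 0)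
    have := H6.CA.plus_gf hm h3 hF hx hr hxr
    obtain ⟨K, _, _, hK⟩ := H6.CA.exists_field p _ (H6.CA.div_ne hF this.1)
    exact (this.2 K hK).2.2.1 δ hδ

end Cfsg.Agent.S2736
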