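import Cfsg.Statements.S2738
import Cfsg.Agent.H5.SL

set_option autoImplicit false
open Cfsg

namespace Cfsg.Agent.S2738

open scoped Pointwise commutatorElement

theorem aux {G : Type*} [Group G] (z k w l : G) (hz : ∀ g, g * z = z * g) (hw : ∀ g, g * w = w * g) :
    ⁅z * k, w * l⁆ = ⁅k, l⁆ := by
  simp only [commutatorElement_def, mul_inv_rev]
  calc _ = z * (k * w * l * k⁻¹) * z⁻¹ * l⁻¹ * w⁻¹ := by simp only [mul_assoc]
    _ = k * (w * (l * k⁻¹ * l⁻¹)) * w⁻¹ := by
      rw [← hz]; simp only [mul_assoc, mul_inv_cancel_left]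
    _ = _ := by rw [← hw]; simp only [mul_assoc, mul_inv_cancel, mul_one]


/-- The special linear group SL(3, 4) has centre of order 3 and does not split over it: no subgroup is a complement to the centre (so SL(3, 4) is a non-split central extension of PSL(3, 4) by a group of order 3). -/
theorem result (F : Type*) [Field F] [Fintype F] (hF : Fintype.card F = 4) : Nat.card ↥(Subgroup.center (Matrix.SpecialLinearGroup (Fin 3) F)) = 3 ∧ ¬ ∃ K : Subgroup (Matrix.SpecialLinearGroup (Fin 3) F), Subgroup.IsComplement' (Subgroup.center (Matrix.SpecialLinearGroup (Fin 3) F)) K := by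
  classical
  have h1 : Nat.card ↥(Subgroup.center (Matrix.SpecialLinearGroup (Fin 3) F)) = 3 := by
    rw [H5.card_center_SL, hF]; simp
  refine ⟨h1, ?_⟩
  rintro ⟨K, hK⟩
  have hle : commutator (Matrix.SpecialLinearGroup (Fin 3) F) ≤ K := by
    rw [commutator_def, Subgroup.commutator_le]
    intro a _ b _
    obtain ⟨⟨z, k⟩, rfl⟩ := hK.2 a
    obtain ⟨⟨w, l⟩, rfl⟩ := hK.2 b
    have hz := Subgroup.mem_center_iff.1 z.2
    have hw := Subgroup.mem_center_iff.1 w.2
    have := aux (z : Matrix.SpecialLinearGroup (Fin 3) F) k w l hz hw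
    show ⁅(z : Matrix.SpecialLinearGroup (Fin 3) F) * k, (w : Matrix.SpecialLinearGroup (Fin 3) F) * l⁆ ∈ K
    rw [this]
    exact mul_mem (mul_mem (mul_mem k.2 l.2) (inv_mem k.2)) (inv_mem l.2)
  rw [H5.commutator_SL_eq_top (by simp), top_le_iff] at hle
  subst hle
  have := hK.disjoint.eq_bot
  rw [inf_top_eq] at this
  rw [this] at h1
  simp at h1

end Cfsg.Agent.S2738
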