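import Cfsg.Statements.S2739
import Cfsg.Agent.H8.Z1
import Cfsg.Agent.H8.XL34
-- import your own Cfsg.Agent.* helpers here

set_option autoImplicit false
set_option maxRecDepth 200000
open scoped Pointwise
open Cfsg

namespace Cfsg.Agent.S2739

/-- In the projective special linear group PSL(3, 4) all subgroups of order 3 are conjugate. -/
theorem result (F : Type*) [Field F] [Fintype F] (hF : Fintype.card F = 4) (X Y : Subgroup (Matrix.ProjectiveSpecialLinearGroup (Fin 3) F)) (hX : Nat.card ↥X = 3) (hY : Nat.card ↥Y = 3) : ∃ g : Matrix.ProjectiveSpecialLinearGroup (Fin 3) F, MulAut.conj g • X = Y := by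
  obtain ⟨z, hz⟩ := H8.Z1.l34c (H8.L34.iso hF)
  exact H8.sub_conj (by norm_num) hz X Y hX hY

end Cfsg.Agent.S2739
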