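import Cfsg.Statements.S2756
import Cfsg.Agent.H9.RE

set_option autoImplicit false
open Cfsg

namespace Cfsg.Agent.S2756

/-- For a finite group G the following are equivalent: (a) G has a normal Sylow 2-subgroup; (b) for every odd prime q dividing the order of G and every Sylow q-subgroup T, the normalizer of Z(J(T)) has a normal Sylow 2-subgroup; (c) for every odd prime q and every Sylow q-subgroup T, no nonidentity element of T is inverted by an element of the normalizer of Z(J(T)). Here J(T) is the Thompson subgroup generated by the abelian subgroups of T of largest order. Stated as the two equivalences (a) ⇔ (b) and (a) ⇔ (c). -/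
theorem result {G : Type*} [Group G] [Finite G] : ((∀ P : Sylow 2 G, (P : Subgroup G).Normal) ↔ ∀ (q : ℕ) [Fact q.Prime], q ≠ 2 → q ∣ Nat.card G → ∀ T : Sylow q G, ∀ P : Sylow 2 ↥(Subgroup.normalizer (Cfsg.centerThompsonAOf (T : Subgroup G) : Set G)), (P : Subgroup ↥(Subgroup.normalizer (Cfsg.centerThompsonAOf (T : Subgroup G) : Set G))).Normal) ∧ ((∀ P : Sylow 2 G, (P : Subgroup G).Normal) ↔ ∀ (q : ℕ) [Fact q.Prime], q ≠ 2 → ∀ T : Sylow q G, ∀ x ∈ (T : Subgroup G), x ≠ 1 → ∀ g ∈ Subgroup.normalizer (Cfsg.centerThompsonAOf (T : Subgroup G) : Set G), g * x * g⁻¹ ≠ x⁻¹) := by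
  open H9 Subgroup in open scoped commutatorElement in
  have ab : (∀ P : Sylow 2 G, (P : Subgroup G).Normal) → ∀ (H : Subgroup G) (P : Sylow 2 H), (P : Subgroup H).Normal :=
    fun h H P => by
      obtain ⟨R, hR⟩ := (P.2.map H.subtype).exists_le_sylow
      have := h R
      have e := P.3 (R.2.comap_subtype (K := H)) (map_le_iff_le_comap.1 hR)
      rw [← e]; infer_instance
  have bc : (∀ (q : ℕ) [Fact q.Prime], q ≠ 2 → q ∣ Nat.card G → ∀ T : Sylow q G,
      ∀ P : Sylow 2 ↥(normalizer (centerThompsonAOf (T : Subgroup G) : Set G)), 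
        (P : Subgroup ↥(normalizer (centerThompsonAOf (T : Subgroup G) : Set G))).Normal) →
      ∀ (q : ℕ) [Fact q.Prime], q ≠ 2 → ∀ T : Sylow q G, ∀ x ∈ (T : Subgroup G), x ≠ 1 →
        ∀ g ∈ normalizer (centerThompsonAOf (T : Subgroup G) : Set G), g * x * g⁻¹ ≠ x⁻¹ := fun h q _ hq T x hx h1 g hg e => by
    obtain ⟨P⟩ : Nonempty (Sylow 2 ↥(normalizer (centerThompsonAOf (T : Subgroup G) : Set G))) := inferInstance
    have := h q hq ((dvd_card_of_isPGroup (isPGroup_zpowers_of_mem T.2 hx) (by rwa [Ne, zpowers_eq_bot])).trans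
      (card_subgroup_dvd_card _)) T P
    refine h1 (not_inverted hq (syl_of_sylow P) (map_subtype_le_normalizer _ (hK := this)) ?_
      (isPGroup_zpowers_of_mem T.2 hx) hg e)
    rw [ZA_eq]; exact normalizer_Zc (normalizer_JA le_normalizer) hx
  have ca : (∀ (q : ℕ) [Fact q.Prime], q ≠ 2 → ∀ T : Sylow q G, ∀ x ∈ (T : Subgroup G), x ≠ 1 →
        ∀ g ∈ normalizer (centerThompsonAOf (T : Subgroup G) : Set G), g * x * g⁻¹ ≠ x⁻¹) →
      ∀ P : Sylow 2 G, (P : Subgroup G).Normal := fun h P => by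
    have h1 := syl_Op_of_not_re (G := G) fun q _ hq hr => by
      obtain ⟨T⟩ : Nonempty (Sylow q G) := inferInstance
      have hT := syl_top_of_sylow T
      obtain ⟨x, x0, x1, x2, g, g1, x3⟩ := re_ZA hq _ rfl _ hT hr
      obtain ⟨y, y1, y2⟩ := (hT.mono (normalizer_Zc (normalizer_JA le_normalizer)) le_top).exists_cj_le x2 (zpowers_le.2 x0)
      rw [cj_zpowers, zpowers_le] at y2
      refine h q hq T _ y2 (by simpa using x1) (y * g * y⁻¹) (ZA_eq (T : Subgroup G) ▸ mul_mem (mul_mem y1 g1) (inv_mem y1)) ?_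
      rw [show y * g * y⁻¹ * (y * x * y⁻¹) * (y * g * y⁻¹)⁻¹ = y * (g * x * g⁻¹) * y⁻¹ by group, x3]; group
    rw [h1.maximal P.2 le_top (syl_top_of_sylow P).Op_le]
    infer_instance
  exact ⟨⟨fun h q _ _ _ T => ab h _, fun h => ca (bc h)⟩, ⟨fun h => bc fun q _ _ _ T => ab h _, ca⟩⟩

end Cfsg.Agent.S2756
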