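import Cfsg.Statements.S2759
import Cfsg.Agent.H4.Invl
import Cfsg.Agent.H1.Q1

set_option autoImplicit false
open Cfsg

namespace Cfsg.Agent.S2759

open scoped Pointwise
open H4.Invl Subgroup

abbrev P4 := Equiv.Perm (Fin 4)

def V4 : Subgroup P4 where
  carrier := {g | g * g = 1 ∧ Equiv.Perm.sign g = 1}
  mul_mem' := by
    intro a b
    simp only [Set.mem_setOf_eq]
    revert a b; decide +kernel
  one_mem' := by simp
  inv_mem' := by
    intro a
    simp only [Set.mem_setOf_eq]
    revert a; decide +kernel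

theorem mV (g : P4) : g ∈ V4 ↔ g * g = 1 ∧ Equiv.Perm.sign g = 1 := Iff.rfl

instance : V4.Normal := ⟨by simp only [mV]; decide +kernel⟩

theorem cV : ∀ g : P4, (∀ v : P4, (v * v = 1 ∧ Equiv.Perm.sign v = 1) → v * g = g * v) → (g * g = 1 ∧ Equiv.Perm.sign g = 1) := by
  decide +kernel

theorem card_V : Nat.card V4 = 4 := by
  show Nat.card {g : P4 // g * g = 1 ∧ Equiv.Perm.sign g = 1} = 4
  rw [Nat.card_eq_fintype_card, Fintype.card_subtype]
  decide +kernel

theorem ex3 : ∃ ψ : P4 →* DihedralGroup 3, Function.Surjective ψ ∧ ψ.ker = V4 := by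
  have h6 : Nat.card (P4 ⧸ V4) = 6 := by
    have := card_eq_card_quotient_mul_card_subgroup V4
    rw [card_V, Nat.card_perm, Nat.card_eq_fintype_card, Fintype.card_fin] at this
    simp [Nat.factorial] at this
    omega
  let π := QuotientGroup.mk' V4
  let r : P4 := Equiv.swap 0 1 * Equiv.swap 1 2
  let s : P4 := Equiv.swap 0 1
  have m1 : ∀ g, π g = 1 ↔ (g * g = 1 ∧ Equiv.Perm.sign g = 1) := fun g => QuotientGroup.eq_one_iff g
  haveI : Fact (Nat.Prime 3) := ⟨Nat.prime_three⟩
  have ho : orderOf (π r) = 3 := orderOf_eq_prime (by rw [← map_pow, m1]; decide) (by rw [Ne, m1]; decide)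
  have hs : π s * π s = 1 := by rw [← map_mul, m1]; decide
  have hi : π s * π r * (π s)⁻¹ = (π r)⁻¹ := by
    rw [← map_inv, ← map_inv, ← map_mul, ← map_mul]; exact congrArg π (by decide)
  have hn : π s ∉ zpowers (π r) := fun h => by
    have := orderOf_dvd_of_mem_zpowers h
    rw [ho, orderOf_eq_prime (p := 2) (by rw [pow_two, hs]) (by rw [Ne, m1]; decide)] at this
    omega
  have inj := H5.dihHom_injective 3 (π r) (π s) ho hs hi hn
  let e := MulEquiv.ofBijective _ (inj.bijective_of_nat_card_le (by rw [h6, DihedralGroup.nat_card]))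
  refine ⟨e.symm.toMonoidHom.comp π, e.symm.surjective.comp (QuotientGroup.mk'_surjective _), ?_⟩
  ext g
  simp [MonoidHom.mem_ker, π]

/-- For a finite group G, the symmetric group of degree 4 is involved in G if and only if there is a 2-subgroup T of G such that the symmetric group of degree 3 is involved in N(T)/C(T). -/
theorem result {G : Type*} [Group G] [Finite G] : Cfsg.Involves (Equiv.Perm (Fin 4)) G ↔ ∃ T : Subgroup G, IsPGroup 2 ↥T ∧ Cfsg.Involves (Equiv.Perm (Fin 3)) (↥(Subgroup.normalizer (T : Set G)) ⧸ (Subgroup.centralizer (T : Set G)).subgroupOf (Subgroup.normalizer (T : Set G))) := by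
  haveI : Fact (Nat.Prime 3) := ⟨Nat.prime_three⟩
  obtain ⟨e3⟩ := H1.perm3_dih
  constructor
  · intro h
    obtain ⟨L, -, f, hf⟩ := H9.involves_iff.1 h
    obtain ⟨ψ, hψ, hk⟩ := ex3
    let M := V4.comap f
    obtain ⟨T⟩ : Nonempty (Sylow 2 M) := inferInstance
    have h1 := Sylow.normalizer_sup_eq_top T
    set T1 := (T : Subgroup M).map M.subtype with hT1
    have hfT : ∀ v ∈ V4, ∃ t ∈ T1, f t = v := by
      intro v hv
      let g : M →* V4 := f.subgroupComap V4
      have hg : Function.Surjective g := f.subgroupComap_surjective_of_surjective V4 hf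
      have h2 : IsPGroup 2 V4 := IsPGroup.of_card (n := 2) (by rw [card_V]; rfl)
      have h3 : ((T.mapSurjective hg : Sylow 2 V4) : Subgroup V4) = ⊤ :=
        ((T.mapSurjective hg).3 (h2.to_subgroup ⊤) le_top).symm
      obtain ⟨t, ht, e⟩ : (⟨v, hv⟩ : V4) ∈ (T : Subgroup M).map g := h3.ge (mem_top _)
      exact ⟨t, ⟨t, ht, rfl⟩, congrArg Subtype.val e⟩
    refine ⟨T1.map L.subtype, (T.2.map _).map _, H9.involves_iff.2 ?_⟩
    set T2 := T1.map L.subtype with hT2
    let N1 := normalizer (T1 : Set L)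
    let g : N1 →* normalizer (T2 : Set G) := (L.subtype.comp N1.subtype).codRestrict _ fun x => le_normalizer_map L.subtype ⟨x, x.2, rfl⟩
    let g' := (QuotientGroup.mk' ((centralizer (T2 : Set G)).subgroupOf (normalizer (T2 : Set G)))).comp g
    let φ : N1 →* Equiv.Perm (Fin 3) := e3.symm.toMonoidHom.comp (ψ.comp (f.comp N1.subtype))
    have hker : g'.rangeRestrict.ker ≤ φ.ker := by
      intro x hx
      rw [MonoidHom.ker_rangeRestrict] at hx
      have h2' : g x ∈ (centralizer (T2 : Set G)).subgroupOf (normalizer (T2 : Set G)) := (QuotientGroup.eq_one_iff (g x)).1 hx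
      have h2 : ((x : L) : G) ∈ centralizer (T2 : Set G) := h2'
      have h3 : f x ∈ V4 := cV _ fun v hv => by
        obtain ⟨t, ht, rfl⟩ := hfT v hv
        rw [← map_mul, ← map_mul]
        exact congrArg f (Subtype.ext (h2 _ ⟨t, ht, rfl⟩))
      rw [← hk] at h3
      show e3.symm (ψ (f x)) = 1
      rw [h3, map_one]
    refine ⟨g'.range, le_top, g'.rangeRestrict.liftOfSurjective g'.rangeRestrict_surjective ⟨φ, hker⟩, fun w => ?_⟩
    obtain ⟨a, ha⟩ := hψ (e3 w)
    obtain ⟨b, rfl⟩ := hf a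
    have hb : b ∈ N1 ⊔ M := h1.ge (mem_top b)
    obtain ⟨n, hn, m, hm, rfl⟩ := mem_sup_of_normal_right.1 hb
    refine ⟨g'.rangeRestrict ⟨n, hn⟩, ?_⟩
    rw [MonoidHom.liftOfSurjective, MonoidHom.liftOfRightInverse_comp_apply]
    show e3.symm (ψ (f n)) = w
    have : ψ (f m) = 1 := by rw [← MonoidHom.mem_ker, hk]; exact hm
    rw [map_mul, map_mul, this, mul_one] at ha
    rw [ha, MulEquiv.symm_apply_apply]
  · rintro ⟨T, hT, h⟩
    obtain ⟨L, a, f, hf⟩ := H9.involves_iff.1 h
    obtain ⟨x, P, h1, h2, h3, h4⟩ := main (p := 3) (by norm_num) ⟨L, a, e3.toMonoidHom.comp f, e3.surjective.comp hf⟩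
    obtain ⟨x, y, ⟨k, h1⟩, h2, h3, h4⟩ := inv_of h1 h2 h3 h4
    obtain ⟨y, h5, h6⟩ := ord_p h2 h3 h4
    let N := normalizer (T : Set G)
    let π : N →* N ⧸ (centralizer (T : Set G)).subgroupOf N := QuotientGroup.mk' _
    obtain ⟨x, rfl⟩ : ∃ a, π a = x := QuotientGroup.mk'_surjective _ x
    obtain ⟨y, rfl⟩ : ∃ a, π a = y := QuotientGroup.mk'_surjective _ y
    obtain ⟨m, hm, j, hj⟩ := p_part 2 x
    have h7 : π (x ^ m) * π y * (π (x ^ m))⁻¹ = (π y)⁻¹ := by
      obtain ⟨l, rfl⟩ : Odd m := Nat.odd_iff.2 (by omega)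
      have c : Commute (π x ^ 2) (π y) := by
        have h' : π x * (π y)⁻¹ * (π x)⁻¹ = π y := by rw [← conj_inv]; exact inv_eq_iff_eq_inv.2 h6
        calc _ = π x * (π x * π y * (π x)⁻¹) * (π x)⁻¹ * π x ^ 2 := by rw [pow_two]; group
          _ = _ := by rw [h6, h']
      rw [map_pow, pow_succ', pow_mul, mul_assoc (π x), (c.pow_left l).eq, ← h6]
      group
    have key : ∀ a b : N, π a = π b → ∀ t ∈ T.subgroupOf N, a * t * a⁻¹ = b * t * b⁻¹ := by
      intro a b hab t ht
      obtain ⟨z, hz, rfl⟩ := (QuotientGroup.mk'_eq_mk' _).1 hab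
      have : t * z = z * t := Subtype.ext (hz _ ht)
      rw [mul_assoc a z, ← this]; group
    have hTN : IsPGroup 2 (T.subgroupOf N) := hT.comap_subtype
    have := s4 _ N rfl (T.subgroupOf N) hTN (x ^ m) y j (by rw [← hj, pow_orderOf_eq_one])
      (fun t ht => by
        have := key (y ^ 3) 1 (by rw [map_pow, ← h5, pow_orderOf_eq_one, map_one]) t ht
        rw [one_mul, inv_one, mul_one] at this
        conv_rhs => rw [← this, pow_succ, pow_two]
        group)
      (by
        by_contra hc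
        push Not at hc
        have : π y = 1 := (QuotientGroup.eq_one_iff _).2 fun t ht => by
          have := congrArg Subtype.val (hc ⟨t, le_normalizer ht⟩ ht)
          simp only [Subgroup.coe_mul, Subgroup.coe_inv] at this
          rw [mul_inv_eq_iff_eq_mul] at this
          exact this.symm
        rw [this, orderOf_one] at h5
        omega)
      (fun t ht => by
        have := key (x ^ m * y) (y⁻¹ * x ^ m) (by rw [map_mul, map_mul, map_inv, ← h7]; group) t ht
        calc _ = x ^ m * y * t * (x ^ m * y)⁻¹ := by group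
          _ = _ := by rw [this]; group)
    exact H9.involves_iff.2 ((H9.Sect.of_coe this).mono le_top)

end Cfsg.Agent.S2759
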