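import Cfsg.Statements.S2760
import Cfsg.Agent.H9.MS2

set_option autoImplicit false
open Cfsg

namespace Cfsg.Agent.S2760

/-- Let G be a finite group with C_G(O₂(G)) ≤ O₂(G) and H a subgroup of G such that H is normal in G, or the subgroup O²(H) generated by the elements of H of odd order is normal in G. Then C_H(O₂(H)) ≤ O₂(H). -/
theorem result {G : Type*} [Group G] [Finite G] (hchar : Subgroup.centralizer (Cfsg.pCore 2 G : Set G) ≤ Cfsg.pCore 2 G) (H : Subgroup G) (hH : H.Normal ∨ ((Cfsg.pResidual 2 ↥H).map H.subtype).Normal) : Subgroup.centralizer (Cfsg.pCore 2 ↥H : Set ↥H) ≤ Cfsg.pCore 2 ↥H := by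
  open H9 Subgroup in open scoped commutatorElement in
  haveI : Fact (Nat.Prime 2) := ⟨Nat.prime_two⟩
  have h0 := chp_top_iff.1 hchar
  rw [chp_iff]
  rcases hH with hH | hH
  · exact h0.sn (SN.of_normal_top H)
  · rw [Ores_eq] at hH
    have h1 := Fst_eq_Op_iff'.1 (chp_iff_Fst.1 (h0.sn (SN.of_normal_top (Ores 2 H))))
    refine chp_iff_Fst.2 (Fst_eq_Op_iff'.2 ⟨le_bot_iff.1 ?_, le_bot_iff.1 ?_⟩)
    · rw [← h1.1]
      exact Lay_le_Lay_of_le (by rw [← Ores_eq_of_perfect 2 (Lay_perfect H)]; exact Ores_mono (Lay_le H)) (Ores_le 2 H)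
    · rw [← h1.2]
      exact (le_inf le_rfl (le_Ores (Op'_le 2 H) (Op'_cop 2 H))).trans (Op'_inf_le (Ores_le 2 H))

end Cfsg.Agent.S2760
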