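import Cfsg.Statements.S2762
import Cfsg.Agent.H9.Qd

set_option autoImplicit false
open Cfsg

namespace Cfsg.Agent.S2762

open H9 Subgroup Matrix Multiplicative

/-- Structure of Qd over a finite field F of characteristic p (the affine subgroup of SL₃(F)): its largest normal p-subgroup is the group of translations (matrices with upper-left block the identity), the block-diagonal matrices form a complement isomorphic to SL₂(F), and the translation subgroup is a natural SL₂(F)-module for that complement. -/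
theorem result {F : Type*} [Field F] [Fintype F] {p : ℕ} [Fact p.Prime] [CharP F p] : (∀ M : ↥(Cfsg.qdOver F), M ∈ Cfsg.pCore p ↥(Cfsg.qdOver F) ↔ ((M : Matrix.SpecialLinearGroup (Fin 3) F) : Matrix (Fin 3) (Fin 3) F) 0 0 = 1 ∧ ((M : Matrix.SpecialLinearGroup (Fin 3) F) : Matrix (Fin 3) (Fin 3) F) 0 1 = 0 ∧ ((M : Matrix.SpecialLinearGroup (Fin 3) F) : Matrix (Fin 3) (Fin 3) F) 1 0 = 0 ∧ ((M : Matrix.SpecialLinearGroup (Fin 3) F) : Matrix (Fin 3) (Fin 3) F) 1 1 = 1) ∧ ∃ K : Subgroup ↥(Cfsg.qdOver F), (∀ M : ↥(Cfsg.qdOver F), M ∈ K ↔ ((M : Matrix.SpecialLinearGroup (Fin 3) F) : Matrix (Fin 3) (Fin 3) F) 0 2 = 0 ∧ ((M : Matrix.SpecialLinearGroup (Fin 3) F) : Matrix (Fin 3) (Fin 3) F) 1 2 = 0) ∧ K ⊓ Cfsg.pCore p ↥(Cfsg.qdOver F) = ⊥ ∧ K ⊔ Cfsg.pCore p ↥(Cfsg.qdOver F) = ⊤ ∧ Nonempty (↥K ≃* Matrix.SpecialLinearGroup (Fin 2) F) ∧ Cfsg.IsNaturalSL2Module F (Cfsg.pCore p ↥(Cfsg.qdOver F)) K := by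
  haveI : Finite (qdOver F) := inferInstance
  obtain ⟨D, hD⟩ := exists_qdD F
  have hV : pCore p (qdOver F) = D.V := by rw [← D.Op_eq p, Op_top]
  rw [hV]
  refine ⟨fun M => ?_, D.s.range, fun M => ?_, ?_, ?_, ⟨(MonoidHom.ofInjective (f := D.s) ?_).symm⟩, ?_⟩
  · obtain ⟨x, A, rfl⟩ := exists_affM M
    rw [D.mem_V, ← hD, D.θ_el, hD]
    constructor
    · rintro rfl
      exact ⟨rfl, rfl, rfl, rfl⟩
    · rintro ⟨h1, h2, h3, h4⟩
      ext i j
      fin_cases i <;> fin_cases j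
      exacts [h1, h2, h3, h4]
  · obtain ⟨x, A, rfl⟩ := exists_affM M
    constructor
    · rintro ⟨B, hB⟩
      rw [← D.el_zero, hD, affM_eq_iff] at hB
      rw [← hB.1]
      exact ⟨rfl, rfl⟩
    · rintro ⟨h1, h2⟩
      refine ⟨A, ?_⟩
      rw [← D.el_zero, hD, affM_eq_iff]
      refine ⟨?_, rfl⟩
      ext i
      fin_cases i
      exacts [h1.symm, h2.symm]
  · rw [eq_bot_iff]
    rintro _ ⟨⟨A, rfl⟩, h⟩
    have h' := D.mem_V.1 h
    rw [D.θs] at h'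
    rw [h', map_one]
    exact one_mem _
  · rw [eq_top_iff]
    intro g _
    obtain ⟨x, hx⟩ := D.exists_el g
    rw [hx]
    exact mul_mem (mem_sup_right ⟨_, rfl⟩) (mem_sup_left ⟨_, rfl⟩)
  · intro A B h
    rw [← D.θs A, h, D.θs]
  · refine ⟨le_normalizer_of_normal, D.θ.comp D.s.range.subtype,
      (MonoidHom.ofInjective D.inj).symm.toAdditiveLeft, fun A => ⟨⟨D.s A, A, rfl⟩, D.θs A⟩, ?_, fun l v => ?_⟩
    · rw [D.centralizer_V]
      ext x
      exact D.mem_V.symm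
    · obtain ⟨_, x, rfl⟩ := v
      refine ⟨⟨_, ofAdd ((D.θ l : Matrix (Fin 2) (Fin 2) F) *ᵥ toAdd x), rfl⟩, (D.conj l (toAdd x)).symm, ?_⟩
      have k : ∀ y, (MonoidHom.ofInjective D.inj).symm ⟨D.j y, y, rfl⟩ = y := fun y =>
        (MonoidHom.ofInjective D.inj).symm_apply_apply y
      show toAdd ((MonoidHom.ofInjective D.inj).symm ⟨D.j _, _, rfl⟩) =
        _ *ᵥ toAdd ((MonoidHom.ofInjective D.inj).symm ⟨D.j x, x, rfl⟩)
      rw [k, k]
      rfl

end Cfsg.Agent.S2762
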