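import Cfsg.Statements.S2763
import Cfsg.Agent.H9.Qd

set_option autoImplicit false
open Cfsg

namespace Cfsg.Agent.S2763

open H9 Subgroup

/-- In the group Qd(p) (p prime; the natural semidirect product of an elementary abelian group of order p² by SL₂(p)), the normalizer of every nontrivial characteristic subgroup of a Sylow p-subgroup S equals the normalizer of S, which is a proper subgroup; in particular no such characteristic subgroup is normal. -/
theorem result {p : ℕ} [Fact p.Prime] (S : Sylow p ↥(Cfsg.qd p)) (T : Subgroup ↥(S : Subgroup ↥(Cfsg.qd p))) (hT : T ≠ ⊥) (hTc : T.Characteristic) : Subgroup.normalizer ((T.map (S : Subgroup ↥(Cfsg.qd p)).subtype : Subgroup ↥(Cfsg.qd p)) : Set ↥(Cfsg.qd p)) = Subgroup.normalizer ((S : Subgroup ↥(Cfsg.qd p)) : Set ↥(Cfsg.qd p)) ∧ Subgroup.normalizer ((S : Subgroup ↥(Cfsg.qd p)) : Set ↥(Cfsg.qd p)) ≠ ⊤ := by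
  let D := qdD p
  obtain ⟨g, -, hg⟩ := (D.syl_S p).conj (syl_top_of_sylow S)
  let e : D.S ≃* (S : Subgroup (qd p)) := ((MulAut.conj g).subgroupMap D.S).trans (MulEquiv.subgroupCongr hg)
  have he : ∀ x : D.S, (e x : qd p) = g * x * g⁻¹ := fun x => rfl
  have h1 : normalizer (((T.comap e.toMonoidHom).map D.S.subtype : Subgroup (qd p)) : Set (qd p)) ≤ D.B := by
    refine D.normalizer_le_of_char (fun h => hT ?_) fun α => ?_
    · rw [eq_bot_iff]
      intro x hx
      have : e.symm x ∈ T.comap e.toMonoidHom := by simpa using hx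
      rw [h, mem_bot] at this
      simpa using congrArg e this
    · have := characteristic_iff_map_eq.1 hTc ((e.symm.trans α).trans e)
      ext x
      constructor
      · rintro ⟨y, hy, rfl⟩
        rw [mem_comap, ← this]
        exact ⟨e y, hy, by simp⟩
      · intro hx
        rw [mem_comap, ← this] at hx
        obtain ⟨y, hy, h2⟩ := hx
        refine ⟨e.symm y, by simpa using hy, e.injective (by simpa using h2)⟩
  have h2 : cj g ((T.comap e.toMonoidHom).map D.S.subtype) = T.map (S : Subgroup (qd p)).subtype := by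
    ext x
    constructor
    · rintro ⟨_, ⟨y, hy, rfl⟩, rfl⟩
      exact ⟨e y, hy, he y⟩
    · rintro ⟨y, hy, rfl⟩
      refine ⟨_, ⟨e.symm y, by simpa using hy, rfl⟩, ?_⟩
      have := he (e.symm y)
      rw [e.apply_symm_apply] at this
      exact this.symm
  have h3 : normalizer ((S : Subgroup (qd p)) : Set (qd p)) = cj g D.B := by
    rw [← D.normalizer_S, cj_normalizer, hg]
  refine ⟨le_antisymm ?_ (H1.map_char_le_normalizer _ T), fun h => D.w_not_mem ?_⟩
  · rw [← h2, ← cj_normalizer, h3]
    exact cj_mono g h1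
  · rw [h3] at h
    exact conj_mem_cj_iff.1 (h ▸ mem_top _ : g * D.w * g⁻¹ ∈ cj g D.B)

end Cfsg.Agent.S2763
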