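import Cfsg.Statements.S2772
import Cfsg.Agent.H9.JC4

set_option autoImplicit false
open Cfsg

namespace Cfsg.Agent.S2772

/-- Sims' Theorem in local form: let H be a finite non-abelian simple group and G a maximal subgroup of H with C_G(O₂(G)) ≤ O₂(G), such that N_H(S) is not contained in G for a Sylow 2-subgroup S of G and G/O₂(G) is dihedral of order 2q for a prime q. Then G is isomorphic to the symmetric group of degree 4 or to its direct product with a group of order 2. -/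
theorem result {H : Type*} [Group H] [Finite H] [IsSimpleGroup H] (hna : ¬ IsMulCommutative H) (G : Subgroup H) (hG : IsCoatom G) (hchar : Subgroup.centralizer (Cfsg.pCore 2 ↥G : Set ↥G) ≤ Cfsg.pCore 2 ↥G) (S : Sylow 2 ↥G) (hN : ¬ Subgroup.normalizer (((S : Subgroup ↥G).map G.subtype : Subgroup H) : Set H) ≤ G) (q : ℕ) (hq : q.Prime) (hD : Nonempty (↥G ⧸ Cfsg.pCore 2 ↥G ≃* DihedralGroup q)) : Nonempty (↥G ≃* Equiv.Perm (Fin 4)) ∨ Nonempty (↥G ≃* Equiv.Perm (Fin 4) × Multiplicative (ZMod 2)) := by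
  open H9 Subgroup in open scoped commutatorElement in
  have s := syl_of_sylow S
  generalize (S : Subgroup G).map G.subtype = T at s hN
  have c : Chp 2 G := chp_iff.1 hchar
  obtain ⟨e⟩ := hD
  haveI : NeZero q := ⟨hq.ne_zero⟩
  have i : (Op 2 G).relIndex G = 2 * q := by
    rw [relIndex, subgroupOf_Op, index, Nat.card_congr e.toEquiv, DihedralGroup.nat_card]
  have nm : ∀ R ≤ G, R ≠ ⊥ → G ≤ normalizer (R : Set H) → normalizer (R : Set H) ≤ G := fun R a b d => by
    refine (hG.le_iff.1 d).resolve_left (fun f => ?_) |>.le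
    exact hG.1 (top_le_iff.1 (((normalizer_eq_top_iff.1 f).eq_bot_or_eq_top.resolve_left b).ge.trans a))
  have t0 : T ≠ ⊥ := s.ne_bot ((Dvd.intro _ i.symm).trans (relIndex_dvd_card _ _))
  have j := relIndex_mul_relIndex _ _ _ s.Op_le s.le
  have i1 : T.relIndex G = q := ((Nat.dvd_prime hq).1 ((cop_iff.2 s.not_dvd).dvd_of_dvd_mul_left
    (Dvd.intro_left _ (j.trans i)))).resolve_left fun f => hN (nm T s.le t0 ((relIndex_eq_one.1 f).trans le_normalizer))
  have nc : ¬ G ≤ centralizer (OZ 2 T : Set H) := fun f => hN ((normalizer_OZ le_rfl).trans (nm _ ((OZ_le _ _).trans s.le)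
    (OZ_ne_bot s.isP t0) (f.trans (centralizer_le_normalizer' _))))
  have so : Group.IsSolvable G := by
    haveI := isSolvable_of_isPGroup (pCore_p (G := G) 2)
    haveI : IsZGroup (G ⧸ pCore 2 G) := .of_squarefree (by
      rw [Nat.card_congr e.toEquiv, DihedralGroup.nat_card, Nat.squarefree_mul (i1 ▸ cop_iff.2 s.not_dvd).symm]
      exact ⟨Nat.prime_two.squarefree, hq.squarefree⟩)
    exact solvable_of_ker_le_range (pCore 2 G).subtype (QuotientGroup.mk' (pCore 2 G)) (by simp)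
  have l : JC.LS T G := ⟨s, c, so, fun x hx => le_normalizer (by_contra fun f => nc (Am.le_of_prime s.le (i1 ▸ hq)
    (le_centralizer_iff.1 (OZ_le_centralizer _ _)) hx.1 hx.2 f))⟩
  obtain ⟨K, k, -⟩ := l.lj.ex (X := normalizer (JE 2 T : Set H)) (fun f => hN ((normalizer_JE le_rfl).trans
    (nm _ l.JL (JC.J_ne s.isP t0) f))) inf_le_right
  have q3 : q = 3 := by
    have a := H1.relIndex_dvd_relIndex_of_le_normalizer k.2 (le_normalizer_Op 2 G)
    rw [i, ← inf_relIndex_right, le_antisymm (le_Op inf_le_right (normalizer_inf (k.2.trans (le_normalizer_Op _ _))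
      le_normalizer) ((Op_p _ _).to_le inf_le_left)) (le_inf (l.main.1 K k) (Op_le _ _)), k.1.i3] at a
    exact ((Nat.prime_dvd_prime_iff_eq Nat.prime_three hq).1 ((by decide : Nat.Coprime 3 2).dvd_of_dvd_mul_left a)).symm
  subst q3
  obtain ⟨x, x1, x2⟩ := SetLike.not_le_iff_exists.1 hN
  have e1 := mem_normalizer_iff_cj.1 x1
  have s' : Syl 2 T (cj x G) := e1 ▸ s.cj x
  have ne : ¬ cj x G ≤ G := fun f => x2 (nm G le_rfl (fun f => t0 (eq_bot_iff.2 (f ▸ s.le))) le_normalizer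
    (mem_normalizer_iff_cj.2 (eq_of_le_of_card_ge f (card_cj _ _).ge)))
  have e2 : G ⊓ cj x G = T := le_antisymm (fun y hy => by_contra fun f => ne (eq_of_le_of_card_ge
    (Am.le_of_prime s.le (i1 ▸ hq) s'.le hy.1 hy.2 f) (card_cj _ _).le).ge) (le_inf s.le s'.le)
  have i2 : (Op 2 G).relIndex T = 2 := by rw [i, i1] at j; omega
  have := JC.amal c (c.cj x) ⟨e2.symm ▸ i1, e2.symm ▸ i2, e2.symm ▸ s.isP, e2.symm ▸ nc⟩ (by
    rw [inf_comm] at e2
    refine ⟨?_, ?_, e2.symm ▸ s.isP, ?_⟩ <;> rw [e2, ← e1]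
    · rw [relIndex_cj, i1]
    · rw [← cj_Op, relIndex_cj, i2]
    · rwa [← cj_OZ, ← cj_centralizer, cj_le_cj_iff]) (by
    rw [(hG.le_iff.1 le_sup_left).resolve_right fun f => ne (le_sup_right.trans f.le)]
    refine (Op_top_normal 2).eq_bot_or_eq_top.resolve_right fun f => ?_
    rw [s.eq_of_isPGroup ((Op_p 2 ⊤).to_le (le_top.trans f.ge)), relIndex_self] at i1
    omega)
  exact this.2.2.imp (·.2.2.1) fun ⟨_, _, ⟨a⟩, _⟩ => ⟨a.trans MulEquiv.prodComm⟩

end Cfsg.Agent.S2772
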