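import Cfsg.Statements.S2779
import Cfsg.Agent.H2.Nat2

set_option autoImplicit false
open Cfsg

namespace Cfsg.Agent.S2779

open H9 H2N Subgroup Matrix
open scoped commutatorElement

/-- Let L act on the elementary abelian p-group V (inside a finite group, by conjugation, faithfully) as SL₂(F) on its natural module, F a field with p^n elements, and let S be a Sylow p-subgroup of L. Then [V, S, S] = 1; |V| = p^(2n) and |C_V(S)| = p^n; and for every nonidentity s ∈ S and every v ∈ V outside C_V(S): C_V(s) = C_V(S) = [V, S] = [V, s] = the subgroup generated by the commutators [v, t], t ∈ S. -/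
theorem result {G : Type*} [Group G] [Finite G] {p : ℕ} [Fact p.Prime] {F : Type*} [Field F] [Fintype F] (n : ℕ) (hF : Fintype.card F = p ^ n) (V L : Subgroup G) (hnat : Cfsg.IsNaturalSL2Module F V L) (hf : L ⊓ Subgroup.centralizer (V : Set G) = ⊥) (S : Sylow p ↥L) (T : Subgroup G) (hT : T = ((S : Subgroup ↥L).map L.subtype)) : ⁅⁅V, T⁆, T⁆ = ⊥ ∧ Nat.card V = p ^ (2 * n) ∧ Nat.card ↥(V ⊓ Subgroup.centralizer ((T : Subgroup G) : Set G)) = p ^ n ∧ ∀ s ∈ T, s ≠ 1 → (V ⊓ Subgroup.centralizer ({s} : Set G)) = (V ⊓ Subgroup.centralizer ((T : Subgroup G) : Set G)) ∧ ⁅V, T⁆ = (V ⊓ Subgroup.centralizer ((T : Subgroup G) : Set G)) ∧ ⁅V, Subgroup.zpowers s⁆ = (V ⊓ Subgroup.centralizer ((T : Subgroup G) : Set G)) ∧ ∀ v ∈ V, v ∉ Subgroup.centralizer (T : Set G) → Subgroup.closure {x : G | ∃ t ∈ T, x = v * t * v⁻¹ * t⁻¹} = (V ⊓ Subgroup.centralizer ((T : Subgroup G) : Set G)) := by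
  haveI := charP_of_card hF
  obtain ⟨D⟩ := exists_nd hnat hf S
  rw [← hT] at D
  have hle : ⁅V, T⁆ ≤ V ⊓ centralizer (T : Set G) := by
    rw [commutator_le]
    intro v hv t ht
    obtain ⟨x, rfl⟩ := (D.memV _).1 hv
    obtain ⟨l, rfl, b, hb⟩ := (D.memT _).1 ht
    rw [commutatorElement_def, D.comm_up hb]
    exact D.memC'.2 ⟨_, rfl⟩
  refine ⟨commutator_eq_bot_iff_le_centralizer.2 (hle.trans inf_le_right), ?_, ?_, fun s hs hs1 => ?_⟩
  · have e : (Fin 2 → F) ≃ V := Equiv.ofBijective (fun x => ⟨D.φ x, D.mem x⟩)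
      ⟨fun x y h => D.inj (congrArg Subtype.val h), fun v => by
        obtain ⟨x, hx⟩ := (D.memV _).1 v.2
        exact ⟨x, Subtype.ext hx⟩⟩
    rw [← Nat.card_congr e, Nat.card_eq_fintype_card, Fintype.card_fun, hF, Fintype.card_fin, ← pow_mul,
      mul_comm]
  · have e : F ≃ (V ⊓ centralizer (T : Set G) : Subgroup G) := Equiv.ofBijective
      (fun a => ⟨D.φ ![a, 0], D.memC'.2 ⟨a, rfl⟩⟩)
      ⟨fun x y h => congrFun (D.inj (congrArg Subtype.val h)) 0, fun v => by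
        obtain ⟨x, hx⟩ := D.memC'.1 v.2
        exact ⟨x, Subtype.ext hx⟩⟩
    rw [← Nat.card_congr e, Nat.card_eq_fintype_card, hF]
  obtain ⟨l, rfl, b, hb⟩ := (D.memT _).1 hs
  have hb0 : b ≠ 0 := fun e => hs1 (by
    rw [e, upm_zero, ← map_one D.ρ] at hb
    rw [D.bij.1 hb]; rfl)
  have hge : V ⊓ centralizer (T : Set G) ≤ ⁅V, zpowers (l : G)⁆ := fun v hv => by
    obtain ⟨a, rfl⟩ := D.memC'.1 hv
    have := commutator_mem_commutator (D.mem ![0, -(a / b)]) (mem_zpowers (l : G))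
    rw [commutatorElement_def, D.comm_up hb] at this
    simpa [mul_div_cancel₀ a hb0] using this
  have hz : ⁅V, zpowers (l : G)⁆ ≤ ⁅V, T⁆ := commutator_mono le_rfl (zpowers_le_of_mem hs)
  refine ⟨le_antisymm ?_ ?_, le_antisymm hle (hge.trans hz), le_antisymm (hz.trans hle) hge,
    fun v hv hvT => le_antisymm ?_ fun w hw => ?_⟩
  · rintro v ⟨h1, h2⟩
    obtain ⟨x, rfl⟩ := (D.memV _).1 h1
    refine ⟨h1, (D.memC x).2 ?_⟩
    have := (D.comm_iff l x).1 (h2 l rfl)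
    rwa [hb, ND.up_iff hb0] at this
  · exact inf_le_inf_left _ (centralizer_le (Set.singleton_subset_iff.2 hs))
  · rw [closure_le]
    rintro _ ⟨t, ht, rfl⟩
    exact hle (commutator_mem_commutator hv ht)
  · obtain ⟨a, rfl⟩ := D.memC'.1 hw
    obtain ⟨x, rfl⟩ := (D.memV _).1 hv
    rw [D.memC] at hvT
    obtain ⟨m, hm⟩ := D.exists_l (upm (-(a / x 1)))
    refine subset_closure ⟨m, (D.memT _).2 ⟨m, rfl, _, hm⟩, ?_⟩
    rw [D.comm_up hm]
    simp [div_mul_cancel₀ a hvT]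

end Cfsg.Agent.S2779
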