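import Cfsg.Statements.S2780
import Cfsg.Agent.H2.Nat2

set_option autoImplicit false
open Cfsg

namespace Cfsg.Agent.S2780

open H9 H2N Subgroup Matrix
open scoped commutatorElement

/-- Let L act on the elementary abelian p-group V (inside a finite group, faithfully) as SL₂(F) on its natural module, F a field with p^n elements, S a Sylow p-subgroup of L. Then: for every g ∈ L not normalizing S, V is the internal direct product of C_V(S) and C_V(gSg⁻¹); every nonidentity element of L of order prime to p acts on V without nonidentity fixed points; and C_V(S) and V/C_V(S) are irreducible for N_L(S): the only N_L(S)-invariant subgroups of C_V(S) are 1 and C_V(S), and the only N_L(S)-invariant subgroups between C_V(S) and V are those two. -/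
theorem result {G : Type*} [Group G] [Finite G] {p : ℕ} [Fact p.Prime] {F : Type*} [Field F] [Fintype F] (n : ℕ) (hF : Fintype.card F = p ^ n) (V L : Subgroup G) (hnat : Cfsg.IsNaturalSL2Module F V L) (hf : L ⊓ Subgroup.centralizer (V : Set G) = ⊥) (S : Sylow p ↥L) (T : Subgroup G) (hT : T = ((S : Subgroup ↥L).map L.subtype)) : (∀ g ∈ L, g ∉ Subgroup.normalizer (T : Set G) → Cfsg.IsInternalDirectProduct (V ⊓ Subgroup.centralizer ((T : Subgroup G) : Set G)) (V ⊓ Subgroup.centralizer ((T.map (MulAut.conj g).toMonoidHom : Subgroup G) : Set G)) V) ∧ (∀ x ∈ L, x ≠ 1 → (orderOf x).Coprime p → (V ⊓ Subgroup.centralizer ({x} : Set G)) = ⊥) ∧ (∀ U : Subgroup G, U ≤ (V ⊓ Subgroup.centralizer ((T : Subgroup G) : Set G)) → L ⊓ Subgroup.normalizer (T : Set G) ≤ Subgroup.normalizer (U : Set G) → U = ⊥ ∨ U = (V ⊓ Subgroup.centralizer ((T : Subgroup G) : Set G))) ∧ (∀ U : Subgroup G, (V ⊓ Subgroup.centralizer ((T : Subgroup G) : Set G)) ≤ U → U ≤ V → L ⊓ Subgroup.normalizer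 (T : Set G) ≤ Subgroup.normalizer (U : Set G) → U = (V ⊓ Subgroup.centralizer ((T : Subgroup G) : Set G)) ∨ U = V) := by
  haveI := charP_of_card hF
  obtain ⟨D⟩ := exists_nd hnat hf S
  rw [← hT] at D
  refine ⟨fun g hg hgn => ?_, fun x hx hx1 hc => ?_, fun U h1 h2 => ?_, fun U h1 h2 h3 => ?_⟩
  · have hc : (D.ρ ⟨g, hg⟩).1 1 0 ≠ 0 := fun e => hgn (D.mem_norm e)
    have e : V ⊓ centralizer ((T.map (MulAut.conj g).toMonoidHom : Subgroup G) : Set G) =
        cj g (V ⊓ centralizer (T : Set G)) := by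
      rw [cj_inf, cj_centralizer, mem_normalizer_iff_cj.1 (hnat.1 hg)]; rfl
    obtain ⟨a, b, c, d, h, e2⟩ := H5.exists_sl2 (D.ρ ⟨g, hg⟩)
    rw [e2] at hc
    have hc' : c ≠ 0 := hc
    have key : ∀ u, g * D.φ ![u, 0] * g⁻¹ = D.φ ![a * u, c * u] := fun u => by
      rw [D.conj ⟨g, hg⟩, e2, sl2_mulVec]; simp
    refine ⟨inf_le_left, inf_le_left, fun u hu v hv => ?_, ?_, le_antisymm (sup_le inf_le_left inf_le_left) ?_⟩
    · obtain ⟨x, rfl⟩ := (D.memV _).1 hu.1
      obtain ⟨y, rfl⟩ := (D.memV _).1 hv.1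
      rw [← D.add, ← D.add, add_comm]
    · rw [e, eq_bot_iff]
      rintro _ ⟨h1, v, hv, rfl⟩
      obtain ⟨u, rfl⟩ := D.memC'.1 hv
      have h2 : g * D.φ ![u, 0] * g⁻¹ ∈ centralizer (T : Set G) := h1.2
      rw [key, D.memC] at h2
      have : u = 0 := by simpa [hc'] using h2
      show g * D.φ ![u, 0] * g⁻¹ ∈ ⊥
      rw [key, this, mem_bot, ← D.zero]
      congr 1
      ext i
      fin_cases i <;> simp
    · rw [e]
      intro v hv
      obtain ⟨x, rfl⟩ := (D.memV _).1 hv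
      have : D.φ x = D.φ ![x 0 - a * (x 1 / c), 0] * (g * D.φ ![x 1 / c, 0] * g⁻¹) := by
        rw [key, ← D.add]
        congr 1
        ext i
        fin_cases i <;> simp [mul_div_cancel₀ _ hc']
      rw [this]
      exact mul_mem (mem_sup_left (D.memC'.2 ⟨_, rfl⟩)) (mem_sup_right (conj_mem_cj_iff.2 (D.memC'.2 ⟨_, rfl⟩)))
  · rw [eq_bot_iff]
    rintro v ⟨h1, h2⟩
    obtain ⟨y, rfl⟩ := (D.memV _).1 h1
    have h3 := (D.comm_iff ⟨x, hx⟩ y).1 (h2 x rfl)
    by_contra h0
    have hy : y ≠ 0 := fun e => h0 (by rw [e, D.zero]; exact one_mem _)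
    obtain ⟨a, b, c, d, h, e2⟩ := H5.exists_sl2 (D.ρ ⟨x, hx⟩)
    have htr : (D.ρ ⟨x, hx⟩).1.trace = 2 := by
      rw [e2, sl2_mulVec] at h3
      have k0 : a * y 0 + b * y 1 = y 0 := congrFun h3 0
      have k1 : c * y 0 + d * y 1 = y 1 := congrFun h3 1
      rw [e2, trace_fin_two]
      show a + d = 2
      by_contra hne
      have hne' : 2 - a - d ≠ 0 := fun e => hne (by linear_combination -e)
      refine hy (funext fun i => ?_)
      fin_cases i
      · exact (mul_eq_zero.1 (show (2 - a - d) * y 0 = 0 by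
          linear_combination (d - 1) * k0 - b * k1 - y 0 * h)).resolve_left hne'
      · exact (mul_eq_zero.1 (show (2 - a - d) * y 1 = 0 by
          linear_combination (a - 1) * k1 - c * k0 - y 1 * h)).resolve_left hne'
    obtain ⟨z, hz⟩ := H5.exists_US_of_trace htr
    obtain ⟨k, hk⟩ := H5.isPGroup_US p z ⟨_, hz⟩
    have hk' : D.ρ (⟨x, hx⟩ ^ p ^ k) = D.ρ 1 := by
      rw [map_pow, map_one]; exact congrArg Subtype.val hk
    have h4 : x ^ p ^ k = 1 := congrArg Subtype.val (D.bij.1 hk')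
    exact hx1 (orderOf_eq_one_iff.1 (Nat.Coprime.eq_one_of_dvd (hc.pow_right k) (orderOf_dvd_of_pow_eq_one h4)))
  · by_cases h0 : U = ⊥
    · exact Or.inl h0
    refine Or.inr (le_antisymm h1 fun v hv => ?_)
    obtain ⟨⟨u, hu⟩, hu1⟩ := ne_bot_iff_exists_ne_one.1 h0
    obtain ⟨a, rfl⟩ := D.memC'.1 (h1 hu)
    have ha : a ≠ 0 := fun e => hu1 (Subtype.ext (by
      show D.φ ![a, 0] = 1
      rw [e, ← D.zero]; congr 1; ext i; fin_cases i <;> rfl))
    obtain ⟨b, rfl⟩ := D.memC'.1 hv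
    by_cases hb : b = 0
    · have : D.φ ![b, 0] = 1 := by rw [hb, ← D.zero]; congr 1; ext i; fin_cases i <;> rfl
      rw [this]; exact one_mem _
    obtain ⟨l, hl, e⟩ := D.exists_diag (div_ne_zero hb ha)
    have := conj_mem_of_le_normalizer h2 hl hu
    rw [e] at this
    simpa [div_mul_cancel₀ b ha] using this
  · by_cases h0 : U ≤ V ⊓ centralizer (T : Set G)
    · exact Or.inl (le_antisymm h0 h1)
    refine Or.inr (le_antisymm h2 fun v hv => ?_)
    obtain ⟨u, hu, hu1⟩ := SetLike.not_le_iff_exists.1 h0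
    obtain ⟨x, rfl⟩ := (D.memV _).1 (h2 hu)
    have hx : x 1 ≠ 0 := fun e => hu1 ⟨D.mem x, (D.memC x).2 e⟩
    obtain ⟨y, rfl⟩ := (D.memV _).1 hv
    by_cases hy : y 1 = 0
    · exact h1 ⟨hv, (D.memC y).2 hy⟩
    obtain ⟨l, hl, e⟩ := D.exists_diag (div_ne_zero hx hy)
    have k := conj_mem_of_le_normalizer h3 hl hu
    rw [e] at k
    have : D.φ y = D.φ ![y 0 - x 1 / y 1 * x 0, 0] * D.φ ![x 1 / y 1 * x 0, (x 1 / y 1)⁻¹ * x 1] := by
      rw [← D.add]
      congr 1
      ext i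
      fin_cases i <;> simp [div_mul_cancel₀ _ hx]
    rw [this]
    exact mul_mem (h1 (D.memC'.2 ⟨_, rfl⟩)) k

end Cfsg.Agent.S2780
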