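import Cfsg.Statements.S2791
import Cfsg.Agent.H2.AG

set_option autoImplicit false
open Cfsg

namespace Cfsg.Agent.S2791

open Subgroup H9 H2G

/-- Let S be a Sylow p-subgroup of the finite group G and A an abelian subgroup of S that is strongly closed in S with respect to G. Then A controls strong fusion in G: for some Sylow p-subgroup T containing A, whenever a subset of T is conjugated into T by an element of G, the same elementwise conjugation is induced by an element of N_G(A). -/
theorem result {G : Type*} [Group G] [Finite G] {p : ℕ} [Fact p.Prime] (S : Sylow p G) (A : Subgroup G) (hA : IsMulCommutative ↥A) (hsc : Cfsg.IsStronglyClosed A (S : Subgroup G)) : Cfsg.ControlsStrongFusion p A := by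
  have hS := syl_top_of_sylow S
  refine ⟨S, hsc.1, fun B hB => ⟨hB, fun g hg => control hS (fun Q hQ _ h => ?_) hB hg⟩⟩
  have hn : normalizer (Q : Set G) ≤ normalizer ((A ⊓ Q : Subgroup G) : Set G) := fun n hn => mem_normalizer_of_cj_le (by
    rintro _ ⟨x, hx, rfl⟩
    have := (mem_normalizer_iff.1 hn x).1 hx.2
    exact ⟨hsc.2 x hx.1 n (hQ this), this⟩)
  have hSA : (S : Subgroup G) ≤ normalizer (A : Set G) := fun s hs => mem_normalizer_of_cj_le (by
    rintro _ ⟨x, hx, rfl⟩
    exact hsc.2 x hx s (mul_mem (mul_mem hs (hsc.1 hx)) (inv_mem hs)))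
  have h1 : A ⊓ normalizer (Q : Set G) ≤ Q := fun a ha => h ⟨hsc.1 ha.1,
    mem_Opm_of_stab (hS.isP.to_le hQ) hn ha.2 (fun x hx => congrArg Subtype.val (hA.is_comm.comm ⟨x, hx.1⟩ ⟨a, ha.1⟩))
      fun q hq => ⟨by
        have := (mem_normalizer_iff.1 (hSA (hQ hq)) a⁻¹).1 (inv_mem (mem_inf.1 ha).1)
        simpa [mul_assoc] using mul_mem ha.1 this, Q.mul_mem ((mem_normalizer_iff.1 ha.2 q).1 hq) (Q.inv_mem hq)⟩⟩
  have h2 : A ≤ Q := by
    by_contra h3
    have := lt_inf_normalizer_of_p (hS.isP.to_le (sup_le hQ hsc.1)) (left_lt_sup.2 h3)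
    rw [dedekind le_normalizer (Or.inl (hQ.trans hSA))] at this
    exact this.not_ge (sup_le le_rfl h1)
  rwa [inf_eq_left.2 h2] at hn

end Cfsg.Agent.S2791
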