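import Cfsg.Statements.S2856
import Cfsg.Agent.H9.Am3

set_option autoImplicit false
open Cfsg

namespace Cfsg.Agent.S2856

/-- Let (M₁, M₂) be an amalgam pair in X satisfying the rank-two standing hypothesis (characteristic p, the normalizers in M₁ and in M₂ of a Sylow p-subgroup of M₁ ∩ M₂ equal and contained in M₁ ∩ M₂, and strongly p-embedded residues), λ a vertex of the coset graph, L_λ the subgroup of its stabilizer generated by the p-elements, Q_λ = O_p of the stabilizer, O^p(L_λ) the subgroup of L_λ generated by its elements of order prime to p, and V_λ^{(k)} the subgroup generated by the Z_μ over the vertices μ at distance at most k from λ (Z_μ being generated by the Ω₁(Z(S)), S a Sylow p-subgroup of the stabilizer of μ). If n ≥ 1 and V_λ^{(n)} ≤ Q_λ, then O^p(L_λ) does not centralize V_λ^{(n)}/[V_λ^{(n)}, Q_λ], that is, [V_λ^{(n)}, O^p(L_λ)] is not contained in [V_λ^{(n)}, Q_λ]. -/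
theorem result {X : Type*} [Group X] {p : ℕ} [Fact p.Prime] (M₁ M₂ : Subgroup X) (h : Cfsg.IsSpeAmalgamPair p M₁ M₂) (lam : Cfsg.CosetVertex M₁ M₂) (n : ℕ) (hn : 1 ≤ n) (V : Subgroup X) (hV : V = Cfsg.vertexVIter p M₁ M₂ n lam) (hVQ : V ≤ Cfsg.vertexQ p lam) : ¬ ⁅V, ((Cfsg.pResidual p ↥(Cfsg.pElementClosure p (MulAction.stabilizer X lam))).map (Cfsg.pElementClosure p (MulAction.stabilizer X lam)).subtype)⁆ ≤ ⁅V, Cfsg.vertexQ p lam⁆ := by
  open H9 Subgroup in open scoped commutatorElement in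
  subst hV
  obtain ⟨b, e⟩ := H9.Am.exists_ad lam
  obtain ⟨m, rfl⟩ := Nat.exists_eq_add_of_le' hn
  have t := h.1.1.1
  have := H9.Am.fin_St h.1 lam
  rw [show vertexQ p lam = H9.Op p (H9.Am.St lam) from H9.Op_eq p _] at *
  haveI : Finite (H9.Op p (H9.Am.St lam)) := .of_injective _ (Subgroup.inclusion_injective (H9.Op_le _ _))
  refine H9.Am.VI_not h e hVQ fun k => H2.le_of_le_sup_commutator H9.Am.op_p ?_ ((H9.Am.VI_ad t e).trans hVQ) hVQ k
  exact (H9.Am.Op_le_NK h.1 lam).trans (e.NK_le.trans (H9.Am.norm_VI t))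

end Cfsg.Agent.S2856
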