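import Cfsg.Statements.S2945
import Cfsg.Agent.H9.JC2

set_option autoImplicit false
open Cfsg

namespace Cfsg.Agent.S2945

section
open H9 Subgroup
open scoped commutatorElement
open H9 H9.JC H1 Subgroup in open scoped commutatorElement in
theorem hc {G Γ : Type*} [Group G] [Group Γ] {V A : Subgroup G} {i : V →* Γ} {f : normalizer (V : Set G) →* Γ}
    (s : Hol V i f) (n : A ≤ normalizer (V : Set G)) : ⁅im i V, im f A⁆ ≤ im i ⁅V, A⁆ := by
  refine commutator_le.2 ?_
  rintro _ ⟨v, hv, rfl⟩ _ ⟨a, ha, rfl⟩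
  rw [commutatorElement_def, mul_assoc, mul_assoc, ← mul_assoc (f _), ← map_inv, s.act, ← map_mul]
  refine mem_im_of_mem i ?_
  convert commutator_mem_commutator (g₁ := (v : G)) v.2 (g₂ := (a : G)) ha using 1
  simp [commutatorElement_def, mul_assoc]

open H9 H9.JC H1 Subgroup in open scoped commutatorElement in
theorem nW {G : Type*} [Group G] [Finite G] {K J X : Subgroup G} (t : T3 K) (c : Nat.card (WW K) = 4) (sn : SN K X)
    (so : Group.IsSolvable X) (u : Fu J X) : J ≤ normalizer (WW K : Set G) := by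
  have mW := md_WW (K := K)
  have w0 : WW K ≠ ⊥ := fun e => by simp [e] at c
  have oK : Op 2 X ≤ normalizer (K : Set G) := t.ores ▸ sn.Op_le_normalizer_Ores
  have nO := le_normalizer_Op 2 X
  have wO : WW K ≤ OZ 2 (Op 2 X) := le_OZ mW.el (WW_le.trans ((OZ_le _ _).trans sn.Op_le_Op))
    ((t.irr mW t.W_cent c inf_le_left (normalizer_inf mW.n (normalizer_centralizer (sn.le.trans nO)))
      (inf_centralizer_ne_bot_of_p (elem_isP mW.el) (Op_p _ _) (norm_WW oK) w0)).ge.trans inf_le_right)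
  have vO : ncl (WW K) X ≤ OZ 2 (Op 2 X) := ncl_le wO (normalizer_OZ nO)
  have el := elem_of_le (OZ_elem _ _) vO
  have nV := le_normalizer_ncl (WW K) X
  have wV := le_ncl (WW K) X
  have cV : ∀ {D : Subgroup G}, X ≤ normalizer (D : Set G) → D ≤ centralizer (WW K : Set G) → D ≤ centralizer (ncl (WW K) X : Set G) :=
    @fun _ a b => le_centralizer_iff.1 (ncl_le_centralizer (le_centralizer_iff.1 b) a)
  generalize ncl (WW K) X = V at *
  have vq := vO.trans (OZ_le _ _)
  have vX := vq.trans (Op_le _ _)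
  have kV := sn.le.trans nV
  have m : Md K V := ⟨el, kV, sn.Op_le_Op.trans (le_centralizer_iff.1 (vO.trans (OZ_le_centralizer _ _)))⟩
  have l := commutator_le_left' m.n
  have m' := m.mono l (le_normalizer_commutator_right _ _)
  have e : ⁅V, K⁆ = WW K := by
    have a := (t.dec m').1
    have b := (t.dec mW).1
    rw [eq_bot_iff.2 ((t.dec m).2.1 ▸ le_inf (inf_le_inf_right _ l) inf_le_left : ⁅V, K⁆ ⊓ centralizer (K : Set G) ≤ ⊥),
      sup_bot_eq] at a
    rw [t.W_cent, sup_bot_eq] at b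
    exact le_antisymm (a.ge.trans (commutator_mono (le_OZ m'.el (le_trans (le_inf (l.trans vq) (commutator_le_right'
      (vq.trans oK))) (le_Op inf_le_right (normalizer_inf (sn.le.trans nO) le_normalizer) ((Op_p _ _).to_le inf_le_left)))
        (le_centralizer_iff.1 m'.c)) le_rfl)) (b.ge.trans (commutator_mono wV le_rfl))
  obtain ⟨Γ, _, _, i, f, s⟩ := exists_hol V
  have e1 : ⁅im i V, im f K⁆ = im i (WW K) := e ▸ le_antisymm (hc s kV) (hol_comm s kV)
  have c3 : Nat.card (im f K) = 3 := by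
    rw [card_im f kV, s.kr_f, ← inf_relIndex_right, ← t.i3]
    congr 1
    exact le_antisymm (fun x hx => by_contra fun d => w0 (t.W_cent ▸ (inf_eq_left.2 (wV.trans (le_centralizer_iff.1
      (t.le m.c hx.2 hx.1 d)))).symm)) (le_inf m.c (Op_le _ _))
  have c4 : Nat.card (⁅im i V, im f K⁆ : Subgroup Γ) = 2 ^ 2 := by rw [e1, s.card_i wV, c]; rfl
  have fa : ∀ {D}, im f D ⊓ centralizer (im i V : Set Γ) = ⊥ := eq_bot_iff.2 (s.fa ▸ inf_le_inf_right _ (im_le_im_self f _))
  have nX := (s.norm nV le_rfl).2 nV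
  have sK := sn.im f
  have ir : Irr (im i V) (im f K) := irr_of_card (isElem_im i el) (sK.le.trans nX) (by rw [c3]; decide) fa c4 (by rw [c3]; decide)
  have hO : Opm 2 X (centralizer (V : Set G)) ≤ centralizer (V : Set G) := by
    have a := (Opm_le 2 X (centralizer (V : Set G))).trans nV
    have o : Op 2 (im f X) ≤ normalizer (im f K : Set Γ) := by
      rw [← t.ores, im_Ores f kV]; exact sK.Op_le_normalizer_Ores
    have o' := normalizer_commutator ((Op_le 2 _).trans nX) o
    refine cV (le_normalizer_Opm _ _) ((s.cent a wV).1 ((le_Op (im_mono f (Opm_le _ _ _)) (im_le_normalizer f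
      (le_normalizer_Opm _ _)) (isPGroup_of_Ores_eq_bot ?_)).trans (le_centralizer_iff.1 (e1 ▸ ((ir _ inf_le_left
        (normalizer_inf (le_normalizer_commutator_right _ _) (normalizer_centralizer (sK.le.trans
          (le_normalizer_Op 2 _))))).resolve_left (inf_centralizer_ne_bot_of_p (IsPGroup.of_card c4) (Op_p _ _) o'
            fun d => by simp [d] at c4)).ge.trans inf_le_right))))
    rw [← im_Ores f a, im_eq_bot_iff f ((Ores_le _ _).trans a), s.kr_f]
    exact Ores_Opm_le _ _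
  obtain ⟨p, g⟩ := s.fp_J el vX nV (psol_of_solvable so) hO
  have p' := s.fp el nV (psol_of_solvable so) hO (SN.refl X)
  refine u.je.ge.trans (JE_le_iff.2 fun A hA => ?_)
  have aX := hA.1.trans u.le
  rw [← s.norm (aX.trans nV) wV, ← e1]
  refine p.le_of_tv (im_mono f (le_JE (u.me hA))) (s.bo (aX.trans nV) (ME.bo (u.me hA) el vX)) fun B _ b => ?_
  obtain ⟨d1, d2, d3⟩ := p.comm_Q b
  have d4 := p.card_W b
  by_cases h1 : ⁅im i V, im f K⁆ = ⁅im i V, ⁅Op' 2 (im f (JE 2 X)), B⁆⁆
  · rw [h1, d1]; exact p.tv_norm b b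
  have := sep_of_irr p'.el p'.nv p'.fa p'.Op sK ((SN.of_normal (b.Q_le.trans (Op'_le _ _)) (nD p b g)).trans
    ((SN.of_normal (JE_le 2 X) (normalizer_JE le_normalizer)).im f)) ir d2
    (fun d => h1 (eq_of_le_of_card_ge d (by rw [d1, d4, c4]))) (fun d => h1 (eq_of_le_of_card_ge d (by rw [d1, d4, c4])).symm)
    (by rw [c3]; decide) d3
  exact le_trans (le_centralizer_iff.1 ((le_inf (commutator_le_left' (sK.le.trans nX)) (le_centralizer_iff.1 this.c2)).trans
    ((p.C_Q b).1.le.trans (inf_le_right.trans (centralizer_anti le_sup_right))))) (centralizer_le_normalizer' _)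
end

/-- Let G be a finite group of characteristic 2 type in which every 2-local subgroup is solvable and the centralizer of Ω₁(Z(S)) lies in N_G(S) for every Sylow 2-subgroup S, and let T be a nontrivial 2-subgroup (below, J is the Thompson subgroup generated by the elementary abelian 2-subgroups of largest order), L a subgroup in which T is a Sylow 2-subgroup with J(T) not contained in O₂(L) and C_G(O₂(L)) ≤ O₂(L), and K ≤ L a subgroup that is subnormal in ⟨K, J(T)⟩. If for some conjugate Tᵍ of T, K is a J(Tᵍ)-component with J(Tᵍ) the Thompson subgroup of every Sylow 2-subgroup of N_G(W_K) containing J(Tᵍ) (W_K = [Ω₁(Z(O₂(K))), K]), then K is a J(T)-component. -/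
theorem result {G : Type*} [Group G] [Finite G] (hL : Cfsg.IsCharacteristicTwoType G) (hN : ∀ N : Subgroup G, Cfsg.IsTwoLocal N → Group.IsSolvable ↥N)
    (hZ : ∀ S : Sylow 2 G, Subgroup.centralizer (Cfsg.omegaCenterOf (S : Subgroup G) : Set G) ≤ Subgroup.normalizer ((S : Subgroup G) : Set G)) (T : Subgroup G) (hT : IsPGroup 2 ↥T) (hT1 : T ≠ ⊥) (L : Subgroup G) (hLT : L ∈ Cfsg.jOvergroups T)
    (K : Subgroup G) (hKL : K ≤ L) (hKsn : (K.subgroupOf (K ⊔ Cfsg.thompsonSubgroupOf 2 T)).IsSubnormal)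
    (g : G) (hKg : K ∈ Cfsg.jComponentsZero (T.map (MulAut.conj g).toMonoidHom)) : Cfsg.IsJComponent T K := by
  open H9 Subgroup in open scoped commutatorElement in
  obtain ⟨a, -, c⟩ := JC.ov_iff.1 hLT
  have z := JC.zn_of hL hN hZ
  obtain ⟨k, u⟩ := (JC.zero_iff (isPGroup_cj g hT)).1 hKg
  have l := z.ls c a
  rw [JE_eq] at hKsn
  have x : K ⊔ JE 2 T ≤ L := sup_le hKL l.JL
  have := z.jk_cj k u (g := g⁻¹) (by
    rw [← cj_JE, cj_inv_cj]
    exact nW k.toT3 k.c4 (sn_iff.2 ⟨le_sup_left, hKsn⟩) (isSolvable_of_le l.sol x) (l.fu.mono le_sup_right x))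
  rw [← cj_JE, cj_inv_cj] at this
  exact (JC.jk_iff hT).2 this

end Cfsg.Agent.S2945
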