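import Cfsg.Statements.S2947
import Cfsg.Agent.H9.SPE

set_option autoImplicit false
open Cfsg

namespace Cfsg.Agent.S2947

/-- Let G be a finite group of characteristic 2 type in which every 2-local subgroup is solvable and the centralizer of Ω₁(Z(S)) lies in N_G(S) for every Sylow 2-subgroup S; suppose O₂(G) = 1, fix a Sylow 2-subgroup S and a 2-local subgroup M containing N_G(J(S)) (J the Thompson subgroup generated by the elementary abelian 2-subgroups of largest order). Then M is strongly embedded in G (a proper subgroup of even order whose intersection with each conjugate by an element outside M has odd order) if and only if no nontrivial 2-subgroup of M lies in a 2-local subgroup of G not contained in M. -/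
theorem result {G : Type*} [Group G] [Finite G] (hL : Cfsg.IsCharacteristicTwoType G) (hN : ∀ N : Subgroup G, Cfsg.IsTwoLocal N → Group.IsSolvable ↥N)
    (hZ : ∀ S : Sylow 2 G, Subgroup.centralizer (Cfsg.omegaCenterOf (S : Subgroup G) : Set G) ≤ Subgroup.normalizer ((S : Subgroup G) : Set G)) (hO : Cfsg.pCore 2 G = ⊥) (S : Sylow 2 G) (M : Subgroup G) (hM : Cfsg.IsTwoLocal M)
    (hMJ : Subgroup.normalizer (Cfsg.thompsonSubgroupOf 2 (S : Subgroup G) : Set G) ≤ M) :
    Cfsg.IsStronglyEmbedded M ↔ Cfsg.straddlingTwoSubgroups M = ∅ := by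
  open H9 Subgroup in open scoped commutatorElement in
  rw [emb_iff_spe, Set.eq_empty_iff_forall_notMem]
  constructor
  · rintro h T ⟨a1, a2, a3, _, ⟨U, b1, b2, rfl⟩, a4, a5⟩
    exact a5 (h.le_of_Op le_top (dvd_card_of_p_le (le_inf a3 a4) a1 a2)
      fun e => b2 (eq_bot_iff.2 (e ▸ le_Op le_normalizer le_rfl b1)))
  · intro h
    obtain ⟨U, b1, b2, rfl⟩ := hM
    refine ⟨lt_top_iff_ne_top.2 fun e => b2 (eq_bot_iff.2 ?_), dvd_card_of_p_le le_normalizer b1 b2,
      fun A a1 a2 a3 => inf_le_right.trans (by_contra fun e => h A ⟨a2, a3, a1, _, ⟨A, a2, a3, rfl⟩, le_normalizer, e⟩)⟩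
    rw [← hO, ← Op_top]; exact le_Op le_top e.ge b1

end Cfsg.Agent.S2947
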