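import Cfsg.Statements.S2953
import Cfsg.Agent.H9.JC5

set_option autoImplicit false
open Cfsg

namespace Cfsg.Agent.S2953

/-- Let G be a finite group of characteristic 2 type in which every 2-local subgroup is solvable and the centralizer of Ω₁(Z(S)) lies in N_G(S) for every Sylow 2-subgroup S; suppose O₂(G) = 1, fix a Sylow 2-subgroup S and a 2-local subgroup M containing N_G(J(S)) (J the Thompson subgroup generated by the elementary abelian 2-subgroups of largest order). Let T be maximal (for the order of a largest elementary abelian subgroup, then the order of J(T), then the order of T) among the nontrivial 2-subgroups of M lying in a 2-local subgroup not inside M. Then there are two distinct J(T)-components K₁, K₂ such that, with Pᵢ = ⟨Kᵢ, T⟩: C_G(O₂(Pᵢ)) ≤ O₂(Pᵢ), T is a Sylow 2-subgroup of Pᵢ, O₂(Pᵢ) has index 6 in Pᵢ with Pᵢ/O₂(Pᵢ) non-abelian, [Ω₁(Z(T)), Pᵢ]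 ≠ 1, O₂(⟨P₁, P₂⟩) = 1, and each Pᵢ lies in exactly one maximal 2-local subgroup Lᵢ of G, in which T is a Sylow 2-subgroup. -/
theorem result {G : Type*} [Group G] [Finite G] (hL : Cfsg.IsCharacteristicTwoType G) (hN : ∀ N : Subgroup G, Cfsg.IsTwoLocal N → Group.IsSolvable ↥N)
    (hZ : ∀ S : Sylow 2 G, Subgroup.centralizer (Cfsg.omegaCenterOf (S : Subgroup G) : Set G) ≤ Subgroup.normalizer ((S : Subgroup G) : Set G)) (hO : Cfsg.pCore 2 G = ⊥) (S : Sylow 2 G) (M : Subgroup G) (hM : Cfsg.IsTwoLocal M)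
    (hMJ : Subgroup.normalizer (Cfsg.thompsonSubgroupOf 2 (S : Subgroup G) : Set G) ≤ M) (T : Subgroup G) (hT : T ∈ Cfsg.maxStraddlingTwoSubgroups M) :
    ∃ K₁ K₂ : Subgroup G, K₁ ≠ K₂ ∧ Cfsg.IsJComponent T K₁ ∧ Cfsg.IsJComponent T K₂ ∧
      Cfsg.pCoreOf 2 ((K₁ ⊔ T) ⊔ (K₂ ⊔ T)) = ⊥ ∧
      ∀ P ∈ [K₁ ⊔ T, K₂ ⊔ T],
        Subgroup.centralizer (Cfsg.pCoreOf 2 P : Set G) ≤ Cfsg.pCoreOf 2 P ∧ Cfsg.IsSylowTwoIn T P ∧
        (Cfsg.pCoreOf 2 P).relIndex P = 6 ∧ ¬ ⁅P, P⁆ ≤ Cfsg.pCoreOf 2 P ∧ ⁅Cfsg.omegaCenterOf T, P⁆ ≠ ⊥ ∧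
        ∃ L : Subgroup G, Cfsg.IsMaximalTwoLocal L ∧ P ≤ L ∧ Cfsg.IsSylowTwoIn T L ∧
          ∀ L' : Subgroup G, Cfsg.IsMaximalTwoLocal L' → P ≤ L' → L' = L := by
  open H9 Subgroup in open scoped commutatorElement in
  have z := JC.zn_of hL hN hZ
  have h := JC.mx_of hT
  obtain ⟨K, K', p⟩ := h.pair z ((Op_top 2).trans hO) ⟨S, syl_top_of_sylow S, JE_eq 2 (S : Subgroup G) ▸ hMJ⟩
  refine ⟨K, K', fun e => p.ne (by rw [e]), (JC.jk_iff h.p).2 p.g.jk, (JC.jk_iff h.p).2 p.g'.jk,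
    (pCoreOf_eq _ _).trans (p.g.Obot p.g' p.ne), ?_⟩
  intro P hP
  obtain ⟨K, K', p, rfl⟩ : ∃ K K', JC.Pr T K K' ∧ P = K ⊔ T :=
    (List.mem_pair.1 hP).elim (fun e => ⟨_, _, p, e⟩) fun e => ⟨_, _, p.symm, e⟩
  rw [pCoreOf_eq]
  refine ⟨(p.g.cc z).c, JC.syl_iff.2 p.g.syl, p.g.i6 z p.c, fun e => p.g.jk.not_p ((Op_p 2 _).to_le (p.g.jk.cm.ge.trans
    ((commutator_mono le_sup_left p.g.JL).trans e))), fun e => p.g.nc p.c (le_centralizer_iff''.2 e),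
    _, p.g.ml, le_rfl, JC.syl_iff.2 p.g.syl, fun L' a b => p.g.ml.2 L' a.1 b⟩

end Cfsg.Agent.S2953
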