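import Cfsg.Statements.S3085
import Cfsg.Agent.H2.XS4

set_option autoImplicit false
open Cfsg

namespace Cfsg.Agent.S3085

open Subgroup H2

theorem step {G : Type*} [Group G] [Finite G] {Q : Subgroup G} {z : G} (h : XS Q z) :
    ∃ s ∈ Q, s * s = z ∧ (8 < Nat.card Q → ∃ C ≤ Q, XS C z ∧ (∀ c ∈ C, c * s = s * c) ∧ s ∉ C ∧
      Nat.card Q ≤ 4 * Nat.card C) := by
  obtain ⟨s, hs, s2⟩ : ∃ s ∈ Q, s * s = z := by
    obtain ⟨x, hx, y, hy, n⟩ := h.nab
    rcases h.sq x hx with a | a
    swap
    · exact ⟨x, hx, a⟩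
    rcases h.sq y hy with b | b
    swap
    · exact ⟨y, hy, b⟩
    refine ⟨x * y, Q.mul_mem hx hy, ?_⟩
    have e := h.conj hx hy n
    calc x * y * (x * y) = x * y * x⁻¹ * (x * x) * y := by group
      _ = y * (z * y) := by rw [e, a]; group
      _ = z := by rw [← h.zc y hy, ← mul_assoc, b, one_mul]
  refine ⟨s, hs, s2, fun c8 => ?_⟩
  obtain ⟨y, hy, n, -⟩ := h.exists_conj hs (fun e => h.z1 (by rw [← s2, e, one_mul]))
    (fun e => h.z1 (by rw [← s2, e, h.z2]))
  let C := Q ⊓ centralizer {s} ⊓ centralizer {y}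
  have mC : ∀ c, c ∈ C ↔ c ∈ Q ∧ c * s = s * c ∧ c * y = y * c := fun c => by
    simp only [C, mem_inf, mem_centralizer_singleton_iff, and_assoc]
  have c1 : Nat.card Q ≤ 2 * Nat.card (Q ⊓ centralizer {s} : Subgroup G) :=
    idx2 inf_le_left fun a ha b hb na nb => ⟨Q.mul_mem ha hb, mem_centralizer_singleton_iff.2
      ((h.comm_mul_iff' hs ha hb).2 (iff_of_false
        (fun k => na ⟨ha, mem_centralizer_singleton_iff.2 k⟩)
        (fun k => nb ⟨hb, mem_centralizer_singleton_iff.2 k⟩)))⟩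
  have c2 : Nat.card (Q ⊓ centralizer {s} : Subgroup G) ≤ 2 * Nat.card C :=
    idx2 inf_le_left fun a ha b hb na nb => ⟨Subgroup.mul_mem _ ha hb,
      mem_centralizer_singleton_iff.2 ((h.comm_mul_iff' hy ha.1 hb.1).2 (iff_of_false
        (fun k => na ⟨ha, mem_centralizer_singleton_iff.2 k⟩)
        (fun k => nb ⟨hb, mem_centralizer_singleton_iff.2 k⟩)))⟩
  have cen : ∀ x ∈ C, (∀ c ∈ C, x * c = c * x) → x = 1 ∨ x = z := fun x hx hc => by
    obtain ⟨x1, x2, x3⟩ := (mC x).1 hx
    refine h.cen x x1 fun q hq => ?_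
    have n' : ¬ s * y = y * s := fun k => n k.symm
    have m := fun a ha b hb => h.comm_mul_iff (y := a) (y' := b) x1 ha hb
    have ms := fun a ha b hb => h.comm_mul_iff' (y := a) (y' := b) hs ha hb
    have my := fun a ha b hb => h.comm_mul_iff' (y := a) (y' := b) hy ha hb
    by_cases a : q * s = s * q <;> by_cases b : q * y = y * q
    · exact hc q ((mC q).2 ⟨hq, a, b⟩)
    · exact ((m q hq s hs).1 (hc _ ((mC _).2 ⟨Q.mul_mem hq hs, (ms q hq s hs).2 (iff_of_true a rfl),
        (my q hq s hs).2 (iff_of_false b n')⟩))).2 x2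
    · exact ((m q hq y hy).1 (hc _ ((mC _).2 ⟨Q.mul_mem hq hy, (ms q hq y hy).2 (iff_of_false a n),
        (my q hq y hy).2 (iff_of_true b rfl)⟩))).2 x3
    · have hsy := Q.mul_mem hs hy
      exact ((m q hq _ hsy).1 (hc _ ((mC _).2 ⟨Q.mul_mem hq hsy, (ms q hq _ hsy).2
        (iff_of_false a fun k => n (((ms s hs y hy).1 k).1 rfl)), (my q hq _ hsy).2
        (iff_of_false b fun k => n' (((my s hs y hy).1 k).2 rfl))⟩))).2
        ((m s hs y hy).2 (iff_of_true x2 x3))
  have hC : C ≤ Q := inf_le_left.trans inf_le_left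
  refine ⟨C, hC, h.sub hC ((mC z).2 ⟨h.zQ, (h.zc s hs).symm, (h.zc y hy).symm⟩) cen ?_,
    fun c hc => ((mC c).1 hc).2.1, fun k => n ((mC s).1 k).2.2.symm, by omega⟩
  by_contra k
  push Not at k
  have : C ≤ zpowers z := fun x hx => (mem_zp2 h.z2).2 (cen x hx (k x hx))
  have := card_le_of_le this
  rw [Nat.card_zpowers, h.ord] at this
  omega

open Classical in
theorem tau {G : Type*} [Group G] {z t : G} (h : XS (⊤ : Subgroup G) z) (ht : t * t = z) :
    ∃ τ : MulAut G, ∀ x, τ x = if x * t = t * x then x else x * t := by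
  have c1 : ∀ x : G, x * t * t = t * (x * t) ↔ x * t = t * x := fun x => by
    rw [← mul_assoc, mul_left_inj]
  have c2 : ∀ x : G, x * t⁻¹ * t = t * (x * t⁻¹) ↔ x * t = t * x := fun x => by
    rw [inv_mul_cancel_right, ← mul_assoc, eq_mul_inv_iff_mul_eq]
  refine ⟨⟨⟨fun x => if x * t = t * x then x else x * t,
    fun x => if x * t = t * x then x else x * t⁻¹, fun x => ?_, fun x => ?_⟩, fun x y => ?_⟩,
    fun _ => rfl⟩
  · by_cases a : x * t = t * x
    · simp [a]
    · simp only [if_neg a, c1, mul_inv_cancel_right]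
  · by_cases a : x * t = t * x
    · simp [a]
    · simp only [if_neg a]
      rw [if_neg fun k => a ((c2 x).1 k), inv_mul_cancel_right]
  · have m := h.comm_mul_iff' (x := t) (y := x) (y' := y) trivial trivial trivial
    by_cases a : x * t = t * x <;> by_cases b : y * t = t * y
    · simp only [if_pos a, if_pos b, if_pos (m.2 (iff_of_true a b))]
    · simp only [if_pos a, if_neg b, if_neg fun k => b ((m.1 k).1 a)]
      rw [mul_assoc]
    · simp only [if_neg a, if_pos b, if_neg fun k => a ((m.1 k).2 b)]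
      rw [mul_assoc, b, mul_assoc]
    · simp only [if_neg a, if_neg b, if_pos (m.2 (iff_of_false a b))]
      have e := h.conj (x := t) (y := y) trivial trivial fun k => b k.symm
      calc x * y = x * (y * (z * z)) := by rw [h.z2, mul_one]
        _ = x * (t * y * t⁻¹ * (t * t)) := by rw [e, ht, mul_assoc y]
        _ = _ := by group

/-- Let Q be an extraspecial 2-group of order 2^(2n+1) with n ≥ 3 that is of plus type (it contains an elementary abelian subgroup of order 2^(n+1)). Then the group of inner automorphisms of Q has no complement in the full automorphism group of Q: the extension of the inner automorphism group (elementary abelian of order 2^(2n)) by the outer automorphism group (the orthogonal group of plus type) does not split. -/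
theorem result {Q : Type*} [Group Q] [Finite Q] (n : ℕ) (hn : 3 ≤ n) (hQ : Cfsg.IsExtraspecial 2 Q) (hcard : Nat.card Q = 2 ^ (2 * n + 1)) (hplus : ∃ E : Subgroup Q, Cfsg.IsElementaryAbelian 2 E ∧ Nat.card ↥E = 2 ^ (n + 1)) (L : Subgroup (MulAut Q)) : ¬ (Cfsg.Inn Q).IsComplement' L := by
  classical
  intro hL
  obtain ⟨z, h⟩ : ∃ z, XS (⊤ : Subgroup Q) z := xs_of (_root_.L.isExtraspecial_top_iff.2 hQ)
  have inn : ∀ u : Q, MulAut.conj u ∈ L → u = 1 ∨ u = z := fun u hu => by
    have : MulAut.conj u = 1 := (disjoint_def.1 hL.disjoint) ⟨u, rfl⟩ hu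
    refine h.cen u trivial fun y _ => ?_
    have := congrArg (fun f : MulAut Q => f y) this
    simpa [mul_inv_eq_iff_eq_mul] using this
  have lift : ∀ t : Q, t * t = z → ∃ (τ : MulAut Q) (v : Q), MulAut.conj v * τ ∈ L ∧
      ∀ x, τ x = if x * t = t * x then x else x * t := fun t ht => by
    obtain ⟨τ, hτ⟩ := tau h ht
    obtain ⟨⟨⟨_, v, rfl⟩, l⟩, e⟩ := hL.existsUnique τ |>.exists
    refine ⟨τ, v⁻¹, ?_, hτ⟩
    rw [← e]
    simp
  have cj : ∀ (α : MulAut Q) (v : Q), α * MulAut.conj v = MulAut.conj (α v) * α := fun α v => by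
    ext x; simp
  have nz : ∀ t : Q, t * t = z → ¬ (t = 1 ∨ t = z) := fun t ht k => by
    rcases k with k | k
    · exact h.z1 (by rw [← ht, k, one_mul])
    · exact h.z1 (by rw [← ht, k, h.z2])
  have zc : ∀ x, x * z = z * x := fun x => h.zc x trivial
  have A : ∀ t : Q, t * t = z → ∀ (τ : MulAut Q) (v : Q), MulAut.conj v * τ ∈ L →
      (∀ x, τ x = if x * t = t * x then x else x * t) → v * t ≠ t * v := by
    intro t ht τ v hl hτ c
    have e1 : τ * τ = MulAut.conj t := by
      ext x
      by_cases a : x * t = t * x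
      · rw [MulAut.mul_apply, hτ x, if_pos a, hτ x, if_pos a, MulAut.conj_apply, ← a,
          mul_inv_cancel_right]
      · have : τ (τ x) = x * t * t := by
          rw [hτ x, if_neg a, map_mul, hτ x, if_neg a, hτ t, if_pos rfl]
        rw [MulAut.mul_apply, this, MulAut.conj_apply,
          h.conj (x := t) (y := x) trivial trivial fun k => a k.symm, mul_assoc, ht]
    have e2 : MulAut.conj v * τ * (MulAut.conj v * τ) = MulAut.conj (v * v * t) := by
      rw [mul_assoc, ← mul_assoc τ, cj, hτ v, if_pos c, mul_assoc, e1, map_mul, map_mul, mul_assoc]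
    have e3 := inn _ (e2 ▸ L.mul_mem hl hl)
    refine nz t ht ?_
    rcases h.sq v trivial with a | a <;> rw [a] at e3
    · rwa [one_mul] at e3
    · rcases e3 with k | k
      · right; rw [← h.inv]; exact (eq_inv_of_mul_eq_one_right k)
      · left; simpa using k
  have B : ∀ s t : Q, s * s = z → t * t = z → s * t = t * s → ¬ (s⁻¹ * t = 1 ∨ s⁻¹ * t = z) →
      ∀ (τ : MulAut Q) (v : Q), MulAut.conj v * τ ∈ L →
      (∀ x, τ x = if x * t = t * x then x else x * t) → v * s = s * v := by
    intro s t hs ht c ne τ v hl hτ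
    obtain ⟨σ, w, hl', hσ⟩ := lift s hs
    have e1 : σ * τ = τ * σ := by
      ext x
      have a1 : σ t = t := by rw [hσ, if_pos c.symm]
      have a2 : τ s = s := by rw [hτ, if_pos c]
      simp only [MulAut.mul_apply]
      rw [hτ x, hσ x]
      by_cases a : x * t = t * x <;> by_cases b : x * s = s * x <;>
        simp only [a, b, if_true, if_false, map_mul, a1, a2, hτ x, hσ x]
      rw [mul_assoc, mul_assoc, c]
    have e2 : MulAut.conj w * σ * (MulAut.conj v * τ) * (MulAut.conj v * τ * (MulAut.conj w * σ))⁻¹ =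
        MulAut.conj (w * σ v * (v * τ w)⁻¹) := by
      rw [mul_assoc _ σ, ← mul_assoc σ, cj, mul_assoc _ τ, ← mul_assoc τ, cj, mul_assoc _ σ, e1]
      simp only [map_mul, map_inv]
      group
    have e3 := inn _ (e2 ▸ L.mul_mem (L.mul_mem hl' hl) (L.inv_mem (L.mul_mem hl hl')))
    by_contra n
    rw [hσ v, if_neg n] at e3
    have mz : ∀ x : Q, x ∈ zpowers z ↔ x = 1 ∨ x = z := fun x => mem_zp2 h.z2
    haveI : (zpowers z).Normal := ⟨fun x hx g => by
      rcases (mz x).1 hx with k | k <;> rw [k]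
      · simp
      · rw [zc, mul_inv_cancel_right]; exact mem_zpowers z⟩
    let π := QuotientGroup.mk' (zpowers z)
    have k1 : ∀ x, π x = 1 ↔ x = 1 ∨ x = z := fun x => (QuotientGroup.eq_one_iff x).trans (mz x)
    have cm : π w * π v = π v * π w := by
      have := (QuotientGroup.eq_one_iff _).2 (h.comm_mem (x := w) (y := v) trivial trivial)
      have e : π w * π v * (π w)⁻¹ * (π v)⁻¹ = 1 := this
      rwa [mul_inv_eq_one, mul_inv_eq_iff_eq_mul] at e
    have e4 := (k1 _).2 e3
    simp only [map_mul, map_inv] at e4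
    rw [mul_inv_eq_one, ← mul_assoc, cm, mul_assoc, mul_right_inj, hτ w] at e4
    by_cases a : w * t = t * w
    · rw [if_pos a, mul_eq_left] at e4
      exact nz s hs ((k1 s).1 e4)
    · rw [if_neg a, map_mul, mul_right_inj] at e4
      exact ne ((k1 _).1 (by rw [map_mul, map_inv, e4, inv_mul_cancel]))
  have c0 : 128 ≤ Nat.card (⊤ : Subgroup Q) := by
    rw [card_top, hcard]
    exact Nat.pow_le_pow_right (n := 2) (i := 7) (by omega) (by omega)
  obtain ⟨s1, -, q1, k⟩ := step h
  obtain ⟨C1, -, h1, d1, n1, c1⟩ := k (by omega)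
  obtain ⟨s2, m2, q2, k⟩ := step h1
  obtain ⟨C2, l2, h2, d2, n2, c2⟩ := k (by omega)
  obtain ⟨s3, m3, q3, -⟩ := step h2
  have e21 := d1 s2 m2
  have e31 := d1 s3 (l2 m3)
  have e32 := d2 s3 m3
  have c12 : Commute s1 s2 := e21.symm
  have c13 : Commute s1 s3 := e31.symm
  have c23 : Commute s2 s3 := e32.symm
  have ht : s1 * s2 * s3 * (s1 * s2 * s3) = z := by
    rw [← pow_two, (c13.mul_left c23).mul_pow, c12.mul_pow, pow_two, pow_two, pow_two, q1, q2, q3,
      h.z2, one_mul]
  have zz : ∀ {C : Subgroup Q} {x : Q}, z ∈ C → x = 1 ∨ x = z → x ∈ C := fun hz k => by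
    rcases k with k | k <;> rw [k]
    exacts [Subgroup.one_mem _, hz]
  obtain ⟨τ, v, hl, hτ⟩ := lift _ ht
  have b1 : Commute v s1 := B s1 _ q1 ht (((Commute.refl s1).mul_right c12).mul_right c13)
    (fun k => n2 ((Subgroup.mul_mem_cancel_right _ m3).1 (zz h2.zQ (by
      rwa [mul_assoc, inv_mul_cancel_left] at k)))) τ v hl hτ
  have b2 : Commute v s2 := B s2 _ q2 ht ((c12.symm.mul_right (Commute.refl s2)).mul_right c23)
    (fun k => n1 ((Subgroup.mul_mem_cancel_right _ (l2 m3)).1 (zz h1.zQ (by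
      rwa [c12.eq, mul_assoc, inv_mul_cancel_left] at k)))) τ v hl hτ
  have b3 : Commute v s3 := B s3 _ q3 ht ((c13.symm.mul_right c23.symm).mul_right (Commute.refl s3))
    (fun k => n1 ((Subgroup.mul_mem_cancel_right _ m2).1 (zz h1.zQ (by
      rwa [(c13.mul_left c23).eq, inv_mul_cancel_left] at k)))) τ v hl hτ
  exact A _ ht τ v hl hτ ((b1.mul_right b2).mul_right b3)

end Cfsg.Agent.S3085
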