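import Cfsg.Statements.S3103
import Cfsg.Agent.H1.Wt
import Cfsg.Agent.S0256
import Cfsg.Agent.H9.LE1
import Cfsg.Agent.H9.Sec
import Cfsg.Agent.H1.Frattini

set_option autoImplicit false
open Cfsg

namespace Cfsg.Agent.S3103

open scoped commutatorElement
open H1
open Subgroup Module
open scoped commutatorElement

theorem z2 : ∀ r : ZMod 2, IsUnit r → r = 1 := fun r h => by
  rcases (by decide : ∀ r : ZMod 2, r = 0 ∨ r = 1) r with rfl | rfl
  · exact absurd h not_isUnit_zero
  · rfl

theorem exists_A8 {M : Type*} [CommGroup M] [Finite M] (hM : ∀ x : M, x ^ 2 = 1) (h16 : Nat.card M ≤ 2 ^ 4)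
    {L : Type*} [Group L] (φ : L →* MulAut M) :
    ∃ ψ : L →* alternatingGroup (Fin 8), ∀ x, ψ x = 1 ↔ φ x = 1 := by
  haveI : Fact (Nat.Prime 2) := ⟨Nat.prime_two⟩
  obtain ⟨_, ρ, hρ⟩ := exists_rep_aux hM φ
  have hn : finrank (ZMod 2) (Additive M) ≤ 4 := by
    have : Nat.card (Additive M) = 2 ^ finrank (ZMod 2) (Additive M) := by
      rw [Module.natCard_eq_pow_finrank (K := ZMod 2), Nat.card_zmod]
    exact (Nat.pow_le_pow_iff_right one_lt_two).1 (this ▸ h16)
  let W := Additive M × (Fin (4 - finrank (ZMod 2) (Additive M)) → ZMod 2)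
  let b : Basis (Fin 4) (ZMod 2) W := Module.finBasisOfFinrankEq (ZMod 2) W (by
    rw [finrank_prod, finrank_fin_fun]; omega)
  let σ : L →* End (ZMod 2) W :=
    { toFun := fun x => (ρ x).prodMap LinearMap.id
      map_one' := by rw [map_one]; rfl
      map_mul' := fun x y => by rw [map_mul]; rfl }
  let τ : L →* Matrix (Fin 4) (Fin 4) (ZMod 2) := (LinearMap.toMatrixAlgEquiv b).toMonoidHom.comp σ
  let υ : L →* Matrix.SpecialLinearGroup (Fin 4) (ZMod 2) :=
    { toFun := fun x => ⟨τ x, z2 _ ((Matrix.isUnit_iff_isUnit_det _).1 ((Group.isUnit x).map τ))⟩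
      map_one' := Subtype.ext (map_one τ)
      map_mul' := fun x y => Subtype.ext (map_mul τ x y) }
  obtain ⟨e⟩ := Cfsg.Agent.S0256.result (F := ZMod 2) (ZMod.card 2)
  refine ⟨e.toMonoidHom.comp ((QuotientGroup.mk' _).comp υ), fun x => ?_⟩
  have h1 : υ x = 1 ↔ φ x = 1 := by
    refine Subtype.ext_iff.trans
      ((map_eq_one_iff _ (LinearMap.toMatrixAlgEquiv b).injective).trans ⟨fun h => ?_, fun h => ?_⟩)
    · exact MulEquiv.ext fun v => (hρ x (Additive.ofMul v)).symm.trans
        (congrArg (fun w : W => w.1.toMul) (LinearMap.congr_fun h (Additive.ofMul v, 0)))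
    · refine LinearMap.ext fun w => Prod.ext ?_ rfl
      exact Additive.toMul.injective ((hρ x w.1).trans (by rw [h]; rfl))
  rw [← h1]
  refine (map_eq_one_iff _ e.injective).trans ((QuotientGroup.eq_one_iff _).trans ⟨fun h => ?_, fun h => ?_⟩)
  · obtain ⟨r, h1, h2⟩ := Matrix.SpecialLinearGroup.mem_center_iff.1 h
    rw [z2 r (IsUnit.of_pow_eq_one h1 (by simp)), map_one] at h2
    exact Subtype.ext h2.symm
  · rw [h]; exact one_mem _

/-- Let X be a finite 2-constrained group with no nontrivial normal subgroup of odd order such that O₂(X) has sectional 2-rank at most 4. Then X/O₂(X) is isomorphic to a subgroup of the alternating group of degree 8. -/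
theorem result {X : Type*} [Group X] [Finite X] (hc : Cfsg.IsPConstrained 2 X) (hO : Cfsg.oddCore X = ⊥)
    (h4 : Cfsg.SectionalPRankLE 2 4 ↥(Cfsg.pCore 2 X)) :
    ∃ f : X ⧸ Cfsg.pCore 2 X →* ↥(alternatingGroup (Fin 8)), Function.Injective f := by
  haveI : Fact (Nat.Prime 2) := ⟨Nat.prime_two⟩
  set Q := Cfsg.pCore 2 X with hQ
  have hp : IsPGroup 2 Q := H9.pCore_p 2
  haveI := hp.isNilpotent
  have cm : ∀ a b : Q, ⁅a, b⁆ ∈ frattini Q := fun a b =>
    commutator_le_frattini (commutator_mem_commutator (mem_top a) (mem_top b))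
  let _ : CommGroup (Q ⧸ frattini Q) := { (inferInstance : Group (Q ⧸ frattini Q)) with
    mul_comm := fun a b => by
      obtain ⟨a, rfl⟩ := QuotientGroup.mk_surjective a
      obtain ⟨b, rfl⟩ := QuotientGroup.mk_surjective b
      exact commutatorElement_eq_one_iff_mul_comm.1 ((QuotientGroup.eq_one_iff ⁅a, b⁆).2 (cm a b)) }
  let φ : X →* MulAut (Q ⧸ frattini Q) :=
    { toFun := fun x => QuotientGroup.congr _ _ (MulAut.conjNormal x)
        (characteristic_iff_map_eq.1 inferInstance (MulAut.conjNormal x))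
      map_one' := MulEquiv.ext fun y => by
        induction y using QuotientGroup.induction_on
        rw [map_one]; rfl
      map_mul' := fun a b => MulEquiv.ext fun y => by
        induction y using QuotientGroup.induction_on
        rw [map_mul]; rfl }
  have hφ : ∀ (x : X) (y : Q), φ x y = (MulAut.conjNormal x y : Q) := fun _ _ => rfl
  obtain ⟨ψ, hψ⟩ := exists_A8 (M := Q ⧸ frattini Q) (fun a => by
    obtain ⟨a, rfl⟩ := QuotientGroup.mk_surjective a
    exact (QuotientGroup.eq_one_iff (a ^ 2)).2 (pow_mem_frattini hp a)) (by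
    have := h4 ⊤ ((frattini Q).subgroupOf ⊤) ⊤ ⟨⟨fun a b => Subtype.ext (by
      obtain ⟨a, -⟩ := a
      obtain ⟨b, -⟩ := b
      obtain ⟨a, rfl⟩ := QuotientGroup.mk_surjective a
      obtain ⟨b, rfl⟩ := QuotientGroup.mk_surjective b
      exact commutatorElement_eq_one_iff_mul_comm.1 ((QuotientGroup.eq_one_iff ⁅a, b⁆).2 (cm a b)))⟩⟩ fun a _ => by
        obtain ⟨a, rfl⟩ := QuotientGroup.mk_surjective a
        exact (QuotientGroup.eq_one_iff (a ^ 2)).2 (pow_mem_frattini hp (a : Q))
    rw [card_top] at this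
    exact (relIndex_top_right (frattini Q)).ge.trans this) φ
  have hC : centralizer (Q : Set X) ≤ Q := by
    have := H9.centralizer_Op_le_of_PLay (H9.isPConstrained_top_iff.1 hc) (by rw [H9.Op'_top]; exact hO)
    rwa [H9.Op_top, top_inf_eq] at this
  have hk : ψ.ker = Q := by
    refine le_antisymm (H9.le_pCore (H9.isPGroup_of_Ores_eq_bot (eq_bot_iff.2 (H9.Ores_le_iff'.2 fun x hx ho => ?_)))) fun x hx => ?_
    · have c : (Nat.card (zpowers x)).Coprime 2 := by rwa [Nat.card_zpowers]
      have := H9.cop_le_centralizer_of_Phi (A := zpowers x) le_normalizer_of_normal (H9.copA_of_p' hp c)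
        (commutator_le.2 fun y hy g hg => by
          have h1 := (hψ g).1 (zpowers_le.2 hx hg)
          have h2 := hφ g ⟨y, hy⟩⁻¹
          rw [h1, MulAut.one_apply, QuotientGroup.eq, inv_inv] at h2
          exact ⟨_, h2, by simp [commutatorElement_def, mul_assoc]⟩)
      have h3 := hC (le_centralizer_iff.1 this (mem_zpowers x))
      exact H9.eq_bot_of_p_p' (hp.to_le (zpowers_le.2 h3)) c ▸ mem_zpowers x
    · refine (hψ x).2 (MulEquiv.ext fun y => ?_)
      induction y using QuotientGroup.induction_on with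
      | H y =>
      rw [hφ, MulAut.one_apply, QuotientGroup.eq]
      convert cm ⟨x, hx⟩ y⁻¹ using 1
      ext; simp [commutatorElement_def, mul_assoc]
  refine ⟨QuotientGroup.lift Q ψ hk.ge, (injective_iff_map_eq_one _).2 fun y hy => ?_⟩
  induction y using QuotientGroup.induction_on with
  | H y => exact (QuotientGroup.eq_one_iff y).2 (hk.le hy)

end Cfsg.Agent.S3103
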