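import Cfsg.Statements.S3110
import Cfsg.Agent.H1.Sig7
import Cfsg.Agent.FT.Final

set_option autoImplicit false
open Cfsg

namespace Cfsg.Agent.S3110

open H1

/-- Let G be a finite group in which every 2-local subgroup is 2-constrained and some Sylow 2-subgroup has a self-centralizing abelian normal subgroup of 2-rank at least 3, and let S be any Sylow 2-subgroup of G. Then there is a subgroup W of G of odd order such that, for every subgroup B of S of 2-rank at least 2, W is generated by the largest normal odd-order subgroups O(C_G(b)) of the centralizers of the non-identity elements b of B, and W is normalized by the normalizer of every such B. -/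
theorem result {G : Type*} [Group G] [Finite G]
    (h2c : ∀ T : Subgroup G, IsPGroup 2 T → T ≠ ⊥ → Cfsg.IsPConstrained 2 ↥(Subgroup.normalizer (T : Set G)))
    (S : Sylow 2 G) (A : Subgroup ↥(S : Subgroup G)) (hAn : A.Normal) (hAab : IsMulCommutative ↥A)
    (hAC : Subgroup.centralizer (A : Set ↥(S : Subgroup G)) = A) (hA3 : ¬ Cfsg.PRankLE 2 2 ↥A) (S' : Sylow 2 G) :
    ∃ W : Subgroup G, Odd (Nat.card ↥W) ∧
      ∀ B : Subgroup G, B ≤ (S' : Subgroup G) → ¬ Cfsg.PRankLE 2 1 ↥B →
        W = (⨆ b : {b : G // b ∈ B ∧ b ≠ 1}, Cfsg.centralizerPPrimeCore 2 (b : G)) ∧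
        Subgroup.normalizer (B : Set G) ≤ Subgroup.normalizer (W : Set G) := by
  have hL : ∀ b : G, b ≠ 1 → IsPGroup 2 (Subgroup.zpowers b) → H9.PLay 2 (Subgroup.centralizer ({b} : Set G)) = ⊥ :=
    fun b h1 h2 => le_bot_iff.1 ((H9.SN.of_normal ((H9.centralizer_zpowers b).ge.trans (H9.centralizer_le_normalizer' _))
      (H9.centralizer_zpowers b ▸ H9.normalizer_centralizer le_rfl)).PLay_le_PLay.trans
      (H9.isPConstrained_iff.1 (h2c _ h2 (by rwa [Ne, Subgroup.zpowers_eq_bot]))).le)
  let θ : G → Subgroup G := fun a => H9.Op' 2 (Subgroup.centralizer {a})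
  have H : ∀ A, IsElementaryAbelian 2 A → 2 ^ 3 ≤ Nat.card A → SF 2 A θ := fun A e _ => sf_core e fun a h1 h2 =>
    ⟨hL a h2 ((H9.elem_isP e).to_le (Subgroup.zpowers_le.2 h1)),
      FT.feit_thompson _ (Nat.coprime_two_right.1 (H9.Op'_cop 2 _))⟩
  obtain ⟨g, -, hg⟩ := (H9.syl_top_of_sylow S).conj (H9.syl_top_of_sylow S')
  obtain ⟨D, d1, d2, d3⟩ := exists_el_iff.1 hA3
  have e := FT.isElem_cj g (L.isElem_omegaOne_of_comm (n := 2) (H9.comm_map (S : Subgroup G).subtype hAab))
  have c : 2 ^ 3 ≤ Nat.card (H9.cj g (omegaOne 2 (A.map (S : Subgroup G).subtype))) := by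
    rw [H9.card_cj]
    refine (d3.trans (Subgroup.card_map_of_injective (S : Subgroup G).subtype_injective).ge).trans (H9.card_le_card_of_le ?_)
    rintro _ ⟨x, hx, rfl⟩
    exact Subgroup.subset_closure ⟨⟨x, d1 hx, rfl⟩, by rw [← map_pow, d2.2 x hx, map_one]⟩
  have n : (S' : Subgroup G) ≤ Subgroup.normalizer (H9.cj g (omegaOne 2 (A.map (S : Subgroup G).subtype)) : Set G) := by
    rw [← hg, ← H9.cj_normalizer]
    exact H9.cj_mono g (L.normalizer_omegaOne (H9.map_subtype_le_normalizer A))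
  generalize H9.cj g (omegaOne 2 (A.map (S : Subgroup G).subtype)) = E at e c n
  refine ⟨signalizerClosure E θ, Nat.coprime_two_right.1 (((H E e c).compl c).mem (H E e c)).cop, fun B hB h => ?_⟩
  obtain ⟨V, v1, v2, v3⟩ := exists_el_iff.1 h
  have k : signalizerClosure E θ = signalizerClosure B θ := by
    refine le_antisymm ((clo_conn2 H e c v2 v3 ((v1.trans hB).trans n)).ge.trans
      (clo_le.2 fun a ha h1 => le_clo (v1 ha) h1)) (clo_le.2 fun b hb h1 => ?_)
    have pb := S'.isPGroup'.to_le (Subgroup.zpowers_le.2 (hB hb))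
    obtain ⟨⟨t, ht⟩, o⟩ := exists_prime_orderOf_dvd_card' 2 (pb.card_eq_or_dvd.resolve_left
      fun s => h1 (Subgroup.zpowers_eq_bot.1 (Subgroup.card_eq_one.1 s)))
    rw [Subgroup.orderOf_mk] at o
    have t1 : t ≠ 1 := fun s => by rw [s, orderOf_one] at o; omega
    have t2 : t ^ 2 = 1 := o ▸ pow_orderOf_eq_one t
    have l : Subgroup.centralizer {b} ≤ Subgroup.centralizer ({t} : Set G) :=
      (H9.centralizer_zpowers b).ge.trans (cent_le_cent1 ht)
    have m := n (hB (Subgroup.zpowers_le.2 hb ht))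
    refine ((le_inf le_rfl ((H9.Op'_le _ _).trans l)).trans (Op'_bal pb (hL t t1 (pb.to_le (Subgroup.zpowers_le.2 ht)))
      (l (Subgroup.mem_centralizer_singleton_iff.2 rfl)))).trans ((le_clo (θ := θ) (Subgroup.mem_sup_right
        (Subgroup.mem_zpowers t)) t1).trans (clo_conn2 H e c (H9.elem_sup (H9.elem_of_le e inf_le_left) (H9.elem_zpowers t2)
          inf_le_right) ((four_le_card_fix e c t2 m).trans (H9.card_le_card_of_le le_sup_left))
          (sup_le (inf_le_left.trans Subgroup.le_normalizer) (Subgroup.zpowers_le.2 m))).le)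
  refine ⟨k.trans (iSup_congr fun b => (H9.Op'_eq 2 _).symm), fun x hx => H9.mem_normalizer_iff_cj.2 ?_⟩
  rw [k, cj_clo fun a _ _ => by rw [H9.cj_Op', H9.cj_centralizer_singleton], H9.mem_normalizer_iff_cj.1 hx]

end Cfsg.Agent.S3110
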