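import Cfsg.Statements.S3116
import Cfsg.Agent.L.PG4
import Mathlib

set_option autoImplicit false
open Cfsg

namespace Cfsg.Agent.S3116

open Subgroup

/-- The automorphism group of a dihedral 2-group of order at least 8, or of a quasi-dihedral (semidihedral) 2-group of order at least 16, is a 2-group. -/
theorem result {X : Type*} [Group X] [Finite X] (h2 : IsPGroup 2 X)
    (h : (∃ n : ℕ, 4 ≤ n ∧ Nonempty (X ≃* DihedralGroup n)) ∨ Cfsg.IsQuasiDihedral X) : IsPGroup 2 (MulAut X) := by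
  obtain ⟨n, a, b, h1, h3, h4, h5, h6, h7⟩ : ∃ (n : ℕ) (a b : X), 1 ≤ n ∧ orderOf a = 2 ^ (n + 1) ∧
      (zpowers a).index = 2 ∧ b ∉ zpowers a ∧ L.DQS n a b ∧
      ∀ g : X, g ∉ zpowers a → orderOf g < 2 ^ (n + 1) := by
    have key : ∀ a b g : X, (zpowers a).index = 2 → b ∉ zpowers a → g ∉ zpowers a →
        ∃ i : ℤ, g ^ 2 = a ^ i * (b * a * b⁻¹) ^ i * b ^ 2 := fun a b g h1 h2 h3 => by
      obtain ⟨i, hi⟩ := L.mul_mem_of_relIndex_two (P := ⊤) (by rwa [relIndex_top_right])
        trivial trivial h3 (show b⁻¹ ∉ _ by simpa using h2)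
      refine ⟨i, ?_⟩
      have h4 : g = a ^ i * b := by simp only at hi; rw [hi]; group
      rw [h4, conj_zpow, pow_two, pow_two]; group
    rcases h with ⟨m, hm, ⟨e⟩⟩ | h
    · obtain ⟨n, a, b, h1, -, h3, h4, h5, h6, h7⟩ := L.dqs_of_dihedral h2 (by omega) e
      refine ⟨n, a, b, h1, h3, h4, h5, Or.inl ⟨h6, h7⟩, fun g hg => ?_⟩
      obtain ⟨i, hi⟩ := key a b g h4 h5 hg
      rw [h6, h7] at hi
      exact (orderOf_le_of_pow_eq_one two_pos (by simpa using hi)).trans_lt
        (Nat.pow_lt_pow_right (a := 2) (m := 1) one_lt_two (by omega))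
    · obtain ⟨n, a, b, h1, h3, h4, h5, h6, h7⟩ := L.dqs_of_quasiDihedral h
      refine ⟨n, a, b, by omega, h3, h4, h5, Or.inr (Or.inr ⟨h1, h6, h7⟩), fun g hg => ?_⟩
      obtain ⟨i, hi⟩ := key a b g h4 h5 hg
      rw [h6, h7, mul_one, ← Commute.mul_zpow ((Commute.refl a).pow_right _), ← pow_succ',
        Nat.sub_add_cancel Nat.one_le_two_pow] at hi
      refine (orderOf_le_of_pow_eq_one (n := 2 * 2) (by norm_num) ?_).trans_lt
        (Nat.pow_lt_pow_right (a := 2) (m := 2) one_lt_two (by omega))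
      rw [pow_mul, hi, ← zpow_natCast, ← zpow_mul, mul_comm, zpow_mul, zpow_natCast, ← pow_mul,
        ← pow_succ, ← h3, pow_orderOf_eq_one, one_zpow]
  haveI : (zpowers a).Characteristic := characteristic_iff_map_le.2 fun φ => by
    rw [MonoidHom.map_zpowers, zpowers_le]
    by_contra h
    have := h7 _ h
    rw [show φ.toMonoidHom a = φ a from rfl, MulEquiv.orderOf_eq, h3] at this
    exact lt_irrefl _ this
  refine H9.isPGroup_of_Ores_eq_bot (K := ⊤) (eq_bot_iff.2 (H9.Ores_le_iff.2 fun A _ hA => le_bot_iff.2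
    (L.aut_eq_one_of_ambient A fun Γ _ _ i B hi hB hn hc hX => ?_))) |>.of_equiv topEquiv
  have hP := h2.of_surjective _ i.rangeRestrict_surjective
  have hi' : (zpowers a).relIndex ⊤ = 2 := by rwa [relIndex_top_right]
  refine L.le_centralizer_of_selfcent (H := (zpowers a).map i) (hB ▸ hA) hP hn (map_le_range _ _) ?_ ?_
  · rintro _ ⟨⟨x, rfl⟩, hx⟩
    refine mem_map_of_mem i ?_
    by_contra hxa
    have := (h6.commute_iff' h1 h3 (mem_top b) h5 hi' trivial hxa (mem_zpowers a)).1 (hi (by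
      rw [map_mul, map_mul]; exact (hx _ (mem_map_of_mem i (mem_zpowers a))).symm))
    have h8 := Nat.le_of_dvd Nat.card_pos (H1.orderOf_dvd_card_of_mem this)
    rw [Nat.card_zpowers, L.orderOf_pow_two_pow h3, h3] at h8
    exact absurd h8 (not_le.2 (Nat.pow_lt_pow_right (a := 2) (m := 1) one_lt_two (by omega)))
  · have hn' := hX (zpowers a) fun φ _ x hx =>
      characteristic_iff_map_le.1 inferInstance φ (mem_map_of_mem _ hx)
    refine le_centralizer_iff.1 (H1.le_centralizer_of_prime_order inferInstance hn'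
      (H9.card_cop_of_p (hP.to_le (map_le_range _ _)) (hB ▸ hA)).symm ?_)
    rintro _ ⟨x, hx, rfl⟩ ho
    refine hc x fun φ _ => ?_
    rw [orderOf_injective i hi] at ho
    obtain ⟨k, hk⟩ := IsPGroup.iff_orderOf.1 h2 x
    have h8 : orderOf x = 2 :=
      (Nat.prime_dvd_prime_iff_eq ho Nat.prime_two).1 (ho.dvd_of_dvd_pow hk.dvd)
    classical
    haveI := Fintype.ofFinite (zpowers a)
    have h9 := IsCyclic.card_orderOf_eq_totient (α := zpowers a) (d := 2)
      (by rw [← Nat.card_eq_fintype_card, Nat.card_zpowers, h3]; exact dvd_pow_self _ (by omega))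
    rw [Nat.totient_two] at h9
    have hφ : φ x ∈ zpowers a := characteristic_iff_map_le.1 inferInstance φ (mem_map_of_mem _ hx)
    have := Finset.card_le_one.1 h9.le ⟨φ x, hφ⟩ (by simp [Subgroup.orderOf_mk, MulEquiv.orderOf_eq, h8])
      ⟨x, hx⟩ (by simp [Subgroup.orderOf_mk, h8])
    exact congrArg Subtype.val this

end Cfsg.Agent.S3116
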