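import Cfsg.Statements.S3356
import Cfsg.Agent.H9.Syl
import Cfsg.Agent.PM.E
import Cfsg.Agent.PM.D
import Cfsg.Agent.PM.C

set_option autoImplicit false
open Cfsg

namespace Cfsg.Agent.S3356

open Subgroup MulAction H9

/-- If all orbits of `B` on a finite set have size `m`, then `m` divides the size. -/
theorem dvd_of_orb {G : Type*} [Group G] [Finite G] (B : Subgroup G) (S : Set G)
    (hS : ∀ b ∈ B, ∀ x ∈ S, b * x * b⁻¹ ∈ S) (m : ℕ)
    (h : ∀ x ∈ S, (centralizer {x}).relIndex B = m) : m ∣ S.ncard := by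
  classical
  letI : MulAction B S :=
    { smul := fun b x => ⟨b * x * (b : G)⁻¹, hS b b.2 x x.2⟩
      one_smul := fun x => Subtype.ext (by show ((1 : B) : G) * x * _ = x; simp)
      mul_smul := fun a b x => Subtype.ext (by
        show ((a * b : B) : G) * x * ((a * b : B) : G)⁻¹ = a * (b * x * (b : G)⁻¹) * (a : G)⁻¹
        simp [mul_assoc]) }
  letI := Fintype.ofFinite (orbitRel.Quotient B S)
  rw [← Nat.card_coe_set_eq, Nat.card_congr (selfEquivSigmaOrbits' B S), Nat.card_sigma]
  refine Finset.dvd_sum fun q _ => ?_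
  induction q using Quotient.inductionOn with | _ x =>
  have : stabilizer B x = (centralizer {(x : G)}).subgroupOf B := by
    ext b
    rw [mem_stabilizer_iff, mem_subgroupOf, mem_centralizer_singleton_iff, Subtype.ext_iff]
    show (b : G) * x * (b : G)⁻¹ = x ↔ _
    rw [mul_inv_eq_iff_eq_mul]
  show m ∣ Nat.card (orbit B x)
  rw [Nat.card_coe_set_eq, ← index_stabilizer, this, ← h x x.2]
  rfl

theorem core {G : Type*} [Group G] [Finite G] {A N : Subgroup G} (hA : A ≤ normalizer (N : Set G)) {m : ℕ}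
    (h : ∀ x ∈ N, x ≠ 1 → (centralizer {x}).relIndex A = m) {S : Set G} (hS : S ⊆ N) (h1 : 1 ∉ S)
    (hd : S.ncard ∣ Nat.card N) {x : G} (hx : x ∈ S) (hinv : ∀ a ∈ A, ∀ y ∈ S, ∀ z ∈ S, a * y * a⁻¹ ∈ S → a * z * a⁻¹ ∈ S)
    {y : G} (hy : y ∈ S) : A ⊓ centralizer {x} ≤ centralizer {y} := by
  have hm : m ∣ Nat.card N - 1 := by
    have := dvd_of_orb A ((N : Set G) \ {1}) (fun b hb x hx => ⟨conj_mem_of_le_normalizer hA hb hx.1, fun e => hx.2 (by
      simpa [mul_inv_eq_iff_eq_mul] using e)⟩) m fun x hx => h x hx.1 hx.2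
    rwa [Set.ncard_diff_singleton_of_mem N.one_mem, ← Nat.card_coe_set_eq] at this
  let B : Subgroup G :=
    { carrier := {a | a ∈ A ∧ ∀ z ∈ S, a * z * a⁻¹ ∈ S}
      one_mem' := ⟨A.one_mem, by simp⟩
      mul_mem' := fun {a b} ha hb => ⟨A.mul_mem ha.1 hb.1, fun z hz => by
        simpa [mul_assoc] using ha.2 _ (hb.2 z hz)⟩
      inv_mem' := fun {a} ha => ⟨A.inv_mem ha.1, fun z hz =>
        hinv _ (A.inv_mem ha.1) _ (ha.2 x hx) z hz (by simpa [mul_assoc] using hx)⟩ }
  have hBA : B ≤ A := fun a ha => ha.1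
  have hle : ∀ z ∈ S, A ⊓ centralizer {z} ≤ B := fun z hz a ha => ⟨ha.1, fun w hw => hinv a ha.1 z hz w hw (by
    rw [mem_centralizer_singleton_iff.1 ha.2, mul_inv_cancel_right]; exact hz)⟩
  have hk : ∀ z ∈ S, (centralizer {z}).relIndex B * B.relIndex A = m := fun z hz => by
    rw [← h z (hS hz) (fun e => h1 (e ▸ hz)), ← inf_relIndex_right (centralizer {z}) A, ← inf_relIndex_right _ B,
      show centralizer {z} ⊓ B = centralizer {z} ⊓ A from le_antisymm (inf_le_inf_left _ hBA)
        (le_inf inf_le_left (inf_comm A _ ▸ hle z hz))]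
    exact relIndex_mul_relIndex _ _ _ (inf_comm A _ ▸ hle z hz) hBA
  have hpos : 0 < B.relIndex A := Nat.pos_of_ne_zero index_ne_zero_of_finite
  have h2 := dvd_of_orb B S (fun b hb => hb.2) ((centralizer {y}).relIndex B) fun z hz =>
    Nat.eq_of_mul_eq_mul_right hpos ((hk z hz).trans (hk y hy).symm)
  have h3 : (centralizer {y}).relIndex B = 1 := by
    have h4 := (Dvd.intro _ (hk y hy)).trans hm
    have := (Nat.dvd_sub_iff_right (Nat.card_pos (α := N)) (h2.trans hd)).1
    have h5 := Nat.dvd_sub (h2.trans hd) h4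
    rw [Nat.sub_sub_self Nat.card_pos] at h5
    exact Nat.dvd_one.1 h5
  exact (hle x hx).trans (relIndex_eq_one.1 h3)

/-- Let G be a finite 3/2-transitive permutation group: G acts faithfully and transitively on a finite set, the point stabilizers are non-trivial, and for each point a all orbits of G_a on the remaining points have the same size. Suppose G has a regular normal subgroup N and G is not a Frobenius group (some two-point stabilizer is non-trivial). Then N is an elementary abelian p-group for some prime p, and every non-trivial normal subgroup of G contains N (so N is the unique minimal normal subgroup). -/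
theorem result {G Ω : Type*} [Group G] [Finite G]
    [MulAction G Ω] [FaithfulSMul G Ω] [Finite Ω] (htrans : MulAction.IsPretransitive G Ω)
    (hne : ∀ a : Ω, MulAction.stabilizer G a ≠ ⊥)
    (hhalf : ∀ a b c : Ω, b ≠ a → c ≠ a →
      Nat.card (MulAction.orbit (MulAction.stabilizer G a) b) = Nat.card (MulAction.orbit (MulAction.stabilizer G a) c))
    (N : Subgroup G) [hN : N.Normal] (hNt : MulAction.IsPretransitive N Ω) (hNr : ∀ a : Ω, MulAction.stabilizer N a = ⊥)
    (hnotF : ∃ a b : Ω, a ≠ b ∧ MulAction.stabilizer G a ⊓ MulAction.stabilizer G b ≠ ⊥) :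
    (∃ p : ℕ, p.Prime ∧ IsMulCommutative N ∧ ∀ x ∈ N, x ^ p = 1) ∧
    (∀ M : Subgroup G, M.Normal → M ≠ ⊥ → N ≤ M) := by
  classical
  obtain ⟨a, b, hab, hb⟩ := hnotF
  set A := stabilizer G a
  have hA : A ≤ normalizer (N : Set G) := le_normalizer_of_normal
  have reg := PM.sub_stab_bot.1 (hNr a)
  have st : ∀ x ∈ N, A ⊓ centralizer {x} = A ⊓ stabilizer G (x • a) := fun x hx => by
    ext g
    refine and_congr_right fun hg => ⟨fun h => ?_, fun h => ?_⟩
    · show g • x • a = _
      rw [smul_smul, mem_centralizer_singleton_iff.1 h, mul_smul, (hg : g • a = a)]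
    · refine mem_centralizer_singleton_iff.2 ?_
      have := PM.reg_eq (hNr a) (hN.conj_mem x hx g) hx (by
        rw [mul_smul, mul_smul, (A.inv_mem hg : g⁻¹ • a = a)]; exact h)
      rwa [mul_inv_eq_iff_eq_mul] at this
  have hm : ∀ x ∈ N, x ≠ 1 → (centralizer {x}).relIndex A = Nat.card (orbit A b) := fun x hx h1 => by
    rw [hhalf a b (x • a) hab.symm (fun e => h1 (reg x hx e)), ← inf_relIndex_right, inf_comm, st x hx, inf_comm,
      inf_relIndex_right, Nat.card_coe_set_eq, ← index_stabilizer]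
    rfl
  have eqc : ∀ x ∈ N, x ≠ 1 → ∀ y ∈ N, y ≠ 1 → A ⊓ centralizer {x} ≤ centralizer {y} →
      A ⊓ centralizer {x} = A ⊓ centralizer {y} := fun x hx hx1 y hy hy1 h => by
    refine eq_of_le_of_card_ge (le_inf inf_le_left h) ?_
    have e1 := relIndex_mul_card_inf (centralizer {x}) A
    have e2 := relIndex_mul_card_inf (centralizer {y}) A
    rw [hm x hx hx1, inf_comm] at e1
    rw [hm y hy hy1, inf_comm] at e2
    haveI : Nonempty (orbit A b) := ⟨⟨b, mem_orbit_self b⟩⟩
    exact (Nat.eq_of_mul_eq_mul_left Nat.card_pos (e2.trans e1.symm)).le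
  obtain ⟨n, hn, hnb⟩ := PM.tr_iff.1 hNt a b
  have hn1 : n ≠ 1 := fun e => hab (by rw [← hnb, e, one_smul])
  rw [← hnb, ← st n hn] at hb
  have nall : ∀ x ∈ N, x ≠ 1 → ¬ ∀ y ∈ N, A ⊓ centralizer {x} ≤ centralizer {y} := fun x hx hx1 h => hb (by
    rw [← eqc x hx hx1 n hn hn1 (h n hn), eq_bot_iff]
    intro g hg
    exact PM.eq_one_of_comm hNt (fun y hy => (mem_centralizer_singleton_iff.1 (h y hy hg)).symm) hg.1)
  have irr : ∀ M ≤ N, A ≤ normalizer (M : Set G) → M = ⊥ ∨ M = N := fun M hM hAM => by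
    by_contra hc
    push Not at hc
    obtain ⟨⟨x, hx⟩, hx1⟩ := ne_bot_iff_exists_ne_one.1 hc.1
    have hx1' : x ≠ 1 := fun e => hx1 (Subtype.ext e)
    have key : ∀ y ∈ N, y ∉ M → A ⊓ centralizer {x} = A ⊓ centralizer {y} := fun y hy hyM => by
      have hy1 : y ≠ 1 := fun e => hyM (e ▸ M.one_mem)
      refine (eqc y hy hy1 x (hM hx) hx1' fun g hg => ?_).symm
      have := core hA hm (S := {z | y⁻¹ * z ∈ M}) (fun z hz => by
          simpa using N.mul_mem hy (hM hz)) (fun h => hyM (by simpa using h)) (by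
          have : {z | y⁻¹ * z ∈ M} = (fun z => y * z) '' (M : Set G) := by ext z; simp
          rw [this, Set.ncard_image_of_injective _ (mul_right_injective y), ← Nat.card_coe_set_eq]
          exact card_dvd_of_le hM) (x := y) (by simp) (fun u hu v hv w hw h => by
          have h1 := conj_mem_of_le_normalizer hAM hu (M.mul_mem (M.inv_mem hv) hw)
          have := M.mul_mem h h1
          simpa [mul_assoc] using this) (y := y * x) (by simpa using hx) hg
      rw [mem_centralizer_singleton_iff] at this ⊢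
      have h2 := mem_centralizer_singleton_iff.1 hg.2
      rw [← mul_assoc, h2, mul_assoc, mul_assoc] at this
      exact mul_left_cancel this
    obtain ⟨y, hy, hyM⟩ := SetLike.exists_of_lt (lt_of_le_of_ne hM hc.2)
    refine nall x (hM hx) hx1' fun z hz => ?_
    by_cases hzM : z ∈ M
    · intro g hg
      have h1 := mem_centralizer_singleton_iff.1 ((key y hy hyM).le hg).2
      have h2 := mem_centralizer_singleton_iff.1 ((key (y * z) (N.mul_mem hy hz) fun h => hyM (by
        simpa using M.mul_mem h (M.inv_mem hzM))).le hg).2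
      rw [← mul_assoc, h1, mul_assoc, mul_assoc] at h2
      exact mem_centralizer_singleton_iff.2 (mul_left_cancel h2)
    · exact (key z hz hzM).le.trans inf_le_right
  have cls : ∀ x ∈ N, x ≠ 1 → ∀ u ∈ N, A ⊓ centralizer {x} ≤ centralizer {u * x * u⁻¹} := fun x hx hx1 u hu => by
    refine core hA hm (S := {z | ∃ v ∈ N, v * x * v⁻¹ = z}) ?_ ?_ ?_ ⟨1, N.one_mem, by simp⟩ ?_ ⟨u, hu, rfl⟩
    · rintro _ ⟨v, hv, rfl⟩; exact N.mul_mem (N.mul_mem hv hx) (N.inv_mem hv)
    · rintro ⟨v, -, h⟩; exact hx1 (by simpa [mul_inv_eq_iff_eq_mul] using h)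
    · have : {z | ∃ v ∈ N, v * x * v⁻¹ = z} = orbit ↥(N.map ConjAct.toConjAct.toMonoidHom : Subgroup (ConjAct G)) x := by
        ext z
        refine ⟨?_, ?_⟩
        · rintro ⟨v, hv, rfl⟩; exact ⟨⟨_, v, hv, rfl⟩, rfl⟩
        · rintro ⟨⟨_, v, hv, rfl⟩, rfl⟩; exact ⟨v, hv, rfl⟩
      rw [this, ← index_stabilizer, ← card_map_of_injective (f := ConjAct.toConjAct.toMonoidHom) ConjAct.toConjAct.injective]
      exact index_dvd_card _
    · rintro g hg _ ⟨v, hv, rfl⟩ _ ⟨w, hw, rfl⟩ ⟨t, ht, h⟩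
      refine ⟨g * (w * v⁻¹) * g⁻¹ * t, N.mul_mem (hN.conj_mem _ (N.mul_mem hw (N.inv_mem hv)) g) ht, ?_⟩
      calc _ = g * (w * v⁻¹) * g⁻¹ * (t * x * t⁻¹) * (g * (w * v⁻¹) * g⁻¹)⁻¹ := by group
        _ = _ := by rw [h]; group
  -- commuting
  have cm : ∀ x ∈ N, x ≠ 1 → ∀ y ∈ N, ¬ A ⊓ centralizer {x} ≤ centralizer {y} → x * y = y * x := fun x hx hx1 y hy h => by
    have hy1 : y ≠ 1 := fun e => h (by rw [e]; intro g _; simp [mem_centralizer_singleton_iff])
    by_contra hne'
    have hc1 : x * y * x⁻¹ * y⁻¹ ≠ 1 := fun e => hne' (by rwa [mul_inv_eq_one, mul_inv_eq_iff_eq_mul] at e)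
    have hcN : x * y * x⁻¹ * y⁻¹ ∈ N := N.mul_mem (N.mul_mem (N.mul_mem hx hy) (N.inv_mem hx)) (N.inv_mem hy)
    have e1 := eqc x hx hx1 _ hcN hc1 fun g hg => by
      have a1 := mem_centralizer_singleton_iff.1 hg.2
      have a2 := mem_centralizer_singleton_iff.1 (cls x hx hx1 y hy hg)
      have : Commute g (x * (y * x * y⁻¹)⁻¹) := (show Commute g x from a1).mul_right (show Commute g _ from a2).inv_right
      rw [mem_centralizer_singleton_iff]
      simpa [mul_assoc] using this.eq
    have e2 := eqc y hy hy1 _ hcN hc1 fun g hg => by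
      have a1 := mem_centralizer_singleton_iff.1 hg.2
      have a2 := mem_centralizer_singleton_iff.1 (cls y hy hy1 x hx hg)
      exact mem_centralizer_singleton_iff.2 ((show Commute g _ from a2).mul_right (show Commute g y from a1).inv_right).eq
    exact h ((e1.trans e2.symm).le.trans inf_le_right)
  have ab : ∀ x ∈ N, ∀ y ∈ N, x * y = y * x := fun x hx y hy => by
    by_cases hx1 : x = 1
    · simp [hx1]
    by_cases h : A ⊓ centralizer {x} ≤ centralizer {y}
    swap
    · exact cm x hx hx1 y hy h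
    have := nall x hx hx1
    push Not at this
    obtain ⟨z, hz, hz'⟩ := this
    have h1 := cm x hx hx1 z hz hz'
    have h2 := cm x hx hx1 (y * z) (N.mul_mem hy hz) fun h3 => hz' fun g hg => by
      have a1 := mem_centralizer_singleton_iff.1 (h hg)
      have a2 := mem_centralizer_singleton_iff.1 (h3 hg)
      rw [← mul_assoc, a1, mul_assoc, mul_assoc] at a2
      exact mem_centralizer_singleton_iff.2 (mul_left_cancel a2)
    rw [mul_assoc, ← h1, ← mul_assoc, ← mul_assoc] at h2
    exact mul_right_cancel h2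
  refine ⟨?_, fun M hM hM1 => ?_⟩
  · haveI : Nontrivial N := ⟨⟨⟨n, hn⟩, 1, fun e => hn1 (congrArg Subtype.val e)⟩⟩
    obtain ⟨p, hp, hd⟩ := Nat.exists_prime_and_dvd (Finite.one_lt_card (α := N)).ne'
    haveI := Fact.mk hp
    obtain ⟨x, hx⟩ := exists_prime_orderOf_dvd_card' p hd
    refine ⟨p, hp, ⟨⟨fun x y => Subtype.ext (ab x x.2 y y.2)⟩⟩, ?_⟩
    let K : Subgroup G :=
      { carrier := {y | y ∈ N ∧ y ^ p = 1}
        one_mem' := ⟨N.one_mem, one_pow p⟩
        mul_mem' := fun {a b} ha hb => ⟨N.mul_mem ha.1 hb.1, by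
          rw [(show Commute a b from ab a ha.1 b hb.1).mul_pow, ha.2, hb.2, one_mul]⟩
        inv_mem' := fun {a} ha => ⟨N.inv_mem ha.1, by rw [inv_pow, ha.2, inv_one]⟩ }
    rcases irr K (fun y hy => hy.1) (fun g _ => mem_normalizer_fintype fun y hy =>
      ⟨hN.conj_mem y hy.1 g, by rw [conj_pow, hy.2]; simp⟩) with h | h
    · have : (x : G) ∈ K := ⟨x.2, by rw [← hx, ← coe_pow, pow_orderOf_eq_one, coe_one]⟩
      rw [h, mem_bot] at this
      rw [show x = 1 from Subtype.ext this, orderOf_one] at hx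
      exact absurd hx.symm hp.one_lt.ne'
    · exact fun y hy => (h.ge hy).2
  · rcases irr (N ⊓ M) inf_le_left le_normalizer_of_normal with h | h
    · obtain ⟨⟨x, hx⟩, hx1⟩ := ne_bot_iff_exists_ne_one.1 hM1
      haveI : Nonempty Ω := ⟨a⟩
      have := PM.mem_of_comm hNt hNt ab (c := x) fun y hy =>
        (commute_of_normal_of_disjoint N M hN hM (disjoint_iff.2 h) y x hy hx).eq
      exact absurd (Subtype.ext (mem_bot.1 (h.le ⟨this, hx⟩))) hx1
    · exact h.ge.trans inf_le_right

end Cfsg.Agent.S3356
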