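import Cfsg.Statements.S3357
import Cfsg.Agent.H9.Zs4
import Cfsg.Agent.H1.Extra

set_option autoImplicit false
open Cfsg

namespace Cfsg.Agent.S3357

/-- Let G be a finite group that occurs as a Frobenius complement. Then G has a faithful irreducible representation over an algebraic closure of the rationals in which no non-identity element of G has 1 as an eigenvalue: there are n ≥ 1 and an injective homomorphism ρ from G to GL(n) over that field, with no invariant subspace other than 0 and the whole space, such that for g ≠ 1 the only vector fixed by ρ(g) is 0. -/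
theorem result {G : Type*} [Group G] [Finite G]
    (hFC : ∃ (L : Type) (_ : Group L) (_ : Finite L) (H : Subgroup L), Cfsg.IsFrobeniusComplement H ∧ Nonempty (G ≃* H)) :
    ∃ (n : ℕ) (ρ : G →* GL (Fin n) (AlgebraicClosure ℚ)), 0 < n ∧ Function.Injective ρ ∧
      (∀ W : Submodule (AlgebraicClosure ℚ) (Fin n → AlgebraicClosure ℚ),
        (∀ g : G, ∀ w ∈ W, ((ρ g : GL (Fin n) (AlgebraicClosure ℚ)) : Matrix (Fin n) (Fin n) (AlgebraicClosure ℚ)).mulVec w ∈ W) → W = ⊥ ∨ W = ⊤) ∧
      ∀ g : G, g ≠ 1 → ∀ v : Fin n → AlgebraicClosure ℚ,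
        ((ρ g : GL (Fin n) (AlgebraicClosure ℚ)) : Matrix (Fin n) (Fin n) (AlgebraicClosure ℚ)).mulVec v = v → v = 0 := by
  open H9 Subgroup in open scoped commutatorElement in
  classical
  obtain ⟨n, hn, ρ, h⟩ := Zs.IsFC.fc hFC
  let K := AlgebraicClosure ℚ
  let σ : G →* Module.End K (Fin n → K) :=
    (Matrix.toLinAlgEquiv' (R := K)).toMonoidHom.comp ((algebraMap ℚ K).mapMatrix.toMonoidHom.comp ρ)
  have : Nonempty (Fin n) := ⟨⟨0, hn⟩⟩
  obtain ⟨U, hU, -, U0, hs⟩ := H1.exists_simple (ρ := σ) (W := ⊤) top_ne_bot fun _ _ _ => trivial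
  have := Submodule.nontrivial_iff_ne_bot.2 U0
  let b := Module.finBasis K U
  let τ : G →* Matrix _ _ K := (LinearMap.toMatrixAlgEquiv b).toMonoidHom.comp (H1.sub σ U hU)
  have a : ∀ g u, (τ g).mulVec (b.equivFun u) = b.equivFun (H1.sub σ U hU g u) := fun g u =>
    LinearMap.toMatrix_mulVec_repr b b _ u
  have c : ∀ g ≠ 1, ∀ v, (τ g).mulVec v = v → v = 0 := fun g hg v hv => by
    obtain ⟨u, rfl⟩ := b.equivFun.surjective v
    rw [a, b.equivFun.injective.eq_iff] at hv
    rw [show u = 0 from Subtype.ext (Matrix.eq_zero_of_mulVec_eq_zero (M := (algebraMap ℚ K).mapMatrix (ρ g - 1)) (by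
      rw [← RingHom.map_det]; simpa using h g hg) (by
      rw [map_sub, map_one, Matrix.sub_mulVec, Matrix.one_mulVec, sub_eq_zero]; exact congrArg Subtype.val hv)), map_zero]
  refine ⟨_, τ.toHomUnits, Module.finrank_pos, (injective_iff_map_eq_one _).2 fun g e => by_contra fun hg => ?_,
    fun W hW => ?_, c⟩
  · obtain ⟨u, hu⟩ := exists_ne (0 : U)
    exact hu (b.equivFun.map_eq_zero_iff.1 (c g hg _ (by rw [show τ g = 1 from congrArg Units.val e, Matrix.one_mulVec])))
  · rcases hs (W.comap b.equivFun.toLinearMap) fun g u hu => (a g u ▸ hW g _ hu : b.equivFun _ ∈ W) with e | e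
    · exact .inl (Submodule.comap_injective_of_surjective b.equivFun.surjective (by simpa using e))
    · exact .inr (Submodule.comap_injective_of_surjective b.equivFun.surjective e)

end Cfsg.Agent.S3357
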