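import Cfsg.Statements.S3362
import Cfsg.Agent.H8.Cl1
-- import your own Cfsg.Agent.* helpers here

set_option autoImplicit false
set_option maxRecDepth 200000
open Cfsg

namespace Cfsg.Agent.S3362

theorem fx : ∀ g ∈ H8.Cl1.bl, g (2 : Fin 12) = 2 := fun g hg =>
  of_decide_eq_true (List.all_eq_true.1 (by decide +kernel : H8.Cl1.bl.all (fun g => decide (g (2 : Fin 12) = 2)) = true) g hg)
theorem aux {α : Type*} {a b c d e f g h x : α} : x ∈ ({a, b, c, d, e, f, g, h} : Set α) ↔ x ∈ [a, b, c, d, e, f, g, h] := by simp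
theorem aux' {α : Type*} {a b c d e f g x : α} : x ∈ ({a, b, c, d, e, f, g} : Set α) ↔ x ∈ [a, b, c, d, e, f, g] := by simp
theorem aux2 {α : Type*} {a b c d e f g h : α} : ({a, b, c, d, e, f, g} : Set α) ⊆ {a, b, c, d, e, f, g, h} := by
  intro x; simp only [Set.mem_insert_iff, Set.mem_singleton_iff]; tauto
open H8 H8.Cl1 in
theorem main (A B : Set (Equiv.Perm (Fin 12))) (hA : ∀ g, g ∈ A ↔ g ∈ al) (hB : ∀ g, g ∈ B ↔ g ∈ bl) (h : B ⊆ A) :
    MulAction.IsMultiplyPretransitive (Subgroup.closure A) (Fin 12) 5 ∧ (∀ y : Fin 5 ↪ Fin 12, MulAction.stabilizer (Subgroup.closure A) y = ⊥) ∧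
    Nat.card (Subgroup.closure A) = 95040 ∧ Nat.card (Subgroup.closure B) = 7920 ∧
    Subgroup.closure B = Subgroup.closure A ⊓ MulAction.stabilizer (Equiv.Perm (Fin 12)) (2 : Fin 12) :=
  have C := ach _ hA
  have c2 : Nat.card (Subgroup.closure B) = 7920 := (bch _ hB).card.trans (by decide +kernel)
  ⟨Lets.multi (C := H7.finC 12) rfl C.lets C.tch [2,1,0,3,4] amv, Ch.sharp' (C := H7.finC 12) rfl C [2,1,0,3,4] amv (by decide +kernel),
    C.card.trans (by decide +kernel), c2, Subgroup.eq_of_le_of_card_ge (le_inf (Subgroup.closure_mono h)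
      ((Subgroup.closure_le _).2 fun g hg => fx g ((hB g).1 hg))) (by rw [card_inf_stab, c2, ast _ hA])⟩

/-- An explicit construction of the Mathieu groups of degrees 11 and 12. On the points 0, …, 11 let s = (3 4 5)(6 7 8)(9 10 11), t = (3 6 9)(4 7 10)(5 8 11), u = (4 6 5 9)(7 8 11 10), v = (4 7 5 11)(6 10 9 8), w = (4 10 5 8)(6 11 9 7), x₁ = (0 3)(6 7)(8 10)(9 11), x₂ = (0 1)(6 9)(7 10)(8 11), x₃ = (1 2)(6 11)(7 9)(8 10) (each written as a product of transpositions). Then the group M₁₂ generated by all eight permutations is sharply 5-transitive on the 12 points and has order 95040, and the group M₁₁ generated by the first seven has order 7920 and is the stabilizer of the point 2 in M₁₂. -/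
theorem result
    (s t u v w x₁ x₂ x₃ : Equiv.Perm (Fin 12))
    (hs : s = Equiv.swap (3 : Fin 12) 5 * Equiv.swap (3 : Fin 12) 4 * Equiv.swap (6 : Fin 12) 8 * Equiv.swap (6 : Fin 12) 7 * Equiv.swap (9 : Fin 12) 11 * Equiv.swap (9 : Fin 12) 10) (ht : t = Equiv.swap (3 : Fin 12) 9 * Equiv.swap (3 : Fin 12) 6 * Equiv.swap (4 : Fin 12) 10 * Equiv.swap (4 : Fin 12) 7 * Equiv.swap (5 : Fin 12) 11 * Equiv.swap (5 : Fin 12) 8)
    (hu : u = Equiv.swap (4 : Fin 12) 9 * Equiv.swap (4 : Fin 12) 5 * Equiv.swap (4 : Fin 12) 6 * Equiv.swap (7 : Fin 12) 10 * Equiv.swap (7 : Fin 12) 11 * Equiv.swap (7 : Fin 12) 8) (hv : v = Equiv.swap (4 : Fin 12) 11 * Equiv.swap (4 : Fin 12) 5 * Equiv.swap (4 : Fin 12) 7 * Equiv.swap (6 : Fin 12) 8 * Equiv.swap (6 : Fin 12) 9 * Equiv.swap (6 : Fin 12) 10) (hw : w = Equiv.swap (4 : Fin 12) 8 * Equiv.swap (4 : Fin 12) 5 * Equiv.swap (4 : Fin 12) 10 * Equiv.swap (6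 : Fin 12) 7 * Equiv.swap (6 : Fin 12) 9 * Equiv.swap (6 : Fin 12) 11)
    (hx₁ : x₁ = Equiv.swap (0 : Fin 12) 3 * Equiv.swap (6 : Fin 12) 7 * Equiv.swap (8 : Fin 12) 10 * Equiv.swap (9 : Fin 12) 11) (hx₂ : x₂ = Equiv.swap (0 : Fin 12) 1 * Equiv.swap (6 : Fin 12) 9 * Equiv.swap (7 : Fin 12) 10 * Equiv.swap (8 : Fin 12) 11)
    (hx₃ : x₃ = Equiv.swap (1 : Fin 12) 2 * Equiv.swap (6 : Fin 12) 11 * Equiv.swap (7 : Fin 12) 9 * Equiv.swap (8 : Fin 12) 10)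
    (M₁₂ M₁₁ : Subgroup (Equiv.Perm (Fin 12))) (hM₁₂ : M₁₂ = Subgroup.closure {s, t, u, v, w, x₁, x₂, x₃})
    (hM₁₁ : M₁₁ = Subgroup.closure {s, t, u, v, w, x₁, x₂}) :
    MulAction.IsMultiplyPretransitive M₁₂ (Fin 12) 5 ∧ (∀ y : Fin 5 ↪ Fin 12, MulAction.stabilizer M₁₂ y = ⊥) ∧
    Nat.card M₁₂ = 95040 ∧ Nat.card M₁₁ = 7920 ∧
    M₁₁ = M₁₂ ⊓ MulAction.stabilizer (Equiv.Perm (Fin 12)) (2 : Fin 12) := by
  have hA : H8.Cl1.al = [s, t, u, v, w, x₁, x₂, x₃] := by rw [hs, ht, hu, hv, hw, hx₁, hx₂, hx₃, H8.Cl1.al]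
  have hB : H8.Cl1.bl = [s, t, u, v, w, x₁, x₂] := by rw [hs, ht, hu, hv, hw, hx₁, hx₂, H8.Cl1.bl]
  rw [hM₁₁, hM₁₂]
  exact main _ _ (fun _ => hA ▸ aux) (fun _ => hB ▸ aux') aux2

end Cfsg.Agent.S3362
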