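import Cfsg.Statements.S3374
import Cfsg.Agent.H5.SL2X

set_option autoImplicit false
open Cfsg

namespace Cfsg.Agent.S3374

open H5

instance : Fact (Nat.Prime 11) := ⟨by norm_num⟩

/-- SL(2,5) occurs as a Frobenius complement: there is a finite group L with a subgroup H isomorphic to SL(2,5) which is a non-trivial proper subgroup meeting each conjugate gHg⁻¹ with g outside H trivially. -/
theorem result :
    ∃ (L : Type) (_ : Group L) (_ : Finite L) (H : Subgroup L),
      Cfsg.IsFrobeniusComplement H ∧ Nonempty (H ≃* Matrix.SpecialLinearGroup (Fin 2) (ZMod 5)) := by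

  obtain ⟨φ, -, -, -, h⟩ := hom_SL25 (x := sl2 (0 : ZMod 11) (-1) 1 (-1) (by simp)) (y := sl2 0 5 2 3 (by decide))
    (by decide +kernel) (by decide +kernel) (by decide +kernel) (by decide +kernel)
  have : Nontrivial (SL2 (ZMod 5)) := ⟨1, -1, by decide⟩
  exact exists_frob 11 φ (h (by decide +kernel)) (by rw [card_SL25]; norm_num)


end Cfsg.Agent.S3374
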