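import Cfsg.Statements.S3375
import Cfsg.Agent.H1.Basic

set_option autoImplicit false
open Cfsg

namespace Cfsg.Agent.S3375

/-- Let γ be an automorphism of order 2 of a finite group H. (i) If γ fixes only the identity, then H is abelian and γ inverts every element. (ii) If γ has exactly two fixed points and H has a subgroup of index 2, then H has a γ-invariant abelian subgroup of index 2 on which γ acts by inversion. -/
theorem result {H : Type*} [Group H] [Finite H] (γ : MulAut H) (hγ : orderOf γ = 2) :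
    ((∀ h : H, γ h = h → h = 1) → (∀ a b : H, a * b = b * a) ∧ ∀ h : H, γ h = h⁻¹) ∧
    ((Nat.card {h : H // γ h = h} = 2 ∧ ∃ M : Subgroup H, M.index = 2) →
      ∃ A : Subgroup H, A.index = 2 ∧ IsMulCommutative A ∧ (∀ a ∈ A, γ a ∈ A) ∧ ∀ a ∈ A, γ a = a⁻¹) := by
  have h2 : ∀ x, γ (γ x) = x := fun x => by
    rw [← MulAut.mul_apply, ← pow_two, ← hγ, pow_orderOf_eq_one]; rfl
  have hinv : ∀ x, γ (x⁻¹ * γ x) = (x⁻¹ * γ x)⁻¹ := fun x => by simp [h2]
  let C : Subgroup H := γ.toMonoidHom.eqLocus (MonoidHom.id H)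
  let f : H ⧸ C → H := Quotient.lift (fun x => x * (γ x)⁻¹) fun a b hab => by
    have h : γ (a⁻¹ * b) = a⁻¹ * b := QuotientGroup.leftRel_apply.1 hab
    rw [map_mul, map_inv] at h
    calc a * (γ a)⁻¹ = a * ((γ a)⁻¹ * γ b) * (γ b)⁻¹ := by group
      _ = _ := by rw [h]; group
  have hf : Function.Injective f := by
    intro a b
    induction a using QuotientGroup.induction_on with | H a => ?_
    induction b using QuotientGroup.induction_on with | H b => ?_
    intro h
    have h' : a * (γ a)⁻¹ = b * (γ b)⁻¹ := h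
    refine QuotientGroup.eq.2 (show γ (a⁻¹ * b) = a⁻¹ * b from ?_)
    rw [map_mul, map_inv]
    calc (γ a)⁻¹ * γ b = a⁻¹ * (a * (γ a)⁻¹) * γ b := by group
      _ = _ := by rw [h']; group
  have hr : ∀ y ∈ Set.range f, γ y = y⁻¹ := by
    rintro _ ⟨a, rfl⟩
    induction a using QuotientGroup.induction_on with | H a => ?_
    show γ (a * (γ a)⁻¹) = (a * (γ a)⁻¹)⁻¹
    simp [h2]
  have hc : (Set.range f).ncard = C.index := by
    rw [← Nat.card_coe_set_eq, Nat.card_range_of_injective hf]; rfl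
  have fin : ∀ A : Subgroup H, (∀ a ∈ A, γ a = a⁻¹) → ∀ a ∈ A, ∀ b ∈ A, a * b = b * a := fun A h a ha b hb => by
    have := h _ (A.mul_mem (A.inv_mem ha) (A.inv_mem hb))
    rw [map_mul, h _ (A.inv_mem ha), h _ (A.inv_mem hb)] at this
    simpa using this
  refine ⟨fun h => ?_, fun ⟨h, M, hM⟩ => ?_⟩
  · have hC : C = ⊥ := eq_bot_iff.2 fun x hx => h x hx
    rw [show C.index = Nat.card H by rw [hC, Subgroup.index_bot], ← Set.ncard_univ] at hc
    have := Set.eq_of_subset_of_ncard_le (Set.subset_univ _) hc.ge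
    have h3 : ∀ a ∈ (⊤ : Subgroup H), γ a = a⁻¹ := fun a _ => hr a (this ▸ Set.mem_univ a)
    exact ⟨fun a b => fin ⊤ h3 a trivial b trivial, fun a => h3 a trivial⟩
  have hC : Nat.card C = 2 := h
  obtain ⟨A, hA, hA2⟩ : ∃ A : Subgroup H, A.index = 2 ∧ ∀ x, x * (γ x)⁻¹ ∈ A := by
    by_cases hx : ∀ x, x * (γ x)⁻¹ ∈ M
    · exact ⟨M, hM, hx⟩
    push Not at hx
    obtain ⟨x, hx⟩ := hx
    have hm := fun a b => Subgroup.mul_mem_iff_of_index_two hM (a := a) (b := b)
    let A : Subgroup H :=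
      { carrier := {y | y ∈ M ↔ γ y ∈ M}
        mul_mem' := fun {a b} ha hb => by
          simp only [Set.mem_setOf_eq, map_mul, hm] at ha hb ⊢; tauto
        one_mem' := by simp
        inv_mem' := fun {a} ha => by simpa using ha }
    have hA : ∀ y, y ∈ A ↔ (y ∈ M ↔ γ y ∈ M) := fun _ => Iff.rfl
    rw [hm, inv_mem_iff] at hx
    refine ⟨A, Subgroup.index_eq_two_iff.2 ⟨x, fun b => ?_⟩, fun y => ?_⟩
    · simp only [hA, map_mul, hm, Xor']; tauto
    · simp only [hA, map_mul, hm, map_inv, h2, inv_mem_iff]; tauto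
  have h4 : Set.range f = A := by
    refine Set.eq_of_subset_of_ncard_le ?_ ?_
    · rintro _ ⟨a, rfl⟩
      induction a using QuotientGroup.induction_on with | H a => ?_
      exact hA2 a
    · have e1 := A.card_mul_index
      have e2 := C.card_mul_index
      rw [hc, ← Nat.card_coe_set_eq]
      rw [hA] at e1; rw [hC] at e2
      have : Nat.card (A : Set H) = Nat.card A := rfl
      omega
  have h5 : ∀ a ∈ A, γ a = a⁻¹ := fun a ha => hr a (h4 ▸ ha)
  exact ⟨A, hA, H1.isMulCommutative_of_comm (fin A h5), fun a ha => h5 a ha ▸ A.inv_mem ha, h5⟩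

end Cfsg.Agent.S3375
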