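import Cfsg.Statements.S3377
import Cfsg.Agent.H5.KB
-- import your own Cfsg.Agent.* helpers here

set_option autoImplicit false
set_option maxRecDepth 200000
open Cfsg

namespace Cfsg.Agent.S3377

/-- The alternating group of degree 5 has the presentation ⟨x, y | x³ = 1, y⁵ = 1, (xy)² = 1⟩: the group so presented is isomorphic to Alt(5). -/
theorem result :
    Nonempty (PresentedGroup ({FreeGroup.of (0 : Fin 2) ^ 3, FreeGroup.of (1 : Fin 2) ^ 5,
        (FreeGroup.of (0 : Fin 2) * FreeGroup.of 1) ^ 2} : Set (FreeGroup (Fin 2))) ≃* alternatingGroup (Fin 5)) := by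
  open H5 in
  generalize hR : (insert _ _ : Set (FreeGroup (Fin 2))) = R
  have key : ∀ r ∈ R, PresentedGroup.mk R r = 1 := fun r hr => PresentedGroup.one_of_mem hr
  have a1 := key _ (hR.le <| Or.inl rfl)
  have a2 := key _ (hR.le <| Or.inr (Or.inl rfl))
  have a3 := key _ (hR.le <| Or.inr (Or.inr rfl))
  simp only [map_mul, map_pow] at a1 a2 a3
  have hf : ∀ r ∈ R, FreeGroup.lift ![KB.b5⁻¹, KB.b5 * KB.a5] r = 1 := by
    rw [← hR]; rintro r (rfl | rfl | rfl) <;> simp only [map_mul, map_pow, FreeGroup.lift_apply_of] <;> decide +kernel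
  obtain ⟨e⟩ := triA5 a3 (y := (PresentedGroup.mk R (.of 0))⁻¹) (by rw [inv_pow, a1, inv_one])
    (by rw [conj_pow, a2]; simp) fun h => by
      have := congrArg (PresentedGroup.toGroup hf) h
      rw [map_mul, map_one] at this
      erw [PresentedGroup.toGroup.of, PresentedGroup.toGroup.of] at this
      revert this; decide +kernel
  refine ⟨(Subgroup.topEquiv.symm.trans (MulEquiv.subgroupCongr ?_)).trans e⟩
  rw [eq_comm, eq_top_iff, ← PresentedGroup.closure_range_of, Subgroup.closure_le]
  have h0 : PresentedGroup.mk R (.of 0) ∈ Subgroup.closure {PresentedGroup.mk R (.of 0) * PresentedGroup.mk R (.of 1), (PresentedGroup.mk R (.of 0))⁻¹} :=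
    (inv_mem_iff).1 (Subgroup.subset_closure (by simp))
  rintro _ ⟨i, rfl⟩
  fin_cases i
  · exact h0
  · exact (mul_mem_cancel_left h0).1 (Subgroup.subset_closure (Or.inl rfl))

end Cfsg.Agent.S3377
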