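import Cfsg.Statements.S3378
import Cfsg.Agent.H5.SL2X
import Cfsg.Agent.H3.Galois

set_option autoImplicit false
open Cfsg

namespace Cfsg.Agent.S3378

open H5

theorem solv {G : Type*} [Group G] [Finite G] (h : Nat.card G ∣ 120) (h1 : Nat.card G ≠ 60) (h2 : Nat.card G ≠ 120) :
    Group.IsSolvable G := by
  have h3 : Nat.card G ∣ 2 ^ 3 * 3 ^ 1 ∨ Nat.card G ∣ 2 ^ 3 * 5 ^ 1 ∨ Nat.card G ∣ 30 := by
    have := Nat.le_of_dvd (by norm_num) h
    generalize Nat.card G = n at *
    interval_cases n <;> simp_all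
  rcases h3 with h3 | h3 | h3
  · exact H3.burnside_paqb Nat.prime_two Nat.prime_three h3
  · exact H3.burnside_paqb Nat.prime_two Nat.prime_five h3
  · have := IsZGroup.of_squarefree (Squarefree.squarefree_of_dvd h3 (by decide +kernel))
    infer_instance

theorem simple60 {G : Type*} [Group G] [Finite G] (h : Nat.card G = 60) (hs : ¬ Group.IsSolvable G) : IsSimpleGroup G := by
  have : Nontrivial G := Finite.one_lt_card_iff_nontrivial.1 (by omega)
  refine ⟨fun N hN => ?_⟩
  by_contra! h1
  have h2 := N.card_mul_index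
  have h3 := mt Subgroup.card_eq_one.1 h1.1
  have h4 := mt Subgroup.index_eq_one.1 h1.2
  rw [h] at h2
  have : Group.IsSolvable N := solv (Dvd.intro (N.index * 2) (by rw [← mul_assoc, h2]; rfl)) (fun e => by rw [e] at h2; omega)
    fun e => by rw [e] at h2; omega
  have : Group.IsSolvable (G ⧸ N) := solv (Dvd.intro_left (2 * Nat.card N) (by rw [mul_assoc]; exact congrArg _ h2))
    (fun e => by rw [Subgroup.index, e] at h2; omega) fun e => by rw [Subgroup.index, e] at h2; omega
  exact hs (Group.isSolvable_of_ker_le_range N.subtype (QuotientGroup.mk' N) (by simp))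

/-- Every non-solvable group of order 120 whose Sylow 2-subgroups are quaternion of order 8 is isomorphic to SL(2,5), and SL(2,5) has the presentation ⟨x, y, z | x³ = y⁵ = z² = 1, z⁻¹xz = x, z⁻¹yz = y, (xy)² = z⟩. -/
theorem result :
    (∀ (G : Type*) [Group G] [Finite G], Nat.card G = 120 → ¬ Group.IsSolvable G →
      (∀ P : Sylow 2 G, Nonempty ((P : Subgroup G) ≃* QuaternionGroup 2)) →
      Nonempty (G ≃* Matrix.SpecialLinearGroup (Fin 2) (ZMod 5))) ∧
    Nonempty (PresentedGroup ({FreeGroup.of (0 : Fin 3) ^ 3, FreeGroup.of (1 : Fin 3) ^ 5, FreeGroup.of (2 : Fin 3) ^ 2,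
        (FreeGroup.of (2 : Fin 3))⁻¹ * FreeGroup.of 0 * FreeGroup.of 2 * (FreeGroup.of (0 : Fin 3))⁻¹,
        (FreeGroup.of (2 : Fin 3))⁻¹ * FreeGroup.of 1 * FreeGroup.of 2 * (FreeGroup.of (1 : Fin 3))⁻¹,
        (FreeGroup.of (0 : Fin 3) * FreeGroup.of 1) ^ 2 * (FreeGroup.of (2 : Fin 3))⁻¹} : Set (FreeGroup (Fin 3)))
      ≃* Matrix.SpecialLinearGroup (Fin 2) (ZMod 5)) := by
  constructor
  · intro G _ _ hG hs hQ
    have huniq : ∀ (P : Sylow 2 G) (a b : P), a ^ 2 = 1 → b ^ 2 = 1 → a ≠ 1 → b ≠ 1 → a = b := fun P a b h1 h2 h3 h4 => by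
      obtain ⟨e⟩ := hQ P
      have : ∀ a b : QuaternionGroup 2, a ^ 2 = 1 → b ^ 2 = 1 → a ≠ 1 → b ≠ 1 → a = b := by decide
      exact e.injective (this _ _ (by rw [← map_pow, h1, map_one]) (by rw [← map_pow, h2, map_one]) (by simpa) (by simpa))
    have hns : ¬ IsSimpleGroup G := fun _ => by
      have h1 : Nat.card (Sylow 5 G) = 6 := by
        obtain ⟨P⟩ : Nonempty (Sylow 5 G) := inferInstance
        have h1 := card_sylow_ne_one (G := G) (p := 5) (by rw [hG]; norm_num) fun h => by
          have := not_dvd_card_of_isPGroup h Nat.prime_two (by norm_num); omega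
        have h2 := card_sylow_modEq_one 5 G
        have h3 := P.card_dvd_index
        have h4 := P.1.card_mul_index
        rw [sylow_card_eq P (k := 1) (u := 24) hG (by norm_num), hG] at h4
        rw [show P.1.index = 24 by omega] at h3
        have := Nat.le_of_dvd (by norm_num) h3
        unfold Nat.ModEq at h2
        generalize Nat.card (Sylow 5 G) = n at *
        interval_cases n <;> omega
      obtain ⟨P⟩ : Nonempty (Sylow 5 G) := inferInstance
      have h2 := P.card_eq_index_normalizer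
      have h3 : Subgroup.normalizer (P : Set G) ≠ ⊤ := fun h => by rw [h, h1] at h2; simp at h2
      have : Fintype (G ⧸ Subgroup.normalizer (P : Set G)) := Fintype.ofFinite _
      classical
      have h4 := range_le_alt (by omega) (MulAction.toPermHom G (G ⧸ Subgroup.normalizer (P : Set G)))
      have h5 : Nat.card (G ⧸ Subgroup.normalizer (P : Set G)) = 6 := h2.symm.trans h1
      have := alternatingGroup.isSimpleGroup (α := G ⧸ Subgroup.normalizer (P : Set G)) (by omega)
      have h6 := ((MulAction.toPermHom G (G ⧸ Subgroup.normalizer (P : Set G))).range.subgroupOf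
        (alternatingGroup _)).card_mul_index
      have : Nontrivial (G ⧸ Subgroup.normalizer (P : Set G)) := Finite.one_lt_card_iff_nontrivial.1 (by omega)
      have h7 := two_mul_nat_card_alternatingGroup (α := G ⧸ Subgroup.normalizer (P : Set G))
      rw [Nat.card_perm, h5] at h7
      rw [card_equiv (Subgroup.subgroupOfEquivOfLe h4), ← card_equiv (MonoidHom.ofInjective (toPermHom_quotient_injective h3)),
        hG] at h6
      have h8 := Subgroup.card_dvd_of_injective _ (toPermHom_quotient_injective (H := (MulAction.toPermHom G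
        (G ⧸ Subgroup.normalizer (P : Set G))).range.subgroupOf (alternatingGroup _)) fun h => by
          rw [h] at h6; simp [Nat.factorial] at h6 h7; omega)
      rw [Nat.card_perm, ← Subgroup.index] at h8
      change _ = 720 at h7
      have h9 : ∀ a k : ℕ, 2 * a = 720 → 120 * k = a → ¬ a ∣ k.factorial := fun a k a1 a2 a3 => by
        obtain rfl : k = 3 := by omega
        have := Nat.le_of_dvd (by norm_num) a3
        simp [Nat.factorial] at this; omega
      exact h9 _ _ h7 h6 h8
    have : Nontrivial G := Finite.one_lt_card_iff_nontrivial.1 (by omega)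
    obtain ⟨N, hN, h1, h2⟩ : ∃ N : Subgroup G, N.Normal ∧ N ≠ ⊥ ∧ N ≠ ⊤ := by
      by_contra! h; exact hns ⟨fun N hN => or_iff_not_imp_left.2 (h N hN)⟩
    have h3 := N.card_mul_index
    have h4 := mt Subgroup.card_eq_one.1 h1
    have h5 := mt Subgroup.index_eq_one.1 h2
    rw [hG] at h3
    have h6 : Nat.card N ≠ 60 := fun h => by
      have : ¬ Group.IsSolvable N := fun _ => by
        have : Group.IsSolvable (G ⧸ N) := solv (Dvd.intro_left _ h3) (by rw [h] at h3; change N.index ≠ _; omega)
          (by rw [h] at h3; change N.index ≠ _; omega)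
        exact hs (Group.isSolvable_of_ker_le_range N.subtype (QuotientGroup.mk' N) (by simp))
      have := simple60 h this
      obtain ⟨e⟩ := simple_sixty h
      obtain ⟨K, hK, ⟨e'⟩⟩ := A5_sub e
      have hV : IsKleinFour (V4.map (K.subtype.comp e'.symm.toMonoidHom)) := isKleinFour_of_equiv
        (V4.equivMapOfInjective _ (K.subtype_injective.comp e'.symm.injective)).symm isKleinFour_V4
      obtain ⟨P, hP⟩ := (IsPGroup.of_card (p := 2) (n := 2) hV.card_four).exists_le_sylow
      obtain ⟨x, y, hc, a1, a2, a3, a4, a5, -⟩ := klein_gen hV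
      rw [← hc] at hP
      have := huniq P ⟨x, hP (Subgroup.subset_closure (by simp))⟩ ⟨y, hP (Subgroup.subset_closure (by simp))⟩
        (Subtype.ext a4) (Subtype.ext a5) (fun h => a1 (congrArg Subtype.val h)) fun h => a2 (congrArg Subtype.val h)
      obtain rfl : x = y := congrArg Subtype.val this
      exact a3 ((sq x).symm.trans a4)
    have h7 : ¬ Group.IsSolvable (G ⧸ N) := fun _ => by
      have : Group.IsSolvable N := solv (Dvd.intro _ h3) h6 fun e => by rw [e] at h3; omega
      exact hs (Group.isSolvable_of_ker_le_range N.subtype (QuotientGroup.mk' N) (by simp))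
    have h8 : Nat.card (G ⧸ N) = 60 := by
      by_contra h
      exact h7 (solv (Dvd.intro_left _ h3) h fun e => by rw [Subgroup.index, e] at h3; omega)
    have := simple60 h8 h7
    obtain ⟨e⟩ := simple_sixty h8
    have h9 : Nat.card N = 2 := by rw [Subgroup.index, h8] at h3; omega
    let π : G →* A5 := e.toMonoidHom.comp (QuotientGroup.mk' N)
    have hπ : Function.Surjective π := e.surjective.comp (QuotientGroup.mk'_surjective N)
    have hk : ∀ g, π g = 1 ↔ g ∈ N := fun g => by simp [π]
    have hN2 : ∀ g ∈ N, g ^ 2 = 1 := fun g hg => congrArg Subtype.val (h9 ▸ pow_card_eq_one' (x := (⟨g, hg⟩ : N)))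
    obtain ⟨⟨z, hz⟩, hz1, hz2⟩ := (Nat.card_eq_two_iff' (1 : N)).1 h9
    have hz3 : ∀ g ∈ N, g = 1 ∨ g = z := fun g hg => or_iff_not_imp_left.2 fun h =>
      congrArg Subtype.val (hz2 ⟨g, hg⟩ fun e => h (congrArg Subtype.val e))
    have hz4 : z ≠ 1 := fun e => hz1 (Subtype.ext e)
    have hinv : ∀ g : G, g ^ 2 = 1 → g ∈ N := fun g hg => by
      by_contra h
      have h1 : g ≠ 1 := by rintro rfl; exact h (one_mem _)
      obtain ⟨P, hP⟩ := (IsPGroup.of_card (p := 2) (n := 1)
        ((Nat.card_zpowers g).trans (orderOf_eq_prime (p := 2) hg h1))).exists_le_sylow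
      have h2 := (IsPGroup.of_card (p := 2) (n := 1) h9).le_sylow_of_normal P hz
      have := huniq P ⟨g, hP (Subgroup.mem_zpowers g)⟩ ⟨z, h2⟩ (Subtype.ext hg) (Subtype.ext (hN2 z hz))
        (fun h => h1 (congrArg Subtype.val h)) fun h => hz4 (congrArg Subtype.val h)
      obtain rfl : g = z := congrArg Subtype.val this
      exact h hz
    obtain ⟨x, hx⟩ := hπ KB.b5⁻¹
    obtain ⟨y, hy⟩ := hπ (KB.b5 * KB.a5)
    have c1 : π (x ^ 4) = KB.b5⁻¹ := by rw [map_pow, hx]; decide +kernel
    have c2 : π (y ^ 6) = KB.b5 * KB.a5 := by rw [map_pow, hy]; decide +kernel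
    have c3 : (x ^ 4) ^ 3 = 1 := by
      have := hN2 (x ^ 3) ((hk _).1 (by rw [map_pow, hx]; decide +kernel))
      rw [← pow_mul, show 4 * 3 = 3 * 2 * 2 from rfl, pow_mul, pow_mul, this, one_pow]
    have c4 : (y ^ 6) ^ 5 = 1 := by
      have := hN2 (y ^ 5) ((hk _).1 (by rw [map_pow, hy]; decide +kernel))
      rw [← pow_mul, show 6 * 5 = 5 * 2 * 3 from rfl, pow_mul, pow_mul, this, one_pow]
    generalize x ^ 4 = X at c1 c3
    generalize y ^ 6 = Y at c2 c4
    have c5 : ∀ g, π g ^ 2 = 1 → π g ≠ 1 → g ^ 2 = z := fun g h1 h2 =>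
      (hz3 _ ((hk _).1 (by rwa [map_pow]))).resolve_left fun e => h2 ((hk g).2 (hinv g e))
    have c6 := c5 (X * Y) (by rw [map_mul, c1, c2]; decide +kernel) (by rw [map_mul, c1, c2]; decide +kernel)
    have c7 := c5 (Y * X) (by rw [map_mul, c1, c2]; decide +kernel) (by rw [map_mul, c1, c2]; decide +kernel)
    obtain ⟨φ, -, -, -, h⟩ := hom_SL25 c3 c4 (by rw [show 4 = 2 * 2 from rfl, pow_mul, c6, hN2 z hz]) (c7.trans c6.symm)
    exact ⟨(MulEquiv.ofBijective φ ((h (c6 ▸ hz4)).bijective_of_nat_card_le (by rw [hG, card_SL25]))).symm⟩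
  · generalize hR : (insert _ _ : Set (FreeGroup (Fin 3))) = R
    have key : ∀ r ∈ R, PresentedGroup.mk R r = 1 := fun r hr => PresentedGroup.one_of_mem hr
    have a1 := key _ (hR.le <| Or.inl rfl)
    have a2 := key _ (hR.le <| Or.inr (Or.inl rfl))
    have a3 := key _ (hR.le <| Or.inr (Or.inr (Or.inl rfl)))
    have a4 := key _ (hR.le <| Or.inr (Or.inr (Or.inr (Or.inl rfl))))
    have a6 := key _ (hR.le <| Or.inr (Or.inr (Or.inr (Or.inr (Or.inr rfl)))))
    simp only [map_mul, map_inv, map_pow, mul_inv_eq_one] at a1 a2 a3 a4 a6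
    obtain ⟨φ, h1, h2, h3, -⟩ := hom_SL25 a1 a2 (by rw [show 4 = 2 * 2 from rfl, pow_mul, a6, a3]) (by
      rw [a6]
      calc _ = (PresentedGroup.mk R (.of 0))⁻¹ * (PresentedGroup.mk R (.of 0) * PresentedGroup.mk R (.of 1)) ^ 2 *
          PresentedGroup.mk R (.of 0) := by simp [sq, mul_assoc]
        _ = _ := by rw [a6, mul_assoc, inv_mul_eq_iff_eq_mul, ← inv_mul_eq_iff_eq_mul.1 ((mul_assoc _ _ _).symm.trans a4)])
    obtain ⟨b1, b2, b3, -⟩ := rel_SL25
    let ψ : PresentedGroup R →* SL2 (ZMod 5) := PresentedGroup.toGroup (f := ![x5, up 1, -1]) (by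
      subst hR
      rintro _ (rfl | rfl | rfl | rfl | rfl | rfl) <;> simp [b1, b2, b3])
    have h4 : ∀ i, ψ (PresentedGroup.mk R (.of i)) = ![x5, up 1, -1] i := fun i => PresentedGroup.toGroup.of _
    refine ⟨(MulEquiv.ofBijective φ ⟨?_, ?_⟩).symm⟩
    · refine inj_of_neg_one (by simp) (by decide) φ fun e => ?_
      rw [← b3, map_pow, map_mul, h1, h2, a6] at e
      have := h4 2
      rw [e, map_one] at this
      exact absurd this (by decide)
    · rw [← MonoidHom.range_eq_top, h3, eq_top_iff, ← PresentedGroup.closure_range_of, Subgroup.closure_le]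
      have m1 := Subgroup.subset_closure (k := {PresentedGroup.mk R (.of 0), PresentedGroup.mk R (.of 1)}) (Or.inl rfl)
      have m2 := Subgroup.subset_closure (k := {PresentedGroup.mk R (.of 0), PresentedGroup.mk R (.of 1)}) (Or.inr rfl)
      rintro _ ⟨i, rfl⟩
      fin_cases i
      exacts [m1, m2, Set.mem_of_eq_of_mem a6.symm (pow_mem (mul_mem m1 m2) 2)]


end Cfsg.Agent.S3378
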