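import Cfsg.Statements.S3379
import Cfsg.Agent.H9.Basic

set_option autoImplicit false
open Cfsg

namespace Cfsg.Agent.S3379

open Subgroup

/-- Let G be a finite group all of whose Sylow subgroups are cyclic. Then G is generated by two elements x and y of coprime orders n and m with x⁻¹yx = y^r, where gcd(r − 1, m) = 1 and r^n ≡ 1 (mod m). -/
theorem result {G : Type*} [Group G] [Finite G]
    (hZ : ∀ (p : ℕ) [Fact p.Prime] (P : Sylow p G), IsCyclic (P : Subgroup G)) :
    ∃ (x y : G) (n m r : ℕ), Subgroup.closure {x, y} = ⊤ ∧ orderOf x = n ∧ orderOf y = m ∧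
      x⁻¹ * y * x = y ^ r ∧ Nat.Coprime (r - 1) m ∧ Nat.Coprime n m ∧ 1 ≤ r ∧ r ^ n % m = 1 % m := by
  haveI hG : IsZGroup G := ⟨fun p hp P => @hZ p ⟨hp⟩ P⟩
  obtain ⟨H, hH⟩ := exists_right_complement'_of_coprime hG.coprime_commutator_index
  have h1 : Abelianization G ≃* H := hH.symm.QuotientMulEquiv
  have hc : IsCyclic H := isCyclic_of_surjective _ h1.surjective
  obtain ⟨x, hx⟩ := (Subgroup.isCyclic_iff_exists_zpowers_eq_top H).1 hc
  obtain ⟨y, hy⟩ := (Subgroup.isCyclic_iff_exists_zpowers_eq_top (_root_.commutator G)).1 hG.isCyclic_commutator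
  have hm : 0 < orderOf y := orderOf_pos y
  have h2 : x⁻¹ * y * x ∈ zpowers y := by
    rw [hy]; exact (inferInstance : (_root_.commutator G).Normal).conj_mem' y (hy ▸ mem_zpowers y) x
  obtain ⟨r0, hr0⟩ := (mem_powers_iff_mem_zpowers.2 h2 : x⁻¹ * y * x ∈ Submonoid.powers y)
  simp only at hr0
  have hr : x⁻¹ * y * x = y ^ (r0 + orderOf y) := by rw [pow_add, pow_orderOf_eq_one, mul_one, hr0]
  set r := r0 + orderOf y with hrr
  have htop : closure {x, y} = ⊤ := by
    rw [eq_top_iff, ← hH.sup_eq_top, ← hx, ← hy]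
    exact sup_le (zpowers_le.2 (subset_closure (by simp))) (zpowers_le.2 (subset_closure (by simp)))
  refine ⟨x, y, _, _, r, htop, rfl, rfl, hr, ?_, ?_, by omega, ?_⟩
  · -- y ∈ ⟨y^(r-1)⟩
    have hK : (zpowers (y ^ (r - 1))).Normal := by
      rw [← normalizer_eq_top_iff, eq_top_iff, ← htop, closure_le]
      rintro g (rfl | rfl)
      · refine inv_mem_iff.1 (H9.mem_normalizer_of_cj_le ?_)
        rw [H9.cj_zpowers, zpowers_le, inv_inv]
        have : g⁻¹ * y ^ (r - 1) * g = (g⁻¹ * y * g) ^ (r - 1) := by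
          simpa using (conj_pow (a := g⁻¹) (b := y) (i := r - 1)).symm
        rw [this, hr, ← pow_mul, mul_comm, pow_mul]
        exact pow_mem (mem_zpowers _) _
      · refine H9.mem_normalizer_of_cj_le ?_
        rw [H9.cj_zpowers, zpowers_le, ← pow_succ', pow_succ, mul_inv_cancel_right]
        exact mem_zpowers _
    have hle : _root_.commutator G ≤ zpowers (y ^ (r - 1)) := by
      let f := QuotientGroup.mk' (zpowers (y ^ (r - 1)))
      have hxy : Commute (f x) (f y) := by
        have e1 : f (y ^ (r - 1)) = 1 := (QuotientGroup.eq_one_iff _).2 (mem_zpowers _)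
        have e2 : f (x⁻¹ * y * x) = f y := by
          rw [hr, show y ^ r = y ^ (r - 1) * y by rw [← pow_succ]; congr 1; omega, map_mul, e1, one_mul]
        rw [map_mul, map_mul, map_inv, mul_assoc, inv_mul_eq_iff_eq_mul] at e2
        exact e2.symm
      have hall : ∀ a b : G, Commute (f a) (f b) := fun a b => by
        have ha : a ∈ closure {x, y} := htop ▸ mem_top a
        have hb : b ∈ closure {x, y} := htop ▸ mem_top b
        refine closure_induction₂ (p := fun a b _ _ => Commute (f a) (f b)) ?_ ?_ ?_ ?_ ?_ ?_ ?_ ha hb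
        · rintro a b (rfl | rfl) (rfl | rfl)
          exacts [Commute.refl _, hxy, hxy.symm, Commute.refl _]
        · intro a _; simp
        · intro a _; simp
        · intro a b c _ _ _ h1 h2; rw [map_mul]; exact h1.mul_left h2
        · intro a b c _ _ _ h1 h2; rw [map_mul]; exact h1.mul_right h2
        · intro a b _ _ h; rw [map_inv]; exact h.inv_left
        · intro a b _ _ h; rw [map_inv]; exact h.inv_right
      rw [_root_.commutator_def, commutator_le]
      intro a _ b _
      rw [← QuotientGroup.eq_one_iff]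
      show f _ = 1
      rw [map_commutatorElement, commutatorElement_eq_one_iff_commute]
      exact hall a b
    exact mem_zpowers_pow_iff.1 (hle (hy ▸ mem_zpowers y))
  · rw [← Nat.card_zpowers, ← Nat.card_zpowers, hx, hy, ← hH.symm.index_eq_card]
    exact hG.coprime_commutator_index.symm
  · have : ∀ k : ℕ, (x ^ k)⁻¹ * y * x ^ k = y ^ r ^ k := fun k => by
      induction k with
      | zero => simp
      | succ k ih =>
        have e : (x ^ (k + 1))⁻¹ * y * x ^ (k + 1) = x⁻¹ * ((x ^ k)⁻¹ * y * x ^ k) * x := by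
          rw [pow_succ]; group
        have e2 : x⁻¹ * y ^ r ^ k * x = (x⁻¹ * y * x) ^ r ^ k := by
          simpa using (conj_pow (a := x⁻¹) (b := y) (i := r ^ k)).symm
        rw [e, ih, e2, hr, ← pow_mul, pow_succ']
    have h3 := this (orderOf x)
    rw [pow_orderOf_eq_one, inv_one, one_mul, mul_one] at h3
    have := (pow_eq_pow_iff_modEq (x := y) (n := r ^ orderOf x) (m := 1)).1 (by rw [← h3, pow_one])
    exact this

end Cfsg.Agent.S3379
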