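import Cfsg.Statements.S3380
import Cfsg.Agent.L.PG3

set_option autoImplicit false
open Cfsg

namespace Cfsg.Agent.S3380

open Subgroup
open scoped commutatorElement

theorem grp {G : Type*} [Group G] [Finite G] {p : ℕ} [hp : Fact p.Prime] (hG : IsPGroup p G)
    (hnc : ¬ IsCyclic G) (hnq : ∀ n : ℕ, ¬ Nonempty (G ≃* QuaternionGroup n))
    (hnd : ∀ n : ℕ, ¬ Nonempty (G ≃* DihedralGroup n)) (hnsd : ¬ Cfsg.IsQuasiDihedral G) :
    ∃ z e : G, orderOf z = p ∧ (∀ g, Commute g z) ∧ e ^ p = 1 ∧ e ∉ zpowers z ∧ ∀ g, ⁅e, g⁆ ∈ zpowers z := by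
  have hT := hG.to_subgroup ⊤
  obtain ⟨A, -, a2, a3, a4⟩ : ∃ A : Subgroup G, A ≤ ⊤ ∧ ⊤ ≤ normalizer (A : Set G) ∧ IsElementaryAbelian p A ∧
      Nat.card A = p ^ 2 := by
    by_contra! h
    rcases L.normal_rank_one hT h with h | ⟨-, n, a, b, -, -, -, h1, h2, h3, h4⟩
    · exact hnc (isCyclic_of_surjective _ topEquiv.surjective)
    · rcases h4.equiv h1 (by rwa [relIndex_top_right] at h2) h3 with ⟨-, -, h⟩ | h | ⟨-, h⟩
      exacts [hnd _ h, hnq _ h, hnsd h]
  have p1 := hp.out.one_lt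
  obtain ⟨Z, z1, z2, z3⟩ := L.exists_normal_card' hT le_top a2 1 (by rw [a4]; exact Nat.pow_le_pow_right (by omega) (by omega))
  rw [pow_one] at z3
  have z4 := L.le_centralizer_of_card_prime hT le_top z2 (z3 ▸ hp.out)
  have z5 : Z.relIndex A = p := by
    have := relIndex_mul_relIndex ⊥ Z A bot_le z1
    rw [relIndex_bot_left, relIndex_bot_left, z3, a4, pow_two] at this
    exact Nat.eq_of_mul_eq_mul_left (by omega) this
  have z6 := L.commutator_le_of_relIndex_prime hT z1 le_top z2 a2 (z5 ▸ hp.out)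
  obtain ⟨e, e1, e2⟩ : ∃ e ∈ A, e ∉ Z := by
    by_contra! h
    rw [relIndex_eq_one.2 h] at z5
    omega
  obtain ⟨z, rfl⟩ := Z.isCyclic_iff_exists_zpowers_eq_top.1 (isCyclic_of_prime_card z3)
  exact ⟨z, e, by rwa [Nat.card_zpowers] at z3, fun g => z4 (mem_zpowers z) g trivial, a3.2 e e1, e2,
    fun g => z6 (commutator_mem_commutator e1 trivial)⟩

/-- Let a finite p-group G act faithfully and irreducibly on a non-trivial finite vector space V over the field with q elements (q prime), and suppose G is not cyclic, generalized quaternion, dihedral or semidihedral. Then G has a subgroup H of index p and V is the direct sum of p subspaces, each invariant under H, on none of which H acts faithfully, and which every element of G outside H permutes in a single p-cycle. -/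
theorem result
    (q : ℕ) [Fact q.Prime] {V : Type*} [AddCommGroup V] [Module (ZMod q) V] [Finite V] [Nontrivial V]
    {G : Type*} [Group G] [Finite G] (p : ℕ) [Fact p.Prime] (hG : IsPGroup p G)
    (ρ : G →* (V ≃ₗ[ZMod q] V)) (hρ : Function.Injective ρ)
    (hirr : ∀ W : Submodule (ZMod q) V, (∀ g : G, ∀ w ∈ W, ρ g w ∈ W) → W = ⊥ ∨ W = ⊤)
    (hnc : ¬ IsCyclic G) (hnq : ∀ n : ℕ, ¬ Nonempty (G ≃* QuaternionGroup n))
    (hnd : ∀ n : ℕ, ¬ Nonempty (G ≃* DihedralGroup n)) (hnsd : ¬ Cfsg.IsQuasiDihedral G) :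
    ∃ (H : Subgroup G) (W : Fin p → Submodule (ZMod q) V), H.index = p ∧
      iSup W = ⊤ ∧ iSupIndep W ∧
      (∀ h ∈ H, ∀ i, ∀ w ∈ W i, ρ h w ∈ W i) ∧
      (∀ i, ∃ h ∈ H, h ≠ 1 ∧ ∀ w ∈ W i, ρ h w = w) ∧
      ∀ g : G, g ∉ H → ∃ σ : Equiv.Perm (Fin p), orderOf σ = p ∧ ∀ i, (W i).map (ρ g : V →ₗ[ZMod q] V) = W (σ i) := by
  classical
  obtain ⟨z, e, z1, z2, e1, e2, e3⟩ := grp hG hnc hnq hnd hnsd
  have hp := Fact.out (p := p.Prime)
  haveI : NeZero p := ⟨hp.ne_zero⟩
  have m : ∀ x y w, ρ (x * y) w = ρ x (ρ y w) := fun x y w => by rw [map_mul]; rfl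
  obtain ⟨F, hF⟩ : ∃ F : G → Submodule (ZMod q) V, ∀ x w, w ∈ F x ↔ ρ x w = w :=
    ⟨fun x => LinearMap.eqLocus (ρ x : V →ₗ[ZMod q] V) LinearMap.id, fun _ _ => Iff.rfl⟩
  have c1 : ∀ {x g w}, Commute g x → w ∈ F x → ρ g w ∈ F x := fun {x g w} h hw => by
    rw [hF] at hw ⊢
    rw [← m, ← h.eq, m, hw]
  have c2 : ∀ c, (∀ g, Commute g c) → c ≠ 1 → F c = ⊥ := fun c h h1 =>
    (hirr _ fun g w hw => c1 (h g) hw).resolve_right fun e => h1 (hρ (by
      rw [map_one]; exact LinearEquiv.ext fun w => (hF c w).1 (e ▸ trivial)))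
  obtain ⟨N, hN⟩ : ∃ N : G → V →ₗ[ZMod q] V, ∀ x w, N x w = ∑ k ∈ Finset.range p, ρ (x ^ k) w :=
    ⟨fun x => ∑ k ∈ Finset.range p, (ρ (x ^ k) : V →ₗ[ZMod q] V), fun x w => by simp⟩
  have n1 : ∀ x w, x ^ p = 1 → N x w ∈ F x := fun x w h => by
    have := Finset.sum_range_succ (fun k => ρ (x ^ k) w) p
    rw [Finset.sum_range_succ', h, pow_zero] at this
    rw [hF, hN, map_sum, ← add_right_cancel this]
    simp only [← m, pow_succ']
  have n2 : ∀ x w, w ∈ F x → N x w = (p : ZMod q) • w := fun x w h => by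
    have : ∀ k : ℕ, ρ (x ^ k) w = w := fun k => by
      induction k with
      | zero => simp
      | succ k ih => rw [pow_succ, m, (hF x w).1 h]; exact ih
    simp [hN, -map_pow, this, Nat.cast_smul_eq_nsmul]
  have zp : z ^ p = 1 := z1 ▸ pow_orderOf_eq_one z
  have zi : ∀ {i j : ℕ}, i < p → j < p → z ^ i = z ^ j → i = j := fun a b h =>
    pow_injOn_Iio_orderOf (z1 ▸ a) (z1 ▸ b) h
  have z0 := c2 z z2 (by rintro rfl; exact hp.one_lt.ne (by simpa using z1))
  have pq : (p : ZMod q) ≠ 0 := fun h => by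
    obtain rfl := (Nat.prime_dvd_prime_iff_eq Fact.out hp).1 ((ZMod.natCast_eq_zero_iff _ _).1 h)
    haveI : CharP (Module.End (ZMod q) V) q := charP_of_injective_algebraMap (algebraMap (ZMod q) _).injective q
    have := sub_pow_char_of_commute (p := q) (Commute.one_right (ρ z : Module.End (ZMod q) V))
    rw [show (ρ z : Module.End (ZMod q) V) ^ q = 1 from LinearMap.ext fun w => by
      rw [Module.End.pow_apply, LinearEquiv.coe_coe, ← LinearEquiv.coe_pow, ← map_pow, zp, map_one]; rfl, one_pow, sub_self] at this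
    have h2 : Function.Injective ((ρ z : Module.End (ZMod q) V) - 1 : Module.End (ZMod q) V) := (injective_iff_map_eq_zero _).2 fun w hw =>
      (Submodule.mem_bot _).1 (z0 ▸ (hF z w).2 (sub_eq_zero.1 hw))
    obtain ⟨v, hv⟩ := exists_ne (0 : V)
    exact hv ((injective_iff_map_eq_zero _).1 (Module.End.iterate_injective h2 q) v (by rw [this]; rfl))
  have xp : ∀ i : ℕ, (e * z ^ i) ^ p = 1 := fun i => by
    rw [((z2 e).pow_right i).mul_pow, e1, ← pow_mul, mul_comm i, pow_mul, zp, one_pow, one_mul]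
  have x1 : ∀ i : ℕ, e * z ^ i ≠ 1 := fun i h => e2 (eq_inv_of_mul_eq_one_left h ▸ inv_mem (npow_mem_zpowers z i))
  have top : ⨆ i : Fin p, F (e * z ^ (i : ℕ)) = ⊤ := eq_top_iff.2 fun v _ => by
    rw [← Submodule.smul_mem_iff _ pq]
    convert Submodule.sum_mem _ fun (i : Fin p) (_ : i ∈ Finset.univ) =>
      Submodule.mem_iSup_of_mem (p := fun i : Fin p => F (e * z ^ (i : ℕ))) i (n1 _ v (xp i))
    rw [Fin.sum_univ_eq_sum_range (fun i => N (e * z ^ i) v)]
    simp only [hN]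
    rw [Finset.sum_comm, Finset.sum_eq_single_of_mem 0 (Finset.mem_range.2 hp.pos)]
    · simp [Nat.cast_smul_eq_nsmul]
    · intro k hk h0
      have := n1 (z ^ k) v (by rw [← pow_mul, mul_comm, pow_mul, zp, one_pow])
      rw [c2 _ (fun g => (z2 g).pow_right k) fun h => h0 (zi (Finset.mem_range.1 hk) hp.pos (by simpa)), Submodule.mem_bot,
        hN] at this
      simp only [((z2 e).pow_right _).mul_pow, m, ← map_sum, ← pow_mul, mul_comm _ k]
      simp only [← pow_mul] at this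
      rw [this, map_zero]
  refine ⟨centralizer {e}, fun i => F (e * z ^ (i : ℕ)), ?_, top, fun i => ?_, fun h hh i w hw => c1 ?_ hw,
    fun i => ⟨_, ?_, x1 i, fun w => (hF _ w).1⟩, fun g hg => ?_⟩
  · rw [← relIndex_top_right]
    refine L.relIndex_eq_of_le (hG.to_subgroup ⊤) (fun h => ?_)
      ((L.relIndex_centralizer_le fun g _ => e3 g).trans (by rw [Nat.card_zpowers, z1]))
    rw [iSup_congr fun i : Fin p => c2 _ (fun g => Commute.mul_right (mem_centralizer_singleton_iff.1 (h trivial))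
      ((z2 g).pow_right i)) (x1 i), iSup_bot] at top
    exact bot_ne_top top
  · refine Submodule.disjoint_def.2 fun w h1 h2 => ?_
    have : ⨆ j, ⨆ (_ : j ≠ i), F (e * z ^ (j : ℕ)) ≤ LinearMap.ker (N (e * z ^ (i : ℕ))) := iSup₂_le fun j hj u hu => by
      have k1 := n1 _ u (xp i)
      have k2 : N (e * z ^ (i : ℕ)) u ∈ F (e * z ^ (j : ℕ)) := by
        rw [hN]
        exact Submodule.sum_mem _ fun k _ => c1 (Commute.pow_left (Commute.mul_right (Commute.mul_left (Commute.refl e)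
          ((z2 e).pow_right _).symm) ((z2 _).pow_right _)) k) hu
      rw [LinearMap.mem_ker, ← Submodule.mem_bot (ZMod q), ← c2 ((z ^ (j : ℕ))⁻¹ * z ^ (i : ℕ)) (fun g =>
        ((z2 g).pow_right _).inv_right.mul_right ((z2 g).pow_right _)) fun h => hj (Fin.ext (zi j.2 i.2 (inv_mul_eq_one.1 h))), hF]
      rw [hF] at k1 k2
      apply (ρ (e * z ^ (j : ℕ))).injective
      rw [← m, k2, mul_assoc, mul_inv_cancel_left, k1]
    have := this h2
    rw [LinearMap.mem_ker, n2 _ w h1] at this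
    exact (smul_eq_zero.1 this).resolve_left pq
  · exact Commute.mul_right (mem_centralizer_singleton_iff.1 hh) ((z2 h).pow_right _)
  · exact mem_centralizer_singleton_iff.2 (Commute.mul_left (Commute.refl e) ((z2 e).pow_right _).symm)
  · obtain ⟨c, c3, c4⟩ := Finset.mem_image.1 (mem_zpowers_iff_mem_range_orderOf.1 (inv_mem (e3 g)))
    rw [z1, Finset.mem_range] at c3
    have k : ∀ i : Fin p, e * z ^ ((i + ⟨c, c3⟩ : Fin p) : ℕ) * g = g * (e * z ^ (i : ℕ)) := fun i => by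
      rw [Fin.val_add, ← pow_eq_pow_mod _ zp, add_comm, pow_add, ← mul_assoc, ((z2 e).pow_right c).eq, c4, mul_assoc _ _ g,
        ← ((z2 g).pow_right i).eq, commutatorElement_def]
      group
    refine ⟨Equiv.addRight ⟨c, c3⟩, orderOf_eq_prime (by
      rw [Equiv.nsmul_addRight, ← Equiv.addRight_zero]
      exact congrArg _ (by simpa using card_nsmul_eq_zero (x := (⟨c, c3⟩ : Fin p)))) fun h => hg ?_, fun i => ?_⟩
    · have := k 0
      rw [show (0 + ⟨c, c3⟩ : Fin p) = 0 from Equiv.congr_fun h 0] at this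
      exact mem_centralizer_singleton_iff.2 (by simpa using this.symm)
    · ext w
      obtain ⟨w, rfl⟩ := (ρ g).surjective w
      rw [hF, ← m, Equiv.coe_addRight, k, m, (ρ g).injective.eq_iff, ← hF]
      exact Submodule.mem_map_equiv _ |>.trans (by simp)

end Cfsg.Agent.S3380
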