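import Cfsg.Statements.S3381
import Cfsg.Agent.H1.Misc

set_option autoImplicit false
open Cfsg

namespace Cfsg.Agent.S3381

open Subgroup

def Fx {q : ℕ} {V : Type*} [AddCommGroup V] [Module (ZMod q) V] (f : V ≃ₗ[ZMod q] V) : Submodule (ZMod q) V :=
  LinearMap.ker (f.toLinearMap - LinearMap.id)

theorem mem_Fx {q : ℕ} {V : Type*} [AddCommGroup V] [Module (ZMod q) V] {f : V ≃ₗ[ZMod q] V} {v : V} :
    v ∈ Fx f ↔ f v = v := by simp [Fx, sub_eq_zero]

/-- Let G be a finite group acting faithfully and linearly on a non-trivial finite vector space V over the field with q elements (q prime) so that every non-zero vector has a stabilizer of order 2, and suppose G has a central involution. Then V has q^(2r) elements for some r and G contains exactly q^r + 1 non-central involutions. -/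
theorem result
    (q : ℕ) [Fact q.Prime] {V : Type*} [AddCommGroup V] [Module (ZMod q) V] [Finite V] [Nontrivial V]
    {G : Type*} [Group G] [Finite G] (ρ : G →* (V ≃ₗ[ZMod q] V)) (hρ : Function.Injective ρ)
    (hstab : ∀ v : V, v ≠ 0 → Nat.card {g : G // ρ g v = v} = 2)
    (z : G) (hz : orderOf z = 2) (hzc : z ∈ Subgroup.center G) :
    ∃ r : ℕ, Nat.card V = q ^ (2 * r) ∧
      Nat.card {g : G // orderOf g = 2 ∧ g ∉ Subgroup.center G} = q ^ r + 1 := by
  classical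
  have st : ∀ v : V, v ≠ 0 → ∃ t : G, orderOf t = 2 ∧ ρ t v = v ∧ ∀ g, ρ g v = v → g = 1 ∨ g = t := fun v hv => by
    obtain ⟨⟨t, ht⟩, t1, h⟩ := (Nat.card_eq_two_iff' (⟨1, by simp⟩ : {g : G // ρ g v = v})).1 (hstab v hv)
    have h1 : ∀ g, ρ g v = v → g = 1 ∨ g = t := fun g hg => or_iff_not_imp_left.2 fun h' =>
      congrArg Subtype.val (h ⟨g, hg⟩ fun e => h' (congrArg Subtype.val e))
    have t1' : t ≠ 1 := fun e => t1 (Subtype.ext e)
    refine ⟨t, orderOf_eq_prime ((h1 _ (by rw [sq, map_mul, LinearEquiv.mul_apply, ht, ht])).resolve_right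
      fun e => t1' (by simpa [sq] using e)) t1', ht, h1⟩
  have o1 : ∀ {t : G}, orderOf t = 2 → t ≠ 1 := fun h e => by simp [e] at h
  have o2 : ∀ {t : G}, orderOf t = 2 → t * t = 1 := fun h => by rw [← sq, ← h, pow_orderOf_eq_one]
  have un : ∀ v : V, v ≠ 0 → ∀ s t, orderOf s = 2 → orderOf t = 2 → ρ s v = v → ρ t v = v → s = t :=
    fun v hv s t hs ht h1 h2 => by
      obtain ⟨u, -, -, h⟩ := st v hv
      exact ((h s h1).resolve_left (o1 hs)).trans ((h t h2).resolve_left (o1 ht)).symm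
  have tt : ∀ {t : G}, orderOf t = 2 → ∀ v, ρ t (ρ t v) = v := fun h v => by
    rw [← LinearEquiv.mul_apply, ← map_mul, o2 h, map_one]; rfl
  have ng : ∀ z, orderOf z = 2 → z ∈ center G → ∀ v, ρ z v = v → v = 0 := fun z hz hzc v hv => by
    by_contra v0
    refine o1 hz (hρ (LinearEquiv.ext fun w => by_contra fun hw => ?_))
    rw [map_one, LinearEquiv.coe_one, id] at hw
    obtain ⟨t, ht, h1, -⟩ := st w fun e => hw (by simp [e])
    obtain ⟨s, hs, h2, -⟩ := st (v + w) fun e => hw (by rw [eq_neg_of_add_eq_zero_right e, map_neg, hv])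
    have cz : ∀ g u, ρ z (ρ g u) = ρ g (ρ z u) := fun g u => by
      rw [← LinearEquiv.mul_apply, ← map_mul, ← mem_center_iff.1 hzc, map_mul, LinearEquiv.mul_apply]
    have h3 : ∀ g u, orderOf g = 2 → ρ g u = u → ρ z u ≠ u → g ≠ z ∧ ρ g (u - ρ z u) = u - ρ z u := fun g u _ h h' =>
      ⟨fun e => h' (e ▸ h), by rw [map_sub, ← cz, h]⟩
    have h4 := h3 t w ht h1 hw
    have h5 := h3 s (v + w) hs h2 (by rwa [map_add, hv, Ne, add_right_inj])
    rw [map_add, hv, add_sub_add_left_eq_sub] at h5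
    obtain rfl := un _ (sub_ne_zero.2 (Ne.symm hw)) _ _ hs ht h5.2 h4.2
    rw [map_add, h1, add_left_inj] at h2
    exact h4.1 (un v v0 _ _ hs hz h2 hv)
  have ng' : ∀ z, orderOf z = 2 → z ∈ center G → ∀ v, ρ z v = -v := fun z hz hzc v =>
    eq_neg_of_add_eq_zero_left (ng z hz hzc _ (by rw [map_add, tt hz, add_comm]))
  have two : ∀ v : V, v + v = 0 → v = 0 := fun v h => ng z hz hzc v (by rw [ng' z hz hzc, neg_eq_of_add_eq_zero_left h])
  let I := {g : G // orderOf g = 2 ∧ g ∉ center G}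
  have tz : ∀ t : I, orderOf (t.1 * z) = 2 ∧ t.1 * z ∉ center G := fun t => by
    have h : t.1 * z ∉ center G := fun h => t.2.2 (by simpa using mul_mem h (inv_mem hzc))
    exact ⟨orderOf_eq_prime (by rw [Commute.mul_pow (mem_center_iff.1 hzc _), sq, sq, o2 t.2.1, o2 hz, one_mul])
      fun e => h (e ▸ one_mem _), h⟩
  let c : I → ℕ := fun t => Nat.card (Fx (ρ t.1))
  have cpos : ∀ t, 0 < c t := fun t => Nat.card_pos
  have inj : ∀ s t : I, s ≠ t → Function.Injective fun x : Fx (ρ s.1) × Fx (ρ t.1) => (x.1 + x.2 : V) := fun s t h x y e => by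
    have e1 : (x.1 : V) - y.1 = y.2 - x.2 := by rw [sub_eq_sub_iff_add_eq_add, add_comm (y.2 : V)]; exact e
    have e2 : (x.1 : V) - y.1 = 0 := by_contra fun e2 => h (Subtype.ext (un _ e2 _ _ s.2.1 t.2.1
      (mem_Fx.1 (sub_mem x.1.2 y.1.2)) (e1 ▸ mem_Fx.1 (sub_mem y.2.2 x.2.2))))
    exact Prod.ext (Subtype.ext (sub_eq_zero.1 e2)) (Subtype.ext (sub_eq_zero.1 (e1.symm.trans e2)).symm)
  have c1 : ∀ s t : I, s ≠ t → c s * c t ≤ Nat.card V := fun s t h =>
    (Nat.card_prod _ _).symm.le.trans (Nat.card_le_card_of_injective _ (inj s t h))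
  have ne : ∀ t : I, t ≠ ⟨_, tz t⟩ := fun t h => o1 hz (by simpa using congrArg Subtype.val h)
  have c2 : ∀ t : I, c t * c ⟨_, tz t⟩ = Nat.card V := fun t => (c1 _ _ (ne t)).antisymm (le_of_le_of_eq
    (Nat.card_le_card_of_injective (fun v : V => ((⟨v + ρ t.1 v, mem_Fx.2 (by rw [map_add, tt t.2.1, add_comm])⟩,
      ⟨v - ρ t.1 v, mem_Fx.2 (by
        rw [map_mul, LinearEquiv.mul_apply, ng' z hz hzc, neg_sub, map_sub, tt t.2.1])⟩) : Fx (ρ t.1) × Fx (ρ (t.1 * z))))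
      fun v w h => sub_eq_zero.1 (two _ (by
        have a1 := congrArg (fun x => x.1.1) h
        have a2 := congrArg (fun x => x.2.1) h
        simp only at a1 a2
        calc _ = (v + ρ t.1 v) + (v - ρ t.1 v) - ((w + ρ t.1 w) + (w - ρ t.1 w)) := by abel
          _ = 0 := by rw [a1, a2, sub_self]))) (Nat.card_prod _ _))
  have ex : ∀ v : V, v ≠ 0 → ∃ t : I, ρ t.1 v = v := fun v hv => by
    obtain ⟨t, ht, h, -⟩ := st v hv
    exact ⟨⟨t, ht, fun h' => hv (ng t ht h' v h)⟩, h⟩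
  have c3 : ∀ t : I, 1 < c t := fun t => by
    obtain ⟨v, hv⟩ : ∃ v, ρ t.1 v ≠ ρ z v := by
      by_contra h
      push Not at h
      exact t.2.2 (hρ (LinearEquiv.ext h) ▸ hzc)
    exact Finite.one_lt_card_iff_nontrivial.2 ⟨⟨ρ t.1 v + v, mem_Fx.2 (by rw [map_add, tt t.2.1, add_comm])⟩, 0, fun h =>
      hv (by rw [ng' z hz hzc]; exact eq_neg_of_add_eq_zero_left (congrArg Subtype.val h))⟩
  have c4 : ∀ s t : I, s ≠ t → s ≠ ⟨_, tz t⟩ → c s * c s = Nat.card V := fun s t h1 h2 => by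
    have a1 := c1 s t h1
    have a2 := c1 s _ h2
    have a3 := c1 ⟨_, tz s⟩ t fun e => h2 (Subtype.ext (by rw [← e]; simp [mul_assoc, o2 hz]))
    have a4 := c1 ⟨_, tz s⟩ ⟨_, tz t⟩ fun e => h1 (Subtype.ext (by simpa using congrArg Subtype.val e))
    have a5 := c2 s
    have a6 := c2 t
    have b1 := Nat.le_of_mul_le_mul_right (a1.trans (a6.symm.trans (mul_comm _ _)).le) (cpos _)
    have b2 := Nat.le_of_mul_le_mul_right (a2.trans a6.ge) (cpos _)
    have b3 := Nat.le_of_mul_le_mul_right (a3.trans a5.ge |>.trans' (mul_comm _ _).le) (cpos _)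
    have b4 := Nat.le_of_mul_le_mul_right (a4.trans a5.ge |>.trans' (mul_comm _ _).le) (cpos _)
    rw [← a6, b2.antisymm b3, ← b2.antisymm b3, ← b1.antisymm b4]
  have c5 : ∀ s : I, c s * c s = Nat.card V := fun s => by
    obtain ⟨⟨v, hv⟩, v0⟩ := @exists_ne _ (Finite.one_lt_card_iff_nontrivial.1 (c3 s)) 0
    obtain ⟨⟨w, hw⟩, w0⟩ := @exists_ne _ (Finite.one_lt_card_iff_nontrivial.1 (c3 ⟨_, tz s⟩)) 0
    replace v0 : v ≠ 0 := fun e => v0 (Subtype.ext e)
    replace w0 : w ≠ 0 := fun e => w0 (Subtype.ext e)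
    rw [mem_Fx] at hv hw
    obtain ⟨t, ht⟩ := ex (v + w) fun e => ne s (Subtype.ext (un w w0 _ _ s.2.1 (tz s).1
      (by rw [eq_neg_of_add_eq_zero_right e, map_neg, hv]) hw))
    refine c4 s t (fun e => ?_) fun e => ?_
    · rw [← e, map_add, hv, add_right_inj] at ht
      exact ne s (Subtype.ext (un w w0 _ _ s.2.1 (tz s).1 ht hw))
    · have e' : t.1 = s.1 * z := by rw [e]; simp [mul_assoc, o2 hz]
      rw [e', map_add, hw, add_left_inj] at ht
      exact ne s (Subtype.ext (un v v0 _ _ s.2.1 (tz s).1 hv ht))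
  obtain ⟨v, hv⟩ := exists_ne (0 : V)
  obtain ⟨t, -⟩ := ex v hv
  obtain ⟨r, hr⟩ : ∃ r, c t = q ^ r := ⟨_, by
    simpa using Module.natCard_eq_pow_finrank (K := ZMod q) (V := Fx (ρ t.1))⟩
  have c6 : ∀ s, c s = q ^ r := fun s => Nat.mul_self_inj.1 ((c5 s).trans (hr ▸ (c5 t).symm))
  have hV : Nat.card V = q ^ r * q ^ r := hr ▸ (c5 t).symm
  refine ⟨r, by rw [hV, two_mul, pow_add], ?_⟩
  haveI := Fintype.ofFinite I
  have h1 : Nat.card (Σ s : I, {x : Fx (ρ s.1) // x ≠ 0}) = Nat.card {v : V // v ≠ 0} := Nat.card_eq_of_bijective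
    (fun x => ⟨x.2.1, fun e => x.2.2 (Subtype.ext e)⟩) ⟨fun ⟨s, x⟩ ⟨t, y⟩ e => by
      have e' : (x.1 : V) = y.1 := congrArg Subtype.val e
      obtain rfl : s = t := Subtype.ext (un x.1 (fun e => x.2 (Subtype.ext e)) _ _ s.2.1 t.2.1 (mem_Fx.1 x.1.2)
        (e' ▸ mem_Fx.1 y.1.2))
      rw [Subtype.ext (Subtype.ext e') (a2 := y)], fun v => by
      obtain ⟨s, hs⟩ := ex v.1 v.2
      exact ⟨⟨s, ⟨v.1, mem_Fx.2 hs⟩, fun e => v.2 (congrArg Subtype.val e)⟩, rfl⟩⟩
  have h2 : ∀ {X : Type _} [Finite X] (a : X), Nat.card {x // x ≠ a} = Nat.card X - 1 := fun a => by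
    haveI := Fintype.ofFinite ‹_›
    simp [Fintype.card_subtype_compl]
  rw [Nat.card_sigma, h2, Finset.sum_congr rfl fun s _ => (h2 _).trans (congrArg (· - 1) (c6 s)), Finset.sum_const,
    Finset.card_univ, ← Nat.card_eq_fintype_card, smul_eq_mul, hV] at h1
  have h3 := hr ▸ c3 t
  obtain ⟨k, hk⟩ : ∃ k, q ^ r = k + 1 := ⟨q ^ r - 1, by omega⟩
  rw [hk, Nat.add_sub_cancel, show (k + 1) * (k + 1) - 1 = (k + 1 + 1) * k from Nat.sub_eq_of_eq_add (by ring)] at h1
  exact hk ▸ Nat.eq_of_mul_eq_mul_right (by omega) h1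

end Cfsg.Agent.S3381
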