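import Cfsg.Statements.S3382
import Cfsg.Agent.H1.Cores

set_option autoImplicit false
open Cfsg

namespace Cfsg.Agent.S3382

open Subgroup

theorem fixA {T : Type*} [Group T] {α : MulAut T} {r : ℕ} (hr : Odd r) (hα : α ^ r = 1) {x e : T} {k : ℕ}
    (h1 : α x = x * e) (h2 : α e = e) (h3 : e ^ 2 ^ k = 1) : α x = x := by
  have h4 : ∀ n : ℕ, (α ^ n) x = x * e ^ n := fun n => by
    induction n with
    | zero => simp
    | succ n ih => rw [pow_succ', MulAut.mul_apply, ih, map_mul, map_pow, h1, h2, pow_succ', mul_assoc]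
  have h5 := h4 r
  rw [hα, MulAut.one_apply, left_eq_mul] at h5
  have := Nat.eq_one_of_dvd_coprimes (Nat.Coprime.pow_right k (Nat.coprime_two_right.2 hr))
    (orderOf_dvd_of_pow_eq_one h5) (orderOf_dvd_of_pow_eq_one h3)
  rw [h1, orderOf_eq_one_iff.1 this, mul_one]

theorem fixB {T : Type*} [Group T] {α : MulAut T} {r : ℕ} (hr : Odd r) (hα : α ^ r = 1) {x : T} {k i : ℕ}
    (h1 : α x = x ^ i) (h3 : x ^ 2 ^ k = 1) : α x = x := by
  induction k generalizing x with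
  | zero => rw [pow_zero, pow_one] at h3; rw [h3, map_one]
  | succ k ih =>
    have h4 : α (x ^ 2) = x ^ 2 := ih (by rw [map_pow, h1, ← pow_mul, ← pow_mul, mul_comm]) (by rw [← pow_mul, ← pow_succ', h3])
    rcases Nat.even_or_odd' i with ⟨j, rfl | rfl⟩
    · have h5 : α x = α ((x ^ 2) ^ j) := by rw [map_pow, h4, h1, pow_mul]
      rw [α.injective h5, map_pow, h4]
    · refine fixA hr hα (e := (x ^ 2) ^ j) (k := k) (by rw [h1, pow_succ', pow_mul]) (by rw [map_pow, h4]) ?_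
      rw [← pow_mul (x ^ 2), mul_comm j, pow_mul, ← pow_mul x, ← pow_succ', h3, one_pow]

theorem fixC {T : Type*} [Group T] {α : MulAut T} {r : ℕ} (hr : Odd r) (hα : α ^ r = 1) {D : T → Prop} {t : T} {k : ℕ}
    (h0 : ∀ x, D x ∨ D (t⁻¹ * x)) (h1 : ∀ x, D x → α x = x) (h2 : ∀ x, D x → x ^ 2 ^ k = 1) : α = 1 := by
  have ht : α t = t := by
    rcases h0 (α t) with h | h
    · exact α.injective (h1 _ h)
    · exact fixA hr hα (by group) (h1 _ h) (h2 _ h)
  ext x
  rcases h0 x with h | h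
  · exact h1 x h
  · have := h1 _ h
    rwa [map_mul, map_inv, ht, mul_right_inj] at this

theorem big {T : Type*} [Group T] {α : MulAut T} {r : ℕ} (hr : Odd r) (hα : α ^ r = 1) {u w t : T} {k : ℕ}
    (hu : u ^ 2 ^ k = 1) (hu4 : u ^ 4 ≠ 1) (hw : w ^ 2 = 1) (hc : Commute u w)
    (h0 : ∀ x, (∃ i : ℕ, x = u ^ i ∨ x = u ^ i * w) ∨ (x ^ 4 = 1 ∧ ∃ i : ℕ, t⁻¹ * x = u ^ i ∨ t⁻¹ * x = u ^ i * w)) :
    α = 1 := by
  have hw4 : w ^ 4 = 1 := by rw [show 4 = 2 * 2 from rfl, pow_mul, hw, one_pow]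
  have key : ∀ x, x ^ 4 ≠ 1 → ∃ i : ℕ, α x = u ^ i ∨ α x = u ^ i * w := fun x hx =>
    (h0 _).resolve_right fun h => hx (α.injective (by rw [map_pow, h.1, map_one]))
  have hu2 : (u ^ 2) ^ 2 ^ k = 1 := by rw [← pow_mul, mul_comm, pow_mul, hu, one_pow]
  obtain ⟨i, hi⟩ := key u hu4
  obtain ⟨j, hj⟩ := key (u * w) (by rwa [hc.mul_pow, hw4, mul_one])
  have fin : α u = u → α w = w → α = 1 := fun h1 h2 =>
    fixC hr hα (D := fun x => ∃ i : ℕ, x = u ^ i ∨ x = u ^ i * w) (t := t) (k := k + 1) (fun x => (h0 x).imp_right (·.2))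
      (by rintro _ ⟨i, rfl | rfl⟩ <;> simp [h1, h2]) (by
        have a1 : ∀ i : ℕ, (u ^ i) ^ 2 ^ (k + 1) = 1 := fun i => by
          rw [← pow_mul, mul_comm, pow_mul, pow_succ, pow_mul, hu, one_pow, one_pow]
        rintro _ ⟨i, rfl | rfl⟩
        · exact a1 i
        · rw [(hc.pow_left i).mul_pow, a1, one_mul, pow_succ', pow_mul, hw, one_pow])
  have h2 : α (u ^ 2) = u ^ 2 := fixB hr hα (i := i) (by
    rw [map_pow]
    rcases hi with h | h <;> rw [h]
    · rw [← pow_mul, ← pow_mul, mul_comm]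
    · rw [(hc.pow_left i).mul_pow, hw, mul_one, ← pow_mul, ← pow_mul, mul_comm]) hu2
  -- elements `u ^ n` (n : ℤ) of order at most two are fixed
  have hz : ∀ n : ℤ, (u ^ n) ^ 2 = 1 → α (u ^ n) = u ^ n := by
    intro n hn
    rcases Int.even_or_odd' n with ⟨m, rfl | rfl⟩
    · rw [zpow_mul, zpow_ofNat, map_zpow, h2]
    · exfalso
      have a1 : orderOf (u ^ 2) ∣ 2 ^ k := orderOf_dvd_of_pow_eq_one hu2
      have a2 : (u ^ 2) ^ (2 * m + 1) = 1 := by
        rw [← zpow_natCast, ← zpow_mul, mul_comm, zpow_mul, zpow_natCast, hn]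
      have a3 := Int.natCast_dvd.1 (orderOf_dvd_iff_zpow_eq_one.2 a2)
      have a4 := Nat.eq_one_of_dvd_coprimes (Nat.Coprime.pow_left k (Nat.coprime_two_left.2
        (Int.natAbs_odd.2 ⟨m, rfl⟩))) a1 a3
      exact hu4 (by rw [show 4 = 2 * 2 from rfl, pow_mul, orderOf_eq_one_iff.1 a4, one_pow])
  have hww : w * w = 1 := by rw [← pow_two, hw]
  have haw : ∃ n : ℤ, α w = u ^ n ∨ α w = u ^ n * w := by
    have e : α w = (α u)⁻¹ * α (u * w) := by rw [map_mul, inv_mul_cancel_left]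
    refine ⟨j - i, ?_⟩
    rw [e, zpow_sub, zpow_natCast, zpow_natCast, ← ((Commute.refl u).pow_pow i j).inv_left.eq]
    have c := (hc.pow_left i).inv_left.mul_left (hc.pow_left j)
    rcases hi with h | h <;> rcases hj with h' | h' <;> rw [h, h']
    · exact Or.inl rfl
    · exact Or.inr (mul_assoc _ _ _).symm
    · right; rw [mul_inv_rev, inv_eq_of_mul_eq_one_right hww, mul_assoc, c.eq]
    · left; rw [mul_inv_rev, inv_eq_of_mul_eq_one_right hww, mul_assoc, ← mul_assoc _ _ w, c.eq, ← mul_assoc, hww, one_mul]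
  have hαw : α w = w := by
    have a0 : α w ^ 2 = 1 := by rw [← map_pow, hw, map_one]
    obtain ⟨n, h | h⟩ := haw
    · rw [h] at a0
      exact α.injective (by rw [h, hz n a0])
    · rw [h, (hc.zpow_left n).mul_pow, hw, mul_one] at a0
      exact fixA hr hα (k := 1) (h.trans (hc.zpow_left n).eq) (hz n a0) a0
  refine fin ?_ hαw
  rcases hi with h | h
  · exact fixB hr hα h hu
  · have a0 : (u ^ ((i : ℤ) - 1)) ^ 2 = 1 := by
      rw [map_pow, h, (hc.pow_left i).mul_pow, hw, mul_one] at h2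
      rw [zpow_sub_one, zpow_natCast, ((Commute.refl u).pow_left i).inv_right.mul_pow, h2, inv_pow, mul_inv_cancel]
    refine fixA hr hα (k := 1) (e := u ^ ((i : ℤ) - 1) * w) ?_ (by rw [map_mul, hz _ a0, hαw]) ?_
    · rw [h, ← mul_assoc, ← zpow_one_add]; simp
    · rw [pow_one, (hc.zpow_left _).mul_pow, a0, hw, one_mul]

theorem k2 : ∀ a : ZMod 2, (a ≠ 0 → a = 1) ∧ -a = a := by decide
theorem k3 : ∀ a : ZMod 3, a ≠ 0 → a = 1 ∨ a = -1 := by decide
theorem k4 : (1 : ZMod 3) ≠ -1 := by decide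

variable {F : Type*} [Field F]

def dg (a b : F) (ha : a ≠ 0) (hb : b ≠ 0) : (Fin 2 → F) ≃ₗ[F] (Fin 2 → F) where
  toFun v := ![a * v 0, b * v 1]
  invFun v := ![a⁻¹ * v 0, b⁻¹ * v 1]
  map_add' v w := by ext i; fin_cases i <;> simp [mul_add]
  map_smul' c v := by ext i; fin_cases i <;> simp [mul_left_comm]
  left_inv v := by ext i; fin_cases i <;> simp [ha, hb]
  right_inv v := by ext i; fin_cases i <;> simp [ha, hb]

def sw : (Fin 2 → F) ≃ₗ[F] (Fin 2 → F) where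
  toFun v := ![v 1, v 0]
  invFun v := ![v 1, v 0]
  map_add' v w := by ext i; fin_cases i <;> simp
  map_smul' c v := by ext i; fin_cases i <;> simp
  left_inv v := by ext i; fin_cases i <;> simp
  right_inv v := by ext i; fin_cases i <;> simp

theorem dg_pow (a b : F) (ha : a ≠ 0) (hb : b ≠ 0) (n : ℕ) (v : Fin 2 → F) :
    (dg a b ha hb ^ n) v = ![a ^ n * v 0, b ^ n * v 1] := by
  induction n with
  | zero => ext i; fin_cases i <;> simp
  | succ n ih =>
    rw [pow_succ', LinearEquiv.mul_apply, ih]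
    ext i; fin_cases i <;> simp [dg, pow_succ', mul_assoc]

/-- Let q = 2^m + 1 be a prime other than 5. Then the automorphism group of the group of linear maps of F_q² of the forms (x, y) ↦ (a x, ± a⁻¹ y) and (x, y) ↦ (± a⁻¹ y, a x) with a ≠ 0 is itself a 2-group. -/
theorem result (q m : ℕ) [Fact q.Prime] (hq : q = 2 ^ m + 1) (hq5 : q ≠ 5)
    (T : Subgroup ((Fin 2 → ZMod q) ≃ₗ[ZMod q] (Fin 2 → ZMod q)))
    (hT : ∀ f, f ∈ T ↔ ∃ a s : ZMod q, a ≠ 0 ∧ (s = 1 ∨ s = -1) ∧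
      ((∀ v, f v = ![a * v 0, s * a⁻¹ * v 1]) ∨ (∀ v, f v = ![s * a⁻¹ * v 1, a * v 0]))) :
    IsPGroup 2 (MulAut T) := by
  haveI : Finite ((Fin 2 → ZMod q) ≃ₗ[ZMod q] (Fin 2 → ZMod q)) :=
    Finite.of_injective _ (DFunLike.coe_injective (F := (Fin 2 → ZMod q) ≃ₗ[ZMod q] (Fin 2 → ZMod q)))
  haveI : Finite (MulAut T) := Finite.of_injective _ (DFunLike.coe_injective (F := T ≃* T))
  suffices h : ∀ (α : MulAut T) (r : ℕ), Odd r → α ^ r = 1 → α = 1 by
    intro α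
    obtain ⟨k, r, hr, e⟩ := Nat.exists_eq_two_pow_mul_odd (orderOf_pos α).ne'
    exact ⟨k, h _ r hr (by rw [← pow_mul, ← e, pow_orderOf_eq_one])⟩
  intro α r hr hα
  let t : T := ⟨sw, (hT _).2 ⟨1, 1, one_ne_zero, Or.inl rfl, Or.inr fun v => by simp [sw]⟩⟩
  let w : T := ⟨dg 1 (-1) one_ne_zero (neg_ne_zero.2 one_ne_zero),
    (hT _).2 ⟨1, -1, one_ne_zero, Or.inr rfl, Or.inl fun v => by simp [dg]⟩⟩
  have ex : ∀ x y : T, (∀ v, x.1 v = y.1 v) → x = y := fun x y h => Subtype.ext (LinearEquiv.ext h)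
  have ht : t⁻¹ = t := inv_eq_of_mul_eq_one_right (ex _ _ fun v => by
    ext i; fin_cases i <;> simp [t, sw])
  by_cases h0 : m = 0
  · obtain rfl : q = 2 := by rw [hq, h0]; rfl
    have key : ∀ a : ZMod 2, (a ≠ 0 → a = 1) ∧ -a = a := k2
    refine fixC hr hα (D := fun x => x = 1) (t := t) (k := 0) (fun x => ?_) (by rintro _ rfl; simp) (by rintro _ rfl; simp)
    obtain ⟨a, s, ha, hs, h⟩ := (hT _).1 x.2
    obtain rfl := (key a).1 ha
    obtain rfl : s = 1 := hs.elim id fun e => e.trans (key 1).2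
    refine h.imp (fun h => ex _ _ fun v => ?_) fun h => ex _ _ fun v => ?_
    · rw [h]; ext i; fin_cases i <;> simp
    · rw [ht, coe_mul, LinearEquiv.mul_apply, h]; ext i; fin_cases i <;> simp [t, sw]
  by_cases h1 : m = 1
  · obtain rfl : q = 3 := by rw [hq, h1]; rfl
    have key : ∀ a : ZMod 3, a ≠ 0 → a = 1 ∨ a = -1 := k3
    have hρ : ∀ v, (t * w).1 v = ![-v 1, v 0] := fun v => by simp [t, w, sw, dg]
    have hx : ∀ x : T, (∃ i : ℕ, x = (t * w) ^ i) ∨ (x ^ 2 = 1 ∧ ∃ i : ℕ, t⁻¹ * x = (t * w) ^ i) := by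
      intro x
      obtain ⟨a, s, ha, hs, h⟩ := (hT _).1 x.2
      have tx : ∀ v, (t⁻¹ * x).1 v = ![x.1 v 1, x.1 v 0] := fun v => by rw [ht]; rfl
      have fin : ∀ (y : T) (i : ℕ), (∀ v, y.1 v = ((t * w).1 ^ i) v) → ∃ i : ℕ, y = (t * w) ^ i := fun y i h =>
        ⟨i, ex _ _ h⟩
      have sq : (∀ v, x.1 (x.1 v) = v) → x ^ 2 = 1 := fun h => ex _ _ h
      rcases key a ha with rfl | rfl <;> rcases hs with rfl | rfl <;> rcases h with h | h
      · exact Or.inl (fin _ 0 fun v => by ext i; fin_cases i <;> simp [h])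
      · exact Or.inr ⟨sq fun v => by ext i; fin_cases i <;> simp [h], fin _ 0 fun v => by
          rw [tx, h]; ext i; fin_cases i <;> simp⟩
      · exact Or.inr ⟨sq fun v => by ext i; fin_cases i <;> simp [h], fin _ 1 fun v => by
          rw [pow_one, hρ]; rw [tx, h]; ext i; fin_cases i <;> simp⟩
      · exact Or.inl (fin _ 1 fun v => by rw [pow_one, hρ]; ext i; fin_cases i <;> simp [h])
      · exact Or.inl (fin _ 2 fun v => by
          rw [pow_two, LinearEquiv.mul_apply, hρ, hρ]; ext i; fin_cases i <;> simp [h])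
      · exact Or.inr ⟨sq fun v => by ext i; fin_cases i <;> simp [h], fin _ 2 fun v => by
          rw [pow_two, LinearEquiv.mul_apply, hρ, hρ]; rw [tx, h]; ext i; fin_cases i <;> simp⟩
      · exact Or.inr ⟨sq fun v => by ext i; fin_cases i <;> simp [h], fin _ 3 fun v => by
          rw [pow_three, LinearEquiv.mul_apply, LinearEquiv.mul_apply, hρ, hρ, hρ]; rw [tx, h]; ext i; fin_cases i <;> simp⟩
      · exact Or.inl (fin _ 3 fun v => by
          rw [pow_three, LinearEquiv.mul_apply, LinearEquiv.mul_apply, hρ, hρ, hρ]; ext i; fin_cases i <;> simp [h])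
    have h2 : ∀ v, ((t * w) ^ 2).1 v = -v := fun v => by
      rw [pow_two, coe_mul, LinearEquiv.mul_apply, hρ, hρ]; ext i; fin_cases i <;> simp
    have h4 : (t * w) ^ 2 ^ 2 = 1 := ex _ _ fun v => by
      rw [pow_two 2, pow_mul, pow_two, coe_mul, LinearEquiv.mul_apply, h2, h2, neg_neg]; rfl
    have h5 : α (t * w) = t * w := by
      rcases hx (α (t * w)) with ⟨i, h⟩ | ⟨h, -⟩
      · exact fixB hr hα h h4
      · rw [← map_pow, map_eq_one_iff _ α.injective] at h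
        have := congrFun (h2 1) 0
        rw [h] at this
        have h6 : (1 : ZMod 3) = -1 := this
        exact absurd h6 k4
    refine fixC hr hα (D := fun x => ∃ i : ℕ, x = (t * w) ^ i) (t := t) (k := 2) (fun x => (hx x).imp_right (·.2)) ?_ ?_
    · rintro _ ⟨i, rfl⟩; rw [map_pow, h5]
    · rintro _ ⟨i, rfl⟩; rw [← pow_mul, mul_comm, pow_mul, h4, one_pow]
  have h3 : 3 ≤ m := by
    by_contra h
    exact hq5 (by rw [hq, show m = 2 by omega]; rfl)
  obtain ⟨g, hg⟩ := IsCyclic.exists_generator (α := (ZMod q)ˣ)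
  have hgo : orderOf g = 2 ^ m := by
    rw [orderOf_eq_card_of_forall_mem_zpowers hg, Nat.card_eq_fintype_card, ZMod.card_units]
    exact Nat.sub_eq_of_eq_add hq
  let u : T := ⟨dg g (g : ZMod q)⁻¹ g.ne_zero (inv_ne_zero g.ne_zero),
    (hT _).2 ⟨g, 1, g.ne_zero, Or.inl rfl, Or.inl fun v => by rw [one_mul]; rfl⟩⟩
  have hu : ∀ (n : ℕ) v, (u ^ n).1 v = ![(g : ZMod q) ^ n * v 0, (g : ZMod q)⁻¹ ^ n * v 1] := fun n v =>
    dg_pow _ _ g.ne_zero (inv_ne_zero g.ne_zero) n v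
  have diag : ∀ (x : T) (a s : ZMod q), a ≠ 0 → (s = 1 ∨ s = -1) → (∀ v, x.1 v = ![a * v 0, s * a⁻¹ * v 1]) →
      ∃ i : ℕ, x = u ^ i ∨ x = u ^ i * w := by
    intro x a s ha hs h
    obtain ⟨i, hi⟩ := (mem_powers_iff_mem_zpowers (x := g)).2 (hg (Units.mk0 a ha))
    have hi' : (g : ZMod q) ^ i = a := by simpa using congrArg Units.val hi
    refine ⟨i, hs.imp (fun e => ex _ _ fun v => ?_) fun e => ex _ _ fun v => ?_⟩
    · rw [h, hu, inv_pow, hi', e, one_mul]
    · rw [coe_mul, LinearEquiv.mul_apply, h, hu, inv_pow, hi', e]; simp [w, dg]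
  refine big hr hα (u := u) (w := w) (t := t) (k := m) (ex _ _ fun v => ?_) (fun h => ?_) (ex _ _ fun v => ?_)
    (ex _ _ fun v => ?_) fun x => ?_
  · have : (g : ZMod q) ^ 2 ^ m = 1 := by rw [← Units.val_pow_eq_pow_val, ← hgo, pow_orderOf_eq_one, Units.val_one]
    rw [hu, inv_pow, this]; ext i; fin_cases i <;> simp
  · have h4 := congrFun (hu 4 1) 0
    rw [h] at h4
    have h5 : g ^ 4 = 1 := Units.ext (by
      rw [Units.val_pow_eq_pow_val, Units.val_one]
      have h7 : (1 : ZMod q) = (g : ZMod q) ^ 4 * 1 := h4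
      exact (h7.trans (mul_one _)).symm)
    have h6 := Nat.le_of_dvd (by norm_num) (hgo ▸ orderOf_dvd_of_pow_eq_one h5)
    have := Nat.pow_le_pow_right two_pos h3
    omega
  · rw [pow_two]; ext i; fin_cases i <;> simp [w, dg]
  · change ![(g : ZMod q) * (1 * v 0), (g : ZMod q)⁻¹ * (-1 * v 1)] = ![1 * ((g : ZMod q) * v 0), -1 * ((g : ZMod q)⁻¹ * v 1)]
    rw [mul_left_comm (g : ZMod q), mul_left_comm (g : ZMod q)⁻¹]
  · obtain ⟨a, s, ha, hs, h | h⟩ := (hT _).1 x.2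
    · exact Or.inl (diag x a s ha hs h)
    · refine Or.inr ⟨ex _ _ fun v => ?_, diag _ a s ha hs fun v => ?_⟩
      · have h2 : ∀ v, x.1 (x.1 v) = s • v := fun v => by
          rw [h, h]; ext i; fin_cases i <;> simp <;> field_simp
        change x.1 (x.1 (x.1 (x.1 v))) = v
        rw [h2, h2, smul_smul]
        rcases hs with rfl | rfl <;> simp
      · rw [ht, coe_mul, LinearEquiv.mul_apply, h]; simp [t, sw]

end Cfsg.Agent.S3382
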