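import Cfsg.Statements.S3383
import Cfsg.Agent.H1.Frob
import Cfsg.Agent.H1.Hall

set_option autoImplicit false
open Cfsg

namespace Cfsg.Agent.S3383

/-- Let H be a Frobenius complement in a finite group L and K the Frobenius kernel (as a subgroup). Then K is characteristic in L, and every normal subgroup of L either contains K or is contained in K. -/
theorem result {L : Type*} [Group L] [Finite L]
    (H : Subgroup L) (hH : Cfsg.IsFrobeniusComplement H)
    (K : Subgroup L) (hK : (K : Set L) = Cfsg.frobeniusKernel H) :
    K.Characteristic ∧ ∀ N : Subgroup L, N.Normal → K ≤ N ∨ N ≤ K := by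
  obtain ⟨N, h1, h2, h3, h4, -⟩ := H1.IsFrob.exists_kernel hH
  obtain rfl : K = N := SetLike.coe_injective (hK.trans h2.symm)
  have hc := h4.coprime Subgroup.le_normalizer_of_normal
  refine ⟨Subgroup.characteristic_iff_map_le.2 fun φ => H1.le_of_coprime_index ?_, fun M hM => ?_⟩
  · rw [h3.symm.index_eq_card, Subgroup.card_map_of_injective φ.injective]; exact hc.symm
  · exact (H1.normal_le_or_ge_kernel Subgroup.le_normalizer_of_normal h4 (h3.sup_eq_top ▸ le_top)
      Subgroup.le_normalizer_of_normal).symm

end Cfsg.Agent.S3383
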