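import Cfsg.Statements.S3419
import Cfsg.Agent.H1.Hall

set_option autoImplicit false
open Cfsg

namespace Cfsg.Agent.S3419

section
open Nat
theorem pow7 (s : ℕ) (hs : 40 ≤ s) : (s + 1) ^ 7 ≤ 2 ^ s := by
  induction s, hs using Nat.le_induction with
  | base => norm_num
  | succ s hs ih =>
    have h1 : (10 * (s + 1 + 1)) ^ 7 ≤ (11 * (s + 1)) ^ 7 := Nat.pow_le_pow_left (by omega) 7
    rw [mul_pow, mul_pow] at h1
    rw [pow_succ 2 s]
    norm_num at h1
    omega

theorem cb_le (n P : ℕ) (n_large : 2 < n) (no_prime : ∀ p : ℕ, p.Prime → n < p → p ≤ 2 * n → p = P) :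
    centralBinom n ≤ 2 * n * ((2 * n) ^ sqrt (2 * n) * 4 ^ (2 * n / 3)) := by
  have n_pos : 0 < n := (Nat.zero_le _).trans_lt n_large
  have n2_pos : 1 ≤ 2 * n := mul_pos (zero_lt_two' ℕ) n_pos
  let S := {p ∈ Finset.range (2 * n / 3 + 1) | Nat.Prime p}
  let f x := x ^ n.centralBinom.factorization x
  have h0 : centralBinom n ≤ f P * ∏ x ∈ S, f x := by
    rw [← n.prod_pow_factorization_centralBinom]
    have h1 : ∏ x ∈ Finset.range (2 * n + 1), f x = ∏ x ∈ (Finset.range (2 * n + 1)).filter (fun x => x ∈ insert P S), f x := by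
      refine (Finset.prod_filter_of_ne fun x hx h => ?_).symm
      by_contra c
      apply h
      dsimp only [f]
      by_cases hp : x.Prime
      · simp only [S, Finset.mem_insert, Finset.mem_filter, Finset.mem_range, not_or, hp, and_true] at c hx
        have h3 : x ≤ n := by
          by_contra d
          exact c.1 (no_prime x hp (by omega) (by omega))
        rw [factorization_centralBinom_of_two_mul_self_lt_three_mul n_large h3 (by omega), Nat.pow_zero]
      · rw [factorization_eq_zero_of_not_prime n.centralBinom hp, Nat.pow_zero]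
    have one : ∀ x, 1 ≤ f x := fun x => by
      dsimp only [f]
      by_cases hp : x.Prime
      · exact Nat.one_le_pow _ _ hp.pos
      · rw [factorization_eq_zero_of_not_prime n.centralBinom hp, Nat.pow_zero]
    refine h1.le.trans ((Finset.prod_le_prod_of_subset_of_one_le' (t := insert P S) (fun x hx => (Finset.mem_filter.1 hx).2) fun x _ _ => one x).trans ?_)
    by_cases hP : P ∈ S
    · rw [Finset.insert_eq_of_mem hP]; exact Nat.le_mul_of_pos_left _ (one P)
    · rw [Finset.prod_insert hP]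
  refine h0.trans (mul_le_mul' (pow_factorization_choose_le (mul_pos two_pos n_pos)) ?_)
  rw [← Finset.prod_filter_mul_prod_filter_not S (· ≤ sqrt (2 * n))]
  apply mul_le_mul'
  · refine (Finset.prod_le_prod' fun p _ => (?_ : f p ≤ 2 * n)).trans ?_
    · exact pow_factorization_choose_le (mul_pos two_pos n_pos)
    have : (Finset.Icc 1 (sqrt (2 * n))).card = sqrt (2 * n) := by rw [card_Icc, Nat.add_sub_cancel]
    rw [Finset.prod_const]
    refine pow_right_mono₀ n2_pos ((Finset.card_le_card fun x hx => ?_).trans this.le)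
    obtain ⟨h1, h2⟩ := Finset.mem_filter.1 hx
    exact Finset.mem_Icc.mpr ⟨(Finset.mem_filter.1 h1).2.one_lt.le, h2⟩
  · refine le_trans ?_ (primorial_le_four_pow (2 * n / 3))
    refine (Finset.prod_le_prod' fun p hp => (?_ : f p ≤ p)).trans ?_
    · obtain ⟨h1, h2⟩ := Finset.mem_filter.1 hp
      refine (pow_right_mono₀ (Finset.mem_filter.1 h1).2.one_lt.le ?_).trans (pow_one p).le
      exact Nat.factorization_choose_le_one (sqrt_lt'.mp <| not_le.1 h2)
    refine Finset.prod_le_prod_of_subset_of_one_le' (Finset.filter_subset _ _) ?_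
    exact fun p hp _ => (Finset.mem_filter.1 hp).2.one_lt.le

theorem two_big (m : ℕ) (hm : 800 ≤ m) : ∃ p q : ℕ, p.Prime ∧ q.Prime ∧ q < p ∧ m < q ∧ p ≤ 2 * m := by
  obtain ⟨P, hP, h1, h2⟩ := Nat.exists_prime_lt_and_le_two_mul m (by omega)
  by_contra c
  have u : ∀ p : ℕ, p.Prime → m < p → p ≤ 2 * m → p = P := fun p hp a b => by
    rcases lt_trichotomy p P with d | d | d
    · exact (c ⟨P, p, hP, hp, d, a, h2⟩).elim
    · exact d
    · exact (c ⟨p, P, hp, hP, d, h1, b⟩).elim
  have b1 := cb_le m P (by omega) u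
  have b2 := Nat.four_pow_lt_mul_centralBinom m (by omega)
  set s := sqrt (2 * m) with hs
  have s1 : 2 * m < (s + 1) ^ 2 := Nat.lt_succ_sqrt' _
  have s2 : s ^ 2 ≤ 2 * m := Nat.sqrt_le' _
  have s3 : 40 ≤ s := Nat.le_sqrt'.2 (by omega)
  have e1 : m * (2 * m * (2 * m) ^ s) ≤ (s + 1) ^ (2 * (s + 2)) := by
    rw [pow_mul]
    calc m * (2 * m * (2 * m) ^ s) ≤ (2 * m) * (2 * m * (2 * m) ^ s) := Nat.mul_le_mul_right _ (by omega)
      _ = (2 * m) ^ (s + 2) := by ring
      _ ≤ _ := Nat.pow_le_pow_left s1.le _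
  have e2 : ((s + 1) ^ (2 * (s + 2))) ^ 3 ≤ (4 ^ (m - 2 * m / 3)) ^ 3 := by
    calc ((s + 1) ^ (2 * (s + 2))) ^ 3 = (s + 1) ^ (2 * (s + 2) * 3) := by rw [← pow_mul]
      _ ≤ (s + 1) ^ (7 * s) := Nat.pow_le_pow_right (by omega) (by omega)
      _ ≤ (2 ^ s) ^ s := by rw [pow_mul]; exact Nat.pow_le_pow_left (pow7 s s3) _
      _ = 2 ^ (s ^ 2) := by rw [← pow_mul, sq]
      _ ≤ 2 ^ (2 * ((m - 2 * m / 3) * 3)) := Nat.pow_le_pow_right (by omega) (by omega)
      _ = _ := by rw [pow_mul, pow_mul]; norm_num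
  have e3 := (Nat.pow_le_pow_iff_left (by norm_num)).1 e2
  have e4 : 4 ^ m = 4 ^ (m - 2 * m / 3) * 4 ^ (2 * m / 3) := by rw [← pow_add]; congr 1; omega
  have e5 : m * centralBinom m ≤ 4 ^ m := by
    calc m * centralBinom m ≤ m * (2 * m * ((2 * m) ^ s * 4 ^ (2 * m / 3))) := Nat.mul_le_mul_left _ b1
      _ = m * (2 * m * (2 * m) ^ s) * 4 ^ (2 * m / 3) := by ring
      _ ≤ _ := by rw [e4]; exact Nat.mul_le_mul_right _ (e1.trans e3)
  omega

theorem pq (n : ℕ) (hn : 5 ≤ n) : ∃ p q : ℕ, p.Prime ∧ q.Prime ∧ 3 ≤ q ∧ q + 2 ≤ p ∧ p ≤ n ∧ n < 2 * p ∧ n < 3 * q ∧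
    n < p + q ∧ ¬ q ∣ p - 1 := by
  have key : ∀ p q : ℕ, p.Prime → q.Prime → 3 ≤ q → q < p → p ≤ n → n < 2 * q → ∃ p q : ℕ, p.Prime ∧ q.Prime ∧ 3 ≤ q ∧
      q + 2 ≤ p ∧ p ≤ n ∧ n < 2 * p ∧ n < 3 * q ∧ n < p + q ∧ ¬ q ∣ p - 1 := fun p q hp hq h3 h4 h5 h6 => by
    have o1 := hp.eq_two_or_odd
    have o2 := hq.eq_two_or_odd
    refine ⟨p, q, hp, hq, h3, by omega, h5, by omega, by omega, by omega, ?_⟩
    rintro ⟨k, hk⟩
    rcases k with _ | _ | k
    · omega
    · omega
    · have : q * (k + 1 + 1) = q * k + 2 * q := by ring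
      omega
  by_cases h : n < 7
  · exact ⟨5, 3, by norm_num, by norm_num, by omega, by omega, by omega, by omega, by omega, by omega, by norm_num⟩
  by_cases h : n < 11
  · exact ⟨7, 5, by norm_num, by norm_num, by omega, by omega, by omega, by omega, by omega, by omega, by norm_num⟩
  by_cases h : n < 13
  · exact key 11 7 (by norm_num) (by norm_num) (by omega) (by omega) (by omega) (by omega)
  by_cases h : n < 19
  · exact key 13 11 (by norm_num) (by norm_num) (by omega) (by omega) (by omega) (by omega)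
  by_cases h : n < 31
  · exact key 19 17 (by norm_num) (by norm_num) (by omega) (by omega) (by omega) (by omega)
  by_cases h : n < 53
  · exact key 31 29 (by norm_num) (by norm_num) (by omega) (by omega) (by omega) (by omega)
  by_cases h : n < 89
  · exact key 53 47 (by norm_num) (by norm_num) (by omega) (by omega) (by omega) (by omega)
  by_cases h : n < 163
  · exact key 89 83 (by norm_num) (by norm_num) (by omega) (by omega) (by omega) (by omega)
  by_cases h : n < 311
  · exact key 163 157 (by norm_num) (by norm_num) (by omega) (by omega) (by omega) (by omega)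
  by_cases h : n < 607
  · exact key 311 307 (by norm_num) (by norm_num) (by omega) (by omega) (by omega) (by omega)
  by_cases h : n < 1193
  · exact key 607 601 (by norm_num) (by norm_num) (by omega) (by omega) (by omega) (by omega)
  by_cases h : n < 1600
  · exact key 1193 1187 (by norm_num) (by norm_num) (by omega) (by omega) (by omega) (by omega)
  obtain ⟨p, q, hp, hq, h1, h2, h3⟩ := two_big (n / 2) (by omega)
  exact key p q hp hq (by omega) h1 (by omega) (by omega)
end

theorem no_elt {n p q : ℕ} (hp : p.Prime) (hq : q.Prime) (h3 : 3 ≤ q) (hqp : q < p) (h : n < p + q)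
    (σ : Equiv.Perm (Fin n)) : orderOf σ ≠ p * q := by
  intro e
  rw [← Equiv.Perm.lcm_cycleType] at e
  have d : p * q ∣ σ.cycleType.prod := e ▸ Multiset.lcm_dvd.2 fun b hb => Multiset.dvd_prod hb
  obtain ⟨c, hc, c1⟩ := hp.prime.exists_mem_multiset_dvd ((dvd_mul_right p q).trans d)
  obtain ⟨c', hc', c2⟩ := hq.prime.exists_mem_multiset_dvd ((dvd_mul_left q p).trans d)
  have s : σ.cycleType.sum ≤ n := by
    rw [Equiv.Perm.sum_cycleType]
    simpa using σ.support.card_le_univ
  have p1 := Equiv.Perm.two_le_of_mem_cycleType hc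
  have p2 := Equiv.Perm.two_le_of_mem_cycleType hc'
  by_cases e2 : c' = c
  · subst e2
    have := Nat.le_of_dvd (by omega) (((Nat.coprime_primes hp hq).2 hqp.ne').mul_dvd_of_dvd_of_dvd c1 c2)
    have := Multiset.le_sum_of_mem hc
    nlinarith
  · have a1 := Nat.le_of_dvd (by omega) c1
    have a2 := Nat.le_of_dvd (by omega) c2
    have m := Multiset.le_sum_of_mem ((Multiset.mem_erase_of_ne e2).2 hc')
    have := Multiset.sum_erase hc
    omega

theorem elt {H : Type*} [Group H] [Finite H] {p q : ℕ} (hp : p.Prime) (hq : q.Prime) (h3 : 3 ≤ q) (hqp : q + 2 ≤ p)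
    (hd : ¬ q ∣ p - 1) (hπ : ∀ r : ℕ, r.Prime → r ∣ Nat.card H → r = p ∨ r = q) (h1 : p ∣ Nat.card H) (h2 : q ∣ Nat.card H)
    (h4 : ¬ p ^ 2 ∣ Nat.card H) (h5 : ¬ q ^ 3 ∣ Nat.card H) : ∃ x : H, orderOf x = p * q := by
  haveI := Fact.mk hp
  haveI := Fact.mk hq
  obtain ⟨P⟩ : Nonempty (Sylow p H) := inferInstance
  have cP : Nat.card P = p := by
    obtain ⟨k, hk⟩ := IsPGroup.iff_card.1 P.isPGroup'
    have d1 : p ^ k ∣ Nat.card H := hk ▸ Subgroup.card_subgroup_dvd_card _
    have k1 : k < 2 := by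
      by_contra c
      exact h4 ((pow_dvd_pow p (by omega)).trans d1)
    have k0 : k ≠ 0 := by
      rintro rfl
      have := (P : Subgroup H).card_mul_index
      rw [hk, pow_zero, one_mul] at this
      exact P.not_dvd_index (this ▸ h1)
    obtain rfl : k = 1 := by omega
    simpa using hk
  have n1 : Nat.card (Sylow p H) = 1 := by
    have d1 : Nat.card (Sylow p H) ∣ (P : Subgroup H).index := P.card_dvd_index
    have d2 := d1.trans (P : Subgroup H).index_dvd_card
    have m := card_sylow_modEq_one p H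
    have e := Nat.eq_prime_pow_of_unique_prime_dvd (p := q) (Nat.card_pos (α := Sylow p H)).ne' fun {r} hr d =>
      (hπ r hr (d.trans d2)).resolve_left fun c => P.not_dvd_index (by have := d.trans d1; rwa [c] at this)
    generalize (Nat.card (Sylow p H)).primeFactorsList.length = k at e
    rw [e] at m d2 ⊢
    have k1 : k < 3 := by
      by_contra c
      exact h5 ((pow_dvd_pow q (by omega)).trans d2)
    have m' := (Nat.modEq_iff_dvd' (Nat.one_le_pow _ _ hq.pos)).1 m.symm
    interval_cases k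
    · rfl
    · have := Nat.le_of_dvd (by rw [pow_one]; omega) m'
      rw [pow_one] at this; omega
    · rw [show q ^ 2 - 1 = (q + 1) * (q - 1) by rw [← Nat.sq_sub_sq]] at m'
      rcases (Nat.Prime.dvd_mul hp).1 m' with c | c <;> have := Nat.le_of_dvd (by omega) c <;> omega
  haveI : Subsingleton (Sylow p H) := (Nat.card_eq_one_iff_unique.1 n1).1
  haveI : (P : Subgroup H).Normal := P.normal_of_subsingleton
  haveI : IsCyclic (P : Subgroup H) := isCyclic_of_prime_card cP
  obtain ⟨y, hy⟩ := exists_prime_orderOf_dvd_card' q h2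
  obtain ⟨x, hx⟩ := exists_prime_orderOf_dvd_card' (G := (P : Subgroup H)) p (by rw [cP])
  have a1 : orderOf (MulAut.conjNormal (H := (P : Subgroup H)) y) ∣ q := hy ▸ orderOf_map_dvd _ _
  have a2 : orderOf (MulAut.conjNormal (H := (P : Subgroup H)) y) ∣ p - 1 := by
    have := orderOf_dvd_natCard (MulAut.conjNormal (H := (P : Subgroup H)) y)
    rwa [IsCyclic.card_mulAut, cP, Nat.totient_prime hp] at this
  have a3 : MulAut.conjNormal (H := (P : Subgroup H)) y = 1 :=
    orderOf_eq_one_iff.1 (((Nat.dvd_prime hq).1 a1).resolve_right fun c => hd (c ▸ a2))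
  have a4 : Commute (x : H) y := by
    have := congrArg (fun f : MulAut (P : Subgroup H) => (f x : H)) a3
    simp only [MulAut.conjNormal_apply, MulAut.one_apply] at this
    exact (mul_inv_eq_iff_eq_mul.1 this).symm
  refine ⟨x * y, ?_⟩
  rw [a4.orderOf_mul_eq_mul_orderOf_of_coprime, Subgroup.orderOf_coe, hx, hy]
  rw [Subgroup.orderOf_coe, hx, hy]
  exact (Nat.coprime_primes hp hq).2 (by omega)

theorem fac {n r k : ℕ} (hr : r.Prime) (h : n < k * r) (hk : k ≤ r) (hn : n ≠ 0) : ¬ r ^ k ∣ n.factorial := by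
  intro d
  have := (hr.pow_dvd_iff_le_factorization n.factorial_ne_zero).1 d
  rw [Nat.factorization_factorial hr (b := 2) (Nat.log_lt_of_lt_pow hn (by nlinarith))] at this
  simp at this
  have := (Nat.div_lt_iff_lt_mul hr.pos).2 h
  omega

/-- Let n ≥ 5 and let G be a finite group with the same order and the same set of element orders as the alternating group of degree n. Then G is not solvable. -/
theorem result {G : Type*} [Group G] [Finite G] (n : ℕ) (hn : 5 ≤ n)
    (hcard : Nat.card G = Nat.card ↥(alternatingGroup (Fin n)))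
    (hspec : Set.range (orderOf : G → ℕ) = Set.range (orderOf : ↥(alternatingGroup (Fin n)) → ℕ)) :
    ¬ Group.IsSolvable G := by
  intro hs
  obtain ⟨p, q, hp, hq, h3, h4, h5, h6, h7, h8, h9⟩ := pq n hn
  haveI : Nontrivial (Fin n) := Fin.nontrivial_iff_two_le.2 (by omega)
  have c2 : 2 * Nat.card G = n.factorial := by
    rw [hcard, two_mul_nat_card_alternatingGroup, Nat.card_perm]; simp
  obtain ⟨H, hH⟩ := H1.exists_piHall G ({p, q} : Set ℕ)
  have dv : ∀ r : ℕ, r.Prime → 3 ≤ r → r ≤ n → r ∈ ({p, q} : Set ℕ) → r ∣ Nat.card H := fun r hr a b c => by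
    have d : r ∣ 2 * Nat.card G := c2 ▸ (hr.dvd_factorial).2 b
    have d2 : r ∣ Nat.card G := ((Nat.Prime.dvd_mul hr).1 d).resolve_left fun e => by
      have := Nat.le_of_dvd two_pos e; omega
    rw [← H.card_mul_index] at d2
    exact ((Nat.Prime.dvd_mul hr).1 d2).resolve_right fun e => hH.2 r hr c e
  have dn : Nat.card H ∣ n.factorial := c2 ▸ H.card_subgroup_dvd_card.mul_left 2
  obtain ⟨x, hx⟩ := elt (H := H) hp hq h3 h4 h9 (fun r hr d => by simpa using hH.1 r hr d)
    (dv p hp (by omega) h5 (by simp)) (dv q hq h3 (by omega) (by simp))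
    (fun d => fac hp h6 hp.two_le (by omega) (d.trans dn)) (fun d => fac hq h7 h3 (by omega) (d.trans dn))
  obtain ⟨σ, hσ⟩ : p * q ∈ Set.range (orderOf : ↥(alternatingGroup (Fin n)) → ℕ) :=
    hspec ▸ ⟨(x : G), by rw [Subgroup.orderOf_coe, hx]⟩
  exact no_elt hp hq h3 (by omega) h8 σ.1 (by rw [Subgroup.orderOf_coe, hσ])


end Cfsg.Agent.S3419
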