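import Cfsg.Statements.S3420
import Cfsg.Agent.S3419

set_option autoImplicit false
open Cfsg

namespace Cfsg.Agent.S3420

open Cfsg.Agent.S3419

theorem pq2 (n : ℕ) (hn : 11 ≤ n) : ∃ p q : ℕ, p.Prime ∧ q.Prime ∧ q < p ∧ p ≤ n ∧ n < 2 * q := by
  by_cases h : n < 13
  · exact ⟨11, 7, by norm_num, by norm_num, by omega, by omega, by omega⟩
  by_cases h : n < 19
  · exact ⟨13, 11, by norm_num, by norm_num, by omega, by omega, by omega⟩
  by_cases h : n < 31
  · exact ⟨19, 17, by norm_num, by norm_num, by omega, by omega, by omega⟩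
  by_cases h : n < 53
  · exact ⟨31, 29, by norm_num, by norm_num, by omega, by omega, by omega⟩
  by_cases h : n < 89
  · exact ⟨53, 47, by norm_num, by norm_num, by omega, by omega, by omega⟩
  by_cases h : n < 163
  · exact ⟨89, 83, by norm_num, by norm_num, by omega, by omega, by omega⟩
  by_cases h : n < 311
  · exact ⟨163, 157, by norm_num, by norm_num, by omega, by omega, by omega⟩
  by_cases h : n < 607
  · exact ⟨311, 307, by norm_num, by norm_num, by omega, by omega, by omega⟩
  by_cases h : n < 1193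
  · exact ⟨607, 601, by norm_num, by norm_num, by omega, by omega, by omega⟩
  by_cases h : n < 1600
  · exact ⟨1193, 1187, by norm_num, by norm_num, by omega, by omega, by omega⟩
  obtain ⟨p, q, hp, hq, h1, h2, h3⟩ := two_big (n / 2) (by omega)
  exact ⟨p, q, hp, hq, h1, by omega, by omega⟩

theorem comm_elt {H : Type*} [Group H] [Finite H] {p q : ℕ} (hp : p.Prime) (hq : q.Prime) (hne : p ≠ q)
    (hd : ¬ q ∣ p - 1) (P : Subgroup H) [P.Normal] (cP : Nat.card P = p) (h2 : q ∣ Nat.card H) :
    ∃ x : H, orderOf x = p * q := by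
  haveI := Fact.mk hp
  haveI := Fact.mk hq
  haveI : IsCyclic P := isCyclic_of_prime_card cP
  obtain ⟨y, hy⟩ := exists_prime_orderOf_dvd_card' q h2
  obtain ⟨x, hx⟩ := exists_prime_orderOf_dvd_card' (G := P) p (by rw [cP])
  have a1 : orderOf (MulAut.conjNormal (H := P) y) ∣ q := hy ▸ orderOf_map_dvd _ _
  have a2 : orderOf (MulAut.conjNormal (H := P) y) ∣ p - 1 := by
    have := orderOf_dvd_natCard (MulAut.conjNormal (H := P) y)
    rwa [IsCyclic.card_mulAut, cP, Nat.totient_prime hp] at this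
  have a3 : MulAut.conjNormal (H := P) y = 1 :=
    orderOf_eq_one_iff.1 (((Nat.dvd_prime hq).1 a1).resolve_right fun c => hd (c ▸ a2))
  have a4 : Commute (x : H) y := by
    have := congrArg (fun f : MulAut P => (f x : H)) a3
    simp only [MulAut.conjNormal_apply, MulAut.one_apply] at this
    exact (mul_inv_eq_iff_eq_mul.1 this).symm
  refine ⟨x * y, ?_⟩
  rw [a4.orderOf_mul_eq_mul_orderOf_of_coprime, Subgroup.orderOf_coe, hx, hy]
  rw [Subgroup.orderOf_coe, hx, hy]
  exact (Nat.coprime_primes hp hq).2 hne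

theorem fratt {G : Type*} [Group G] [Finite G] {p q : ℕ} (hp : p.Prime) (hq : q.Prime) (hne : p ≠ q)
    (hd : ¬ q ∣ p - 1) (K : Subgroup G) [K.Normal] (h1 : p ∣ Nat.card K) (h4 : ¬ p ^ 2 ∣ Nat.card G)
    (h2 : q ∣ Nat.card G) (h3 : ¬ q ∣ Nat.card K) : ∃ x : G, orderOf x = p * q := by
  haveI := Fact.mk hp
  obtain ⟨P⟩ : Nonempty (Sylow p K) := inferInstance
  have cP : Nat.card P = p := by
    obtain ⟨k, hk⟩ := IsPGroup.iff_card.1 P.isPGroup'
    have d1 : p ^ k ∣ Nat.card K := hk ▸ Subgroup.card_subgroup_dvd_card _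
    have k1 : k < 2 := by
      by_contra c
      exact h4 ((pow_dvd_pow p (by omega)).trans (d1.trans K.card_subgroup_dvd_card))
    have k0 : k ≠ 0 := by
      rintro rfl
      have := (P : Subgroup K).card_mul_index
      rw [hk, pow_zero, one_mul] at this
      exact P.not_dvd_index (this ▸ h1)
    obtain rfl : k = 1 := by omega
    simpa using hk
  have fr := P.normalizer_sup_eq_top
  set R := (P : Subgroup K).map K.subtype with hR
  have cR : Nat.card R = p := by rw [hR, Subgroup.card_subtype, cP]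
  have d : q ∣ Nat.card (Subgroup.normalizer (R : Set G)) := by
    rw [← K.card_mul_index] at h2
    have := ((Nat.Prime.dvd_mul hq).1 h2).resolve_left h3
    rw [← Subgroup.relIndex_top_right, ← fr, Subgroup.relIndex_sup_right] at this
    exact this.trans (Subgroup.relIndex_dvd_card _ _)
  obtain ⟨x, hx⟩ := comm_elt hp hq hne hd (R.subgroupOf (Subgroup.normalizer (R : Set G)))
    (by rw [Nat.card_congr (Subgroup.subgroupOfEquivOfLe Subgroup.le_normalizer).toEquiv, cR]) d
  exact ⟨x, by rw [Subgroup.orderOf_coe, hx]⟩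

theorem mem_of {Y : Type*} [Group Y] [Finite Y] {p : ℕ} (hp : p.Prime) (N : Subgroup Y) [N.Normal]
    (h1 : p ∣ Nat.card N) (h2 : ¬ p ^ 2 ∣ Nat.card Y) {x : Y} (hx : orderOf x = p) : x ∈ N := by
  have a1 : orderOf (QuotientGroup.mk' N x) ∣ p := hx ▸ orderOf_map_dvd _ _
  have a2 : orderOf (QuotientGroup.mk' N x) ∣ N.index := orderOf_dvd_natCard _
  refine (QuotientGroup.eq_one_iff x).1 (orderOf_eq_one_iff.1 (((Nat.dvd_prime hp).1 a1).resolve_right fun c => h2 ?_))
  rw [← N.card_mul_index, sq]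
  exact mul_dvd_mul h1 (c ▸ a2)

theorem simple {X : Type*} [Group X] [Finite X] {p : ℕ} (hp : p.Prime) (h0 : pPrimeCore p X = ⊥) (h1 : p ∣ Nat.card X)
    (h2 : ¬ p ^ 2 ∣ Nat.card X) : ∃ M : Subgroup X, M.Normal ∧ IsSimpleGroup M ∧ p ∣ Nat.card M := by
  haveI := Fact.mk hp
  obtain ⟨x, hx⟩ := exists_prime_orderOf_dvd_card' p h1
  let M := Subgroup.normalClosure {x : X | orderOf x = p}
  have xm : x ∈ M := Subgroup.subset_normalClosure hx
  have pm : p ∣ Nat.card M := hx ▸ Subgroup.orderOf_dvd_natCard _ xm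
  haveI : Nontrivial M := Finite.one_lt_card_iff_nontrivial.1 (hp.one_lt.trans_le (Nat.le_of_dvd Nat.card_pos pm))
  refine ⟨M, inferInstance, ⟨fun K hK => ?_⟩, pm⟩
  by_cases d : p ∣ Nat.card K
  · right
    have : M ≤ K.map M.subtype := by
      refine (Subgroup.closure_le _).2 fun y hy => ?_
      obtain ⟨a, ha, c⟩ := Group.mem_conjugatesOfSet_iff.1 hy
      obtain ⟨w, rfl⟩ := isConj_iff.1 c
      have o : orderOf (w * a * w⁻¹) = p := ((MulAut.conj w).orderOf_eq a).trans ha
      exact ⟨⟨_, Subgroup.subset_normalClosure o⟩, mem_of hp K d (fun e => h2 (e.trans M.card_subgroup_dvd_card))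
        (by rw [← Subgroup.orderOf_coe]; exact o), rfl⟩
    refine top_le_iff.1 fun y _ => ?_
    obtain ⟨z, hz, e⟩ := this y.2
    exact (Subtype.ext e : z = y) ▸ hz
  · left
    have a := H1.le_pPrimeCore (p := p) (N := K) ((Nat.Prime.coprime_iff_not_dvd hp).2 d).symm
    have b := H1.map_subtype_pPrimeCore_le (p := p) M
    rw [h0, le_bot_iff, Subgroup.map_eq_bot_iff_of_injective _ M.subtype_injective] at b
    rwa [b, le_bot_iff] at a

/-- Let n ≥ 11 and let G be a finite group with the same order and the same set of element orders as the alternating group of degree n. Then G has normal subgroups N < H such that H/N is a non-abelian simple group whose order is divisible by every prime p with n/2 < p ≤ n. -/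
theorem result {G : Type*} [Group G] [Finite G] (n : ℕ) (hn : 11 ≤ n)
    (hcard : Nat.card G = Nat.card ↥(alternatingGroup (Fin n)))
    (hspec : Set.range (orderOf : G → ℕ) = Set.range (orderOf : ↥(alternatingGroup (Fin n)) → ℕ)) :
    ∃ (N H : Subgroup G) (_ : N.Normal), H.Normal ∧ N < H ∧
      IsSimpleGroup (↥H ⧸ N.subgroupOf H) ∧ ¬ IsMulCommutative (↥H ⧸ N.subgroupOf H) ∧
      ∀ p : ℕ, p.Prime → n < 2 * p → p ≤ n → p ∣ Nat.card (↥H ⧸ N.subgroupOf H) := by
  obtain ⟨p, q, hp, hq, h1, h2, h3⟩ := pq2 n hn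
  haveI : Nontrivial (Fin n) := Fin.nontrivial_iff_two_le.2 (by omega)
  have c2 : 2 * Nat.card G = n.factorial := by
    rw [hcard, two_mul_nat_card_alternatingGroup, Nat.card_perm]; simp
  have dv : ∀ r : ℕ, r.Prime → n < 2 * r → r ≤ n → r ∣ Nat.card G ∧ ¬ r ^ 2 ∣ Nat.card G := fun r hr a b => by
    have d : r ∣ 2 * Nat.card G := c2 ▸ (hr.dvd_factorial).2 b
    exact ⟨((Nat.Prime.dvd_mul hr).1 d).resolve_left fun e => by have := Nat.le_of_dvd two_pos e; omega,
      fun e => fac hr a hr.two_le (by omega) (c2 ▸ e.mul_left 2)⟩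
  have no : ∀ r s : ℕ, r.Prime → s.Prime → r ≠ s → n < 2 * r → r ≤ n → n < 2 * s → s ≤ n →
      ∀ K : Subgroup G, K.Normal → r ∣ Nat.card K → s ∣ Nat.card K := fun r s hr hs ne a b c d K hK e => by
    by_contra f
    have o1 := hr.eq_two_or_odd
    have o2 := hs.eq_two_or_odd
    obtain ⟨x, hx⟩ := fratt hr hs ne (by
      rintro ⟨k, hk⟩
      rcases k with _ | _ | k
      · omega
      · omega
      · have : s * (k + 1 + 1) = s * k + 2 * s := by ring
        omega) K e (dv r hr a b).2 (dv s hs c d).1 f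
    obtain ⟨σ, hσ⟩ : r * s ∈ Set.range (orderOf : ↥(alternatingGroup (Fin n)) → ℕ) := hspec ▸ ⟨x, hx⟩
    rcases lt_or_gt_of_ne ne with l | l
    · exact no_elt hs hr (by omega) l (by omega) σ.1 (by rw [Subgroup.orderOf_coe, hσ, mul_comm])
    · exact no_elt hr hs (by omega) l (by omega) σ.1 (by rw [Subgroup.orderOf_coe, hσ])
  haveI := Fact.mk hp
  have nN : ¬ p ∣ Nat.card (pPrimeCore p G) := H1.not_dvd_card_pPrimeCore
  have cq := Subgroup.card_eq_card_quotient_mul_card_subgroup (pPrimeCore p G)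
  obtain ⟨d1, d2⟩ := dv p hp (by omega) h2
  obtain ⟨M, hM, sM, pM⟩ := simple (X := G ⧸ pPrimeCore p G) hp H1.pPrimeCore_quotient_pPrimeCore
    (((Nat.Prime.dvd_mul hp).1 (cq ▸ d1)).resolve_right nN) (fun e => d2 (cq ▸ e.mul_right _))
  let f := (QuotientGroup.mk' (pPrimeCore p G)).subgroupComap M
  have hf : Function.Surjective f := MonoidHom.subgroupComap_surjective_of_surjective _ M (QuotientGroup.mk'_surjective _)
  have hk : (pPrimeCore p G).subgroupOf (M.comap (QuotientGroup.mk' (pPrimeCore p G))) = f.ker := by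
    ext x
    rw [Subgroup.mem_subgroupOf, MonoidHom.mem_ker, Subtype.ext_iff]
    exact (QuotientGroup.eq_one_iff _).symm
  let e := (QuotientGroup.quotientMulEquivOfEq hk).trans (QuotientGroup.quotientKerEquivOfSurjective f hf)
  have ce := Nat.card_congr e.toEquiv
  have le : pPrimeCore p G ≤ M.comap (QuotientGroup.mk' (pPrimeCore p G)) := QuotientGroup.le_comap_mk' _ _
  have cH := Subgroup.card_eq_card_quotient_mul_card_subgroup
    ((pPrimeCore p G).subgroupOf (M.comap (QuotientGroup.mk' (pPrimeCore p G))))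
  rw [Nat.card_congr (Subgroup.subgroupOfEquivOfLe le).toEquiv, ce] at cH
  have pH : p ∣ Nat.card (M.comap (QuotientGroup.mk' (pPrimeCore p G))) := cH ▸ pM.mul_right _
  have all : ∀ r : ℕ, r.Prime → n < 2 * r → r ≤ n → r ∣ Nat.card M := fun r hr a b => by
    by_cases ne : r = p
    · exact ne ▸ pM
    have := no p r hp hr (Ne.symm ne) (by omega) h2 a b _ (hM.comap _) pH
    rw [cH] at this
    exact ((Nat.Prime.dvd_mul hr).1 this).resolve_right fun c =>
      nN (no r p hr hp ne a b (by omega) h2 _ inferInstance c)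
  refine ⟨pPrimeCore p G, M.comap (QuotientGroup.mk' (pPrimeCore p G)), inferInstance, hM.comap _,
    lt_of_le_of_ne le fun c => nN (c ▸ pH), e.isSimpleGroup, fun c => ?_, fun r hr a b => ce ▸ all r hr a b⟩
  haveI := e.isSimpleGroup
  have pr : (Nat.card M).Prime := by
    rw [← ce]
    letI : CommGroup (M.comap (QuotientGroup.mk' (pPrimeCore p G)) ⧸
      (pPrimeCore p G).subgroupOf (M.comap (QuotientGroup.mk' (pPrimeCore p G)))) :=
      { mul_comm := c.is_comm.comm }
    exact IsSimpleGroup.prime_card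
  have e1 := (Nat.prime_dvd_prime_iff_eq hp pr).1 pM
  have e2 := (Nat.prime_dvd_prime_iff_eq hq pr).1 (all q hq h3 (by omega))
  omega


end Cfsg.Agent.S3420
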