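import Cfsg.Statements.S3430
import Cfsg.Agent.H5.Zsig

set_option autoImplicit false
open Cfsg

namespace Cfsg.Agent.S3430

open H5

set_option synthInstance.maxSize 2048 in
set_option maxRecDepth 100000 in
theorem chk : ∀ q < 6, ∀ n < 601, 2 ≤ q → 3 ≤ n → q ^ n - 1 ∣ n * (n + 1) * ∏ d ∈ n.properDivisors, (q ^ d - 1) →
    (q = 2 ∧ (n = 4 ∨ n = 6 ∨ n = 10 ∨ n = 12 ∨ n = 18)) ∨ (q = 3 ∧ (n = 4 ∨ n = 6)) ∨ (q = 5 ∧ n = 6) := by decide +kernel

/-- Let q, n ≥ 2 be integers. Unless (n = 2 and q + 1 = 2^s·3^t for some s ≥ 0 and t ≤ 1), or (q = 2 and n ∈ {4, 6, 10, 12, 18}), or (q = 3 and n ∈ {4, 6}), or (q, n) = (5, 6), there is a prime p dividing q^n − 1 but no q^i − 1 with 1 ≤ i < n (a primitive prime divisor), such that p > n + 1 or p² divides q^n − 1. -/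
theorem result (q n : ℕ) (hq : 2 ≤ q) (hn : 2 ≤ n)
    (h1 : ¬ (n = 2 ∧ ∃ s t : ℕ, t ≤ 1 ∧ q + 1 = 2 ^ s * 3 ^ t))
    (h2 : ¬ (q = 2 ∧ (n = 4 ∨ n = 6 ∨ n = 10 ∨ n = 12 ∨ n = 18)))
    (h3 : ¬ (q = 3 ∧ (n = 4 ∨ n = 6))) (h4 : ¬ (q = 5 ∧ n = 6)) :
    ∃ p : ℕ, p.Prime ∧ p ∣ q ^ n - 1 ∧ (∀ i : ℕ, 1 ≤ i → i < n → ¬ p ∣ q ^ i - 1) ∧ (n + 1 < p ∨ p ^ 2 ∣ q ^ n - 1) := by
  by_contra! H
  obtain ⟨r, hs, M⟩ := n.primeFactors.exists_max_image id (Nat.nonempty_primeFactors.2 hn)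
  have hr := Nat.prime_of_mem_primeFactors hs
  have d := Nat.dvd_of_mem_primeFactors hs
  have M' : ∀ t, t.Prime → t ∣ n → t ≤ r := fun t ht e => M t (Nat.mem_primeFactors.2 ⟨ht, e, by omega⟩)
  have P : ∀ p, p.Prime → p ∣ cyc n q → p = r ∨ (p = n + 1 ∧ ¬ p ^ 2 ∣ cyc n q) := fun p hp e => by
    rcases cyc_cases hq (by omega) hp e with c | c
    · obtain ⟨k1, k2⟩ := H p hp (prim_of_order hq c).1 (prim_of_order hq c).2
      obtain ⟨-, -, k3⟩ := cyc_prime hq (by omega) hp e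
      have := Nat.le_of_dvd (by have := hp.two_le; omega) k3
      exact .inr ⟨by omega, fun e => k2 (e.trans (cyc_dvd hq n))⟩
    · exact .inl (le_antisymm (M' p hp c.1) (c.2 r hr d))
  rcases hn.eq_or_lt with rfl | h5
  · obtain rfl := (Nat.prime_dvd_prime_iff_eq hr Nat.prime_two).1 d
    have e : cyc 2 q = q + 1 := by rw [cyc]; simp; rfl
    rw [e] at P
    obtain ⟨s, m, k1, k2⟩ := Nat.exists_eq_pow_mul_and_not_dvd (n := q + 1) (by omega) 2 (by omega)
    have : ∀ p, p.Prime → p ∣ m → p = 3 ∧ ¬ p ^ 2 ∣ q + 1 := fun p hp e =>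
      (P p hp (k2 ▸ e.mul_left _)).resolve_left (by rintro rfl; exact k1 e)
    obtain ⟨t, rfl⟩ : ∃ t, m = 3 ^ t := ⟨_, Nat.eq_prime_pow_of_unique_prime_dvd (by rintro rfl; simp at k1) fun hp e => (this _ hp e).1⟩
    refine h1 ⟨rfl, s, t, ?_, k2⟩
    by_contra! c
    exact (this 3 Nat.prime_three (dvd_pow_self 3 (by omega))).2 (k2 ▸ (pow_dvd_pow 3 c).mul_left _)
  have D : cyc n q ∣ r * (n + 1) := by
    rw [← Nat.prod_primeFactors_of_squarefree (n := cyc n q) (Nat.squarefree_iff_prime_squarefree.2 fun p hp e => by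
      rw [← sq] at e
      rcases P p hp ((dvd_pow_self p two_ne_zero).trans e) with rfl | c
      · exact cyc_not_sq hq h5 hp d e
      · exact c.2 e)]
    refine Finset.prod_primes_dvd _ (fun p hp => (Nat.prime_of_mem_primeFactors hp).prime) fun p hp => ?_
    rcases P p (Nat.prime_of_mem_primeFactors hp) (Nat.dvd_of_mem_primeFactors hp) with rfl | ⟨rfl, -⟩ <;> simp
  have t1 : r - 1 ≤ n.totient := Nat.totient_prime hr ▸ Nat.le_of_dvd (Nat.totient_pos.2 (by omega)) (Nat.totient_dvd_of_dvd d)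
  have t2 := le_mul_totient (by omega) hr.pos M'
  have t3 : 2 ≤ n.totient := Nat.le_of_dvd (Nat.totient_pos.2 (by omega)) (Nat.totient_even h5).two_dvd
  have t4 : n ≤ (n.totient + 1) * n.totient := t2.trans (Nat.mul_le_mul_right _ (by omega))
  have U : cyc n q ≤ (n.totient + 1) * ((n.totient + 1) * n.totient + 1) :=
    (Nat.le_of_dvd (by have := hr.pos; positivity) D).trans (Nat.mul_le_mul (by omega) (by omega))
  have L : 3 ^ n.totient ≤ cyc n q * 2 ^ n.totient := by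
    rcases hq.eq_or_lt with rfl | h6
    · obtain ⟨k, rfl⟩ := d
      have q1 : 1 < 2 ^ r := Nat.one_lt_two_pow hr.ne_zero
      have E : ∀ r, 3 ≤ r → 3 ^ r ≤ (2 ^ r - 1) * 2 ^ (r - 1) := fun r hr => by
        induction r, hr using Nat.le_induction with
        | base => norm_num
        | succ r h ih =>
          obtain ⟨r, rfl⟩ := Nat.exists_eq_add_of_le' (by omega : 1 ≤ r)
          simp only [pow_succ, Nat.add_sub_cancel] at ih ⊢
          have : (2 ^ r * 2 - 1) * 2 ≤ 2 ^ r * 2 * 2 - 1 := by omega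
          calc _ ≤ (2 ^ r * 2 - 1) * 2 ^ r * 3 := by omega
            _ ≤ (2 ^ r * 2 - 1) * 2 * (2 ^ r * 2) := by nlinarith [Nat.zero_le ((2 ^ r * 2 - 1) * 2 ^ r)]
            _ ≤ _ := Nat.mul_le_mul_right _ this
      by_cases c : r ∣ k
      · rw [Nat.totient_mul_of_prime_of_dvd hr c, mul_comm r k, cyc_mul_of_dvd hr c, pow_mul, pow_mul]
        refine le_trans ?_ (Nat.mul_le_mul_right _ (cyc_ge q1 k))
        rw [← mul_pow]
        refine Nat.pow_le_pow_left ?_ _
        rcases hr.two_le.eq_or_lt with rfl | c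
        · norm_num
        · exact (E r c).trans (Nat.mul_le_mul_left _ (Nat.pow_le_pow_right two_pos (by omega)))
      · have r3 : 3 ≤ r := hr.two_le.lt_of_ne (by
          rintro rfl
          obtain ⟨s, hs, e⟩ := Nat.exists_prime_and_dvd (n := k) (by omega)
          exact c (le_antisymm (M' s hs (e.mul_left _)) hs.two_le ▸ e))
        rw [Nat.totient_mul_of_prime_of_not_dvd hr c, mul_comm r k, pow_mul, pow_mul]
        refine Nat.le_of_mul_le_mul_right ?_ (Nat.pow_pos (n := k.totient) three_pos)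
        calc _ = (3 ^ r) ^ k.totient := by rw [← mul_pow, ← pow_succ, Nat.sub_add_cancel hr.pos]
          _ ≤ ((2 ^ r - 1) * 2 ^ (r - 1)) ^ k.totient := Nat.pow_le_pow_left (E r r3) _
          _ ≤ cyc (k * r) 2 * 3 ^ k.totient * (2 ^ (r - 1)) ^ k.totient := by
            rw [mul_pow]
            exact Nat.mul_le_mul_right _ ((cyc_ge q1 k).trans (cyc_mul_of_not_dvd hr c ▸ Nat.mul_le_mul_left _ (cyc_le hq k)))
          _ = _ := by ring
    · refine le_trans ?_ (Nat.mul_le_mul_right _ (cyc_ge hq n))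
      rw [← mul_pow]; exact Nat.pow_le_pow_left (by omega) _
  have f : n.totient < 25 := by
    by_contra! c
    have : ∀ f, 25 ≤ f → (f + 1) * ((f + 1) * f + 1) * 2 ^ f < 3 ^ f := fun f hf => by
      induction f, hf using Nat.le_induction with
      | base => norm_num
      | succ f h ih =>
        rw [pow_succ, pow_succ]
        have : (f + 1 + 1) * ((f + 1 + 1) * (f + 1) + 1) * 2 ≤ (f + 1) * ((f + 1) * f + 1) * 3 := by nlinarith [Nat.mul_le_mul h h]
        nlinarith [Nat.mul_le_mul_right (2 ^ f) this]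
    exact (this _ c).not_ge (L.trans (Nat.mul_le_mul_right _ U))
  have q6 : q < 6 := by
    by_contra! c
    have := (Nat.pow_le_pow_left (by omega : 5 ≤ q - 1) _).trans ((cyc_ge hq n).trans U)
    generalize n.totient = g at this f t3
    interval_cases g <;> omega
  have := chk q q6 n (by nlinarith) hq h5 ((pow_sub_one_dvd hq (by omega)).trans
    (mul_dvd_mul_right (D.trans (mul_dvd_mul_right d _)) _))
  tauto


end Cfsg.Agent.S3430
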