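import Cfsg.Statements.S3733
import Cfsg.Agent.H1.Generation
import Mathlib

set_option autoImplicit false
open Cfsg

namespace Cfsg.Agent.S3733

open Subgroup
open scoped IsMulCommutative

/-- Let A and V be subgroups of a finite group with V abelian and nontrivial and A normalizing V. Suppose a nonempty finite family of proper subgroups of A partitions A: every non-identity element of A lies in exactly one member. If the number of members minus one is coprime to the order of V, then some member B of the family has a non-identity fixed point on V, that is V ∩ C(B) ≠ 1. -/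
theorem result {G : Type*} [Group G] [Finite G] (A V : Subgroup G) (hVab : IsMulCommutative V) (hV : V ≠ ⊥) (hAV : A ≤ Subgroup.normalizer (V : Set G)) (𝒜 : Finset (Subgroup G)) (hne : 𝒜.Nonempty) (hprop : ∀ B ∈ 𝒜, B < A) (hpart : ∀ a ∈ A, a ≠ 1 → ∃! B, B ∈ 𝒜 ∧ a ∈ B) (hk : (𝒜.card - 1).Coprime (Nat.card V)) : ∃ B ∈ 𝒜, V ⊓ Subgroup.centralizer (B : Set G) ≠ ⊥ := by
  classical
  by_contra! H
  haveI := Fintype.ofFinite G
  apply hV
  rw [eq_bot_iff]
  intro v hv
  let ρ := V.normalizerMonoidHom
  let f : G → V := fun a => if h : a ∈ A then ρ ⟨a, hAV h⟩ ⟨v, hv⟩ else 1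
  have key : ∀ B ≤ A, ((∏ a ∈ Finset.univ.filter (· ∈ B), f a : V) : G) ∈
      V ⊓ centralizer (B : Set G) := by
    intro B hB
    refine ⟨Subtype.property _, ?_⟩
    intro b hb
    have : ρ ⟨b, hAV (hB hb)⟩ (∏ a ∈ Finset.univ.filter (· ∈ B), f a) =
        ∏ a ∈ Finset.univ.filter (· ∈ B), f a := by
      rw [map_prod]
      refine Finset.prod_bij (fun a _ => b * a) (fun a ha => by
        simpa using B.mul_mem hb (by simpa using ha)) (fun a _ a' _ h => mul_left_cancel h)
        (fun a ha => ⟨b⁻¹ * a, by simpa using B.mul_mem (B.inv_mem hb) (by simpa using ha),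
          by simp⟩) (fun a ha => ?_)
      have ha' : a ∈ B := by simpa using ha
      simp only [f, dif_pos (hB ha'), dif_pos (hB (B.mul_mem hb ha'))]
      rw [← MulAut.mul_apply, ← map_mul]; rfl
    have h2 := congrArg Subtype.val this
    change b * _ * b⁻¹ = _ at h2
    rw [mul_inv_eq_iff_eq_mul] at h2
    exact h2
  obtain ⟨B0, hB0⟩ := hne
  have h1 : ∀ B ∈ 𝒜, ∏ a ∈ Finset.univ.filter (· ∈ B), f a = 1 := fun B hB => by
    have := key B (hprop B hB).le
    rw [H B hB, mem_bot] at this
    exact Subtype.ext this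
  have h2 : ∏ a ∈ Finset.univ.filter (· ∈ A), f a = 1 := by
    have := key A le_rfl
    have h3 : _ ∈ V ⊓ centralizer (B0 : Set G) :=
      ⟨this.1, centralizer_le (hprop B0 hB0).le this.2⟩
    rw [H B0 hB0, mem_bot] at h3
    exact Subtype.ext h3
  have h3 : ∏ B ∈ 𝒜, ∏ a ∈ Finset.univ.filter (· ∈ B), f a =
      f 1 ^ (𝒜.card - 1) * ∏ a ∈ Finset.univ.filter (· ∈ A), f a := by
    simp only [Finset.prod_filter]
    rw [Finset.prod_comm, ← Finset.mul_prod_erase _ _ (Finset.mem_univ (1 : G)),
      ← Finset.mul_prod_erase _ _ (Finset.mem_univ (1 : G)), ← mul_assoc]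
    congr 1
    · simp only [one_mem, if_true, Finset.prod_const]
      rw [← pow_succ, Nat.sub_add_cancel (Finset.card_pos.2 ⟨B0, hB0⟩)]
    · refine Finset.prod_congr rfl fun a ha => ?_
      split_ifs with h
      · obtain ⟨B, ⟨hB, haB⟩, hu⟩ := hpart a h (Finset.ne_of_mem_erase ha)
        rw [Finset.prod_eq_single_of_mem B hB (fun C hC hne => if_neg fun h => hne (hu C ⟨hC, h⟩)),
          if_pos haB]
      · exact Finset.prod_eq_one fun B hB => if_neg fun h' => h ((hprop B hB).le h')
  rw [Finset.prod_eq_one h1, h2, mul_one] at h3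
  have h4 : f 1 = ⟨v, hv⟩ := by
    simp only [f, dif_pos A.one_mem]
    rw [show (⟨1, _⟩ : normalizer (V : Set G)) = 1 from rfl, map_one]; rfl
  rw [h4] at h3
  have := (pow_eq_one_iff_of_coprime hk).1 ⟨h3.symm, pow_card_eq_one'⟩
  exact congrArg Subtype.val this

end Cfsg.Agent.S3733
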