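import Cfsg.Statements.S3734
import Cfsg.Agent.H1.Generation
import Cfsg.Agent.H9.Basic
import Mathlib

set_option autoImplicit false
open Cfsg

namespace Cfsg.Agent.S3734

open Subgroup

/-- Let A and G be subgroups of a finite group with A abelian, A normalizing G and the orders of A and G coprime. Then G is generated by the fixed-point subgroups C_G(B) of those subgroups B of A for which A/B is cyclic (that is, A = ⟨B, a⟩ for some a), and [G, A] is generated by the commutator subgroups [C_G(B), A] over the same subgroups B. -/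
theorem result {X : Type*} [Group X] [Finite X] (A G : Subgroup X) (hAab : IsMulCommutative A) (hAG : A ≤ Subgroup.normalizer (G : Set X)) (hcop : (Nat.card A).Coprime (Nat.card G)) : (⨆ B ∈ {B : Subgroup X | B ≤ A ∧ ∃ a ∈ A, B ⊔ Subgroup.zpowers a = A}, G ⊓ Subgroup.centralizer (B : Set X)) = G ∧ (⨆ B ∈ {B : Subgroup X | B ≤ A ∧ ∃ a ∈ A, B ⊔ Subgroup.zpowers a = A}, ⁅G ⊓ Subgroup.centralizer (B : Set X), A⁆) = ⁅G, A⁆ := by
  have h1 : ∀ H : Subgroup X, (∀ B ∈ {B : Subgroup X | B ≤ A ∧ ∃ a ∈ A, B ⊔ Subgroup.zpowers a = A},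
      G ⊓ centralizer (B : Set X) ≤ H) → G ≤ H := fun H h =>
    H1.le_of_centralizer_cocyclic_le hAab hAG hcop fun B hB ⟨a, ha, h2⟩ =>
      h B ⟨hB, a, ha, le_antisymm (sup_le hB (by simpa using ha)) h2⟩
  refine ⟨le_antisymm (iSup₂_le fun _ _ => inf_le_left) (h1 _ fun B hB => le_iSup₂_of_le B hB le_rfl),
    le_antisymm (iSup₂_le fun _ _ => commutator_mono inf_le_left le_rfl) ?_⟩
  set D := ⨆ B ∈ {B : Subgroup X | B ≤ A ∧ ∃ a ∈ A, B ⊔ Subgroup.zpowers a = A},
    ⁅G ⊓ Subgroup.centralizer (B : Set X), A⁆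
  have hAB : ∀ B ≤ A, A ≤ normalizer ((G ⊓ centralizer (B : Set X) : Subgroup X) : Set X) :=
    fun B hB => H1.le_normalizer_inf hAG (H1.le_normalizer_centralizer
      (H1.le_normalizer_of_le_centralizer fun a ha b hb => H1.comm_of_mem hAab (hB hb) ha))
  have hAD : A ≤ normalizer (D : Set X) := H9.normalizer_iSup fun B => H9.normalizer_iSup fun hB =>
    H1.le_normalizer_commutator (hAB B hB.1) le_normalizer
  have hCD : G ⊓ centralizer (A : Set X) ≤ normalizer (D : Set X) :=
    H9.normalizer_iSup fun B => H9.normalizer_iSup fun hB =>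
    H1.le_normalizer_commutator
      (H1.le_normalizer_of_le (inf_le_inf_left _ (centralizer_le hB.1)))
      (inf_le_right.trans (H9.centralizer_le_normalizer' A))
  have h2 : G ≤ D ⊔ (G ⊓ centralizer (A : Set X)) := h1 _ fun B hB => by
    rw [← H1.commutator_sup_centralizer (hAB B hB.1) (H1.coprime_of_le_right hcop inf_le_left)
      (Or.inl (H1.isSolvable_of_isMulCommutative hAab))]
    exact sup_le_sup (le_iSup₂_of_le B hB le_rfl) (inf_le_inf_right _ inf_le_left)
  have hDG : D ≤ G := iSup₂_le fun B hB =>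
    (H1.commutator_le_of_le_normalizer (hAB B hB.1)).trans inf_le_left
  rw [H1.commutator_eq_of_forall_mul_fixed hDG (fun k hk => by
    obtain ⟨d, hd, c, hc, e⟩ := (H1.mem_sup_of_le_normalizer_left hCD).1 (h2 hk)
    exact ⟨d, hd, c, hc.2, e.symm⟩)]
  exact H1.commutator_le_of_le_normalizer hAD

end Cfsg.Agent.S3734
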