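import Cfsg.Statements.S3735
import Cfsg.Agent.H1.Generation
import Cfsg.Agent.H9.Basic
import Mathlib

set_option autoImplicit false
open Cfsg

namespace Cfsg.Agent.S3735

open Subgroup

/-- Clifford's Theorem for actions on finite abelian groups, first part. Let H and V be subgroups of a finite group with V abelian and H normalizing V, and let A be a normal subgroup of H. If every H-invariant subgroup of V has an H-invariant complement in V, then every A-invariant subgroup of V has an A-invariant complement in V. -/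
theorem result {G : Type*} [Group G] [Finite G] (H A V : Subgroup G) (hVab : IsMulCommutative V) (hHV : H ≤ Subgroup.normalizer (V : Set G)) (hAH : A ≤ H) (hAn : H ≤ Subgroup.normalizer (A : Set G)) (hss : ∀ U : Subgroup G, U ≤ V → H ≤ Subgroup.normalizer (U : Set G) → ∃ W : Subgroup G, W ≤ V ∧ H ≤ Subgroup.normalizer (W : Set G) ∧ U ⊓ W = ⊥ ∧ U ⊔ W = V) (U : Subgroup G) (hUV : U ≤ V) (hAU : A ≤ Subgroup.normalizer (U : Set G)) : ∃ W : Subgroup G, W ≤ V ∧ A ≤ Subgroup.normalizer (W : Set G) ∧ U ⊓ W = ⊥ ∧ U ⊔ W = V := by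
  let M : Set (Subgroup G) := {M | A ≤ normalizer (M : Set G) ∧ M ≠ ⊥ ∧ M ≤ V ∧
    ∀ K : Subgroup G, A ≤ normalizer (K : Set G) → K ≤ M → K = ⊥ ∨ K = M}
  have hinv : ∀ g ∈ H, ∀ K : Subgroup G, A ≤ normalizer (K : Set G) →
      A ≤ normalizer (H9.cj g K : Set G) := fun g hg K hK => by
    rw [← H9.cj_normalizer, ← H9.mem_normalizer_iff_cj.1 (hAn hg)]
    exact H9.cj_mono g hK
  have hS : H ≤ normalizer ((sSup M : Subgroup G) : Set G) := H9.normalizer_sSup_of_cj
    fun g hg K hK => ⟨hinv g hg K hK.1, by simpa [H9.cj_eq_bot_iff] using hK.2.1, by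
      rw [← H9.mem_normalizer_iff_cj.1 (hHV hg)]; exact H9.cj_mono g hK.2.2.1, fun L hL hLK => by
        rcases hK.2.2.2 (H9.cj g⁻¹ L) (hinv _ (inv_mem hg) L hL) (H9.le_cj_iff.1 hLK) with h | h
        · exact Or.inl (H9.cj_eq_bot_iff.1 h)
        · right; rw [← h]; simp⟩
  obtain ⟨W, hWV, hW, h1, h2⟩ := hss _ (sSup_le fun K hK => hK.2.2.1) hS
  have hW0 : W = ⊥ := by
    by_contra h
    obtain ⟨K, a, b, c, d⟩ := H1.exists_minimal_invariant A W (hAH.trans hW) h
    apply b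
    rw [eq_bot_iff, ← h1]
    exact le_inf (le_sSup ⟨a, b, c.trans hWV, d⟩) c
  rw [hW0, sup_bot_eq] at h2
  obtain ⟨T, ⟨t1, t2, t3⟩, hT⟩ := exists_maximal_of_wellFoundedGT (fun T : Subgroup G =>
    T ≤ V ∧ A ≤ normalizer (T : Set G) ∧ U ⊓ T = ⊥) ⟨⊥, bot_le, le_normalizer_of_normal, by simp⟩
  have hn : ∀ X Y : Subgroup G, X ≤ V → Y ≤ V → X ≤ normalizer (Y : Set G) := fun X Y hX hY =>
    H1.le_normalizer_of_le_centralizer fun a ha b hb => H1.comm_of_mem hVab (hY hb) (hX ha)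
  refine ⟨T, t1, t2, t3, le_antisymm (sup_le hUV t1) ?_⟩
  rw [← h2]
  refine sSup_le fun K hK => ?_
  rcases hK.2.2.2 (K ⊓ (U ⊔ T)) (H1.le_normalizer_inf hK.1 (H1.le_normalizer_sup hAU t2))
    inf_le_left with h | h
  · have : T ⊔ K ≤ T := hT ⟨sup_le t1 hK.2.2.1, H1.le_normalizer_sup t2 hK.1, by
      rw [eq_bot_iff, ← t3]
      rintro u ⟨hu, hu'⟩
      obtain ⟨t, ht, k, hk, rfl⟩ := (H1.mem_sup_of_le_normalizer_right (hn _ _ t1 hK.2.2.1)).1 hu'
      have : k ∈ K ⊓ (U ⊔ T) := ⟨hk, by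
        have := mul_mem (mem_sup_right (S := U) (inv_mem ht)) (mem_sup_left (T := T) hu)
        simpa using this⟩
      rw [h, mem_bot] at this
      subst this
      exact ⟨hu, by simpa using ht⟩⟩ le_sup_left
    exact (le_sup_right.trans this).trans le_sup_right
  · rw [← h]; exact inf_le_right

end Cfsg.Agent.S3735
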