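import Cfsg.Statements.S3736
import Cfsg.Agent.L.PG2
import Mathlib

set_option autoImplicit false
open Cfsg

namespace Cfsg.Agent.S3736

open Subgroup

/-- The Hall–Higman reduction for a minimal non-trivial action. Let B, A and P be subgroups of a finite group with P a p-group, B normalizing P, and A a normal subgroup of B of order prime to p. Suppose A does not centralize P but centralizes every proper B-invariant subgroup of P. Then [P, A] = P; P is elementary abelian or special; B acts irreducibly on P/Φ(P), that is, the only B-invariant subgroups of P containing Φ(P) are Φ(P) and P; and if p is odd then every element of P has order dividing p. -/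
theorem result {X : Type*} [Group X] [Finite X] {p : ℕ} [Fact p.Prime] (B A P : Subgroup X) (hP : IsPGroup p P) (hBP : B ≤ Subgroup.normalizer (P : Set X)) (hAB : A ≤ B) (hAn : B ≤ Subgroup.normalizer (A : Set X)) (hAp : (Nat.card A).Coprime p) (hnt : ⁅P, A⁆ ≠ ⊥) (hmin : ∀ U : Subgroup X, U < P → B ≤ Subgroup.normalizer (U : Set X) → ⁅U, A⁆ = ⊥) : ⁅P, A⁆ = P ∧ (Cfsg.IsElementaryAbelian p P ∨ Cfsg.IsSpecial p ↥P) ∧ (∀ U : Subgroup X, (frattini ↥P).map P.subtype ≤ U → U ≤ P → B ≤ Subgroup.normalizer (U : Set X) → U = (frattini ↥P).map P.subtype ∨ U = P) ∧ (p ≠ 2 → ∀ x ∈ P, x ^ p = 1) := by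
  have hp : p.Prime := Fact.out
  have hA := hAB.trans hBP
  have hc := H9.copA_of_p' hP hAp
  have hm : ∀ U : Subgroup X, U ≤ P → B ≤ normalizer (U : Set X) →
      U = P ∨ U ≤ centralizer (A : Set X) := fun U h1 h2 => by
    rcases h1.lt_or_eq with h | h
    · exact Or.inr (commutator_eq_bot_iff_le_centralizer.1 (hmin U h h2))
    · exact Or.inl h
  have hn : ¬ P ≤ centralizer (A : Set X) := fun h => hnt (commutator_eq_bot_iff_le_centralizer.2 h)
  have h1 : ⁅P, A⁆ = P := (hm _ (H9.commutator_le_left' hA) (H9.normalizer_commutator hBP hAn)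
    ).resolve_right fun h => hn (H9.cop_le_centralizer hA hc le_rfl h)
  have h2 : P ⊓ centralizer (A : Set X) ≤ ⁅P, P⁆ :=
    (le_inf le_rfl (inf_le_left.trans h1.ge)).trans (L.centralizer_inf_commutator_le hA hc.1)
  have h3 : L.Phi P ≤ centralizer (P : Set X) := L.Phi_le_centralizer_of_char hP fun U h4 h5 h6 => by
    rcases hm U h4 (hBP.trans h5) with rfl | h
    · exact L.le_centralizer_of_comm h6
    · exact le_centralizer_iff.1 (L.le_centralizer_of_three h1 h (le_normalizer.trans h5))
  have h4 := hm _ (L.omegaOne_le p P) (L.normalizer_omegaOne hBP)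
  refine ⟨h1, ?_, fun U h5 h6 h7 => ?_, fun hp2 x hx => ?_⟩
  · rcases hm _ inf_le_left (H9.normalizer_inf hBP (H9.normalizer_centralizer hBP)) with h | h
    · left
      have h5 := L.comm_of_le_centralizer (h.ge.trans inf_le_right)
      rcases h4 with h4 | h4
      · exact h4 ▸ L.isElem_omegaOne_of_comm h5
      · refine absurd (le_centralizer_iff.1 (H1.le_centralizer_of_prime_order h5 hA hc.1
          fun v hv ho => h4 (L.mem_omegaOne hv ?_))) hn
        obtain ⟨k, hk⟩ := IsPGroup.iff_orderOf.1 hP ⟨v, hv⟩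
        rw [Subgroup.orderOf_mk] at hk
        rw [(Nat.prime_dvd_prime_iff_eq ho hp).1 (ho.dvd_of_dvd_pow hk.dvd) |>.symm,
          pow_orderOf_eq_one]
    · right
      have h5 := (le_inf inf_le_left h).trans h2
      have h6 := le_inf (L.Phi_le P) h3
      exact L.isSpecial_iff.2 ⟨hP, le_antisymm h6 (h5.trans (L.commutator_le_Phi hP)),
        le_antisymm ((L.commutator_le_Phi hP).trans h6) h5⟩
  · exact (hm U h6 h7).symm.imp_left fun h =>
      le_antisymm ((le_inf h6 h).trans (h2.trans (L.commutator_le_Phi hP))) h5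
  · rcases h4 with h4 | h4
    · exact L.omegaOne_exp_class2 (hp.odd_of_ne_two hp2) (L.class2_of_Phi hP h3) (h4.ge hx)
    · exact absurd (L.le_centralizer_of_omega_odd hp2 hAp hP hA h4) hn

end Cfsg.Agent.S3736
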