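import Cfsg.Statements.S3739
import Cfsg.Agent.H1.R2
import Cfsg.Agent.H1.Generation

set_option autoImplicit false
open Cfsg

namespace Cfsg.Agent.S3739

open H1
open Subgroup

/-- Let G be a finite group with C_G(O₂(G)) ≤ O₂(G) containing an element of order 6, and let d be a non-identity 3-element of G normalizing a nontrivial elementary abelian 2-subgroup W with C_W(d) = 1. Then G has an elementary abelian subgroup of order 8. -/
theorem result {G : Type*} [Group G] [Finite G] (hchar : Subgroup.centralizer (Cfsg.pCore 2 G : Set G) ≤ Cfsg.pCore 2 G) (hsix : ∃ g : G, orderOf g = 6) (d : G) (hd1 : d ≠ 1) (hd : IsPGroup 3 ↥(Subgroup.zpowers d)) (W : Subgroup G) (hW : Cfsg.IsElementaryAbelian 2 W) (hW1 : W ≠ ⊥) (hdW : d ∈ Subgroup.normalizer (W : Set G)) (hfpf : W ⊓ Subgroup.centralizer {d} = ⊥) : ∃ E : Subgroup G, Cfsg.IsElementaryAbelian 2 E ∧ Nat.card E = 8 := by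
  haveI : Fact (Nat.Prime 2) := ⟨Nat.prime_two⟩
  haveI : Fact (Nat.Prime 3) := ⟨Nat.prime_three⟩
  by_contra! H
  have p2 : ∀ V : Subgroup G, IsElementaryAbelian 2 V → IsPGroup 2 V := fun V h x =>
    ⟨1, Subtype.ext (by simpa using h.2 x x.2)⟩
  have hr : ∀ V ≤ (⊤ : Subgroup G), IsElementaryAbelian 2 V → Nat.card V ≤ 4 := fun V _ h => by
    by_contra! h4
    obtain ⟨k, hk⟩ := L.exists_card_eq_pow (p2 V h)
    obtain ⟨E, e1, e2⟩ := L.exists_le_card (p2 V h) 3 (by
      rw [hk] at h4 ⊢
      exact Nat.pow_le_pow_right (by norm_num) ((Nat.pow_lt_pow_iff_right (by norm_num : 1 < 2)).1 h4))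
    exact H E ⟨isMulCommutative_of_le e1 h.1, fun a ha => h.2 a (e1 ha)⟩ e2
  set Q := pCore 2 G
  have hQ : IsPGroup 2 Q := pCore_isPGroup
  have w4 := card_four (p2 W hW) hW1 (hr W le_top hW) hd hdW hfpf
  have mW : ∀ x ∈ centralizer (W : Set G), x ^ 2 = 1 → x ∈ W := fun x h1 h2 =>
    mem_of_rank_two hr hW le_top w4 trivial h1 h2
  -- any nontrivial `d`-invariant elementary abelian subgroup centralizing `W` is `W`
  have key : ∀ P : Subgroup G, IsPGroup 2 P → W ≤ P → d ∈ normalizer (P : Set G) →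
      W = omegaOne 2 (P ⊓ centralizer (P : Set G)) := fun P hP h1 h2 => by
    have z1 := L.isElem_omegaOne_of_comm (n := 2) (L.isMulCommutative_inf_centralizer P)
    have z2 := L.omegaOne_le 2 (P ⊓ centralizer (P : Set G))
    have z3 : omegaOne 2 (P ⊓ centralizer (P : Set G)) ≤ W := fun x hx =>
      mW x (H9.centralizer_anti h1 (z2 hx).2) (z1.2 x hx)
    have hn := zpowers_le_of_mem h2
    refine (eq_of_le_of_card_ge z3 (w4.trans (card_four (p2 _ z1) (L.omegaOne_ne_bot
      (((hP.to_le inf_le_left).card_eq_or_dvd).resolve_left fun e => nilpotent_inf_centralizer_ne_bot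
        hP.isNilpotent le_rfl le_normalizer (fun e => hW1 (eq_bot_iff.2 (h1.trans e.le)))
        (card_eq_one.1 e))) (hr _ le_top z1) hd
      (L.normalizer_omegaOne (le_normalizer_inf hn (le_normalizer_centralizer hn)) (mem_zpowers d))
      (eq_bot_iff.2 ((inf_le_inf_right _ z3).trans hfpf.le))).symm).le).symm
  have h1 : W ≤ centralizer (Q : Set G) := by
    rw [key (W ⊔ Q) ((p2 W hW).to_sup_of_normal_right hQ) le_sup_left (le_normalizer_sup
      (zpowers_le_of_mem hdW) le_normalizer_of_normal (mem_zpowers d))]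
    exact (L.omegaOne_le _ _).trans (inf_le_right.trans (H9.centralizer_anti le_sup_right))
  haveI : W.Normal := by
    rw [key Q hQ (h1.trans hchar) (le_normalizer_of_normal (K := ⊤) trivial)]; infer_instance
  have fq : ∀ y : G, IsPGroup 3 (zpowers y) → y ∉ centralizer (W : Set G) →
      W ⊓ centralizer {y} = ⊥ := by
    intro y hy hc
    have h2 := card_modEq_card_inf_centralizer hy (L := W) le_normalizer_of_normal
    rw [centralizer_zpowers, w4] at h2
    have h3 := card_dvd_of_le (inf_le_left : W ⊓ centralizer {y} ≤ W)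
    rw [w4] at h3
    have h4 : Nat.card ↥(W ⊓ centralizer {y}) ≠ 4 := fun e => hc fun w hw =>
      mem_centralizer_singleton_iff.1 ((eq_of_le_of_card_ge inf_le_left (w4.trans e.symm).le).ge hw).2
    have h5 := Nat.le_of_dvd (by norm_num) h3
    exact card_eq_one.1 (by unfold Nat.ModEq at h2; omega)
  have fQ : ∀ y : G, IsPGroup 3 (zpowers y) → y ∉ centralizer (W : Set G) →
      Q ⊓ centralizer {y} = ⊥ := fun y hy hc => by
    by_contra h
    obtain ⟨t, ht⟩ := exists_prime_orderOf_dvd_card' (G := ↥(Q ⊓ centralizer {y})) 2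
      (((hQ.to_le inf_le_left).card_eq_or_dvd).resolve_left fun e => h (card_eq_one.1 e))
    have : (t : G) = 1 := by
      rw [← mem_bot, ← fq y hy hc]
      exact ⟨mW t (le_centralizer_iff.1 h1 t.2.1)
        (by rw [← ht]; exact congrArg Subtype.val (pow_orderOf_eq_one t)), t.2.2⟩
    rw [show t = 1 from Subtype.ext this, orderOf_one] at ht; omega
  have dW : d ∉ centralizer (W : Set G) := fun h => hW1 (by
    rw [← hfpf, eq_comm, inf_eq_left]; exact fun w hw => mem_centralizer_singleton_iff.2 (h w hw))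
  have n3 : ∀ y ∈ centralizer (Q : Set G), IsPGroup 3 (zpowers y) → y = 1 := fun y h1 h2 => by
    have := IsPGroup.disjoint_of_ne 2 3 (by norm_num) _ _ hQ h2
    exact disjoint_def.1 this (hchar h1) (mem_zpowers y)
  have d3 : d ^ 3 = 1 := n3 _ (cube_cent hd Q hQ (le_normalizer_of_normal (K := ⊤) trivial)
    (fQ d hd dW) fun V _ => hr V le_top) (hd.to_le (zpowers_le_of_mem (pow_mem (mem_zpowers d) 3)))
  obtain ⟨g, hg⟩ := hsix
  have g3 : orderOf (g ^ 2) = 3 := by rw [orderOf_pow, hg]; rfl
  have gp : IsPGroup 3 (zpowers (g ^ 2)) := IsPGroup.of_card (n := 1) (by rw [Nat.card_zpowers, g3]; rfl)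
  have h3 : g ^ 2 ∈ centralizer (W : Set G) := by
    by_contra h
    have e1 : g ^ 3 ∈ centralizer {g ^ 2} := mem_centralizer_singleton_iff.2 (Commute.pow_pow_self g 3 2)
    have e2 : (g ^ 3) ^ 2 = 1 := by rw [← pow_mul, show 3 * 2 = orderOf g by rw [hg], pow_orderOf_eq_one]
    have e3 : g ^ 3 ≠ 1 := pow_ne_one_of_lt_orderOf (by norm_num) (by omega)
    have hp : IsPGroup 2 (zpowers (g ^ 3)) := IsPGroup.of_card (n := 1) (by
      rw [Nat.card_zpowers, orderOf_eq_prime e2 e3]; rfl)
    have e4 := nilpotent_inf_centralizer_ne_bot ((p2 W hW).to_sup_of_normal_left hp).isNilpotent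
      le_sup_left le_normalizer_of_normal hW1
    have e5 := card_four (W := W ⊓ centralizer {g ^ 3}) ((p2 W hW).to_le inf_le_left)
      (fun e => e4 (eq_bot_iff.2 ((inf_le_inf_left _ (by
        rw [← centralizer_zpowers]; exact H9.centralizer_anti le_sup_right)).trans e.le)))
      (w4 ▸ card_le_of_le inf_le_left) gp (le_normalizer_inf (A := zpowers (g ^ 2))
        le_normalizer_of_normal (H9.normalizer_centralizer_singleton (zpowers_le_of_mem
          (mem_centralizer_singleton_iff.2 (Commute.pow_pow_self g 2 3)))) (mem_zpowers _))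
      (eq_bot_iff.2 ((inf_le_inf_right _ inf_le_left).trans (fq _ gp h).le))
    refine e3 ?_
    rw [← mem_bot, ← fq _ gp h]
    exact ⟨mW _ (fun w hw => mem_centralizer_singleton_iff.1
      ((eq_of_le_of_card_ge inf_le_left (w4.trans e5.symm).le).ge hw).2) e2, e1⟩
  obtain ⟨D, hD⟩ := hd.exists_le_sylow
  have h4 := nilpotent_inf_centralizer_ne_bot (U := (D : Subgroup G) ⊓ centralizer (W : Set G))
    D.isPGroup'.isNilpotent inf_le_left (le_normalizer_inf le_normalizer le_normalizer_of_normal)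
    fun e => (sylow_inf_normal D (centralizer (W : Set G))).eq_bot_iff.1 e
      (g3 ▸ Subgroup.orderOf_dvd_natCard _ h3)
  obtain ⟨⟨x, ⟨x1, x2⟩, x3⟩, x4⟩ := exists_prime_orderOf_dvd_card' 3
    (((D.isPGroup'.to_le (inf_le_left.trans inf_le_left)).card_eq_or_dvd).resolve_left
      fun e => h4 (card_eq_one.1 e))
  replace x4 : orderOf x = 3 := (orderOf_coe _).trans x4
  have x5 : x ^ 3 = 1 := by rw [← x4, pow_orderOf_eq_one]
  replace x4 : x ≠ 1 := fun e => by rw [e, orderOf_one] at x4; omega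
  have hE : zpowers d ⊔ zpowers x ≤ D := sup_le hD (zpowers_le_of_mem x1)
  have cE : IsMulCommutative ↥(zpowers d ⊔ zpowers x) := L.isMulCommutative_sup_zpowers inferInstance
    (H9.centralizer_anti hD x3)
  have h5 : Q ≤ centralizer {x} := by
    by_cases hc : IsCyclic ↥(zpowers d ⊔ zpowers x)
    · obtain ⟨e, he, h⟩ := exists_eq_zpowers_of_isCyclic hc
      have e3 : e ^ 3 = 1 := L.omegaOne_exp_of_comm cE (sup_le (zpowers_le_of_mem (L.mem_omegaOne
        (mem_sup_left (mem_zpowers d)) d3)) (zpowers_le_of_mem (L.mem_omegaOne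
          (mem_sup_right (mem_zpowers x)) x5)) he)
      exact absurd (zpowers_le_of_mem (zpowers_le_of_mem x2 (mem_zpowers_symm e3 x4
        (h.ge (mem_sup_right (mem_zpowers x))))) (h.ge (mem_sup_left (mem_zpowers d)))) dW
    refine le_of_centralizer_le cE hc le_normalizer_of_normal
      (IsPGroup.coprime_card_of_ne 3 2 (by norm_num) _ _ (D.isPGroup'.to_le hE) hQ) fun a ha a1 => ?_
    by_cases h : a ∈ centralizer (W : Set G)
    · obtain ⟨b, hb, c, hc, rfl⟩ := (mem_sup_of_le_normalizer_right (le_normalizer_of_le_centralizer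
        (le_centralizer_iff.1 (zpowers_le_of_mem (H9.centralizer_anti hD x3))))).1 ha
      have b1 : b = 1 := by
        by_contra b1
        exact dW (zpowers_le_of_mem ((mul_mem_cancel_right (zpowers_le_of_mem x2 hc)).1 h)
          (mem_zpowers_symm d3 b1 hb))
      rw [b1, one_mul] at a1 ⊢
      rw [← centralizer_zpowers, ← centralizer_zpowers]
      exact inf_le_right.trans (H9.centralizer_anti (zpowers_le_of_mem (mem_zpowers_symm x5 a1 hc)))
    · rw [fQ a (D.isPGroup'.to_le (zpowers_le_of_mem (hE ha))) h]; exact bot_le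
  exact x4 (n3 x (fun q hq => mem_centralizer_singleton_iff.1 (h5 hq))
    (D.isPGroup'.to_le (zpowers_le_of_mem x1)))

end Cfsg.Agent.S3739
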