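import Cfsg.Statements.S3740
import Cfsg.Agent.H1.Q1
import Cfsg.Agent.H1.Sig3
import Cfsg.Agent.H1.Q8SL
import Cfsg.Agent.H1.Dim2
import Cfsg.Agent.H1.DI
import Cfsg.Agent.H1.Tr2

set_option autoImplicit false
open Cfsg

namespace Cfsg.Agent.S3740

open scoped commutatorElement
open scoped Pointwise
open H1
open Subgroup H9 Matrix
open scoped MatrixGroups

theorem q8_od {G : Type*} [Group G] [Finite G] {R : Subgroup G}
    (h : ∀ x y : G, x ≠ 1 → x ^ 2 = 1 → y ^ 2 = 1 → y ∈ zpowers x) (hR : IsPGroup 2 R) (o : Od R) : ∃ z, Q8 R z := by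
  have : IsCyclic R ∨ 2 = 2 ∧ ∃ n a b, MC R n a b :=
    (L.normal_rank_one hR fun A _ _ hA e => by
      obtain ⟨x, hx, ho⟩ := exists_orderOf_eq_of_dvd (p := 2) (H := A) (e ▸ dvd_pow_self 2 two_ne_zero)
      exact L.not_isCyclic_of_elem_sq hA e (isCyclic_of_le_zpowers (a := x) fun y hy =>
        h x y (by rintro rfl; rw [orderOf_one] at ho; omega) (hA.2 x hx) (hA.2 y hy))).imp_right
      fun ⟨e, n, a, b, p1, p2, p3, p4, p5, p6, p7⟩ => ⟨e, n, a, b, p1, p2, p4, p6, p5, p3, p7⟩
  obtain ⟨-, n, a, b, m⟩ := this.resolve_left fun e => not_od_of_isCyclic hR e o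
  refine ⟨_, (m.od_cases le_rfl o).resolve_left fun k => ?_⟩
  obtain ⟨x, p, q, -⟩ := klein_exists_ne k 1
  exact klein_not_cyclic k (isCyclic_of_le_zpowers (a := x) fun y r => h x y q (sq x ▸ klein_sq k p) (sq y ▸ klein_sq k r))

section
variable {F : Type*} [Field F]

theorem nil_sq {N : Matrix (Fin 2) (Fin 2) F} (h : IsNilpotent N) : N * N = 0 := by
  have := aeval_self_charpoly N
  rw [← sub_eq_zero.1 (isNilpotent_charpoly_sub_pow_of_isNilpotent h).eq_zero.symm.symm |>.symm] at this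
  simpa [sq] using this

theorem invol (h2 : (2 : F) ≠ 0) {g : SL(2, F)} (h : g ^ 2 = 1) : g = 1 ∨ g = -1 := by
  have d := g.det_coe
  rw [det_fin_two] at d
  have e : ∀ i j, (g.1 * g.1) i j = (1 : Matrix (Fin 2) (Fin 2) F) i j := fun i j => by
    rw [← Matrix.SpecialLinearGroup.coe_mul, ← sq, h]; rfl
  have e00 := e 0 0
  have e01 := e 0 1
  have e10 := e 1 0
  have e11 := e 1 1
  simp only [mul_apply, Fin.sum_univ_two, one_apply, Fin.isValue, if_true, zero_ne_one, one_ne_zero, if_false] at e00 e01 e10 e11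
  have t : g.1 0 0 + g.1 1 1 ≠ 0 := fun t => h2 (by linear_combination -d - e00 + g.1 0 0 * t)
  have b : g.1 0 1 = 0 := (mul_eq_zero.1 (show g.1 0 1 * (g.1 0 0 + g.1 1 1) = 0 by linear_combination e01)).resolve_right t
  have c : g.1 1 0 = 0 := (mul_eq_zero.1 (show g.1 1 0 * (g.1 0 0 + g.1 1 1) = 0 by linear_combination e10)).resolve_right t
  rcases mul_eq_zero.1 (show (g.1 0 0 - 1) * (g.1 0 0 + 1) = 0 by linear_combination e00 - g.1 1 0 * b) with a | a
  · refine .inl (Matrix.SpecialLinearGroup.ext _ _ fun i j => ?_)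
    have a1 : g.1 0 0 = 1 := by linear_combination a
    have a2 : g.1 1 1 = 1 := by linear_combination d - g.1 1 1 * a + g.1 1 0 * b
    fin_cases i <;> fin_cases j <;> simp [a1, a2, b, c]
  · refine .inr (Matrix.SpecialLinearGroup.ext _ _ fun i j => ?_)
    have a1 : g.1 0 0 = -1 := by linear_combination a
    have a2 : g.1 1 1 = -1 := by linear_combination -d + g.1 1 1 * a - g.1 1 0 * b
    fin_cases i <;> fin_cases j <;> simp [a1, a2, b, c]

theorem comm_nil {N g : Matrix (Fin 2) (Fin 2) F} (h0 : N ≠ 0) (h : N * N = 0) (c : g * N = N * g) :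
    ∃ s t : F, g = s • 1 + t • N := by
  have e00 := congrFun (congrFun h 0) 0
  have e01 := congrFun (congrFun h 0) 1
  have e10 := congrFun (congrFun h 1) 0
  have e11 := congrFun (congrFun h 1) 1
  have c00 := congrFun (congrFun c 0) 0
  have c01 := congrFun (congrFun c 0) 1
  have c10 := congrFun (congrFun c 1) 0
  simp only [mul_apply, Fin.sum_univ_two, Matrix.zero_apply] at e00 e01 e10 e11 c00 c01 c10
  by_cases b : N 0 1 = 0
  · have a0 : N 0 0 = 0 := pow_eq_zero_iff two_ne_zero |>.1 (by linear_combination e00 - N 1 0 * b)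
    have a1 : N 1 1 = 0 := pow_eq_zero_iff two_ne_zero |>.1 (by linear_combination e11 - N 1 0 * b)
    have a2 : N 1 0 ≠ 0 := fun t => h0 (by ext i j; fin_cases i <;> fin_cases j <;> simp [a0, a1, b, t])
    have g1 : g 0 1 = 0 := (mul_eq_zero.1 (show g 0 1 * N 1 0 = 0 by linear_combination c00 + g 1 0 * b)).resolve_right a2
    have g2 : g 1 1 = g 0 0 := mul_right_cancel₀ a2 (by linear_combination c10 - g 1 0 * a0 + g 1 0 * a1)
    refine ⟨g 0 0, g 1 0 / N 1 0, ?_⟩
    ext i j; fin_cases i <;> fin_cases j <;> simp [a0, a1, b, g1, g2, a2]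
  · have t : N 1 1 = -N 0 0 := mul_left_cancel₀ b (by linear_combination e01)
    refine ⟨g 0 0 - g 0 1 / N 0 1 * N 0 0, g 0 1 / N 0 1, ?_⟩
    ext i j; fin_cases i <;> fin_cases j <;> simp <;> field_simp
    · linear_combination -c00
    · linear_combination -c01
end

/-- Let F be a finite field of odd characteristic p and let a be a p-element of SL₂(F) normalizing a subgroup R of order prime to p with [R, a] ≠ 1. Then p = 3, R is a quaternion group of order 8, and R⟨a⟩ is isomorphic to SL₂(3). -/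
theorem result (F : Type) [Field F] [Fintype F] {p : ℕ} [Fact p.Prime] [CharP F p] (hp : p ≠ 2) (a : Matrix.SpecialLinearGroup (Fin 2) F) (ha : IsPGroup p ↥(Subgroup.zpowers a)) (R : Subgroup (Matrix.SpecialLinearGroup (Fin 2) F)) (hR : (Nat.card R).Coprime p) (haR : a ∈ Subgroup.normalizer (R : Set (Matrix.SpecialLinearGroup (Fin 2) F))) (hnt : ⁅R, Subgroup.zpowers a⁆ ≠ ⊥) : p = 3 ∧ Nonempty (↥R ≃* QuaternionGroup 2) ∧ Nonempty (↥(R ⊔ Subgroup.zpowers a) ≃* Matrix.SpecialLinearGroup (Fin 2) (ZMod 3)) := by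
  have hp' : p.Prime := Fact.out
  have po : Odd p := hp'.odd_of_ne_two hp
  have h2 : (2 : F) ≠ 0 := fun e => hp ((Nat.prime_dvd_prime_iff_eq hp' Nat.prime_two).1
    ((CharP.cast_eq_zero_iff F p 2).1 (by exact_mod_cast e)))
  have nR : zpowers a ≤ normalizer (R : Set SL(2, F)) := zpowers_le.2 haR
  have pw : ∀ (s t : F) (N : Matrix (Fin 2) (Fin 2) F), N * N = 0 → (s • (1 : Matrix (Fin 2) (Fin 2) F) + t • N) ^ p = s ^ p • 1 :=
    fun s t N h => by
      rw [add_pow_char_of_commute p (((Commute.one_left N).smul_left s).smul_right t), smul_pow, smul_pow, one_pow,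
        pow_eq_zero_of_le hp'.two_le (show N ^ 2 = 0 by rw [sq, h]), smul_zero, add_zero]
  obtain ⟨k, hk⟩ := ha ⟨a, mem_zpowers a⟩
  have nN : (a.1 - 1) * (a.1 - 1) = 0 := nil_sq ⟨p ^ k, by
    rw [sub_pow_char_pow_of_commute p k (Commute.one_right _), one_pow, ← Matrix.SpecialLinearGroup.coe_pow,
      show a ^ p ^ k = 1 from congrArg Subtype.val hk]; exact sub_self _⟩
  have ap : a ^ p = 1 := Subtype.ext (by
    have := pw 1 1 _ nN
    rwa [one_smul, one_smul, add_sub_cancel, one_pow, one_smul] at this)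
  have a1 : a ≠ 1 := fun e => hnt (by rw [e, zpowers_one_eq_bot, commutator_bot_right])
  have oa : orderOf a = p := orderOf_eq_prime ap a1
  have ca : ∀ g : SL(2, F), g * a = a * g → g ^ (p * 2) = 1 := fun g hg => by
    obtain ⟨s, t, e⟩ := comm_nil (N := a.1 - 1) (g := g.1) (sub_ne_zero.2 fun e => a1 (Subtype.ext e)) nN (by
      rw [mul_sub, sub_mul, mul_one, one_mul, ← Matrix.SpecialLinearGroup.coe_mul, hg]; rfl)
    have e2 : (g ^ p).1 = s ^ p • 1 := by rw [Matrix.SpecialLinearGroup.coe_pow, e, pw s t _ nN]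
    have d := (g ^ p).det_coe
    rw [e2, det_smul, det_one, mul_one, Fintype.card_fin] at d
    refine Subtype.ext ?_
    rw [pow_mul, Matrix.SpecialLinearGroup.coe_pow, e2, smul_pow, d, one_pow, one_smul]; rfl
  have p2 : IsPGroup 2 R := by
    refine isPGroup_of_primes fun q hq d => ?_
    by_contra q2
    have : Fact q.Prime := ⟨hq⟩
    obtain ⟨Q, hQ, nQ⟩ := cop_exists_syl nR (copA_of_p ha hR) q
    have cQ := cop_of_le hR hQ.le
    let K := AlgebraicClosure F
    let ρ : (Q ⊔ zpowers a : Subgroup _) →* Module.End K (Fin 2 → K) :=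
      ((Matrix.toLinAlgEquiv' (R := K) (n := Fin 2)).toMulEquiv.toMonoidHom.comp (Matrix.SpecialLinearGroup.coeMonoidHom.comp
        (Matrix.SpecialLinearGroup.map (algebraMap F K)))).comp (Subgroup.subtype _)
    have inj : ∀ x, ρ x = 1 → x = 1 := fun x hx => Subtype.ext (Matrix.SpecialLinearGroup.ext _ _ fun i j => by
      have := congrFun (congrFun ((Matrix.toLinAlgEquiv' (R := K) (n := Fin 2)).injective (hx.trans (map_one _).symm)) i) j
      refine (algebraMap F K).injective (this.trans ?_)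
      simp [one_apply, apply_ite])
    have od : Odd (Nat.card (Q ⊔ zpowers a : Subgroup _)) := Nat.coprime_two_right.1 (by
      rw [sup_comm]
      exact cop_sup (cop_of_isPGroup_ne hp ha) (cop_of_isPGroup_ne q2 hQ.isP) nQ)
    have c : ⁅Q, zpowers a⁆ = ⊥ := eq_bot_of_p_p' (isPGroup_of_elem fun x hx => by
      have m : x ∈ ⁅Q ⊔ zpowers a, Q ⊔ zpowers a⁆ := commutator_mono le_sup_left le_sup_right hx
      rw [← map_subtype_commutator] at m
      obtain ⟨y, hy, rfl⟩ := m
      exact congrArg Subtype.val (inj _ (pow_eq_one_of_odd (ρ := ρ) (by simp) od hy))) (cop_of_le cQ (commutator_le_left' nQ))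
    obtain ⟨x, hx, ox⟩ := exists_orderOf_eq_of_isPGroup hQ.isP fun e => cop_iff.1 (hQ.eq_bot_iff.1 e) d
    have := orderOf_dvd_of_pow_eq_one (ca x (commutator_eq_bot_iff_le_centralizer.1 c hx a (mem_zpowers a)).symm)
    rw [ox] at this
    rcases (Nat.Prime.dvd_mul hq).1 this with t | t
    · exact cop_iff.1 hR ((Nat.prime_dvd_prime_iff_eq hq hp').1 t ▸ d)
    · exact q2 ((Nat.prime_dvd_prime_iff_eq hq Nat.prime_two).1 t)
  have nc : a ∉ centralizer (R : Set SL(2, F)) := fun e =>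
    hnt (by rw [commutator_comm]; exact commutator_eq_bot_iff_le_centralizer.2 (zpowers_le.2 e))
  have co : (orderOf a).Coprime 2 := oa ▸ Nat.coprime_two_right.2 po
  obtain ⟨z, hz⟩ := q8_od (fun x y x1 hx hy => by
    rw [(invol h2 hx).resolve_left x1]
    rcases invol h2 hy with rfl | rfl
    exacts [one_mem _, mem_zpowers _]) p2 ⟨a, haR, co, nc⟩
  have p3 : p = 3 := by
    by_contra e
    exact nc (L.mem_of_pow_mem (hz.cube_mem haR co) (oa ▸ (Nat.coprime_primes hp' Nat.prime_three).2 e))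
  subst p3
  refine ⟨rfl, hz.equiv, hz.sl23 haR (k := 1) oa nc (MonoidHom.id _) Function.surjective_id ?_⟩
  rw [ap, zpowers_one_eq_bot, unbar, comap_id, Subgroup.map_bot]

end Cfsg.Agent.S3740
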