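import Cfsg.Statements.S3741
import Cfsg.Agent.H1.Fitting
import Cfsg.Agent.H9.Rad
import Cfsg.Agent.H3.Linear
import Mathlib

set_option autoImplicit false
open Cfsg

namespace Cfsg.Agent.S3741

open Subgroup
open scoped commutatorElement

theorem aux {G : Type*} [Group G] [Finite G] (A B Z : Subgroup G) (hZ : IsCyclic Z)
    (hAZ : A ≤ centralizer (Z : Set G)) (hBZ : B ≤ centralizer (Z : Set G)) (h : ⁅A, B⁆ ≤ Z) :
    (A ⊓ centralizer (B : Set G)).relIndex A ≤ (B ⊓ centralizer (A : Set G)).relIndex B := by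
  haveI : NeZero (Nat.card Z) := ⟨Nat.card_pos.ne'⟩
  haveI : NeZero ((Nat.card Z : ℕ) : ℂ) := ⟨by exact_mod_cast Nat.card_pos.ne'⟩
  obtain ⟨ι, hι⟩ : ∃ ι : Z →* ℂˣ, Function.Injective ι :=
    ⟨(rootsOfUnity (Nat.card Z) ℂ).subtype.comp (mulEquivOfCyclicCardEq
      (HasEnoughRootsOfUnity.natCard_rootsOfUnity ℂ (Nat.card Z)).symm).toMonoidHom,
      (Subgroup.subtype_injective _).comp (MulEquiv.injective _)⟩
  have hm : ∀ (a : A) (b : B), ⁅(a : G), (b : G)⁆ ∈ Z := fun a b =>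
    h (commutator_mem_commutator a.2 b.2)
  let K := (B ⊓ centralizer (A : Set G)).subgroupOf B
  let c : A → B →* ℂˣ := fun a => MonoidHom.mk' (fun b => ι ⟨_, hm a b⟩) (fun b b' => by
    rw [← map_mul]; congr 1; apply Subtype.ext
    have := hBZ b.2 _ (hm a b')
    change ⁅(a : G), (b : G) * b'⁆ = ⁅(a : G), (b : G)⁆ * ⁅(a : G), (b' : G)⁆
    rw [show ⁅(a : G), (b : G) * b'⁆ = ⁅(a : G), (b : G)⁆ * ((b * ⁅(a : G), (b' : G)⁆) * (b : G)⁻¹) by
      simp only [commutatorElement_def]; group, ← this]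
    group)
  let c' : A →* (B →* ℂˣ) := MonoidHom.mk' c (fun a a' => by
    ext b
    simp only [c, MonoidHom.mk'_apply, MonoidHom.mul_apply]
    rw [mul_comm, ← map_mul]; congr 2; apply Subtype.ext
    have := hAZ a.2 _ (hm a' b)
    change ⁅(a : G) * a', (b : G)⁆ = ⁅(a' : G), (b : G)⁆ * ⁅(a : G), (b : G)⁆
    rw [show ⁅(a : G) * a', (b : G)⁆ = (a * ⁅(a' : G), (b : G)⁆) * (a : G)⁻¹ * ⁅(a : G), (b : G)⁆ by
      simp only [commutatorElement_def]; group, ← this]
    group)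
  have hc : ∀ a b, c' a b = 1 ↔ (a : G) * b = b * a := fun a b => by
    change ι _ = 1 ↔ _
    rw [map_eq_one_iff _ hι, Subtype.ext_iff, ← commutatorElement_eq_one_iff_mul_comm]; rfl
  have hK : ∀ b : B, b ∈ K ↔ ∀ a, c' a b = 1 := fun b => by
    simp only [hc, K, mem_subgroupOf, mem_inf, mem_centralizer_iff]
    exact ⟨fun h a => h.2 a a.2, fun h => ⟨b.2, fun a ha => h ⟨a, ha⟩⟩⟩
  have hcomm : commutator B ≤ K := fun b hb => (hK b).2 fun a =>
    Abelianization.commutator_subset_ker (c' a) hb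
  haveI : K.Normal := Subgroup.Normal.of_commutator_le _ hcomm
  have h1 : (A ⊓ centralizer (B : Set G)).subgroupOf A = c'.ker := by
    ext a
    simp only [mem_subgroupOf, mem_inf, mem_centralizer_iff, MonoidHom.mem_ker, MonoidHom.ext_iff,
      MonoidHom.one_apply, hc]
    exact ⟨fun h b => (h.2 b b.2).symm, fun h => ⟨a.2, fun b hb => (h ⟨b, hb⟩).symm⟩⟩
  rw [relIndex, h1, index_ker, relIndex, ← H3.card_hom_trivial_on K hcomm]
  exact Nat.card_le_card_of_injective (fun f : c'.range => (⟨f.1, fun n hn => by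
    obtain ⟨_, a, rfl⟩ := f; exact (hK n).1 hn a⟩ : {f : B →* ℂˣ // ∀ n ∈ K, f n = 1}))
    (fun f g h => Subtype.ext (by simpa using h))


/-- Let A and B be subgroups of a finite p-group with [A, B] ≤ A ∩ B and [A, B] of order at most p. Then |A : C_A(B)| = |B : C_B(A)|. -/
theorem result {G : Type*} [Group G] [Finite G] {p : ℕ} [Fact p.Prime] (hG : IsPGroup p G) (A B : Subgroup G) (hAB : ⁅A, B⁆ ≤ A ⊓ B) (hcard : Nat.card ↥⁅A, B⁆ ≤ p) : (A ⊓ Subgroup.centralizer (B : Set G)).relIndex A = (B ⊓ Subgroup.centralizer (A : Set G)).relIndex B := by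
  have hp : p.Prime := Fact.out
  have hZ : ⁅A, B⁆ ≤ centralizer ((A ⊔ B : Subgroup G) : Set G) ∧ IsCyclic (⁅A, B⁆ : Subgroup G) := by
    by_cases h : ⁅A, B⁆ = ⊥
    · rw [h]; exact ⟨bot_le, inferInstance⟩
    have hc : Nat.card (⁅A, B⁆ : Subgroup G) = p := le_antisymm hcard
      (Nat.le_of_dvd Nat.card_pos (H9.dvd_card_of_isPGroup (hG.to_subgroup _) h))
    refine ⟨?_, isCyclic_of_prime_card hc⟩
    have := H9.inf_centralizer_ne_bot_of_p (hG.to_subgroup _) (hG.to_subgroup (A ⊔ B))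
      (sup_le (normalizer_commutator_ge_left A B) (normalizer_commutator_ge_right A B)) h
    have h2 := Subgroup.card_dvd_of_le (inf_le_left : ⁅A, B⁆ ⊓ centralizer ((A ⊔ B : Subgroup G) : Set G) ≤ _)
    rw [hc] at h2
    rcases (Nat.dvd_prime hp).1 h2 with h3 | h3
    · exact absurd (card_eq_one.1 h3) this
    · rw [← inf_eq_left]; exact H1.eq_of_le_of_card_eq inf_le_left (h3.trans hc.symm)
  have h1 := le_centralizer_iff.1 hZ.1
  exact le_antisymm (aux A B _ hZ.2 (le_sup_left.trans h1) (le_sup_right.trans h1) le_rfl)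
    (aux B A _ hZ.2 (le_sup_right.trans h1) (le_sup_left.trans h1) (commutator_comm_le _ _))

end Cfsg.Agent.S3741
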