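import Cfsg.Statements.S3744
import Cfsg.Agent.H1.Hall
import Mathlib

set_option autoImplicit false
open Cfsg

namespace Cfsg.Agent.S3744

/-- A finite p-soluble group has a p-complement, all its p-complements are conjugate, and every subgroup of order prime to p lies in one of them. Here a p-complement is a subgroup of order prime to p whose index is a power of p. -/
theorem result {G : Type*} [Group G] [Finite G] {p : ℕ} [Fact p.Prime] (hG : Cfsg.IsPSolvable p G) : (∃ H : Subgroup G, (Nat.card H).Coprime p ∧ ∃ n : ℕ, H.index = p ^ n) ∧ (∀ H₁ H₂ : Subgroup G, (Nat.card H₁).Coprime p → (∃ n : ℕ, H₁.index = p ^ n) → (Nat.card H₂).Coprime p → (∃ n : ℕ, H₂.index = p ^ n) → ∃ g : G, H₂ = H₁.map (MulAut.conj g).toMonoidHom) ∧ (∀ U : Subgroup G, (Nat.card U).Coprime p → ∃ H : Subgroup G, (Nat.card H).Coprime p ∧ (∃ n : ℕ, H.index = p ^ n) ∧ ∃ g : G, U.map (MulAut.conj g).toMonoidHom ≤ H) := by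
  have h := H1.piSolv_of_isPSolvable hG
  have hp : p.Prime := Fact.out
  have c1 : ∀ n : ℕ, n.Coprime p ↔ H1.IsPiNum {p}ᶜ n := fun n => by
    rw [H1.isPiNum_compl_iff, Nat.coprime_comm, hp.coprime_iff_not_dvd]
    exact ⟨fun h q _ hq => hq ▸ h, fun h => h p hp rfl⟩
  have c2 : ∀ H : Subgroup G, Cfsg.IsPiHall {p}ᶜ H ↔ (Nat.card H).Coprime p ∧ ∃ n, H.index = p ^ n := by
    intro H
    rw [H1.isPiHall_iff, compl_compl, c1]
    refine and_congr_right fun _ => ⟨fun h => ⟨_, Nat.eq_prime_pow_of_unique_prime_dvd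
      Subgroup.index_ne_zero_of_finite fun hq hd => h _ hq hd⟩, fun ⟨n, hn⟩ q hq hd => ?_⟩
    rw [hn] at hd
    exact (Nat.prime_dvd_prime_iff_eq hq hp).1 (hq.dvd_of_dvd_pow hd)
  obtain ⟨H, hH, h2⟩ := h.exists_hall
  refine ⟨⟨H, (c2 H).1 hH⟩, fun H₁ H₂ a b c d => ?_, fun U hU => ?_⟩
  · obtain ⟨g, hg⟩ := h.piHall_conj ((c2 _).2 ⟨a, b⟩) ((c2 _).2 ⟨c, d⟩)
    exact ⟨g, hg.symm⟩
  · obtain ⟨g, hg⟩ := h2 U ((c1 _).1 hU)
    exact ⟨H, ((c2 H).1 hH).1, ((c2 H).1 hH).2, g, hg⟩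

end Cfsg.Agent.S3744
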