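import Cfsg.Statements.S3746
import Cfsg.Agent.H9.Comp
import Mathlib

set_option autoImplicit false
open Cfsg

namespace Cfsg.Agent.S3746

open Subgroup

/-- Let Z ≤ Z(G) be a central subgroup of a finite group G and E a subgroup of G containing Z whose image E/Z is a component of G/Z (subnormal and quasisimple). Then the derived subgroup [E, E] is a component of G. -/
theorem result {G : Type*} [Group G] [Finite G] (Z : Subgroup G) (hZ : Z ≤ Subgroup.center G) [Z.Normal] (E : Subgroup G) (hZE : Z ≤ E) (hE : Cfsg.IsComponent (E.map (QuotientGroup.mk' Z))) : Cfsg.IsComponent ⁅E, E⁆ := by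
  have h1 := H9.comp_top_iff.2 hE
  have h2 : (⊤ : Subgroup (G ⧸ Z)) = (⊤ : Subgroup G).map (QuotientGroup.mk' Z) :=
    (map_top_of_surjective _ (QuotientGroup.mk'_surjective Z)).symm
  rw [h2] at h1
  obtain ⟨L, hL, e⟩ := H9.Comp.exists_lift _ h1 (by
    rw [QuotientGroup.ker_mk', inf_top_eq, coe_top, centralizer_univ]; exact hZ)
  have h3 := congrArg (comap (QuotientGroup.mk' Z)) e
  rw [comap_map_eq, comap_map_eq, QuotientGroup.ker_mk', sup_eq_left.2 hZE] at h3
  rw [← h3, H9.commutator_sup_central (hZ.trans (center_le_centralizer _)), hL.qs.perfect]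
  exact H9.comp_top_iff.1 hL

end Cfsg.Agent.S3746
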