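import Cfsg.Statements.S3747
import Cfsg.Agent.H9.Comp
import Cfsg.Agent.H1.Basic
import Mathlib

set_option autoImplicit false
open Cfsg

namespace Cfsg.Agent.S3747

open Subgroup

theorem aux {G : Type*} [Group G] (S : Finset (Subgroup G))
    (h1 : ∀ K ∈ S, K ⊓ centralizer (K : Set G) = ⊥) (h2 : ∀ K ∈ S, ∀ L ∈ S, K = L ∨ ⁅K, L⁆ = ⊥) :
    S.sup id ⊓ centralizer ((S.sup id : Subgroup G) : Set G) = ⊥ := by
  classical
  induction S using Finset.induction_on with
  | empty => simp
  | insert K S hK ih =>
    have ih' := ih (fun L hL => h1 L (Finset.mem_insert_of_mem hL))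
      (fun L hL M hM => h2 L (Finset.mem_insert_of_mem hL) M (Finset.mem_insert_of_mem hM))
    have hc : S.sup id ≤ centralizer (K : Set G) := Finset.sup_le fun L hL => by
      rcases h2 L (Finset.mem_insert_of_mem hL) K (Finset.mem_insert_self _ _) with h | h
      · exact absurd (h ▸ hL) hK
      · exact commutator_eq_bot_iff_le_centralizer.1 h
    rw [Finset.sup_insert, eq_bot_iff, id, H9.centralizer_sup]
    rintro z ⟨hz, hz1, hz2⟩
    obtain ⟨k, hk, c, hc', rfl⟩ := (H9.mem_sup_of_le_normalizer'
      (hc.trans (H9.centralizer_le_normalizer' K))).1 hz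
    have : k ∈ K ⊓ centralizer (K : Set G) := ⟨hk, (mul_mem_cancel_right (hc hc')).1 hz1⟩
    rw [h1 K (Finset.mem_insert_self _ _), mem_bot] at this
    subst this
    rw [one_mul] at hz2 ⊢
    rw [← ih']; exact ⟨hc', hz2⟩

theorem aux2 {G : Type*} [Group G] [Finite G] (K : Subgroup G) (hK : Cfsg.IsComponent K)
    (hZ : Subgroup.center ↥K = ⊥) : (Subgroup.normalClosure (K : Set G) ≠ ⊥ ∧ ∀ N : Subgroup G,
      N.Normal → N ≤ Subgroup.normalClosure (K : Set G) → N = ⊥ ∨ N = Subgroup.normalClosure (K : Set G)) := by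
  classical
  have hK := H9.comp_top_iff.2 hK
  refine ⟨fun h => hK.qs.ne_bot (eq_bot_iff.2 (h ▸ le_normalClosure)), fun N hN hle => ?_⟩
  rcases hK.le_or_comm (H9.SN.of_normal_top N) with h | h
  · exact Or.inr (le_antisymm hle (normalClosure_le_normal h))
  left
  haveI := Fintype.ofFinite G
  let S := Finset.univ.image (fun g : G => H9.cj g K)
  have hS : normalClosure (K : Set G) = S.sup id := by
    apply le_antisymm
    · rw [normalClosure, closure_le]
      intro x hx
      obtain ⟨a, ha, hc⟩ := Group.mem_conjugatesOfSet_iff.1 hx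
      obtain ⟨g, rfl⟩ := isConj_iff.1 hc
      exact (Finset.le_sup (f := id) (Finset.mem_image.2 ⟨g, Finset.mem_univ g, rfl⟩) : H9.cj g K ≤ S.sup id)
        (H9.conj_mem_cj ha)
    · refine Finset.sup_le fun L hL => ?_
      obtain ⟨g, -, rfl⟩ := Finset.mem_image.1 hL
      rw [id, ← H9.cj_eq_of_normal g (normalClosure (K : Set G))]
      exact H9.cj_mono g le_normalClosure
  have h0 : K ⊓ centralizer (K : Set G) = ⊥ := by rw [← H9.map_center_subtype, hZ, Subgroup.map_bot]
  have := aux S (fun L hL => by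
    obtain ⟨g, -, rfl⟩ := Finset.mem_image.1 hL
    rw [← H9.cj_centralizer, ← H9.cj_inf, h0, H9.cj_bot]) (fun L hL M hM => by
    obtain ⟨g, -, rfl⟩ := Finset.mem_image.1 hL
    obtain ⟨g', -, rfl⟩ := Finset.mem_image.1 hM
    exact (hK.cj_of_mem (le_normalizer (mem_top _))).eq_or_comm (hK.cj_of_mem (le_normalizer (mem_top _))))
  rw [← hS] at this
  rw [eq_bot_iff, ← this]
  refine le_inf hle (le_centralizer_iff.1 (normalClosure_le_normal ?_))
  exact commutator_eq_bot_iff_le_centralizer.1 h


/-- Let G be a finite group. (a) If K is a component of G with trivial centre, then the normal closure of K in G is a minimal normal subgroup of G. (b) If the Fitting subgroup of G is trivial, then the layer E(G) is generated by the minimal normal subgroups of G. -/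
theorem result {G : Type*} [Group G] [Finite G] : (∀ K : Subgroup G, Cfsg.IsComponent K → Subgroup.center ↥K = ⊥ → (Subgroup.normalClosure (K : Set G) ≠ ⊥ ∧ ∀ N : Subgroup G, N.Normal → N ≤ Subgroup.normalClosure (K : Set G) → N = ⊥ ∨ N = Subgroup.normalClosure (K : Set G))) ∧ (Cfsg.fittingSubgroup G = ⊥ → sSup {N : Subgroup G | N ≠ ⊥ ∧ N.Normal ∧ ∀ N' : Subgroup G, N'.Normal → N' ≤ N → N' = ⊥ ∨ N' = N} = Cfsg.layer G) := by
  refine ⟨aux2, fun hF => le_antisymm (sSup_le fun N ⟨h1, h2, h3⟩ => ?_) (sSup_le fun K hK => ?_)⟩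
  · obtain ⟨S, hS, hSN, hne, h | h⟩ := H9.exists_nil_or_comp (H9.SN.of_normal_top N)
      (bot_le : ⊥ ≤ _) (by simpa using h1)
    · have := hS.le_Fit h
      rw [H9.Fit_top, hF] at this
      exact absurd this hne
    · rcases h3 (normalClosure (S : Set G)) inferInstance (normalClosure_le_normal hSN) with h4 | h4
      · exact absurd (h4 ▸ le_normalClosure) hne
      · rw [← h4]
        apply normalClosure_le_normal
        rw [← H9.Lay_top]; exact (H9.Comp.mk hS h).le_Lay
  · have hK' := H9.comp_top_iff.2 hK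
    have hZ : center K = ⊥ := by
      have : K ⊓ centralizer (K : Set G) ≤ H9.Fit ⊤ := H9.SN.le_Fit
        ((H9.SN.of_normal inf_le_left (H9.normalizer_inf le_normalizer
          (H9.normalizer_centralizer le_normalizer))).trans hK'.sn)
        (H9.isNilpotent_of_le_centralizer (inf_le_right.trans (H9.centralizer_anti inf_le_left)))
      rw [H9.Fit_top, hF, ← H9.map_center_subtype, le_bot_iff,
        map_eq_bot_iff_of_injective _ K.subtype_injective] at this
      exact this
    obtain ⟨a, b⟩ := aux2 K hK hZ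
    exact le_normalClosure.trans (le_sSup ⟨a, inferInstance, b⟩)

end Cfsg.Agent.S3747
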