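import Cfsg.Statements.S3748
import Cfsg.Agent.H9.Comp
import Cfsg.Agent.H1.Basic
import Mathlib

set_option autoImplicit false
open Cfsg

namespace Cfsg.Agent.S3748

open Subgroup

/-- Call a proper subgroup M of G primitive when M = N_G(N) for every non-trivial normal subgroup N of M. If M is a primitive subgroup of the finite group G, then no non-trivial subnormal subgroup of G is contained in M; in particular M ∩ F(G) = 1. -/
theorem result {G : Type*} [Group G] [Finite G] (M : Subgroup G) (hM : M ≠ ⊤) (hprim : ∀ N : Subgroup G, N ≤ M → M ≤ Subgroup.normalizer (N : Set G) → N ≠ ⊥ → Subgroup.normalizer (N : Set G) = M) : (∀ L : Subgroup G, L.IsSubnormal → L ≤ M → L = ⊥) ∧ M ⊓ Cfsg.fittingSubgroup G = ⊥ := by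
  have h0 : ∀ N : Subgroup G, N.Normal → N ≤ M → N = ⊥ := fun N hN h => by
    by_contra hne
    exact hM ((hprim N h le_normalizer_of_normal hne).symm.trans (normalizer_eq_top N))
  have h1 : M ⊓ fittingSubgroup G = ⊥ := by
    by_contra hne
    have h2 := hprim _ inf_le_left (H9.normalizer_inf le_normalizer le_normalizer_of_normal) hne
    rcases (inf_le_right : M ⊓ fittingSubgroup G ≤ _).lt_or_eq with h | h
    · have := H9.lt_normalizer_of_nilpotent H9.fitting_nil h
      rw [h2] at this
      exact lt_irrefl _ this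
    · apply hne
      rw [h]; exact h0 _ inferInstance (h ▸ inf_le_left)
  refine ⟨fun L hL hLM => ?_, h1⟩
  by_contra hne
  obtain ⟨S, hS, hSN, hne, h | h⟩ := H9.exists_nil_or_comp (H9.sn_top_iff.2 hL)
      (bot_le : ⊥ ≤ _) (by simpa using hne)
  · have := hS.le_Fit h
    rw [H9.Fit_top] at this
    exact hne (h1 ▸ le_inf (hSN.trans hLM) this)
  · have hc : H9.Comp S ⊤ := ⟨hS, h⟩
    let E := sSup {K | H9.Comp K ⊤ ∧ K ≤ M}
    have hE : S ≤ E := le_sSup ⟨hc, hSN.trans hLM⟩
    have h3 := hprim E (sSup_le fun K hK => hK.2) (H9.normalizer_sSup_of_cj fun g hg K hK =>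
      ⟨hK.1.cj_of_mem (le_normalizer (mem_top _)), by rw [← H9.cj_eq_of_mem hg]; exact H9.cj_mono g hK.2⟩)
      (fun h => hne (h ▸ hE))
    have h4 : H9.Lay ⊤ ≤ normalizer (E : Set G) := H9.normalizer_sSup_of_cj fun g hg K hK => by
      rw [H9.mem_normalizer_iff_cj.1 (hK.1.Lay_le_normalizer hg)]; exact hK
    rw [h3, H9.Lay_top] at h4
    have := h0 _ inferInstance h4
    apply hne
    rw [← this, ← H9.Lay_top]; exact hc.le_Lay

end Cfsg.Agent.S3748
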