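import Cfsg.Statements.S3749
import Cfsg.Agent.H1.Loc
import Cfsg.Agent.H1.SZ

set_option autoImplicit false
open Cfsg

namespace Cfsg.Agent.S3749

open H1

/-- Call a proper subgroup M of G primitive when M = N_G(N) for every non-trivial normal subgroup N of M. Let M be a primitive subgroup of the finite group G, p a prime with O_p(M) ≠ 1, and N a normal subgroup of G with M ∩ N = 1. Then p does not divide the order of N; for every prime q there is exactly one Sylow q-subgroup of N normalized by M; and if the order of N has at least two prime divisors then M is not a maximal subgroup of G. -/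
theorem result {G : Type*} [Group G] [Finite G] (M : Subgroup G) (hM : M ≠ ⊤) (hprim : ∀ N : Subgroup G, N ≤ M → M ≤ Subgroup.normalizer (N : Set G) → N ≠ ⊥ → Subgroup.normalizer (N : Set G) = M) {p : ℕ} [Fact p.Prime] (hOp : Cfsg.pCore p ↥M ≠ ⊥) (N : Subgroup G) [N.Normal] (hMN : M ⊓ N = ⊥) : ¬ p ∣ Nat.card N ∧ (∀ q : ℕ, [Fact q.Prime] → ∃! Q : Sylow q ↥N, M ≤ Subgroup.normalizer ((Q : Subgroup ↥N).map N.subtype : Set G)) ∧ ((∃ q r : ℕ, q.Prime ∧ r.Prime ∧ q ≠ r ∧ q ∣ Nat.card N ∧ r ∣ Nat.card N) → ¬ IsCoatom M) := by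
  have p0 : H9.Op p M ≠ ⊥ := fun e => hOp (H9.Op_eq_bot_iff.1 e)
  have nP := hprim _ (H9.Op_le p M) (H9.le_normalizer_Op p M) p0
  have n : ∀ X : Subgroup G, X ≤ Subgroup.normalizer (N : Set G) := fun X => le_top.trans (Subgroup.normalizer_eq_top N).ge
  have c0 : N ⊓ Subgroup.centralizer (H9.Op p M : Set G) = ⊥ := le_bot_iff.1 ((le_inf (inf_le_right.trans
    ((H9.centralizer_le_normalizer' _).trans nP.le)) inf_le_left).trans hMN.le)
  have c : (Nat.card N).Coprime p := by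
    obtain ⟨S, hS, h1⟩ := H9.exists_syl_ge (H9.Op_p p M) (le_sup_right (a := N))
    have h2 := hS.inf_normal le_sup_left (n _)
    exact h2.eq_bot_iff.1 (by_contra fun e => H9.inf_centralizer_ne_bot_of_p h2.isP (H9.Op_p p M)
      (H9.normalizer_inf (h1.trans Subgroup.le_normalizer) (n _)) e (le_bot_iff.1 ((inf_le_inf_right _ inf_le_right).trans c0.le)))
  have ca := H9.copA_of_p (H9.Op_p p M) c
  have u : ∀ (q : ℕ) [Fact q.Prime] (Q R : Subgroup G), H9.Syl q Q N → H9.Syl q R N →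
      H9.Op p M ≤ Subgroup.normalizer (Q : Set G) → H9.Op p M ≤ Subgroup.normalizer (R : Set G) → Q = R :=
    fun q _ Q R a b d e => by
      obtain ⟨x, hx, h⟩ := H9.cop_syl_conj (n _) ca a b d e
      rw [c0, Subgroup.mem_bot] at hx
      rw [← h, hx, H9.cj_one]
  have ex : ∀ (q : ℕ) [Fact q.Prime], ∃ Q, H9.Syl q Q N ∧ M ≤ Subgroup.normalizer (Q : Set G) := fun q _ => by
    obtain ⟨Q, h1, h2⟩ := H9.cop_exists_syl (n _) ca q
    refine ⟨Q, h1, fun m hm => H9.mem_normalizer_iff_cj.2 (u q _ _ (h1.cj_of_mem (n M hm)) h1 ?_ h2)⟩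
    rw [← H9.cj_normalizer, ← H9.mem_normalizer_iff_cj.1 (H9.le_normalizer_Op p M hm)]
    exact H9.cj_mono m h2
  refine ⟨H9.cop_iff.1 c, fun q _ => ?_, fun ⟨q, r, hq, hr, hqr, d1, d2⟩ hc => ?_⟩
  · obtain ⟨Q, h1, h2⟩ := ex q
    obtain ⟨R, rfl⟩ := h1.exists_sylow
    exact ⟨R, h2, fun R' h3 => Sylow.ext (Subgroup.map_injective N.subtype_injective (u q _ _ (H9.syl_of_sylow R') h1
      ((H9.Op_le p M).trans h3) ((H9.Op_le p M).trans h2)))⟩
  · have := Fact.mk hq
    have := Fact.mk hr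
    obtain ⟨Q, h1, h2⟩ := ex q
    have e := hc.2 (M ⊔ Q) (left_lt_sup.2 fun e => H9.cop_iff.1 (h1.eq_bot_iff.1 (le_bot_iff.1
      ((le_inf e h1.le).trans hMN.le))) d1)
    have := H9.dedekind h1.le (.inr h2) (B := M)
    rw [sup_comm, e, top_inf_eq, hMN, sup_bot_eq] at this
    exact H9.cop_iff.1 (H9.cop_of_isPGroup_ne hqr (this ▸ h1.isP)) d2

end Cfsg.Agent.S3749
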