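import Cfsg.Statements.S3750
import Cfsg.Agent.H1.Loc

set_option autoImplicit false
open Cfsg

namespace Cfsg.Agent.S3750

open H1

/-- Call a proper subgroup M of G primitive when M = N_G(N) for every non-trivial normal subgroup N of M. Let M be a primitive subgroup of the finite group G and N a normal subgroup of G with M ∩ F*(N) ≠ 1. Then F(G) = 1 and F*(N) = F*(G) = E(G); in particular every minimal normal subgroup of G is contained in N. -/
theorem result {G : Type*} [Group G] [Finite G] (M : Subgroup G) (hM : M ≠ ⊤) (hprim : ∀ N : Subgroup G, N ≤ M → M ≤ Subgroup.normalizer (N : Set G) → N ≠ ⊥ → Subgroup.normalizer (N : Set G) = M) (N : Subgroup G) [N.Normal] (hMF : M ⊓ (Cfsg.generalizedFittingSubgroup ↥N).map N.subtype ≠ ⊥) : Cfsg.fittingSubgroup G = ⊥ ∧ (Cfsg.generalizedFittingSubgroup ↥N).map N.subtype = Cfsg.generalizedFittingSubgroup G ∧ Cfsg.generalizedFittingSubgroup G = Cfsg.layer G ∧ ∀ K : Subgroup G, K.Normal → K ≠ ⊥ → (∀ K' : Subgroup G, K'.Normal → K' ≤ K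 → K' = ⊥ ∨ K' = K) → K ≤ N := by
  rw [H9.Fst_eq] at hMF ⊢
  have n : ∀ (X : Subgroup G) [X.Normal] (Y : Subgroup G), Y ≤ Subgroup.normalizer (X : Set G) := fun X _ Y =>
    le_top.trans (Subgroup.normalizer_eq_top X).ge
  have nD := hprim _ inf_le_left (H9.normalizer_inf Subgroup.le_normalizer (H9.normalizer_Fst (n N M))) hMF
  have z : ∀ X : Subgroup G, ⊤ ≤ Subgroup.normalizer (X : Set G) →
      X ≤ Subgroup.centralizer (H9.Fst N : Set G) → X = ⊥ := fun X a b => by_contra fun e => hM (top_le_iff.1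
    (a.trans (hprim X ((b.trans (H9.centralizer_anti inf_le_right)).trans ((H9.centralizer_le_normalizer' _).trans nD.le))
      (le_top.trans a) e).le))
  have s := H9.SN.of_normal_top N
  have f : H9.Fit (⊤ : Subgroup G) = ⊥ := by_contra fun e => H9.inf_centralizer_ne_bot_of_nilpotent (H9.Fit_nil ⊤) le_rfl
    Subgroup.le_normalizer e (z _ (H9.normalizer_Zc (H9.le_normalizer_Fit ⊤)) (le_trans (by
      rw [H9.Fst, H9.centralizer_sup]
      exact le_inf (inf_le_left.trans (Subgroup.le_centralizer_iff.1 (H9.Lay_le_centralizer_Fit ⊤))) inf_le_right)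
      (H9.centralizer_anti s.Fst_le_Fst)))
  have c := z _ (H9.normalizer_centralizer (n N ⊤)) (H9.centralizer_anti (H9.Fst_le N))
  have e : H9.Fst (⊤ : Subgroup G) = H9.Lay ⊤ := by rw [H9.Fst, f, sup_bot_eq]
  refine ⟨H9.Fit_top.symm.trans f, ?_, by rw [← H9.Fst_top, e, H9.Lay_top], fun K hK h0 hm => ?_⟩
  · rw [← H9.Fst_top]
    refine le_antisymm s.Fst_le_Fst (e.le.trans ((H9.Lay_le_Lay_of_le (H9.Lay_le_iff.2 fun K hK =>
      (hK.le_or_comm s).resolve_right fun t => hK.qs.not_le_centralizer ?_) le_top).trans (H9.Lay_le_Fst N)))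
    exact ((H9.le_centralizer_iff'.2 t).trans c.le).trans bot_le
  · refine inf_eq_left.1 ((hm (K ⊓ N) inferInstance inf_le_left).resolve_left fun t => h0 (le_bot_iff.1
      ((H9.le_centralizer_iff'.2 (le_bot_iff.1 ((Subgroup.commutator_le_inf K N).trans t.le))).trans c.le)))

end Cfsg.Agent.S3750
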