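import Cfsg.Statements.S3751
import Cfsg.Agent.H9.MS1
import Cfsg.Agent.H1.SylowIn
import Cfsg.Agent.L.PG1

set_option autoImplicit false
open Cfsg

namespace Cfsg.Agent.S3751

open H9 Subgroup

def PL {G : Type*} [Group G] (p : ℕ) (M : Subgroup G) : Prop :=
  ∃ T : Subgroup G, IsPGroup p T ∧ T ≠ ⊥ ∧ M = normalizer (T : Set G)

def MX {G : Type*} [Group G] (p : ℕ) (M : Subgroup G) : Prop := PL p M ∧ ∀ L, PL p L → M ≤ L → L = M

theorem PL.cj {G : Type*} [Group G] {p : ℕ} {M : Subgroup G} (h : PL p M) (g : G) : PL p (cj g M) := by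
  obtain ⟨T, h1, h2, rfl⟩ := h
  exact ⟨_, isPGroup_cj g h1, fun h => h2 (cj_eq_bot_iff.1 h), cj_normalizer g T⟩

theorem MX.cj {G : Type*} [Group G] {p : ℕ} {M : Subgroup G} (h : MX p M) (g : G) : MX p (cj g M) :=
  ⟨h.1.cj g, fun L hL h' => (cj_eq_iff.2 (h.2 _ (hL.cj g⁻¹) (cj_le_iff.1 h')).symm).symm⟩

theorem MX.norm {G : Type*} [Group G] [Finite G] {p : ℕ} [Fact p.Prime] {M A : Subgroup G} (h : MX p M)
    (hc : Chp p M) (h0 : A ≠ ⊥) (h1 : A ≤ M) (h2 : M ≤ normalizer (A : Set G)) : normalizer (A : Set G) = M := by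
  refine le_antisymm ((normalizer_Op (p := p) le_rfl).trans
    (h.2 _ ⟨_, Op_p p A, fun h3 => h0 ?_, rfl⟩ (normalizer_Op h2)).le) h2
  have h4 : Op p M ⊓ A ≤ ⊥ := h3 ▸ Op_inf_le h1
  refine le_bot_iff.1 (le_trans (le_inf (le_trans (le_inf h1 (commutator_eq_bot_iff_le_centralizer.1
    (le_bot_iff.1 (le_trans ?_ h4)))) hc) le_rfl) h4)
  exact le_inf (commutator_le_right' (h1.trans (le_normalizer_Op p M))) (commutator_le_left' ((Op_le p M).trans h2))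

/-- Two distinct subgroups M₁, M₂ of G form a primitive pair when, for {i, j} = {1, 2}, every non-trivial normal subgroup A of M_i contained in M₁ ∩ M₂ satisfies N_{M_j}(A) = M₁ ∩ M₂; the pair has characteristic p when moreover C_{M_i}(O_p(M_i)) ≤ O_p(M_i) for both i and O_p(M₁)O_p(M₂) ≤ M₁ ∩ M₂. Let G be a finite group, p a prime dividing its order, with O_p(G) = 1 and every p-local subgroup of characteristic p. Then either G has a primitive pair of characteristic p, or every maximal p-local subgroup M of G is strongly p-embedded in G: M is a proper subgroup, p divides its order, and for every g ∉ M the order of M ∩ gMg⁻¹ is prime to p. -/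
theorem result {G : Type*} [Group G] [Finite G] {p : ℕ} [Fact p.Prime] (hloc : Cfsg.IsOfLocalCharacteristic p G) (hOp : Cfsg.pCore p G = ⊥) : (∃ M₁ M₂ : Subgroup G, M₁ ≠ M₂ ∧ (∀ A : Subgroup G, A ≠ ⊥ → A ≤ M₁ ⊓ M₂ → (M₁ ≤ Subgroup.normalizer (A : Set G) → M₂ ⊓ Subgroup.normalizer (A : Set G) = M₁ ⊓ M₂) ∧ (M₂ ≤ Subgroup.normalizer (A : Set G) → M₁ ⊓ Subgroup.normalizer (A : Set G) = M₁ ⊓ M₂)) ∧ Subgroup.centralizer (Cfsg.pCore p ↥M₁ : Set ↥M₁) ≤ Cfsg.pCore p ↥M₁ ∧ Subgroup.centralizer (Cfsg.pCore p ↥M₂ : Set ↥M₂) ≤ Cfsg.pCore p ↥M₂ ∧ (Cfsg.pCore p ↥M₁).map M₁.subtype ⊔ (Cfsg.pCore p ↥M₂).map M₂.subtype ≤ M₁ ⊓ M₂) ∨ (∀ M : Subgroup G, (∃ T : Subgroup G, IsPGroup p T ∧ T ≠ ⊥ ∧ M = Subgroup.normalizer (T : Set G)) → (∀ L : Subgroup G, (∃ T : Subgroup G, IsPGroup p T ∧ T ≠ ⊥ ∧ L = Subgroup.normalizer (T : Set G)) → M ≤ L → L = M) → M ≠ ⊤ ∧ p ∣ Nat.card M ∧ ∀ g : G, g ∉ M → ¬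 p ∣ Nat.card ↥(M ⊓ M.map (MulAut.conj g).toMonoidHom)) := by
  have ch : ∀ {M : Subgroup G}, MX p M → centralizer (pCore p M : Set M) ≤ pCore p M := fun h => by
    obtain ⟨T, h1, h2, rfl⟩ := h.1
    exact hloc.2 T h1 h2
  by_contra hcon
  rw [not_or] at hcon
  obtain ⟨hc1, hc2⟩ := hcon
  have pair : ∀ {M₁ M₂ S : Subgroup G}, MX p M₁ → MX p M₂ → M₁ ≠ M₂ → Syl p S M₁ → Syl p S M₂ → False :=
    fun {M₁ M₂ S} h1 h2 hne s1 s2 => by
      refine hc1 ⟨M₁, M₂, hne, fun A h0 hA => ⟨fun h => ?_, fun h => ?_⟩, ch h1, ch h2, ?_⟩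
      · rw [h1.norm (chp_iff.1 (ch h1)) h0 (hA.trans inf_le_left) h, inf_comm]
      · rw [h2.norm (chp_iff.1 (ch h2)) h0 (hA.trans inf_le_right) h]
      · rw [← subgroupOf_Op, ← subgroupOf_Op, subgroupOf_map_subtype, subgroupOf_map_subtype]
        exact sup_le (inf_le_left.trans (s1.Op_le.trans (le_inf s1.le s2.le)))
          (inf_le_left.trans (s2.Op_le.trans (le_inf s1.le s2.le)))
  refine hc2 fun M hM hM' => ?_
  have hX : MX p M := ⟨hM, hM'⟩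
  obtain ⟨T, t1, t2, t3⟩ := hM
  have hd : p ∣ Nat.card M := by
    by_contra h
    exact t2 (le_bot_iff.1 ((le_inf le_rfl (t3 ▸ le_normalizer)).trans (copA_of_p t1
      ((Nat.Prime.coprime_iff_not_dvd Fact.out).2 h).symm).inf_eq_bot.le))
  have self : ∀ {M : Subgroup G}, MX p M → ∀ g ∉ M, M ≠ cj g M := fun {M} h g hg e => by
    obtain ⟨T, t1, t2, t3⟩ := h.1
    exact hg ((h.norm (chp_iff.1 (ch h)) (fun h0 => t2 (le_bot_iff.1 (h0 ▸ t3 ▸ le_normalizer))) le_rfl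
      le_normalizer).le (mem_normalizer_iff_cj.2 e.symm))
  refine ⟨fun h => t2 (le_bot_iff.1 (hOp ▸ ?_)), hd, fun g hg hdvd => ?_⟩
  · haveI : T.Normal := normalizer_eq_top_iff.1 (t3.symm.trans h)
    exact le_pCore t1
  obtain ⟨S₀, hS₀⟩ := exists_syl p (M ⊓ cj g M)
  obtain ⟨S, ⟨s0, s1, M₁, M₂, h1, h2, hne, s2⟩, hmax⟩ := Set.Finite.exists_maximalFor (fun S : Subgroup G => Nat.card S)
    {S | S ≠ ⊥ ∧ IsPGroup p S ∧ ∃ M₁ M₂, MX p M₁ ∧ MX p M₂ ∧ M₁ ≠ M₂ ∧ S ≤ M₁ ⊓ M₂} (Set.toFinite _)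
    ⟨S₀, fun h => (Nat.Prime.coprime_iff_not_dvd Fact.out).1 (hS₀.eq_bot_iff.1 h).symm hdvd, hS₀.isP,
      M, _, hX, hX.cj g, self hX g hg, hS₀.le⟩
  have mx : ∀ {R M₁ M₂ : Subgroup G}, IsPGroup p R → S < R → MX p M₁ → MX p M₂ → R ≤ M₁ → R ≤ M₂ → M₁ = M₂ :=
    fun {R M₁ M₂} r1 r2 h1 h2 r3 r4 => by
      by_contra hne
      exact r2.ne (eq_of_le_of_card_ge r2.le (hmax ⟨fun h => s0 (le_bot_iff.1 (h ▸ r2.le)), r1, M₁, M₂, h1, h2, hne,
        le_inf r3 r4⟩ (card_le_of_le r2.le)))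
  have big : ∀ {M : Subgroup G}, S ≤ M → ¬ Syl p S M →
      ∃ R : Subgroup G, IsPGroup p R ∧ S < R ∧ R ≤ M ∧ R ≤ normalizer (S : Set G) := fun {M} h h' => by
    obtain ⟨P, hP, h3⟩ := exists_syl_ge s1 h
    exact ⟨_, hP.isP.to_inf_right, H1.lt_normalizer_inf_of_isPGroup hP.isP (lt_of_le_of_ne h3 fun e => h' (e ▸ hP)),
      inf_le_right.trans hP.le, inf_le_left⟩
  obtain ⟨L, hL, hL'⟩ := Finite.exists_le_maximal (p := PL p) (⟨S, s1, s0, rfl⟩ : PL p (normalizer (S : Set G)))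
  have hLX : MX p L := ⟨hL'.1, fun K hK h => le_antisymm (hL'.2 hK h) h⟩
  have half : ∀ {M₁ M₂ : Subgroup G}, MX p M₁ → MX p M₂ → M₁ ≠ M₂ → S ≤ M₁ → S ≤ M₂ → Syl p S M₁ :=
    fun {M₁ M₂} h1 h2 hne s2 s3 => by
      by_contra hn
      obtain ⟨R, r1, r2, r3, r4⟩ := big s2 hn
      have e := mx r1 r2 h1 hLX r3 (r4.trans hL)
      by_cases hn' : Syl p S M₂
      · obtain ⟨x, hx, hx'⟩ := SetLike.not_le_iff_exists.1 fun h : R ≤ M₂ => hne (mx r1 r2 h1 h2 r3 h)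
        have := hn'.cj x
        rw [mem_normalizer_iff_cj.1 (r4 hx)] at this
        exact pair h2 (h2.cj x) (self h2 x hx') hn' this
      · obtain ⟨R', r1, r2, r3, r4⟩ := big s3 hn'
        exact hne (e.trans (mx r1 r2 h2 hLX r3 (r4.trans hL)).symm)
  exact pair h1 h2 hne (half h1 h2 hne (s2.trans inf_le_left) (s2.trans inf_le_right))
    (half h2 h1 hne.symm (s2.trans inf_le_right) (s2.trans inf_le_left))

end Cfsg.Agent.S3751
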