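import Cfsg.Statements.S3755
import Cfsg.Agent.H1.Q1

set_option autoImplicit false
open Cfsg

namespace Cfsg.Agent.S3755

open H1
open Subgroup H9

/-- Let M and V be subgroups of a finite group with V an elementary abelian 2-group, M normalizing V and acting faithfully on it (M ∩ C(V) = 1), and C_M(O_{2'}(M)) ≤ O_{2'}(M). If some elementary abelian 2-subgroup A of M satisfies |V : C_V(A)| < |A|², then M has a section isomorphic to the symmetric group of degree 3. -/
theorem result {X : Type*} [Group X] [Finite X] (M V : Subgroup X) (hV : Cfsg.IsElementaryAbelian 2 V) (hMV : M ≤ Subgroup.normalizer (V : Set X)) (hfaith : M ⊓ Subgroup.centralizer (V : Set X) = ⊥) (hcon : Subgroup.centralizer (Cfsg.pPrimeCore 2 ↥M : Set ↥M) ≤ Cfsg.pPrimeCore 2 ↥M) (A : Subgroup X) (hAM : A ≤ M) (hA : Cfsg.IsElementaryAbelian 2 A) (hsmall : (V ⊓ Subgroup.centralizer (A : Set X)).relIndex V < Nat.card A ^ 2) : Cfsg.Involves (Equiv.Perm (Fin 3)) ↥M := by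
  by_contra h
  have hs : ¬ Sect (Equiv.Perm (Fin 3)) M := fun h' => h (involves_iff.2 (by
    refine Sect.of_map M.subtype ?_
    rwa [← MonoidHom.range_eq_map, range_subtype]))
  have hc : M ⊓ centralizer (Op' 2 M : Set X) ≤ Op' 2 M := by
    intro x hx
    rw [← Op'_eq]
    refine ⟨⟨x, hx.1⟩, hcon fun y hy => Subtype.ext (hx.2 y (Op'_eq 2 M ▸ ⟨y, hy, rfl⟩)), rfl⟩
  have := sq_le_of_no_s3 (elem_isP hV) hMV hfaith hc hs _ A hAM le_rfl hA
  rw [inf_relIndex_left] at hsmall
  omega

end Cfsg.Agent.S3755
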