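import Cfsg.Statements.S3761
import Cfsg.Agent.L.PG3
import Mathlib

set_option autoImplicit false
open Cfsg

namespace Cfsg.Agent.S3761

open Subgroup

/-- Let G be a finite non-abelian p-group with a cyclic normal subgroup U of order p^n such that C_G(U) = U. Then either p = 2 and G is dihedral, generalized quaternion or semidihedral of order 2^(n+1); or, writing U₁ for the subgroup generated by the p-th powers of elements of U and M = C_G(U₁), the subgroup U has index p in M and the subgroup Ω₁(M) generated by the elements of M of order dividing p is elementary abelian of order p² and characteristic in G. -/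
theorem result {G : Type*} [Group G] [Finite G] {p : ℕ} [Fact p.Prime] (hG : IsPGroup p G) (hna : ¬ IsMulCommutative G) (U : Subgroup G) [U.Normal] (hU : IsCyclic U) (n : ℕ) (hUn : Nat.card U = p ^ n) (hC : Subgroup.centralizer (U : Set G) = U) : (p = 2 ∧ Nat.card G = 2 ^ (n + 1) ∧ ((∃ m : ℕ, Nonempty (G ≃* DihedralGroup m)) ∨ (∃ m : ℕ, Nonempty (G ≃* QuaternionGroup m)) ∨ Cfsg.IsQuasiDihedral G)) ∨ (U.relIndex (Subgroup.centralizer (Cfsg.powerClosure p 1 U : Set G)) = p ∧ Cfsg.IsElementaryAbelian p (Cfsg.omegaOne p (Subgroup.centralizer (Cfsg.powerClosure p 1 U : Set G))) ∧ Nat.card ↥(Cfsg.omegaOne p (Subgroup.centralizer (Cfsg.powerClosure p 1 U : Set G))) = p ^ 2 ∧ (Cfsg.omegaOne p (Subgroup.centralizer (Cfsg.powerClosure p 1 U : Set G))).Characteristic) := by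
  have hp : p.Prime := Fact.out
  obtain ⟨a, ha, rfl⟩ := H1.exists_eq_zpowers_of_isCyclic hU
  rw [Nat.card_zpowers] at hUn
  rw [H9.centralizer_zpowers] at hC
  have hC' : ∀ g ∈ (⊤ : Subgroup G), Commute g a → g ∈ zpowers a := fun g _ h =>
    hC ▸ mem_centralizer_singleton_iff.2 h
  have h0 : ⊤ ≠ zpowers a := fun h => hna (L.isMulCommutative_top_iff.1 (h ▸ inferInstance))
  rcases n with _ | n
  · refine absurd (eq_top_iff.2 fun g hg => hC' g hg ?_).symm h0
    rw [orderOf_eq_one_iff.1 hUn]; exact Commute.one_right g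
  rcases L.selfcent_cyclic (hG.to_subgroup ⊤) hUn (mem_top a) le_normalizer_of_normal hC' with
    h | ⟨b, hb, h7, h8, h9, h10, h11⟩ | ⟨rfl, h7, h8, b, hb, h9, h10⟩
  · exact absurd h h0
  · right
    have e := L.inf_centralizer_pow_eq hUn (mem_top a) le_normalizer_of_normal hC' hb h9 h11
    have e2 : powerClosure p 1 (zpowers a) = zpowers (a ^ p) := by
      refine le_antisymm ((closure_le _).2 ?_) (zpowers_le.2 (subset_closure ⟨a, ha, by simp⟩))
      rintro _ ⟨_, ⟨i, rfl⟩, rfl⟩
      exact ⟨i, by simp only [pow_one, ← zpow_natCast, ← zpow_mul, mul_comm]⟩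
    rw [top_inf_eq] at e
    rw [e2, H9.centralizer_zpowers, e]
    obtain ⟨e3, h1, h2⟩ := L.omegaOne_modular hUn h7 h8 (Or.inr ⟨h9, h10, h11⟩)
    refine ⟨H1.relIndex_sup_zpowers hp (le_normalizer_of_normal (mem_top b)) h7
      (by rw [h8]; exact one_mem _), h1, h2, ?_⟩
    rw [← e]
    by_cases h3 : ∀ g : G, g ^ p = 1 → Commute g (a ^ p)
    · rw [show omegaOne p (centralizer {a ^ p}) = omegaOne p ⊤ from le_antisymm
        (L.omegaOne_mono p le_top) (L.omegaOne_le_iff.2 fun g _ hg =>
          L.mem_omegaOne (mem_centralizer_singleton_iff.2 (h3 g hg)) hg)]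
      infer_instance
    push Not at h3
    obtain ⟨g, hg, h3⟩ := h3
    obtain ⟨k, hk⟩ := L.exists_conj_eq_zpow (a := a) (le_normalizer_of_normal (mem_top g))
    have h4 := (L.int_pow_prime_cong hp (n := n) (k := k) (by
      exact_mod_cast (L.commute_iff_dvd hUn (L.conj_pow_of hk p)).1 (by rw [hg]; simp))).2
    rw [← zpow_natCast, L.commute_zpow_iff_dvd hUn hk] at h3
    obtain ⟨rfl, w, hw⟩ := h4.resolve_left fun h => h3 (by
      push_cast; rw [pow_succ]; exact mul_dvd_mul_right h _)
    have h5 : commutator G ≤ zpowers a := hC ▸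
      L.commutator_le_centralizer_of_normal_cyclic (P := ⊤) le_normalizer_of_normal
    obtain ⟨m, rfl⟩ : ∃ m, n = m + 2 := ⟨n - 2, by have := h10 rfl; omega⟩
    have h6 : zpowers (a ^ 2) ≤ commutator G := by
      have h12 : a ^ (k - 1) ∈ commutator G := by
        rw [zpow_sub_one, ← hk]; exact commutator_mem_commutator (mem_top g) (mem_top a)
      obtain ⟨r, s, hrs⟩ : IsCoprime ((2 : ℤ) ^ (m + 2)) (2 ^ (m + 1) * w - 1) :=
        IsCoprime.pow_left ⟨2 ^ m * w, -1, by ring⟩
      rw [zpowers_le, show a ^ 2 = (a ^ (k - 1)) ^ s by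
        rw [← zpow_mul, ← zpow_natCast, L.zpow_eq_zpow_iff_dvd hUn]
        exact ⟨r, by push_cast; linear_combination (-2) * hrs - s * hw⟩]
      exact zpow_mem h12 s
    haveI := L.char_of_le_cyclic (H1.isCyclic_of_le_zpowers h5) h6
    rw [← H9.centralizer_zpowers]
    infer_instance
  · left
    rw [relIndex_top_right] at h8
    refine ⟨rfl, by rw [← (zpowers a).card_mul_index, h8, Nat.card_zpowers, hUn, ← pow_succ], ?_⟩
    rcases h10.equiv hUn h8 h9 with h | h | h
    · exact Or.inl ⟨_, h.2.2⟩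
    · exact Or.inr (Or.inl ⟨_, h⟩)
    · exact Or.inr (Or.inr h.2)

end Cfsg.Agent.S3761
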