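import Cfsg.Statements.S3762
import Cfsg.Agent.H1.ES3
import Cfsg.Agent.H1.MC

set_option autoImplicit false
open Cfsg

namespace Cfsg.Agent.S3762

open scoped commutatorElement
open H1

/-- Let G be a finite p-group of symplectic type: every characteristic abelian subgroup of G is cyclic. Then G = E ∗ R is a central product of subgroups E and R (they commute elementwise and generate G) where E is extraspecial or trivial, and R is cyclic, or p = 2 and R is dihedral, semidihedral or generalized quaternion of order at least 16. -/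
theorem result {G : Type*} [Group G] [Finite G] {p : ℕ} [Fact p.Prime] (hG : IsPGroup p G) (hsymp : ∀ A : Subgroup G, A.Characteristic → IsMulCommutative A → IsCyclic A) : ∃ E R : Subgroup G, (∀ e ∈ E, ∀ r ∈ R, e * r = r * e) ∧ E ⊔ R = ⊤ ∧ (E = ⊥ ∨ Cfsg.IsExtraspecial p ↥E) ∧ (IsCyclic R ∨ (p = 2 ∧ 16 ≤ Nat.card R ∧ ((∃ m : ℕ, Nonempty (↥R ≃* DihedralGroup m)) ∨ (∃ m : ℕ, Nonempty (↥R ≃* QuaternionGroup m)) ∨ Cfsg.IsQuasiDihedral ↥R))) := by
  open Subgroup commutatorElement in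
  rcases subsingleton_or_nontrivial G with _ | _
  · exact ⟨⊥, ⊥, fun _ _ _ _ => Subsingleton.elim _ _, Subsingleton.elim _ _, .inl rfl,
      .inl inferInstance⟩
  have hp : p.Prime := Fact.out
  obtain ⟨q, q1, q2, q3, q4⟩ : ∃ q, p ∣ q.choose 2 ∧ q ∣ p * p ∧ p ∣ q ∧
      ∀ n, 1 ≤ n → (p = 2 → 2 ≤ n) → p * q ∣ p ^ (n + 1) := by
    rcases eq_or_ne p 2 with rfl | h
    · exact ⟨4, by decide, by decide, by decide, fun n _ h => pow_dvd_pow 2 (show 3 ≤ _ by omega)⟩
    · exact ⟨p, L.dvd_choose_two (hp.odd_of_ne_two h), dvd_mul_right _ _, dvd_rfl, fun n _ _ =>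
        pow_two p ▸ pow_dvd_pow p (by omega)⟩
  obtain ⟨a, n, E, h1, ha, h2, h3, h4, h5, h6, h7, h8, h9⟩ := symp_data hG hsymp q1 q2 q3
  set z := a ^ p ^ n with hz
  set R := centralizer (E : Set G)
  have hza : zpowers z ≤ zpowers a := zpowers_le.2 (npow_mem_zpowers _ _)
  have hc := (Subgroup.isCyclic_iff_exists_zpowers_eq_top _).2 ⟨a, rfl⟩
  have := L.char_of_le_cyclic hc hza
  have h10 : E ⊔ R = ⊤ := eq_top_iff.2 fun g _ => (h8 g).elim fun u h =>
    (mul_mem_cancel_right (mem_sup_left h.1)).1 (mem_sup_right h.2)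
  suffices h : IsExtraspecial p G ∨ IsCyclic R ∨ (p = 2 ∧ 16 ≤ Nat.card R ∧ ((∃ m : ℕ, Nonempty
      (R ≃* DihedralGroup m)) ∨ (∃ m : ℕ, Nonempty (R ≃* QuaternionGroup m)) ∨ IsQuasiDihedral R)) by
    rcases h with h | h
    · exact ⟨⊤, ⊥, by simp, by simp, .inr (L.isExtraspecial_top_iff.2 h), .inl inferInstance⟩
    by_cases e : E = zpowers z
    · exact ⟨⊥, R, by simp, by rw [← h10, bot_sup_eq, sup_eq_right.2 (e.le.trans
        (hza.trans (zpowers_le.2 h7)))], .inl rfl, h⟩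
    · exact ⟨E, R, fun e he r hr => hr e he, h10, .inr (h4.extra h5 e), h⟩
  rcases L.selfcent_cyclic (hG.to_subgroup R) ha h7 le_normalizer_of_normal h9 with
    e | ⟨b, hb, b1, b2, b3, b4, b5⟩ | ⟨rfl, b1, b2, b, hb, b3, b4⟩
  · exact .inr (.inl (e ▸ hc))
  · exfalso
    have h11 := L.inf_centralizer_pow_eq ha h7 le_normalizer_of_normal h9 hb b3 b5
    have h12 : ⁅b, a⁆ = z := by rw [commutatorElement_def, b5, add_comm, pow_succ, mul_inv_cancel_right]
    have h13 : WS p (zpowers b ⊔ zpowers a) z := ⟨mem_sup_right (npow_mem_zpowers _ _), h4.ord,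
      fun x _ => mem_center_iff.1 h3 x, fun x hx y hy => TT_pair (h12 ▸ mem_zpowers _) hx hy⟩
    have := L.char_of_le_cyclic hc (zpowers_le.2 (npow_mem_zpowers a p))
    have hb' := mem_centralizer_singleton_iff.1 (h11.ge (mem_sup_right (mem_zpowers b))).2
    set W := omegaOne q (centralizer (zpowers (a ^ p) : Set G))
    have h14 : ∀ x, Commute x (a ^ p) → x ^ p = 1 → x ∈ W := fun x h h' =>
      L.mem_omegaOne (fun u hu => (cm_of_zp h hu).symm) (L.pow_eq_one_of_dvd h' q3)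
    have := hsymp (W ⊓ centralizer (W : Set G)) inferInstance (L.isMulCommutative_inf_centralizer W)
    obtain ⟨h15, h16⟩ := L.elem_two_gen (mem_center_iff.1 h3 b) b2 h4.zp h4.ne fun h => b1 (hza h)
    refine L.not_isCyclic_of_elem_sq h15 h16 (isCyclic_of_le (H' := W ⊓ centralizer (W : Set G))
      (sup_le (zpowers_le.2 ⟨h14 z (mem_center_iff.1 h3 _).symm h4.zp, fun w _ => mem_center_iff.1 h3 w⟩)
        (zpowers_le.2 ⟨h14 b hb' b2, le_centralizer_iff.1 (L.omegaOne_le_iff.2 fun x hx h => ?_)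
          (mem_zpowers b)⟩)))
    obtain ⟨u, hu, h17⟩ := h8 x
    have h18 : Commute u a := h7 u hu
    have h19 : Commute x u := by simpa [commute_iff_eq, ← mul_assoc] using (h17 u hu).symm
    obtain ⟨i, j, e⟩ := (L.mem_zpowers_sup_zpowers (le_normalizer_of_normal (mem_top b))).1
      (h11.le ⟨h17, mem_centralizer_singleton_iff.2 (Commute.mul_left
        (hx _ (mem_zpowers _)).symm (h18.pow_right p))⟩)
    have h20 : (a ^ i) ^ q = 1 := by
      have := h19.mul_pow q
      rwa [h, (h6 u hu).1, e, h13.mul_pow q1 (mem_sup_right (zpow_mem_zpowers a i)) (mem_sup_left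
        (zpow_mem_zpowers b j)), ← zpow_natCast (b ^ j), zpow_comm, zpow_natCast,
        L.pow_eq_one_of_dvd b2 q3, one_zpow, mul_one, mul_one] at this
    rw [← zpow_natCast, ← zpow_mul, L.zpow_eq_one_iff_dvd ha] at h20
    obtain ⟨k, rfl⟩ := Int.dvd_of_mul_dvd_mul_right (Int.natCast_ne_zero.2 (ne_zero_of_dvd_ne_zero
      (mul_ne_zero hp.ne_zero hp.ne_zero) q2)) (((Nat.cast_mul p q).symm.dvd.trans
        (Int.natCast_dvd_natCast.2 (q4 n b3 b4))).trans h20)
    have h21 : Commute b (x * u) := by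
      rw [e, zpow_mul, zpow_natCast]
      exact (Commute.zpow_right hb' k).mul_right (Commute.self_zpow b j)
    have h22 : Commute b x := by simpa using h21.mul_right (Commute.inv_right (hb u hu).symm)
    exact fun w hw => (cm_of_zp h22.symm hw).symm
  rcases b1.eq_or_lt with rfl | b5
  · left
    have h11 : ⁅b, a⁆ ∈ zpowers z := by
      obtain ⟨u, h, -⟩ := b4.conj' le_rfl
      exact ⟨u, by rw [commutatorElement_def, h, hz, ← zpow_natCast]; group⟩
    have h12 := L.sup_zpowers_eq_of_relIndex_prime (b2 ▸ hp) (zpowers_le.2 h7) hb b3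
    have h13 : ∀ r ∈ R, E ⊔ R ≤ TT (zpowers z) r := fun r hr => sup_le
      (fun e he => mem_TT.2 ((h6 e he).2 r)) fun s hs => mem_TT.2 (TT_pair (mem_TT.1 (TT_symm
        (mem_TT.2 h11))) (h12.ge hs) (h12.ge hr))
    have h14 : WS 2 ⊤ z := ⟨mem_top _, h4.ord, fun x _ => mem_center_iff.1 h3 x, fun x _ y _ =>
      mem_TT.1 ((sup_le (fun e he => mem_TT.2 ((h6 e he).2 y)) fun r hr => TT_symm
        (h13 r hr (h10.ge (mem_top y))) : E ⊔ R ≤ TT _ y) (h10.ge (mem_top x)))⟩
    exact L.isExtraspecial_top_iff.1 (h14.extra (fun x _ h => (b4.commute_iff le_rfl ha (h2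
      (mem_center_iff.2 fun g => (h g (mem_top g)).symm))).1 (h b (mem_top b)).symm)
      fun e => b3 (hza (e.le (mem_top b))))
  have h11 : Nat.card R = 2 ^ (n + 1) * 2 := by
    rw [L.card_eq_of_relIndex (zpowers_le.2 h7) b2, Nat.card_zpowers, ha]
  refine .inr (.inr ⟨rfl, h11 ▸ Nat.mul_le_mul_right 2 (Nat.pow_le_pow_right two_pos
    (show 3 ≤ _ by omega)), ?_⟩)
  rcases L.DQS.equiv (G := R) (n := n) (a := ⟨a, h7⟩) (b := ⟨b, hb⟩)
    (by simpa [L.DQS, Subtype.ext_iff] using b4) (by rw [orderOf_mk, ha])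
    (by rw [← zpowers_subgroupOf]; exact b2) (by rw [← zpowers_subgroupOf]; exact b3) with h | h | h
  exacts [.inl ⟨_, h.2.2⟩, .inr (.inl ⟨_, h⟩), .inr (.inr h.2)]

end Cfsg.Agent.S3762
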