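import Cfsg.Statements.S3763
import Cfsg.Agent.H1.ES2

set_option autoImplicit false
open Cfsg

namespace Cfsg.Agent.S3763

open H1

/-- Let E be an extraspecial 2-group of order 2^(2n+1). Then the largest elementary abelian subgroups of E have order 2^n or 2^(n+1); and two extraspecial 2-groups of the same order whose largest elementary abelian subgroups have the same order are isomorphic. -/
theorem result {E : Type*} [Group E] [Finite E] (hE : Cfsg.IsExtraspecial 2 E) (n : ℕ) (hn : Nat.card E = 2 ^ (2 * n + 1)) : ((Cfsg.PRankLE 2 n E ∧ ¬ Cfsg.PRankLE 2 (n - 1) E) ∨ (Cfsg.PRankLE 2 (n + 1) E ∧ ¬ Cfsg.PRankLE 2 n E)) ∧ ∀ (E' : Type*) [Group E'] [Finite E'], Cfsg.IsExtraspecial 2 E' → Nat.card E' = Nat.card E → (∀ k : ℕ, Cfsg.PRankLE 2 k E ↔ Cfsg.PRankLE 2 k E') → Nonempty (E ≃* E') := by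
  obtain ⟨z, h, h0⟩ := xp_card hE hn
  have h1 : PRankLE 2 n E ↔ SS (⊤ : Subgroup E) = -2 ^ (n + 1) :=
    .trans ⟨fun a A _ b => a A b.1 b.2, fun a A b c => a A le_top ⟨b, c⟩⟩ h.rank
  refine ⟨?_, fun E' _ _ hE' h2 h3 => ?_⟩
  · by_cases h2 : PRankLE 2 n E
    · refine .inl ⟨h2, fun h3 => ?_⟩
      obtain ⟨A, -, h4, h5⟩ := h.exists_elem
      have h6 := h3 A h4.1 h4.2
      rcases h5 with e | ⟨e, -⟩ <;> rw [e, Nat.pow_le_pow_iff_right one_lt_two] at h6 <;> omega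
    · exact .inr ⟨fun A a b => (h.elem_le le_top ⟨a, b⟩).1, h2⟩
  obtain ⟨z', h', -⟩ := xp_card hE' (h2 ▸ hn)
  have h1' : PRankLE 2 n E' ↔ SS (⊤ : Subgroup E') = -2 ^ (n + 1) :=
    .trans ⟨fun a A _ b => a A b.1 b.2, fun a A b c => a A le_top ⟨b, c⟩⟩ h'.rank
  have h4 := h1.symm.trans ((h3 n).trans h1')
  have h5 : (0 : ℤ) < 2 ^ (n + 1) := by positivity
  refine h.equiv_two h' ?_
  rcases h.SS_val with _ | _ <;> rcases h'.SS_val with _ | _ <;> omega

end Cfsg.Agent.S3763
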