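import Cfsg.Statements.S3764
import Cfsg.Agent.FT.B3a

set_option autoImplicit false
open Cfsg

namespace Cfsg.Agent.S3764

open scoped commutatorElement

/-- Let p, q, r be distinct primes and let X, Q, V be subgroups of a finite group with X of order r, Q an extraspecial q-group normalized by X with C_Q(X) = Z(Q), and V an elementary abelian p-group normalized by X and Q on which XQ acts faithfully ((X ⊔ Q) ∩ C(V) = 1). If C_V(X) = 1, then q = 2, r = 2^n + 1 for some n, and Q has order 2^(2n+1). -/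
theorem result {G : Type*} [Group G] [Finite G] {p q r : ℕ} (hp : p.Prime) (hq : q.Prime) (hr : r.Prime) (hpq : p ≠ q) (hpr : p ≠ r) (hqr : q ≠ r) (X Q V : Subgroup G) (hX : Nat.card X = r) (hQ : Cfsg.IsExtraspecial q ↥Q) (hXQ : X ≤ Subgroup.normalizer (Q : Set G)) (hCQ : Q ⊓ Subgroup.centralizer (X : Set G) = (Subgroup.center ↥Q).map Q.subtype) (hV : Cfsg.IsElementaryAbelian p V) (hXV : X ≤ Subgroup.normalizer (V : Set G)) (hQV : Q ≤ Subgroup.normalizer (V : Set G)) (hfaith : (X ⊔ Q) ⊓ Subgroup.centralizer (V : Set G) = ⊥) (hCV : V ⊓ Subgroup.centralizer (X : Set G) = ⊥) : q = 2 ∧ ∃ n : ℕ, r = 2 ^ n + 1 ∧ Nat.card Q = 2 ^ (2 * n + 1) := by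
  open H9 Subgroup in
  haveI := Fact.mk hp
  haveI := Fact.mk hq
  obtain ⟨h1, -, h2, h3⟩ := L.isExtraspecial_iff.1 hQ
  rw [map_center_subtype] at hCQ
  rw [← h2] at hCQ h3
  have hle : ⁅Q, Q⁆ ≤ Q := commutator_le_of_le le_rfl le_rfl
  have h0 := FT.ne_bot_of_card_prime (h3 ▸ hq)
  obtain ⟨N, n1, n2⟩ := H1.extra_group hV hQV hXV hXQ hle (by
      rw [centralizer_sup]; exact le_inf (h2.le.trans inf_le_right) (hCQ.ge.trans inf_le_right)) le_rfl
    (fun h => h0 (eq_bot_iff.2 ((le_inf (hle.trans le_sup_right) h).trans hfaith.le)))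
    (fun Y hY h x hx h' => h2.ge ⟨hx, fun y hy => commutatorElement_eq_one_iff_mul_comm.1 (mem_bot.1
      (((FT.eq_bot_or_eq_of_card_prime (h3 ▸ hq) hY).resolve_right fun e => h e.ge).le (h' y hy)))⟩)
    (FT.isCyclic_of_card_prime (hX ▸ hr))
    (fun h hh e x hx => H1.mem_of_commutator_mem (hX ▸ hr) (normalizer_commutator hXQ hXQ)
      (normalizer_commutator le_normalizer le_normalizer) (by rw [hX, h3]; exact (Nat.coprime_primes hr hq).2 hqr.symm)
      hle hCQ.le hh e hx) (cop_iff.1 (cop_of_isPGroup_ne hpq.symm h1))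
    (by rwa [hX, Nat.prime_dvd_prime_iff_eq hp hr]) hCV
  obtain ⟨k, hk⟩ := L.exists_relIndex_eq_pow (N := ⁅Q, Q⁆) h1
  obtain ⟨rfl, n, rfl⟩ := H1.eq_two_pow_add_one hq hr (n1.trans hk) (fun e => h0
    (commutator_eq_bot_iff_le_centralizer.2 (((relIndex_eq_one.1 (by rw [← n1, e, one_pow])).trans h2.le).trans
      inf_le_right))) (hX.symm.trans n2)
  exact ⟨rfl, n, hX.symm.trans n2, by rw [← H1.card_mul_relIndex hle, h3, ← n1]; ring⟩

end Cfsg.Agent.S3764
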