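import Cfsg.Statements.S3765
import Cfsg.Agent.FT.B3a

set_option autoImplicit false
open Cfsg

namespace Cfsg.Agent.S3765

/-- Let p, q, r be distinct primes and let X, Q, V be subgroups of a finite group with X of order r normalizing the q-group Q and acting faithfully on it (X ∩ C(Q) = 1), and V a nontrivial elementary abelian p-group normalized by X and Q on which XQ acts faithfully. If q = 2 and r has the form 2^n + 1, assume in addition that Q is abelian. Then C_V(X) ≠ 1. -/
theorem result {G : Type*} [Group G] [Finite G] {p q r : ℕ} (hp : p.Prime) (hq : q.Prime) (hr : r.Prime) (hpq : p ≠ q) (hpr : p ≠ r) (hqr : q ≠ r) (X Q V : Subgroup G) (hX : Nat.card X = r) (hQ : IsPGroup q Q) (hXQ : X ≤ Subgroup.normalizer (Q : Set G)) (hXfaith : X ⊓ Subgroup.centralizer (Q : Set G) = ⊥) (hV : Cfsg.IsElementaryAbelian p V) (hV1 : V ≠ ⊥) (hXV : X ≤ Subgroup.normalizer (V : Set G)) (hQV : Q ≤ Subgroup.normalizer (V : Set G)) (hfaith : (X ⊔ Q) ⊓ Subgroup.centralizer (V : Set G)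 = ⊥) (hexc : q = 2 → (∃ n : ℕ, r = 2 ^ n + 1) → IsMulCommutative Q) : V ⊓ Subgroup.centralizer (X : Set G) ≠ ⊥ := by
  open H9 Subgroup in
  haveI := Fact.mk hp
  haveI := Fact.mk hq
  haveI := Fact.mk hr
  intro h0
  have hXr := FT.isPGroup_of_card_prime hX
  have := FT.t3_4' (H1.isSolvable_of_isMulCommutative hV.1) hXQ (hX ▸ hr)
    (card_cop_of_p hXr (cop_of_isPGroup_ne hqr hQ)) (fun h h' => hexc (FT.piG_singleton_iff.2 hQ 2 Nat.prime_two h).symm
      (hX ▸ h')) hQV hXV (card_cop_of_p hQ (cop_of_isPGroup_ne hpq (elem_isP hV)))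
    (card_cop_of_p hXr (cop_of_isPGroup_ne hpr (elem_isP hV))) h0
  refine FT.ne_bot_of_card_prime (hX ▸ hr) (eq_bot_iff.2 ((le_inf le_rfl ?_).trans hXfaith.le))
  rw [le_centralizer_iff, ← commutator_eq_bot_iff_le_centralizer, eq_bot_iff, ← hfaith]
  exact le_inf (commutator_le_of_le le_sup_right le_sup_left) this

end Cfsg.Agent.S3765
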