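import Cfsg.Statements.S3766
import Cfsg.Agent.H1.PLen

set_option autoImplicit false
open Cfsg

namespace Cfsg.Agent.S3766

open scoped commutatorElement
open H1

/-- Let G be a finite solvable group and N a normal subgroup of G. Call a pair V < U of normal subgroups of G a chief factor of G when no normal subgroup of G lies strictly between them; an element g centralizes the chief factor U/V when u g u⁻¹ g⁻¹ ∈ V for all u ∈ U. Then an element of G lies in the Fitting subgroup F(N) if and only if it lies in N and centralizes every chief factor of G; and also if and only if it lies in N and centralizes every chief factor U/V of G with U ≤ F(N). -/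
theorem result {G : Type*} [Group G] [Finite G] (hG : Group.IsSolvable G) (N : Subgroup G) [N.Normal] (g : G) : (g ∈ (Cfsg.fittingSubgroup ↥N).map N.subtype ↔ g ∈ N ∧ ∀ U V : Subgroup G, (U.Normal ∧ V.Normal ∧ V < U ∧ ∀ W : Subgroup G, W.Normal → V ≤ W → W ≤ U → W = V ∨ W = U) → ∀ u ∈ U, u * g * u⁻¹ * g⁻¹ ∈ V) ∧ (g ∈ (Cfsg.fittingSubgroup ↥N).map N.subtype ↔ g ∈ N ∧ ∀ U V : Subgroup G, (U.Normal ∧ V.Normal ∧ V < U ∧ ∀ W : Subgroup G, W.Normal → V ≤ W → W ≤ U → W = V ∨ W = U) → U ≤ (Cfsg.fittingSubgroup ↥N).map N.subtype → ∀ u ∈ U, u * g * u⁻¹ * g⁻¹ ∈ V) := by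
  open Subgroup in
  rw [map_subtype_fitting_eq]
  have h1 : g ∈ fittingSubgroup G → ∀ U V : Subgroup G, (U.Normal ∧ V.Normal ∧ V < U ∧
      ∀ W : Subgroup G, W.Normal → V ≤ W → W ≤ U → W = V ∨ W = U) →
      ∀ u ∈ U, u * g * u⁻¹ * g⁻¹ ∈ V := by
    rintro hg U V ⟨hU, hV, h1, h2⟩ u hu
    have hf := QuotientGroup.mk'_surjective V
    have := hU.map _ hf
    have h3 := le_centralizer_minimal_normal (M := U.map (QuotientGroup.mk' V)) fitting_isNilpotent
      (fun K hK h => by
        rw [← map_comap_eq_self_of_surjective hf K]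
        rcases h2 (K.comap (QuotientGroup.mk' V)) (hK.comap _) (le_comap_mk' _) (by
          refine (comap_mono h).trans ?_
          rw [comap_map_eq, QuotientGroup.ker_mk', sup_eq_left.2 h1.le]) with e | e
        · left; rw [e, Subgroup.map_eq_bot_iff, QuotientGroup.ker_mk']
        · right; rw [e]) (map_fitting_le hf (mem_map_of_mem _ hg)) _ (mem_map_of_mem _ hu)
    rw [← QuotientGroup.ker_mk' V, MonoidHom.mem_ker, map_mul, map_mul, map_mul, h3]
    simp
  have h2 : g ∈ N → (∀ U V : Subgroup G, (U.Normal ∧ V.Normal ∧ V < U ∧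
      ∀ W : Subgroup G, W.Normal → V ≤ W → W ≤ U → W = V ∨ W = U) → U ≤ fittingSubgroup G ⊓ N →
      ∀ u ∈ U, u * g * u⁻¹ * g⁻¹ ∈ V) → g ∈ fittingSubgroup G := by
    intro hg h
    set K := normalClosure {g}
    have hK : K ≤ N := normalClosure_le_normal (by simpa)
    set D := fittingSubgroup G ⊓ K
    have hf := QuotientGroup.mk'_surjective D
    have := (inferInstance : K.Normal).map _ hf
    by_contra h0
    obtain ⟨M, p, -, hM, h3, h4, h5, -⟩ := exists_minimal_normal_elementary
      (K.map (QuotientGroup.mk' D)) inferInstance (by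
        rw [Ne, Subgroup.map_eq_bot_iff, QuotientGroup.ker_mk']
        exact fun e => h0 (e (subset_normalClosure rfl)).1)
    set L := M.comap (QuotientGroup.mk' D)
    have : L.Normal := hM.comap _
    have hL : L ≤ K := (comap_mono h4).trans (by
      rw [comap_map_eq, QuotientGroup.ker_mk', sup_eq_left.2 inf_le_right])
    have h6 : ⁅L, L⁆ ≤ D := by
      rw [← QuotientGroup.ker_mk' D, ← Subgroup.map_eq_bot_iff, map_commutator,
        map_comap_eq_self_of_surjective hf, commutator_eq_bot_iff_le_centralizer]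
      exact le_centralizer M
    obtain ⟨_, ⟨n, rfl⟩, h7⟩ := (wellFounded_lt (α := Subgroup G)).has_min
      (Set.range fun n => L.lowerCentralSeries (n + 1)) ⟨_, 0, rfl⟩
    refine h3 ?_
    rw [← map_comap_eq_self_of_surjective hf M, Subgroup.map_eq_bot_iff, QuotientGroup.ker_mk']
    refine le_inf (le_fitting (isNilpotent_of_lowerCentralSeries_eq_bot (n := n + 1) ?_)) hL
    by_contra h8
    obtain ⟨V, ⟨hV, h9⟩, h10⟩ := (wellFounded_gt (α := Subgroup G)).has_min
      {V | V.Normal ∧ V < L.lowerCentralSeries (n + 1)} ⟨⊥, inferInstance, bot_lt_iff_ne_bot.2 h8⟩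
    refine h7 _ ⟨n + 1, rfl⟩ (lt_of_le_of_lt ?_ h9)
    have h11 := h _ V ⟨inferInstance, hV, h9, fun W hW h1 h2 => by
      by_contra! h3
      exact h10 W ⟨hW, lt_of_le_of_ne h2 h3.2⟩ (lt_of_le_of_ne h1 h3.1.symm)⟩
      ((L.lowerCentralSeries_antitone (Nat.le_add_left 1 n)).trans (h6.trans (inf_le_inf_left _ hK)))
    have hv := QuotientGroup.mk'_surjective V
    have := (inferInstance : (L.lowerCentralSeries (n + 1)).Normal).map _ hv
    have h12 : K ≤ (centralizer ((L.lowerCentralSeries (n + 1)).map (QuotientGroup.mk' V) :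
        Set (G ⧸ V))).comap (QuotientGroup.mk' V) := by
      refine normalClosure_le_normal ?_
      rintro _ rfl _ ⟨u, hu, rfl⟩
      have := h11 u hu
      rw [← QuotientGroup.ker_mk' V, MonoidHom.mem_ker, map_mul, map_mul, map_mul, map_inv, map_inv,
        mul_inv_eq_one, mul_inv_eq_iff_eq_mul] at this
      exact this
    show L.lowerCentralSeries (n + 1 + 1) ≤ V
    rw [Subgroup.lowerCentralSeries_succ, ← QuotientGroup.ker_mk' V, ← Subgroup.map_eq_bot_iff,
      map_commutator, commutator_comm, commutator_eq_bot_iff_le_centralizer]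
    exact map_le_iff_le_comap.2 (hL.trans h12)
  exact ⟨⟨fun h => ⟨h.2, h1 h.1⟩, fun h => ⟨h2 h.1 fun U V h3 _ => h.2 U V h3, h.1⟩⟩,
    fun h => ⟨h.2, fun U V h3 _ => h1 h.1 U V h3⟩, fun h => ⟨h2 h.1 h.2, h.1⟩⟩

end Cfsg.Agent.S3766
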