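import Cfsg.Statements.S3767
import Cfsg.Agent.FT.B3a

set_option autoImplicit false
open Cfsg

namespace Cfsg.Agent.S3767

open scoped commutatorElement

/-- Let P be an extraspecial p-group of order p^(2n+1) and H a cyclic group of order h prime to p acting on P (inside a common finite group: H normalizes P) so that C_P(x) = Z(P) for every non-identity x ∈ H. Then h divides p^n + 1 or h divides p^n − 1. -/
theorem result {G : Type*} [Group G] [Finite G] {p : ℕ} [Fact p.Prime] (P H : Subgroup G) (hP : Cfsg.IsExtraspecial p ↥P) (n : ℕ) (hn : Nat.card P = p ^ (2 * n + 1)) (hH : IsCyclic H) (hcop : (Nat.card H).Coprime p) (hHP : H ≤ Subgroup.normalizer (P : Set G)) (hfix : ∀ x ∈ H, x ≠ 1 → P ⊓ Subgroup.centralizer {x} = (Subgroup.center ↥P).map P.subtype) : Nat.card H ∣ p ^ n + 1 ∨ Nat.card H ∣ p ^ n - 1 := by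
  open H9 Subgroup in
  have hp : p.Prime := Fact.out
  obtain ⟨h1, -, h2, h3⟩ := L.isExtraspecial_iff.1 hP
  rw [map_center_subtype] at hfix
  rw [← h2] at hfix h3
  have hle : ⁅P, P⁆ ≤ P := commutator_le_of_le le_rfl le_rfl
  obtain ⟨a, ha, ha1⟩ := (bot_or_exists_ne_one _).resolve_left (FT.ne_bot_of_card_prime (h3 ▸ hp))
  obtain ⟨N, n1, n2, -⟩ := H1.extra_ambient (F := ℂ) (Representation.leftRegular ℂ (P ⊔ H : Subgroup G)) hHP hle (by
      rw [centralizer_sup]
      refine le_inf (h2.le.trans inf_le_right) fun z hz h hh => ?_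
      by_cases e : h = 1
      · simp [e]
      · exact (mem_centralizer_singleton_iff.1 ((hfix h hh e).ge hz).2).symm) le_rfl
    (a := ⟨a, mem_sup_left (hle ha)⟩) ha (fun e => ha1 (by
      have := LinearMap.congr_fun e (MonoidAlgebra.single 1 1)
      simpa [MonoidAlgebra.single_left_inj] using this))
    (fun Y hY h x hx h' => h2.ge ⟨hx, fun y hy => commutatorElement_eq_one_iff_mul_comm.1 (mem_bot.1
      (((FT.eq_bot_or_eq_of_card_prime (h3 ▸ hp) hY).resolve_right fun e => h e.ge).le (h' y hy)))⟩) hH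
    (fun h hh e x hx h' => by
      have hn : H ≤ normalizer (⁅P, P⁆ : Subgroup G) := normalizer_commutator hHP hHP
      have h4 := commutator_zpowers_le (normalizer_commutator le_normalizer le_normalizer hx) (hn hh) h'
      rw [commutator_comm] at h4
      obtain ⟨d, hd, e'⟩ := cop_fixed ((zpowers_le.2 hh).trans hn) (copA_of_p' (h1.to_le hle)
        (cop_of_le hcop (zpowers_le.2 hh))) (x := x) fun a ha => h4 (commutator_mem_commutator ha (mem_zpowers x))
      rw [centralizer_zpowers] at e'
      exact (mul_mem_cancel_left hd).1 ((hfix h hh e).le ⟨P.mul_mem (hle hd) hx, e'⟩))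
    (Nat.cast_ne_zero.2 Nat.card_pos.ne') (Nat.cast_ne_zero.2 Nat.card_pos.ne')
  have e := H1.card_mul_relIndex hle
  rw [h3, hn, ← n1, pow_succ' p, mul_comm 2 n, pow_mul] at e
  rwa [Nat.pow_left_injective two_ne_zero (Nat.eq_of_mul_eq_mul_left hp.pos e)] at n2

end Cfsg.Agent.S3767
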