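import Cfsg.Statements.S3768
import Cfsg.Agent.H1.Thompson

set_option autoImplicit false
open Cfsg

namespace Cfsg.Agent.S3768

/-- Let G be a finite Frobenius group with Frobenius complement R and Frobenius kernel K (the identity together with the elements in no conjugate of R), and let N be a normal subgroup of G not containing K. Then G/N is a Frobenius group with Frobenius complement RN/N whose Frobenius kernel is the image of K. -/
theorem result {G : Type*} [Group G] [Finite G] (R : Subgroup G) (hR : Cfsg.IsFrobeniusComplement R) (N : Subgroup G) [N.Normal] (hKN : ¬ Cfsg.frobeniusKernel R ⊆ N) : Cfsg.IsFrobeniusComplement (R.map (QuotientGroup.mk' N)) ∧ Cfsg.frobeniusKernel (R.map (QuotientGroup.mk' N)) = QuotientGroup.mk' N '' Cfsg.frobeniusKernel R := by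
  open H9 Subgroup in
  obtain ⟨K, h1, h2, h3, h4, -⟩ := H1.IsFrob.exists_kernel hR
  rw [← h2] at hKN ⊢
  have h5 : N ≤ K := (H1.normal_le_or_ge_kernel (le_top.trans (top_le_normalizer K)) h4 (h3.sup_eq_top.ge.trans' le_top)
    (le_top.trans (top_le_normalizer N))).resolve_right hKN
  have h6 := h4.im (onTop (QuotientGroup.mk' N)) le_top (le_top.trans (top_le_normalizer K))
  rw [im_onTop, im_onTop] at h6
  haveI : (K.map (QuotientGroup.mk' N)).Normal := h1.map _ (QuotientGroup.mk'_surjective N)
  have h7 : K.map (QuotientGroup.mk' N) ⊔ R.map (QuotientGroup.mk' N) = ⊤ := by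
    rw [← Subgroup.map_sup, h3.sup_eq_top, map_top_of_surjective _ (QuotientGroup.mk'_surjective N)]
  have h8 := H1.isFrob_of_fpf h7 (by rwa [Ne, Subgroup.map_eq_bot_iff, QuotientGroup.ker_mk']) (by
    rw [Ne, Subgroup.map_eq_bot_iff, QuotientGroup.ker_mk']
    exact fun h => (H1.isFrob_iff.1 hR).1 (eq_bot_iff.2 ((le_inf le_rfl (h.trans h5)).trans h4.inf_eq_bot.le))) h6
  refine ⟨h8, ?_⟩
  obtain ⟨L, l1, l2, l3, -⟩ := H1.IsFrob.exists_kernel h8
  have e := (FT.sd_of_isComplement' l3).card.trans (FT.SD.card (K := K.map (QuotientGroup.mk' N))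
    ⟨le_top.trans (top_le_normalizer _), h7, h6.symm.inf_eq_bot⟩).symm
  rw [← l2, ← coe_map]
  congr 1
  rcases H1.normal_le_or_ge_kernel (le_top.trans (top_le_normalizer _)) h6 (M := L) (h7.ge.trans' le_top)
    (le_top.trans (top_le_normalizer L)) with h | h
  · exact eq_of_le_of_card_ge h (Nat.eq_of_mul_eq_mul_right Nat.card_pos e).ge
  · exact (eq_of_le_of_card_ge h (Nat.eq_of_mul_eq_mul_right Nat.card_pos e).le).symm

end Cfsg.Agent.S3768
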