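import Cfsg.Statements.S3770
import Cfsg.Agent.FT.B3a

set_option autoImplicit false
open Cfsg

namespace Cfsg.Agent.S3770

/-- Let G and V be subgroups of a finite group with G a Frobenius group with complement R of prime order and kernel K, G normalizing V, and V an elementary abelian ℓ-group for a prime ℓ not dividing the order of G. If C_V(R) has order ℓ, then the derived subgroup of K centralizes V. -/
theorem result {X : Type*} [Group X] [Finite X] (G : Subgroup X) (V : Subgroup X) {ℓ : ℕ} (hℓ : ℓ.Prime) (hV : Cfsg.IsElementaryAbelian ℓ V) (hℓG : ¬ ℓ ∣ Nat.card G) (hGV : G ≤ Subgroup.normalizer (V : Set X)) (R : Subgroup ↥G) (hR : Cfsg.IsFrobeniusComplement R) (hRp : (Nat.card R).Prime) (hCV : Nat.card ↥(V ⊓ Subgroup.centralizer ((R.map G.subtype : Subgroup X) : Set X)) = ℓ) : ⁅Subgroup.closure (Subtype.val '' Cfsg.frobeniusKernel R), Subgroup.closure (Subtype.val '' Cfsg.frobeniusKernel R)⁆ ≤ Subgroup.centralizer (V : Set X) := by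
  open H9 Subgroup in
  haveI := Fact.mk hℓ
  have h1 : (Nat.card G).Coprime (Nat.card V) := (card_cop_of_p (elem_isP hV) (cop_iff.2 hℓG)).symm
  obtain ⟨K, k1, k2, -, k3, -⟩ := H1.IsFrob.exists_kernel hR
  rw [← k2, show Subtype.val '' (K : Set G) = (K.map G.subtype : Subgroup X) from rfl, closure_eq]
  refine FT.t3_5 (H1.isSolvable_of_isMulCommutative hV.1) ((map_subtype_le R).trans (map_subtype_le_normalizer K))
    (H1.fpf_iff.2 ?_) (FT.ne_bot_of_card_prime (by rwa [card_map_subtype])) ((map_subtype_le _).trans hGV)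
    ((map_subtype_le _).trans hGV) (H1.coprime_of_le_left h1 (map_subtype_le _))
    (H1.coprime_of_le_left h1 (map_subtype_le _)) (FT.isCyclic_of_card_prime (hCV ▸ hℓ))
  rintro _ ⟨a, ha, rfl⟩ _ ⟨b, hb, rfl⟩ e
  exact (H1.fpf_iff.1 k3 a ha b hb (Subtype.ext e)).imp (congrArg Subtype.val) (congrArg Subtype.val)

end Cfsg.Agent.S3770
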