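import Cfsg.Statements.S3771
import Cfsg.Agent.L.PG1
import Cfsg.Agent.S0129
import Mathlib

set_option autoImplicit false
open Cfsg

namespace Cfsg.Agent.S3771

open Subgroup

/-- Let p be a prime and R a finite p-group of p-rank at most 2 (no elementary abelian subgroup of order p³) in which every element has order dividing p. Then R has order at most p³. -/
theorem result {R : Type*} [Group R] [Finite R] {p : ℕ} [Fact p.Prime] (hR : IsPGroup p R) (hrank : Cfsg.PRankLE p 2 R) (hexp : ∀ x : R, x ^ p = 1) : Nat.card R ≤ p ^ 3 := by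
  have hp : p.Prime := Fact.out
  obtain ⟨A, -, -, h1, h2, h3⟩ := H1.exists_maximal_abelian_normal (A := ⊥) (L := (⊤ : Subgroup R))
    le_top le_normalizer_of_normal inferInstance
  haveI : A.Normal := normalizer_eq_top_iff.1 (eq_top_iff.2 h1)
  obtain ⟨a, ha⟩ := L.exists_card_eq_pow (hR.to_subgroup A)
  have h4 := hrank A h2 (fun x _ => hexp x)
  rw [ha] at h4
  have h5 := (Nat.pow_le_pow_iff_right hp.one_lt).1 h4
  refine (Cfsg.Agent.S0129.result hR A h2 (fun B _ h6 h7 => h3 B le_top le_normalizer_of_normal h6 h7)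
    a ha).trans (Nat.pow_le_pow_right hp.pos ?_)
  interval_cases a <;> norm_num

end Cfsg.Agent.S3771
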