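import Cfsg.Statements.S3772
import Cfsg.Agent.H1.ES2

set_option autoImplicit false
open Cfsg

namespace Cfsg.Agent.S3772

open H1

/-- Let G be a finite 2-group whose Frattini subgroup Φ(G) has order 2, with |G : Φ(G)| = 2^d, and let j be the number of elements x of G with x² = 1. Then j = 2^d, or j = 2^d + 2^(d−r) or j = 2^d − 2^(d−r) for some positive integer r with 2r ≤ d. Moreover if d = 2r and j is 2^d + 2^r or 2^d − 2^r, then G is extraspecial. -/
theorem result {G : Type*} [Group G] [Finite G] (hG : IsPGroup 2 G) (hΦ : Nat.card (frattini G) = 2) (d : ℕ) (hd : (frattini G).index = 2 ^ d) : (Nat.card {x : G // x ^ 2 = 1} = 2 ^ d ∨ ∃ r : ℕ, 1 ≤ r ∧ 2 * r ≤ d ∧ (Nat.card {x : G // x ^ 2 = 1} = 2 ^ d + 2 ^ (d - r) ∨ Nat.card {x : G // x ^ 2 = 1} + 2 ^ (d - r) = 2 ^ d)) ∧ (∀ r : ℕ, d = 2 * r → (Nat.card {x : G // x ^ 2 = 1} = 2 ^ d + 2 ^ r ∨ Nat.card {x : G // x ^ 2 = 1} + 2 ^ r = 2 ^ d) → Cfsg.IsExtraspecial 2 G) := by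
  open Subgroup in
  obtain ⟨z, hz⟩ := (Subgroup.isCyclic_iff_exists_zpowers_eq_top _).1
    (FT.isCyclic_of_card_prime (hΦ ▸ Nat.prime_two))
  have hT := hG.to_subgroup ⊤
  have h1 : ∀ x ∈ (⊤ : Subgroup G), x ^ 2 ∈ zpowers z := fun x hx => by
    rw [hz, ← L.Phi_top]; exact L.pow_mem_Phi hT hx
  have h : WS 2 ⊤ z := ⟨mem_top z, by rw [← Nat.card_zpowers, hz, hΦ], fun x hx =>
    L.le_centralizer_of_card_prime hT le_top le_normalizer_of_normal (hΦ ▸ Nat.prime_two)
      (hz ▸ mem_zpowers z) x hx, fun x hx y hy => by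
        rw [hz, ← L.Phi_top]; exact L.commutator_le_Phi hT (commutator_mem_commutator hx hy)⟩
  have h2 : Nat.card G = 2 ^ (d + 1) := by rw [← (frattini G).card_mul_index, hΦ, hd, pow_succ']
  obtain ⟨r, h3, h4⟩ := h.SS_val h1
  set Z := ⊤ ⊓ centralizer ((⊤ : Subgroup G) : Set G)
  have hZ : zpowers z ≤ Z := zpowers_le.2 ⟨h.mem, h.cen⟩
  rw [SS_top, h2] at h4
  rw [card_top, h2] at h3
  push_cast at h4
  by_cases h5 : ∀ x ∈ Z, x ^ 2 = 1
  swap
  · push Not at h5
    obtain ⟨x, hx, h5⟩ := h5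
    rw [SS_zero h.ord (fun x _ => h1 x (mem_top x)) hx (fun y _ => (mem_ZZ.1 hx).2 y (mem_top y)) h5,
      abs_zero, mul_zero, abs_eq_zero, pow_succ] at h4
    have h6 : Nat.card {x : G // x ^ 2 = 1} = 2 ^ d := by zify; omega
    refine ⟨.inl h6, fun r _ h7 => ?_⟩
    have := Nat.one_le_two_pow (n := r)
    omega
  obtain ⟨k, hk⟩ := L.exists_card_eq_pow (hG.to_subgroup Z)
  have h6 : k ≠ 0 := by
    rintro rfl
    have := card_le_of_le hZ
    rw [hk, h.card_zp] at this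
    omega
  rw [hk, ← pow_add] at h3
  have h7 : d + 1 = k + 2 * r := Nat.pow_right_injective le_rfl h3
  have h8 : r ≠ 0 := by
    rintro rfl
    have e : Z = ⊤ := eq_top_of_card_eq _ (by rw [hk, h2, h7]; rfl)
    have := L.Phi_le_of (N := ⊥) (P := (⊤ : Subgroup G)) (commutator_eq_bot_iff_le_centralizer.2
      (e.ge.trans inf_le_right)).le fun x hx => h5 x (e.ge hx)
    rw [L.Phi_top, le_bot_iff] at this
    simp [this] at hΦ
  rw [SS_exp h5, hk, Nat.abs_cast, Nat.cast_pow, Nat.cast_ofNat, ← pow_add,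
    show r + k = d - r + 1 by omega, abs_eq (by positivity), pow_succ, pow_succ] at h4
  refine ⟨.inr ⟨r, by omega, by omega, h4.imp (fun e => ?_) fun e => ?_⟩, fun s hs h9 => ?_⟩
  · zify; omega
  · zify; omega
  have h10 : (2 : ℤ) ^ (d - r) = 2 ^ s := by
    have : (0 : ℤ) < 2 ^ s := by positivity
    have : (0 : ℤ) < 2 ^ (d - r) := by positivity
    zify at h9; omega
  have h11 : d - r = s := pow_right_injective₀ (by norm_num) (by norm_num) h10
  have e : zpowers z = Z := eq_of_le_of_card_ge hZ (by rw [hk, h.card_zp, show k = 1 by omega]; rfl)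
  refine L.isExtraspecial_top_iff.1 (h.extra (fun x hx h => e.ge (mem_ZZ.2 ⟨hx, h⟩)) fun e' => ?_)
  have := h.card_zp
  rw [← e', card_top, h2] at this
  have : d + 1 = 1 := Nat.pow_right_injective le_rfl this
  omega

end Cfsg.Agent.S3772
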