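import Cfsg.Statements.S3773
import Cfsg.Agent.H1.CW
import Cfsg.Agent.H1.Btw

set_option autoImplicit false
open Cfsg

namespace Cfsg.Agent.S3773

open scoped commutatorElement
open H1
open Subgroup
open scoped commutatorElement

/-- Let G be a finite 2-group of nilpotency class at most 2 and exponent dividing 4 in which the elements x with x² = 1 form a subgroup N. Then |G| ≤ |N|³, and |G| < |N|³ unless G is special. -/
theorem result {G : Type*} [Group G] [Finite G] (hG : IsPGroup 2 G) (hcl : (⊤ : Subgroup G).lowerCentralSeries 2 = ⊥) (hexp : ∀ x : G, x ^ 4 = 1) (hN : ∀ x y : G, x ^ 2 = 1 → y ^ 2 = 1 → (x * y) ^ 2 = 1) : Nat.card G ≤ Nat.card {x : G // x ^ 2 = 1} ^ 3 ∧ (¬ Cfsg.IsSpecial 2 G → Nat.card G < Nat.card {x : G // x ^ 2 = 1} ^ 3) := by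
  haveI : Fact (Nat.Prime 2) := ⟨Nat.prime_two⟩
  have h3 : ⁅⁅(⊤ : Subgroup G), ⊤⁆, (⊤ : Subgroup G)⁆ = ⊥ := hcl
  have hc : ∀ x y z : G, Commute ⁅x, y⁆ z := fun x y z =>
    L.commute_of_commutator_eq_bot h3 (commutator_mem_commutator trivial trivial) trivial
  have c2 : ∀ x y : G, ⁅x, y⁆ ^ 2 = 1 := fun x y => by
    have := L.mul_pow_class2 (L.rel_comm y⁻¹ x⁻¹) (hc _ _ _).symm (hc _ _ _).symm 4
    rw [hexp, hexp, hexp, inv_inv, inv_inv, show Nat.choose 4 2 = 4 + 2 by rfl, pow_add, hexp] at this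
    simpa using this.symm
  have s2 : ∀ x : G, x ^ 2 ∈ center G := fun x => mem_center_iff.2 fun y =>
    (commutatorElement_eq_one_iff_mul_comm.1 (by
      rw [L.commutatorElement_pow_left (hc x y x).symm, c2])).symm
  have hΦ : frattini G ≤ L.omegaCenter 2 G := frattini_le_of_elementary Nat.prime_two
    (commutator_le.2 fun x _ y _ => L.mem_omegaCenter.2 ⟨mem_center_iff.2 fun z => (hc x y z).symm, c2 x y⟩)
    fun x => L.mem_omegaCenter.2 ⟨s2 x, by rw [← pow_mul, hexp]⟩
  let N : Subgroup G :=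
    { carrier := {z | z ^ 2 = 1}
      one_mem' := one_pow 2
      mul_mem' := fun {a b} => hN a b
      inv_mem' := fun {a} ha => by change a⁻¹ ^ 2 = 1; rw [inv_pow, ha, inv_one] }
  change Nat.card G ≤ Nat.card N ^ 3 ∧ (_ → Nat.card G < Nat.card N ^ 3)
  have f1 : frattini G ≤ center G := fun x hx => (L.mem_omegaCenter.1 (hΦ hx)).1
  have f2 : frattini G ≤ N := fun x hx => (L.mem_omegaCenter.1 (hΦ hx)).2
  have h1 := cw (P := ⊤) (W := frattini G) (N := N) (Z := center G) (hG.to_subgroup ⊤)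
    (by rwa [coe_top, centralizer_univ]) le_top f2 (fun x _ => pow_mem_frattini hG x)
    (fun x => by simp; rfl) L.top_inf_centralizer_top.ge
  rw [card_top] at h1
  have a1 := card_le_of_le f1
  have a2 := card_le_of_le f2
  have p1 : 0 < Nat.card (frattini G) := Nat.card_pos
  have h2 : Nat.card G ≤ Nat.card N ^ 2 * Nat.card (frattini G) :=
    Nat.le_of_mul_le_mul_right (by nlinarith) p1
  have h4 : Nat.card G ≤ Nat.card N ^ 3 := h2.trans (by rw [pow_succ _ 2]; gcongr)
  refine ⟨h4, fun hs => h4.lt_of_ne fun e => hs ?_⟩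
  have p2 : 0 < Nat.card N ^ 2 := pow_pos Nat.card_pos _
  have e1 : frattini G = N := eq_of_le_of_card_ge f2 (Nat.le_of_mul_le_mul_left
    (by rwa [← pow_succ, ← e]) p2)
  have e2 : frattini G = center G := eq_of_le_of_card_ge f1 (Nat.le_of_mul_le_mul_left
    (h1.trans (by rw [e, e1]; nlinarith)) (Nat.card_pos (α := G)))
  refine ⟨hG, e2, ?_⟩
  haveI := hG.isNilpotent
  rw [← e2]
  by_contra h5
  have h6 := lt_of_le_of_ne (commutator_le_frattini (G := G)) h5
  have h7 := L.mul_card_le_of_lt (hG.to_subgroup _) h6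
  obtain ⟨k, hk⟩ := L.exists_card_eq_pow (hG.to_subgroup (frattini G))
  rcases k with _ | k
  · have : 0 < Nat.card (commutator G) := Nat.card_pos
    omega
  obtain ⟨M, m1, m2, m3⟩ := exists_between (hG.to_subgroup _) h6.le (k := k) (by omega) (by omega)
  have sq : ∀ x y : G, (x * y) ^ 2 = x ^ 2 * y ^ 2 * ⁅y⁻¹, x⁻¹⁆ := fun x y => by
    simpa using L.mul_pow_class2 (L.rel_comm x y) (hc _ _ _).symm (hc _ _ _).symm 2
  have cM : ∀ x y : G, ⁅x, y⁆ ∈ M := fun x y => m1 (commutator_mem_commutator trivial trivial)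
  let A : Subgroup G :=
    { carrier := {z | z ^ 2 ∈ M}
      one_mem' := by simp
      mul_mem' := fun {a b} ha hb => by
        change (a * b) ^ 2 ∈ M
        rw [sq]; exact mul_mem (mul_mem ha hb) (cM _ _)
      inv_mem' := fun {a} ha => by change a⁻¹ ^ 2 ∈ M; rw [inv_pow]; exact inv_mem ha }
  have NA : N ≤ A := fun x hx => by change x ^ 2 ∈ M; rw [hx]; exact one_mem _
  have h8 := cw (P := A) (W := M) (N := N) (Z := center G) (hG.to_subgroup A)
    ((m2.trans f1).trans (center_le_centralizer _)) (m2.trans (f2.trans NA)) (fun x hx => f2 (m2 hx))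
    (fun x hx => hx) (fun x => ⟨fun h => ⟨NA h, h⟩, fun h => h.2⟩)
    (le_inf (by rw [← e2, e1]; exact NA) (center_le_centralizer _))
  have h9 : A.index ≤ 2 := by
    by_cases hA : A = ⊤
    · rw [hA, index_top]; omega
    obtain ⟨a, ha⟩ : ∃ x, x ∉ A := by
      by_contra! h; exact hA (eq_top_iff.2 fun x _ => h x)
    refine (index_eq_two_iff.2 ⟨a, fun b => ?_⟩).le
    have hb := mul_mem_of_half m2 (by rw [hk, m3, pow_succ']) (pow_mem_frattini hG b)
      (pow_mem_frattini hG a)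
    by_cases h : b ∈ A
    · exact Or.inr ⟨h, fun h' => ha ((A.mul_mem_cancel_left h).1 h')⟩
    · refine Or.inl ⟨?_, h⟩
      change (b * a) ^ 2 ∈ M
      rw [sq]; exact mul_mem (hb (iff_of_false h ha)) (cM _ _)
  have := A.index_mul_card
  rw [← e2, ← e1, hk, m3] at h8
  rw [e, ← e1, hk] at this
  have h10 : (2 ^ (k + 1)) ^ 3 * 2 ^ (k + 1) ≤ 2 * (2 ^ (k + 1) * 2 ^ k) ^ 2 := by
    rw [← this]; nlinarith
  rw [← pow_add, ← pow_mul, ← pow_mul, ← pow_add, ← pow_succ',
    Nat.pow_le_pow_iff_right (by norm_num)] at h10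
  omega

end Cfsg.Agent.S3773
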