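import Cfsg.Statements.S3774
import Cfsg.Agent.H1.Misc

set_option autoImplicit false
open Cfsg

namespace Cfsg.Agent.S3774

open H1
open Subgroup

/-- Let G be a nontrivial finite 2-group whose automorphism group permutes the involutions of G transitively. Then every involution of G is central, so that the involutions together with 1 form the subgroup Ω₁(Z(G)), and if this subgroup has order q then |G| is a power of q. -/
theorem result {G : Type*} [Group G] [Finite G] [Nontrivial G] (hG : IsPGroup 2 G) (htrans : ∀ x y : G, x ≠ 1 → x ^ 2 = 1 → y ≠ 1 → y ^ 2 = 1 → ∃ a : MulAut G, a x = y) : (∀ x : G, x ^ 2 = 1 → x ∈ Subgroup.center G) ∧ ∃ m : ℕ, Nat.card G = Nat.card {z : G // z ^ 2 = 1} ^ m := by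
  classical
  haveI : Fact (Nat.Prime 2) := ⟨Nat.prime_two⟩
  haveI := Fintype.ofFinite G
  have hc : ∀ x : G, x ^ 2 = 1 → x ∈ center G := by
    intro x hx
    by_cases x1 : x = 1
    · rw [x1]; exact one_mem _
    haveI := hG.center_nontrivial
    obtain ⟨z, hz⟩ := exists_prime_orderOf_dvd_card' (G := center G) 2
      ((hG.to_subgroup _).card_eq_or_dvd.resolve_left Finite.one_lt_card.ne')
    have oz : orderOf (z : G) = 2 := by rw [orderOf_coe, hz]
    obtain ⟨a, rfl⟩ := htrans z x (fun e => by rw [e, orderOf_one] at oz; omega)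
      (by rw [← oz, pow_orderOf_eq_one]) x1 hx
    exact (characteristic_iff_le_comap.1 inferInstance a) z.2
  refine ⟨hc, ?_⟩
  let Z : Subgroup G :=
    { carrier := {z | z ^ 2 = 1}
      one_mem' := one_pow 2
      mul_mem' := fun {a b} ha hb => by
        have : Commute b a := mem_center_iff.1 (hc a ha) b
        change (a * b) ^ 2 = 1
        rw [this.symm.mul_pow, ha, hb, one_mul]
      inv_mem' := fun {a} ha => by change a⁻¹ ^ 2 = 1; rw [inv_pow, ha, inv_one] }
  obtain ⟨r, hr⟩ := IsPGroup.iff_card.1 (hG.to_subgroup Z)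
  obtain ⟨n, hn⟩ := IsPGroup.iff_card.1 hG
  have e0 : Nat.card {z : G // z ^ 2 = 1} = 2 ^ r := hr
  let I : Finset G := Finset.univ.filter fun z => z ≠ 1 ∧ z ^ 2 = 1
  have hI : I.card = 2 ^ r - 1 := by
    rw [← e0, Nat.card_eq_fintype_card, Fintype.card_subtype]
    have : I = (Finset.univ.filter fun z : G => z ^ 2 = 1).erase 1 := by ext; simp [I]
    rw [this, Finset.card_erase_of_mem (by simp)]
  let f : G → G := fun x => x ^ (orderOf x / 2)
  have hf : ∀ x : G, x ≠ 1 → f x ∈ I := fun x x1 => by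
    obtain ⟨k, hk⟩ := IsPGroup.iff_orderOf.1 hG x
    rcases k with _ | k
    · exact absurd (orderOf_eq_one_iff.1 hk) x1
    have : orderOf x / 2 = 2 ^ k := by rw [hk, pow_succ]; simp
    simp only [I, f, Finset.mem_filter, Finset.mem_univ, true_and, this]
    refine ⟨pow_ne_one_of_lt_orderOf (by positivity) (by rw [hk]; gcongr <;> omega), ?_⟩
    rw [← pow_mul, ← pow_succ, ← hk, pow_orderOf_eq_one]
  have hfa : ∀ (a : MulAut G) x, f (a x) = a (f x) := fun a x => by
    simp only [f, map_pow, MulEquiv.orderOf_eq]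
  have h1 := Finset.card_eq_sum_card_fiberwise (s := Finset.univ.erase (1 : G)) (t := I) (f := f)
    fun x hx => hf x (Finset.ne_of_mem_erase hx)
  obtain ⟨x0, x1⟩ := exists_ne (1 : G)
  have h2 : ∀ z ∈ I, ((Finset.univ.erase (1 : G)).filter fun x => f x = z).card =
      ((Finset.univ.erase (1 : G)).filter fun x => f x = f x0).card := fun z hz => by
    have h0 := hf x0 x1
    simp only [I, Finset.mem_filter, Finset.mem_univ, true_and] at hz h0
    obtain ⟨a, ha⟩ := htrans _ _ hz.1 hz.2 h0.1 h0.2
    refine Finset.card_bijective a a.bijective fun x => ?_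
    simp only [Finset.mem_filter, Finset.mem_erase, Finset.mem_univ, and_true, hfa, ← ha,
      EmbeddingLike.apply_eq_iff_eq, ne_eq, EmbeddingLike.map_eq_one_iff]
  rw [Finset.sum_congr rfl h2, Finset.sum_const, smul_eq_mul, hI,
    Finset.card_erase_of_mem (Finset.mem_univ _), Finset.card_univ, ← Nat.card_eq_fintype_card,
    hn] at h1
  have h3 : r ∣ n := by
    have h4 := Nat.pow_sub_one_gcd_pow_sub_one 2 r n
    rw [Nat.gcd_eq_left ⟨_, h1⟩] at h4
    have h5 : 2 ^ r = 2 ^ r.gcd n := by
      have := Nat.one_le_two_pow (n := r)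
      have := Nat.one_le_two_pow (n := r.gcd n)
      omega
    rw [Nat.pow_right_injective le_rfl h5]; exact Nat.gcd_dvd_right _ _
  obtain ⟨m, rfl⟩ := h3
  exact ⟨m, by rw [hn, e0, pow_mul]⟩

end Cfsg.Agent.S3774
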