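import Cfsg.Statements.S3775
import Cfsg.Agent.FT.B4b
import Cfsg.Agent.H1.Section

set_option autoImplicit false
open Cfsg

namespace Cfsg.Agent.S3775

open H9 Subgroup

def Inv {A : Type*} [Group A] (X : Subgroup (MulAut A)) (B : Subgroup A) : Prop := ∀ x ∈ X, ∀ b ∈ B, x b ∈ B

theorem inv_iff {A : Type*} [Group A] {X : Subgroup (MulAut A)} {B : Subgroup A} :
    (∀ x ∈ X, B.map x.toMonoidHom = B) ↔ Inv X B :=
  ⟨fun h x hx b hb => (h x hx).le ⟨b, hb, rfl⟩, fun h x hx => le_antisymm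
    (by rintro _ ⟨b, hb, rfl⟩; exact h x hx b hb) fun b hb => ⟨x⁻¹ b, h _ (inv_mem hx) b hb, by simp⟩⟩

theorem Inv.inf {A : Type*} [Group A] {X : Subgroup (MulAut A)} {B C : Subgroup A} (h : Inv X B) (h' : Inv X C) :
    Inv X (B ⊓ C) := fun x hx b hb => ⟨h x hx b hb.1, h' x hx b hb.2⟩

theorem Inv.sup {A : Type*} [Group A] {X : Subgroup (MulAut A)} {B C : Subgroup A} (h : Inv X B) (h' : Inv X C) :
    Inv X (B ⊔ C) := inv_iff.1 fun x hx => by rw [Subgroup.map_sup, inv_iff.2 h x hx, inv_iff.2 h' x hx]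

theorem Inv.cm {A : Type*} [CommGroup A] {X : Subgroup (MulAut A)} {B : Subgroup A} (h : Inv X B) (n : ℕ) :
    Inv X (B.comap (powMonoidHom n)) := fun x hx b hb => by
  rw [mem_comap, powMonoidHom_apply, ← map_pow]; exact h x hx _ hb

theorem Inv.mp {A : Type*} [CommGroup A] {X : Subgroup (MulAut A)} {B : Subgroup A} (h : Inv X B) (n : ℕ) :
    Inv X (B.map (powMonoidHom n)) := by
  rintro x hx _ ⟨b, hb, rfl⟩
  exact ⟨x b, h x hx b hb, (map_pow x b n).symm⟩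

theorem inv_bot {A : Type*} [Group A] {X : Subgroup (MulAut A)} : Inv X ⊥ := fun x _ b hb => by
  rw [mem_bot.1 hb, map_one]; exact one_mem _

theorem masch {A : Type*} [CommGroup A] [Finite A] {p : ℕ} [Fact p.Prime] {X : Subgroup (MulAut A)}
    (hX : (Nat.card X).Coprime p) {K W V : Subgroup A} (hK : Inv X K) (hW : Inv X W) (hV : Inv X V)
    (h1 : K ≤ W) (h2 : W ≤ V) (h : ∀ v ∈ V, v ^ p ∈ K) :
    ∃ U, Inv X U ∧ K ≤ U ∧ U ≤ V ∧ U ⊓ W ≤ K ∧ V ≤ U ⊔ W := by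
  obtain ⟨Γ, _, _, i, j, hi, hj, e, -, hs, -⟩ := H1.exists_ambient X.subtype
  have nj : ∀ B, Inv X B → j.range ≤ normalizer (B.map i : Set Γ) := fun B hB => le_normalizer_of_cj_le (by
    rintro _ ⟨x, rfl⟩ _ ⟨_, ⟨b, hb, rfl⟩, rfl⟩
    exact ⟨x.1 b, hB x x.2 b hb, (e x b).symm⟩)
  haveI : (K.map i).Normal := normalizer_eq_top_iff.1 (top_le_iff.1 (hs.ge.trans (sup_le (nj K hK)
    (le_normalizer_of_cj_le (by
      rintro _ ⟨x, rfl⟩ _ ⟨_, ⟨b, hb, rfl⟩, rfl⟩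
      exact ⟨b, hb, by simp [← map_mul, ← map_inv]⟩)))))
  obtain ⟨g, hg⟩ : ∃ g, g = (QuotientGroup.mk' (K.map i)).comp i := ⟨_, rfl⟩
  have hk : g.ker = K := by
    rw [hg, ← MonoidHom.comap_ker, QuotientGroup.ker_mk', comap_map_eq_self_of_injective hi]
  have ng : ∀ B, Inv X B → j.range.map (QuotientGroup.mk' (K.map i)) ≤ normalizer (B.map g : Set _) := fun B hB => by
    rw [hg, ← Subgroup.map_map]
    exact (map_mono (nj B hB)).trans (le_normalizer_map _)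
  obtain ⟨U, hU, nU⟩ := FT.maschke (p := p) (V := V.map g) ⟨inferInstance, by
    rintro _ ⟨v, hv, rfl⟩
    rw [← map_pow]; exact hk.ge (h v hv)⟩ (map_mono h2) (ng V hV) (ng W hW)
    (hX.coprime_dvd_left ((card_map_dvd _ _).trans (card_range_dvd j)))
  refine ⟨U.comap g, fun x hx b hb => ?_, hk.ge.trans (ker_le_comap _ _), ?_, ?_, ?_⟩
  · have := conj_mem_of_le_normalizer nU ⟨_, ⟨⟨x, hx⟩, rfl⟩, rfl⟩ hb
    rw [hg, MonoidHom.comp_apply, ← map_inv, ← map_mul, ← map_mul, e] at this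
    rw [mem_comap, hg]; exact this
  · rw [← comap_map_eq_self (hk.le.trans (h1.trans h2)), ← hU.sup]
    exact comap_mono le_sup_right
  · rw [← comap_map_eq_self (hk.le.trans h1), ← comap_inf, inf_comm, hU.inf, MonoidHom.comap_bot, hk]
  · intro v hv
    obtain ⟨_, ⟨w, hw, rfl⟩, u, hu, e'⟩ := (mem_sup_of_le_normalizer' (N := W.map g) (H := U)
      (((le_sup_right.trans hU.sup.le).trans (L.le_centralizer_of_comm inferInstance)).trans
      ((centralizer_anti (map_mono h2)).trans (centralizer_le_normalizer' _)))).1 (hU.sup.ge ⟨v, hv, rfl⟩)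
    refine mem_sup.2 ⟨w⁻¹ * v, ?_, w, hw, by simp [mul_comm]⟩
    rw [mem_comap, map_mul, map_inv, ← e', inv_mul_cancel_left]; exact hu

theorem one_three {A : Type*} [CommGroup A] [Finite A] {p : ℕ} [Fact p.Prime] (hA : IsPGroup p A)
    {X : Subgroup (MulAut A)} (hX : (Nat.card X).Coprime p)
    (h : ∀ B C : Subgroup A, B ≠ ⊥ → Inv X B → Inv X C → B ⊓ C = ⊥ → B ⊔ C = ⊤ → C = ⊥)
    {B : Subgroup A} (hB : Inv X B) (h0 : B ≠ ⊥) (hp : ∀ b ∈ B, b ^ p = 1) {a : A} (ha : a ^ p = 1) : a ∈ B := by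
  classical
  have hex : ∃ e, ∀ a : A, a ^ p ^ e = 1 := by
    obtain ⟨n, hn⟩ := hA.exists_card_eq
    exact ⟨n, fun a => hn ▸ pow_card_eq_one'⟩
  obtain ⟨e, he⟩ : ∃ e, Nat.find hex = e + 1 := Nat.exists_eq_succ_of_ne_zero fun h' => h0 (eq_bot_iff.2 fun b _ => by
    simpa [h'] using Nat.find_spec hex b)
  have h1 : ∀ a : A, a ^ p ^ (e + 1) = 1 := he ▸ Nat.find_spec hex
  have h2 : ¬ ∀ a : A, a ^ p ^ e = 1 := Nat.find_min hex (by omega)
  have iD := (inv_bot (X := X)).cm (p ^ e)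
  obtain ⟨D, hD⟩ : ∃ D, D = (⊥ : Subgroup A).comap (powMonoidHom (p ^ e)) := ⟨_, rfl⟩
  have mD : ∀ a, a ∈ D ↔ a ^ p ^ e = 1 := fun a => by rw [hD]; exact mem_bot
  rw [← hD] at iD
  obtain ⟨H, -, ⟨iH, HD⟩, hmin⟩ := Finite.exists_le_minimal (p := fun H => Inv X H ∧ ¬ H ≤ D)
    (⟨fun _ _ _ _ => trivial, fun h' => h2 fun a => (mD a).1 (h' (mem_top a))⟩ : Inv X ⊤ ∧ ¬ ⊤ ≤ D)
  have h3 : H ⊓ D ≤ H.map (powMonoidHom p) := by
    obtain ⟨U, iU, -, u2, u3, u4⟩ := masch hX (iH.mp p) (iH.inf iD) iH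
      (by rintro _ ⟨b, hb, rfl⟩; exact ⟨H.pow_mem hb p, (mD _).2 (by rw [powMonoidHom_apply, ← pow_mul, ← pow_succ', h1])⟩)
      inf_le_left fun v hv => ⟨v, hv, rfl⟩
    exact (le_inf (inf_le_left.trans (hmin ⟨iU, fun h' => HD (u4.trans (sup_le h' inf_le_right))⟩ u2)) le_rfl).trans u3
  obtain ⟨K, -, ⟨iK, KH⟩, hmax⟩ := Finite.exists_le_maximal (p := fun K => Inv X K ∧ H ⊓ K = ⊥)
    (⟨inv_bot, inf_bot_eq H⟩ : Inv X ⊥ ∧ H ⊓ ⊥ = ⊥)
  have h4 : ∀ a, a ^ p ∈ H ⊔ K → a ∈ H ⊔ K := fun a ha => by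
    obtain ⟨U, iU, u1, u2, u3, u4⟩ := masch hX iK (((iK.cm p).inf iH).sup iK) (iK.cm p) le_sup_right
      (sup_le inf_le_left fun k hk => K.pow_mem hk p) fun v hv => hv
    have hU : U ≤ K := hmax ⟨iU, le_bot_iff.1 (KH ▸ le_inf inf_le_left ((le_inf inf_le_right
      (le_sup_of_le_left (le_inf (inf_le_right.trans u2) inf_le_left))).trans u3))⟩ u1
    obtain ⟨y, hy, k, hk, e'⟩ := mem_sup.1 ha
    have : y ^ p ^ e * k ^ p ^ e = 1 := by rw [← mul_pow, e', ← pow_mul, ← pow_succ', h1]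
    obtain ⟨z, hz, rfl⟩ := h3 ⟨hy, (mD y).2 (mem_bot.1 (KH.le ⟨H.pow_mem hy _, by
      rw [eq_inv_of_mul_eq_one_left this]; exact K.inv_mem (K.pow_mem hk _)⟩))⟩
    have : z⁻¹ * a ∈ H ⊔ K := (u4.trans (sup_le (le_sup_of_le_right hU) (sup_le_sup_right inf_le_right _))) (by
      rw [mem_comap, powMonoidHom_apply, mul_pow, ← e', inv_pow, powMonoidHom_apply, inv_mul_cancel_left]; exact hk)
    exact (mul_mem_cancel_left (inv_mem (mem_sup_left hz))).1 this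
  have h5 : ∀ n (a : A), a ^ p ^ n ∈ H ⊔ K → a ∈ H ⊔ K := fun n => by
    induction n with
    | zero => simp
    | succ n ih => exact fun a ha => ih a (h4 _ (by rwa [← pow_mul, ← pow_succ]))
  have h6 : H ⊔ K = ⊤ := eq_top_iff.2 fun a _ => h5 (e + 1) a (by rw [h1]; exact one_mem _)
  rw [h H K (fun h' => HD (h' ▸ bot_le)) iH iK KH h6, sup_bot_eq] at h6
  subst h6
  have h7 : ∀ a : A, a ^ p = 1 → ∀ j ≤ e, ∃ c : A, c ^ p ^ j = a := fun a ha j hj => by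
    induction j with
    | zero => exact ⟨a, by simp⟩
    | succ j ih =>
      obtain ⟨c, rfl⟩ := ih (by omega)
      obtain ⟨d, -, rfl⟩ := h3 (⟨mem_top c, (mD c).2 (L.pow_eq_one_of_dvd (by rwa [← pow_mul, ← pow_succ] at ha)
        (pow_dvd_pow p hj))⟩ : c ∈ ⊤ ⊓ D)
      exact ⟨d, by rw [powMonoidHom_apply, ← pow_mul, ← pow_succ']⟩
  obtain ⟨c, rfl⟩ := h7 a ha e le_rfl
  refine hmin ⟨hB.cm (p ^ e), fun h' => h0 (eq_bot_iff.2 fun b hb => ?_)⟩ le_top (mem_top c)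
  obtain ⟨d, rfl⟩ := h7 b (hp b hb) e le_rfl
  exact (mD d).1 (h' hb)

/-- Let A be a finite abelian p-group and X a group of automorphisms of A of order prime to p. Call a subgroup of A invariant when every element of X maps it onto itself. Then the following are equivalent: (i) A is not the direct product of two nontrivial invariant subgroups; (ii) every invariant subgroup of A is one of the subgroups Ω_i(A) = {a : a^(p^i) = 1}; (iii) the subgroup Ω₁(A) of elements of order dividing p has no invariant subgroups other than 1 and itself. -/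
theorem result {A : Type*} [CommGroup A] [Finite A] {p : ℕ} [Fact p.Prime] (hA : IsPGroup p A) (X : Subgroup (MulAut A)) (hX : (Nat.card X).Coprime p) : ((¬ ∃ B C : Subgroup A, B ≠ ⊥ ∧ C ≠ ⊥ ∧ (∀ x ∈ X, B.map x.toMonoidHom = B) ∧ (∀ x ∈ X, C.map x.toMonoidHom = C) ∧ B ⊓ C = ⊥ ∧ B ⊔ C = ⊤) ↔ (∀ B : Subgroup A, (∀ x ∈ X, B.map x.toMonoidHom = B) → ∃ i : ℕ, ∀ a : A, a ∈ B ↔ a ^ p ^ i = 1)) ∧ ((∀ B : Subgroup A, (∀ x ∈ X, B.map x.toMonoidHom = B) → ∃ i : ℕ, ∀ a : A, a ∈ B ↔ a ^ p ^ i = 1) ↔ (∀ B : Subgroup A, (∀ x ∈ X, B.map x.toMonoidHom = B) → (∀ b ∈ B, b ^ p = 1) → B = ⊥ ∨ ∀ a : A, a ∈ B ↔ a ^ p = 1)) := by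
  classical
  simp only [inv_iff]
  have hp : p.Prime := Fact.out
  have h23 : (∀ B : Subgroup A, Inv X B → ∃ i : ℕ, ∀ a : A, a ∈ B ↔ a ^ p ^ i = 1) →
      ∀ B : Subgroup A, Inv X B → (∀ b ∈ B, b ^ p = 1) → B = ⊥ ∨ ∀ a : A, a ∈ B ↔ a ^ p = 1 := fun h B hB h' => by
    obtain ⟨i, hi⟩ := h B hB
    rcases i with _ | i
    · exact Or.inl (eq_bot_iff.2 fun a ha => by simpa using (hi a).1 ha)
    · exact Or.inr fun a => ⟨h' a, fun ha => (hi a).2 (by rw [pow_succ', pow_mul, ha, one_pow])⟩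
  have h32 : (∀ B : Subgroup A, Inv X B → (∀ b ∈ B, b ^ p = 1) → B = ⊥ ∨ ∀ a : A, a ∈ B ↔ a ^ p = 1) →
      ∀ B : Subgroup A, Inv X B → ∃ i : ℕ, ∀ a : A, a ∈ B ↔ a ^ p ^ i = 1 := fun h B hB => by
    have hex : ∃ e, ∀ a ∈ B, a ^ p ^ e = 1 := by
      obtain ⟨n, hn⟩ := hA.exists_card_eq
      exact ⟨n, fun a _ => hn ▸ pow_card_eq_one'⟩
    refine ⟨Nat.find hex, fun a => ⟨Nat.find_spec hex a, ?_⟩⟩
    rcases he : Nat.find hex with _ | e
    · intro h; rw [pow_zero, pow_one] at h; rw [h]; exact one_mem _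
    have h1 : ∀ a ∈ B, a ^ p ^ (e + 1) = 1 := he ▸ Nat.find_spec hex
    have h2 : ¬ ∀ a ∈ B, a ^ p ^ e = 1 := Nat.find_min hex (by omega)
    have h3 := (h _ (hB.mp (p ^ e)) (by
      rintro _ ⟨b, hb, rfl⟩
      rw [powMonoidHom_apply, ← pow_mul, ← pow_succ, h1 b hb])).resolve_left fun h' =>
        h2 fun a ha => mem_bot.1 (h'.le ⟨a, ha, rfl⟩)
    have h4 : ∀ j ≤ e + 1, ∀ a : A, a ^ p ^ j = 1 → a ∈ B := fun j hj => by
      induction j with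
      | zero => intro a h; rw [pow_zero, pow_one] at h; rw [h]; exact one_mem _
      | succ j ih =>
        intro a ha
        obtain ⟨b, hb, e'⟩ := (h3 (a ^ p ^ j)).2 (by rwa [← pow_mul, ← pow_succ])
        refine (mul_mem_cancel_left (inv_mem (pow_mem hb (p ^ (e - j))))).1 (ih (by omega) _ ?_)
        rw [mul_pow, inv_pow, ← pow_mul, ← pow_add, Nat.sub_add_cancel (by omega), ← e', powMonoidHom_apply,
          inv_mul_cancel]
    exact h4 _ le_rfl a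
  refine ⟨⟨fun h => h32 fun B hB h' => or_iff_not_imp_left.2 fun h0 a => ⟨h' a, one_three hA hX
    (fun B C h1 h2 h3 h4 h5 => by_contra fun h6 => h ⟨B, C, h1, h6, h2, h3, h4, h5⟩) hB h0 h'⟩, ?_⟩, h23, h32⟩
  rintro h ⟨B, C, h1, h2, h3, h4, h5, -⟩
  obtain ⟨i, hi⟩ := h B h3
  obtain ⟨j, hj⟩ := h C h4
  rcases le_total i j with h' | h'
  · exact h1 (h5 ▸ left_eq_inf.2 fun a ha => (hj a).2 (L.pow_eq_one_of_dvd ((hi a).1 ha) (pow_dvd_pow p h')))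
  · exact h2 (h5 ▸ right_eq_inf.2 fun a ha => (hi a).2 (L.pow_eq_one_of_dvd ((hj a).1 ha) (pow_dvd_pow p h')))

end Cfsg.Agent.S3775
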