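import Cfsg.Statements.S3778
import Cfsg.Agent.H1.Coprime

set_option autoImplicit false
open Cfsg

namespace Cfsg.Agent.S3778

open Subgroup
open scoped commutatorElement

/-- If G is a finite p-group in which every conjugacy class has at most p^b elements (every element has centralizer of index at most p^b), then G is abelian when b = 0, and when b ≥ 1 its nilpotency class c satisfies (c − 1)(p − 1) < bp, that is c < bp/(p − 1) + 1, and hence c ≤ 2b. -/
theorem result {G : Type*} [Group G] [Finite G] {p : ℕ} [Fact p.Prime] (hG : IsPGroup p G) (b : ℕ) (hb : ∀ x : G, (Subgroup.centralizer ({x} : Set G)).index ≤ p ^ b) : ∃ c : ℕ, (⊤ : Subgroup G).lowerCentralSeries c = ⊥ ∧ (b ≠ 0 → (c - 1) * (p - 1) < b * p ∧ c ≤ 2 * b) ∧ (b = 0 → c ≤ 1) := by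
  classical
  have hp : p.Prime := Fact.out
  haveI := hG.isNilpotent
  haveI := Fintype.ofFinite G
  set c := Group.nilpotencyClass G
  let γ := (⊤ : Subgroup G).lowerCentralSeries
  let C : ℕ → G → Subgroup G := fun j x => (centralizer {(x : G ⧸ γ j)}).comap (QuotientGroup.mk' (γ j))
  have mC : ∀ j x g, g ∈ C j x ↔ ⁅g, x⁆ ∈ γ j := fun j x g => by
    rw [mem_comap, mem_centralizer_singleton_iff, ← QuotientGroup.eq_one_iff, ← commutatorElement_eq_one_iff_mul_comm]
    rfl
  have hy : ∀ i, ∃ y ∈ γ i, i + 1 < c → C (i + 2) y ≠ ⊤ := fun i => by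
    by_contra h
    push Not at h
    have h1 : γ (i + 1) ≠ ⊥ := fun e => (h 1 (one_mem _)).1.not_ge 
      (Subgroup.lowerCentralSeries_eq_bot_iff_nilpotencyClass_le.1 e)
    refine H1.not_le_commutator_of_nilpotent (L := ⊤) inferInstance le_top h1 (commutator_le.2 fun y hy x _ => ?_)
    have := inv_mem ((mC _ _ _).1 ((h y hy).2.ge (mem_top x)))
    rwa [commutatorElement_inv] at this
  choose y hy hy' using hy
  have h1 : ∀ x j, p ^ ((Finset.range j).filter fun i => x ∉ C (i + 2) (y i)).card ≤ (C (j + 1) x).index := fun x j => by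
    induction j with
    | zero => exact Nat.pos_of_ne_zero index_ne_zero_of_finite
    | succ j ih =>
    have le : C (j + 1 + 1) x ≤ C (j + 1) x := fun g hg => (mC _ _ _).2 (Subgroup.lowerCentralSeries_antitone _ (by omega)
      ((mC _ _ _).1 hg))
    rw [Finset.range_add_one, Finset.filter_insert]
    split_ifs with h
    · exact ih.trans (Nat.le_of_dvd (Nat.pos_of_ne_zero index_ne_zero_of_finite) (index_dvd_of_le le))
    rw [Finset.card_insert_of_notMem (by simp), pow_succ', ← relIndex_mul_index le]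
    refine Nat.mul_le_mul (Nat.le_of_dvd (Nat.pos_of_ne_zero index_ne_zero_of_finite) ?_) ih
    obtain ⟨k, hk⟩ := (hG.to_subgroup (C (j + 1) x)).index ((C (j + 1 + 1) x).subgroupOf _)
    refine (dvd_pow_self p fun e => h ?_).trans hk.symm.dvd
    rw [e, pow_zero] at hk
    have := inv_mem ((mC _ _ _).1 (relIndex_eq_one.1 hk ((mC _ _ _).2 (commutator_mem_commutator (hy j) (mem_top x)))))
    rwa [commutatorElement_inv, ← mC] at this
  have h2 : ∀ x, ((Finset.range (c - 1)).filter fun i => x ∉ C (i + 2) (y i)).card ≤ b := fun x => by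
    refine (Nat.pow_le_pow_iff_right hp.one_lt).1 ((h1 x _).trans ((Nat.le_of_dvd (Nat.pos_of_ne_zero
      index_ne_zero_of_finite) (index_dvd_of_le fun g hg => (mC _ _ _).2 ?_)).trans (hb x)))
    rw [commutatorElement_eq_one_iff_mul_comm.2 (mem_centralizer_singleton_iff.1 hg)]
    exact one_mem _
  have h3 : ∀ i ∈ Finset.range (c - 1), (p - 1) * Nat.card G ≤ p * (Finset.univ.filter fun x => x ∉ C (i + 2) (y i)).card :=
    fun i hi => by
      obtain ⟨k, hk⟩ := hG.index (C (i + 2) (y i))
      have e1 := Nat.le_of_dvd (Nat.pos_of_ne_zero index_ne_zero_of_finite) (hk ▸ dvd_pow_self p fun e =>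
        hy' i (by rw [Finset.mem_range] at hi; omega) (index_eq_one.1 (by rw [hk, e, pow_zero])) : p ∣ (C (i + 2) (y i)).index)
      have e2 := (C (i + 2) (y i)).card_mul_index
      have e3 : (Finset.univ.filter fun x => x ∈ C (i + 2) (y i)).card = Nat.card (C (i + 2) (y i)) := by
        rw [Nat.card_eq_fintype_card, Fintype.card_subtype]
      have e4 := Finset.card_filter_add_card_filter_not (s := Finset.univ) fun x => x ∈ C (i + 2) (y i)
      rw [e3, Finset.card_univ, ← Nat.card_eq_fintype_card] at e4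
      obtain ⟨q, rfl⟩ : ∃ q, p = q + 1 := ⟨p - 1, by have := hp.pos; omega⟩
      rw [Nat.add_sub_cancel]
      nlinarith
  have h4 := Finset.sum_le_sum h3
  rw [Finset.sum_const, Finset.card_range, smul_eq_mul, ← Finset.mul_sum] at h4
  simp_rw [Finset.card_filter] at h4 h2
  rw [Finset.sum_comm] at h4
  have h0 : 0 < Nat.card G := Nat.card_pos
  have h5 : b ≠ 0 → (c - 1) * (p - 1) < b * p := fun hb0 => by
    have := Finset.sum_lt_sum (s := Finset.univ) (fun x _ => h2 x) ⟨1, Finset.mem_univ _, by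
      simpa [one_mem] using Nat.pos_of_ne_zero hb0⟩
    rw [Finset.sum_const, Finset.card_univ, ← Nat.card_eq_fintype_card, smul_eq_mul] at this
    have h6 := h4.trans_lt (Nat.mul_lt_mul_of_pos_left this hp.pos)
    exact Nat.lt_of_mul_lt_mul_right (a := Nat.card G) (by nlinarith)
  refine ⟨c, Subgroup.lowerCentralSeries_nilpotencyClass, fun hb0 => ⟨h5 hb0, ?_⟩, fun hb0 => ?_⟩
  · have := h5 hb0
    obtain ⟨q, rfl⟩ : ∃ q, p = q + 2 := ⟨p - 2, by have := hp.two_le; omega⟩
    by_contra h
    obtain ⟨d, hd⟩ : ∃ d, c = 2 * b + 1 + d := ⟨c - (2 * b + 1), by omega⟩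
    rw [hd, show 2 * b + 1 + d - 1 = 2 * b + d by omega, show q + 2 - 1 = q + 1 by omega] at this
    nlinarith
  · rw [Finset.sum_eq_zero fun x _ => Nat.le_zero.1 (hb0 ▸ h2 x), mul_zero, Nat.le_zero, mul_eq_zero, mul_eq_zero] at h4
    have := hp.two_le
    omega

end Cfsg.Agent.S3778
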