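import Cfsg.Statements.S3780
import Cfsg.Agent.L.PG2

set_option autoImplicit false
open Cfsg

namespace Cfsg.Agent.S3780

open scoped Pointwise
open H1
open Subgroup

theorem gen {G : Type*} [Group G] [Finite G] {p : ℕ} [hp : Fact p.Prime] (hG : IsPGroup p G) (d : ℕ) :
    ∀ K : Subgroup G, K.index ≤ p ^ d → ∃ S : Finset G, S.card ≤ d ∧ closure (S : Set G) ⊔ K = ⊤ := by
  classical
  induction d with
  | zero =>
    intro K h
    exact ⟨∅, le_rfl, by
      rw [(index_eq_one (H := K)).1 (le_antisymm (by simpa using h) (Nat.pos_of_ne_zero index_ne_zero_of_finite))]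
      simp⟩
  | succ d ih =>
    intro K h
    by_cases h0 : K = ⊤
    · exact ⟨∅, by simp, by simp [h0]⟩
    obtain ⟨x, hx⟩ : ∃ x, x ∉ K := by
      by_contra! h; exact h0 (eq_top_iff.2 fun x _ => h x)
    have h1 : K < zpowers x ⊔ K := lt_of_le_of_ne le_sup_right fun e =>
      hx (e ▸ mem_sup_left (mem_zpowers x))
    have h2 := L.mul_card_le_of_lt (hG.to_subgroup _) h1
    have h3 := K.index_mul_card
    have h4 := (zpowers x ⊔ K).index_mul_card
    obtain ⟨S, s1, s2⟩ := ih (zpowers x ⊔ K) (by
      have h5 : 0 < Nat.card K := Nat.card_pos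
      have : (zpowers x ⊔ K).index * p * Nat.card K ≤ p ^ d * p * Nat.card K := by
        rw [← pow_succ]; nlinarith
      exact Nat.le_of_mul_le_mul_right (Nat.le_of_mul_le_mul_right this h5) hp.out.pos)
    refine ⟨insert x S, (Finset.card_insert_le _ _).trans (by omega), ?_⟩
    rw [Finset.coe_insert, Set.insert_eq, Subgroup.closure_union, ← zpowers_eq_closure, sup_comm (zpowers x),
      sup_assoc, s2]

theorem card_ker_pow {A : Type*} [AddCommGroup A] [Finite A] (f : Module.End ℤ A) (k : ℕ) :
    Nat.card (LinearMap.ker (f ^ k)) ≤ Nat.card (LinearMap.ker f) ^ k := by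
  induction k with
  | zero => rw [pow_zero, pow_zero, Module.End.one_eq_id, LinearMap.ker_id]; simp
  | succ k ih =>
    let g : LinearMap.ker (f ^ (k + 1)) →+ A := f.toAddMonoidHom.comp (Submodule.subtype _).toAddMonoidHom
    have h1 : g.range ≤ (LinearMap.ker (f ^ k)).toAddSubgroup := by
      rintro _ ⟨⟨x, hx⟩, rfl⟩
      rw [pow_succ] at hx; exact hx
    have h2 : Nat.card g.ker ≤ Nat.card (LinearMap.ker f) :=
      Nat.card_le_card_of_injective (fun x => ⟨x.1.1, x.2⟩) fun x y h =>
        Subtype.ext (Subtype.ext (congrArg Subtype.val h :))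
    rw [← g.ker.index_mul_card, AddSubgroup.index_ker, pow_succ (Nat.card _)]
    exact Nat.mul_le_mul ((AddSubgroup.card_le_of_le h1).trans ih) h2

/-- Let V be a finite abelian p-group and α an automorphism of V of order p whose fixed-point subgroup has order p^n. Then V can be generated by pn elements: some subset of V with at most pn elements generates V. -/
theorem result {V : Type*} [CommGroup V] [Finite V] {p : ℕ} [Fact p.Prime] (hV : IsPGroup p V) (α : MulAut V) (hα : orderOf α = p) (n : ℕ) (hfix : Nat.card {v : V // α v = v} = p ^ n) : ∃ S : Finset V, S.card ≤ p * n ∧ Subgroup.closure (S : Set V) = ⊤ := by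
  have hp : p.Prime := Fact.out
  let a : Module.End ℤ (Additive V) := (MonoidHom.toAdditive α.toMonoidHom).toIntLinearMap
  have ha : ∀ k v, (a ^ k) v = Additive.ofMul ((α ^ k) v.toMul) := fun k => by
    induction k with
    | zero => intro v; rfl
    | succ k ih => intro v; rw [pow_succ, pow_succ, Module.End.mul_apply, ih]; rfl
  have h1 : a ^ p = 1 := LinearMap.ext fun v => by
    rw [ha, ← hα, pow_orderOf_eq_one]; rfl
  obtain ⟨r, hr⟩ := (Commute.one_right (a - 1)).exists_add_pow_prime_eq hp
  rw [sub_add_cancel, h1, one_pow, mul_one] at hr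
  have h2 : Nat.card (LinearMap.ker (a - 1)) = p ^ n := by
    rw [← hfix]
    refine Nat.card_congr (Equiv.subtypeEquiv Additive.toMul fun v => ?_)
    rw [LinearMap.mem_ker]
    exact sub_eq_zero
  have h3 : Nat.card (powMonoidHom p : V →* V).ker ≤ Nat.card (LinearMap.ker ((a - 1) ^ p)) := by
    refine Nat.card_le_card_of_injective (fun x => ⟨Additive.ofMul x.1, ?_⟩) fun x y h =>
      Subtype.ext (Additive.ofMul.injective (congrArg Subtype.val h :))
    have e : (a - 1) ^ p = -((a - 1) * r * p) := by
      rw [mul_assoc, ← Nat.cast_comm, ← mul_assoc, ← Nat.cast_comm]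
      exact eq_neg_of_add_eq_zero_left (by
        rw [add_right_comm] at hr; exact (add_eq_right.1 hr.symm))
    have : p • Additive.ofMul x.1 = 0 := x.2
    rw [LinearMap.mem_ker, e]
    rw [LinearMap.neg_apply, Module.End.mul_apply, Module.End.natCast_apply, this, map_zero, neg_zero]
  obtain ⟨S, s1, s2⟩ := gen hV (p * n) (frattini V) (by
    refine (index_antitone (H := (powMonoidHom p : V →* V).range) ?_).trans ?_
    · rintro _ ⟨x, rfl⟩; exact pow_mem_frattini hV x
    rw [index_range, mul_comm, pow_mul, ← h2]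
    exact h3.trans (card_ker_pow _ _))
  exact ⟨S, s1, frattini_nongenerating s2⟩

end Cfsg.Agent.S3780
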