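import Cfsg.Statements.S3781
import Cfsg.Agent.H1.Coprime
import Cfsg.Agent.H9.Subn

set_option autoImplicit false
open Cfsg

namespace Cfsg.Agent.S3781

open Subgroup

theorem nrm {G : Type*} [Group G] (j : ℕ) (A : Subgroup G) [A.Normal] : ((fun X : Subgroup G => ⁅X, ⊤⁆)^[j] A).Normal := by
  induction j with
  | zero => assumption
  | succ j ih => rw [Function.iterate_succ_apply']; infer_instance

theorem l1 {G : Type*} [Group G] (j : ℕ) : ∀ (A : Subgroup G) [A.Normal],
    ⁅A, (⊤ : Subgroup G).lowerCentralSeries j⁆ ≤ (fun X : Subgroup G => ⁅X, ⊤⁆)^[j + 1] A := by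
  induction j with
  | zero => exact fun A _ => le_rfl
  | succ j ih =>
  intro A _
  haveI := nrm (j + 1 + 1) A
  rw [commutator_comm, Subgroup.lowerCentralSeries_succ]
  refine H9.three_subgroups le_normalizer_of_normal le_normalizer_of_normal le_normalizer_of_normal ?_ ?_
  · rw [commutator_comm ⊤ A]; exact ih _
  · rw [Function.iterate_succ_apply']; exact commutator_mono (ih A) le_rfl

theorem l2 {G : Type*} [Group G] [Finite G] {p : ℕ} [hp : Fact p.Prime] (hG : IsPGroup p G) (m : ℕ) :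
    ∀ (A : Subgroup G) [A.Normal], Nat.card A ≤ p ^ m → (fun X : Subgroup G => ⁅X, ⊤⁆)^[m] A = ⊥ := by
  induction m with
  | zero => exact fun A _ h => card_eq_one.1 (le_antisymm (by simpa using h) Nat.card_pos)
  | succ m ih =>
  intro A _ h
  refine ih _ ?_
  rcases eq_or_ne A ⊥ with rfl | h0
  · simpa using Nat.one_le_pow _ _ hp.out.pos
  have h1 := H1.card_lt_of_lt (H1.commutator_lt_of_isPGroup (hG.to_subgroup A) (hG.to_subgroup ⊤) le_normalizer_of_normal h0)
  obtain ⟨k, hk⟩ := (hG.to_subgroup ⁅A, ⊤⁆).exists_card_eq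
  have := (Nat.pow_lt_pow_iff_right hp.out.one_lt).1 (hk ▸ h1.trans_le h)
  exact hk ▸ Nat.pow_le_pow_right hp.out.pos (by omega)

/-- Let G be a finite p-group and n ≥ 1, and write γ_1(G) = G, γ_{k+1}(G) = [γ_k(G), G], and likewise γ_k(N) for a subgroup N. Let N be a normal subgroup of G contained in γ_n(G). If i > 1 and γ_{i+1}(N) ≠ 1, then |γ_i(N) : γ_{i+1}(N)| ≥ p^n. -/
theorem result {G : Type*} [Group G] [Finite G] {p : ℕ} [Fact p.Prime] (hG : IsPGroup p G) (n : ℕ) (hn : 1 ≤ n) (N : Subgroup G) [N.Normal] (hN : N ≤ (⊤ : Subgroup G).lowerCentralSeries (n - 1)) (i : ℕ) (hi : 1 < i) (hne : N.lowerCentralSeries i ≠ ⊥) : p ^ n ≤ (N.lowerCentralSeries i).relIndex (N.lowerCentralSeries (i - 1)) := by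
  obtain ⟨i, rfl⟩ : ∃ j, i = j + 1 := ⟨i - 1, by omega⟩
  obtain ⟨n, rfl⟩ : ∃ j, n = j + 1 := ⟨n - 1, by omega⟩
  rw [Nat.add_sub_cancel] at *
  have hp : p.Prime := Fact.out
  have nn : ∀ j, (N.lowerCentralSeries j).Normal := fun j => normalizer_eq_top_iff.1 (top_le_iff.1
    (H9.normalizer_lowerCentralSeries le_normalizer_of_normal j))
  haveI := nn i
  haveI := nn (i + 1)
  set A := N.lowerCentralSeries i
  set K := N.lowerCentralSeries (i + 1)
  by_contra h
  rw [← H1.card_map_mk'] at h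
  haveI := Normal.map ‹A.Normal› _ (QuotientGroup.mk'_surjective K)
  obtain ⟨k, hk⟩ := ((hG.to_quotient K).to_subgroup (A.map (QuotientGroup.mk' K))).exists_card_eq
  have h1 := l2 (hG.to_quotient K) n (A.map (QuotientGroup.mk' K)) (by
    rw [hk] at h ⊢
    exact Nat.pow_le_pow_right hp.pos (Nat.lt_succ_iff.1 ((Nat.pow_lt_pow_iff_right hp.one_lt).1 (not_le.1 h))))
  rw [← Function.Semiconj.iterate_right (f := map (QuotientGroup.mk' K)) (ga := fun X : Subgroup G => ⁅X, ⊤⁆) (fun X => by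
    rw [map_commutator, map_top_of_surjective _ (QuotientGroup.mk'_surjective K)]), Subgroup.map_eq_bot_iff,
    QuotientGroup.ker_mk'] at h1
  refine (H1.commutator_lt_of_isPGroup (hG.to_subgroup K) (hG.to_subgroup ⊤) le_normalizer_of_normal hne).not_ge
    (((commutator_mono le_rfl hN).trans (l1 n A)).trans ?_)
  rw [Function.iterate_succ_apply']
  exact commutator_mono h1 le_rfl

end Cfsg.Agent.S3781
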