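import Cfsg.Statements.S3784
import Mathlib.NumberTheory.Multiplicity
import Mathlib.NumberTheory.Fermat
import Mathlib.NumberTheory.LucasLehmer

set_option autoImplicit false
open Cfsg

namespace Cfsg.Agent.S3784

/-- Let p, q be primes and a, b positive integers with p^a = q^b + 1. Then either p = 2, b = 1, a is prime and q = 2^a − 1; or q = 2, a = 1, b is a power of 2 and p = 2^b + 1; or p^a = 9 and q^b = 8. -/
theorem result (p q a b : ℕ) (hp : p.Prime) (hq : q.Prime) (ha : 1 ≤ a) (hb : 1 ≤ b) (h : p ^ a = q ^ b + 1) : (p = 2 ∧ b = 1 ∧ a.Prime ∧ q + 1 = 2 ^ a) ∨ (q = 2 ∧ a = 1 ∧ (∃ m : ℕ, b = 2 ^ m) ∧ p = 2 ^ b + 1) ∨ (p ^ a = 9 ∧ q ^ b = 8) := by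
  have hq1 : 1 < q ^ b := Nat.one_lt_pow (by omega) hq.one_lt
  rcases hp.eq_two_or_odd' with rfl | hpo
  · left
    have ha2 : 2 ≤ a := by
      by_contra h0
      have : a = 1 := by omega
      subst this; omega
    have hqo : Odd q := by
      rcases hq.eq_two_or_odd' with rfl | h'
      · exfalso
        have h1 : 2 ∣ 2 ^ a := dvd_pow_self 2 (by omega)
        have h2 : 2 ∣ 2 ^ b := dvd_pow_self 2 (by omega)
        omega
      · exact h'
    have h4 : 4 ∣ 2 ^ a := by
      have : (2:ℕ) ^ 2 ∣ 2 ^ a := pow_dvd_pow 2 ha2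
      simpa using this
    have hbo : Odd b := by
      rcases Nat.even_or_odd b with ⟨k, hk⟩ | h'
      · exfalso
        have : Odd (q ^ k) := hqo.pow
        obtain ⟨m, hm⟩ := this
        rw [h, hk, pow_add, hm] at h4
        have : (2 * m + 1) * (2 * m + 1) + 1 = 4 * (m * m + m) + 2 := by ring
        omega
      · exact h'
    have hb1 : b = 1 := by
      by_contra hb1
      have hd : q + 1 ∣ q ^ b + 1 := by simpa using Odd.nat_add_dvd_pow_add_pow q 1 hbo
      -- (q^b+1)/(q+1) is odd
      have key : ∀ k : ℕ, ∃ m, Odd m ∧ q ^ (2 * k + 1) + 1 = (q + 1) * m := by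
        intro k
        induction k with
        | zero => exact ⟨1, odd_one, by simp⟩
        | succ k ih =>
          obtain ⟨m, hm, e⟩ := ih
          obtain ⟨r, hr⟩ := hqo
          refine ⟨m + q ^ (2 * k + 1) * (2 * r), hm.add_even (by simp), ?_⟩
          rw [mul_add (q+1), ← e]
          have : q ^ (2 * (k + 1) + 1) = q ^ (2 * k + 1) * q ^ 2 := by ring
          rw [this]
          generalize q ^ (2 * k + 1) = t
          rw [hr]; ring
      obtain ⟨k, rfl⟩ := hbo
      obtain ⟨m, hm, e⟩ := key k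
      have hm2 : m ∣ 2 ^ a := by rw [h, e]; exact Dvd.intro_left _ rfl
      obtain ⟨j, -, rfl⟩ := (Nat.dvd_prime_pow Nat.prime_two).1 hm2
      have : j = 0 := by
        by_contra hj
        exact (Nat.not_even_iff_odd.2 hm) ((Nat.even_pow' hj).2 even_two)
      subst this
      rw [pow_zero, mul_one] at e
      have : q ^ (2 * k + 1) = q ^ 1 := by rw [pow_one]; omega
      exact hb1 (Nat.pow_right_injective hq.two_le this)
    subst hb1
    rw [pow_one] at h
    refine ⟨rfl, rfl, ?_, h.symm⟩
    have : q = 2 ^ a - 1 := by omega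
    exact (Nat.prime_of_pow_sub_one_prime (a := 2) (by omega) (this ▸ hq)).2
  · have hq2 : q = 2 := by
      rcases hq.eq_two_or_odd' with h' | h'
      · exact h'
      · exfalso
        have h1 : Odd (p ^ a) := hpo.pow
        have h2 : Odd (q ^ b) := h'.pow
        rw [h] at h1
        exact (Nat.not_even_iff_odd.2 h1) h2.add_one
    subst hq2
    right
    rcases Nat.even_or_odd a with ⟨k, hk⟩ | hao
    · right
      have hk0 : k ≠ 0 := by omega
      have h3 : 3 ≤ p ^ k := by
        have h1 : 1 < p ^ k := Nat.one_lt_pow hk0 hp.one_lt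
        have h2 : Odd (p ^ k) := hpo.pow
        obtain ⟨m, hm⟩ := h2; omega
      rw [hk, pow_add] at h ⊢
      generalize p ^ k = t at *
      obtain ⟨s, rfl⟩ : ∃ s, t = s + 1 := ⟨t - 1, by omega⟩
      have e : s * (s + 2) = 2 ^ b := by nlinarith
      obtain ⟨i, -, hi⟩ := (Nat.dvd_prime_pow Nat.prime_two).1 (Dvd.intro _ e)
      obtain ⟨j, -, hj⟩ := (Nat.dvd_prime_pow Nat.prime_two).1 (Dvd.intro_left _ e)
      have hs : s = 2 := by
        by_contra hs
        have hi2 : 2 ≤ i := by
          by_contra h0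
          have : i = 0 ∨ i = 1 := by omega
          rcases this with rfl | rfl <;> omega
        have hj2 : 2 ≤ j := by
          by_contra h0
          have : j = 0 ∨ j = 1 := by omega
          rcases this with rfl | rfl <;> omega
        have h1 : (2:ℕ) ^ 2 ∣ 2 ^ i := pow_dvd_pow 2 hi2
        have h2 : (2:ℕ) ^ 2 ∣ 2 ^ j := pow_dvd_pow 2 hj2
        omega
      subst hs
      omega
    · left
      obtain ⟨r, hr⟩ := hpo
      have key : ∀ k : ℕ, ∃ m, Odd m ∧ p ^ (2 * k + 1) = 2 * r * m + 1 := by
        intro k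
        induction k with
        | zero => exact ⟨1, odd_one, by simp [hr]⟩
        | succ k ih =>
          obtain ⟨m, hm, e⟩ := ih
          refine ⟨m + 2 * (p ^ (2 * k + 1) * (r + 1)), hm.add_even (by simp), ?_⟩
          have : p ^ (2 * (k + 1) + 1) = p ^ (2 * k + 1) * p ^ 2 := by ring
          rw [this]
          have e2 : 2 * r * (m + 2 * (p ^ (2 * k + 1) * (r + 1))) + 1 = (2 * r * m + 1) + 4 * r * (r+1) * p ^ (2 * k + 1) := by ring
          rw [e2, ← e]
          generalize p ^ (2 * k + 1) = t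
          rw [hr]; ring
      obtain ⟨k, rfl⟩ := hao
      obtain ⟨m, hm, e⟩ := key k
      have hm2 : m ∣ 2 ^ b := by
        have : 2 ^ b = 2 * r * m := by omega
        rw [this]; exact Dvd.intro_left _ rfl
      obtain ⟨j, -, rfl⟩ := (Nat.dvd_prime_pow Nat.prime_two).1 hm2
      have : j = 0 := by
        by_contra hj
        exact (Nat.not_even_iff_odd.2 hm) ((Nat.even_pow' hj).2 even_two)
      subst this
      have e2 : p ^ (2 * k + 1) = p ^ 1 := by rw [pow_one]; omega
      have e3 := Nat.pow_right_injective hp.two_le e2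
      rw [e3, pow_one] at h
      refine ⟨rfl, e3, ?_, h⟩
      exact Nat.pow_of_pow_add_prime (by norm_num) (by omega) (h ▸ hp)

end Cfsg.Agent.S3784
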