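import Cfsg.Statements.S3785
import Cfsg.Agent.L.PG2
import Cfsg.Agent.H9.MS1
import Cfsg.Agent.FT.Pi

set_option autoImplicit false
open Cfsg

namespace Cfsg.Agent.S3785

open Subgroup H9 in

/-- Let G be a finite solvable group whose Fitting subgroup F(G) has odd order. If an element g of G commutes with every element of prime order of F(G), then g ∈ F(G). -/
theorem result {G : Type*} [Group G] [Finite G] (hG : Group.IsSolvable G) (hodd : Odd (Nat.card (Cfsg.fittingSubgroup G))) (g : G) (hg : ∀ x ∈ Cfsg.fittingSubgroup G, (orderOf x).Prime → g * x = x * g) : g ∈ Cfsg.fittingSubgroup G := by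
  have eF : Cfsg.fittingSubgroup G = Fit ⊤ := Fit_top.symm
  rw [eF] at hodd hg ⊢
  set C := centralizer {x : G | x ∈ Fit (⊤ : Subgroup G) ∧ (orderOf x).Prime} with hC
  have hFn : (Fit (⊤ : Subgroup G)).Normal := normalizer_eq_top_iff.1 (eq_top_iff.2 (le_normalizer_Fit ⊤))
  have hCn : C.Normal := ⟨fun c hc y x hx => by
    have := hc (y⁻¹ * x * y) ⟨by simpa using hFn.conj_mem x hx.1 y⁻¹, by
      have := (MulAut.conj y⁻¹).orderOf_eq x
      simp only [MulAut.conj_apply, inv_inv] at this
      rw [this]; exact hx.2⟩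
    calc x * (y * c * y⁻¹) = y * (y⁻¹ * x * y * c) * y⁻¹ := by group
      _ = y * c * y⁻¹ * x := by rw [this]; group⟩
  have hgC : g ∈ C := fun x hx => (hg x hx.1 hx.2).symm
  have hOn : ∀ p : ℕ, (Op p (⊤ : Subgroup G)).Normal := fun p => normalizer_eq_top_iff.1 (eq_top_iff.2 (le_normalizer_Op p ⊤))
  have h1 : ∀ (p : ℕ) [Fact p.Prime], ∀ A ≤ C, (Nat.card A).Coprime p → A ≤ centralizer ((Op p ⊤ : Subgroup G) : Set G) := by
    intro p hp A hA hc
    by_cases h0 : Op p (⊤ : Subgroup G) = ⊥
    · rw [h0]; exact le_centralizer_iff.1 bot_le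
    have hp2 : p ≠ 2 := by
      rintro rfl
      exact (Nat.not_even_iff_odd.2 hodd) (even_iff_two_dvd.2 ((dvd_card_of_isPGroup (Op_p 2 ⊤) h0).trans (card_dvd_of_le (Op_le_Fit ⊤))))
    refine le_centralizer_iff.1 (L.le_centralizer_of_omega hc (e := p) dvd_rfl
      (hp.out.dvd_choose_self two_ne_zero (lt_of_le_of_ne hp.out.two_le (Ne.symm hp2))) _ (Op_p p ⊤) le_normalizer_of_normal ?_)
    intro x hx e a ha
    by_cases hx1 : x = 1
    · simp [hx1]
    exact (hA ha x ⟨Op_le_Fit ⊤ hx, by rw [orderOf_eq_prime e hx1]; exact hp.out⟩).symm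
  have hZ : centralizer (Fit (⊤ : Subgroup G) : Set G) ≤ Fit ⊤ := by
    have := centralizer_Fit_le_of_solvable (X := (⊤ : Subgroup G)) inferInstance
    rwa [top_inf_eq] at this
  refine le_of_forall_syl (H := C) (fun q hq => ?_) hgC
  obtain ⟨Q, hQ⟩ := exists_syl q C
  refine ⟨Q, hQ, ?_⟩
  -- O^q(C) commutator with Q centralizes F
  have h2 : ⁅Q, Ores q C⁆ ≤ centralizer (Fit (⊤ : Subgroup G) : Set G) := by
    rw [le_centralizer_iff]
    refine Fit_le_of_forall_Op fun p hp => ?_
    rw [le_centralizer_iff]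
    by_cases hpq : p = q
    · subst hpq
      refine (commutator_le_right' ?_).trans (sSup_le fun A hA => h1 p A hA.1 hA.2)
      exact hQ.le.trans (le_normalizer_Ores p C)
    · have h3 := h1 p Q hQ.le (cop_of_isPGroup_ne (Ne.symm hpq) hQ.isP)
      exact (commutator_mono h3 le_rfl).trans (commutator_le_left _ _)
  set Z := centralizer (Fit (⊤ : Subgroup G) : Set G) with hZdef
  have hZc : Z ≤ centralizer (Z : Set G) := centralizer_anti hZ
  have hn : C ≤ normalizer ((Q ⊔ Z : Subgroup G) : Set G) := by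
    rw [← hQ.Ores_sup]
    refine sup_le ?_ (le_sup_left.trans le_normalizer)
    refine le_normalizer_of_commutator_le (K := Q ⊔ Z) ?_ le_rfl
    exact (commutator_sup_le (N := Z) le_normalizer_of_normal le_normalizer_of_normal h2 (commutator_le_left _ _)).trans le_sup_right
  have hZnil : Group.IsNilpotent Z := isNilpotent_of_le_centralizer hZc
  have hZC : Z ≤ C := centralizer_le fun x hx => hx.1
  have h4 : Z ≤ normalizer (Q : Set G) := by
    rw [← nilpotent_eq_Op_sup_Op' (p := q) hZnil]
    refine sup_le (le_trans ?_ le_normalizer) ?_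
    · exact hQ.le_of_le_normalizer (Op_p q Z) ((Op_le q Z).trans hZC) (Or.inr (normalizer_Op le_normalizer_of_normal))
    · refine le_trans ?_ (centralizer_le_normalizer' Q)
      have h5 : Group.IsNilpotent (Op' q Z) := isNilpotent_of_le_centralizer (((Op'_le q Z).trans hZc).trans (centralizer_anti (Op'_le q Z)))
      rw [← Fit_eq_self h5]
      refine Fit_le_of_forall_Op fun p hp => ?_
      by_cases hpq : p = q
      · subst hpq
        rw [eq_bot_of_p_p' (Op_p p _) (cop_of_le (Op'_cop p Z) (Op_le p _))]; exact bot_le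
      · have h3 := h1 p Q hQ.le (cop_of_isPGroup_ne (Ne.symm hpq) hQ.isP)
        refine le_trans ?_ (le_centralizer_iff.1 h3)
        exact le_Op le_top (normalizer_Op (normalizer_Op' le_normalizer_of_normal)) (Op_p p _)
  have h6 : SN Q ⊤ := ((SN.of_normal le_sup_left (sup_le le_normalizer h4)).trans
    (SN.of_normal (sup_le hQ.le hZC) hn)).trans (SN.of_normal_top C)
  exact h6.le_Fit hQ.isP.isNilpotent

end Cfsg.Agent.S3785
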