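import Cfsg.Statements.S3787
import Cfsg.Agent.H1.HB6

set_option autoImplicit false
open Cfsg

namespace Cfsg.Agent.S3787

open H1

/-- Let G be a finite p-soluble group, p an odd prime not of the form 2^k + 1, and suppose the wreath product C_p ≀ C_p (of order p^(p+1)) is not involved in a Sylow p-subgroup of G: no section of a Sylow p-subgroup is isomorphic to it. Then G has p-length at most 1. -/
theorem result {G : Type*} [Group G] [Finite G] {p : ℕ} [Fact p.Prime] (hp2 : p ≠ 2) (hnf : (¬ ∃ k : ℕ, p = 2 ^ k + 1)) (hG : Cfsg.IsPSolvable p G) (P : Sylow p G) (hwr : ∀ (W : Type) [Group W] [Finite W], (∃ (B : Subgroup W) (t : W), B.Normal ∧ IsMulCommutative B ∧ (∀ b ∈ B, b ^ p = 1) ∧ Nat.card B = p ^ p ∧ orderOf t = p ∧ t ∉ B ∧ Nat.card W = p ^ (p + 1) ∧ Nat.card ↥(B ⊓ Subgroup.centralizer ({t} : Set W)) = p) → ¬ Cfsg.Involves W ↥(P : Subgroup G)) : Cfsg.PLengthLE p 1 G := by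
  obtain ⟨Γ, _, _, f, hf, hR, e⟩ := PS.exists_red (H9.psol_of_isPSolvable hG)
  obtain ⟨M⟩ := hR.mod
  refine pl_succ.2 (PE.zero (pe_quot fun y k hy => ?_))
  obtain ⟨Q, hQ⟩ := (H9.isPGroup_zpowers_of_pow hy).exists_le_sylow
  obtain ⟨g, rfl⟩ := MulAction.exists_smul_eq G P Q
  obtain ⟨z, hz, rfl⟩ := hQ (Subgroup.mem_zpowers y)
  refine Subgroup.Normal.conj_mem inferInstance _ ?_ g |> (by simpa using ·)
  rw [← e, Subgroup.mem_comap]
  by_contra h0
  obtain ⟨j, hj⟩ := P.isPGroup' ⟨z, hz⟩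
  have h1 : ∃ j, f z ^ p ^ j ∈ pCore p Γ := ⟨j, by
    rw [← map_pow, show z ^ p ^ j = 1 from congrArg Subtype.val hj, map_one]; exact one_mem _⟩
  classical
  obtain ⟨i, hi⟩ : ∃ i, Nat.find h1 = i + 1 := Nat.exists_eq_succ_of_ne_zero fun e => h0 (by
    simpa [e] using Nat.find_spec h1)
  have h2 := Nat.find_spec h1
  have h3 := Nat.find_min h1 (m := i) (by omega)
  rw [hi, pow_succ, pow_mul] at h2
  obtain ⟨q, hq, hpq, h4 | ⟨h4, j, m, h5, -, h6, h7, -⟩⟩ := M.hd (n := 0) hR.ps (by simpa using h3) (by simpa using h2)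
  · obtain ⟨W, _, _, w1, w2⟩ := M.wr hR h3 h2 (by simpa using h4)
    refine hwr W w1 (H9.involves_iff.2 (H9.Sect.of_map (f.comp (P : Subgroup G).subtype) (w2.mono ?_)))
    rw [← Subgroup.map_map, ← MonoidHom.range_eq_map, Subgroup.range_subtype]
    exact sup_le (Subgroup.zpowers_le.2 (pow_mem (Subgroup.mem_map_of_mem f hz) _))
      (pCore_le_sylow (P.mapSurjective hf))
  · exact h4 (ne_of_not_fermat hp2 (Or.inl hnf) q j m hq hpq h5 h6 h7)

end Cfsg.Agent.S3787
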