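import Cfsg.Statements.S3788
import Cfsg.Agent.H1.HB5

set_option autoImplicit false
open Cfsg

namespace Cfsg.Agent.S3788

open H1

/-- Let G be a finite p-soluble group, P a Sylow p-subgroup of G and A a cyclic normal subgroup of P. If p is odd, or if no section of G is isomorphic to the symmetric group of degree 4, then A ≤ O_{p',p}(G). -/
theorem result {G : Type*} [Group G] [Finite G] {p : ℕ} [Fact p.Prime] (hG : Cfsg.IsPSolvable p G) (P : Sylow p G) (A : Subgroup G) (hAP : A ≤ (P : Subgroup G)) (hAn : (P : Subgroup G) ≤ Subgroup.normalizer (A : Set G)) (hA : IsCyclic A) (h : p ≠ 2 ∨ ¬ Cfsg.Involves (Equiv.Perm (Fin 4)) G) : A ≤ Cfsg.pPrimePCore p G := by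
  obtain ⟨a, ha, rfl⟩ := exists_eq_zpowers_of_isCyclic hA
  obtain ⟨Γ, _, _, f, hf, hR, e⟩ := PS.exists_red (H9.psol_of_isPSolvable hG)
  obtain ⟨k, hk⟩ := P.isPGroup' ⟨a, hAP ha⟩
  rw [← e, Subgroup.zpowers_le]
  refine hR.cyc (k := k) (by rw [← map_pow, show a ^ p ^ k = 1 from congrArg Subtype.val hk, map_one])
    ((pCore_le_sylow (P.mapSurjective hf)).trans ?_) (h.imp_right fun h h' => h (H9.involves_iff.2
      (H9.Sect.of_map f (by rwa [Subgroup.map_top_of_surjective f hf]))))
  rw [← MonoidHom.map_zpowers]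
  exact (Subgroup.map_mono hAn).trans (Subgroup.le_normalizer_map f)

end Cfsg.Agent.S3788
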