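import Cfsg.Statements.S3790
import Cfsg.Agent.H1.PLen

set_option autoImplicit false
open Cfsg

namespace Cfsg.Agent.S3790

open H1

/-- Let G be a finite solvable group and p a prime. Suppose p₁, …, p_r are distinct primes, all different from p, that include every prime dividing the order of G other than p, and that G has p_i-length at most l_i for each i. Then G has p-length at most the product of the numbers 1 + l_i. -/
theorem result {G : Type*} [Group G] [Finite G] (hG : Group.IsSolvable G) (p : ℕ) [Fact p.Prime] (r : ℕ) (q : Fin r → ℕ) (hq : ∀ i, (q i).Prime ∧ q i ≠ p) (hinj : Function.Injective q) (hcover : ∀ s : ℕ, s.Prime → s ∣ Nat.card G → s ≠ p → ∃ i, q i = s) (l : Fin r → ℕ) (hl : ∀ i, Cfsg.PLengthLE (q i) (l i) G) : Cfsg.PLengthLE p (Finset.univ.prod fun i => 1 + l i) G := by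
  clear hG
  have hp : p.Prime := Fact.out
  induction r generalizing G with
  | zero =>
    refine pl_iff.2 (Ch.refl.pw inferInstance le_top ?_)
    have : IsPGroup p G := isPGroup_iff_isPiNum.2 fun s h1 h2 => by_contra fun h3 =>
      (hcover s h1 h2 h3).choose.elim0
    simpa using this.exists_card_eq.imp fun _ => Eq.dvd
  | succ r ih =>
    have := Fact.mk (hq 0).1
    have h0 := hl 0
    replace hl := fun i : Fin r => hl i.succ
    rw [Fin.prod_univ_succ]
    generalize l 0 = k at h0
    have key : ∀ (G : Type u_1) [Group G] [Finite G], (∀ s : ℕ, s.Prime → s ∣ Nat.card G → s ≠ p →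
        ∃ i, q i = s) → (∀ i : Fin r, PLengthLE (q i.succ) (l i.succ) G) →
        Ch p ⊥ (∏ i : Fin r, (1 + l i.succ)) (pPrimeCore (q 0) G) := fun G _ _ h1 h2 =>
      ch_of_pl (ih _ (fun i => hq i.succ) (hinj.comp (Fin.succ_injective r)) (fun s h3 h4 h5 => by
        obtain ⟨i, rfl⟩ := h1 s h3 (h4.trans (Subgroup.card_subgroup_dvd_card _)) h5
        refine ⟨i.pred ?_, congrArg q (Fin.succ_pred _ _)⟩
        rintro rfl
        exact not_dvd_card_pPrimeCore h4) _ fun i =>
          have := Fact.mk (hq i.succ).1; pl_of_inj (Subgroup.subtype_injective _) (h2 i))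
    induction k generalizing G with
    | zero =>
      have := key G hcover hl
      rw [pPrimeCore_eq_top_iff.2 (pl_zero.1 h0)] at this
      simpa using pl_iff.2 this
    | succ k ih =>
      obtain ⟨m, hm⟩ := (le_comap_pw (p := q 0) (A := pPrimeCore (q 0) G) inferInstance).1 le_rfl
      have := ((key G hcover hl).pp (M := pPrimePCore (q 0) G) inferInstance (le_comap_mk' _)
        ((((Nat.coprime_primes (hq 0).1 hp).2 (hq 0).2).pow_left m).coprime_dvd_left hm)).pl
        (ih (fun s h1 h2 => hcover s h1 (h2.trans (Subgroup.card_quotient_dvd_card _)))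
          (fun i => have := Fact.mk (hq i.succ).1
            pl_of_surj (QuotientGroup.mk'_surjective _) (hl i)) (pl_succ.1 h0))
      convert this using 1
      ring

end Cfsg.Agent.S3790
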