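import Cfsg.Statements.S3791
import Cfsg.Agent.H1.PLen

set_option autoImplicit false
open Cfsg

namespace Cfsg.Agent.S3791

open H1

/-- The Hall–Higman bound on derived length: let G be a finite solvable group, let p₁, …, p_r be distinct primes that include every prime dividing the order of G, and suppose that for each i the Sylow p_i-subgroups of G have derived length at most d_i and G has p_i-length at most l_i. Then G has derived length at most Σ d_i l_i. -/
theorem result {G : Type*} [Group G] [Finite G] (hG : Group.IsSolvable G) (r : ℕ) (q : Fin r → ℕ) (hq : ∀ i, (q i).Prime) (hinj : Function.Injective q) (hcover : ∀ s : ℕ, s.Prime → s ∣ Nat.card G → ∃ i, q i = s) (d l : Fin r → ℕ) (hd : ∀ i, ∀ P : Subgroup G, (haveI := Fact.mk (hq i); ∃ S : Sylow (q i) G, (S : Subgroup G) = P) → derivedSeries ↥P (d i) = ⊥) (hl : ∀ i, Cfsg.PLengthLE (q i) (l i) G) : derivedSeries G (Finset.univ.sum fun i => d i * l i) = ⊥ := by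
  open Subgroup in
  replace hd : ∀ i, ∃ P : Subgroup G, IsSylowIn (q i) P ⊤ ∧ dser P (d i) = ⊥ := fun i => by
    have := Fact.mk (hq i)
    obtain ⟨S⟩ : Nonempty (Sylow (q i) G) := inferInstance
    exact ⟨S, isSylowIn_top S, dser_eq_bot_iff.2 (hd i S ⟨S, rfl⟩)⟩
  rw [← dser_top]
  revert hG hcover hd l
  revert G
  apply group_induction
  intro G _ _ ih hG hcover l hl hd
  rcases subsingleton_or_nontrivial G with _ | _
  · exact Subsingleton.elim _ _
  have key : ∀ (N : Subgroup G) [N.Normal], N ≠ ⊥ → ∀ l : Fin r → ℕ,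
      (∀ i, PLengthLE (q i) (l i) (G ⧸ N)) → dser ⊤ (∑ i, d i * l i) ≤ N := fun N _ h l hl => by
    have := ih _ (card_quotient_lt h) inferInstance (fun s h1 h2 => hcover s h1
      (h2.trans (card_quotient_dvd_card _))) l hl fun i => by
        have := Fact.mk (hq i)
        obtain ⟨P, h1, h2⟩ := hd i
        exact ⟨_, h1.map_mk' N, by rw [← map_dser, h2, Subgroup.map_bot]⟩
    rwa [← map_top_of_surjective _ (QuotientGroup.mk'_surjective N), ← map_dser,
      Subgroup.map_eq_bot_iff, QuotientGroup.ker_mk'] at this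
  have hl' : ∀ (N : Subgroup G) [N.Normal] i, PLengthLE (q i) (l i) (G ⧸ N) := fun N _ i =>
    have := Fact.mk (hq i); pl_of_surj (QuotientGroup.mk'_surjective N) (hl i)
  obtain ⟨N, s, hs, _, h1, -, -, h2, -⟩ := exists_minimal_normal_elementary (⊤ : Subgroup G)
    inferInstance top_ne_bot
  have := Fact.mk hs
  have h3 : IsPGroup s N := fun x => ⟨1, Subtype.ext (by simpa using h2 x x.2)⟩
  have h4 := (h3.card_eq_or_dvd.resolve_left (mt card_eq_one.1 h1)).trans (card_subgroup_dvd_card _)
  obtain ⟨i, rfl⟩ := hcover s hs h4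
  by_cases h5 : pPrimeCore (q i) G = ⊥
  swap
  · exact eq_bot_iff.2 ((le_inf ((key N h1 l (hl' N)).trans (le_pCore h3))
      (key _ h5 l (hl' _))).trans pCore_inf_pPrimeCore.le)
  obtain ⟨k, hk⟩ := Nat.exists_eq_succ_of_ne_zero (show l i ≠ 0 from fun e =>
    hs.coprime_iff_not_dvd.1 (pl_zero.1 (e ▸ hl i)).symm h4)
  have h6 : pPrimePCore (q i) G ≤ pCore (q i) G := by
    rw [← H9.Opp_top, H9.Opp_eq_Op (by rwa [H9.Op'_top]), H9.Op_top]
  have h7 := key (pPrimePCore (q i) G) (fun e => h1 (eq_bot_iff.2 (e ▸ (le_comap_pw ‹_›).2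
    ((L.exists_relIndex_eq_pow h3).imp fun _ => Eq.dvd)))) (Function.update l i k) fun j => by
      rcases eq_or_ne j i with rfl | e
      · simpa using pl_succ.1 (by have := hl j; rwa [hk] at this)
      · simpa [e] using hl' _ j
  obtain ⟨P, h8, h9⟩ := hd i
  rw [show ∑ j, d j * l j = ∑ j, d j * Function.update l i k j + d i by
    rw [← Finset.add_sum_erase _ _ (Finset.mem_univ i), ← Finset.add_sum_erase _ _ (Finset.mem_univ i),
      Finset.sum_congr rfl (g := fun j => d j * Function.update l i k j) fun j hj => by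
        rw [Function.update_of_ne (Finset.mem_erase.1 hj).1], Function.update_self, hk]
    simp only [Nat.succ_eq_add_one]; ring, dser_add]
  exact eq_bot_iff.2 ((dser_mono (h7.trans (h6.trans (h8.ge_of_normal pCore_isPGroup le_top
    le_normalizer_of_normal))) _).trans h9.le)

end Cfsg.Agent.S3791
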