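import Cfsg.Statements.S3793
import Cfsg.Agent.H1.SG2

set_option autoImplicit false
open Cfsg

namespace Cfsg.Agent.S3793

open H1

/-- The Shult–Gross Theorem: let p be an odd prime and G a finite solvable group with an automorphism σ of order p^n fixing only the identity. Then G has Fitting height at most n: G has Fitting height at most m when there is a chain of normal subgroups 1 = F₀ ≤ F₁ ≤ ⋯ ≤ F_m = G with each F_{i+1}/F_i nilpotent. -/
theorem result {G : Type*} [Group G] [Finite G] (hG : Group.IsSolvable G) {p : ℕ} (hp : p.Prime) (hp2 : p ≠ 2) (σ : MulAut G) (n : ℕ) (hσ : orderOf σ = p ^ n) (hfpf : ∀ g : G, σ g = g → g = 1) : ∃ F : Fin (n + 1) → Subgroup G, F 0 = ⊥ ∧ F (Fin.last n) = ⊤ ∧ Monotone F ∧ (∀ i, (F i).Normal) ∧ ∀ i : Fin n, ∃ k : ℕ, (F i.succ).lowerCentralSeries k ≤ F i.castSucc := by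
  haveI := Fact.mk hp
  obtain ⟨Γ, _, _, i, j, hi, -, h⟩ := exists_fpa hG (Subgroup.zpowers σ).subtype
    (Or.inr ⟨p, hp, isPGroup_zpowers_iff.2 ⟨n, hσ⟩⟩) fun g h => hfpf g (h ⟨σ, Subgroup.mem_zpowers σ⟩)
  rw [range_zpowers] at h
  exact (shult_gross hp2 n Γ _ _ (by
    rw [← map_pow, show (⟨σ, Subgroup.mem_zpowers σ⟩ : Subgroup.zpowers σ) ^ p ^ n = 1 from
      Subtype.ext (by rw [← hσ]; exact pow_orderOf_eq_one σ), map_one]) h).of_range hi

end Cfsg.Agent.S3793
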