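import Cfsg.Statements.S3794
import Cfsg.Agent.H1.Fpa

set_option autoImplicit false
open Cfsg

namespace Cfsg.Agent.S3794

open scoped commutatorElement
open H1

/-- Let G be a finite solvable group with an automorphism σ satisfying σ⁴ = 1 and fixing only the identity. Then the derived subgroup G' is nilpotent. -/
theorem result {G : Type*} [Group G] [Finite G] (hG : Group.IsSolvable G) (σ : MulAut G) (hσ : σ ^ 4 = 1) (hfpf : ∀ g : G, σ g = g → g = 1) : Group.IsNilpotent (commutator G) := by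
  obtain ⟨Γ, _, _, i, j, hi, hj, hij, -, h2, h3⟩ := exists_ambient (K := G) (Subgroup.zpowers σ).subtype
  have hr : ∀ {Δ : Type _} [Group Δ] (j : Subgroup.zpowers σ →* Δ),
      j.range = Subgroup.zpowers (j ⟨σ, Subgroup.mem_zpowers σ⟩) := fun j => by
    rw [← MonoidHom.map_zpowers, MonoidHom.range_eq_map]
    congr 1
    exact (eq_top_iff.2 (by rintro ⟨_, k, rfl⟩ -; exact ⟨k, rfl⟩)).symm
  have h4 : (⟨σ, Subgroup.mem_zpowers σ⟩ : Subgroup.zpowers σ) ^ 4 = 1 := Subtype.ext hσ
  have hfp : i.range ⊓ Subgroup.centralizer (j.range : Set Γ) = ⊥ := eq_bot_iff.2 (by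
    rintro _ ⟨⟨x, rfl⟩, hx⟩
    rw [hfpf x ((mem_centralizer_range_iff hi hij).1 hx ⟨σ, Subgroup.mem_zpowers σ⟩), map_one]
    exact Subgroup.one_mem _)
  haveI : Fact (Nat.Prime 2) := ⟨Nat.prime_two⟩
  have hA : IsPGroup 2 j.range := by
    rw [hr]
    obtain ⟨k, -, hk⟩ := (Nat.dvd_prime_pow Nat.prime_two (m := 2)).1
      (orderOf_dvd_of_pow_eq_one (x := j ⟨σ, Subgroup.mem_zpowers σ⟩) (by rw [← map_pow]; exact (congrArg j h4).trans (map_one j)))
    exact isPGroup_zpowers_iff.2 ⟨k, hk⟩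
  have hc : (Nat.card j.range).Coprime (Nat.card i.range) := by
    refine isPGroup_coprime hA ((Nat.Prime.coprime_iff_not_dvd Nat.prime_two).2 fun h => ?_).symm
    obtain ⟨T, hT, hAT⟩ := exists_isSylowIn_ge (L := ⊤) hA le_top
    have h5 := hT.inf_normal (K := i.range) le_top Subgroup.le_normalizer_of_normal
    refine inf_centralizer_ne_bot_of_isPGroup h5.isPGroup hA (le_normalizer_inf (hAT.trans Subgroup.le_normalizer)
      Subgroup.le_normalizer_of_normal) (fun e => h5.eq_bot_iff.1 e h) (eq_bot_iff.2 ?_)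
    exact (inf_le_inf_right _ inf_le_right).trans hfp.le
  have := fpa_red (fun Δ _ K => IsMulCommutative K) (fun Δ _ _ j K F _ _ W _ _ _ ρ _ h =>
    core_four (s := j ⟨σ, Subgroup.mem_zpowers σ⟩) (by rw [← map_pow, h4, map_one]) (hr j ▸ h)) Γ j i.range hj
    ⟨h3, isSolvable_range, hc, hfp, sup_comm j.range _ ▸ h2⟩ ⁅i.range, i.range⁆
    (Subgroup.commutator_le_right _ _) inferInstance fun Δ _ f hf => by
      rw [← Subgroup.map_eq_bot_iff, Subgroup.map_commutator]
      exact Subgroup.commutator_eq_bot_iff_le_centralizer.2 (Subgroup.le_centralizer _)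
  rw [MonoidHom.range_eq_map, ← Subgroup.map_commutator] at this
  haveI : Group.IsNilpotent ((commutator G).map i) := this
  exact Group.nilpotent_of_mulEquiv ((commutator G).equivMapOfInjective i hi).symm

end Cfsg.Agent.S3794
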