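import Cfsg.Statements.S3795
import Cfsg.Agent.H1.Gr1

set_option autoImplicit false
open Cfsg

namespace Cfsg.Agent.S3795

open H1

/-- Gross's Theorem: let G be a finite solvable group with an automorphism σ of order 2^n, n > 1, fixing only the identity. Then G has Fitting height at most 2n − 2: G has Fitting height at most m when there is a chain of normal subgroups 1 = F₀ ≤ F₁ ≤ ⋯ ≤ F_m = G with each F_{i+1}/F_i nilpotent. -/
theorem result {G : Type*} [Group G] [Finite G] (hG : Group.IsSolvable G) (σ : MulAut G) (n : ℕ) (hn : 1 < n) (hσ : orderOf σ = 2 ^ n) (hfpf : ∀ g : G, σ g = g → g = 1) : ∃ F : Fin ((2 * n - 2) + 1) → Subgroup G, F 0 = ⊥ ∧ F (Fin.last (2 * n - 2)) = ⊤ ∧ Monotone F ∧ (∀ i, (F i).Normal) ∧ ∀ i : Fin (2 * n - 2), ∃ k : ℕ, (F i.succ).lowerCentralSeries k ≤ F i.castSucc := by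
  haveI : Fact (Nat.Prime 2) := ⟨Nat.prime_two⟩
  obtain ⟨m, rfl⟩ : ∃ m, n = m + 2 := ⟨n - 2, by omega⟩
  obtain ⟨Γ, _, _, i, j, hi, -, h⟩ := exists_fpa hG (Subgroup.zpowers σ).subtype
    (Or.inr ⟨2, Nat.prime_two, isPGroup_zpowers_iff.2 ⟨_, hσ⟩⟩) fun g h => hfpf g (h ⟨σ, Subgroup.mem_zpowers σ⟩)
  rw [range_zpowers] at h
  have := (gross m Γ _ _ (by
    rw [← map_pow, show (⟨σ, Subgroup.mem_zpowers σ⟩ : Subgroup.zpowers σ) ^ 2 ^ (m + 2) = 1 from
      Subtype.ext (by rw [← hσ]; exact pow_orderOf_eq_one σ), map_one]) h).of_range hi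
  rw [show 2 * m + 2 = 2 * (m + 2) - 2 by omega] at this
  exact this

end Cfsg.Agent.S3795
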