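import Cfsg.Statements.S3796
import Cfsg.Agent.H1.Pq2

set_option autoImplicit false
open Cfsg

namespace Cfsg.Agent.S3796

open H1

/-- Ward's Theorem: let G be a finite solvable group and A an elementary abelian group of automorphisms of G of order p² (p a prime) with no non-identity common fixed point. Then G has Fitting height at most 2: G has Fitting height at most m when there is a chain of normal subgroups 1 = F₀ ≤ F₁ ≤ ⋯ ≤ F_m = G with each F_{i+1}/F_i nilpotent. -/
theorem result {G : Type*} [Group G] [Finite G] (hG : Group.IsSolvable G) {p : ℕ} (hp : p.Prime) (A : Subgroup (MulAut G)) (hA : Cfsg.IsElementaryAbelian p A) (hcard : Nat.card A = p ^ 2) (hfpf : ∀ g : G, (∀ a ∈ A, a g = g) → g = 1) : ∃ F : Fin (2 + 1) → Subgroup G, F 0 = ⊥ ∧ F (Fin.last 2) = ⊤ ∧ Monotone F ∧ (∀ i, (F i).Normal) ∧ ∀ i : Fin 2, ∃ k : ℕ, (F i.succ).lowerCentralSeries k ≤ F i.castSucc := by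
  haveI := Fact.mk hp
  refine pq_fh hG A.subtype (Or.inr ⟨p, hp, IsPGroup.of_card hcard⟩) (fun g h => hfpf g fun a ha => h ⟨a, ha⟩) hp hp
    (hcard.trans (sq p)) fun h => ?_
  obtain ⟨x, hx⟩ := h.exists_ofOrder_eq_natCard
  have := Nat.le_of_dvd hp.pos (orderOf_dvd_of_pow_eq_one (x := x) (Subtype.ext (hA.2 x x.2)))
  rw [hx, hcard] at this
  nlinarith [hp.two_le]

end Cfsg.Agent.S3796
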