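import Cfsg.Statements.S3797
import Cfsg.Agent.TY.D

set_option autoImplicit false
open Cfsg

namespace Cfsg.Agent.S3797

open Subgroup

/-- Let G be a finite solvable group of even order whose Sylow 2-subgroups contain more than one involution, and suppose all involutions of G are conjugate. Then G has 2-length at most 1, and a Sylow 2-subgroup S of G is either homocyclic (a direct product of cyclic groups of one common order) or a non-abelian 2-group with more than one involution admitting a solvable group of automorphisms transitive on its involutions. -/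
theorem result {G : Type*} [Group G] [Finite G] (hG : Group.IsSolvable G) (heven : Even (Nat.card G)) (S : Sylow 2 G) (htwo : ∃ x y : G, x ∈ (S : Subgroup G) ∧ y ∈ (S : Subgroup G) ∧ x ≠ y ∧ x ≠ 1 ∧ x ^ 2 = 1 ∧ y ≠ 1 ∧ y ^ 2 = 1) (hconj : ∀ x y : G, x ≠ 1 → x ^ 2 = 1 → y ≠ 1 → y ^ 2 = 1 → IsConj x y) : Cfsg.PLengthLE 2 1 G ∧ ((∃ m r : ℕ, Nonempty (↥(S : Subgroup G) ≃* (Fin r → Multiplicative (ZMod (2 ^ m))))) ∨ (¬ IsMulCommutative (S : Subgroup G) ∧ ∃ Y : Subgroup (MulAut ↥(S : Subgroup G)), Group.IsSolvable Y ∧ ∀ x y : ↥(S : Subgroup G), x ≠ 1 → x ^ 2 = 1 → y ≠ 1 → y ^ 2 = 1 → ∃ a ∈ Y, a x = y)) := by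
  obtain ⟨x, y, a1, a2, a3, a4, a5, a6, a7⟩ := htwo
  obtain ⟨h1, h2⟩ := TY.main hG S (fun x y b1 b2 b3 b4 => hconj x y b1 (by rwa [pow_two]) b3 (by rwa [pow_two]))
    ⟨⟨x, a1⟩, ⟨y, a2⟩, fun h => a3 (congrArg Subtype.val h), fun h => a4 (congrArg Subtype.val h),
      Subtype.ext (by rwa [pow_two] at a5), fun h => a6 (congrArg Subtype.val h),
      Subtype.ext (by rwa [pow_two] at a7)⟩
  have h3 : ∀ x y : (S : Subgroup G), x ≠ 1 → x * x = 1 → y ≠ 1 → y * y = 1 →
      ∃ a ∈ (S : Subgroup G).normalizerMonoidHom.range, a x = y := fun x y b1 b2 b3 b4 => by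
    obtain ⟨a, ha, e⟩ := h2 x y b1 b2 b3 b4
    exact ⟨_, ⟨⟨a, ha⟩, rfl⟩, Subtype.ext e⟩
  refine ⟨h1, ?_⟩
  by_cases hc : IsMulCommutative (S : Subgroup G)
  · left
    letI : CommGroup (S : Subgroup G) := { (inferInstance : Group (S : Subgroup G)) with mul_comm := hc.1.1 }
    exact TY.homocyclic S.isPGroup' fun x y b1 b2 b3 b4 => by
      obtain ⟨a, -, e⟩ := h3 x y b1 b2 b3 b4
      exact ⟨a, e⟩
  · exact Or.inr ⟨hc, _, Group.isSolvable_of_surjective (MonoidHom.rangeRestrict_surjective _),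
      fun x y b1 b2 b3 b4 => h3 x y b1 (by rwa [pow_two] at b2) b3 (by rwa [pow_two] at b4)⟩

end Cfsg.Agent.S3797
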