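import Cfsg.Statements.S3799
import Cfsg.Agent.H1.Heis

set_option autoImplicit false
open Cfsg

namespace Cfsg.Agent.S3799

open scoped Pointwise
open H1

/-- For every odd prime p and every n ≥ 1 there is an extraspecial p-group of order p^(1+2n) and exponent p; concretely, the general linear group of degree n + 2 over the field with p elements contains such a subgroup. -/
theorem result (p : ℕ) [Fact p.Prime] (hp : p ≠ 2) (n : ℕ) (hn : 1 ≤ n) : ∃ E : Subgroup (Matrix.GeneralLinearGroup (Fin (n + 2)) (ZMod p)), Cfsg.IsExtraspecial p ↥E ∧ Nat.card E = p ^ (1 + 2 * n) ∧ ∀ x ∈ E, x ^ p = 1 := by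
  open Subgroup Matrix in
  let f : (Fin n → ZMod p) → (Fin n → ZMod p) → ZMod p → Module.End (ZMod p) (ZMod p × (Fin n → ZMod p) × ZMod p) := fun a b c =>
    { toFun := fun v => (v.1 + a ⬝ᵥ v.2.1 + c * v.2.2, v.2.1 + v.2.2 • b, v.2.2)
      map_add' := fun v w => by ext <;> simp <;> ring
      map_smul' := fun r v => by ext <;> simp <;> ring }
  have h1 : ∀ a b c a' b' c', f a b c * f a' b' c' = f (a + a') (b + b') (c + c' + a ⬝ᵥ b') :=
    fun a b c a' b' c' => LinearMap.ext fun v => by ext <;> simp [f] <;> ring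
  have h0 : f 0 0 0 = 1 := LinearMap.ext fun v => by ext <;> simp [f]
  let hz : _ → _ → _ → LinearMap.GeneralLinearGroup (ZMod p) (ZMod p × (Fin n → ZMod p) × ZMod p) := fun a b c =>
    ⟨f a b c, f (-a) (-b) (-c + a ⬝ᵥ b), by rw [h1, ← h0]; simp, by rw [h1, ← h0]; simp⟩
  have h2 : ∀ a b c a' b' c', hz a b c * hz a' b' c' = hz (a + a') (b + b') (c + c' + a ⬝ᵥ b') :=
    fun a b c a' b' c' => Units.ext (h1 ..)
  let Q : Subgroup (LinearMap.GeneralLinearGroup (ZMod p) (ZMod p × (Fin n → ZMod p) × ZMod p)) :=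
    { carrier := {g | ∃ a b c, g = hz a b c}
      mul_mem' := by rintro _ _ ⟨a, b, c, rfl⟩ ⟨a', b', c', rfl⟩; exact ⟨_, _, _, h2 ..⟩
      one_mem' := ⟨0, 0, 0, Units.ext h0.symm⟩
      inv_mem' := by rintro _ ⟨a, b, c, rfl⟩; exact ⟨_, _, _, Units.ext rfl⟩ }
  obtain ⟨h3, h4⟩ := heis (Q := Q) hz h2 (fun a b c a' b' c' e => by
    have e1 := fun v => LinearMap.congr_fun (congrArg Units.val e) v
    have e2 := e1 (0, 0, 1)
    simp [hz, f] at e2
    exact ⟨funext fun i => by simpa [hz, f] using e1 (0, Pi.single i 1, 0), e2.2, e2.1⟩)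
    fun g => Iff.rfl
  let e := (GeneralLinearGroup.toLin' (Module.finBasisOfFinrankEq (ZMod p) (ZMod p × (Fin n → ZMod p) × ZMod p)
    (show _ = n + 2 by simp; ring))).symm
  have h5 := h3.map (f := e.toMonoidHom) e.injective
  obtain ⟨n, rfl⟩ := Nat.exists_eq_add_of_le' hn
  refine ⟨_, h5.extra h5.nd h5.ne_zp, h5.cd.trans (by ring), ?_⟩
  rintro _ ⟨x, hx, rfl⟩
  rw [← map_pow, h4 hp x hx, map_one]

end Cfsg.Agent.S3799
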