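import Cfsg.Statements.S3800
import Cfsg.Agent.H9.Im
import Cfsg.Agent.H1.Coprime

set_option autoImplicit false
open Cfsg

namespace Cfsg.Agent.S3800

open H1

/-- Let G be a finite group, N a normal subgroup of G whose order is prime to p, and P a p-subgroup of G. Then in G/N the normalizer of the image of P is the image of N_G(P), and the centralizer of the image of P is the image of C_G(P). -/
theorem result {G : Type*} [Group G] [Finite G] {p : ℕ} [Fact p.Prime] (N : Subgroup G) [N.Normal] (hN : (Nat.card N).Coprime p) (P : Subgroup G) (hP : IsPGroup p P) : Subgroup.normalizer ((P.map (QuotientGroup.mk' N)) : Set (G ⧸ N)) = (Subgroup.normalizer (P : Set G)).map (QuotientGroup.mk' N) ∧ Subgroup.centralizer ((P.map (QuotientGroup.mk' N)) : Set (G ⧸ N)) = (Subgroup.centralizer (P : Set G)).map (QuotientGroup.mk' N) := by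
  have hs : Group.IsSolvable P := isSolvable_of_isPGroup hP
  have hc : (Nat.card P).Coprime (Nat.card N) := isPGroup_coprime hP hN
  refine ⟨le_antisymm ?_ (le_normalizer_map _ le_rfl), ?_⟩
  · intro y hy
    obtain ⟨x, rfl⟩ := QuotientGroup.mk'_surjective N y
    have hsyl : IsSylowIn p P (P ⊔ N) := by
      refine ⟨le_sup_left, hP, ?_⟩
      have h1 : P.relIndex (P ⊔ N) * Nat.card P = Nat.card (P ⊔ N : Subgroup G) :=
        H9.relIndex_mul_card le_sup_left
      have h2 := card_sup_of_disjoint (H := P) (K := N) Subgroup.le_normalizer_of_normal (inf_eq_bot_of_coprime hc)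
      have h3 : P.relIndex (P ⊔ N) = Nat.card N := by
        rw [h2, mul_comm] at h1
        exact Nat.eq_of_mul_eq_mul_left Nat.card_pos h1
      rw [h3]
      exact (Nat.Prime.coprime_iff_not_dvd Fact.out).1 hN.symm
    have hx : x ∈ Subgroup.normalizer ((P ⊔ N : Subgroup G) : Set G) := by
      rw [mem_normalizer_iff_conj_mem]
      intro z hz
      have h1 : (QuotientGroup.mk' N) z ∈ P.map (QuotientGroup.mk' N) := by
        have : z ∈ (P.map (QuotientGroup.mk' N)).comap (QuotientGroup.mk' N) := by
          rwa [Subgroup.comap_map_eq, QuotientGroup.ker_mk']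
        exact this
      have h2 := conj_mem_of_mem_normalizer hy h1
      have : x * z * x⁻¹ ∈ (P.map (QuotientGroup.mk' N)).comap (QuotientGroup.mk' N) := by
        rw [Subgroup.mem_comap, map_mul, map_mul, map_inv]; exact h2
      rwa [Subgroup.comap_map_eq, QuotientGroup.ker_mk'] at this
    obtain ⟨n, hn, k, hk, rfl⟩ := hsyl.frattini' hx
    obtain ⟨a, ha, b, hb, rfl⟩ := (mem_sup_of_le_normalizer_right Subgroup.le_normalizer_of_normal).1 hk
    refine ⟨n * a, Subgroup.mul_mem _ hn (Subgroup.le_normalizer ha), ?_⟩
    have : (QuotientGroup.mk' N) b = 1 := (QuotientGroup.eq_one_iff b).2 hb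
    simp only [map_mul, this, mul_one]
  · have := centralizer_map_mk' (A := P) (K := ⊤) (N := N) le_top hc (Or.inl hs)
    rw [top_inf_eq, Subgroup.map_top_of_surjective _ (QuotientGroup.mk'_surjective N), top_inf_eq] at this
    exact this

end Cfsg.Agent.S3800
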