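import Cfsg.Statements.S3950
import Cfsg.Agent.L.Schur6
import Cfsg.Agent.S3979
import Mathlib

set_option autoImplicit false
open Cfsg

namespace Cfsg.Agent.S3950

/-- A finite abelian group has trivial Schur multiplier if and only if it is cyclic. -/
theorem result {G : Type*} [CommGroup G] [Finite G] : Cfsg.HasCyclicSchurMultiplier G 1 ↔ IsCyclic G := by
  classical
  refine ⟨fun h => ?_, fun h => Cfsg.Agent.S3979.result⟩
  obtain ⟨ι, _, n, hn, ⟨e⟩⟩ := CommGroup.equiv_prod_multiplicative_zmod_of_finite G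
  by_cases hc : Pairwise (fun i j => Nat.Coprime (n i) (n j))
  · have e2 := (ZMod.prodEquivPi n hc).toAddEquiv
    haveI : IsAddCyclic (∀ i, ZMod (n i)) := isAddCyclic_of_surjective e2 e2.surjective
    exact isCyclic_of_surjective (e.trans (MulEquiv.piMultiplicative _).symm).symm
      (MulEquiv.surjective _)
  · exfalso
    simp only [Pairwise, not_forall] at hc
    obtain ⟨i, j, hij, hd⟩ := hc
    set d := Nat.gcd (n i) (n j) with hdd
    have hd1 : 1 < d := by
      have : d ≠ 0 := Nat.gcd_ne_zero_left (by have := hn i; omega)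
      have : d ≠ 1 := hd
      omega
    haveI : Fact (1 < d) := ⟨hd1⟩
    let φ : G → ZMod d := fun g => ZMod.castHom (Nat.gcd_dvd_left _ _) (ZMod d) (e g i).toAdd
    let ψ : G → ZMod d := fun g => ZMod.castHom (Nat.gcd_dvd_right _ _) (ZMod d) (e g j).toAdd
    have hφ : ∀ a b, φ (a * b) = φ a + φ b := fun a b => by
      simp only [φ, map_mul, Pi.mul_apply, toAdd_mul, map_add]
    have hψ : ∀ a b, ψ (a * b) = ψ a + ψ b := fun a b => by
      simp only [ψ, map_mul, Pi.mul_apply, toAdd_mul, map_add]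
    let β : G →* G →* Multiplicative (ZMod d) := MonoidHom.mk'
      (fun g => MonoidHom.mk' (fun h => Multiplicative.ofAdd (φ g * ψ h)) (fun a b => by
        rw [hψ, mul_add, ofAdd_add])) (fun a b => by
          ext c; simp only [MonoidHom.mk'_apply, MonoidHom.mul_apply, hφ, add_mul, ofAdd_add])
    have ce : L.IsCE (L.BEπ β) := ⟨fun g => ⟨⟨g, 1⟩, rfl⟩, fun x hx => by
      have : x.g = 1 := hx
      rw [Subgroup.mem_center_iff]; intro y
      ext <;> simp [this, mul_comm]⟩
    have hb := L.mult_eq_bot_of_hasSchur_one h ce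
    let x := e.symm (Pi.mulSingle i (Multiplicative.ofAdd 1))
    let y := e.symm (Pi.mulSingle j (Multiplicative.ofAdd 1))
    have h3 := Subgroup.commutator_mem_commutator (Subgroup.mem_top (⟨x, 1⟩ : L.BE β))
      (Subgroup.mem_top ⟨y, 1⟩)
    rw [L.BE_comm _ _ _ _ (mul_comm _ _)] at h3
    have h4 : (⟨1, β x y * (β y x)⁻¹⟩ : L.BE β) ∈ L.mult (L.BEπ β) := ⟨rfl, h3⟩
    rw [hb, Subgroup.mem_bot] at h4
    have h5 : β x y * (β y x)⁻¹ = 1 := congrArg L.BE.t h4
    have e1 : φ x = 1 := by simp only [φ, x, MulEquiv.apply_symm_apply, Pi.mulSingle_eq_same,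
      toAdd_ofAdd, map_one]
    have e2 : ψ y = 1 := by simp only [ψ, y, MulEquiv.apply_symm_apply, Pi.mulSingle_eq_same,
      toAdd_ofAdd, map_one]
    have e3 : φ y = 0 := by simp only [φ, y, MulEquiv.apply_symm_apply, Pi.mulSingle_eq_of_ne hij,
      toAdd_one, map_zero]
    simp [β, e1, e2, e3] at h5

end Cfsg.Agent.S3950
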