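import Cfsg.Statements.S3951
import Cfsg.Agent.L.Schur6
import Cfsg.Agent.S3979
import Mathlib

set_option autoImplicit false
open Cfsg

namespace Cfsg.Agent.S3951

/-- For positive integers `m` and `n` with `n` dividing `m`, the Schur multiplier of the abelian group `ZMod m × ZMod n` (written multiplicatively) is cyclic of order `n`. In particular the elementary abelian group of order `p ^ 2` has multiplier of order `p`. -/
theorem result (m n : ℕ) [NeZero m] [NeZero n] (hnm : n ∣ m) : Cfsg.HasCyclicSchurMultiplier (Multiplicative (ZMod m × ZMod n)) n := by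
  have h1 := Cfsg.Agent.S3979.result (G := Multiplicative (ZMod m))
  have h2 := Cfsg.Agent.S3979.result (G := Multiplicative (ZMod n))
  have h := L.hasSchur_prod h1 h2
  haveI : Unique (Multiplicative (ZMod 1)) := inferInstanceAs (Unique (Fin 1))
  obtain ⟨γ, hγ⟩ := L.exists_TT_lift (Q₁ := Multiplicative (ZMod m)) (Q₂ := Multiplicative (ZMod n))
    (Z := Multiplicative (ZMod n))
    (fun a b => Multiplicative.ofAdd (ZMod.castHom hnm (ZMod n) a.toAdd * b.toAdd))
    (fun a a' b => by simp only [toAdd_mul, map_add, add_mul, ofAdd_add])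
    (fun a a' b => by simp only [toAdd_mul, mul_add, ofAdd_add])
  let δ : Multiplicative (ZMod n) →* L.TT (Multiplicative (ZMod m)) (Multiplicative (ZMod n)) :=
    MonoidHom.mk' (fun b => L.tp (Multiplicative.ofAdd 1) b) (fun a b => L.tp_mul_right _ _ _)
  have hγs : Function.Surjective γ := fun b => ⟨L.tp (Multiplicative.ofAdd 1) b, by
    rw [hγ]; simp only [toAdd_ofAdd, map_one, one_mul, ofAdd_toAdd]⟩
  have hδ : Function.Surjective δ := fun t => L.TT_ind δ.range (fun a b => by
    refine ⟨b ^ (a.toAdd.val), ?_⟩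
    change L.tp _ _ = _
    rw [L.tp_pow_right, ← L.tp_pow_left, ← ofAdd_nsmul]
    simp) t
  have hb := L.equiv_of_surj_surj γ δ hγs hδ
  have h3 := L.hasSchur_congr ((MulEquiv.uniqueProd.trans MulEquiv.uniqueProd).trans
    (MulEquiv.ofBijective γ hb)) h
  exact L.hasSchur_congr_left (MulEquiv.prodMultiplicative _ _).symm h3

end Cfsg.Agent.S3951
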