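import Cfsg.Statements.S3952
import Cfsg.Agent.H3.Chr
import Cfsg.Agent.H3.Ind
import Cfsg.Agent.H3.Linear
import Cfsg.Agent.H3.Values

set_option autoImplicit false
open Cfsg

namespace Cfsg.Agent.S3952

open Subgroup H3

/-- If `A` is the Schur multiplier of the finite group `Q`, then the square of the exponent of `A` divides the order of `Q`. -/
theorem result {Q : Type*} [Group Q] [Finite Q] {A : Type*} [CommGroup A] (hA : Cfsg.HasSchurMultiplier Q A) : Monoid.exponent A ^ 2 ∣ Nat.card Q := by
  classical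
  obtain ⟨⟨Γ, _, _, σ, ⟨hs, hz, hc⟩, ⟨e⟩⟩, -⟩ := hA
  letI := Fintype.ofFinite Γ
  set K := σ.ker
  letI := Fintype.ofFinite K
  haveI : Finite A := Finite.of_equiv _ e.toEquiv
  obtain ⟨a, ha⟩ := Monoid.exists_orderOf_eq_exponent (G := A) Monoid.ExponentExists.of_finite
  set n := Monoid.exponent A
  have hn : n ≠ 0 := Monoid.exponent_ne_zero_of_finite
  haveI : NeZero n := ⟨hn⟩
  let z : K := e.symm a
  have hzo : orderOf z = n := by rw [← ha]; exact e.symm.orderOf_eq a
  let i : zpowers z ≃* rootsOfUnity n ℂ := mulEquivOfCyclicCardEq (by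
    rw [Nat.card_zpowers, hzo, Complex.card_rootsOfUnity])
  obtain ⟨f, hf⟩ := exists_hom_extend_comm (fun a b : K => Subtype.ext (mem_center_iff.1 (hz b.2) a))
    (zpowers z) ((rootsOfUnity n ℂ).subtype.comp i.toMonoidHom)
  have hfo : orderOf (f z) = n := by
    have := hf ⟨z, mem_zpowers z⟩
    simp only at this
    rw [this]
    exact (orderOf_injective ((rootsOfUnity n ℂ).subtype.comp i.toMonoidHom)
      ((rootsOfUnity n ℂ).subtype_injective.comp i.injective) _).trans ((orderOf_mk _ _).trans hzo)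
  have hψ := char_indFun K (irr_char (isIrr_hom f))
  obtain ⟨c, h1, h2⟩ := char_eq_sum_nat hψ
  have h3 := congrFun h2 1
  rw [indFun_one, map_one, Units.val_one, mul_one, Finset.sum_apply] at h3
  simp only [Pi.smul_apply, smul_eq_mul, ideg] at h3
  have h4 : K.index = ∑ χ, c χ * charDegree χ.1 := by exact_mod_cast h3
  have h5 : K.index = Nat.card Q := by
    rw [index_ker, MonoidHom.range_eq_top.2 hs, card_top]
  rw [← h5, h4]
  refine Finset.dvd_sum fun χ _ => ?_
  by_cases h0 : c χ = 0
  · simp [h0]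
  obtain ⟨μ, hμ⟩ := exists_hom_charCenter (irr_one_ne_zero χ.2)
  let μ' : K →* ℂˣ := μ.comp (inclusion (hz.trans (center_le_charCenter χ.2)))
  have h6 : (fun k : K => χ.1 k) = (χ.1 1) • fun k : K => (μ' k : ℂ) := by
    ext k
    have := hμ ⟨k, center_le_charCenter χ.2 (hz k.2)⟩ 1
    rw [one_mul] at this
    rw [this, Pi.smul_apply, smul_eq_mul, mul_comm]; rfl
  have h7 := h1 χ
  rw [inner_indFun_left _ _ (char_class (irr_char χ.2)), h6, H3.inner_smul_right, inner_hom] at h7
  have h8 : f = μ' := by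
    by_contra h
    rw [if_neg h, mul_zero] at h7
    exact h0 (by exact_mod_cast h7.symm)
  rw [if_pos h8, mul_one, ideg, map_natCast] at h7
  have h9 : charDegree χ.1 = c χ := by exact_mod_cast h7
  suffices h : n ∣ charDegree χ.1 by rw [← h9, sq]; exact Nat.mul_dvd_mul h h
  obtain ⟨d, ρ, hρ, hχ⟩ := χ.2
  have hd : χ.1 1 = d := by rw [← hχ]; simp
  obtain ⟨ω, hω⟩ := schur_scalar ρ (ρ z) fun g => by rw [← map_mul, ← map_mul, mem_center_iff.1 (hz z.2) g]
  have e1 : ω = f z := by
    have := congrFun h6 z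
    rw [← h8, Pi.smul_apply, smul_eq_mul, hd, ← hχ] at this
    simp only [Representation.character, hω, map_smul, LinearMap.trace_id, Module.finrank_fin_fun, smul_eq_mul] at this
    rw [mul_comm] at this
    exact mul_left_cancel₀ (hd ▸ irr_one_ne_zero χ.2) this
  have e2 : LinearMap.det (ρ z) = 1 := by
    have := Abelianization.commutator_subset_ker (LinearMap.det.comp ρ).toHomUnits (hc z.2)
    exact congrArg Units.val this
  rw [hω, LinearMap.det_smul, LinearMap.det_id, mul_one, Module.finrank_fin_fun, e1] at e2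
  rw [deg_of_eq hd, ← hfo]
  exact orderOf_dvd_of_pow_eq_one (Units.ext (by simpa using e2))

end Cfsg.Agent.S3952
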