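import Cfsg.Statements.S3953
import Cfsg.Agent.L.Schur2

set_option autoImplicit false
open Cfsg

namespace Cfsg.Agent.S3953

/-- Let `P` be a Sylow `p`-subgroup of the finite group `G`, let `A` be the Schur multiplier of `G` and `B` that of `P`. Then the `p`-primary component of `A` is isomorphic to a direct factor of `B`: there are subgroups `C` and `D` of `B` meeting trivially and generating `B`, with `C` isomorphic to the `p`-primary component of `A`. -/
theorem result {G : Type*} [Group G] [Finite G] (p : ℕ) [Fact p.Prime] (P : Sylow p G) {A B : Type*} [CommGroup A] [CommGroup B] (hA : Cfsg.HasSchurMultiplier G A) (hB : Cfsg.HasSchurMultiplier P B) : ∃ C D : Subgroup B, C ⊓ D = ⊥ ∧ C ⊔ D = ⊤ ∧ Nonempty (CommGroup.primaryComponent A p ≃* C) := by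
  obtain ⟨e1⟩ := L.hasSchur_iff.1 hA
  obtain ⟨e2⟩ := L.hasSchur_iff.1 hB
  haveI := (L.finite_of_hasSchur hB).2
  haveI := (L.finite_of_hasSchur hA).2
  obtain ⟨t, i, h⟩ := L.exists_SM_transfer (P : Subgroup G)
  let t' : A →* B := e2.symm.toMonoidHom.comp (t.comp e1.toMonoidHom)
  let i' : B →* A := e1.symm.toMonoidHom.comp (i.comp e2.toMonoidHom)
  have h' : ∀ a, i' (t' a) = a ^ (P : Subgroup G).index := fun a => by simp [t', i', h]
  obtain ⟨k, hk⟩ := P.isPGroup'.exists_card_eq
  have hB' : ∀ b : B, b ^ p ^ k = 1 := fun b => by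
    apply e2.injective
    rw [map_pow, map_one, ← hk]
    exact L.SM_pow_card _
  let Ap := CommGroup.primaryComponent A p
  let φ : Ap →* B := t'.comp Ap.subtype
  let ψ : B →* Ap := i'.codRestrict _ (fun b => CommGroup.mem_primaryComponent.2
    ⟨k, by rw [← map_pow, hB', map_one]⟩)
  have hbij : Function.Bijective (fun a : Ap => ψ (φ a)) := by
    have : (fun a : Ap => ψ (φ a)) = fun a => a ^ (P : Subgroup G).index := by
      funext a; exact Subtype.ext (h' a)
    rw [this]
    obtain ⟨l, hl⟩ := (CommGroup.primaryComponent.isPGroup (G := A) (p := p)).exists_card_eq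
    refine (powCoprime ?_).bijective
    rw [hl]
    exact Nat.Coprime.pow_left _ ((Nat.Prime.coprime_iff_not_dvd Fact.out).2 P.not_dvd_index)
  refine ⟨φ.range, ψ.ker, ?_, ?_, ⟨MonoidHom.ofInjective (Function.Injective.of_comp hbij.1)⟩⟩
  · rw [eq_bot_iff]
    rintro _ ⟨⟨a, rfl⟩, ha⟩
    have : a = 1 := hbij.1 (by simpa using ha)
    simp [this]
  · rw [eq_top_iff]
    intro b _
    obtain ⟨a, ha⟩ := hbij.2 (ψ b)
    have : b = φ a * ((φ a)⁻¹ * b) := by simp
    rw [this]
    refine Subgroup.mul_mem_sup ⟨a, rfl⟩ ?_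
    have ha' : ψ (φ a) = ψ b := ha
    rw [MonoidHom.mem_ker, map_mul, map_inv, ha', inv_mul_cancel]

end Cfsg.Agent.S3953
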