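import Cfsg.Statements.S3954
import Cfsg.Agent.L.Schur2

set_option autoImplicit false
open Cfsg

namespace Cfsg.Agent.S3954

/-- Let `U` be a subgroup of index `m` in the finite group `G`, let `A` be the Schur multiplier of `G` and `B` that of `U`. Then the subgroup of `m`-th powers of `A` is isomorphic to a subgroup of `B`. -/
theorem result {G : Type*} [Group G] [Finite G] (U : Subgroup G) {A B : Type*} [CommGroup A] [CommGroup B] (hA : Cfsg.HasSchurMultiplier G A) (hB : Cfsg.HasSchurMultiplier U B) : ∃ C : Subgroup B, Nonempty ((powMonoidHom U.index : A →* A).range ≃* C) := by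
  obtain ⟨e1⟩ := L.hasSchur_iff.1 hA
  obtain ⟨e2⟩ := L.hasSchur_iff.1 hB
  haveI := (L.finite_of_hasSchur hB).2
  obtain ⟨t, i, h⟩ := L.exists_SM_transfer U
  let t' : A →* B := e2.symm.toMonoidHom.comp (t.comp e1.toMonoidHom)
  let i' : B →* A := e1.symm.toMonoidHom.comp (i.comp e2.toMonoidHom)
  have h' : ∀ a, i' (t' a) = a ^ U.index := fun a => by simp [t', i', h]
  let φ : t'.range →* (powMonoidHom U.index : A →* A).range :=
    (i'.comp t'.range.subtype).codRestrict _ (by
      rintro ⟨_, a, rfl⟩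
      exact ⟨a, (h' a).symm⟩)
  obtain ⟨ψ, hψ⟩ := L.exists_inj_of_surj φ (by
    rintro ⟨_, a, rfl⟩
    exact ⟨⟨t' a, a, rfl⟩, Subtype.ext (h' a)⟩)
  exact ⟨(t'.range.subtype.comp ψ).range,
    ⟨MonoidHom.ofInjective (t'.range.subtype_injective.comp hψ)⟩⟩

end Cfsg.Agent.S3954
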