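import Cfsg.Statements.S3958
import Cfsg.Agent.L.Schur2

set_option autoImplicit false
universe u v
open Cfsg

namespace Cfsg.Agent.S3958

/-- Let `σ : Γ →* Q` be a finite stem extension of the finite group `Q` with `Γ` of trivial Schur multiplier. Then `σ` is a Schur covering group of `Q`: for every finite stem extension `τ : Δ →* Q` with `Δ` in the same universe as `Q`, the kernel of `τ` is a homomorphic image of the kernel of `σ`. -/
theorem result {Q : Type u} [Group Q] [Finite Q] {Γ : Type v} [Group Γ] [Finite Γ] (σ : Γ →* Q) (hσ : Cfsg.IsStemExtension σ) (hΓ : Cfsg.HasCyclicSchurMultiplier Γ 1) (Δ : Type u) [Group Δ] [Finite Δ] (τ : Δ →* Q) (hτ : Cfsg.IsStemExtension τ) : ∃ π : σ.ker →* τ.ker, Function.Surjective π := by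
  obtain ⟨Γ0, i1, i2, σ0, h1, ⟨e⟩, β, hβ, h3⟩ := L.exists_cover_over hσ
  have hk : β.ker ≤ σ0.ker := fun x hx => by
    change σ0 x = 1
    rw [← h3]; change σ (β x) = 1
    rw [show β x = 1 from hx, map_one]
  have h4 := L.mult_eq_bot_of_hasSchur_one hΓ (ξ := β) ⟨hβ, hk.trans h1.2.1⟩
  have h5 : β.ker = ⊥ := by
    rw [← h4]; exact (inf_eq_left.2 (hk.trans h1.2.2)).symm
  have hb : Function.Bijective β := ⟨(MonoidHom.ker_eq_bot_iff β).1 h5, hβ⟩
  let eβ := MulEquiv.ofBijective β hb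
  obtain ⟨φ, hφ⟩ := L.SM_surj_stem hτ
  let ψ : σ.ker →* σ0.ker := (eβ.symm.toMonoidHom.comp σ.ker.subtype).codRestrict _ (fun x => by
    change σ0 (eβ.symm x) = 1
    rw [← h3]; change σ (eβ (eβ.symm x)) = 1
    rw [eβ.apply_symm_apply]; exact x.2)
  have hψ : Function.Surjective ψ := by
    rintro ⟨y, hy⟩
    refine ⟨⟨β y, ?_⟩, Subtype.ext (eβ.symm_apply_apply y)⟩
    rw [← h3] at hy; exact hy
  exact ⟨φ.comp (e.toMonoidHom.comp ψ), hφ.comp (e.surjective.comp hψ)⟩

end Cfsg.Agent.S3958
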