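import Cfsg.Statements.S3961
import Cfsg.Agent.L.Schur2

set_option autoImplicit false
universe u v
open Cfsg

namespace Cfsg.Agent.S3961

/-- Let `π : G →* Q` be a surjective homomorphism with central kernel from a finite perfect group `G` (a perfect cover of `Q`). Then `π` is universal, in the sense that every surjective homomorphism `ξ : X →* Q` with central kernel from a group `X` in the universe of `G` admits a homomorphism `η : G →* X` with `ξ ∘ η = π`, if and only if `G` has trivial Schur multiplier. -/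
theorem result {G : Type u} {Q : Type v} [Group G] [Group Q] [Finite G] (hG : Group.IsPerfect G) (π : G →* Q) (hπ : Function.Surjective π) (hker : π.ker ≤ Subgroup.center G) : (∀ (X : Type u) [Group X] (ξ : X →* Q), Function.Surjective ξ → ξ.ker ≤ Subgroup.center X → ∃ η : G →* X, ξ.comp η = π) ↔ Cfsg.HasCyclicSchurMultiplier G 1 := by
  refine ⟨fun h => L.hasSchur_one_of fun Δ _ _ τ hτ => ?_,
    fun h X _ ξ h1 h2 => L.exists_lift_of_trivial hG h π ⟨h1, h2⟩⟩
  have hΔ : Group.IsPerfect Δ := by
    rw [Group.isPerfect_def, eq_top_iff]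
    intro x _
    have h1 : (commutator Δ).map τ = commutator G := by
      rw [map_commutator_eq, MonoidHom.range_eq_top.2 hτ.1]; rfl
    have h2 : τ x ∈ commutator G := Group.IsPerfect.mem_commutator
    rw [← h1] at h2
    obtain ⟨y, hy, h3⟩ := h2
    have h4 : y⁻¹ * x ∈ τ.ker := by rw [MonoidHom.mem_ker, map_mul, map_inv, h3, inv_mul_cancel]
    simpa using (commutator Δ).mul_mem hy (hτ.2.2 h4)
  obtain ⟨η, hη⟩ := h Δ (π.comp τ) (hπ.comp hτ.1) (fun x hx => by
    have h1 : τ x ∈ Subgroup.center G := hker hx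
    rw [← L.map_center_of_perfect hΔ τ hτ.1 hτ.2.1] at h1
    obtain ⟨y, hy, h3⟩ := h1
    have h4 : y⁻¹ * x ∈ τ.ker := by rw [MonoidHom.mem_ker, map_mul, map_inv, h3, inv_mul_cancel]
    simpa using (Subgroup.center Δ).mul_mem hy (hτ.2.1 h4))
  have h1 : ∀ g, τ (η g) = g := fun g =>
    L.lifts_agree hker (τ.comp η) (MonoidHom.id G) hη Group.IsPerfect.mem_commutator
  have h2 := L.lift_surj_of_stem (π := MonoidHom.id G) Function.surjective_id hτ η (MonoidHom.ext h1)
  rw [eq_bot_iff]
  intro x hx
  obtain ⟨g, rfl⟩ := h2 x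
  have : g = 1 := by rw [← h1 g]; exact hx
  rw [this, map_one]; exact Subgroup.one_mem _

end Cfsg.Agent.S3961
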