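import Cfsg.Statements.S3964
import Cfsg.Agent.L.Schur5

set_option autoImplicit false
open Cfsg

namespace Cfsg.Agent.S3964

/-- For odd `n` the dihedral group of order `2 n` has trivial Schur multiplier. -/
theorem result (n : ℕ) (hn : Odd n) : Cfsg.HasCyclicSchurMultiplier (DihedralGroup n) 1 := by
  haveI : NeZero n := ⟨by rintro rfl; simp at hn⟩
  refine L.hasSchur_one_of fun Δ _ _ τ hτ => ?_
  have h := L.dih_ker_card n hτ
  rw [(Nat.coprime_two_right.2 hn).gcd_eq_one, Nat.dvd_one] at h
  exact Subgroup.eq_bot_of_card_eq _ h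

end Cfsg.Agent.S3964
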