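import Cfsg.Statements.S3966
import Cfsg.Agent.L.Schur4

set_option autoImplicit false
open Cfsg

namespace Cfsg.Agent.S3966

/-- For even `n ≥ 2` the dicyclic group of order `4 n` is a stem extension of the dihedral group of order `2 n` with kernel of order `2`: there is a surjective homomorphism `QuaternionGroup n →* DihedralGroup n` whose kernel is central, lies in the commutator subgroup and has two elements. Together with the order of the multiplier this exhibits the dicyclic group as a Schur covering group of the dihedral group. -/
theorem result (n : ℕ) [NeZero n] (hn : Even n) : ∃ σ : QuaternionGroup n →* DihedralGroup n, Cfsg.IsStemExtension σ ∧ Nat.card σ.ker = 2 := by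
  let c : ZMod (2 * n) →+* ZMod n := ZMod.castHom (Dvd.intro_left 2 rfl) (ZMod n)
  let f : QuaternionGroup n → DihedralGroup n := fun x => match x with
    | .a i => .r (c i)
    | .xa i => .sr (c i)
  have hcn : c n = 0 := by simp [c]
  let σ : QuaternionGroup n →* DihedralGroup n := MonoidHom.mk' f (by
    rintro (i | i) (j | j) <;> simp [f, hcn])
  have hn0 : 0 < n := Nat.pos_of_ne_zero (NeZero.ne n)
  have hker : σ.ker = Subgroup.zpowers (QuaternionGroup.a n) := by
    apply le_antisymm
    · rintro (i | i) hi
      · have h1 : c i = 0 := by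
          have : DihedralGroup.r (c i) = DihedralGroup.r 0 := hi
          exact DihedralGroup.r.inj this
        have h2 : n ∣ i.val := by
          rw [← ZMod.natCast_eq_zero_iff, ← h1]
          simp [c]
        obtain ⟨k, hk⟩ := h2
        have : (QuaternionGroup.a i : QuaternionGroup n) = QuaternionGroup.a n ^ k := by
          rw [← QuaternionGroup.a_one_pow, ← pow_mul, ← hk]; simp
        rw [this]
        exact pow_mem (Subgroup.mem_zpowers _) _
      · have : DihedralGroup.sr (c i) = DihedralGroup.r 0 := hi
        cases this
    · rw [Subgroup.zpowers_le]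
      change DihedralGroup.r (c n) = 1
      rw [hcn]; rfl
  refine ⟨σ, ⟨?_, ?_, ?_⟩, ?_⟩
  · have hc : Function.Surjective c := ZMod.castHom_surjective _
    rintro (i | i) <;> obtain ⟨j, rfl⟩ := hc i
    · exact ⟨.a j, rfl⟩
    · exact ⟨.xa j, rfl⟩
  · rw [hker, Subgroup.zpowers_le, Subgroup.mem_center_iff]
    have h2 : (n : ZMod (2 * n)) + n = 0 := by
      rw [← two_mul]; exact_mod_cast ZMod.natCast_self (2 * n)
    rintro (i | i)
    · simp [add_comm]
    · simp only [QuaternionGroup.xa_mul_a, QuaternionGroup.a_mul_xa]
      congr 1
      linear_combination h2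
  · rw [hker, Subgroup.zpowers_le]
    obtain ⟨k, hk⟩ := hn
    have : (QuaternionGroup.a n : QuaternionGroup n) =
        QuaternionGroup.a k * QuaternionGroup.xa 0 * (QuaternionGroup.a k)⁻¹ * (QuaternionGroup.xa 0)⁻¹ := by
      rw [eq_mul_inv_iff_mul_eq, eq_mul_inv_iff_mul_eq]
      simp only [QuaternionGroup.xa_mul_a, QuaternionGroup.a_mul_xa]
      congr 1
      have : (n : ZMod (2 * n)) = k + k := by exact_mod_cast congrArg (Nat.cast : ℕ → ZMod (2 * n)) hk
      linear_combination -this
    rw [this]
    exact Subgroup.commutator_mem_commutator (Subgroup.mem_top _) (Subgroup.mem_top _)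
  · rw [hker, Nat.card_zpowers, ← QuaternionGroup.a_one_pow, orderOf_pow,
      QuaternionGroup.orderOf_a_one]
    simp [hn0]

end Cfsg.Agent.S3966
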