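import Cfsg.Statements.S3967
import Cfsg.Agent.L.Schur4

set_option autoImplicit false
open Cfsg

namespace Cfsg.Agent.S3967

theorem pow_gcd_mem {G : Type*} [Group G] (S : Subgroup G) (x : G) (a b : ℕ) (ha : x ^ a ∈ S)
    (hb : x ^ b ∈ S) : x ^ Nat.gcd a b ∈ S := by
  rw [← zpow_natCast, Nat.gcd_eq_gcd_ab, zpow_add, zpow_mul, zpow_mul, zpow_natCast, zpow_natCast]
  exact mul_mem (zpow_mem ha _) (zpow_mem hb _)

theorem geom (r n : ℕ) : (r + 1) ^ n = r * ∑ i ∈ Finset.range n, (r + 1) ^ i + 1 := by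
  rw [mul_comm]; exact (geom_sum_mul_add r n).symm

/-- Let `m, n ≥ 1`, `r ≥ 1` with `r ^ n ≡ 1 (mod m)`, and `l` a natural number; put `d = gcd(m, r - 1)`, `t = m l / d` and `h = d · gcd(m, 1 + r + ⋯ + r^(n-1)) / m`. The group presented by generators `a, b` and relations `a ^ m = 1`, `b ^ n = a ^ t`, `b a b⁻¹ = a ^ r` (a metacyclic group of order `m n`) has Schur multiplier cyclic of order `gcd(l, h)`. -/
theorem result (m n r l : ℕ) (hm : 0 < m) (hn : 0 < n) (hr : 0 < r) (hrn : r ^ n ≡ 1 [MOD m]) : Cfsg.HasCyclicSchurMultiplier (PresentedGroup ({FreeGroup.of true ^ m, (FreeGroup.of false) ^ n * (FreeGroup.of true ^ (m * l / Nat.gcd m (r - 1)))⁻¹, FreeGroup.of false * FreeGroup.of true * (FreeGroup.of false)⁻¹ * (FreeGroup.of true ^ r)⁻¹} : Set (FreeGroup Bool))) (Nat.gcd l (Nat.gcd m (r - 1) * Nat.gcd m (∑ i ∈ Finset.range n, r ^ i) / m)) := by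
  obtain ⟨r, rfl⟩ : ∃ r', r = r' + 1 := ⟨r - 1, by omega⟩
  rw [Nat.add_sub_cancel]
  set d := Nat.gcd m r with hd
  set s := ∑ i ∈ Finset.range n, (r + 1) ^ i with hs
  have hd0 : 0 < d := Nat.gcd_pos_of_pos_left _ hm
  obtain ⟨v, hv⟩ : d ∣ m := Nat.gcd_dvd_left _ _
  obtain ⟨u, hu⟩ : d ∣ r := Nat.gcd_dvd_right _ _
  have huv : Nat.Coprime u v := by
    have : Nat.gcd m r = d * Nat.gcd v u := by
      conv_lhs => rw [hv, hu]
      exact Nat.gcd_mul_left _ _ _
    rw [← hd] at this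
    exact Nat.Coprime.symm (Nat.eq_of_mul_eq_mul_left hd0 (by rw [← this, mul_one]))
  have hv0 : 0 < v := Nat.pos_of_ne_zero (by rintro rfl; omega)
  have ht : m * l / d = v * l := by
    conv_lhs => rw [hv]
    rw [mul_assoc, Nat.mul_div_cancel_left _ hd0]
  have hvs : v ∣ s := by
    have h1 : m ∣ r * s := by
      rw [geom, ← hs] at hrn
      have := (Nat.modEq_iff_dvd' (by omega)).1 hrn.symm
      simpa using this
    rw [hv, hu, mul_assoc] at h1
    exact huv.symm.dvd_of_dvd_mul_left (Nat.dvd_of_mul_dvd_mul_left hd0 h1)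
  obtain ⟨h, hh⟩ : v ∣ Nat.gcd m s := Nat.dvd_gcd ⟨d, by rw [hv, mul_comm]⟩ hvs
  have hh' : d * Nat.gcd m s / m = h := by
    rw [hh, ← mul_assoc, ← hv, Nat.mul_div_cancel_left _ hm]
  have hh0 : 0 < h := Nat.pos_of_ne_zero (by
    rintro rfl
    have := Nat.gcd_pos_of_pos_left s hm
    omega)
  have hhd : h ∣ d := by
    have := Nat.gcd_dvd_left m s
    rw [hh] at this
    conv_rhs at this => rw [hv, mul_comm]
    exact Nat.dvd_of_mul_dvd_mul_left hv0 this
  rw [ht, hh']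
  set e := Nat.gcd l h with he
  have he0 : 0 < e := Nat.gcd_pos_of_pos_right _ hh0
  change HasCyclicSchurMultiplier (L.MC m n (r + 1) (v * l)) e
  haveI : Finite (L.MC m n (r + 1) (v * l)) := L.MC_finite hm hn
  have hoa : orderOf (PresentedGroup.of true : L.MC m n (r + 1) (v * l)) = m := by
    refine L.MC_orderOf hn hrn ?_
    rw [mul_add, mul_one]
    refine ((Nat.modEq_iff_dvd' (by omega)).2 ?_).symm
    rw [Nat.add_sub_cancel, hu]
    exact ⟨l * u, by rw [hv]; ring⟩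
  obtain ⟨w, hw1, hw2⟩ : ∃ w, w ≡ u [MOD v] ∧ Nat.Coprime w (v * e) := by
    haveI : NeZero (v * e) := ⟨by positivity⟩
    obtain ⟨w, hw⟩ := ZMod.unitsMap_surjective (Dvd.intro e rfl) (ZMod.unitOfCoprime u huv)
    refine ⟨(w : ZMod (v * e)).val, ?_, ZMod.val_coe_unit_coprime w⟩
    rw [← ZMod.natCast_eq_natCast_iff]
    have := congrArg Units.val hw
    simpa [ZMod.unitsMap] using this
  have hrr : d * w + 1 ≡ r + 1 [MOD m] := by
    refine Nat.ModEq.add_right _ ?_
    conv_rhs => rw [hu]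
    conv_lhs => skip
    have := Nat.ModEq.mul_left' d hw1
    rwa [← hv] at this
  let Γ := L.MC (m * e) n (d * w + 1) (v * l)
  haveI : Finite Γ := L.MC_finite (by positivity) hn
  let x : Γ := PresentedGroup.of true
  let y : Γ := PresentedGroup.of false
  obtain ⟨e', he'⟩ : e ∣ h := Nat.gcd_dvd_right _ _
  obtain ⟨l', hl'⟩ : e ∣ l := Nat.gcd_dvd_left _ _
  have hox : orderOf x = m * e := by
    refine L.MC_orderOf hn ?_ ?_
    · rw [geom]
      refine ((Nat.modEq_iff_dvd' (by omega)).2 ?_).symm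
      rw [Nat.add_sub_cancel]
      have h1 : ∑ i ∈ Finset.range n, (d * w + 1) ^ i ≡ s [MOD m] :=
        Nat.ModEq.sum fun i _ => hrr.pow i
      have h2 : v * h ∣ ∑ i ∈ Finset.range n, (d * w + 1) ^ i := by
        rw [← hh]
        exact ((h1.of_dvd (Nat.gcd_dvd_left m s)).dvd_iff dvd_rfl).2 (Nat.gcd_dvd_right m s)
      obtain ⟨z, hz⟩ := h2
      exact ⟨w * e' * z, by rw [hz, he', hv]; ring⟩
    · rw [mul_add, mul_one]
      refine ((Nat.modEq_iff_dvd' (by omega)).2 ?_).symm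
      rw [Nat.add_sub_cancel]
      exact ⟨l' * w, by rw [hl', hv]; ring⟩
  obtain ⟨σ, hσ1, hσ2⟩ := L.MC_lift (m := m * e) (n := n) (r := d * w + 1) (t := v * l)
    (PresentedGroup.of true : L.MC m n (r + 1) (v * l)) (PresentedGroup.of false)
    (by rw [pow_mul, L.MC_rel1, one_pow]) L.MC_rel2
    (by rw [L.MC_rel3, pow_eq_pow_iff_modEq, hoa]; exact hrr.symm)
  haveI hN : (Subgroup.zpowers (x ^ m)).Normal :=
    L.zpowers_normal_of_gen _ _ L.MC_gen m (by positivity) L.MC_rel1 L.MC_rel3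
  have hker : σ.ker = Subgroup.zpowers (x ^ m) := by
    apply le_antisymm
    · obtain ⟨ψ, hψ1, hψ2⟩ := L.MC_lift (m := m) (n := n) (r := r + 1) (t := v * l)
        (QuotientGroup.mk' (Subgroup.zpowers (x ^ m)) x) (QuotientGroup.mk' _ y)
        (by rw [← map_pow, QuotientGroup.mk'_apply, QuotientGroup.eq_one_iff]
            exact Subgroup.mem_zpowers _)
        (by rw [← map_pow, ← map_pow, L.MC_rel2])
        (by
          rw [← map_inv, ← map_mul, ← map_mul, L.MC_rel3, map_pow, pow_eq_pow_iff_modEq]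
          refine hrr.of_dvd (orderOf_dvd_of_pow_eq_one ?_)
          rw [← map_pow, QuotientGroup.mk'_apply, QuotientGroup.eq_one_iff]
          exact Subgroup.mem_zpowers _)
      have : ψ.comp σ = QuotientGroup.mk' _ := PresentedGroup.ext (by
        rintro (_ | _)
        · rw [MonoidHom.comp_apply, hσ2, hψ2]
        · rw [MonoidHom.comp_apply, hσ1, hψ1])
      intro g hg
      rw [← QuotientGroup.ker_mk' (Subgroup.zpowers (x ^ m)), ← this, MonoidHom.mem_ker,
        MonoidHom.comp_apply, show σ g = 1 from hg, map_one]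
    · rw [Subgroup.zpowers_le, MonoidHom.mem_ker, map_pow, hσ1, L.MC_rel1]
  refine L.hasCyclic_of (σ := σ) ⟨?_, ?_, ?_⟩ (by rw [hker]; infer_instance) ?_ ?_
  · rw [← MonoidHom.range_eq_top, eq_top_iff, ← L.MC_gen, Subgroup.closure_le]
    rintro _ (rfl | rfl)
    · exact ⟨_, hσ1⟩
    · exact ⟨_, hσ2⟩
  · rw [hker, Subgroup.zpowers_le]
    have : Subgroup.closure {x, y} ≤ Subgroup.centralizer {x ^ m} := by
      rw [Subgroup.closure_le]
      rintro _ (rfl | rfl)
      · exact Subgroup.mem_centralizer_singleton_iff.2 ((Commute.refl x).pow_right m).eq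
      · refine Subgroup.mem_centralizer_singleton_iff.2 ?_
        rw [← mul_inv_eq_iff_eq_mul, ← conj_pow, L.MC_rel3, ← pow_mul, pow_eq_pow_iff_modEq, hox,
          add_mul, one_mul]
        refine ((Nat.modEq_iff_dvd' (by omega)).2 ?_).symm
        rw [Nat.add_sub_cancel]
        obtain ⟨d', hd'⟩ := hhd
        exact ⟨e' * d' * w, by rw [hd', he']; ring⟩
    rw [Subgroup.mem_center_iff]
    intro g
    exact Subgroup.mem_centralizer_singleton_iff.1 (this (L.MC_gen ▸ Subgroup.mem_top g))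
  · rw [hker, Subgroup.zpowers_le]
    have h1 : x ^ (d * w) ∈ commutator Γ := by
      have : x ^ (d * w) = y * x * y⁻¹ * x⁻¹ := by rw [L.MC_rel3, pow_succ]; simp [x]
      rw [this]
      exact Subgroup.commutator_mem_commutator (Subgroup.mem_top _) (Subgroup.mem_top _)
    have h2 := pow_gcd_mem _ x _ (m * e) h1 (by rw [L.MC_rel1]; exact one_mem _)
    have h3 : Nat.gcd (d * w) (m * e) = d := by
      conv_lhs => rw [hv]
      rw [mul_assoc, Nat.gcd_mul_left, hw2, mul_one]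
    rw [h3] at h2
    have : x ^ m = (x ^ d) ^ v := by rw [← pow_mul, ← hv]
    rw [this]
    exact pow_mem h2 _
  · rw [hker, Nat.card_zpowers, orderOf_pow, hox, Nat.gcd_mul_right_left,
      Nat.mul_div_cancel_left _ hm]
  · intro Δ _ _ τ hτ
    have h1 := L.meta_card hτ _ _ L.MC_gen m n (r + 1) (v * l) hn (by omega) L.MC_rel1 L.MC_rel2
      L.MC_rel3
    rw [Nat.add_sub_cancel, orderOf_pow, hoa, ← hd, ← hs, hh, Nat.gcd_mul_left, ← he,
      Nat.div_eq_of_eq_mul_right hd0 hv, mul_comm] at h1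
    exact Nat.le_of_dvd he0 (Nat.dvd_of_mul_dvd_mul_left hv0 h1)

end Cfsg.Agent.S3967
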