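import Cfsg.Statements.S3968
import Cfsg.Agent.H3.Galois
import Cfsg.Agent.H3.Chr
import Cfsg.Agent.H9.Rad
import Cfsg.Agent.H9.Syl

set_option autoImplicit false
open Cfsg

namespace Cfsg.Agent.S3968

open Subgroup H9 H3 in

/-- Let `p` be a prime and `G` a finite group with a faithful irreducible complex character of degree `p` (so `G` is an irreducible linear group in `p` variables). If `p ^ 2` divides the order of `G`, then the centre of `G` is nontrivial. -/
theorem result {G : Type*} [Group G] [Finite G] (p : ℕ) (hp : p.Prime) (χ : Cfsg.IrrCharacter G) (hdeg : χ.1 1 = p) (hfaith : ∀ g : G, χ.1 g = χ.1 1 → g = 1) (hdiv : p ^ 2 ∣ Nat.card G) : Subgroup.center G ≠ ⊥ := by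
  classical
  intro hZ
  haveI := Fact.mk hp
  haveI := Fintype.ofFinite G
  obtain ⟨P⟩ : Nonempty (Sylow p G) := inferInstance
  have hχ := χ.2
  have hk := ker_bot_of_faithful (irr_char hχ) hfaith
  have hP := syl_top_of_sylow P
  have van : ∀ z ∈ (P : Subgroup G) ⊓ centralizer (P : Set G), z ≠ 1 → χ.1 z = 0 := by
    intro z hz h1
    rcases burnside_zero_or_center hχ hdeg z ((Nat.Prime.coprime_iff_not_dvd hp).2 fun hd =>
      P.not_dvd_index (hd.trans (index_dvd_of_le (le_centralizer_singleton_iff.2 hz.2)))) with h | h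
    · exact h
    · have : z ∈ charCenter χ.1 := (mem_charCenter (irr_char hχ) z).2 (by rw [h, hdeg]; simp)
      rw [charCenter_eq_center hχ hk, hZ] at this
      exact absurd this h1
  have hcard : p ^ 2 ∣ Nat.card P := by
    rw [P.card_eq_multiplicity]
    exact pow_dvd_pow p ((hp.pow_dvd_iff_le_factorization Nat.card_pos.ne').1 hdiv)
  have hP0 : (P : Subgroup G) ≠ ⊥ := fun e => by
    rw [e, card_bot, Nat.dvd_one] at hcard
    exact hp.one_lt.ne' (by simpa using hcard)
  obtain ⟨z, hz, hzo⟩ := exists_orderOf_eq_of_isPGroup hP.isP.to_inf_left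
    (inf_centralizer_ne_bot_of_p hP.isP hP.isP le_normalizer hP0)
  have hz1 : z ≠ 1 := by rintro rfl; simp at hzo; exact hp.one_lt.ne hzo
  have key : ∀ ψ, IsCharacter P ψ → (∀ x ∈ commutator P, ψ x = ψ 1) ∨
      ∃ n : ℕ, ψ 1 = n ∧ (p < n ∨ (n = p ∧ IsIrrCharacter P ψ)) := by
    intro ψ hψ
    refine char_induction (P := fun ψ => (∀ x ∈ commutator P, ψ x = ψ 1) ∨
      ∃ n : ℕ, ψ 1 = n ∧ (p < n ∨ (n = p ∧ IsIrrCharacter P ψ))) (Or.inl fun _ _ => rfl) ?_ ?_ hψ
    · intro θ hθ
      obtain ⟨n, hn0, hn⟩ := irr_one_nat hθ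
      obtain ⟨k, hk⟩ := IsPGroup.iff_card.1 hP.isP
      obtain ⟨j, -, hj⟩ := (Nat.dvd_prime_pow hp).1 (hk ▸ degree_dvd_card hθ hn)
      rcases j with _ | j
      · left
        have := (degree_one_iff_commutator_le hθ).1 (by rw [hn, hj]; simp)
        exact fun x hx => (mem_charKer (irr_char hθ) x).1 (this hx)
      · right
        have : p ≤ n := hj ▸ Nat.le_self_pow (Nat.succ_ne_zero j) p
        exact ⟨n, hn, this.lt_or_eq.imp id fun e => ⟨e.symm, hθ⟩⟩
    · have mix : ∀ a b : ↥(P : Subgroup G) → ℂ, IsCharacter P b → (∃ n : ℕ, a 1 = n ∧ (p < n ∨ (n = p ∧ IsIrrCharacter P a))) →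
          ∃ n : ℕ, (a + b) 1 = n ∧ (p < n ∨ (n = p ∧ IsIrrCharacter P (a + b))) := by
        rintro a b hb ⟨n, hn, h⟩
        obtain ⟨m, hm⟩ := char_one_nat hb
        rcases m with _ | m
        · rw [char_eq_zero_of_degree_zero hb (by simpa using hm), add_zero]; exact ⟨n, hn, h⟩
        · exact ⟨n + (m + 1), by simp [hn, hm], Or.inl (by omega)⟩
      intro a b ha hb h1 h2
      rcases h1 with h1 | h1
      · rcases h2 with h2 | h2
        · exact Or.inl fun x hx => by simp [h1 x hx, h2 x hx]
        · right; rw [add_comm]; exact mix b a ha h2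
      · exact Or.inr (mix a b hb h1)
  rcases key _ (char_restrict (irr_char hχ) P) with h | ⟨n, hn, h⟩
  · have hab : (P : Subgroup G) ≤ centralizer (P : Set G) := by
      intro a ha b hb
      have := hfaith _ (h _ (commutator_mem_commutator (mem_top (⟨b, hb⟩ : (P : Subgroup G))) (mem_top ⟨a, ha⟩)))
      exact commutatorElement_eq_one_iff_mul_comm.1 this
    obtain ⟨m, hm⟩ := inner_char_nat (char_restrict (irr_char hχ) P) char_one
    rw [classInner, Finset.sum_eq_single 1 (fun b _ hb => by
      rw [van b ⟨b.2, hab b.2⟩ (fun e => hb (Subtype.ext e)), zero_mul]) (by simp)] at hm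
    simp only [coe_one, hdeg, map_one, mul_one] at hm
    have h3 : (p : ℂ) = Nat.card P * m := by
      rw [← hm, ← mul_assoc, mul_inv_cancel₀ (card_ne_zero' _), one_mul]
    have h4 : p = Nat.card P * m := by exact_mod_cast h3
    have := Nat.le_of_dvd hp.pos (hcard.trans (Dvd.intro _ h4.symm))
    nlinarith [hp.one_lt]
  · have : n = p := by
      have : (n : ℂ) = p := hn.symm.trans hdeg
      exact_mod_cast this
    rcases h with h | h
    · omega
    have h3 := (mem_charCenter (irr_char h.2) ⟨z, hz.1⟩).1 (center_le_charCenter h.2 (by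
      rw [mem_center_iff]; intro g; exact Subtype.ext (hz.2 g g.2)))
    simp only [van z hz hz1, coe_one, hdeg, norm_zero] at h3
    exact hp.ne_zero (by simpa using h3.symm)

end Cfsg.Agent.S3968
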