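import Cfsg.Statements.S3970
import Cfsg.Agent.H1.Tr2

set_option autoImplicit false
open Cfsg

namespace Cfsg.Agent.S3970

open H1
universe u in
theorem aux : ∀ (G : Type u) [Group G] [Finite G], (∀ p : ℕ, p.Prime → p ∣ Nat.card G → (∃ q : ℕ, q.Prime ∧ q ∣ Nat.card G ∧ p < q) → ∀ P : Sylow p G, IsMulCommutative (P : Subgroup G) ∧ Group.rank (P : Subgroup G) ≤ 2) → (¬ 12 ∣ Nat.card G) → Group.IsSolvable G := by
  apply group_induction
  intro G _ _ ih h h12
  by_cases h1 : Nat.card G = 1
  · have := (Nat.card_eq_one_iff_unique.1 h1).1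
    infer_instance
  set p := (Nat.card G).minFac
  have hp : Fact p.Prime := ⟨Nat.minFac_prime h1⟩
  have hpd : p ∣ Nat.card G := Nat.minFac_dvd _
  have hlt : ∀ q, q.Prime → q ≠ p → q ∣ Nat.card G → p < q := fun q hq hqp hd =>
    lt_of_le_of_ne (Nat.minFac_le_of_dvd hq.two_le hd) (Ne.symm hqp)
  obtain ⟨P⟩ : Nonempty (Sylow p G) := inferInstance
  have hnpc : HasNormalPComplement p G := by
    by_cases hq : ∃ q : ℕ, q.Prime ∧ q ∣ Nat.card G ∧ p < q
    · by_cases h4 : p ^ 2 ∣ Nat.card G
      · refine hasNPC_of_rank_le P (h p hp.out hpd hq P).1 (h p hp.out hpd hq P).2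
          fun q i hq hqp hd h1 h2 h3 => ?_
        obtain ⟨e1, rfl, -⟩ := small_prime_aux hq (hlt q hq hqp hd) h1 h2 h3
        rw [e1] at h4
        exact h12 (Nat.Coprime.mul_dvd_of_dvd_of_dvd (m := 4) (n := 3) (by norm_num) h4 hd)
      · refine hasNPC_of_card_le P (d := 1) ?_ fun q i hq hqp hd h1 h2 h3 => ?_
        · obtain ⟨k, hk⟩ := L.exists_card_eq_pow P.isPGroup'
          rw [hk]
          refine Nat.pow_le_pow_right hp.out.pos ?_
          by_contra hk2
          exact h4 ((pow_dvd_pow p (by omega)).trans (hk ▸ Subgroup.card_subgroup_dvd_card _))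
        · have := small_prime_aux hq (hlt q hq hqp hd) h1 (by omega) h3
          omega
    · refine hasNPC_of_card_le P (d := Nat.card P) (Nat.lt_pow_self hp.out.one_lt).le
        fun q i hq' hqp hd _ _ _ => hq ⟨q, hq', hd, hlt q hq' hqp hd⟩
  obtain ⟨N, hN, h2, h3⟩ := H2.hasNormalPComplement_iff_exists.1 hnpc
  have hNt : N ≠ ⊤ := by
    rintro rfl
    rw [Subgroup.card_top] at h2
    exact (Nat.Prime.coprime_iff_not_dvd hp.out).1 h2.symm hpd
  refine isSolvable_of_normal_of_quotient N (ih N (card_subgroup_lt hNt) ?_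
    fun hd => h12 (hd.trans N.card_subgroup_dvd_card)) (isSolvable_of_isPGroup h3)
  rintro r hr hd ⟨q, hq, hqd, hrq⟩ R
  have : Fact r.Prime := ⟨hr⟩
  have hrp : r ≠ p := by
    rintro rfl
    exact (Nat.Prime.coprime_iff_not_dvd hr).1 h2.symm hd
  obtain ⟨T, hT⟩ := ((isSylowIn_map_subtype R).trans le_top (by
    rw [Subgroup.relIndex_top_right]
    exact (Nat.Prime.coprime_iff_not_dvd hr).1
      (isPGroup_coprime h3 ((Nat.coprime_primes hr hp.out).2 hrp)).symm)).exists_sylow_top
  obtain ⟨h4, h5⟩ := h r hr (hd.trans N.card_subgroup_dvd_card)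
    ⟨q, hq, hqd.trans N.card_subgroup_dvd_card, hrq⟩ T
  have e : (R : Subgroup N) ≃* (T : Subgroup G) :=
    ((R : Subgroup N).equivMapOfInjective _ N.subtype_injective).trans (MulEquiv.subgroupCongr hT.symm)
  refine ⟨⟨⟨fun a b => e.injective (by rw [map_mul, map_mul]; exact h4.is_comm.comm _ _)⟩⟩, ?_⟩
  rwa [Group.rank_congr e]

/-- Let `G` be a finite group such that for every prime `p` dividing its order, other than the largest such prime, the Sylow `p`-subgroups are abelian and generated by at most two elements, and suppose `12` does not divide the order of `G`. Then `G` is solvable. In particular a group of cube-free order not divisible by `12` is solvable. -/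
theorem result {G : Type*} [Group G] [Finite G] (h : ∀ p : ℕ, p.Prime → p ∣ Nat.card G → (∃ q : ℕ, q.Prime ∧ q ∣ Nat.card G ∧ p < q) → ∀ P : Sylow p G, IsMulCommutative (P : Subgroup G) ∧ Group.rank (P : Subgroup G) ≤ 2) (h12 : ¬ 12 ∣ Nat.card G) : Group.IsSolvable G := by
  exact aux G h h12

end Cfsg.Agent.S3970
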