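import Cfsg.Statements.S3971
import Cfsg.Agent.H1.Tr2

set_option autoImplicit false
open Cfsg

namespace Cfsg.Agent.S3971

open H1

/-- Let `G` be a finite group of order `2 ^ a * n` with `n` odd and not divisible by `3`, and suppose `G` has an element of order `2 ^ (a - 1)` (so a Sylow `2`-subgroup has a cyclic subgroup of index at most `2`). Then `G` has a normal subgroup of order `n`. -/
theorem result {G : Type*} [Group G] [Finite G] (a n : ℕ) (hG : Nat.card G = 2 ^ a * n) (hn : Odd n) (h3 : ¬ 3 ∣ n) (hx : ∃ x : G, orderOf x = 2 ^ (a - 1)) : ∃ N : Subgroup G, N.Normal ∧ Nat.card N = n := by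
  obtain ⟨x, hx⟩ := hx
  obtain ⟨P, hP⟩ := exists_sylow_mem (p := 2) ⟨_, hx⟩
  have hn0 : n ≠ 0 := by rintro rfl; simp at hn
  have hc : Nat.card P = 2 ^ a := by
    rw [P.card_eq_multiplicity, hG, Nat.factorization_mul (by simp) hn0]
    simp [Nat.factorization_eq_zero_of_not_dvd (Odd.not_two_dvd_nat hn), Nat.prime_two.factorization_self]
  have hm : FT.Meta (P : Subgroup G) := by
    have h1 := card_mul_relIndex (Subgroup.zpowers_le.2 hP)
    rw [Nat.card_zpowers, hx, hc] at h1
    rcases a with _ | a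
    · have : (P : Subgroup G) = ⊥ := Subgroup.card_eq_one.1 (by simpa using hc)
      exact ⟨1, 1, by simp [this], by simp [this]⟩
    · rw [Nat.add_sub_cancel, pow_succ] at h1
      have h2 := Nat.eq_of_mul_eq_mul_left (by positivity) h1
      obtain ⟨b, hb, hb'⟩ : ∃ b ∈ (P : Subgroup G), b ∉ Subgroup.zpowers x := by
        by_contra hcon
        push Not at hcon
        rw [Subgroup.relIndex_eq_one.2 hcon] at h2
        omega
      have hpr : ((Subgroup.zpowers x).relIndex P).Prime := by rw [h2]; exact Nat.prime_two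
      exact ⟨x, b, L.le_normalizer_of_relIndex_prime P.isPGroup' (Subgroup.zpowers_le.2 hP) hpr,
        L.sup_zpowers_eq_of_relIndex_prime hpr (Subgroup.zpowers_le.2 hP) hb hb'⟩
  have h := hasNPC_of_meta P hm fun q hq hq2 hd h' => by
    obtain rfl : q = 3 := (Nat.prime_dvd_prime_iff_eq hq Nat.prime_three).1 h'
    rw [hG] at hd
    exact h3 ((Nat.Coprime.pow_right a (by norm_num)).dvd_of_dvd_mul_left hd)
  obtain ⟨N, hN, hc'⟩ := (H2.hasNormalPComplement_iff_sylow P).1 h
  refine ⟨N, hN, ?_⟩
  have := hc'.card_mul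
  rw [hc, hG, mul_comm] at this
  exact Nat.eq_of_mul_eq_mul_left (by positivity) this

end Cfsg.Agent.S3971
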