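import Cfsg.Statements.S3973
import Cfsg.Agent.L.Schur2
import Mathlib

set_option autoImplicit false
open Cfsg

namespace Cfsg.Agent.S3973

open Subgroup L in

/-- If a finite group is presented by `n` generators and a finite set of `r` relators, then its Schur multiplier can be generated by `r - n` elements. In particular a finite group with a presentation having as many relators as generators has trivial Schur multiplier. -/
theorem result (n : ℕ) (rels : Finset (FreeGroup (Fin n))) [Finite (PresentedGroup (rels : Set (FreeGroup (Fin n))))] {A : Type*} [CommGroup A] [Finite A] (hA : Cfsg.HasSchurMultiplier (PresentedGroup (rels : Set (FreeGroup (Fin n)))) A) : Group.rank A ≤ rels.card - n := by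
  classical
  set R : Set (FreeGroup (Fin n)) := (rels : Set (FreeGroup (Fin n))) with hR
  let f : FreeGroup (Fin n) →* PresentedGroup R := PresentedGroup.mk R
  have hf : Function.Surjective f := PresentedGroup.mk_surjective R
  have hfk : f.ker = Subgroup.normalClosure R := QuotientGroup.ker_mk' _
  obtain ⟨e1⟩ := L.hasSchur_iff.1 hA
  obtain ⟨e2⟩ := L.mult_equiv (L.canP_surj (PresentedGroup R)) hf (MulEquiv.refl _)
  let e : A ≃* L.mult (L.hπ f) := e1.trans ((L.SMe _).trans e2)
  have hc := L.hπ_ker_le f
  letI := L.commGroupOfLeCenter _ hc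
  let K := (L.hπ f).ker
  have hk : ∀ r : rels, ((r.1 : FreeGroup (Fin n)) : L.HE f) ∈ K := fun r => by
    change f r = 1
    rw [← MonoidHom.mem_ker, hfk]; exact Subgroup.subset_normalClosure r.2
  let ρ : (rels → ℤ) →ₗ[ℤ] Additive K := Fintype.linearCombination ℤ
    (fun r => Additive.ofMul ⟨_, hk r⟩)
  have hρ : Function.Surjective ρ := by
    let T : Subgroup K := AddSubgroup.toSubgroup (LinearMap.range ρ).toAddSubgroup
    haveI : (T.map K.subtype).Normal := L.normal_of_le_center ((Subgroup.map_subtype_le _).trans hc)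
    have h1 : Subgroup.normalClosure R ≤ (T.map K.subtype).comap (QuotientGroup.mk' _) := by
      apply Subgroup.normalClosure_le_normal
      intro r hr
      refine ⟨⟨_, hk ⟨r, hr⟩⟩, ⟨Pi.single ⟨r, hr⟩ 1, ?_⟩, rfl⟩
      simp only [ρ, Fintype.linearCombination_apply_single, one_smul]; rfl
    rintro ⟨x, hx⟩
    obtain ⟨x, rfl⟩ := QuotientGroup.mk_surjective x
    obtain ⟨k, ⟨v, hv⟩, hk2⟩ := h1 (by rw [← hfk]; exact hx)
    exact ⟨v, hv.trans (congrArg Additive.ofMul (Subtype.ext hk2))⟩
  let θ : L.HE f →* Abelianization (FreeGroup (Fin n)) := QuotientGroup.lift _ Abelianization.of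
    (fun x hx => by
      rw [Abelianization.ker_of]; exact Subgroup.commutator_mono le_top le_rfl hx)
  have hθ : ∀ x, θ x = 1 → x ∈ commutator (L.HE f) := fun x hx => by
    obtain ⟨x, rfl⟩ := QuotientGroup.mk_surjective x
    apply L.map_mem_commutator (QuotientGroup.mk' _)
    rw [← Abelianization.ker_of]; exact hx
  let V := FreeAbelianGroup (Fin n)
  let α : Additive K →ₗ[ℤ] V := (MonoidHom.toAdditive (θ.comp K.subtype)).toIntLinearMap
  let b := FreeAbelianGroup.basis (Fin n)
  haveI : Module.Free ℤ V := Module.Free.of_basis b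
  haveI : Module.Finite ℤ V := Module.Finite.of_basis b
  have hV : Module.finrank ℤ V = n := by rw [Module.finrank_eq_card_basis b]; simp
  set m := Nat.card (PresentedGroup R)
  have hm : m ≠ 0 := Nat.card_pos.ne'
  have hr : ∀ y : V, (m : ℤ) • y ∈ LinearMap.range (α ∘ₗ ρ) := by
    intro y
    obtain ⟨x, hx⟩ : ∃ x : FreeGroup (Fin n), Abelianization.of x = Additive.toMul y :=
      Quot.exists_rep _
    have : (((x ^ m : FreeGroup (Fin n))) : L.HE f) ∈ K := by
      change f (x ^ m) = 1
      rw [map_pow, pow_card_eq_one']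
    obtain ⟨v, hv⟩ := hρ (Additive.ofMul ⟨_, this⟩)
    refine ⟨v, ?_⟩
    rw [LinearMap.comp_apply, hv, natCast_zsmul]
    change Additive.ofMul (Abelianization.of (x ^ m)) = _
    rw [map_pow, hx]; rfl
  have h1 : n ≤ Module.finrank ℤ (LinearMap.range (α ∘ₗ ρ)) := by
    refine hV.symm.le.trans ?_
    apply LinearMap.finrank_le_finrank_of_injective
      (f := LinearMap.codRestrict _ ((m : ℤ) • LinearMap.id) hr)
    intro x y hxy
    have : (m : ℤ) • x = (m : ℤ) • y := congrArg Subtype.val hxy
    exact smul_right_injective V (by exact_mod_cast hm) this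
  have h2 := Submodule.finrank_quotient_add_finrank (LinearMap.ker (α ∘ₗ ρ))
  rw [(α ∘ₗ ρ).quotKerEquivRange.finrank_eq, Module.finrank_fintype_fun_eq_card,
    Fintype.card_coe] at h2
  let N := LinearMap.ker (α ∘ₗ ρ)
  let c := Module.finBasis ℤ N
  have hN : ∀ v : N, ((Additive.toMul (ρ v) : K) : L.HE f) ∈ L.mult (L.hπ f) := fun v =>
    ⟨(Additive.toMul (ρ v)).2, hθ _ v.2⟩
  let g : Multiplicative N →* A := e.symm.toMonoidHom.comp (MonoidHom.mk'
    (fun v => ⟨_, hN v.toAdd⟩) (fun v w => by
      apply Subtype.ext; simp))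
  have hg : Function.Surjective g := by
    intro a
    obtain ⟨v, hv⟩ := hρ (Additive.ofMul ⟨_, (e a).2.1⟩)
    have hvN : v ∈ N := by
      rw [LinearMap.mem_ker, LinearMap.comp_apply, hv]
      have := L.map_mem_commutator θ (e a).2.2
      rw [commutator_eq_bot, Subgroup.mem_bot] at this
      exact this
    refine ⟨Multiplicative.ofAdd ⟨v, hvN⟩, ?_⟩
    apply e.injective
    simp only [g, MonoidHom.comp_apply, MulEquiv.coe_toMonoidHom, MulEquiv.apply_symm_apply]
    apply Subtype.ext
    simp [hv]
  refine (Group.rank_le (S := Finset.univ.image (fun i => g (Multiplicative.ofAdd (c i)))) ?_).trans ?_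
  · rw [eq_top_iff]
    intro a _
    obtain ⟨v, rfl⟩ := hg a
    have := c.sum_repr v.toAdd
    rw [← ofAdd_toAdd v, ← this, ofAdd_sum, map_prod]
    refine Subgroup.prod_mem _ fun i _ => ?_
    rw [ofAdd_zsmul, map_zpow]
    exact Subgroup.zpow_mem _ (Subgroup.subset_closure (by simp)) _
  · refine Finset.card_image_le.trans ?_
    simp only [Finset.card_univ, Fintype.card_fin]
    change Module.finrank ℤ (LinearMap.ker (α ∘ₗ ρ)) ≤ _
    omega

end Cfsg.Agent.S3973
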