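import Cfsg.Statements.S3974
import Cfsg.Agent.L.Schur2
import Mathlib

set_option autoImplicit false
universe u v
open Cfsg

namespace Cfsg.Agent.S3974

open Subgroup L

theorem exists_retr {P : Type*} [Group P] (Z : Subgroup P) [Finite Z] (hZ : Z ≤ center P)
    (h1 : ∀ z ∈ Z, z ∈ commutator P → z = 1) (m : ℕ) (hm : m.Coprime (Nat.card Z))
    (h2 : ∀ x : P, ∃ z ∈ Z, Abelianization.of z = Abelianization.of x ^ m) :
    ∃ l : P →* Z, ∀ z : Z, l z = z := by
  let j : Z →* Abelianization P := Abelianization.of.comp Z.subtype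
  have hj : Function.Injective j := by
    rw [injective_iff_map_eq_one]
    intro z hz
    exact Subtype.ext (h1 _ z.2 (by rw [← Abelianization.ker_of]; exact hz))
  obtain ⟨k, -, hk⟩ := Nat.exists_mul_mod_eq_of_coprime 1 hm Nat.card_pos.ne'
  let w : P →* j.range := ((powMonoidHom (m * k)).comp Abelianization.of).codRestrict _ (fun x => by
    obtain ⟨z, hz, e⟩ := h2 x
    refine ⟨⟨z, hz⟩ ^ k, ?_⟩
    rw [map_pow]; change Abelianization.of z ^ k = Abelianization.of x ^ (m * k)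
    rw [e, pow_mul])
  refine ⟨(MonoidHom.ofInjective hj).symm.toMonoidHom.comp w, fun z => ?_⟩
  apply (MonoidHom.ofInjective hj).injective
  simp only [MonoidHom.comp_apply, MulEquiv.coe_toMonoidHom, MulEquiv.apply_symm_apply]
  apply Subtype.ext
  change j z ^ (m * k) = j z
  rw [← map_pow, ← pow_mod_natCard, hk, pow_mod_natCard, pow_one]

theorem pow_mem_comm {E Q : Type*} [Group E] [Group Q] {π : E →* Q} (hπ : Function.Surjective π)
    (x : E) (h : π x ∈ commutator Q) : ∃ c ∈ commutator E, π c = π x := by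
  have : (commutator E).map π = commutator Q := by
    rw [map_commutator_eq, MonoidHom.range_eq_top.2 hπ]; rfl
  rw [← this] at h
  exact h


/-- Let `Q` be a finite group with Schur multiplier `A`. Any two Schur covering groups of `Q` (finite stem extensions `σ₁ : Γ₁ →* Q`, `σ₂ : Γ₂ →* Q` with kernels isomorphic to `A`, `Γ₁, Γ₂` in the universe of `Q`) are isomorphic over `Q` — there is a group isomorphism `e : Γ₁ ≃* Γ₂` with `σ₂ ∘ e = σ₁` — if and only if the order of the commutator quotient of `Q` is coprime to the order of `A`. In particular a finite perfect group has a unique Schur covering group up to isomorphism over it. -/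
theorem result {Q : Type u} [Group Q] [Finite Q] {A : Type v} [CommGroup A] (hA : Cfsg.HasSchurMultiplier Q A) : (∀ (Γ₁ Γ₂ : Type u) [Group Γ₁] [Finite Γ₁] [Group Γ₂] [Finite Γ₂] (σ₁ : Γ₁ →* Q) (σ₂ : Γ₂ →* Q), Cfsg.IsStemExtension σ₁ → Cfsg.IsStemExtension σ₂ → Nonempty (σ₁.ker ≃* A) → Nonempty (σ₂.ker ≃* A) → ∃ e : Γ₁ ≃* Γ₂, σ₂.comp e.toMonoidHom = σ₁) ↔ Nat.Coprime (Nat.card (Abelianization Q)) (Nat.card A) := by
  classical
  obtain ⟨eA⟩ := L.hasSchur_iff.1 hA
  haveI := (finite_of_hasSchur hA).2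
  constructor
  · intro H
    by_contra hcop
    obtain ⟨p, hp, hp1, hp2⟩ := Nat.Prime.not_coprime_iff_dvd.1 hcop
    haveI := Fact.mk hp
    have hc := hπ_ker_le (canP Q)
    obtain ⟨S, hS, h1, h2⟩ := exists_compl_mult hc (HE_tf _) (uπ Q).ker le_rfl
      (fun z hz => ⟨1, one_mem _, by simpa using hz⟩)
    haveI : S.Normal := normal_of_le_center (hS.trans hc)
    obtain ⟨h3, ⟨e3⟩⟩ := stem_of_compl (uπ_isCE Q) S hS h1 h2
    haveI : Finite (QuotientGroup.lift S (uπ Q) hS).ker :=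
      Finite.of_equiv (SM Q) (e3.trans (SMe Q).symm).toEquiv.symm
    haveI : Finite (UE Q ⧸ S) := finite_of_ker (QuotientGroup.lift S (uπ Q) hS)
    haveI : S.FiniteIndex := finiteIndex_of_finite_quotient
    -- the element v
    haveI : Finite (Abelianization Q) := Finite.of_surjective _ (QuotientGroup.mk_surjective)
    obtain ⟨qb, hqb⟩ := exists_prime_orderOf_dvd_card' p hp1
    obtain ⟨q, rfl⟩ : ∃ q : Q, Abelianization.of q = qb := Quot.exists_rep _
    obtain ⟨v, rfl⟩ := (uπ_isCE Q).surj q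
    obtain ⟨c, hcc, hcv⟩ := pow_mem_comm (uπ_isCE Q).surj (v ^ p) (by
      rw [← Abelianization.ker_of, MonoidHom.mem_ker, map_pow, map_pow, ← hqb, pow_orderOf_eq_one])
    obtain ⟨m0, hm0, hs0⟩ := h2 (v ^ p * c⁻¹) (by simp [MonoidHom.mem_ker, hcv])
    set s0 : S := ⟨_, hs0⟩ with hs0d
    letI := commGroupOfLeCenter S (hS.trans hc)
    haveI : IsAddTorsionFree (Additive S) := by
      refine ⟨fun n hn => ?_⟩
      intro a b hab
      have e1 : a.toMul ^ n = b.toMul ^ n := congrArg Additive.toMul hab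
      have e2 : (a.toMul * b.toMul⁻¹) ^ n = 1 := by rw [mul_pow, inv_pow, e1, mul_inv_cancel]
      have e3 : ((a.toMul * b.toMul⁻¹ : S) : UE Q) ∈ S ⊓ mult (uπ Q) :=
        ⟨Subtype.property _, hS (Subtype.property _), HE_tf _ _ n hn (by
          rw [← Subgroup.coe_pow, e2]; exact one_mem _)⟩
      rw [h1, mem_bot] at e3
      exact Additive.toMul.injective (mul_inv_eq_one.1 (Subtype.ext e3))
    haveI : Module.Finite ℤ (Additive S) := by
      rw [Module.Finite.iff_addGroup_fg]; infer_instance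
    let b := Module.finBasis ℤ (Additive S)
    obtain ⟨i, hi⟩ : ∃ i, ¬ (p : ℤ) ∣ b.repr (Additive.ofMul s0) i := by
      by_contra! hh
      choose d hd using hh
      let s1 : S := Additive.toMul (∑ i, d i • b i)
      have e1 : s0 = s1 ^ p := by
        apply Additive.ofMul.injective
        rw [ofMul_pow, ← b.sum_repr (Additive.ofMul s0)]
        simp only [s1, ofMul_toMul, Finset.smul_sum, hd, mul_smul, natCast_zsmul]
      have e2 : (v * (s1 : UE Q)⁻¹) ^ p ∈ commutator (UE Q) := by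
        rw [Commute.mul_pow (mem_center_iff.1 (hc (hS (inv_mem s1.2))) v), inv_pow,
          ← Subgroup.coe_pow, ← e1]
        have : v ^ p * (s0 : UE Q)⁻¹ = v ^ p * (m0⁻¹ * c) * (v ^ p)⁻¹ := by
          simp only [hs0d]; group
        rw [this]
        exact Subgroup.Normal.conj_mem inferInstance _ (mul_mem (inv_mem hm0.2) hcc) _
      have e3 := map_mem_commutator (uπ Q) (HE_tf _ _ p hp.ne_zero e2)
      rw [map_mul, map_inv, show uπ Q s1 = 1 from hS s1.2, inv_one, mul_one,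
        ← Abelianization.ker_of, MonoidHom.mem_ker] at e3
      rw [e3, orderOf_one] at hqb
      exact hp.one_lt.ne hqb
    -- a non p-th power
    obtain ⟨a, ha⟩ : ∃ a : SM Q, a ∉ (powMonoidHom (α := SM Q) p).range := by
      by_contra! hh
      have hs : Function.Surjective (powMonoidHom (α := SM Q) p) := hh
      have hi := Finite.injective_iff_surjective.2 hs
      obtain ⟨a, ha⟩ := exists_prime_orderOf_dvd_card' (G := SM Q) p
        (by rwa [← Nat.card_congr eA.toEquiv])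
      have : a = 1 := hi (by simp [← ha])
      rw [this, orderOf_one] at ha
      exact hp.one_lt.ne ha
    let μ : S →* UE Q := MonoidHom.mk'
      (fun s => ((SMe Q a ^ (b.repr (Additive.ofMul s) i) : mult (uπ Q)) : UE Q)) (fun s t => by
        rw [ofMul_mul, map_add, Finsupp.add_apply, zpow_add, Subgroup.coe_mul])
    have hμ : ∀ s, μ s ∈ mult (uπ Q) := fun s => (SMe Q a ^ (b.repr (Additive.ofMul s) i)).2
    let ν : S →* UE Q := MonoidHom.mk' (fun s => s * μ s) (fun s t => by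
      rw [map_mul, Subgroup.coe_mul, mul_assoc, mul_assoc, ← mul_assoc (μ s),
        mem_center_iff.1 (hc (hS t.2)) (μ s), mul_assoc])
    let S2 := ν.range
    have hS2 : S2 ≤ (uπ Q).ker := by
      rintro _ ⟨s, rfl⟩; exact mul_mem (hS s.2) (hμ s).1
    have h12 : S2 ⊓ mult (uπ Q) = ⊥ := by
      rw [eq_bot_iff]
      rintro _ ⟨⟨s, rfl⟩, hs⟩
      have : (s : UE Q) ∈ S ⊓ mult (uπ Q) := ⟨s.2, (mul_mem_cancel_right (hμ s)).1 hs⟩
      rw [h1, mem_bot] at this
      have : s = 1 := Subtype.ext this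
      rw [this, map_one]; exact one_mem _
    have h22 : ∀ z ∈ (uπ Q).ker, ∃ m ∈ mult (uπ Q), z * m ∈ S2 := fun z hz => by
      obtain ⟨m, hm, hzm⟩ := h2 z hz
      exact ⟨m * μ ⟨_, hzm⟩, mul_mem hm (hμ _), ⟨_, hzm⟩, (mul_assoc _ _ _)⟩
    haveI : S2.Normal := normal_of_le_center (hS2.trans hc)
    obtain ⟨h4, ⟨e4⟩⟩ := stem_of_compl (uπ_isCE Q) S2 hS2 h12 h22
    haveI : Finite (QuotientGroup.lift S2 (uπ Q) hS2).ker :=
      Finite.of_equiv (SM Q) (e4.trans (SMe Q).symm).toEquiv.symm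
    haveI : Finite (UE Q ⧸ S2) := finite_of_ker (QuotientGroup.lift S2 (uπ Q) hS2)
    obtain ⟨e, he⟩ := H _ _ _ _ h3 h4 ⟨e3.trans ((SMe Q).symm.trans eA.symm)⟩
      ⟨e4.trans ((SMe Q).symm.trans eA.symm)⟩
    let η : UE Q →* UE Q ⧸ S2 := e.toMonoidHom.comp (QuotientGroup.mk' S)
    have hη : (QuotientGroup.lift S2 (uπ Q) hS2).comp η =
        (QuotientGroup.lift S2 (uπ Q) hS2).comp (QuotientGroup.mk' S2) := by
      simp only [η]; rw [← MonoidHom.comp_assoc, he]; rfl
    have hag := fun x hx => lifts_agree h4.2.1 η (QuotientGroup.mk' S2) hη (e := x) hx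
    obtain ⟨y, hy⟩ := QuotientGroup.mk_surjective (η v)
    have hyv : v⁻¹ * y ∈ (uπ Q).ker := by
      have := DFunLike.congr_fun hη v
      rw [MonoidHom.comp_apply, ← hy] at this
      change uπ Q y = uπ Q v at this
      simp [MonoidHom.mem_ker, this]
    obtain ⟨m1, hm1, hm1'⟩ := h22 _ hyv
    have e5 : η v = QuotientGroup.mk' S2 (v * m1⁻¹) := by
      rw [← hy, eq_comm, QuotientGroup.mk'_apply, QuotientGroup.eq]
      have : (v * m1⁻¹)⁻¹ * y = v⁻¹ * y * m1 := by
        rw [mem_center_iff.1 (hc hm1.1) (v⁻¹ * y)]; group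
      rwa [this]
    have e6 : η s0 = 1 := by
      simp only [η, MonoidHom.comp_apply]
      rw [show QuotientGroup.mk' S s0 = 1 from (QuotientGroup.eq_one_iff _).2 s0.2, map_one]
    have e7 : (s0 : UE Q) * m1⁻¹ ^ p ∈ S2 := by
      simp only [hs0d] at e6 ⊢
      rw [map_mul, map_mul, map_pow, e5, hag _ (inv_mem hcc), hag _ hm0.2, ← map_pow, ← map_mul,
        ← map_mul, ← MonoidHom.mem_ker, QuotientGroup.ker_mk',
        Commute.mul_pow (mem_center_iff.1 (hc (Subgroup.inv_mem _ hm1.1)) v)] at e6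
      have h5 := mem_center_iff.1 (hc (pow_mem (Subgroup.inv_mem _ hm1.1) p))
      convert e6 using 1
      rw [mul_assoc _ c⁻¹ m0, mul_assoc _ c⁻¹ m0, mul_assoc (v ^ p), mul_assoc (v ^ p), h5]
    have e8 : (ν s0)⁻¹ * (s0 * m1⁻¹ ^ p) ∈ S2 ⊓ mult (uπ Q) := by
      refine ⟨S2.mul_mem (S2.inv_mem ⟨s0, rfl⟩) e7, ?_⟩
      have : (ν s0)⁻¹ * (s0 * m1⁻¹ ^ p) = (μ s0)⁻¹ * m1⁻¹ ^ p := by
        simp only [ν, MonoidHom.mk'_apply]; group
      rw [this]
      exact Subgroup.mul_mem _ (Subgroup.inv_mem _ (hμ _)) (Subgroup.pow_mem _ (Subgroup.inv_mem _ hm1) _)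
    rw [h12, mem_bot] at e8
    have e9 : μ s0 = m1⁻¹ ^ p := by
      simp only [ν, MonoidHom.mk'_apply] at e8
      rw [inv_mul_eq_one] at e8
      exact mul_left_cancel e8
    apply ha
    set t := b.repr (Additive.ofMul s0) i
    have e10 : a ^ t = ((SMe Q).symm ⟨m1, hm1⟩)⁻¹ ^ p := by
      apply (SMe Q).injective
      apply Subtype.ext
      rw [map_zpow]
      exact e9
    obtain ⟨u, w, huw⟩ := (Int.prime_iff_natAbs_prime.2 (by simpa using hp) :
      Prime (p : ℤ)).irreducible.coprime_iff_not_dvd.2 hi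
    have : a = (a ^ u) ^ p * (a ^ t) ^ w := by
      rw [← zpow_natCast, ← zpow_mul, ← zpow_mul, ← zpow_add, mul_comm t, huw, zpow_one]
    rw [this, e10]
    exact mul_mem ⟨_, rfl⟩ (zpow_mem (show _ ∈ (powMonoidHom (α := SM Q) p).range from ⟨((SMe Q).symm ⟨m1, hm1⟩)⁻¹, rfl⟩) _)
  · intro hcop Γ₁ Γ₂ _ _ _ _ σ₁ σ₂ h₁ h₂ ⟨e₁⟩ ⟨e₂⟩
    let P := PB σ₁ σ₂
    have ce := PB1_isCE σ₁ (stem_isCE h₂)
    let Z := (PB1 σ₁ σ₂).ker
    obtain ⟨η₁, hη₁⟩ := exists_lift (canP Q) (stem_isCE h₁) (MonoidHom.id _)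
    obtain ⟨η₂, hη₂⟩ := exists_lift (canP Q) (stem_isCE h₂) (MonoidHom.id _)
    let η : UE Q →* P := (η₁.prod η₂).codRestrict _ (fun x =>
      (DFunLike.congr_fun hη₁ x).trans (DFunLike.congr_fun hη₂ x).symm)
    have hξ : (σ₁.comp (PB1 σ₁ σ₂)).ker ≤ center P := by
      intro x hx
      rw [mem_center_iff]; intro y
      have a1 : σ₁ x.1.1 = 1 := hx
      have a2 : σ₂ x.1.2 = 1 := (PB_comm σ₁ σ₂ x).symm.trans hx
      exact Subtype.ext (Prod.ext (mem_center_iff.1 (h₁.2.1 a1) _) (mem_center_iff.1 (h₂.2.1 a2) _))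
    have hm := map_mult (uπ_isCE Q).surj hξ η hη₁
    have hinj := lift_inj_of_card h₁ (Nat.card_congr (e₁.trans eA).toEquiv) η₁ hη₁
    have hZ : Nat.card Z = Nat.card A := by
      rw [← Nat.card_congr e₂.toEquiv]
      refine Nat.card_congr ⟨fun z => ⟨z.1.1.2, ?_⟩, fun a => ⟨⟨(1, a), ?_⟩, rfl⟩, ?_, ?_⟩
      · have := PB_comm σ₁ σ₂ z.1
        rw [show PB1 σ₁ σ₂ z.1 = 1 from z.2, map_one] at this
        exact this.symm
      · change σ₁ 1 = σ₂ a
        rw [map_one, a.2]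
      · intro z; exact Subtype.ext (Subtype.ext (Prod.ext z.2.symm rfl))
      · intro a; rfl
    obtain ⟨l, hl⟩ := exists_retr Z ce.cent (fun z hz hz' => by
      have : z ∈ mult (σ₁.comp (PB1 σ₁ σ₂)) :=
        ⟨show σ₁ (PB1 σ₁ σ₂ z) = 1 by rw [hz, map_one], hz'⟩
      rw [← hm] at this
      obtain ⟨m, hm1, rfl⟩ := this
      rw [hinj m hm1 hz, map_one]) (Nat.card (Abelianization Q)) (hZ ▸ hcop) (fun x => by
        set k := Nat.card (Abelianization Q)
        obtain ⟨c, hc, hc'⟩ := pow_mem_comm h₁.1 (PB1 σ₁ σ₂ (x ^ k)) (by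
          rw [← Abelianization.ker_of, MonoidHom.mem_ker, map_pow, map_pow, map_pow,
            pow_card_eq_one'])
        have : PB1 σ₁ σ₂ (x ^ k) ∈ commutator Γ₁ := by
          have := h₁.2.2 (show c⁻¹ * PB1 σ₁ σ₂ (x ^ k) ∈ σ₁.ker by
            rw [MonoidHom.mem_ker, map_mul, map_inv, hc', inv_mul_cancel])
          exact (mul_mem_cancel_left (inv_mem hc)).1 this
        obtain ⟨d, hd, hd'⟩ := pow_mem_comm ce.surj _ this
        refine ⟨x ^ k * d⁻¹, by rw [MonoidHom.mem_ker, map_mul, map_inv, hd', mul_inv_cancel], ?_⟩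
        rw [← Abelianization.ker_of, MonoidHom.mem_ker] at hd
        rw [map_mul, map_inv, hd, map_pow]; simp)
    let r : P →* P := MonoidHom.mk' (fun x => x * (l x : P)⁻¹) (fun x y => by
      have h5 := mem_center_iff.1 (ce.cent (inv_mem (l x).2))
      rw [map_mul, Subgroup.coe_mul, mul_inv_rev, mul_assoc, mul_assoc x, ← mul_assoc y, h5])
    obtain ⟨φ, hφ⟩ := exists_desc (PB1 σ₁ σ₂) ce.surj ((PB2 σ₁ σ₂).comp r) (fun z hz => by
      rw [MonoidHom.mem_ker, MonoidHom.comp_apply]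
      simp only [r, MonoidHom.mk'_apply]
      rw [show l z = ⟨z, hz⟩ from hl ⟨z, hz⟩]; simp)
    have hφ' : σ₂.comp φ = σ₁ := by
      ext g
      obtain ⟨x, rfl⟩ := ce.surj g
      rw [MonoidHom.comp_apply, hφ, MonoidHom.comp_apply, ← PB_comm]
      simp only [r, MonoidHom.mk'_apply]
      rw [map_mul, map_inv, show PB1 σ₁ σ₂ (l x) = 1 from (l x).2]; simp
    have hs := lift_surj_of_stem h₁.1 h₂ φ hφ'
    have hcard : ∀ {Γ : Type u} [Group Γ] (σ : Γ →* Q), Function.Surjective σ →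
        Nat.card Γ = Nat.card σ.ker * Nat.card Q := fun σ hσ => by
      rw [← card_mul_index σ.ker, index_ker, MonoidHom.range_eq_top.2 hσ, card_top]
    have hb : Function.Bijective φ := hs.bijective_of_nat_card_le (by
      rw [hcard σ₁ h₁.1, hcard σ₂ h₂.1, Nat.card_congr (e₁.trans e₂.symm).toEquiv])
    exact ⟨MulEquiv.ofBijective φ hb, hφ'⟩

end Cfsg.Agent.S3974
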