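import Cfsg.Statements.S3976
import Cfsg.Agent.H1.Root

set_option autoImplicit false
open Cfsg

namespace Cfsg.Agent.S3976

open H1

/-- Let `p` be a prime and `G` a group of order `p ^ m`. For every `s ≤ m` the number of normal subgroups of `G` of order `p ^ s` is congruent to `1` modulo `p`. -/
theorem result {G : Type*} [Group G] [Finite G] (p m s : ℕ) (hp : p.Prime) (hG : Nat.card G = p ^ m) (hs : s ≤ m) : Nat.card {H : Subgroup G // H.Normal ∧ Nat.card H = p ^ s} ≡ 1 [MOD p] := by
  open Pointwise MulAction in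
  have := Fact.mk hp
  let Y : SubMulAction (ConjAct G) (Subgroup G) := ⟨{H | Nat.card H = p ^ s}, fun g H h =>
    (Nat.card_congr (Subgroup.equivSMul g H).symm.toEquiv).trans h⟩
  have h1 : IsPGroup p (ConjAct G) := IsPGroup.of_card hG
  refine .trans ?_ ((h1.card_modEq_card_fixedPoints Y).symm.trans
    (card_subgroups_modEq hp (hG ▸ pow_dvd_pow p hs)))
  refine (Nat.card_eq_of_bijective (fun H : fixedPoints (ConjAct G) Y =>
    (⟨H.1.1, Subgroup.Normal.of_conjugate_fixed fun g => congrArg Subtype.val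
      (H.2 (ConjAct.toConjAct g)), H.1.2⟩ : {H : Subgroup G // H.Normal ∧ Nat.card H = p ^ s}))
    ⟨fun a b h => Subtype.ext (Subtype.ext (congrArg (·.1) h)), fun H =>
      ⟨⟨⟨H.1, H.2.2⟩, fun g => Subtype.ext (H.2.1.conjAct g)⟩, rfl⟩⟩) ▸ Nat.ModEq.refl _

end Cfsg.Agent.S3976
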