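import Cfsg.Statements.S3977
import Cfsg.Agent.H1.Root

set_option autoImplicit false
open Cfsg

namespace Cfsg.Agent.S3977

open H1

/-- Let `p` be a prime and `G` a group of order `p ^ m` which has exactly one subgroup of order `p ^ s`, where `1 ≤ s < m`, and where `s ≥ 2` if `p = 2`. Then `G` is cyclic. (For `p = 2` and `s = 1` the generalized quaternion groups also occur; that case is the classical criterion for a unique involution.) -/
theorem result {G : Type*} [Group G] [Finite G] (p m s : ℕ) (hp : p.Prime) (hG : Nat.card G = p ^ m) (hs : 1 ≤ s) (hsm : s < m) (h2 : p ≠ 2 ∨ 2 ≤ s) (huniq : ∀ H K : Subgroup G, Nat.card H = p ^ s → Nat.card K = p ^ s → H = K) : IsCyclic G := by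
  open Subgroup in
  have := Fact.mk hp
  have hP : IsPGroup p G := IsPGroup.of_card hG
  have ext : ∀ (A K : Subgroup G) (i j : ℕ), A ≤ K → Nat.card A = p ^ i → i ≤ j →
      p ^ j ≤ Nat.card K → ∃ M, A ≤ M ∧ M ≤ K ∧ Nat.card M = p ^ j := fun A K i j h1 h2 h3 h4 => by
    obtain ⟨k, hk⟩ := L.exists_card_eq_pow (hP.to_subgroup K)
    obtain ⟨M, h5, h6⟩ := Sylow.exists_subgroup_card_pow_prime_le p (G := K) (n := i) (m := j)
      (hk ▸ pow_dvd_pow p ((Nat.pow_le_pow_iff_right hp.one_lt).1 (hk ▸ h4))) (A.subgroupOf K)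
      ((Nat.card_congr (subgroupOfEquivOfLe h1).toEquiv).trans h2) h3
    exact ⟨M.map K.subtype, (map_subgroupOf_eq_of_le h1).ge.trans (map_mono h6), map_subtype_le M,
      (card_map_of_injective K.subtype_injective).trans h5⟩
  have key : ∀ j, s + 1 ≤ j → ∀ K : Subgroup G, Nat.card K = p ^ j → IsCyclic K := by
    intro j hj
    induction j, hj using Nat.le_induction with
    | base =>
      intro K hK
      obtain ⟨M, -, h1, h2⟩ := ext ⊥ K 0 s bot_le (by simp) (by omega)
        (hK ▸ Nat.pow_le_pow_right hp.pos (by omega))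
      obtain ⟨x, h3, h4⟩ := SetLike.exists_of_lt (h1.lt_of_ne (by
        rintro rfl; simpa using Nat.pow_right_injective hp.two_le (hK.symm.trans h2)))
      obtain ⟨i, hi⟩ := L.exists_card_eq_pow (hP.to_subgroup (zpowers x))
      rcases le_or_gt i s with e | e
      · obtain ⟨N, h5, -, h6⟩ := ext _ K i s (zpowers_le.2 h3) hi e
          (hK ▸ Nat.pow_le_pow_right hp.pos (by omega))
        exact absurd (huniq N M h6 h2 ▸ h5 (mem_zpowers x)) h4
      · rw [← eq_of_le_of_card_eq (zpowers_le.2 h3) ((card_le_of_le (zpowers_le.2 h3)).antisymm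
          (by rw [hi, hK]; exact Nat.pow_le_pow_right hp.pos e))]
        infer_instance
    | succ j hj ih =>
      intro K hK
      by_contra hc
      have hj' : p ^ j ≤ Nat.card K := hK ▸ Nat.pow_le_pow_right hp.pos (by omega)
      by_cases h3 : p ≠ 2 ∨ IsMulCommutative K
      · obtain ⟨A, h4, h5, h6⟩ := L.exists_elem_two (hP.to_subgroup K) hc h3
        obtain ⟨M, h7, -, h8⟩ := ext A K 2 j h4 h6 (by omega) hj'
        have := ih M h8
        exact L.not_isCyclic_of_elem_sq h5 h6 (isCyclic_of_le h7)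
      rw [not_or, not_not] at h3
      obtain ⟨rfl, h3⟩ := h3
      obtain ⟨M, -, h1, h4⟩ := ext ⊥ K 0 j bot_le (by simp) (by omega) hj'
      obtain ⟨a, -, rfl⟩ := exists_eq_zpowers_of_isCyclic (ih M h4)
      obtain ⟨n, rfl⟩ := Nat.exists_eq_add_of_le' (show 1 ≤ j by omega)
      have h5 : (zpowers a).relIndex K = 2 := Nat.eq_of_mul_eq_mul_left (Nat.card_pos) (by
        rw [card_mul_relIndex h1, h4, hK, pow_succ])
      rw [Nat.card_zpowers] at h4
      obtain ⟨-, b, h6, h7, h8⟩ := L.cyclic_index_classify (hP.to_subgroup K)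
        (h1 (mem_zpowers a)) h4 h5 h3
      have h9 : b ^ 2 ^ 2 = 1 := by
        rw [sq 2, pow_mul]
        rcases h8 with h8 | ⟨-, h8 | h8 | h8⟩
        · simp [h8.1]
        · simp [h8.1]
        · rw [h8.1, ← pow_mul, ← pow_succ, ← h4, pow_orderOf_eq_one]
        · simp [h8.2.1]
      obtain ⟨i, hi, h10⟩ := (Nat.dvd_prime_pow hp).1 (orderOf_dvd_of_pow_eq_one h9)
      obtain ⟨N, h11, h12, h13⟩ := ext _ K i (n + 1) (zpowers_le.2 h6)
        ((Nat.card_zpowers b).trans h10) (by omega) hj'
      obtain ⟨c, -, rfl⟩ := exists_eq_zpowers_of_isCyclic (ih N h13)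
      obtain ⟨k, rfl⟩ := mem_powers_iff_mem_zpowers.2 (h11 (mem_zpowers b))
      rcases Nat.even_or_odd k with ⟨k, rfl⟩ | hk
      · refine h7 ?_
        simp only [← two_mul, mul_comm 2, pow_mul]
        exact sq_mem_of_index_two (H := (zpowers a).subgroupOf K) h5
          ⟨_, pow_mem (h12 (mem_zpowers c)) k⟩
      · rw [Nat.card_zpowers] at h13
        simp only at h10
        rw [(Nat.Coprime.orderOf_pow (h13 ▸ (Nat.coprime_two_left.2 hk).pow_left _)), h13] at h10
        have := Nat.pow_right_injective le_rfl h10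
        omega
  exact L.isCyclic_top_iff.1 (key m hsm ⊤ (by simpa using hG))

end Cfsg.Agent.S3977
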