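import Cfsg.Statements.S3980
import Cfsg.Agent.L.Schur6
import Mathlib

set_option autoImplicit false
universe u v w
open Cfsg

namespace Cfsg.Agent.S3980

/-- Let `Q₁` and `Q₂` be finite groups whose commutator quotients have coprime orders, with Schur multipliers `A` and `B`. Then the Schur multiplier of `Q₁ × Q₂` is isomorphic to `A × B`. -/
theorem result {Q₁ : Type u} {Q₂ : Type v} [Group Q₁] [Group Q₂] [Finite Q₁] [Finite Q₂] {A B : Type w} [CommGroup A] [CommGroup B] (hA : Cfsg.HasSchurMultiplier Q₁ A) (hB : Cfsg.HasSchurMultiplier Q₂ B) (hcop : Nat.Coprime (Nat.card (Abelianization Q₁)) (Nat.card (Abelianization Q₂))) : Cfsg.HasSchurMultiplier (Q₁ × Q₂) (A × B) := by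
  have h := L.hasSchur_prod hA hB
  have hT : ∀ t : L.TT Q₁ Q₂, t = 1 := by
    intro t
    refine L.TT_ind ⊥ (fun a b => ?_) t
    have h1 : L.tp a b ^ Nat.card (Abelianization Q₁) = 1 := by
      rw [← L.tp_pow_left, L.tp, map_pow, pow_card_eq_one']; simp
    have h2 : L.tp a b ^ Nat.card (Abelianization Q₂) = 1 := by
      rw [← L.tp_pow_right, L.tp, map_pow, pow_card_eq_one']; simp
    exact (pow_eq_one_iff_of_coprime hcop).1 ⟨h1, h2⟩
  haveI : Unique (L.TT Q₁ Q₂) := ⟨⟨1⟩, hT⟩
  exact L.hasSchur_congr ((MulEquiv.refl A).prodCongr MulEquiv.prodUnique) h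

end Cfsg.Agent.S3980
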