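import Cfsg.Statements.S3992
import Cfsg.Agent.H1.Q2
import Cfsg.Agent.FT.B3a
import Cfsg.Agent.H1.Lin3

set_option autoImplicit false
open Cfsg

namespace Cfsg.Agent.S3992

open H1
open Subgroup H9

def PP (G : Type*) [Group G] : Prop := ∀ g : G, g ≠ 1 → IsPrimePow (orderOf g)

section
variable {G : Type*} [Group G] [Finite G]

theorem PP.cent (h : PP G) {p : ℕ} [hp : Fact p.Prime] {P X : Subgroup G} (hP : IsPGroup p P) (h0 : P ≠ ⊥)
    (hX : X ≤ centralizer (P : Set G)) : IsPGroup p X := by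
  obtain ⟨z, hz, oz⟩ := exists_orderOf_eq_of_isPGroup hP h0
  refine IsPGroup.iff_orderOf.2 fun x => ?_
  rw [← orderOf_coe]
  by_cases x1 : (x : G) = 1
  · exact ⟨0, by rw [x1, orderOf_one, pow_zero]⟩
  obtain ⟨q, k, hq, hk, e⟩ := (isPrimePow_nat_iff _).1 (h x x1)
  by_cases qp : q = p
  · exact ⟨k, qp ▸ e.symm⟩
  have c : (orderOf z).Coprime (orderOf (x : G)) := by
    rw [oz, ← e]; exact ((Nat.coprime_primes hp.out hq).2 (Ne.symm qp)).pow_right k
  have o := Commute.orderOf_mul_eq_mul_orderOf_of_coprime (hX x.2 z hz) c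
  have := h (z * x) fun t => by
    rw [t, orderOf_one, oz] at o
    exact hp.out.ne_one (Nat.eq_one_of_mul_eq_one_right o.symm)
  rw [o] at this
  exfalso
  rcases (Nat.Coprime.isPrimePow_dvd_mul c this).1 dvd_rfl with d | d
  · exact x1 (orderOf_eq_one_iff.1 (c.symm.eq_one_of_dvd ((Dvd.intro_left _ rfl).trans d)))
  · exact hp.out.ne_one (oz ▸ c.eq_one_of_dvd ((Dvd.intro _ rfl).trans d))

theorem PP.fpf (h : PP G) {p q : ℕ} [hp : Fact p.Prime] [hq : Fact q.Prime] (ne : q ≠ p) {P Q : Subgroup G}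
    (hP : IsPGroup p P) (hQ : IsPGroup q Q) : Fpf Q P := fun x hx x1 =>
  eq_bot_of_p_p' (h.cent (hQ.to_le (zpowers_le.2 hx)) (zpowers_ne_bot.2 x1)
    (inf_le_right.trans (H9.centralizer_zpowers x).ge)) (cop_of_isPGroup_ne ne.symm (hP.to_le inf_le_left))

theorem sol_of_der {N : Subgroup G} (h : Group.IsSolvable (⁅N, N⁆ : Subgroup G)) : Group.IsSolvable N := by
  have := normal_subgroupOf_of_le_normalizer (le_normalizer_commutator_left N N)
  refine isSolvable_of_normal_of_quotient _ (isSolvable_subgroupOf h) (isSolvable_of_isMulCommutative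
    (Normal.quotient_commutative_iff_commutator_le.2 (commutator_le.2 fun a _ b _ => ?_)))
  exact commutator_mem_commutator a.2 b.2

theorem PP.main (h : PP G) {H S : Subgroup G} (h1 : S ≤ H) (h2 : H ≤ normalizer (S : Set G)) (hs : Group.IsSolvable S)
    (hn : ∀ p : ℕ, p.Prime → ¬ IsPGroup p S) : Group.IsSolvable H ∧ (Nat.card H).primeFactors.card ≤ 2 := by
  obtain ⟨V, v1, v2, v3, p, hp, v4⟩ := exists_elem_normal h2 hs fun e => hn 2 Nat.prime_two (e ▸ IsPGroup.of_bot)
  have : Fact p.Prime := ⟨hp⟩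
  have o0 : Op p H ≠ ⊥ := fun e => v2 (le_bot_iff.1 ((le_Op (v1.trans h1) (le_sup_left.trans v3) (elem_isP v4)).trans e.le))
  have pO := Op_p p H
  have sO : Group.IsSolvable (Op p H) := have := pO.isNilpotent; inferInstance
  obtain ⟨Γ, _, _, f, hf, hk, -⟩ := exists_quot (Op_le p H) (le_normalizer_Op p H)
  obtain ⟨Y, y1, y2, y3, q, hq, y4⟩ := exists_elem_normal (im_le_normalizer f h2) (isSolvable_im f hs) fun e =>
    hn p hp (pO.to_le (hk ▸ (im_eq_bot_iff f h1).1 e))
  have : Fact q.Prime := ⟨hq⟩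
  have yH := y1.trans (im_mono f h1)
  have qp : q ≠ p := fun e => y2 (le_bot_iff.1 ((le_Op yH (le_sup_left.trans y3) (e ▸ elem_isP y4)).trans (by
    rw [← im_Op f le_rfl (pO.to_le (inf_le_left.trans hk.le)), ← hk, im_kr])))
  obtain ⟨Z, hZ⟩ := exists_syl (p := q) (pre f Y)
  have zH := hZ.le.trans (pre_le f Y)
  have e1 : im f Z = Y := by
    have := hZ.im f (pre_le f Y)
    rw [im_pre f yH] at this
    exact this.eq_of_isPGroup (elem_isP y4)
  have e2 : kr f ⊓ Z = ⊥ := hk ▸ inf_eq_bot_of_p_p' pO (cop_of_isPGroup_ne qp hZ.isP)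
  have e3 : pre f Y = Z ⊔ Op p H := by rw [← e1, pre_im f zH, hk]
  have z0 : Z ≠ ⊥ := fun e => y2 (by rw [← e1, e, im_bot])
  have el : IsElementaryAbelian q Z := by
    refine ⟨L.commutator_eq_bot_iff_comm.1 (le_bot_iff.1 (e2 ▸ le_inf ((im_eq_bot_iff f ((commutator_le_of_le le_rfl le_rfl).trans zH)).1 ?_)
      (commutator_le_of_le le_rfl le_rfl))), fun z hz => mem_bot.1 (e2 ▸ ⟨(mem_kr f).2 ⟨H.pow_mem (zH hz) q, ?_⟩, Z.pow_mem hz q⟩)⟩
    · rw [im_commutator f zH zH, e1]; exact L.commutator_eq_bot_iff_comm.2 y4.1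
    · exact (map_pow f ⟨z, zH hz⟩ q).trans (y4.2 _ (e1 ▸ mem_im_of_mem f hz))
  have nZ := zH.trans (le_normalizer_Op p H)
  have cZ : Nat.card Z = q := by
    obtain ⟨k, hk⟩ := L.exists_card_eq_pow hZ.isP
    rcases k with _ | _ | k
    · exact absurd (card_eq_one.1 hk) z0
    · rw [hk, zero_add, pow_one]
    · exact absurd (le_bot_iff.1 (gen_pt el nZ (cop_of_isPGroup_ne qp.symm pO)
        (hk ▸ Nat.pow_le_pow_right hq.pos (by omega)) fun a ha a1 => (h.fpf qp pO hZ.isP a ha a1).le)) o0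
  have nW : H ≤ normalizer (pre f Y : Set G) := le_normalizer_pre f le_rfl (le_sup_left.trans y3)
  have fr := hZ.frattini (pre_le f Y) nW
  refine ⟨?_, (Finset.card_le_card (t := {p, q}) fun r hr => ?_).trans Finset.card_le_two⟩
  · rw [← fr, sup_comm]
    refine H1.isSolvable_sup (inf_le_left.trans nW) ?_ (e3 ▸ H1.isSolvable_sup nZ (have := hZ.isP.isNilpotent; inferInstance) sO)
    have := (h.cent hZ.isP z0 (commutator_le_centralizer_of_isCyclic (isCyclic_of_prime_card cZ)
      (inf_le_right (a := H)))).isNilpotent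
    exact sol_of_der inferInstance
  by_contra hc
  simp only [Finset.mem_insert, Finset.mem_singleton, not_or] at hc
  have : Fact r.Prime := ⟨Nat.prime_of_mem_primeFactors hr⟩
  have d := Nat.dvd_of_mem_primeFactors hr
  have c1 : (Nat.card (pre f Y)).Coprime r := e3 ▸ cop_sup (cop_of_isPGroup_ne (Ne.symm hc.2) hZ.isP)
    (cop_of_isPGroup_ne (Ne.symm hc.1) pO) nZ
  rw [← fr, sup_comm] at d
  obtain ⟨y, hy, oy⟩ := exists_orderOf_eq_of_dvd (c1.symm.dvd_of_dvd_mul_right ((d.mul_right _).trans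
    (H9.card_sup_mul_card_inf (inf_le_left.trans nW)).dvd))
  have py := isPGroup_zpowers_of_orderOf oy
  have y1 : y ≠ 1 := fun e => this.out.ne_one (by rw [← oy, e, orderOf_one])
  have := FT.t3_3 sO (zpowers_le.2 hy.2) (h.fpf hc.2 hZ.isP py) nZ ((zpowers_le.2 hy.1).trans (le_normalizer_Op p H))
    (card_cop_of_p hZ.isP (cop_of_isPGroup_ne qp.symm pO)) (card_cop_of_p py (cop_of_isPGroup_ne (Ne.symm hc.1) pO))
    (by rw [H9.centralizer_zpowers]; exact h.fpf hc.1 pO py y (mem_zpowers y) y1)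
  exact z0 (eq_bot_of_p_p' (h.cent pO o0 this) (cop_of_isPGroup_ne qp hZ.isP))

theorem PP.mon (h : PP G) [Nontrivial G] (hs : ∀ N : Subgroup G, N.Normal → Group.IsSolvable N → N = ⊥) :
    ∃ M : Subgroup G, M.Normal ∧ M ≠ ⊥ ∧ ∀ N : Subgroup G, N.Normal → N ≠ ⊥ → M ≤ N := by
  obtain ⟨M, -, h1, h2, h3⟩ := H2M.exists_minN (N := (⊤ : Subgroup G)) top_ne_bot
  refine ⟨M, h1, h2, fun N hN h0 => inf_eq_left.1 ((h3 _ inferInstance inf_le_left).resolve_left fun e => h0 ?_)⟩
  obtain ⟨p, hp, d⟩ := Nat.exists_prime_and_dvd (mt card_eq_one.1 h2)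
  have : Fact p.Prime := ⟨hp⟩
  obtain ⟨x, hx, ox⟩ := exists_orderOf_eq_of_dvd d
  have := (h.cent (X := N) (isPGroup_zpowers_of_orderOf ox)
    (zpowers_ne_bot.2 fun e => hp.ne_one (by rw [← ox, e, orderOf_one])) (le_centralizer_iff.1 ((zpowers_le.2 hx).trans
      (commutator_eq_bot_iff_le_centralizer.1 (le_bot_iff.1 ((commutator_le_inf M N).trans e.le)))))).isNilpotent
  exact hs N hN inferInstance

theorem PP.simple (h' : PP G) [Nontrivial G] (hs : ∀ N : Subgroup G, N.Normal → Group.IsSolvable N → N = ⊥) :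
    ∃ M : Subgroup G, M.Normal ∧ IsSimpleGroup M ∧ ¬ IsMulCommutative M ∧ ∀ N : Subgroup G, N.Normal → N ≠ ⊥ → M ≤ N := by
  obtain ⟨M, h1, h2, h3⟩ := h'.mon hs
  have : Nontrivial M := (nontrivial_iff_ne_bot M).2 h2
  obtain ⟨V, v1, v2, v3⟩ := PP.mon (G := M) (fun g g1 => orderOf_coe g ▸ h' g fun e => g1 (Subtype.ext e)) fun N hN s => by
    rw [← map_eq_bot_iff_of_injective _ M.subtype_injective, ← le_bot_iff,
      ← hs (Sol ⊤) (normalizer_eq_top_iff.1 (top_le_iff.1 (le_normalizer_Sol ⊤))) (Sol_sol ⊤)]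
    exact ((SN.of_normal (map_subtype_le N) ((map_top_subtype M).ge.trans (map_le_normalizer_map _ (nrm ⊤ N)))).trans (SN.of_normal le_top (nrm _ M))).le_Sol
      (H9.isSolvable_map _ s)
  have : V.Characteristic := characteristic_iff_le_map.2 fun φ => v3 _ (v1.map _ φ.surjective)
    (mt (map_eq_bot_iff_of_injective _ φ.injective).1 v2)
  have e : V = ⊤ := top_le_iff.1 fun x _ => by
    obtain ⟨y, hy, e⟩ := h3 (V.map M.subtype) inferInstance (mt (map_eq_bot_iff_of_injective _ M.subtype_injective).1 v2) x.2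
    exact (Subtype.ext e : y = x) ▸ hy
  exact ⟨M, h1, ⟨fun N hN => or_iff_not_imp_left.2 fun t => top_le_iff.1 (e ▸ v3 N hN t)⟩,
    fun c => h2 (hs M h1 (isSolvable_of_isMulCommutative c)), h3⟩

end

/-- Let G be a finite non-solvable group in which every element has prime-power order, and let R be its largest solvable normal subgroup. Then R is a p-group for some prime p; G/R has a non-abelian simple normal subgroup contained in every nontrivial normal subgroup of G/R (its unique minimal normal subgroup); and the order of every solvable subgroup of G has at most two prime divisors. -/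
theorem result {G : Type*} [Group G] [Finite G] (hns : ¬ Group.IsSolvable G) (hpp : ∀ g : G, g ≠ 1 → IsPrimePow (orderOf g))
    (R : Subgroup G) [R.Normal] (hRs : Group.IsSolvable ↥R) (hRmax : ∀ N : Subgroup G, N.Normal → Group.IsSolvable ↥N → N ≤ R) :
    (∃ p : ℕ, p.Prime ∧ IsPGroup p ↥R) ∧
      (∃ M : Subgroup (G ⧸ R), M.Normal ∧ IsSimpleGroup ↥M ∧ ¬ IsMulCommutative ↥M ∧
        ∀ N : Subgroup (G ⧸ R), N.Normal → N ≠ ⊥ → M ≤ N) ∧
      ∀ H : Subgroup G, Group.IsSolvable ↥H → (Nat.card ↥H).primeFactors.card ≤ 2 := by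
  have h : PP G := hpp
  refine ⟨?_, ?_, fun H hH => ?_⟩
  · by_contra hc
    push Not at hc
    have := (h.main le_top (nrm ⊤ R) hRs hc).1
    exact hns (Group.isSolvable_of_surjective (f := (⊤ : Subgroup G).subtype) fun g => ⟨⟨g, trivial⟩, rfl⟩)
  · have h' : PP (G ⧸ R) := fun g g1 => by
      obtain ⟨g, rfl⟩ := QuotientGroup.mk'_surjective R g
      exact (h g fun e => g1 (by rw [e, map_one])).dvd (orderOf_map_dvd _ _) (mt orderOf_eq_one_iff.1 g1)
    have hs : ∀ N : Subgroup (G ⧸ R), N.Normal → Group.IsSolvable N → N = ⊥ := fun N _ hN => by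
      rw [← map_comap_eq_self_of_surjective (QuotientGroup.mk'_surjective R) N, Subgroup.map_eq_bot_iff, QuotientGroup.ker_mk']
      refine hRmax _ inferInstance (isSolvable_of_map (QuotientGroup.mk' R) ?_ ?_)
      · rwa [map_comap_eq_self_of_surjective (QuotientGroup.mk'_surjective R)]
      · exact H9.isSolvable_of_le hRs (inf_le_left.trans (QuotientGroup.ker_mk' R).le)
    have : Nontrivial (G ⧸ R) := QuotientGroup.nontrivial_iff.2 fun e => hns (by
      subst e; exact Group.isSolvable_of_surjective (f := (⊤ : Subgroup G).subtype) fun g => ⟨⟨g, trivial⟩, rfl⟩)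
    exact h'.simple hs
  · by_cases hc : ∃ p : ℕ, p.Prime ∧ IsPGroup p H
    · obtain ⟨p, hp, hP⟩ := hc
      have : Fact p.Prime := ⟨hp⟩
      obtain ⟨k, hk⟩ := L.exists_card_eq_pow hP
      rw [hk]
      refine (Finset.card_le_card (t := {p}) fun r hr => Finset.mem_singleton.2 ((Nat.prime_dvd_prime_iff_eq
        (Nat.prime_of_mem_primeFactors hr) hp).1 ((Nat.prime_of_mem_primeFactors hr).dvd_of_dvd_pow
          (Nat.dvd_of_mem_primeFactors hr)))).trans (by simp)
    · push Not at hc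
      exact (h.main le_rfl Subgroup.le_normalizer hH hc).2

end Cfsg.Agent.S3992
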