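import Cfsg.Statements.S3994
import Cfsg.Agent.H1.Root

set_option autoImplicit false
open Cfsg

namespace Cfsg.Agent.S3994

open H1

/-- Let G be a finite group and n a positive integer. The number of elements of G whose order is divisible by n is either 0 or divisible by the largest divisor of the order of G that is coprime to n. -/
theorem result {G : Type*} [Group G] [Finite G] (n : ℕ) (hn : 0 < n) :
    Nat.card {g : G // n ∣ orderOf g} = 0 ∨
      (Nat.card G / Nat.gcd (Nat.card G) (n ^ Nat.card G)) ∣ Nat.card {g : G // n ∣ orderOf g} := by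
  right
  refine (Nat.dvd_iff_prime_pow_dvd_dvd _ _).2 fun p k hp h => ?_
  have := Fact.mk hp
  rcases k with _ | k
  · simp
  obtain ⟨H, hH⟩ := Sylow.exists_subgroup_card_pow_prime p (h.trans (Nat.div_dvd_of_dvd
    (Nat.gcd_dvd_left _ _)))
  have h1 : p.Coprime n := hp.coprime_iff_not_dvd.2 fun h1 => by
    have h2 := Nat.mul_dvd_mul_right ((dvd_pow_self p (by omega)).trans h)
      (Nat.gcd (Nat.card G) (n ^ Nat.card G))
    rw [Nat.div_mul_cancel (Nat.gcd_dvd_left _ _)] at h2
    have h0 : Nat.card G ≠ 0 := Nat.card_pos.ne'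
    have h3 : p ^ (Nat.card G).factorization p ∣ Nat.gcd (Nat.card G) (n ^ Nat.card G) :=
      Nat.dvd_gcd (Nat.ordProj_dvd _ _) ((pow_dvd_pow p (Nat.factorization_lt p h0).le).trans
        (pow_dvd_pow_of_dvd h1 _))
    exact Nat.pow_succ_factorization_not_dvd h0 hp
      (pow_succ' p _ ▸ (Nat.mul_dvd_mul_left p h3).trans h2)
  rw [← hH]
  refine dvd_ncard_of_closed H {g | n ∣ orderOf g} (fun x hx a _ => ?_) fun x hx K h2 h3 y hy =>
    dvd_orderOf_mul h3 hy ((h1.pow_left _).coprime_dvd_left (hH ▸ Subgroup.card_dvd_of_le h2)) hx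
  exact hx.trans (orderOf_injective (MulAut.conj a).toMonoidHom (MulAut.conj a).injective x).symm.dvd

end Cfsg.Agent.S3994
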