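import Cfsg.Statements.S3995
import Cfsg.Agent.H1.Q5
import Cfsg.Agent.H1.Q1
import Cfsg.Agent.H1.Sig3
import Cfsg.Agent.H1.Amb
import Cfsg.Agent.H8.Spec
import Cfsg.Agent.S3993

set_option autoImplicit false
open Cfsg

namespace Cfsg.Agent.S3995

open H1
open Subgroup H9 FT QuaternionGroup

theorem sdiv (f : ℕ → ℕ) {m p : ℕ} (hp : p.Prime) (h : m.Coprime p) :
    ∑ d ∈ (m * p).divisors, f d = ∑ d ∈ m.divisors, (f d + f (d * p)) := by
  rw [h.divisors_mul, Finset.sum_map]
  refine (Finset.sum_attach _ fun x : ℕ × ℕ => f (x.1 * x.2)).trans ?_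
  rw [Finset.sum_product]
  exact Finset.sum_congr rfl fun d _ => by rw [hp.sum_divisors, mul_one, add_comm]

theorem dv {p a b c : ℕ} (h : p ∣ a) (h' : p ∣ b) (e : a + c = b) : p ∣ c := (Nat.dvd_add_right h).1 (e ▸ h')

theorem exo {G : Type*} [Group G] [Finite G] {g : G} {d : ℕ} (h : d ∣ orderOf g) : ∃ x : G, orderOf x = d :=
  ⟨_, orderOf_pow_orderOf_div (orderOf_pos g).ne' h⟩

/-- Let G be a finite group such that the numbers of elements of each order that occurs in G (the numbers #{g : o(g) = m}, m ranging over the element orders of G) take exactly two values, 1 and some n ≠ 1. Then either G is a p-group of exponent p and order at least 3 for some prime p, or G is the quaternion group of order 8, or G is cyclic of order 4, or G ≅ Z₂ × P for a p-group P of exponent p with p an odd prime. -/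
theorem result {G : Type*} [Group G] [Finite G] (n : ℕ) (hn : n ≠ 1) (h : ((fun m : ℕ => Nat.card {g : G // orderOf g = m}) '' Set.range (orderOf : G → ℕ)) = {1, n}) :
    (∃ p : ℕ, p.Prime ∧ IsPGroup p G ∧ 3 ≤ Nat.card G ∧ Monoid.exponent G = p) ∨
      Nonempty (G ≃* QuaternionGroup 2) ∨ (IsCyclic G ∧ Nat.card G = 4) ∨
      (∃ (p : ℕ) (P : Type) (_ : Group P) (_ : Finite P), p.Prime ∧ p ≠ 2 ∧ IsPGroup p P ∧ Monoid.exponent P = p ∧
        Nonempty (G ≃* Multiplicative (ZMod 2) × P)) := by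
  classical
  have := Fintype.ofFinite G
  set s := fun m : ℕ => Nat.card {g : G // orderOf g = m} with hs
  have fr : ∀ d, d ∣ Nat.card G → d ∣ ∑ e ∈ d.divisors, s e := fun d hd => by
    have := Cfsg.Agent.S3993.result d hd
    have e := sum_card_orderOf_eq_card_pow_eq_one (G := G) (ne_zero_of_dvd_ne_zero Nat.card_pos.ne' hd)
    simp only [hs, Nat.card_eq_fintype_card, Fintype.card_subtype] at this ⊢
    convert this
  have s1 : s 1 = 1 := Nat.card_eq_one_iff_exists.2 ⟨⟨1, orderOf_one⟩, fun y => Subtype.ext (orderOf_eq_one_iff.1 y.2)⟩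
  have s0 : ∀ m, (¬ ∃ g : G, orderOf g = m) → s m = 0 := fun m t => Nat.card_eq_zero.2 (.inl ⟨fun g => t ⟨g, g.2⟩⟩)
  have sr : ∀ m, (∃ g : G, orderOf g = m) → s m = 1 ∨ s m = n := fun m t => h.le ⟨m, t, rfl⟩
  have sn : ∀ m, 2 < m → (∃ g : G, orderOf g = m) → s m = n := fun m hm ⟨g, hg⟩ => (sr m ⟨g, hg⟩).resolve_left fun t => by
    have e : g⁻¹ = g := congrArg Subtype.val ((Nat.card_eq_one_iff_unique.1 t).1.elim
      (⟨g⁻¹, by rw [orderOf_inv, hg]⟩ : {g : G // orderOf g = m}) ⟨g, hg⟩)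
    have := Nat.le_of_dvd two_pos (orderOf_dvd_of_pow_eq_one (x := g) (by rw [sq]; nth_rw 1 [← e]; simp))
    omega
  have s2 : ∀ m, 2 < m → s m = 0 ∨ s m = n := fun m hm => (em _).elim (fun t => .inr (sn m hm t)) fun t => .inl (s0 m t)
  have ca : ∀ p, p.Prime → p ∣ Nat.card G → ∃ g : G, orderOf g = p := fun p hp t =>
    have := Fact.mk hp; exists_prime_orderOf_dvd_card' p t
  have A : ∀ p, p.Prime → p ∣ Nat.card G → s p = n → p ∣ n + 1 := fun p hp t e => by
    have := fr p t
    rwa [hp.sum_divisors, s1, e] at this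
  have B : ∀ p, p.Prime → s p = n → ∀ g : G, ¬ p ^ 2 ∣ orderOf g := fun p hp e g t => by
    have d := t.trans (orderOf_dvd_natCard g)
    have a := A p hp ((dvd_pow_self p two_ne_zero).trans d) e
    have := (dvd_pow_self p two_ne_zero).trans (fr _ d)
    have p2 := hp.two_le
    simp only [Nat.sum_divisors_prime_pow hp, Finset.sum_range_succ, Finset.sum_range_zero, pow_zero, pow_one, s1, e,
      sn (p ^ 2) (by nlinarith) (exo t)] at this
    exact hp.one_lt.ne' (Nat.dvd_one.1 (dv this (a.mul_left 2) (by ring)))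
  have C : ∀ p q, p.Prime → q.Prime → p ∣ Nat.card G → q ∣ Nat.card G → s p = n → s q = n → p = q := by
    intro p q hp hq dp dq ep eq
    by_contra ne
    have c := (Nat.coprime_primes hp hq).2 ne
    have := fr _ (c.mul_dvd_of_dvd_of_dvd dp dq)
    rw [sdiv s hq c, hp.sum_divisors, one_mul, s1, ep, eq] at this
    have p2 := hp.two_le
    have q2 := hq.two_le
    have k : ∀ r, r.Prime → r ∣ n + 1 → r ∣ p * q → r = 2 := fun r hr a b => by
      have d := b.trans this
      rcases s2 (p * q) (by nlinarith) with e | e <;> rw [e] at d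
      · exact absurd (Nat.dvd_one.1 (dv d (a.mul_left 2) (by ring))) hr.one_lt.ne'
      · exact (Nat.prime_dvd_prime_iff_eq hr Nat.prime_two).1
          (dv d (a.mul_left 3) (by ring))
    exact ne ((k p hp (A p hp dp ep) (dvd_mul_right _ _)).trans (k q hq (A q hq dq eq) (dvd_mul_left _ _)).symm)
  obtain ⟨_, ⟨g, rfl⟩, hg⟩ : n ∈ _ := h.ge (.inr rfl)
  have g1 : orderOf g ≠ 1 := fun e => hn (by rw [← hg, e]; exact s1)
  have ex : ∀ p, p.Prime → s p = n → ∀ P : Subgroup G, IsPGroup p P → P ≠ ⊥ → Monoid.exponent P = p := by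
    intro p hp e P hP h0
    have := Fact.mk hp
    have := (nontrivial_iff_ne_bot P).2 h0
    refine (Monoid.exponent_eq_prime_iff hp).2 fun x x1 => ?_
    obtain ⟨k, hk⟩ := L.exists_orderOf_eq_pow_succ hP x.2 fun t => x1 (Subtype.ext t)
    rcases k with _ | k
    · rw [← orderOf_coe, hk, zero_add, pow_one]
    · exact absurd (hk ▸ pow_dvd_pow p (by omega)) (B p hp e x)
  by_cases h2 : s 2 = 1
  swap
  · have gd : ∀ p, p.Prime → p ∣ Nat.card G → s p = n := fun p hp t => (hp.two_le.eq_or_lt.elim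
      (fun e => (sr p (ca p hp t)).resolve_left (e ▸ h2)) fun e => sn p e (ca p hp t))
    obtain ⟨p, hp, d⟩ := Nat.exists_prime_and_dvd g1
    have d' := d.trans (orderOf_dvd_natCard g)
    have := Fact.mk hp
    have hP : IsPGroup p (⊤ : Subgroup G) := isPGroup_of_primes fun r hr t =>
      C r p hr hp (card_top (G := G) ▸ t) d' (gd r hr (card_top (G := G) ▸ t)) (gd p hp d')
    refine .inl ⟨p, hp, hP.of_equiv topEquiv, ?_, ?_⟩
    · by_contra t
      have := Nat.le_of_dvd Nat.card_pos d'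
      have := hp.two_le
      obtain rfl : p = 2 := by omega
      have c : Nat.card G = 2 := by omega
      have := isCyclic_of_prime_card c
      exact h2 (by
        have := IsCyclic.card_orderOf_eq_totient (α := G) (d := 2) (by rw [← Nat.card_eq_fintype_card, c])
        simpa only [hs, Nat.card_eq_fintype_card, Fintype.card_subtype, Nat.totient_two] using this)
    · rw [← Monoid.exponent_eq_of_mulEquiv topEquiv]
      exact ex p hp (gd p hp d') ⊤ hP fun t => g1 (orderOf_eq_one_iff.2 (t.le (mem_top g)))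
  obtain ⟨⟨z, hz⟩, zu⟩ := Nat.card_eq_one_iff_exists.1 h2
  have zu' : ∀ y : G, orderOf y = 2 → y = z := fun y hy => congrArg Subtype.val (zu ⟨y, hy⟩)
  have zc : ∀ y, Commute z y := fun y => by
    have := zu' (y * z * y⁻¹) (by rw [← hz]; exact (orderOf_injective (MulAut.conj y).toMonoidHom (MulAut.conj y).injective z))
    exact (mul_inv_eq_iff_eq_mul.1 this).symm
  have gd : ∀ p, p.Prime → p ≠ 2 → p ∣ Nat.card G → s p = n := fun p hp p2 t =>
    sn p (lt_of_le_of_ne hp.two_le p2.symm) (ca p hp t)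
  by_cases h4 : 2 ^ 2 ∣ Nat.card G
  · have f4 := fr _ h4
    simp only [Nat.sum_divisors_prime_pow Nat.prime_two, Finset.sum_range_succ, Finset.sum_range_zero, pow_zero,
      pow_one, s1, h2] at f4
    have e4 : s (2 ^ 2) = n := (s2 _ (by norm_num)).resolve_left (by omega)
    have hP : IsPGroup 2 (⊤ : Subgroup G) := isPGroup_of_primes fun p hp t => by
      by_contra p2
      rw [card_top] at t
      have c := (Nat.coprime_primes Nat.prime_two hp).2 (Ne.symm p2)
      have a := A p hp t (gd p hp p2 t)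
      have := fr _ ((c.pow_left 2).mul_dvd_of_dvd_of_dvd h4 t)
      obtain ⟨x, hx⟩ := ca p hp t
      have p3 := hp.two_le
      have e2 := sn (2 * p) (by omega) ⟨z * x, by
        rw [(zc x).orderOf_mul_eq_mul_orderOf_of_coprime (by rw [hz, hx]; exact c), hz, hx]⟩
      simp only [sdiv s hp (c.pow_left 2), Nat.sum_divisors_prime_pow Nat.prime_two, Finset.sum_range_succ,
        Finset.sum_range_zero, pow_zero, pow_one, s1, h2, one_mul, e4, e2, gd p hp p2 t] at this
      rcases s2 (2 ^ 2 * p) (by omega) with e | e <;> rw [e] at this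
      · exact hp.one_lt.ne' (Nat.dvd_one.1 (dv ((dvd_mul_left _ _).trans this) (a.mul_left 3) (by ring)))
      · have := (dvd_mul_right _ _).trans this
        omega
    have n8 : ∀ x : G, ¬ 2 ^ 3 ∣ orderOf x := fun x t => by
      have := fr _ (t.trans (orderOf_dvd_natCard x))
      simp only [Nat.sum_divisors_prime_pow Nat.prime_two, Finset.sum_range_succ, Finset.sum_range_zero, pow_zero,
        pow_one, s1, h2, e4, sn (2 ^ 3) (by norm_num) (exo t)] at this
      omega
    have cy : IsCyclic G → IsCyclic G ∧ Nat.card G = 4 := fun c => ⟨c, by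
      obtain ⟨x, hx⟩ := IsCyclic.exists_ofOrder_eq_natCard (α := G)
      obtain ⟨k, hk⟩ := L.exists_card_eq_pow hP
      rw [card_top] at hk
      have a := n8 x
      rw [hx] at a
      rw [hk, Nat.pow_dvd_pow_iff_le_right one_lt_two] at a h4
      rw [hk, show k = 2 by omega]; rfl⟩
    rcases cyclic_or_quat hP (rk_le_iff'.2 fun B _ b => by
      rw [pow_one, ← hz, ← Nat.card_zpowers]
      exact card_le_of_le fun y hy => (em (y = 1)).elim (fun e => e ▸ one_mem _) fun e =>
        zu' y (orderOf_eq_prime (b.2 y hy) e) ▸ mem_zpowers _) with c | ⟨-, k, ⟨e⟩⟩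
    · exact .inr (.inr (.inl (cy (isCyclic_of_surjective _ topEquiv.surjective))))
    have e := topEquiv.symm.trans e
    rcases k with _ | _ | k
    · have : IsCyclic (QuaternionGroup (2 ^ 0)) := quaternionGroup_one_isCyclic
      exact .inr (.inr (.inl (cy (isCyclic_of_surjective e.symm e.symm.surjective))))
    · exact .inr (.inl ⟨e⟩)
    · exact absurd (by rw [MulEquiv.orderOf_eq, orderOf_a_one]; exact ⟨2 ^ k, by ring⟩) (n8 (e.symm (a 1)))
  obtain ⟨p, hp, d, p2⟩ : ∃ p, p.Prime ∧ p ∣ orderOf g ∧ p ≠ 2 := by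
    by_contra t
    push Not at t
    obtain ⟨k, hk⟩ : ∃ k, orderOf g = 2 ^ k := ⟨_, Nat.eq_prime_pow_of_unique_prime_dvd (orderOf_pos g).ne' (t _)⟩
    rcases k with _ | _ | k
    · exact g1 hk
    · exact hn (by rw [← hg, hk]; exact h2)
    · exact h4 ((pow_dvd_pow 2 (by omega)).trans (hk ▸ orderOf_dvd_natCard g))
  have d' := d.trans (orderOf_dvd_natCard g)
  have := Fact.mk hp
  obtain ⟨P, hP⟩ := exists_syl (p := p) (⊤ : Subgroup G)
  obtain ⟨Q, _, _, ⟨e⟩⟩ := H8.exists_small P
  have cz : Nat.card (zpowers z) = 2 := by rw [Nat.card_zpowers, hz]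
  have zP : IsPGroup 2 (zpowers z) := L.isPGroup_of_card (n := 1) cz
  have c : zpowers z ≤ centralizer (P : Set G) := zpowers_le.2 fun y _ => (zc y).eq.symm
  obtain ⟨i⟩ := sup_equiv_prod c (eq_bot_of_p_p' (zP.to_le inf_le_left) (cop_of_isPGroup_ne p2 (hP.isP.to_le inf_le_right)))
  have t : zpowers z ⊔ P = ⊤ := top_le_iff.1 (le_of_forall_syl fun q hq => by
    by_cases q2 : q = 2
    · subst q2
      obtain ⟨S, hS, l⟩ := exists_syl_ge zP le_top
      obtain ⟨k, hk⟩ := L.exists_card_eq_pow hS.isP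
      refine ⟨S, hS, (eq_of_le_of_card_ge l ?_).ge.trans le_sup_left⟩
      rw [hk, cz]
      exact Nat.pow_le_pow_right two_pos (not_lt.1 fun t => h4 ((pow_dvd_pow 2 t).trans (hk ▸ card_subgroup_dvd_card S)))
    by_cases qd : q ∣ Nat.card G
    · obtain rfl := C q p hq.out hp qd d' (gd q hq.out q2 qd) (gd p hp p2 d')
      exact ⟨P, hP, le_sup_right⟩
    · obtain ⟨S, hS⟩ := exists_syl (p := q) (⊤ : Subgroup G)
      exact ⟨S, hS, (hS.eq_bot_iff.2 (by rw [card_top]; exact (hq.out.coprime_iff_not_dvd.2 qd).symm)).le.trans bot_le⟩)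
  refine .inr (.inr (.inr ⟨p, Q, _, inferInstance, hp, p2, hP.isP.of_equiv e, ?_, ⟨((topEquiv.symm.trans
    (MulEquiv.subgroupCongr t.symm)).trans i).trans ((mulEquivOfPrimeCardEq cz (by simp)).prodCongr e)⟩⟩))
  rw [← Monoid.exponent_eq_of_mulEquiv e]
  exact ex p hp (gd p hp p2 d') P hP.isP fun t => hp.coprime_iff_not_dvd.1 (hP.eq_bot_iff.1 t).symm (by rwa [card_top])

end Cfsg.Agent.S3995
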