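import Cfsg.Statements.S3998
import Cfsg.Agent.H1.FC

set_option autoImplicit false
open Cfsg

namespace Cfsg.Agent.S3998

open H1
open Subgroup Cfsg in
theorem aux.{u} (r : ℕ) (G : Type u) [Group G] [Finite G] : IsSupersolvable G →
    IsPiHall {q | r ≤ q} (piCore {q | r ≤ q} G) := by
  revert G
  apply group_induction
  intro G _ _ ih hG
  refine isPiHall_iff.2 ⟨piCore_isPiNum, ?_⟩
  by_cases h1 : Nat.card G = 1
  · exact (isPiNum_one _).of_dvd (h1 ▸ index_dvd_card _)
  obtain ⟨p, hp, hd, hmax⟩ := exists_max_prime Nat.card_pos.ne' h1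
  haveI := Fact.mk hp
  by_cases hr : r ≤ p
  · obtain ⟨K, _, hK⟩ := super_exists_normal_max_prime hG hd hmax
    have h2 : IsPiNum {q | r ≤ q} (Nat.card K) := fun q hq h => by
      rw [hK, Nat.prime_dvd_prime_iff_eq hq hp] at h
      exact h ▸ hr
    rw [← comap_piCore_quotient K h2, index_comap_of_surjective _ (QuotientGroup.mk'_surjective K)]
    exact (isPiHall_iff.1 (ih _ (card_quotient_lt (ne_bot_of_prime_card (hK ▸ hp))) (super_quotient hG K))).2
  · intro q hq h h'
    exact hr (le_trans h' (hmax q hq (h.trans (index_dvd_card _))))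

/-- Let G and H be finite groups with the same order type (for every m the same number of elements of order m). If G is supersolvable then H is solvable. -/
theorem result {G H : Type*} [Group G] [Finite G] [Group H] [Finite H] (hT : (∀ m : ℕ, Nat.card {g : G // orderOf g = m} = Nat.card {h : H // orderOf h = m})) (hG : Cfsg.IsSupersolvable G) :
    Group.IsSolvable H := by
  obtain ⟨e, he⟩ := exists_equiv_orderOf hT
  have key : ∀ k, ∃ L : Subgroup H, Cfsg.IsPiHall {q | Nat.card H + 1 - k ≤ q} L ∧ Group.IsSolvable L := by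
    intro k
    induction k with
    | zero =>
      refine ⟨⊥, isPiHall_iff.2 ⟨by simpa using isPiNum_one _, fun q _ h h' => ?_⟩, inferInstance⟩
      rw [Subgroup.index_bot] at h
      have := Nat.le_of_dvd Nat.card_pos h
      simp at h'; omega
    | succ k ih =>
      obtain ⟨L, hL, hs⟩ := ih
      haveI := (hall_normal_of_ot he (aux _ G hG) hL).1
      rw [isPiHall_iff] at hL
      set r := Nat.card H + 1 - (k + 1) with hr
      have h0 : ∀ q, Nat.card H + 1 - k ≤ q → r ≤ q := fun q h => by omega
      by_cases hp : r.Prime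
      · haveI := Fact.mk hp
        obtain ⟨P⟩ : Nonempty (Sylow r H) := inferInstance
        refine ⟨P ⊔ L, isPiHall_iff.2 ⟨isPiNum_sup Subgroup.le_normalizer_of_normal
          ((isPGroup_iff_isPiNum.1 P.isPGroup').mono (by simp)) (hL.1.mono h0), fun q hq h h' => ?_⟩,
          isSolvable_sup Subgroup.le_normalizer_of_normal (isSolvable_of_isPGroup P.isPGroup') hs⟩
        by_cases e : q = r
        · exact not_dvd_index_of_sylow_le P le_sup_left (e ▸ h)
        · refine hL.2 q hq (h.trans (Subgroup.index_dvd_of_le le_sup_right)) ?_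
          simp only [Set.mem_setOf_eq] at h' ⊢
          omega
      · refine ⟨L, isPiHall_iff.2 ⟨hL.1.mono h0, fun q hq h h' => hL.2 q hq h ?_⟩, hs⟩
        have : q ≠ r := fun e => hp (e ▸ hq)
        simp only [Set.mem_setOf_eq] at h' ⊢
        omega
  obtain ⟨L, hL, hs⟩ := key (Nat.card H + 1)
  have : L = ⊤ := Subgroup.index_eq_one.1 (Nat.eq_one_iff_not_exists_prime_dvd.2 fun q hq h =>
    (isPiHall_iff.1 hL).2 q hq h (by simp))
  rw [this] at hs
  exact isSolvable_of_equiv Subgroup.topEquiv hs

end Cfsg.Agent.S3998
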