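import Cfsg.Statements.S3999
import Cfsg.Agent.H1.FC

set_option autoImplicit false
open Cfsg

namespace Cfsg.Agent.S3999

open H1
open Subgroup Cfsg

structure FD {G : Type*} [Group G] (N C : Subgroup G) : Prop where
  n : N.Normal
  n0 : N ≠ ⊥
  c0 : C ≠ ⊥
  comp : IsComplement' N C
  fpf : Fpf C N

theorem FD.cop {G : Type*} [Group G] [Finite G] {N C : Subgroup G} (h : FD N C) :
    (Nat.card C).Coprime (Nat.card N) := haveI := h.n; h.fpf.coprime le_normalizer_of_normal

theorem transfer {F G : Type*} [Group F] [Finite F] [Group G] [Finite G] {e : F ≃ G}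
    (he : ∀ g, orderOf (e g) = orderOf g) {N C : Subgroup F} (h : FD N C) :
    ∃ K D : Subgroup G, FD K D ∧ Nat.card K = Nat.card N ∧ Nat.card D = Nat.card C := by
  haveI := h.n
  have hi : N.index = Nat.card C := h.comp.symm.index_eq_card
  have hN := piHall_of_coprime (H := N) (hi ▸ h.cop.symm)
  set π := {p | p ∣ Nat.card N}
  have hnil := isNilpotent_of_fpf le_normalizer_of_normal h.fpf h.c0
  have hK : IsPiHall π (piCore π G) := by
    refine ⟨piCore_isPiNum, fun p hp hπ => ?_⟩
    haveI := Fact.mk hp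
    obtain ⟨P, hP⟩ := exists_isSylowIn (p := p) N
    haveI : P.Normal := normalizer_eq_top_iff.1 (top_le_iff.1
      (le_normalizer_of_normal.trans (hP.normalizer_le_of_nilpotent hnil)))
    have h1 : IsPiHall {p} P := isPiHallOf_top.1 (isPiHallOf_singleton_iff.2 (hP.trans le_top (by
      rw [relIndex_top_right]; exact hN.2 p hp hπ)))
    obtain ⟨Q⟩ : Nonempty (Sylow p G) := inferInstance
    haveI := (hall_normal_of_ot he h1 (isPiHallOf_top.1 (isPiHallOf_singleton_iff.2 (isSylowIn_top Q)))).1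
    exact not_dvd_index_of_sylow_le Q (le_piCore ((isPGroup_iff_isPiNum.1 Q.isPGroup').mono (by simpa using hπ)))
  have hc := (hall_normal_of_ot he hN hK).2
  obtain ⟨D, hD⟩ := exists_right_complement'_of_coprime (coprime_of_piHall hK)
  have hDc : Nat.card D = Nat.card C := by
    have e1 := hD.card_mul
    rw [hc, ← Nat.card_congr e, ← h.comp.card_mul] at e1
    exact Nat.eq_of_mul_eq_mul_left Nat.card_pos e1
  refine ⟨_, D, ⟨inferInstance, fun e => h.n0 ?_, fun e => h.c0 ?_, hD, fpf_iff.2 fun d hd k hk hcm => ?_⟩, hc, hDc⟩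
  · rw [← card_eq_one, ← hc, e, card_bot]
  · rw [← card_eq_one, ← hDc, e, card_bot]
  have d1 : orderOf d ∣ Nat.card C := hDc ▸ orderOf_dvd_card_of_mem hd
  have k1 : orderOf k ∣ Nat.card N := hc ▸ orderOf_dvd_card_of_mem hk
  have ho : orderOf (e.symm (d * k)) = orderOf d * orderOf k := by
    rw [← he, e.apply_symm_apply, Commute.orderOf_mul_eq_mul_orderOf_of_coprime hcm
      (Nat.Coprime.coprime_dvd_left d1 (Nat.Coprime.coprime_dvd_right k1 h.cop))]
  by_cases hx : e.symm (d * k) ∈ N
  · left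
    have := orderOf_dvd_card_of_mem hx
    rw [ho] at this
    exact orderOf_eq_one_iff.1 (Nat.eq_one_of_dvd_coprimes h.cop d1 ((Dvd.intro _ rfl).trans this))
  · right
    obtain ⟨c, -, hc⟩ := exists_mem_conj_of_fpf le_normalizer_of_normal h.fpf
      (by rw [h.comp.sup_eq_top]; exact mem_top _) hx
    have := orderOf_dvd_card_of_mem hc
    rw [ho, card_conj_smul] at this
    exact orderOf_eq_one_iff.1 (Nat.eq_one_of_dvd_coprimes h.cop ((Dvd.intro_left _ rfl).trans this) k1)

theorem FD.ncard {G : Type*} [Group G] [Finite G] {N C : Subgroup G} (h : FD N C) {x : G} (hx : x ∈ C) :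
    Nat.card N + ((N ⊔ zpowers x : Subgroup G) \ N : Set G).ncard = orderOf x * Nat.card N := by
  haveI := h.n
  have c3 := Set.ncard_inter_add_ncard_diff_eq_ncard ((N ⊔ zpowers x : Subgroup G) : Set G) (N : Set G)
  rw [← coe_inf, inf_eq_right.2 le_sup_left] at c3
  refine c3.trans ?_
  rw [← Nat.card_zpowers, ← card_sup_of_disjoint le_normalizer_of_normal
    (h.fpf.mono (zpowers_le.2 hx) le_rfl).inf_eq_bot, sup_comm]
  rfl

theorem solv {F G : Type*} [Group F] [Finite F] [Group G] [Finite G] {e : F ≃ G}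
    (he : ∀ g, orderOf (e g) = orderOf g) {N C : Subgroup F} (h : FD N C) {K D : Subgroup G} (h' : FD K D)
    (h1 : Nat.card K = Nat.card N) (h2 : Nat.card D = Nat.card C) (hF : Group.IsSolvable F) : Group.IsSolvable G := by
  haveI := h.n
  haveI := h'.n
  haveI := isNilpotent_of_fpf le_normalizer_of_normal h'.fpf h'.c0
  have hD : Group.IsSolvable D := by
    refine solvable_of_unique_five D fun p hp h5 ⟨x, hx⟩ ⟨y, hy⟩ ox oy => ?_
    rw [orderOf_mk] at ox oy
    obtain ⟨x0, hx0, ox0⟩ := exists_mem_orderOf_eq_prime hp (h2 ▸ ox ▸ orderOf_dvd_card_of_mem hx : p ∣ Nat.card C)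
    have hy' := mem_of_ncard he (q := fun n => n = p) (A := (N ⊔ zpowers x0 : Subgroup F) \ N)
      (B := (K ⊔ zpowers x : Subgroup G) \ K) (fun g og => ?_) (fun b hb => ?_) ?_ oy
    · have : y ∈ (zpowers x ⊔ K) ⊓ D := ⟨sup_comm K _ ▸ hy'.1, hy⟩
      rw [dedekind_left (zpowers_le.2 hx) (Or.inl le_normalizer_of_normal), h'.comp.disjoint.eq_bot, sup_bot_eq] at this
      obtain ⟨k, hk⟩ := this
      exact ⟨k, Subtype.ext (by simpa using hk)⟩
    · have hg : g ∉ N := fun hg => hp.ne_one (Nat.eq_one_of_dvd_coprimes h.cop (ox0 ▸ orderOf_dvd_card_of_mem hx0)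
        (og ▸ orderOf_dvd_card_of_mem hg))
      obtain ⟨c, hcN, hc⟩ := exists_mem_conj_of_fpf le_normalizer_of_normal h.fpf
        (by rw [h.comp.sup_eq_top]; exact mem_top _) hg
      have := (pq_of_fpf h.n0 le_normalizer_of_normal h.fpf).unique_five inferInstance hp h5 hx0
        (mem_conj_smul.1 hc) ox0 (by rw [orderOf_conj', og])
      refine ⟨?_, hg⟩
      have e : g = c * (c⁻¹ * g * c) * c⁻¹ := by group
      rw [e]
      exact mul_mem (mul_mem (mem_sup_left hcN) (mem_sup_right this)) (inv_mem (mem_sup_left hcN))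
    · obtain ⟨c, -, hc⟩ := exists_mem_conj_of_fpf le_normalizer_of_normal (h'.fpf.mono (zpowers_le.2 hx) le_rfl)
        hb.1 hb.2
      have := orderOf_dvd_card_of_mem hc
      rw [card_conj_smul, Nat.card_zpowers, ox] at this
      exact ((Nat.dvd_prime hp).1 this).resolve_left fun e => hb.2 (orderOf_eq_one_iff.1 e ▸ K.one_mem)
    · have a1 := h.ncard hx0
      have a2 := h'.ncard hx
      rw [ox0] at a1
      rw [ox, h1] at a2
      omega
  have := isSolvable_sup (H := D) (K := K) le_normalizer_of_normal hD inferInstance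
  rw [h'.comp.symm.sup_eq_top] at this
  exact isSolvable_of_equiv topEquiv this

/-- Let F be a finite Frobenius group (it has a Frobenius complement) and G a finite group with the same order type as F (for every m the same number of elements of order m). Then G is a Frobenius group; moreover G is solvable if and only if F is. -/
theorem result {F G : Type*} [Group F] [Finite F] [Group G] [Finite G] (hF : (∃ C : Subgroup F, Cfsg.IsFrobeniusComplement C)) (hT : (∀ m : ℕ, Nat.card {g : F // orderOf g = m} = Nat.card {h : G // orderOf h = m})) :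
    (∃ C : Subgroup G, Cfsg.IsFrobeniusComplement C) ∧ (Group.IsSolvable G ↔ Group.IsSolvable F) := by
  obtain ⟨e, he⟩ := exists_equiv_orderOf hT
  obtain ⟨C, hC⟩ := hF
  obtain ⟨N, h1, -, h2, h3, h4, -⟩ := IsFrob.exists_kernel hC
  have h : FD N C := ⟨h1, h4, hC.1, h2, h3⟩
  obtain ⟨K, D, h', e1, e2⟩ := transfer he h
  haveI := h'.n
  exact ⟨⟨D, isFrob_of_fpf h'.comp.sup_eq_top h'.n0 h'.c0 h'.fpf⟩,
    solv (e := e.symm) (fun g => by rw [← he, e.apply_symm_apply]) h' h e1.symm e2.symm, solv he h h' e1 e2⟩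

end Cfsg.Agent.S3999
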