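import Cfsg.Statements.S4003
import Cfsg.Agent.H1.Root

set_option autoImplicit false
open Cfsg

namespace Cfsg.Agent.S4003

open H1

/-- Let G be a finite group, p an odd prime dividing the order of G whose Sylow p-subgroups are not cyclic, and n = p^s·m with s > 1 and m coprime to p. Then the number of elements of G of order n is a multiple of p^s. -/
theorem result {G : Type*} [Group G] [Finite G] (p : ℕ) [Fact p.Prime] (hodd : p ≠ 2) (hpG : p ∣ Nat.card G)
    (P : Sylow p G) (hP : ¬ IsCyclic ↥(P : Subgroup G)) (s m : ℕ) (hs : 1 < s) (hm : Nat.Coprime p m) :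
    p ^ s ∣ Nat.card {g : G // orderOf g = p ^ s * m} := by
  open Subgroup in
  have hp : p.Prime := Fact.out
  rcases eq_or_ne m 0 with rfl | hm0
  · exact absurd hm (by simp [hp.ne_one])
  by_cases h0 : p ^ s ∣ Nat.card G
  swap
  · rw [Nat.card_eq_zero.2 (Or.inl ⟨fun ⟨g, hg⟩ => h0 ((dvd_mul_right _ m).trans
      (hg ▸ orderOf_dvd_natCard g))⟩)]
    exact dvd_zero _
  obtain ⟨W, h1, h2, h3⟩ := L.exists_elem_two P.isPGroup' hP (Or.inl hodd)
  obtain ⟨H, hH, h4⟩ := Sylow.exists_subgroup_card_pow_prime_le p h0 W h3 hs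
  have hHc : ¬ IsCyclic H := fun _ => L.not_isCyclic_of_elem_sq h2 h3 (isCyclic_of_le h4)
  have hHp : IsPGroup p H := IsPGroup.of_card hH
  have key : ∀ j, s - 1 ≤ j → p ^ s ∣ {g : G | m ∣ orderOf g ∧ g ^ (m * p ^ j) = 1}.ncard := by
    intro j hj
    rw [← hH]
    refine dvd_ncard_of_closed H _ (fun x hx a _ => ⟨hx.1.trans (orderOf_injective
      (MulAut.conj a).toMonoidHom (MulAut.conj a).injective x).symm.dvd, by
        rw [conj_pow, hx.2]; simp⟩) fun x hx K h5 h6 y hy => ⟨dvd_orderOf_mul h6 hy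
          ((hm.pow_left _).coprime_dvd_left (hH ▸ card_dvd_of_le h5)) hx.1, ?_⟩
    have hb : ∀ {K : Subgroup G} {x y : G} {n : ℕ}, x ∈ normalizer (K : Set G) → y ∈ K →
        x ^ n = 1 → Nat.card K ∣ n → (x * y) ^ n = 1 := fun {K x y n} h1 h2 h3 ⟨d, hd⟩ => by
      obtain ⟨a, -, h4⟩ := brauer_pow h1 h2
      rw [hd, pow_mul] at h3 ⊢
      simpa [h4, h3] using conj_pow (a := a⁻¹) (b := x ^ Nat.card K) (i := d)
    rcases h5.lt_or_eq with h5 | rfl
    · refine hb h6 hy hx.2 (Dvd.dvd.mul_left (Nat.dvd_of_mul_dvd_mul_left hp.pos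
        ((L.mul_card_dvd_of_lt hHp h5).trans ?_)) m)
      rw [hH, ← pow_succ']
      exact pow_dvd_pow p (by omega)
    have h7 : IsPGroup p (zpowers (x ^ m)) := fun g => ⟨j, Subtype.ext (by
      obtain ⟨_, i, rfl⟩ := g
      simp only [coe_pow, coe_one]
      rw [← zpow_natCast, ← zpow_mul, mul_comm, zpow_mul, zpow_natCast, ← pow_mul, hx.2, one_zpow])⟩
    have h8 : zpowers (x ^ m) ≤ normalizer (K : Set G) := zpowers_le.2 (pow_mem h6 m)
    set R := zpowers (x ^ m) ⊔ K
    have hR : IsPGroup p R := IsPGroup.to_sup_of_normal_right' h7 hHp h8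
    obtain ⟨A, h9, h10, h11, h12⟩ := L.exists_normal_elem_two hR le_sup_right
      (sup_le h8 le_normalizer) hHc (Or.inl hodd)
    have h13 : (x ^ m)⁻¹ * (x * y) ^ m ∈ K := by
      generalize m = i
      induction i with
      | zero => simp
      | succ i ih =>
        simpa [pow_succ, mul_assoc] using mul_mem (conj_mem_of_mem_normalizer (inv_mem h6) ih) hy
    have hA := (normal_subgroupOf_iff_le_normalizer (h9.trans le_sup_right)).2 h10
    let f := QuotientGroup.mk' (A.subgroupOf R)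
    have hK := (normal_subgroupOf_iff_le_normalizer (le_sup_right : K ≤ R)).2
      (sup_le h8 le_normalizer)
    have hK' := hK.map f (QuotientGroup.mk'_surjective _)
    obtain ⟨a, -, h14⟩ := brauer_pow (K := (K.subgroupOf R).map f) (x := f ⟨_, mem_sup_left
      (mem_zpowers _)⟩) (le_normalizer_of_normal (mem_top _))
      (mem_map_of_mem f (show (⟨_, mem_sup_right h13⟩ : R) ∈ K.subgroupOf R from h13))
    obtain ⟨a, rfl⟩ := QuotientGroup.mk'_surjective _ a
    have h15 : Nat.card ((K.subgroupOf R).map f) = p ^ (s - 2) := by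
      rw [← relIndex_ker, QuotientGroup.ker_mk', relIndex_subgroupOf le_sup_right]
      refine Nat.eq_of_mul_eq_mul_left (pow_pos hp.pos 2) ?_
      rw [← h12, card_mul_relIndex h9, hH, h12, ← pow_add]
      congr 1; omega
    rw [h15, ← map_mul, ← map_pow, ← map_pow, ← map_inv, ← map_mul, ← map_mul, eq_comm] at h14
    have h16 := QuotientGroup.eq.1 h14
    set u := a⁻¹ * (⟨_, mem_sup_left (mem_zpowers _)⟩ : R) ^ p ^ (s - 2) * a with hu
    change (u : G)⁻¹ * (x ^ m * ((x ^ m)⁻¹ * (x * y) ^ m)) ^ p ^ (s - 2) ∈ A at h16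
    rw [mul_inv_cancel_left] at h16
    obtain ⟨d, rfl⟩ := Nat.exists_eq_add_of_le (show s - 2 + 1 ≤ j by omega)
    have h17 : ⁅A, R⁆ ≤ A := commutator_le_of_le_normalizer h10
    have h18 : ⁅⁅A, R⁆, R⁆ = ⊥ := by
      by_contra h18
      have h19 : ⁅A, R⁆ ≠ ⊥ := fun e => h18 (by rw [e, commutator_bot_left])
      have hA' := hHp.to_le h9
      have h20 := L.mul_card_le_of_lt hA' (commutator_lt_of_isPGroup hA' hR h10
        (by rintro rfl; exact h19 (commutator_bot_left _)))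
      have h21 := L.mul_card_le_of_lt (hA'.to_le h17) (commutator_lt_of_isPGroup (hA'.to_le h17) hR
        (normalizer_commutator_ge_right _ _) h19)
      rw [h12, sq, Nat.mul_le_mul_left_iff hp.pos] at h20
      exact h18 (eq_bot_of_card_le _ (Nat.le_of_mul_le_mul_left (h21.trans (h20.trans_eq
        (mul_one p).symm)) hp.pos))
    have h19 := commutator_mem_commutator (inv_mem h16) (inv_mem u.2)
    have h20 := L.mul_pow_class2 (L.rel_comm (u : G) _) (L.commute_of_commutator_eq_bot h18 h19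
      u.2).symm (L.commute_of_commutator_eq_bot h18 h19 (mem_sup_right (h9 h16))).symm p
    have h21 : ∀ z ∈ A, z ^ p = 1 := h11.2
    rw [mul_inv_cancel_left, h21 _ h16, L.pow_eq_one_of_dvd (h21 _ (h17 h19))
      (L.dvd_choose_two (hp.odd_of_ne_two hodd)), mul_one, mul_one] at h20
    have h22 := hx.2
    simp only [pow_add, pow_one, pow_mul] at h22 ⊢
    rw [h20, ← pow_mul, hu]
    simpa [h22, pow_mul] using conj_pow (a := (a : G)⁻¹) (b := (x ^ m) ^ p ^ (s - 2))
      (i := p * p ^ d)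
  have h5 := key (s - 1) le_rfl
  have h6 : {g : G | orderOf g = p ^ s * m} = {g : G | m ∣ orderOf g ∧ g ^ (m * p ^ s) = 1} \
      {g : G | m ∣ orderOf g ∧ g ^ (m * p ^ (s - 1)) = 1} := by
    ext g
    simp only [Set.mem_setOf, Set.mem_diff, ← orderOf_dvd_iff_pow_eq_one, mul_comm (p ^ s)]
    refine ⟨fun h => ⟨⟨h ▸ dvd_mul_right _ _, h.dvd⟩, fun h7 => ?_⟩, fun ⟨⟨⟨k, hk⟩, h7⟩, h8⟩ => ?_⟩
    · have := h7.2
      rw [h, Nat.mul_dvd_mul_iff_left (by omega), Nat.pow_dvd_pow_iff_le_right hp.one_lt] at this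
      omega
    · rw [hk, Nat.mul_dvd_mul_iff_left (by omega)] at h7 h8
      obtain ⟨i, hi, rfl⟩ := (Nat.dvd_prime_pow hp).1 h7
      rw [hk, hi.antisymm (not_lt.1 fun e => h8 ⟨dvd_mul_right _ _, pow_dvd_pow p (by omega)⟩)]
  change p ^ s ∣ {g : G | orderOf g = p ^ s * m}.ncard
  rw [h6, Set.ncard_diff]
  · exact Nat.dvd_sub (key s (by omega)) h5
  · exact fun g hg => ⟨hg.1, L.pow_eq_one_of_dvd hg.2
      (Nat.mul_dvd_mul_left m (pow_dvd_pow p (by omega)))⟩

end Cfsg.Agent.S4003
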