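import Cfsg.Statements.S4005
import Cfsg.Agent.H1.Generation
import Cfsg.Agent.H1.HallConv
import Cfsg.Agent.H1.Fitting
import Cfsg.Agent.H1.KPi
import Cfsg.Agent.FT.Rank
import Cfsg.Agent.L.PG3

set_option autoImplicit false
open Cfsg

namespace Cfsg.Agent.S4005

open Subgroup
open scoped commutatorElement

/-- A finite group whose set of element orders is exactly {1, 2, 3} has either a normal elementary abelian 3-subgroup of index 2 or a normal elementary abelian 2-subgroup of index 3. -/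
theorem result {G : Type*} [Group G] [Finite G] (h : Set.range (orderOf : G → ℕ) = {k : ℕ | 1 ≤ k ∧ k ≤ 3}) :
    (∃ N : Subgroup G, N.Normal ∧ Cfsg.IsElementaryAbelian 3 N ∧ N.index = 2) ∨
      (∃ N : Subgroup G, N.Normal ∧ Cfsg.IsElementaryAbelian 2 N ∧ N.index = 3) := by
  haveI : Fact (Nat.Prime 2) := ⟨Nat.prime_two⟩
  haveI : Fact (Nat.Prime 3) := ⟨Nat.prime_three⟩
  have ho : ∀ x : G, orderOf x = 1 ∨ orderOf x = 2 ∨ orderOf x = 3 := fun x => by
    have : orderOf x ∈ Set.range (orderOf : G → ℕ) := ⟨x, rfl⟩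
    rw [h] at this
    obtain ⟨h1, h2⟩ := this
    omega
  obtain ⟨t, ht⟩ : 2 ∈ Set.range (orderOf : G → ℕ) := by rw [h]; simp
  obtain ⟨s, hs⟩ : 3 ∈ Set.range (orderOf : G → ℕ) := by rw [h]; simp
  have hpr : ∀ r : ℕ, r.Prime → r ∣ Nat.card G → r = 2 ∨ r = 3 := by
    intro r hr hd
    haveI := Fact.mk hr
    obtain ⟨x, hx⟩ := exists_prime_orderOf_dvd_card' r hd
    have := ho x
    have := hr.one_lt
    omega
  haveI := H1.isSolvable_of_two_primes Nat.prime_two Nat.prime_three hpr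
  have h6 : ∀ x y : G, orderOf x = 2 → orderOf y = 3 → x * y ≠ y * x := by
    intro x y hx hy e
    have := Commute.orderOf_mul_eq_mul_orderOf_of_coprime e (by rw [hx, hy]; norm_num)
    have := ho (x * y)
    rw [hx, hy] at *
    omega
  have hp : ∀ (p : ℕ) [Fact p.Prime] (A : Subgroup G), IsPGroup p A → ∀ a ∈ A, a ≠ 1 → orderOf a = p := by
    intro p hp A hA a ha h1
    obtain ⟨k, hk⟩ := IsPGroup.iff_orderOf.mp hA ⟨a, ha⟩
    rw [Subgroup.orderOf_mk] at hk
    have hk0 : k ≠ 0 := by rintro rfl; exact h1 (orderOf_eq_one_iff.mp (by simpa using hk))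
    have hd : p ∣ orderOf a := hk ▸ dvd_pow_self p hk0
    rcases ho a with e | e | e
    · exact absurd (orderOf_eq_one_iff.mp e) h1
    · rw [e] at hd ⊢; exact ((Nat.prime_dvd_prime_iff_eq hp.out Nat.prime_two).mp hd).symm
    · rw [e] at hd ⊢; exact ((Nat.prime_dvd_prime_iff_eq hp.out Nat.prime_three).mp hd).symm
  have hpw : ∀ (p : ℕ) [Fact p.Prime] (A : Subgroup G), IsPGroup p A → ∀ a ∈ A, a ^ p = 1 := by
    intro p _ A hA a ha
    by_cases h1 : a = 1
    · rw [h1, one_pow]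
    · rw [← hp p A hA a ha h1, pow_orderOf_eq_one]
  have hcyc : ∀ (p q : ℕ) [Fact p.Prime] [Fact q.Prime], (p = 2 ∧ q = 3 ∨ p = 3 ∧ q = 2) → Cfsg.pCore p G ≠ ⊥ →
      ∀ A : Subgroup G, IsPGroup q A → IsMulCommutative A → IsCyclic A := by
    intro p q _ _ hpq h0 A hA hc
    by_contra hn
    refine h0 (le_bot_iff.mp (H1.le_of_centralizer_le hc hn le_normalizer_of_normal
      (IsPGroup.coprime_card_of_ne q p (by omega) _ _ hA H1.pCore_isPGroup) fun a ha h1 x hx => ?_))
    by_contra hx1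
    have e1 := hp q A hA a ha h1
    have e2 := hp p _ H1.pCore_isPGroup x hx.1 hx1
    have e3 : x * a = a * x := mem_centralizer_singleton_iff.mp hx.2
    rcases hpq with ⟨rfl, rfl⟩ | ⟨rfl, rfl⟩
    · exact h6 x a e2 e1 e3
    · exact h6 a x e1 e2 e3.symm
  have hcard : ∀ (p : ℕ) [Fact p.Prime] (P : Sylow p G), p ∣ Nat.card G → IsCyclic (P : Subgroup G) →
      Nat.card (P : Subgroup G) = p := by
    intro p hp' P hd hc
    obtain ⟨c, hc'⟩ := (Subgroup.isCyclic_iff_exists_zpowers_eq_top _).mp hc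
    have : c ≠ 1 := by
      rintro rfl
      have h1 := P.dvd_card_of_dvd_card hd
      rw [← hc', zpowers_one_eq_bot, card_bot] at h1
      exact hp'.out.one_lt.ne' (Nat.dvd_one.mp h1)
    rw [← hc', Nat.card_zpowers, hp p P P.isPGroup' c (hc' ▸ mem_zpowers c) this]
  obtain ⟨P⟩ : Nonempty (Sylow 2 G) := inferInstance
  obtain ⟨Q⟩ : Nonempty (Sylow 3 G) := inferInstance
  have hsq : ∀ x y : G, x ^ 2 = 1 → y ^ 2 = 1 → (x * y) ^ 2 = 1 → x * y = y * x := by
    intro x y hx hy hxy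
    rw [pow_two] at hx hy hxy
    calc x * y = x * (x * y * (x * y)) * y := by rw [hxy, mul_one]
      _ = (x * x) * (y * x) * (y * y) := by group
      _ = y * x := by rw [hx, hy, one_mul, mul_one]
  have hPc : IsMulCommutative (P : Subgroup G) := ⟨⟨fun x y => Subtype.ext
    (hsq x y (hpw 2 _ P.isPGroup' x x.2) (hpw 2 _ P.isPGroup' y y.2) (hpw 2 _ P.isPGroup' _ (x * y).2))⟩⟩
  have d2 : 2 ∣ Nat.card G := ht ▸ orderOf_dvd_natCard t
  have d3 : 3 ∣ Nat.card G := hs ▸ orderOf_dvd_natCard s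
  have hcore : ∀ (p q : ℕ) [Fact p.Prime] [Fact q.Prime], (p = 2 ∧ q = 3 ∨ p = 3 ∧ q = 2) →
      Cfsg.pPrimeCore p G ≤ Cfsg.pCore q G := by
    intro p q _ hq hpq
    refine H1.le_pCore (H1.isPGroup_iff_isPiNum.2 fun r hr hd => ?_)
    have h1 := hpr r hr (hd.trans (card_subgroup_dvd_card _))
    have h2 : r ≠ p := by rintro rfl; exact H1.not_dvd_card_pPrimeCore hd
    show r = q
    omega
  by_cases h3 : Cfsg.pCore 3 G = ⊥
  · right
    have hC := H1.centralizer_pCore_le (G := G) (p := 2) (le_bot_iff.mp (h3 ▸ hcore 2 3 (by simp)))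
    have hOP : Cfsg.pCore 2 G ≤ P := by rw [H1.pCore_eq_iInf_sylow]; exact iInf_le (fun P : Sylow 2 G => (P : Subgroup G)) P
    have hPO : (P : Subgroup G) = Cfsg.pCore 2 G := le_antisymm (fun x hx => hC fun y hy =>
      congrArg Subtype.val (hPc.is_comm.comm ⟨y, hOP hy⟩ ⟨x, hx⟩)) hOP
    have h2 : Cfsg.pCore 2 G ≠ ⊥ := by
      intro e
      have h1 := P.dvd_card_of_dvd_card d2
      rw [hPO, e, card_bot] at h1
      omega
    have hQ : IsCyclic (Q : Subgroup G) := by
      by_contra hn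
      obtain ⟨A, hA, hA1, hA2⟩ := L.exists_elem_two Q.isPGroup' hn (Or.inl (by norm_num))
      have := hcyc 2 3 (by simp) h2 A (Q.isPGroup'.to_le hA) hA1.1
      obtain ⟨c, hc'⟩ := (Subgroup.isCyclic_iff_exists_zpowers_eq_top _).mp this
      rw [← hc', Nat.card_zpowers] at hA2
      have := ho c
      omega
    refine ⟨P, hPO ▸ inferInstance, ⟨hPc, hpw 2 _ P.isPGroup'⟩, ?_⟩
    have hk := Nat.eq_prime_pow_of_unique_prime_dvd (p := 3) (n := (P : Subgroup G).index) index_ne_zero_of_finite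
      fun {r} hr hd => (hpr r hr (hd.trans (index_dvd_card _))).resolve_left (by rintro rfl; exact P.not_dvd_index hd)
    have h1 : (P : Subgroup G).index ∣ 3 := by
      rw [← hcard 3 Q d3 hQ, hk]
      exact Q.pow_dvd_card_of_pow_dvd_card (hk ▸ index_dvd_card _)
    rcases (Nat.dvd_prime Nat.prime_three).mp h1 with e | e
    · rw [index_eq_one] at e
      have := hp 2 _ P.isPGroup' s (e ▸ mem_top s) (by rintro rfl; simp at hs)
      omega
    · exact e
  · left
    have hP := hcyc 3 2 (by simp) h3 P P.isPGroup' hPc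
    have hP2 := hcard 2 P d2 hP
    have hcompl := IsCyclic.isComplement' (p := 2) ((Nat.minFac_eq_two_iff _).2 d2) hP
    obtain ⟨N, hN, hi⟩ : ∃ N : Subgroup G, N.Normal ∧ N.IsComplement' (P : Subgroup G) := ⟨_, inferInstance, hcompl⟩
    have hi2 : N.index = 2 := by rw [hi.symm.index_eq_card, hP2]
    have hodd : ¬ 2 ∣ Nat.card N := by rw [← hi.index_eq_card]; exact P.not_dvd_index
    have hN3 : ∀ x ∈ N, x ^ 3 = 1 := by
      intro x hx
      rcases ho x with e | e | e
      · rw [orderOf_eq_one_iff.mp e, one_pow]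
      · exact absurd (e ▸ Subgroup.orderOf_dvd_natCard N hx) hodd
      · rw [← e, pow_orderOf_eq_one]
    have hout : ∀ x, x ∉ N → x ^ 2 = 1 := by
      intro x hx
      rcases ho x with e | e | e
      · rw [orderOf_eq_one_iff.mp e, one_pow]
      · rw [← e, pow_orderOf_eq_one]
      · exfalso
        have h1 : x ^ 2 * x = 1 := by rw [← pow_succ, ← pow_orderOf_eq_one x, e]
        exact hx (by rw [← inv_inv x, ← eq_inv_of_mul_eq_one_left h1]; exact inv_mem (sq_mem_of_index_two hi2 x))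
    have htN : t ∉ N := fun h => hodd (ht ▸ Subgroup.orderOf_dvd_natCard N h)
    have hinv : ∀ x ∈ N, t * x * t = x⁻¹ := by
      intro x hx
      have := hout (t * x) fun h => htN ((mul_mem_cancel_right hx).mp h)
      rw [pow_two] at this
      rw [eq_inv_iff_mul_eq_one, ← this]; group
    have htt : t * t = 1 := by rw [← pow_two, ← ht, pow_orderOf_eq_one]
    refine ⟨N, hN, ⟨⟨⟨fun x y => Subtype.ext ?_⟩⟩, hN3⟩, hi2⟩
    apply inv_injective
    push_cast
    rw [← hinv _ (mul_mem x.2 y.2), mul_inv_rev, ← hinv _ x.2, ← hinv _ y.2]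
    calc t * (x * y) * t = t * x * (t * t) * y * t := by rw [htt]; group
      _ = _ := by group

end Cfsg.Agent.S4005
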