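import Cfsg.Statements.S4006
import Cfsg.Agent.H1.Generation
import Cfsg.Agent.H1.HallConv
import Cfsg.Agent.H1.Fitting
import Cfsg.Agent.H1.KPi
import Cfsg.Agent.FT.Rank
import Cfsg.Agent.L.PG3
import Cfsg.Agent.H1.Q1
import Cfsg.Agent.S0016
import Cfsg.Agent.S3779

set_option autoImplicit false
open Cfsg

namespace Cfsg.Agent.S4006

open Subgroup
open scoped commutatorElement

theorem sq_comm {G : Type*} [Group G] {x y : G} (hx : x ^ 2 = 1) (hy : y ^ 2 = 1) (hxy : (x * y) ^ 2 = 1) :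
    Commute x y := by
  rw [pow_two] at hx hy hxy
  calc x * y = x * (x * y * (x * y)) * y := by rw [hxy, mul_one]
    _ = (x * x) * (y * x) * (y * y) := by group
    _ = y * x := by rw [hx, hy, one_mul, mul_one]

theorem elem {N : Type*} [Group N] [Finite N] (σ τ : MulAut N) (hσ : ∀ x, σ x = x → x = 1)
    (h3 : ∀ x, σ (σ (σ x)) = x) (hst : ∀ x, σ (τ (σ x)) = τ x) (hu : ∀ x, (x * τ x) ^ 2 = 1)
    (hc : ∀ x y z : N, Commute ⁅x, y⁆ z) : (∀ x y : N, Commute x y) ∧ ∀ x : N, x ^ 2 = 1 := by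
  have hσ2 : ∀ x, (σ * σ) x = x → x = 1 := fun x hx => hσ x (by
    have := h3 x
    rwa [show σ (σ (σ x)) = σ ((σ * σ) x) from rfl, hx] at this)
  have s1 : ∀ x, ∃ g, g * (σ g)⁻¹ = x := fun x => by
    simpa [div_eq_mul_inv] using MonoidHom.FixedPointFree.commutatorMap_surjective (φ := σ) hσ x
  have s2 : ∀ x, ∃ g, g * (σ (σ g))⁻¹ = x := fun x => by
    simpa [div_eq_mul_inv] using MonoidHom.FixedPointFree.commutatorMap_surjective (φ := σ * σ) hσ2 x
  have h1 : ∀ x, x * σ x * σ (σ x) = 1 := fun x => by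
    obtain ⟨g, rfl⟩ := s1 x
    simp only [map_mul, map_inv, h3]; group
  have h2 : ∀ x, x * σ (σ x) * σ x = 1 := fun x => by
    obtain ⟨g, rfl⟩ := s2 x
    simp only [map_mul, map_inv, h3]; group
  have c1 : ∀ x, Commute (σ x) (σ (σ x)) := fun x => by
    have := (h1 x).trans (h2 x).symm
    rw [mul_assoc, mul_assoc] at this
    exact mul_left_cancel this
  have c2 : ∀ x, Commute x (σ x) := fun x => by
    have := c1 (σ (σ x))
    rwa [h3] at this
  have dec : ∀ g, g * (σ (σ g))⁻¹ = g * τ g * (σ (σ g * τ (σ g)))⁻¹ := fun g => by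
    rw [map_mul, hst]; group
  have hz : ∀ z : N, (∀ y, Commute z y) → z ^ 2 = 1 := by
    intro z hz
    have hz' : ∀ (f : MulAut N) y, Commute (f z) y := fun f y => by
      have := (hz (f.symm y)).map f
      rwa [f.apply_symm_apply] at this
    have e1 : (z * (σ (σ z))⁻¹) ^ 2 = 1 := by
      rw [dec, ((hz _).mul_left (hz' τ _)).mul_pow, hu, one_mul, inv_pow, ← map_pow, hu, map_one, inv_one]
    rw [(hz _).mul_pow, inv_pow, mul_inv_eq_one] at e1
    exact hσ2 _ (by rw [map_pow]; exact e1.symm)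
  have ca : ∀ n m, Commute (n * τ n) (m * τ m) := by
    intro n m
    refine sq_comm (hu n) (hu m) ?_
    have e : n * τ n * (m * τ m) = n * ⁅τ n, m⁆ * (m * τ (n * m)) := by
      rw [map_mul, commutatorElement_def]; group
    rw [e, ← (hc _ _ n).eq, mul_assoc, (hc _ _ _).mul_pow, hz _ (hc _ _), one_mul, ← mul_assoc, hu]
  have cb : ∀ u v : N, Commute u v → Commute u (σ v) := by
    intro u v huv
    have a1 : Commute (σ u) (σ v) := huv.map σ
    have a2 := (c2 (u * σ v)).eq
    rw [map_mul] at a2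
    have a3 : Commute u (σ (σ v)) := by
      have b : σ u * (u * σ (σ v)) * σ v = σ u * (σ (σ v) * u) * σ v := by
        calc σ u * (u * σ (σ v)) * σ v = (σ u * u) * (σ (σ v) * σ v) := by group
          _ = u * (σ u * σ v) * σ (σ v) := by rw [← (c2 u).eq, ← (c1 v).eq]; group
          _ = u * σ v * (σ u * σ (σ v)) := by rw [a1.eq]; group
          _ = _ := by rw [a2]; group
      exact mul_left_cancel (mul_right_cancel b)
    have a4 : σ v = v⁻¹ * (σ (σ v))⁻¹ := by
      rw [eq_mul_inv_iff_mul_eq, eq_inv_iff_mul_eq_one, (c1 v).eq, mul_assoc]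
      have := congrArg σ (h2 (σ (σ v)))
      simp only [map_mul, h3, map_one] at this
      have h5 := congrArg σ (congrArg σ (h1 v))
      simp only [map_mul, h3, map_one] at h5
      rw [← h5, mul_assoc, (c2 v).eq]
    rw [a4]
    exact huv.inv_right.mul_right a3.inv_right
  have hall : ∀ x y : N, Commute x y := by
    intro x y
    obtain ⟨g, rfl⟩ := s2 x
    obtain ⟨k, rfl⟩ := s2 y
    rw [dec, dec]
    exact ((ca _ _).mul_right (cb _ _ (ca _ _)).inv_right).mul_left
      ((cb _ _ (ca _ _)).symm.mul_right ((ca _ _).map σ).inv_right).inv_left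
  exact ⟨hall, fun x => hz x (hall x)⟩

theorem caseQ {Q : Type*} [Group Q] [Finite Q] (h2 : IsPGroup 2 Q) (h4 : ∀ x : Q, x ^ 4 = 1) {t : Q}
    (ht : orderOf t = 4) (hu : ∀ x y : Q, orderOf x = 2 → orderOf y = 2 → x = y) :
    (IsCyclic Q ∧ Nat.card Q = 4) ∨ Nonempty (Q ≃* QuaternionGroup 2) := by
  have cyc : IsCyclic Q → Nat.card Q = 4 := fun hc => Nat.dvd_antisymm
    (by rw [← IsCyclic.exponent_eq_card]; exact Monoid.exponent_dvd_of_forall_pow_eq_one h4)
    (ht ▸ orderOf_dvd_natCard t)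
  rcases Cfsg.Agent.S0016.result 2 h2 (fun H K hH hK => by
    have e : ∀ L : Subgroup Q, Nat.card L = 2 → ∃ x, orderOf x = 2 ∧ L = zpowers x := fun L hL => by
      obtain ⟨x, hx⟩ := exists_prime_orderOf_dvd_card' (G := L) 2 (by rw [hL])
      rw [← orderOf_coe] at hx
      exact ⟨x, hx, (eq_of_le_of_card_ge (zpowers_le.2 x.2) (by rw [hL, Nat.card_zpowers, hx])).symm⟩
    obtain ⟨x, hx, rfl⟩ := e H hH
    obtain ⟨y, hy, rfl⟩ := e K hK
    rw [hu x y hx hy]) with h | ⟨-, n, ⟨e⟩⟩
  · exact Or.inl ⟨h, cyc h⟩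
  · have h1 : orderOf (e.symm (QuaternionGroup.a 1)) ∣ 4 := orderOf_dvd_of_pow_eq_one (h4 _)
    rw [MulEquiv.orderOf_eq, QuaternionGroup.orderOf_a_one] at h1
    match n, e, h1 with
    | 0, e, _ =>
      haveI : IsCyclic (QuaternionGroup (2 ^ 0)) := QuaternionGroup.quaternionGroup_one_isCyclic
      have := isCyclic_of_surjective e.symm e.symm.surjective
      exact Or.inl ⟨this, cyc this⟩
    | 1, e, _ => exact Or.inr ⟨e⟩
    | n + 2, _, h1 =>
      have := Nat.le_of_dvd (by norm_num) h1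
      have := Nat.one_le_two_pow (n := n)
      rw [pow_add] at *
      omega

theorem core {X : Type*} [Group X] [Finite X] (hpr : ∀ r : ℕ, r.Prime → r ∣ Nat.card X → r = 2 ∨ r = 3)
    (p q : ℕ) [Fact p.Prime] [Fact q.Prime] (hpq : p = 2 ∧ q = 3 ∨ p = 3 ∧ q = 2) (h : Cfsg.pCore q X = ⊥) :
    centralizer (Cfsg.pCore p X : Set X) ≤ Cfsg.pCore p X := by
  haveI := H1.isSolvable_of_two_primes Nat.prime_two Nat.prime_three hpr
  refine H1.centralizer_pCore_le (le_bot_iff.mp (h ▸ H1.le_pCore (H1.isPGroup_iff_isPiNum.2 fun r hr hd => ?_)))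
  have h1 := hpr r hr (hd.trans (card_subgroup_dvd_card _))
  have h2 : r ≠ p := by rintro rfl; exact H1.not_dvd_card_pPrimeCore hd
  show r = q
  omega

/-- A finite group whose set of element orders is exactly {1, 2, 3, 4} has a normal subgroup N such that either N is a 2-group of exponent 4 and nilpotency class at most 2 with G/N of order 3, or N is an elementary abelian 2-group with G/N isomorphic to the symmetric group of degree 3, or N is an elementary abelian 3-group with G/N cyclic of order 4 or quaternion of order 8. -/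
theorem result {G : Type*} [Group G] [Finite G] (h : Set.range (orderOf : G → ℕ) = {k : ℕ | 1 ≤ k ∧ k ≤ 4}) :
    ∃ (N : Subgroup G) (_ : N.Normal),
      (IsPGroup 2 ↥N ∧ Monoid.exponent ↥N = 4 ∧ Group.nilpotencyClass ↥N ≤ 2 ∧ N.index = 3) ∨
      (Cfsg.IsElementaryAbelian 2 N ∧ Nonempty (G ⧸ N ≃* Equiv.Perm (Fin 3))) ∨
      (Cfsg.IsElementaryAbelian 3 N ∧ ((IsCyclic (G ⧸ N) ∧ N.index = 4) ∨ Nonempty (G ⧸ N ≃* QuaternionGroup 2))) := by
  haveI : Fact (Nat.Prime 2) := ⟨Nat.prime_two⟩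
  haveI : Fact (Nat.Prime 3) := ⟨Nat.prime_three⟩
  have ho : ∀ x : G, orderOf x = 1 ∨ orderOf x = 2 ∨ orderOf x = 3 ∨ orderOf x = 4 := fun x => by
    have : orderOf x ∈ Set.range (orderOf : G → ℕ) := ⟨x, rfl⟩
    rw [h] at this
    obtain ⟨h1, h2⟩ := this
    omega
  obtain ⟨w, hw⟩ : 4 ∈ Set.range (orderOf : G → ℕ) := by rw [h]; simp
  obtain ⟨s0, hs0⟩ : 3 ∈ Set.range (orderOf : G → ℕ) := by rw [h]; simp
  have hpr : ∀ r : ℕ, r.Prime → r ∣ Nat.card G → r = 2 ∨ r = 3 := by
    intro r hr hd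
    haveI := Fact.mk hr
    obtain ⟨x, hx⟩ := exists_prime_orderOf_dvd_card' r hd
    have := ho x
    have := hr.one_lt
    have : r ≠ 4 := by rintro rfl; norm_num at hr
    omega
  have hprq : ∀ (N : Subgroup G) [N.Normal] (r : ℕ), r.Prime → r ∣ Nat.card (G ⧸ N) → r = 2 ∨ r = 3 :=
    fun N _ r hr hd => hpr r hr (hd.trans (card_quotient_dvd_card N))
  have h43 : ∀ x : G, x ^ 4 = 1 ∨ orderOf x = 3 := fun x => by
    rw [← orderOf_dvd_iff_pow_eq_one]
    rcases ho x with e | e | e | e <;> rw [e] <;> norm_num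
  have h6 : ∀ x y : G, x ^ 4 = 1 → orderOf y = 3 → Commute x y → x = 1 := by
    intro x y hx hy e
    have h1 := orderOf_dvd_of_pow_eq_one hx
    have := e.orderOf_mul_eq_mul_orderOf_of_coprime (by rw [hy]; exact Nat.Coprime.coprime_dvd_left h1 (by norm_num))
    have := ho (x * y)
    have := ho x
    rw [← orderOf_eq_one_iff]
    rw [hy] at *
    omega
  have h2g : ∀ A : Subgroup G, IsPGroup 2 A → ∀ a ∈ A, a ^ 4 = 1 := by
    intro A hA a ha
    refine (h43 a).resolve_right fun e => ?_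
    obtain ⟨k, hk⟩ := IsPGroup.iff_orderOf.mp hA ⟨a, ha⟩
    rw [Subgroup.orderOf_mk, e] at hk
    have := Nat.prime_three.dvd_of_dvd_pow (hk ▸ dvd_rfl : 3 ∣ 2 ^ k)
    omega
  have h3g : ∀ A : Subgroup G, IsPGroup 3 A → ∀ a ∈ A, a ≠ 1 → orderOf a = 3 := by
    intro A hA a ha h1
    refine (h43 a).resolve_left fun e => h1 ?_
    obtain ⟨k, hk⟩ := IsPGroup.iff_orderOf.mp hA ⟨a, ha⟩
    rw [Subgroup.orderOf_mk] at hk
    exact orderOf_eq_one_iff.1 (Nat.eq_one_of_dvd_coprimes (Nat.Coprime.pow_left k (by norm_num : Nat.Coprime 3 4))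
      (hk ▸ dvd_rfl) (orderOf_dvd_of_pow_eq_one e))
  have hq6 : ∀ (N : Subgroup G) [N.Normal] (x : G ⧸ N), ¬ orderOf x = 6 := by
    intro N _ x hx
    obtain ⟨g, rfl⟩ := QuotientGroup.mk'_surjective N x
    have := orderOf_map_dvd (QuotientGroup.mk' N) g
    rw [hx] at this
    rcases ho g with e | e | e | e <;> rw [e] at this <;> omega
  have hw4 : w ^ 4 = 1 := hw ▸ pow_orderOf_eq_one w
  by_cases h3 : Cfsg.pCore 3 G = ⊥
  · set N := Cfsg.pCore 2 G with hN
    have hNp : IsPGroup 2 N := H1.pCore_isPGroup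
    have hC := core hpr 2 3 (by simp) h3
    have hN0 : N ≠ ⊥ := fun e => by
      have : s0 ∈ N := hC (by rw [← hN, e]; intro y hy; rw [mem_bot.1 hy]; simp)
      rw [e, mem_bot] at this
      rw [this, orderOf_one] at hs0; omega
    have h3N : ∀ s, orderOf s = 3 → s ∉ N := fun s hs hm => by
      have := orderOf_dvd_of_pow_eq_one (h2g N hNp s hm)
      rw [hs] at this
      omega
    obtain ⟨Q⟩ : Nonempty (Sylow 3 G) := inferInstance
    have hQ : IsCyclic (Q : Subgroup G) := by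
      by_contra hn
      obtain ⟨A, hA, hA1, hA2⟩ := L.exists_elem_two Q.isPGroup' hn (Or.inl (by norm_num))
      have hAp := Q.isPGroup'.to_le hA
      have : IsCyclic A := by
        by_contra hn
        refine hN0 (le_bot_iff.mp (H1.le_of_centralizer_le hA1.1 hn le_normalizer_of_normal
          (IsPGroup.coprime_card_of_ne 3 2 (by omega) _ _ hAp hNp) fun a ha h1 x hx => ?_))
        exact h6 x a (h2g N hNp x hx.1) (h3g A hAp a ha h1) (mem_centralizer_singleton_iff.mp hx.2)
      obtain ⟨c, hc'⟩ := (Subgroup.isCyclic_iff_exists_zpowers_eq_top _).mp this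
      rw [← hc', Nat.card_zpowers] at hA2
      have := ho c
      omega
    have h9 : ¬ 3 ^ 2 ∣ Nat.card G := by
      intro h9
      have h1 := Q.pow_dvd_card_of_pow_dvd_card h9
      obtain ⟨c, hc'⟩ := (Subgroup.isCyclic_iff_exists_zpowers_eq_top _).mp hQ
      rw [← hc', Nat.card_zpowers] at h1
      rcases ho c with e | e | e | e <;> rw [e] at h1 <;> omega
    have hC' := core (hprq N) 3 2 (by simp) H1.pCore_quotient_pCore
    set R := Cfsg.pCore 3 (G ⧸ N) with hR
    have hR3 : Nat.card R = 3 := by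
      obtain ⟨k, hk⟩ := (H1.pCore_isPGroup (G := G ⧸ N) (p := 3)).exists_card_eq
      have h1 : 3 ^ k ∣ Nat.card G := hk ▸ (card_subgroup_dvd_card _).trans (card_quotient_dvd_card N)
      have h2 : k < 2 := lt_of_not_ge fun hh => h9 ((pow_dvd_pow 3 hh).trans h1)
      have h4 : k ≠ 0 := by
        rintro rfl
        rw [pow_zero, card_eq_one] at hk
        have : (s0 : G ⧸ N) ∈ R := hC' (by rw [hR, hk]; intro y hy; rw [mem_bot.1 hy]; simp)
        rw [hR, hk, mem_bot, QuotientGroup.eq_one_iff] at this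
        exact h3N s0 hs0 this
      rw [hR, hk, show k = 1 by omega, pow_one]
    obtain ⟨⟨r, hrR⟩, hr⟩ := exists_prime_orderOf_dvd_card' (G := R) 3 (by rw [hR3])
    rw [Subgroup.orderOf_mk] at hr
    have hRz : zpowers r = R := eq_of_le_of_card_ge (zpowers_le.2 hrR) (by rw [hR3, Nat.card_zpowers, hr])
    obtain ⟨s, rfl⟩ := QuotientGroup.mk_surjective r
    have hs : orderOf s = 3 := by
      have := orderOf_map_dvd (QuotientGroup.mk' N) s
      rw [QuotientGroup.mk'_apply, hr] at this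
      rcases ho s with e | e | e | e <;> rw [e] at this ⊢ <;> omega
    have hcen : ∀ g : G ⧸ N, g * s = s * g → g ∈ zpowers (s : G ⧸ N) := fun g hg => by
      rw [hRz]
      apply hC'
      intro y hy
      obtain ⟨k, rfl⟩ : y ∈ zpowers (s : G ⧸ N) := hRz ▸ hy
      exact (Commute.zpow_right hg k).symm
    have hr1 : (s : G ⧸ N) ≠ 1 := fun e => by rw [e, orderOf_one] at hr; omega
    have hr3 : (s : G ⧸ N) ^ 3 = 1 := hr ▸ pow_orderOf_eq_one _
    have hdi : ∀ g : G ⧸ N, g * s = s * g ∨ g * s * g⁻¹ = (s : G ⧸ N)⁻¹ := fun g => by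
      have h1 : g * s * g⁻¹ ∈ zpowers (s : G ⧸ N) := hRz ▸ Normal.conj_mem inferInstance _ hrR g
      classical
      rw [mem_zpowers_iff_mem_range_orderOf, hr, Finset.mem_image] at h1
      obtain ⟨k, hk, e⟩ := h1
      rw [Finset.mem_range] at hk
      interval_cases k
      · exact absurd (conj_eq_one_iff.1 (e.symm.trans (pow_zero _))) hr1
      · left; rw [pow_one] at e; rw [← mul_inv_eq_iff_eq_mul, ← e]
      · right; rw [← e, eq_inv_iff_mul_eq_one, ← pow_succ, hr3]
    let σ : MulAut N := MulAut.conjNormal s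
    have hσ : ∀ x, σ x = x → x = 1 := fun x hx => Subtype.ext (h6 x s (h2g N hNp x x.2) hs (by
      have := congrArg Subtype.val hx
      rw [MulAut.conjNormal_apply, mul_inv_eq_iff_eq_mul] at this
      exact this.symm))
    have hs3 : s ^ 3 = 1 := hs ▸ pow_orderOf_eq_one s
    have hσ3 : σ ^ 3 = 1 := by rw [← map_pow, hs3, map_one]
    have hσo : orderOf σ = 3 := orderOf_eq_prime hσ3 fun e => by
      obtain ⟨x, hx⟩ := ne_bot_iff_exists_ne_one.1 hN0
      exact hx (hσ x (by rw [e]; rfl))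
    have hcl := (Cfsg.Agent.S3779.result Nat.prime_three σ hσo hσ).2.1 rfl
    refine ⟨N, inferInstance, ?_⟩
    by_cases hab : ∀ g : G ⧸ N, g * s = s * g
    · have hi : N.index = 3 := by
        rw [index_eq_card, ← hr, ← Nat.card_zpowers, (eq_top_iff' _).2 fun g => hcen g (hab g), card_top]
      haveI := hNp.isNilpotent
      refine Or.inl ⟨hNp, Nat.dvd_antisymm (Monoid.exponent_dvd_of_forall_pow_eq_one fun x => Subtype.ext
        (h2g N hNp x x.2)) ?_, Subgroup.lowerCentralSeries_eq_bot_iff_nilpotencyClass_le.1 hcl, hi⟩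
      have hwN : w ∈ N := by
        have h1 := pow_index_mem (H := N) w
        rw [hi] at h1
        rw [show w = (w ^ 3)⁻¹ from eq_inv_of_mul_eq_one_left (by rw [← pow_succ', hw4])]
        exact inv_mem h1
      rw [← hw, ← Subgroup.orderOf_mk w hwN]
      exact Monoid.order_dvd_exponent _
    · right; left
      obtain ⟨u, hu⟩ := not_forall.1 hab
      obtain ⟨u, rfl⟩ := QuotientGroup.mk_surjective u
      have hu' := (hdi u).resolve_left hu
      have hm : u * s * u⁻¹ * s ∈ N := by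
        rw [← QuotientGroup.eq_one_iff]
        simp only [QuotientGroup.mk_mul, QuotientGroup.mk_inv, hu', inv_mul_cancel]
      have hσ' : MonoidHom.FixedPointFree (σ⁻¹ : MulAut N) := fun x hx => hσ x (by
        rw [← hx, MulAut.apply_inv_self, hx])
      obtain ⟨n, hn⟩ := hσ'.commutatorMap_surjective ⟨_, hm⟩
      have hn' := congrArg Subtype.val hn
      rw [MonoidHom.commutatorMap_apply, ← map_inv, div_eq_mul_inv, coe_mul, coe_inv, MulAut.conjNormal_apply] at hn'
      set t := (n : G)⁻¹ * u with ht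
      have hts : t * s * t⁻¹ = s⁻¹ := by
        have e : u * s * u⁻¹ = n * s⁻¹ * (n : G)⁻¹ := by
          rw [← mul_left_inj s, ← show _ = u * s * u⁻¹ * s from hn']; group
        calc t * s * t⁻¹ = (n : G)⁻¹ * (u * s * u⁻¹) * n := by rw [ht]; group
          _ = s⁻¹ := by rw [e]; group
      have hinv : ∀ {X : Type _} [Group X] {a b : X}, orderOf b = 3 → a * b * a⁻¹ = b⁻¹ → ¬ a ^ 3 = 1 := by
        intro X _ a b hb e h3
        have e2 : a ^ 2 * b * (a ^ 2)⁻¹ = b := by
          calc a ^ 2 * b * (a ^ 2)⁻¹ = a * (a * b * a⁻¹) * a⁻¹ := by rw [pow_two]; group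
            _ = a * b⁻¹ * a⁻¹ := by rw [e]
            _ = (a * b * a⁻¹)⁻¹ := by group
            _ = b := by rw [e, inv_inv]
        have e3 : a ^ 3 * b * (a ^ 3)⁻¹ = b⁻¹ := by
          calc a ^ 3 * b * (a ^ 3)⁻¹ = a * (a ^ 2 * b * (a ^ 2)⁻¹) * a⁻¹ := by rw [pow_succ' a 2]; group
            _ = b⁻¹ := by rw [e2, e]
        rw [h3, one_mul, inv_one, mul_one, eq_inv_iff_mul_eq_one, ← pow_two, ← orderOf_dvd_iff_pow_eq_one, hb] at e3
        omega
      have ht4 : t ^ 4 = 1 := (h43 t).resolve_right fun e => hinv hs hts (e ▸ pow_orderOf_eq_one t)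
      have ht2 : t * t = 1 := h6 _ s (by rw [← pow_two, ← pow_mul, show 2 * 4 = 4 * 2 from rfl, pow_mul, ht4, one_pow]) hs (by
        show t * t * s = s * (t * t)
        rw [← mul_inv_eq_iff_eq_mul]
        calc t * t * s * (t * t)⁻¹ = t * (t * s * t⁻¹) * t⁻¹ := by group
          _ = t * s⁻¹ * t⁻¹ := by rw [hts]
          _ = (t * s * t⁻¹)⁻¹ := by group
          _ = s := by rw [hts, inv_inv])
      have hts' : (t : G ⧸ N) * s * (t : G ⧸ N)⁻¹ = (s : G ⧸ N)⁻¹ := by
        rw [← QuotientGroup.mk_inv, ← QuotientGroup.mk_inv, ← QuotientGroup.mk_mul, ← QuotientGroup.mk_mul, hts]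
      obtain ⟨e1, e2⟩ := elem σ (MulAut.conjNormal t) hσ (fun x => congrArg (fun f : MulAut N => f x) hσ3)
        (fun x => by
          have : s * t * s = t := by rw [mul_assoc, mul_inv_eq_iff_eq_mul.1 hts, mul_inv_cancel_left]
          rw [← MulAut.mul_apply, ← MulAut.mul_apply, ← map_mul, ← map_mul, this])
        (fun x => Subtype.ext (by
          have h1 : ((x : G) * t) ^ 4 = 1 := (h43 _).resolve_right fun e => hinv hr hts' (by
            have := congrArg (QuotientGroup.mk' N) (e ▸ pow_orderOf_eq_one ((x : G) * t))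
            rwa [map_pow, map_mul, QuotientGroup.mk'_apply, QuotientGroup.mk'_apply, (QuotientGroup.eq_one_iff _).2 x.2,
              one_mul, map_one] at this)
          rw [coe_pow, coe_mul, MulAut.conjNormal_apply, inv_eq_of_mul_eq_one_right ht2, coe_one, ← h1,
            show 4 = 2 * 2 from rfl, pow_mul, pow_two (_ * t)]
          simp only [mul_assoc]))
        (fun x y z => by
          rw [← commutatorElement_eq_one_iff_commute, ← mem_bot, ← hcl]
          exact commutator_mem_commutator (commutator_mem_commutator (mem_top x) (mem_top y)) (mem_top z))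
      refine ⟨⟨⟨⟨e1⟩⟩, fun x hx => congrArg Subtype.val (e2 ⟨x, hx⟩)⟩, ?_⟩
      have ht2' : (t : G ⧸ N) * t = 1 := by rw [← QuotientGroup.mk_mul, ht2, QuotientGroup.mk_one]
      obtain ⟨e⟩ := H1.s3_of_inv hr ht2' hts'
      have htop : closure {(s : G ⧸ N), (t : G ⧸ N)} = ⊤ := by
        have a1 : zpowers (s : G ⧸ N) ≤ closure {(s : G ⧸ N), (t : G ⧸ N)} := zpowers_le.2 (subset_closure (by simp))
        have a2 : (t : G ⧸ N) ∈ closure {(s : G ⧸ N), (t : G ⧸ N)} := subset_closure (by simp)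
        rw [eq_top_iff']
        intro g
        rcases hdi g with hg | hg
        · exact a1 (hcen g hg)
        · refine (Subgroup.mul_mem_cancel_left _ a2).1 (a1 (hcen _ ?_))
          rw [← mul_inv_eq_iff_eq_mul]
          calc t * g * s * (t * g)⁻¹ = t * (g * s * g⁻¹) * (t : G ⧸ N)⁻¹ := by group
            _ = ((t : G ⧸ N) * s * (t : G ⧸ N)⁻¹)⁻¹ := by rw [hg]; group
            _ = s := by rw [hts', inv_inv]
      exact ⟨topEquiv.symm.trans ((MulEquiv.subgroupCongr htop.symm).trans e)⟩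
  · set N := Cfsg.pCore 3 G with hN
    have hNp : IsPGroup 3 N := H1.pCore_isPGroup
    obtain ⟨⟨y, hy⟩, hy1⟩ := ne_bot_iff_exists_ne_one.1 h3
    have hy3 := h3g N hNp y hy fun e => hy1 (Subtype.ext e)
    have h2 : Cfsg.pCore 2 G = ⊥ := by
      rw [eq_bot_iff]
      intro x hx
      exact h6 x y (h2g _ H1.pCore_isPGroup x hx) hy3 (commute_of_normal_of_disjoint _ _ inferInstance inferInstance
        (IsPGroup.disjoint_of_ne 2 3 (by norm_num) _ _ H1.pCore_isPGroup hNp) x y hx hy)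
    have hC := core hpr 3 2 (by simp) h2
    have hN4 : ∀ x ∈ N, x ^ 4 = 1 → x = 1 := fun x hx e => by
      by_contra h1
      have := orderOf_dvd_of_pow_eq_one e
      rw [h3g N hNp x hx h1] at this
      omega
    have hfp : ∀ t : G, t * t = 1 → t ≠ 1 → MonoidHom.FixedPointFree (MulAut.conjNormal (H := N) t) ∧
        Function.Involutive (MulAut.conjNormal (H := N) t) := fun t ht ht1 => ⟨fun x hx => by
      by_contra h1
      refine ht1 (h6 t x (by rw [show 4 = 2 * 2 from rfl, pow_mul, pow_two t, ht, one_pow])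
        (h3g N hNp x x.2 fun e => h1 (Subtype.ext e)) ?_)
      have := congrArg Subtype.val hx
      rwa [MulAut.conjNormal_apply, mul_inv_eq_iff_eq_mul] at this,
      fun x => by rw [← MulAut.mul_apply, ← map_mul, ht, map_one, MulAut.one_apply]⟩
    have hiv : ∀ t : G, t * t = 1 → t ≠ 1 → ∀ x ∈ N, t * x * t⁻¹ = x⁻¹ := fun t ht ht1 x hx =>
      congrArg Subtype.val (congrFun ((hfp t ht ht1).1.coe_eq_inv_of_involutive (hfp t ht ht1).2) ⟨x, hx⟩)
    have huq : ∀ t t' : G, t * t = 1 → t ≠ 1 → t' * t' = 1 → t' ≠ 1 → (t : G ⧸ N) = t' := by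
      intro t t' a1 a2 a3 a4
      rw [QuotientGroup.eq, inv_eq_of_mul_eq_one_right a1]
      refine hC fun x hx => ?_
      rw [eq_comm, ← mul_inv_eq_iff_eq_mul]
      calc t * t' * x * (t * t')⁻¹ = t * (t' * x * t'⁻¹) * t⁻¹ := by group
        _ = x := by rw [hiv t' a3 a4 x hx, hiv t a1 a2 _ (inv_mem hx), inv_inv]
    have hw2 : w ^ 2 * w ^ 2 = 1 := by rw [← pow_add, hw4]
    have hw1 : w ^ 2 ≠ 1 := fun e => by
      have := orderOf_dvd_of_pow_eq_one e
      rw [hw] at this
      omega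
    have hwN : w ^ 2 ∉ N := fun hm => hw1 (hN4 _ hm (by rw [← pow_mul, mul_comm, pow_mul, hw4, one_pow]))
    have hwq : ((w ^ 2 : G) : G ⧸ N) ≠ 1 := by rwa [Ne, QuotientGroup.eq_one_iff]
    have hwo : orderOf ((w ^ 2 : G) : G ⧸ N) = 2 := orderOf_eq_prime (by
      rw [pow_two, ← QuotientGroup.mk_mul, hw2, QuotientGroup.mk_one]) hwq
    have hq4 : ∀ x : G ⧸ N, x ^ 4 = 1 := by
      intro x
      obtain ⟨g, rfl⟩ := QuotientGroup.mk_surjective x
      rcases h43 g with e | e
      · rw [← QuotientGroup.mk_pow, e, QuotientGroup.mk_one]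
      · by_cases h1 : (g : G ⧸ N) = 1
        · rw [h1, one_pow]
        exfalso
        have a1 : orderOf (g : G ⧸ N) = 3 := orderOf_eq_prime (by
          rw [← QuotientGroup.mk_pow, show g ^ 3 = 1 from e ▸ pow_orderOf_eq_one g, QuotientGroup.mk_one]) h1
        have a2 := huq (g * w ^ 2 * g⁻¹) (w ^ 2) (by rw [conj_mul, hw2]; simp) (by rwa [Ne, conj_eq_one_iff]) hw2 hw1
        rw [QuotientGroup.mk_mul, QuotientGroup.mk_mul, QuotientGroup.mk_inv, mul_inv_eq_iff_eq_mul] at a2
        have a3 := Commute.orderOf_mul_eq_mul_orderOf_of_coprime a2 (by rw [a1, hwo]; norm_num)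
        rw [a1, hwo] at a3
        exact hq6 N _ a3
    refine ⟨N, inferInstance, Or.inr (Or.inr ⟨⟨⟨⟨fun a b => (hfp _ hw2 hw1).1.commute_all_of_involutive
      (hfp _ hw2 hw1).2 a b⟩⟩, fun x hx => ?_⟩, caseQ (fun x => ⟨2, hq4 x⟩) hq4 (t := (w : G ⧸ N)) ?_ ?_⟩)⟩
    · by_cases h1 : x = 1
      · rw [h1, one_pow]
      · rw [← h3g N hNp x hx h1, pow_orderOf_eq_one]
    · exact orderOf_eq_prime_pow (p := 2) (n := 1) (by rwa [pow_one, ← QuotientGroup.mk_pow]) (hq4 _)
    · have key : ∀ g : G, orderOf (g : G ⧸ N) = 2 → g * g = 1 ∧ g ≠ 1 := by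
        intro g hg
        refine ⟨hN4 _ ?_ ?_, fun e => by rw [e, QuotientGroup.mk_one, orderOf_one] at hg; omega⟩
        · rw [← QuotientGroup.eq_one_iff, QuotientGroup.mk_mul, ← pow_two, ← hg, pow_orderOf_eq_one]
        · rcases h43 g with e | e
          · rw [← pow_two, ← pow_mul, mul_comm, pow_mul, e, one_pow]
          · have := orderOf_map_dvd (QuotientGroup.mk' N) g
            rw [QuotientGroup.mk'_apply, hg, e] at this
            omega
      intro x y hx hy
      obtain ⟨a, rfl⟩ := QuotientGroup.mk_surjective x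
      obtain ⟨b, rfl⟩ := QuotientGroup.mk_surjective y
      exact huq a b (key a hx).1 (key a hx).2 (key b hy).1 (key b hy).2

end Cfsg.Agent.S4006
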