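import Cfsg.Statements.S4198
import Mathlib


set_option autoImplicit false
open Cfsg

namespace Cfsg.Agent.S4198

open Equiv Perm

def T (n : ℕ) : Set (Multiset ℕ) := {m | m.sum ≤ n ∧ ∀ a ∈ m, 2 ≤ a}

theorem T01 {n : ℕ} (h : n ≤ 1) : T n ⊆ {0} := fun m hm => Multiset.eq_zero_of_forall_notMem fun a ha => by
  have := hm.2 a ha; have := Multiset.le_sum_of_mem ha; have := hm.1; omega

theorem Tfib (n : ℕ) : (T n).Finite ∧ (T n).ncard ≤ Nat.fib (n + 1) := by
  induction n using Nat.twoStepInduction with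
  | zero => exact ⟨(Set.finite_singleton _).subset (T01 zero_le_one), (Set.ncard_le_ncard (T01 zero_le_one)).trans (by simp)⟩
  | one => exact ⟨(Set.finite_singleton _).subset (T01 le_rfl), (Set.ncard_le_ncard (T01 le_rfl)).trans (by simp)⟩
  | more n h1 h2 =>
    have : T (n + 2) ⊆ (fun m => (n + 2 - m.sum) ::ₘ m) '' T n ∪ T (n + 1) := fun m hm => by
      refine (Nat.eq_or_lt_of_le hm.1).imp (fun h => ?_) fun h => ⟨by omega, hm.2⟩
      obtain ⟨a, ha⟩ := Multiset.exists_mem_of_ne_zero (s := m) (by rintro rfl; simp at h)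
      obtain ⟨m, rfl⟩ := Multiset.exists_cons_of_mem ha
      have := hm.2 a ha
      rw [Multiset.sum_cons] at h
      exact ⟨m, ⟨by omega, fun b hb => hm.2 b (Multiset.mem_cons_of_mem hb)⟩, by simp [← h]⟩
    have f := (h1.1.image fun m => (n + 2 - m.sum) ::ₘ m).union h2.1
    exact ⟨f.subset this, (Set.ncard_le_ncard this f).trans ((Set.ncard_union_le _ _).trans (by
      rw [Nat.fib_add_two]; exact add_le_add ((Set.ncard_image_le h1.1).trans h1.2) h2.2))⟩

theorem cardS (n : ℕ) : Nat.card (ConjClasses (Perm (Fin n))) = (T n).ncard := by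
  let f : ConjClasses (Perm (Fin n)) → Multiset ℕ := Quotient.lift cycleType fun _ _ => isConj_iff_cycleType_eq.1
  have : Function.Injective f := by rintro ⟨a⟩ ⟨b⟩ h; exact Quotient.sound (isConj_iff_cycleType_eq.2 h)
  rw [← Nat.card_range_of_injective this, Nat.card_coe_set_eq]
  congr 1
  ext m
  refine .trans ⟨?_, ?_⟩ ((exists_with_cycleType_iff (Fin n) (m := m)).trans (by simp [T]))
  · rintro ⟨⟨a⟩, h⟩; exact ⟨a, h⟩
  · rintro ⟨a, h⟩; exact ⟨⟦a⟧, h⟩

theorem conj_or {n : ℕ} {x y : alternatingGroup (Fin n)} (h : x.1.cycleType = y.1.cycleType) (k : ¬ IsConj x y) :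
    ∃ g : Perm (Fin n), sign g = -1 ∧ g * x * g⁻¹ = y := by
  obtain ⟨g, hg⟩ := isConj_iff.1 (isConj_iff_cycleType_eq.2 h)
  exact ⟨g, (Int.units_eq_one_or _).resolve_left fun e => k (isConj_iff.2 ⟨⟨g, e⟩, Subtype.ext hg⟩), hg⟩

/-- For n ≥ 5 the alternating group of degree n has strictly fewer conjugacy classes than the symmetric group of degree n, and the symmetric group of degree n (whose classes correspond to the partitions of n) has at most 2^(n−2) conjugacy classes. -/
theorem result (n : ℕ) (hn : 5 ≤ n) : Nat.card (ConjClasses (alternatingGroup (Fin n))) < Nat.card (ConjClasses (Equiv.Perm (Fin n))) ∧ Nat.card (ConjClasses (Equiv.Perm (Fin n))) ≤ 2 ^ (n - 2) := by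
  classical
  refine ⟨?_, (cardS n).trans_le ((Tfib n).2.trans ?_)⟩
  swap
  · obtain ⟨k, rfl⟩ := Nat.exists_eq_add_of_le' hn
    clear hn
    induction k with
    | zero => decide
    | succ k ih =>
      have := Nat.fib_le_fib_succ (n := k + 5)
      rw [show k + 1 + 5 + 1 = k + 5 + 2 from rfl, Nat.fib_add_two, show k + 1 + 5 - 2 = k + 5 - 2 + 1 from rfl, pow_succ]
      omega
  obtain ⟨r, hr⟩ : ∃ r : Multiset ℕ → alternatingGroup (Fin n), ∀ x : alternatingGroup (Fin n),
      x.1.cycleType = (r x.1.cycleType).1.cycleType :=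
    ⟨fun m => if h : ∃ x : alternatingGroup (Fin n), x.1.cycleType = m then h.choose else 1, fun x => by
      simp only []; rw [dif_pos ⟨x, rfl⟩]; exact (Exists.choose_spec (⟨x, rfl⟩ : ∃ y : alternatingGroup (Fin n), y.1.cycleType = _)).symm⟩
  have od : ∀ {x : alternatingGroup (Fin n)}, ¬ IsConj x (r x.1.cycleType) → ∀ a ∈ x.1.cycleType, a % 2 = 1 := fun {x} h a ha => by
    by_contra e
    obtain ⟨g, g1, g2⟩ := conj_or (hr x) h
    obtain ⟨c, hc, rfl⟩ := Multiset.mem_map.1 (cycleType_def x.1 ▸ ha)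
    refine h (isConj_iff.2 ⟨⟨g * c, ?_⟩, Subtype.ext ?_⟩)
    · rw [mem_alternatingGroup, map_mul, g1, (mem_cycleFactorsFinset_iff.1 hc).1.sign,
        (show Even c.support.card from Nat.even_iff.2 (Nat.mod_two_ne_one.1 e)).neg_one_pow]; simp
    · rw [← g2]
      exact (by rw [mul_assoc g c, (self_mem_cycle_factors_commute (g := x.1) (c := c) (by convert Finset.mem_def.2 hc)).eq]; group :
        g * c * x * (g * c)⁻¹ = g * x * g⁻¹)
  have ev : ∀ x : alternatingGroup (Fin n), (x.1.cycleType.sum + x.1.cycleType.card) % 2 = 0 := fun x => by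
    have := (sign_of_cycleType x.1).symm.trans x.2
    rwa [neg_one_pow_eq_one_iff_even (by decide), Nat.even_iff] at this
  have mem : ∀ x : Perm (Fin n), x.cycleType ∈ T n := fun x => by
    simpa [T] using (exists_with_cycleType_iff (Fin n)).1 ⟨x, rfl⟩
  have big : ∀ {x : alternatingGroup (Fin n)}, ¬ IsConj x (r x.1.cycleType) → 3 < x.1.cycleType.sum := fun {x} h => by
    by_contra k
    exact h (alternatingGroup.isConj_of (isConj_iff_cycleType_eq.2 (hr x)) (by rw [← sum_cycleType, Fintype.card_fin]; omega))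
  have ex : ∀ c : ConjClasses (alternatingGroup (Fin n)), ∃ m ∈ T n \ {{2}}, ∃ x, ConjClasses.mk x = c ∧
      ((m = x.1.cycleType ∧ IsConj x (r m)) ∨
        (¬ IsConj x (r x.1.cycleType) ∧ ∃ a s, m = a ::ₘ s ∧ x.1.cycleType = (a + 1) ::ₘ s)) := fun c => by
    obtain ⟨x, rfl⟩ := ConjClasses.mk_surjective c
    by_cases h : IsConj x (r x.1.cycleType)
    · exact ⟨_, ⟨mem _, fun e => by simpa [Set.mem_singleton_iff.1 e] using ev x⟩, x, rfl, Or.inl ⟨rfl, h⟩⟩
    have b := big h
    obtain ⟨a, ha⟩ := Multiset.exists_mem_of_ne_zero (s := x.1.cycleType) fun e => by simp [e] at b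
    obtain ⟨s, e⟩ := Multiset.exists_cons_of_mem ha
    have m := mem x
    have o := od h a ha
    have := m.2 a ha
    obtain ⟨a, rfl⟩ : ∃ b, a = b + 1 := ⟨a - 1, by omega⟩
    rw [e] at m b
    refine ⟨a ::ₘ s, ⟨⟨le_trans (by simp) m.1, fun c hc => (Multiset.mem_cons.1 hc).elim (by omega) fun k =>
      m.2 c (Multiset.mem_cons_of_mem k)⟩, fun k => ?_⟩, x, rfl, Or.inr ⟨h, a, s, rfl, e⟩⟩
    have := congrArg Multiset.sum (Set.mem_singleton_iff.1 k)
    simp only [Multiset.sum_cons, Multiset.sum_singleton] at this b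
    omega
  choose f f1 f2 using ex
  have inj : Function.Injective f := fun c d h => by
    obtain ⟨x, rfl, h1⟩ := f2 c
    obtain ⟨y, rfl, h2⟩ := f2 d
    rw [← h] at h2
    generalize f _ = m at h1 h2
    have e1 := ev x
    have e2 := ev y
    rw [ConjClasses.mk_eq_mk_iff_isConj]
    rcases h1 with ⟨a1, a2⟩ | ⟨a1, a, s, a2, a3⟩ <;> rcases h2 with ⟨b1, b2⟩ | ⟨b1, b, t, b2, b3⟩
    · exact a2.trans b2.symm
    · simp only [← a1, b2, b3, Multiset.sum_cons, Multiset.card_cons] at e1 e2; omega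
    · simp only [← b1, a2, a3, Multiset.sum_cons, Multiset.card_cons] at e1 e2; omega
    have o := od a1 _ (a3 ▸ Multiset.mem_cons_self _ _)
    obtain rfl : a = b := (Multiset.mem_cons.1 (b2 ▸ a2 ▸ Multiset.mem_cons_self a s)).resolve_right fun k => by
      have := od b1 _ (b3 ▸ Multiset.mem_cons_of_mem k); omega
    obtain rfl := (Multiset.cons_inj_right _).1 (a2.symm.trans b2)
    obtain ⟨g, g1, g2⟩ := conj_or (hr x) a1
    obtain ⟨u, u1, u2⟩ := conj_or (hr y) b1
    refine isConj_iff.2 ⟨⟨u⁻¹ * g, by simp [g1, u1]⟩, Subtype.ext ?_⟩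
    rw [a3, ← b3, ← u2] at g2
    exact (by rw [show u⁻¹ * g * x * (u⁻¹ * g)⁻¹ = u⁻¹ * (g * x * g⁻¹) * u by group, g2]; group :
      u⁻¹ * g * x * (u⁻¹ * g)⁻¹ = y)
  rw [cardS, ← Nat.card_range_of_injective inj, Nat.card_coe_set_eq]
  exact (Set.ncard_le_ncard (Set.range_subset_iff.2 f1) (Tfib n).1.diff).trans_lt
    (Set.ncard_diff_singleton_lt_of_mem (by simp [T]; omega) (Tfib n).1)

end Cfsg.Agent.S4198
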