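import Cfsg.Statements.S4200
import Cfsg.Agent.H1.Misc3

set_option autoImplicit false
open Cfsg

namespace Cfsg.Agent.S4200

open H1 Finset
theorem sumY {X : Type*} [Group X] [Fintype X] [DecidableEq X] (Y : Subgroup X) [DecidablePred (· ∈ Y)] :
    ∑ x : X, Nat.card (Y ⊓ Subgroup.centralizer {x} : Subgroup X) =
      ∑ y : Y, Nat.card (Subgroup.centralizer {(y : X)}) := by
  have h := sum_card_inf_centralizer_comm (univ : Finset X) (univ.filter (· ∈ Y))
  rw [Finset.sum_subtype (univ.filter (· ∈ Y)) (p := (· ∈ Y)) (by simp)] at h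
  convert h using 2 with x _ y _
  · exact Nat.subtype_card _ (by simp [Subgroup.mem_centralizer_singleton_iff, eq_comm])
  · exact Nat.subtype_card _ (by simp [Subgroup.mem_centralizer_singleton_iff, eq_comm])

/-- Let Y be a subgroup of the finite group X, of index m. Then the numbers of conjugacy classes satisfy k(Y) ≤ m·k(X) and k(X) ≤ m·k(Y), and the second inequality is strict unless Y is normal in X. -/
theorem result {X : Type*} [Group X] [Finite X] (Y : Subgroup X) : Nat.card (ConjClasses Y) ≤ Y.index * Nat.card (ConjClasses X) ∧ Nat.card (ConjClasses X) ≤ Y.index * Nat.card (ConjClasses Y) ∧ (¬ Y.Normal → Nat.card (ConjClasses X) < Y.index * Nat.card (ConjClasses Y)) := by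
  classical
  haveI := Fintype.ofFinite X
  have hX := sum_card_centralizer (G := X)
  have hY := sum_card_centralizer (G := Y)
  simp only [card_inf_centralizer_subtype] at hY
  have hc := Y.card_mul_index
  have h0 : 0 < Nat.card Y := Nat.card_pos
  have hm : 0 < Y.index := Nat.pos_of_ne_zero Subgroup.FiniteIndex.index_ne_zero
  have key : ∀ x : X, Nat.card (Subgroup.centralizer {x}) ≤
      Y.index * Nat.card (Y ⊓ Subgroup.centralizer {x} : Subgroup X) := by
    intro x
    rw [← card_inf_mul_relIndex Y, mul_comm]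
    refine Nat.mul_le_mul_right _ ?_
    rw [← Subgroup.relIndex_top_right]; exact relIndex_le_relIndex_of_le _ le_top
  have h1 : Nat.card (ConjClasses X) * Nat.card X ≤ Y.index * ∑ y : Y, Nat.card (Subgroup.centralizer {(y : X)}) := by
    rw [← hX, ← sumY, Finset.mul_sum]
    exact Finset.sum_le_sum fun x _ => key x
  refine ⟨?_, ?_, fun hn => ?_⟩
  · refine Nat.le_of_mul_le_mul_right ?_ h0
    rw [← hY, mul_comm Y.index, mul_assoc, mul_comm Y.index, hc, ← hX]
    calc _ ≤ ∑ y : Y, Nat.card (Subgroup.centralizer {(y : X)}) :=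
          Finset.sum_le_sum fun y _ => Subgroup.card_le_of_le inf_le_right
      _ = ∑ y ∈ univ.filter (· ∈ Y), Nat.card (Subgroup.centralizer {y}) :=
          (Finset.sum_subtype (univ.filter (· ∈ Y)) (p := (· ∈ Y)) (by simp)
            (fun y => Nat.card (Subgroup.centralizer {y}))).symm
      _ ≤ _ := Finset.sum_le_sum_of_subset (Finset.subset_univ _)
  · have h2 : ∑ y : Y, Nat.card (Subgroup.centralizer {(y : X)}) ≤ Y.index * (Nat.card (ConjClasses Y) * Nat.card Y) := by
      rw [← hY, Finset.mul_sum]
      exact Finset.sum_le_sum fun y _ => key y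
    refine Nat.le_of_mul_le_mul_right (c := Nat.card X) (h1.trans ((Nat.mul_le_mul_left _ h2).trans (le_of_eq ?_))) Nat.card_pos
    rw [← hc]; ring
  · have h2 : ∑ y : Y, Nat.card (Subgroup.centralizer {(y : X)}) < Y.index * (Nat.card (ConjClasses Y) * Nat.card Y) := by
      rw [← hY, Finset.mul_sum]
      refine Finset.sum_lt_sum (fun y _ => key y) ?_
      by_contra h
      push Not at h
      refine hn ⟨fun y hy g => ?_⟩
      have h3 := h ⟨y, hy⟩ (Finset.mem_univ _)
      have h4 : Fac Y (Subgroup.centralizer {y}) ⊤ := by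
        refine fac_of_card_le le_top le_top ?_
        rw [Subgroup.card_top, ← hc, mul_assoc]
        exact Nat.mul_le_mul_left _ h3
      obtain ⟨a, ha, b, hb, rfl⟩ := fac_top_iff.1 h4 g
      rw [Subgroup.mem_centralizer_singleton_iff] at hb
      have : a * b * y * (a * b)⁻¹ = a * y * a⁻¹ := by rw [mul_assoc a, hb]; group
      rw [this]; exact Y.mul_mem (Y.mul_mem ha hy) (Y.inv_mem ha)
    refine Nat.lt_of_mul_lt_mul_right (a := Nat.card X) (h1.trans_lt ((Nat.mul_lt_mul_of_pos_left h2 hm).trans_le (le_of_eq ?_)))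
    rw [← hc]; ring

end Cfsg.Agent.S4200
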