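import Cfsg.Statements.S4201
import Cfsg.Agent.H1.Misc3

set_option autoImplicit false
open Cfsg

namespace Cfsg.Agent.S4201

open H1 Finset

/-- If N is a normal subgroup of the finite group X then k(X) ≤ k(N)·k(X ⧸ N), where k denotes the number of conjugacy classes. -/
theorem result {X : Type*} [Group X] [Finite X] (N : Subgroup X) [N.Normal] : Nat.card (ConjClasses X) ≤ Nat.card (ConjClasses N) * Nat.card (ConjClasses (X ⧸ N)) := by
  classical
  haveI := Fintype.ofFinite X
  haveI := Fintype.ofFinite (X ⧸ N)
  have hX := sum_card_centralizer (G := X)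
  have hN := sum_card_centralizer (G := N)
  have hQ := sum_card_centralizer (G := X ⧸ N)
  simp only [card_inf_centralizer_subtype] at hN
  set f := QuotientGroup.mk' N
  have key : ∀ x : X, Nat.card (Subgroup.centralizer {x}) ≤
      Nat.card (N ⊓ Subgroup.centralizer {x} : Subgroup X) * Nat.card (Subgroup.centralizer {f x}) := by
    intro x
    rw [card_eq_card_ker_mul_card_map f, QuotientGroup.ker_mk']
    exact Nat.mul_le_mul_left _ (Subgroup.card_le_of_le (Subgroup.map_le_iff_le_comap.2 (centralizer_le_comap f x)))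
  have h2 : ∀ q : X ⧸ N, ∑ x ∈ univ.filter (f · = q), Nat.card (N ⊓ Subgroup.centralizer {x} : Subgroup X) ≤
      Nat.card (ConjClasses N) * Nat.card N := by
    intro q
    have h := sum_card_inf_centralizer_comm (univ.filter (f · = q)) (univ.filter (· ∈ N))
    rw [Finset.sum_subtype (univ.filter (· ∈ N)) (p := (· ∈ N)) (by simp)] at h
    rw [← hN]
    calc _ = _ := Finset.sum_congr rfl fun x _ =>
          Nat.subtype_card _ (by simp [Subgroup.mem_centralizer_singleton_iff, eq_comm])
      _ = _ := h
      _ ≤ _ := Finset.sum_le_sum fun n _ => ?_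
    rcases (({x ∈ univ.filter (f · = q) | (n : X) * x = x * n} : Finset X)).eq_empty_or_nonempty with h0 | ⟨c, hc⟩
    · rw [h0]; simp
    · rw [← Nat.card_eq_finsetCard]
      simp only [mem_filter, mem_univ, true_and] at hc
      refine Nat.card_le_card_of_injective (fun y => ⟨c⁻¹ * y, ?_⟩) ?_
      · obtain ⟨y, hy⟩ := y
        simp only [mem_filter, mem_univ, true_and] at hy
        refine ⟨QuotientGroup.eq.1 (hc.1.trans hy.1.symm), Subgroup.mul_mem _ (Subgroup.inv_mem _ ?_) ?_⟩
        · exact Subgroup.mem_centralizer_singleton_iff.2 hc.2.symm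
        · exact Subgroup.mem_centralizer_singleton_iff.2 hy.2.symm
      · intro a b hab
        exact Subtype.ext (mul_left_cancel (congrArg Subtype.val hab))
  refine Nat.le_of_mul_le_mul_right (c := Nat.card X) ?_ Nat.card_pos
  calc _ = _ := hX.symm
    _ ≤ _ := Finset.sum_le_sum fun x _ => key x
    _ = ∑ q : X ⧸ N, ∑ x ∈ univ.filter (f · = q), Nat.card (N ⊓ Subgroup.centralizer {x} : Subgroup X) *
          Nat.card (Subgroup.centralizer {f x}) := (Finset.sum_fiberwise _ _ _).symm
    _ ≤ ∑ q : X ⧸ N, Nat.card (ConjClasses N) * Nat.card N * Nat.card (Subgroup.centralizer {q}) := by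
        refine Finset.sum_le_sum fun q _ => ?_
        rw [Finset.sum_congr rfl fun x hx => by rw [(mem_filter.1 hx).2], ← Finset.sum_mul]
        exact Nat.mul_le_mul_right _ (h2 q)
    _ = _ := by
        rw [← Finset.mul_sum, hQ, Subgroup.card_eq_card_quotient_mul_card_subgroup N]; ring

end Cfsg.Agent.S4201
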