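import Cfsg.Statements.S4203
import Cfsg.Agent.H1.SylN
import Cfsg.Agent.H3.Galois

set_option autoImplicit false
open Cfsg

namespace Cfsg.Agent.S4203

open H1
open Subgroup in
theorem aux.{u} : ∀ (G : Type u) [Group G] [Finite G], (∀ M : Subgroup G, IsCoatom M →
    ∃ p : ℕ, p.Prime ∧ (M.index = p ∨ M.index = p ^ 2)) → Group.IsSolvable G := by
  apply group_induction
  intro G _ _ ih h
  rcases subsingleton_or_nontrivial G with _ | _
  · infer_instance
  obtain ⟨N, hN, h0, -, hmin⟩ := exists_minimal_normal_le (⊤ : Subgroup G) top_ne_bot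
  have h1 := ih _ (card_quotient_lt h0) fun M hM => by
    rw [← index_comap_of_surjective M (QuotientGroup.mk'_surjective N)]
    exact h _ (isCoatom_comap_of_surjective (QuotientGroup.mk'_surjective N) hM)
  suffices Group.IsSolvable N from isSolvable_of_normal_of_quotient N this h1
  have h2 : (Nat.card N).primeFactors.Nonempty := Nat.nonempty_primeFactors.2
    (one_lt_card_iff_ne_bot N |>.2 h0)
  obtain ⟨p, h3, h4⟩ := Finset.exists_max_image _ id h2
  have hp := Nat.prime_of_mem_primeFactors h3
  have := Fact.mk hp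
  obtain ⟨P, hP⟩ := exists_isSylowIn (p := p) N
  by_cases h5 : normalizer (P : Set G) = ⊤
  · rw [← (hmin P (normalizer_eq_top_iff.1 h5) hP.le).resolve_left (mt hP.eq_bot_iff.1
      (not_not.2 (Nat.dvd_of_mem_primeFactors h3)))]
    exact isSolvable_of_isPGroup hP.isPGroup
  obtain ⟨M, hM, h6⟩ := exists_coatom_ge h5
  obtain ⟨q, hq, h7⟩ := h M hM
  have h8 : M.relIndex N = M.index := by
    rw [← relIndex_sup_of_le le_rfl le_normalizer_of_normal, ← relIndex_top_right,
      top_le_iff.1 (hP.frattini_top.ge.trans (sup_le le_sup_right (h6.trans le_sup_left)))]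
  have h9 : M.index ≡ 1 [MOD p] := by
    have e1 := card_sylow_modEq_one p N
    have e2 := card_sylow_modEq_one p ↥(M ⊓ N)
    rw [hP.card_sylow_rel, ← inf_eq_left.2 h6, ← relIndex_inf_mul_relIndex, h8] at e1
    rw [(hP.of_le (le_inf (le_normalizer.trans h6) hP.le) inf_le_right).card_sylow_rel] at e2
    simpa using ((e2.mul_right _).symm.trans e1)
  have h10 : q ∣ Nat.card N := Dvd.dvd.trans (by rcases h7 with e | e <;> simp [e])
    (h8 ▸ relIndex_dvd_card M N)
  have h11 : q ≤ p := h4 q (Nat.mem_primeFactors.2 ⟨hq, h10, Nat.card_pos.ne'⟩)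
  have h12 := hq.two_le
  have h13 : p ∣ (q + 1) * (q - 1) := by
    rcases h7 with e | e
    · exact ((Nat.modEq_iff_dvd' hq.pos).1 (e ▸ h9).symm).mul_left _
    · simpa [← Nat.sq_sub_sq] using (Nat.modEq_iff_dvd' (pow_pos hq.pos 2)).1 (e ▸ h9).symm
  have h14 : p = q + 1 := by
    rcases hp.dvd_mul.1 h13 with e | e
    · refine (Nat.le_of_dvd (by omega) e).antisymm (h11.lt_of_ne ?_)
      rintro rfl
      exact hq.ne_one (by simpa using e)
    · have := Nat.le_of_dvd (by omega) e; omega
  obtain rfl : q = 2 := hq.eq_two_or_odd.resolve_right fun e => by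
    have := hp.eq_two_or_odd; omega
  refine H3.burnside_paqb (a := Nat.card N) (b := Nat.card N) Nat.prime_two Nat.prime_three
    ((Nat.dvd_iff_prime_pow_dvd_dvd _ _).2 fun s k hs h15 => ?_)
  rcases k with _ | k
  · simp
  have h16 : s ≤ p := h4 s (Nat.mem_primeFactors.2 ⟨hs, (dvd_pow_self s (by omega)).trans h15,
    Nat.card_pos.ne'⟩)
  have h17 := ((Nat.lt_pow_self hs.one_lt).trans_le (Nat.le_of_dvd Nat.card_pos h15)).le
  have := hs.two_le
  obtain rfl | rfl : s = 2 ∨ s = 3 := by omega
  · exact (pow_dvd_pow 2 h17).mul_right _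
  · exact (pow_dvd_pow 3 h17).mul_left _

/-- A finite group in which every maximal subgroup has index a prime or the square of a prime is solvable. -/
theorem result {G : Type*} [Group G] [Finite G] (h : ∀ M : Subgroup G, IsCoatom M → ∃ p : ℕ, p.Prime ∧ (M.index = p ∨ M.index = p ^ 2)) : Group.IsSolvable G := by
  exact aux G h

end Cfsg.Agent.S4203
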