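import Cfsg.Statements.S4204
import Cfsg.Agent.H1.HP

set_option autoImplicit false
open Cfsg

namespace Cfsg.Agent.S4204

open scoped commutatorElement
open H1

/-- If `H` and `K` are normal subgroups of a finite group with `H` nilpotent of class at most `c` and `K` nilpotent of class at most `d` (the terms with index `c`, respectively `d`, of their lower central series are trivial, indices starting at `0`), then `HK` is nilpotent of class at most `c + d`. -/
theorem result {G : Type*} [Group G] [Finite G] (H K : Subgroup G) [H.Normal] [K.Normal] (c d : ℕ) (hH : H.lowerCentralSeries c = ⊥) (hK : K.lowerCentralSeries d = ⊥) : (H ⊔ K).lowerCentralSeries (c + d) = ⊥ := by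
  open Subgroup in
  let A : Subgroup G → ℕ → Subgroup G := fun H i => if i = 0 then ⊤ else H.lowerCentralSeries (i - 1)
  have hA : ∀ (H : Subgroup G) [H.Normal] i, (A H i).Normal := fun H _ i => by
    simp only [A]; split_ifs <;> infer_instance
  have hc : ∀ (H : Subgroup G) [H.Normal] i, ⁅A H i, H⁆ ≤ A H (i + 1) := fun H _ i => by
    rcases i with _ | i
    · exact commutator_le_right _ _
    · exact le_rfl
  suffices ∀ n (N : Subgroup G) [N.Normal], (∀ i j, i + j = n + 1 → A H i ⊓ A K j ≤ N) →
      (H ⊔ K).lowerCentralSeries n ≤ N from eq_bot_iff.2 (this _ _ fun i j e => by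
    rcases le_or_gt i c with h | h
    · exact inf_le_right.trans ((if_neg (by omega)).le.trans
        ((K.lowerCentralSeries_antitone (by omega)).trans hK.le))
    · exact inf_le_left.trans ((if_neg (by omega)).le.trans
        ((H.lowerCentralSeries_antitone (by omega)).trans hH.le)))
  intro n
  induction n with
  | zero =>
    intro N _ h
    exact sup_le (by simpa [A] using h 1 0 rfl) (by simpa [A] using h 0 1 rfl)
  | succ n ih =>
    intro N _ h
    have key : ∀ X : Subgroup G, X ≤ (centralizer ((H ⊔ K).map (QuotientGroup.mk' N) : Set (G ⧸ N))
        ).comap (QuotientGroup.mk' N) ↔ ⁅X, H ⊔ K⁆ ≤ N := fun X => by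
      rw [← map_le_iff_le_comap, ← commutator_eq_bot_iff_le_centralizer, ← map_commutator,
        Subgroup.map_eq_bot_iff, QuotientGroup.ker_mk']
    refine (key _).1 (ih _ fun i j e => (key _).2 ((commutator_comm_le _ _).trans
      (H9.commutator_sup_le le_normalizer_of_normal le_normalizer_of_normal ?_ ?_)))
    · have := hA K j
      exact (le_inf ((commutator_comm_le _ _).trans ((commutator_mono inf_le_left le_rfl).trans
        (hc H i))) ((commutator_mono le_rfl inf_le_right).trans (commutator_le_right _ _))).trans
          (h _ _ (by omega))
    · have := hA H i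
      exact (le_inf ((commutator_mono le_rfl inf_le_left).trans (commutator_le_right _ _))
        ((commutator_comm_le _ _).trans ((commutator_mono inf_le_right le_rfl).trans
          (hc K j)))).trans (h _ _ (by omega))

end Cfsg.Agent.S4204
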