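import Cfsg.Statements.S4205
import Cfsg.Agent.H1.Basic

set_option autoImplicit false
open Cfsg

namespace Cfsg.Agent.S4205

/-- In a finite group whose upper central series reaches the whole group at step `c` (nilpotent of class at most `c`), starting from any subgroup and taking normalizers `c` times reaches the whole group. -/
theorem result {G : Type*} [Group G] [Finite G] (c : ℕ) (hG : Subgroup.upperCentralSeries G c = ⊤) (H : Subgroup G) : (fun K : Subgroup G => Subgroup.normalizer (K : Set G))^[c] H = ⊤ := by
  have : ∀ n, Subgroup.upperCentralSeries G n ⊔ H ≤ (fun K : Subgroup G => Subgroup.normalizer (K : Set G))^[n] H := by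
    intro n
    induction n with
    | zero => simp
    | succ n ih =>
      rw [Function.iterate_succ_apply']
      refine sup_le (fun x hx => ?_) ((le_sup_right.trans ih).trans Subgroup.le_normalizer)
      rw [H1.mem_normalizer_iff_conj_mem]
      intro y hy
      have h1 := (le_sup_left.trans ih) (Subgroup.mem_upperCentralSeries_succ_iff.1 hx y)
      have : x * y * x⁻¹ = x * y * x⁻¹ * y⁻¹ * y := by group
      rw [this]; exact Subgroup.mul_mem _ h1 hy
  exact top_le_iff.1 (hG ▸ le_sup_left.trans (this c))

end Cfsg.Agent.S4205
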