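import Cfsg.Statements.S4211
import Cfsg.Agent.H9.Rad
import Cfsg.Agent.L.PG1
import Cfsg.Agent.H5.Dih

set_option autoImplicit false
open Cfsg

namespace Cfsg.Agent.S4211

open Subgroup
open scoped commutatorElement

section
variable {G : Type*} [Group G] [Finite G]

theorem two {t c : G} (h : t ^ 2 = 1) (hc : c ∈ zpowers t) : c = 1 ∨ c = t := by
  obtain ⟨j, rfl⟩ := mem_powers_iff_mem_zpowers.2 hc
  simp only [pow_eq_pow_mod j h]
  rcases Nat.mod_two_eq_zero_or_one j with e | e <;> simp [e]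

theorem sub {p m : ℕ} (hp : p.Prime) {x c : G} (h : orderOf x = p ^ (m + 1)) (hc : c ∈ zpowers x) (h1 : orderOf c = p) :
    zpowers c = zpowers (x ^ p ^ m) := by
  obtain ⟨j, rfl⟩ := mem_powers_iff_mem_zpowers.2 hc
  obtain ⟨k, rfl⟩ : p ^ m ∣ j := Nat.dvd_of_mul_dvd_mul_right hp.pos (by
    rw [← pow_succ, ← h, orderOf_dvd_iff_pow_eq_one, pow_mul, ← h1]; exact pow_orderOf_eq_one _)
  refine eq_of_le_of_card_ge (zpowers_le.2 (by simp only [pow_mul]; exact npow_mem_zpowers _ k)) ?_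
  rw [Nat.card_zpowers, Nat.card_zpowers, h1]
  exact orderOf_le_of_pow_eq_one hp.pos (by rw [← pow_mul, ← pow_succ, ← h, pow_orderOf_eq_one])

variable (hn : ∀ H : Subgroup G, H.Normal)
include hn

theorem pm {u : G} (h : u ^ 4 = 1) (g : G) : g * u * g⁻¹ = u ∨ g * u * g⁻¹ = u⁻¹ := by
  obtain ⟨j, e⟩ := mem_powers_iff_mem_zpowers.2 ((hn _).conj_mem u (mem_zpowers u) g)
  simp only [pow_eq_pow_mod j h] at e
  have := Nat.mod_lt j four_pos
  generalize j % 4 = i at *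
  interval_cases i
  · left; rw [conj_eq_one_iff.1 (e.symm.trans (pow_zero u))]; simp
  · exact Or.inl (e.symm.trans (pow_one u))
  · have k : u ^ 2 = 1 := conj_eq_one_iff.1 (by rw [← conj_pow, ← e, ← pow_mul, h] : g * u ^ 2 * g⁻¹ = 1)
    left; rw [conj_eq_one_iff.1 (e.symm.trans k)]; simp
  · exact Or.inr (e.symm.trans (eq_inv_of_mul_eq_one_left (by rw [← pow_succ, h])))

theorem cen {u : G} (h : u ^ 2 = 1) (g : G) : Commute g u := by
  have := pm hn (u := u) (by rw [show 4 = 2 * 2 from rfl, pow_mul, h, one_pow]) g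
  rw [show u⁻¹ = u from inv_eq_of_mul_eq_one_left (pow_two u ▸ h), or_self] at this
  exact mul_inv_eq_iff_eq_mul.1 this

theorem key {S : Subgroup G} {x y : G} (hx : x ∈ S) (hy : y ∈ S) (hc : ¬ Commute x y)
    (hm : ∀ a ∈ S, ∀ b ∈ S, orderOf a + orderOf b < orderOf x + orderOf y → Commute a b) (hle : orderOf y ≤ orderOf x) :
    orderOf x = 4 ∧ y * y = x ^ 2 := by
  have c1 : ⁅x, y⁆ ∈ zpowers x := by
    simpa [commutatorElement_def, mul_assoc] using mul_mem (mem_zpowers x) ((hn _).conj_mem _ (inv_mem (mem_zpowers x)) y)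
  have c2 : ⁅x, y⁆ ∈ zpowers y := mul_mem ((hn _).conj_mem _ (mem_zpowers y) x) (inv_mem (mem_zpowers y))
  have c0 : ⁅x, y⁆ ≠ 1 := mt commutatorElement_eq_one_iff_commute.1 hc
  have cx : Commute x ⁅x, y⁆ := by obtain ⟨k, e⟩ := c1; exact e ▸ Commute.self_zpow x k
  have cy : Commute y ⁅x, y⁆ := by obtain ⟨k, e⟩ := c2; exact e ▸ Commute.self_zpow y k
  have lt : ∀ {z : G} {q : ℕ}, q.Prime → q ∣ orderOf z → orderOf (z ^ q) < orderOf z := fun hq h => by
    rw [orderOf_pow_of_dvd hq.ne_zero h]; exact Nat.div_lt_self (orderOf_pos _) hq.one_lt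
  have o1 : ∀ {q : ℕ}, q.Prime → q ∣ orderOf x → q = orderOf ⁅x, y⁆ := fun {q} hq h => by
    haveI := Fact.mk hq
    refine (orderOf_eq_prime ?_ c0).symm
    rw [← L.commutatorElement_pow_left cx, commutatorElement_eq_one_iff_commute]
    exact hm _ (pow_mem hx q) _ hy (by have := lt hq h; omega)
  have o2 : ∀ {q : ℕ}, q.Prime → q ∣ orderOf y → q = orderOf ⁅x, y⁆ := fun {q} hq h => by
    haveI := Fact.mk hq
    refine (orderOf_eq_prime ?_ c0).symm
    rw [← L.commutatorElement_pow_right cy, commutatorElement_eq_one_iff_commute]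
    exact hm _ hx _ (pow_mem hy q) (by have := lt hq h; omega)
  have x1 : orderOf x ≠ 1 := fun h => hc (orderOf_eq_one_iff.1 h ▸ Commute.one_left y)
  have y1 : orderOf y ≠ 1 := fun h => hc (orderOf_eq_one_iff.1 h ▸ Commute.one_right x)
  have hp : (orderOf ⁅x, y⁆).Prime := o1 (Nat.minFac_prime x1) (Nat.minFac_dvd _) ▸ Nat.minFac_prime x1
  obtain ⟨a, ha⟩ : ∃ a, orderOf x = orderOf ⁅x, y⁆ ^ a := ⟨_, Nat.eq_prime_pow_of_unique_prime_dvd (orderOf_pos x).ne' o1⟩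
  obtain ⟨b, hb⟩ : ∃ a, orderOf y = orderOf ⁅x, y⁆ ^ a := ⟨_, Nat.eq_prime_pow_of_unique_prime_dvd (orderOf_pos y).ne' o2⟩
  generalize hq : orderOf ⁅x, y⁆ = p at *
  obtain _ | m := a
  · exact absurd ha x1
  obtain _ | n := b
  · exact absurd hb y1
  have s1 := sub hp ha c1 hq
  have s2 := sub hp hb c2 hq
  obtain ⟨d, rfl⟩ : ∃ d, m = d + n := ⟨m - n, by
    have := (Nat.pow_le_pow_iff_right hp.one_lt).1 (ha ▸ hb ▸ hle); omega⟩
  obtain ⟨k, hk⟩ := mem_powers_iff_mem_zpowers.2 (s1 ▸ s2 ▸ inv_mem (mem_zpowers (y ^ p ^ n)))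
  have r := L.mul_pow_class2 (x := y) (y := x ^ (p ^ d * k)) (z := ⁅x, y⁆ ^ (p ^ d * k)) (by
    rw [mul_assoc, ((cx.pow_pow _ _).eq), ← mul_assoc, (cy.pow_right _).eq, ← L.commutatorElement_pow_left cx,
      commutatorElement_def]; group) (cy.pow_right _) (cx.pow_pow _ _) (p ^ n)
  rw [← pow_mul, mul_right_comm, ← pow_add, pow_mul, pow_mul x, show (x ^ p ^ (d + n)) ^ k = _ from hk, mul_inv_cancel,
    one_mul, ← pow_mul ⁅x, y⁆] at r
  have nd : ¬ p ∣ p ^ d * k * (p ^ n).choose 2 := fun h => by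
    rw [orderOf_dvd_iff_pow_eq_one.1 (hq.dvd.trans h)] at r
    have := orderOf_le_of_pow_eq_one (pow_pos hp.pos n) r
    have h2 := hm x hx _ (mul_mem hy (pow_mem hx (p ^ d * k))) (by
      have := Nat.pow_lt_pow_right hp.one_lt n.lt_add_one; rw [pow_mul]; omega)
    exact hc (by simpa using h2.mul_right (Commute.self_pow x (p ^ d * k)).inv_right)
  obtain rfl : d = 0 := by_contra fun h => nd (((dvd_pow_self p h).mul_right _).mul_right _)
  have n0 : n ≠ 0 := by rintro rfl; exact nd (by simp)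
  obtain rfl : p = 2 := by_contra fun h => nd (Dvd.dvd.mul_left ((dvd_pow_self p n0).trans
    (L.dvd_choose_two (hp.odd_of_ne_two h).pow)) _)
  obtain rfl : n = 1 := by_contra fun h => nd (Dvd.dvd.mul_left (L.two_dvd_choose_two n0 fun e =>
    h (Nat.pow_right_injective le_rfl e)) _)
  refine ⟨ha, ?_⟩
  rw [← pow_two, ← (two (t := x ^ 2) (by rw [← pow_mul]; exact orderOf_dvd_iff_pow_eq_one.1 ha.dvd) (s1 ▸ mem_zpowers _)).resolve_left c0,
    ← (two (t := y ^ 2) (by rw [← pow_mul]; exact orderOf_dvd_iff_pow_eq_one.1 hb.dvd) (s2 ▸ mem_zpowers _)).resolve_left c0]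

theorem key' {S : Subgroup G} (h : ¬ IsMulCommutative S) :
    ∃ x ∈ S, ∃ y, ¬ Commute x y ∧ orderOf x = 4 ∧ y * y = x ^ 2 := by
  classical
  have ex : ∃ n, ∃ x ∈ S, ∃ y ∈ S, ¬ Commute x y ∧ orderOf x + orderOf y = n := by
    by_contra! k
    exact h ⟨⟨fun a b => Subtype.ext (by_contra fun e => k _ a a.2 b b.2 e rfl)⟩⟩
  obtain ⟨x, hx, y, hy, h1, h2⟩ := Nat.find_spec ex
  have hm : ∀ a ∈ S, ∀ b ∈ S, orderOf a + orderOf b < orderOf x + orderOf y → Commute a b := fun a ha b hb l =>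
    by_contra fun e => Nat.find_min ex (h2 ▸ l) ⟨a, ha, b, hb, e, rfl⟩
  rcases le_total (orderOf y) (orderOf x) with l | l
  · exact ⟨x, hx, y, h1, key hn hx hy h1 hm l⟩
  · exact ⟨y, hy, x, mt Commute.symm h1, key hn hy hx (mt Commute.symm h1) (add_comm (orderOf x) _ ▸ hm) l⟩
end

/-- A finite non-abelian group in which every subgroup is normal is the internal direct product of a subgroup isomorphic to the quaternion group of order `8`, an elementary abelian `2`-subgroup and an abelian subgroup of odd order. -/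
theorem result {G : Type*} [Group G] [Finite G] (hna : ¬ IsMulCommutative G) (hn : ∀ H : Subgroup G, H.Normal) : ∃ Q E A : Subgroup G, Nonempty (Q ≃* QuaternionGroup 2) ∧ Cfsg.IsElementaryAbelian 2 E ∧ IsMulCommutative A ∧ Odd (Nat.card A) ∧ E ⊓ A = ⊥ ∧ Q ⊓ (E ⊔ A) = ⊥ ∧ Q ⊔ (E ⊔ A) = ⊤ := by
  obtain ⟨x, -, y, h1, h2, h3⟩ := key' hn (S := ⊤) fun h => hna ⟨⟨fun a b => congrArg Subtype.val
    (h.is_comm.comm ⟨a, trivial⟩ ⟨b, trivial⟩)⟩⟩
  have x4 : x ^ 4 = 1 := h2 ▸ pow_orderOf_eq_one x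
  have y4 : y ^ 4 = 1 := by rw [show 4 = 2 * 2 from rfl, pow_mul, pow_two y, h3, ← pow_mul]; exact x4
  have c2 : (x ^ 2) ^ 2 = 1 := by rw [← pow_mul]; exact x4
  have c1 : x ^ 2 ≠ 1 := pow_ne_one_of_lt_orderOf two_ne_zero (by omega)
  have h4 := (pm hn x4 y).resolve_left fun h => h1 (mul_inv_eq_iff_eq_mul.1 h).symm
  have h5 := (pm hn y4 x).resolve_left fun h => h1 (mul_inv_eq_iff_eq_mul.1 h)
  obtain ⟨e⟩ := H5.quat_equiv_closure two_ne_zero x y h2 h3 h4 (by rintro ⟨k, rfl⟩; exact h1 (Commute.self_zpow x k))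
  have qx : x ∈ closure {x, y} := subset_closure (by simp)
  have qy : y ∈ closure {x, y} := subset_closure (by simp)
  generalize closure {x, y} = Q at *
  obtain ⟨E, -, ⟨e1, e2⟩, e3⟩ := Finite.exists_le_maximal (p := fun E : Subgroup G => (∀ a ∈ E, a ^ 2 = 1) ∧ x ^ 2 ∉ E)
    (a := ⊥) ⟨by simp, c1⟩
  have a1 := H9.Op'_cop 2 (⊤ : Subgroup G)
  have a2 : ∀ g : G, (orderOf g).Coprime 2 → g ∈ H9.Op' 2 ⊤ := fun g h => zpowers_le.1
    (haveI := hn (zpowers g); H9.le_Op' le_top le_normalizer_of_normal (by rwa [Nat.card_zpowers]))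
  generalize H9.Op' 2 (⊤ : Subgroup G) = A at *
  have a3 : ∀ a ∈ A, ∀ k, a ^ 2 ^ k = 1 → a = 1 := fun a ha k h => orderOf_eq_one_iff.1 (Nat.Coprime.eq_one_of_dvd
    ((a1.coprime_dvd_left (A.orderOf_dvd_natCard ha)).pow_right k) (orderOf_dvd_of_pow_eq_one h))
  haveI := hn
  refine ⟨Q, E, A, ⟨e⟩, ⟨⟨⟨fun a b => Subtype.ext (cen hn (e1 _ b.2) _)⟩⟩, e1⟩, by_contra fun h => ?_,
    Nat.coprime_two_right.1 a1, eq_bot_iff.2 fun g hg => a3 g hg.2 1 (e1 g hg.1), eq_bot_iff.2 fun g hg => ?_,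
    eq_top_iff.2 fun g _ => ?_⟩
  · obtain ⟨u, hu, -, -, k, -⟩ := key' hn h
    simp [a3 u hu 2 (orderOf_dvd_iff_pow_eq_one.1 k.dvd)] at k
  · obtain ⟨u, hu, a, ha, rfl⟩ := mem_sup_of_normal_left.1 hg.2
    have k : (u * a) ^ 4 = 1 := congrArg Subtype.val (e.injective (a₁ := ⟨_, hg.1⟩ ^ 4) (a₂ := 1) (by
      rw [map_pow, map_one]; generalize e _ = v; revert v; decide))
    rw [(cen hn (e1 u hu) a).symm.mul_pow, show 4 = 2 * 2 from rfl, pow_mul u, e1 u hu, one_pow, one_mul] at k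
    obtain rfl := a3 a ha 2 k
    rw [mul_one] at hg ⊢
    by_contra u1
    refine e2 ((show u = x ^ 2 from congrArg Subtype.val (e.injective (a₁ := ⟨u, hg.1⟩) (a₂ := ⟨_, pow_mem qx 2⟩) ?_)) ▸ hu)
    refine (by decide : ∀ v w : QuaternionGroup 2, v ^ 2 = 1 → w ^ 2 = 1 → v ≠ 1 → w ≠ 1 → v = w) _ _ ?_ ?_ ?_ ?_
    · rw [← map_pow, ← map_one e]; exact congrArg e (Subtype.ext (e1 u hu))
    · rw [← map_pow, ← map_one e]; exact congrArg e (Subtype.ext c2)
    · exact fun h => u1 (congrArg Subtype.val (e.map_eq_one_iff.1 h))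
    · exact fun h => c1 (congrArg Subtype.val (e.map_eq_one_iff.1 h))
  have t1 : ∀ g : G, g ^ 2 = 1 → g ∈ Q ⊔ (E ⊔ A) := fun g hg => by
    by_cases k : x ^ 2 ∈ E ⊔ zpowers g
    · obtain ⟨u, hu, a, ha, l⟩ := mem_sup_of_normal_left.1 k
      rcases two hg ha with rfl | rfl
      · exact absurd (l ▸ mul_mem hu E.one_mem) e2
      · rw [eq_inv_mul_of_mul_eq l]
        exact mul_mem (inv_mem (mem_sup_right (mem_sup_left hu))) (mem_sup_left (pow_mem qx 2))
    · refine mem_sup_right (mem_sup_left (e3 ⟨fun a ha => ?_, k⟩ le_sup_left (mem_sup_right (mem_zpowers g))))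
      obtain ⟨u, hu, b, hb, rfl⟩ := mem_sup_of_normal_left.1 ha
      rcases two hg hb with rfl | rfl
      · simpa using e1 u hu
      · rw [(cen hn hg u).mul_pow, e1 u hu, hg, one_mul]
  have t2 : ∀ h : G, Commute h x → Commute h y → ∀ k, h ^ 2 ^ k = 1 → h ^ 2 = 1 := fun h k1 k2 k => by
    induction k generalizing h with
    | zero => intro e; rw [pow_zero, pow_one] at e; simp [e]
    | succ k ih =>
      intro e
      have := ih (h ^ 2) (k1.pow_left 2) (k2.pow_left 2) (by rw [← pow_mul, ← pow_succ', e])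
      have r : y * (x * h) * y⁻¹ = x⁻¹ * h := by rw [← h4, mul_assoc (y * x), k2.inv_right.eq.symm]; group
      rcases pm hn (u := x * h) (by rw [k1.symm.mul_pow, x4, one_mul]; exact (pow_mul h 2 2).trans this) y with s | s
      · exact absurd (by rw [pow_two]; exact mul_eq_one_iff_eq_inv.2 (mul_right_cancel (r.symm.trans s)).symm) c1
      · rw [r, ← k1.eq, mul_inv_rev, mul_right_inj] at s
        rw [pow_two]; exact mul_eq_one_iff_eq_inv.2 s
  have t3 : ∀ h : G, Commute h x → Commute h y → h ∈ Q ⊔ (E ⊔ A) := fun h k1 k2 => by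
    obtain ⟨k, m, hm, e⟩ := Nat.exists_eq_two_pow_mul_odd (orderOf_pos h).ne'
    have s := t2 (h ^ m) (k1.pow_left m) (k2.pow_left m) k (by rw [← pow_mul, mul_comm, ← e, pow_orderOf_eq_one])
    have s2 := a2 (h ^ 2) ((Nat.coprime_two_right.2 hm).coprime_dvd_left (orderOf_dvd_of_pow_eq_one (by
      rw [← pow_mul, mul_comm, pow_mul, s])))
    obtain ⟨j, rfl⟩ := hm
    have := t1 _ s
    rwa [pow_succ, pow_mul, Subgroup.mul_mem_cancel_left _ (pow_mem (mem_sup_right (mem_sup_right s2)) j)] at this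
  have cm : ∀ {a b : G}, a * b * a⁻¹ = b → Commute a b := fun h => mul_inv_eq_iff_eq_mul.1 h
  have qx' : x ∈ Q ⊔ (E ⊔ A) := mem_sup_left qx
  have qy' : y ∈ Q ⊔ (E ⊔ A) := mem_sup_left qy
  have cj : ∀ a b u : G, a * b * u * (a * b)⁻¹ = a * (b * u * b⁻¹) * a⁻¹ := fun a b u => by group
  have ci : ∀ {a b : G}, a * b * a⁻¹ = b⁻¹ → a * b⁻¹ * a⁻¹ = b := fun h => by rw [← conj_inv, h, inv_inv]
  rcases pm hn x4 g with k1 | k1 <;> rcases pm hn y4 g with k2 | k2
  · exact t3 g (cm k1) (cm k2)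
  · exact (Subgroup.mul_mem_cancel_left _ qx').1 (t3 (x * g) (cm (by rw [cj, k1]; group)) (cm (by rw [cj, k2, ci h5])))
  · exact (Subgroup.mul_mem_cancel_left _ qy').1 (t3 (y * g) (cm (by rw [cj, k1, ci h4])) (cm (by rw [cj, k2]; group)))
  · exact (Subgroup.mul_mem_cancel_left _ (mul_mem qx' qy')).1 (t3 (x * y * g) (cm (by rw [cj, k1, cj, ci h4]; group))
      (cm (by rw [cj, k2, cj, mul_inv_cancel, one_mul, ci h5])))

end Cfsg.Agent.S4211
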