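import Cfsg.Statements.S4212
import Cfsg.Agent.H1.Root

set_option autoImplicit false
open Cfsg

namespace Cfsg.Agent.S4212

open H1

/-- Let `G` be a finite group of order `g`, `c` an element whose conjugacy class has `h` elements, and `n` a natural number. Then the number of elements `x` of `G` with `x^n` conjugate to `c` is a multiple of `gcd(hn, g)`. -/
theorem result {G : Type*} [Group G] [Finite G] (c : G) (n : ℕ) : Nat.gcd (Nat.card {y : G // IsConj c y} * n) (Nat.card G) ∣ Nat.card {x : G // IsConj c (x ^ n)} := by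
  have := Fintype.ofFinite {y : G // IsConj c y}
  have h1 : Nat.card {x : G // IsConj c (x ^ n)} =
      Nat.card {y : G // IsConj c y} * {x : G | x ^ n = c}.ncard := by
    rw [Nat.card_congr (Equiv.sigmaFiberEquiv fun x : {x : G // IsConj c (x ^ n)} =>
      (⟨_, x.2⟩ : {y : G // IsConj c y})).symm, Nat.card_sigma, Nat.card_eq_fintype_card,
      ← smul_eq_mul, ← Finset.card_univ, ← Finset.sum_const]
    refine Finset.sum_congr rfl fun ⟨y, hy⟩ _ => ?_
    obtain ⟨g, rfl⟩ := isConj_iff.1 hy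
    refine (Nat.card_eq_of_bijective (fun x : {x : G | x ^ n = c} => (⟨⟨g * x * g⁻¹, by
      rw [conj_pow, x.2]; exact hy⟩, Subtype.ext (by simp only [conj_pow]; rw [x.2])⟩ :
        {x : {x : G // IsConj c (x ^ n)} // (⟨_, x.2⟩ : {y : G // IsConj c y}) = ⟨_, hy⟩}))
      ⟨fun a b h => Subtype.ext (by
        have : g * a * g⁻¹ = g * b * g⁻¹ := congrArg (·.1.1) h
        simpa using this), fun ⟨⟨x, _⟩, h⟩ =>
        ⟨⟨g⁻¹ * x * g⁻¹⁻¹, ?_⟩, by simp [mul_assoc]⟩⟩).symm
    rw [Set.mem_setOf, conj_pow, show x ^ n = _ from congrArg Subtype.val h]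
    group
  rw [h1, ← (Subgroup.centralizer {c}).index_mul_card, H5.index_centralizer_eq]
  change Nat.gcd (Nat.card {y : G // IsConj c y} * n) (Nat.card {y : G // IsConj c y} * _) ∣ _
  rw [Nat.gcd_mul_left]
  exact Nat.mul_dvd_mul_left _ (gcd_dvd_roots c n)

end Cfsg.Agent.S4212
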