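import Cfsg.Statements.S4213
import Cfsg.Agent.H1.Root

set_option autoImplicit false
open Cfsg

namespace Cfsg.Agent.S4213

open H1
open Subgroup in
theorem aux.{u} : ∀ (G : Type u) [Group G] [Finite G], Group.IsSolvable G → ∀ n, n ∣ Nat.card G →
    {x : G | x ^ n = 1}.ncard = n → ∃ H : Subgroup G, (H : Set G) = {x : G | x ^ n = 1} := by
  apply group_induction
  intro G _ _ ih hs n hn h
  rcases subsingleton_or_nontrivial G with _ | _
  · exact ⟨⊤, by ext; simp [Subsingleton.elim _ (1 : G)]⟩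
  have h0 : 0 < n := Nat.pos_of_dvd_of_pos hn Nat.card_pos
  have fin : ∀ K : Subgroup G, Nat.card K = n → (∀ x ∈ K, x ^ n = 1) →
      ∃ H : Subgroup G, (H : Set G) = {x : G | x ^ n = 1} := fun K h1 h2 =>
    ⟨K, Set.eq_of_subset_of_ncard_le h2 (h.trans h1.symm).le⟩
  obtain ⟨N, p, hp, hN, h1, -, -, h2, -⟩ := exists_minimal_normal_elementary (⊤ : Subgroup G)
    inferInstance top_ne_bot
  have := Fact.mk hp
  have hNp : IsPGroup p N := fun x => ⟨1, Subtype.ext (by simpa using h2 x x.2)⟩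
  obtain ⟨i, hi⟩ := L.exists_card_eq_pow hNp
  let f := QuotientGroup.mk' N
  have hq : ∀ u, u ∣ N.index → {x : G ⧸ N | x ^ u = 1}.ncard ≤ u →
      ∃ H : Subgroup G, N ≤ H ∧ Nat.card H = Nat.card N * u ∧ ∀ x ∈ H, x ^ u ∈ N := fun u h3 h4 => by
    have h5 := gcd_dvd_roots (1 : G ⧸ N) u
    rw [show centralizer {(1 : G ⧸ N)} = ⊤ by ext; simp [mem_centralizer_singleton_iff],
      card_top, ← index_eq_card, Nat.gcd_eq_left h3] at h5
    have h6 := h4.antisymm (Nat.le_of_dvd ((Set.ncard_pos).2 ⟨1, one_pow u⟩) h5)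
    obtain ⟨H, hH⟩ := ih _ (card_quotient_lt h1) inferInstance u h3 h6
    have h7 : N ≤ H.comap f := (QuotientGroup.ker_mk' N).ge.trans (ker_le_comap _ _)
    refine ⟨H.comap f, h7, ?_, fun x hx => (QuotientGroup.eq_one_iff _).1 (hH.le hx)⟩
    rw [← card_mul_relIndex h7, ← h6, ← hH]
    nth_rw 2 [← QuotientGroup.ker_mk' N]
    rw [relIndex_ker, map_comap_eq_self_of_surjective (QuotientGroup.mk'_surjective N)]
    rfl
  by_cases h3 : p ∣ n
  · have h4 : ∀ u, u * p ∣ n → Nat.card N * {x : G ⧸ N | x ^ u = 1}.ncard ≤ n := fun u h4 => by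
      rw [← h, ← Nat.card_coe_set_eq, ← QuotientGroup.card_preimage_mk]
      refine Set.ncard_le_ncard fun x hx => L.pow_eq_one_of_dvd ?_ h4
      rw [pow_mul]
      exact h2 _ ((QuotientGroup.eq_one_iff _).1 hx)
    obtain ⟨i, rfl⟩ := Nat.exists_eq_succ_of_ne_zero (show i ≠ 0 by
      rintro rfl; exact h1 (card_eq_one.1 hi))
    by_cases h5 : Nat.card N ∣ n
    · obtain ⟨u, rfl⟩ := h5
      have h6 : u * p ∣ Nat.card N * u := by
        rw [mul_comm, hi]; exact Nat.mul_dvd_mul_right (dvd_pow_self p (by omega)) u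
      obtain ⟨H, -, h7, h8⟩ := hq u (Nat.dvd_of_mul_dvd_mul_left Nat.card_pos
        (by rwa [card_mul_index])) (Nat.le_of_mul_le_mul_left (h4 u h6) Nat.card_pos)
      refine fin H h7 fun x hx => L.pow_eq_one_of_dvd ?_ h6
      rw [pow_mul]; exact h2 _ (h8 x hx)
    · exfalso
      obtain ⟨j, u, h6, rfl⟩ := Nat.exists_eq_pow_mul_and_not_dvd h0.ne' p hp.ne_one
      have h7 : u ∣ N.index := Nat.Coprime.dvd_of_dvd_mul_left (hi ▸ (hp.coprime_iff_not_dvd.2
        h6).symm.pow_right _) (by rw [card_mul_index]; exact (dvd_mul_left _ _).trans hn)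
      have h8 := gcd_dvd_roots (1 : G ⧸ N) u
      rw [show centralizer {(1 : G ⧸ N)} = ⊤ by ext; simp [mem_centralizer_singleton_iff],
        card_top, ← index_eq_card, Nat.gcd_eq_left h7] at h8
      have h10 := Nat.mul_dvd_mul_right ((hp.coprime_iff_not_dvd.2 h6).dvd_of_dvd_mul_right h3) u
      rw [mul_comm p] at h10
      have h11 : 0 < {x : G ⧸ N | x ^ u = 1}.ncard := (Set.ncard_pos (Set.toFinite _)).2 ⟨1, one_pow u⟩
      have h9 : Nat.card N * u ≤ p ^ j * u :=
        le_trans (Nat.mul_le_mul_left (Nat.card N) (Nat.le_of_dvd h11 h8)) (h4 u h10)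
      rw [Nat.mul_le_mul_right_iff (Nat.pos_of_mul_pos_left h0), hi,
        Nat.pow_le_pow_iff_right hp.one_lt] at h9
      exact h5 (hi ▸ (pow_dvd_pow p h9).mul_right u)
  have h4 : (Nat.card N).Coprime n := hi ▸ (hp.coprime_iff_not_dvd.2 h3).pow_left _
  obtain ⟨H, h5, h6, -⟩ := hq n (h4.symm.dvd_of_dvd_mul_left (by rwa [card_mul_index])) (by
    refine (Set.ncard_le_ncard (t := f '' {x : G | x ^ n = 1}) fun y hy => ?_).trans
      ((Set.ncard_image_le (Set.toFinite _)).trans h.le)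
    obtain ⟨y, rfl⟩ := QuotientGroup.mk'_surjective N y
    obtain ⟨e, h5, h6⟩ := Nat.chineseRemainder (hp.coprime_iff_not_dvd.2 h3) 0 1
    refine ⟨y ^ e, ?_, ?_⟩
    · rw [Set.mem_setOf, ← pow_mul, mul_comm, pow_mul]
      exact L.pow_eq_one_of_dvd (h2 _ ((QuotientGroup.eq_one_iff _).1 hy))
        (Nat.modEq_zero_iff_dvd.1 h5)
    · rw [map_pow]
      exact (pow_eq_pow_iff_modEq.2 (h6.of_dvd (orderOf_dvd_of_pow_eq_one hy))).trans (pow_one _))
  have h7 : N.relIndex H = n := Nat.eq_of_mul_eq_mul_left Nat.card_pos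
    ((card_mul_relIndex h5).trans h6)
  obtain ⟨K, hK⟩ := exists_right_complement'_of_coprime (N := N.subgroupOf H)
    (by rwa [Nat.card_congr (subgroupOfEquivOfLe h5).toEquiv, ← relIndex, h7])
  have h8 : Nat.card (K.map H.subtype) = n := by
    rw [card_map_of_injective H.subtype_injective, ← hK.symm.index_eq_card, ← relIndex, h7]
  exact fin _ h8 fun x hx => h8 ▸ pow_card_eq_one_of_mem hx

/-- If `G` is a finite solvable group and `n` divides the order of `G` and exactly `n` elements `x` of `G` satisfy `x^n = 1`, then these elements form a normal subgroup. -/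
theorem result {G : Type*} [Group G] [Finite G] [Group.IsSolvable G] (n : ℕ) (hn : n ∣ Nat.card G) (hcount : Nat.card {x : G // x ^ n = 1} = n) : ∃ H : Subgroup G, H.Normal ∧ (H : Set G) = {x : G | x ^ n = 1} := by
  obtain ⟨H, hH⟩ := aux G inferInstance n hn hcount
  refine ⟨H, ⟨fun x hx g => hH.ge ?_⟩, hH⟩
  rw [Set.mem_setOf, conj_pow, hH.le hx]
  simp

end Cfsg.Agent.S4213
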