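import Cfsg.Statements.S4214
import Cfsg.Agent.H9.Cop
import Cfsg.Agent.H1.Primitive
import Cfsg.Agent.H1.Hall
import Cfsg.Agent.H2.Frobenius

set_option autoImplicit false
open Cfsg

namespace Cfsg.Agent.S4214

open Subgroup H9 Pointwise

universe u

theorem inner {G : Type*} [Group G] [Finite G] (S : Submonoid ℕ) (V A : Subgroup G) (hA : Group.IsSolvable A)
    (hn : A ≤ normalizer (V : Set G)) (hc : (Nat.card A).Coprime (Nat.card V))
    (hS : ∀ x r : ℕ, r.Prime → r ∣ Nat.card A → x ∣ Nat.card V → x ≡ 1 [MOD r] → x ∈ S) :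
    (centralizer (A : Set G)).relIndex V ∈ S := by
  induction' e : Nat.card A using Nat.strong_induction_on with n ih generalizing A
  by_cases h : A = ⊥
  · rw [h, relIndex_eq_one.2 fun x _ y hy => by rw [mem_bot.1 hy, one_mul, mul_one]]
    exact one_mem S
  obtain ⟨B, h1, h2, h3⟩ := H1.exists_normal_prime_relIndex hA h
  haveI := Fact.mk h3
  rw [← inf_eq_left.2 (centralizer_anti h1), ← relIndex_inf_mul_relIndex]
  refine mul_mem (hS _ _ h3 (relIndex_dvd_card _ _) ((relIndex_dvd_card _ _).trans (card_dvd_of_le inf_le_right)) ?_)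
    (ih _ (e ▸ card_lt_of_lt (h1.lt_of_ne fun k => h3.ne_one (relIndex_eq_one.2 k.ge))) B (H1.isSolvable_of_le h1 hA)
      (h1.trans hn) (hc.coprime_dvd_left (card_dvd_of_le h1)) (fun x r a b => hS x r a (b.trans (card_dvd_of_le h1))) rfl)
  obtain ⟨R, hR⟩ := exists_syl (B.relIndex A) A
  have h4 : B ⊔ R = A := le_antisymm (sup_le h1 hR.le) (relIndex_eq_one.1 (((Nat.dvd_prime h3).1
    (relIndex_dvd_of_le_left A le_sup_left)).resolve_right fun k => hR.not_dvd (k ▸ relIndex_dvd_of_le_left A le_sup_right)))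
  have h5 := H1.card_modEq_card_inf_centralizer hR.isP (hR.le.trans (normalizer_inf (normalizer_centralizer h2) hn))
  rw [inf_right_comm, ← centralizer_sup, h4, ← relIndex_mul_card_inf (centralizer (A : Set G)), ← inf_assoc,
    inf_eq_left.2 (centralizer_anti h1)] at h5
  exact Nat.ModEq.cancel_right_of_coprime ((hc.coprime_dvd_left (relIndex_dvd_card _ _)).coprime_dvd_right
    (card_dvd_of_le inf_le_right)) (by rwa [one_mul])

def Good (G : Type*) [Group G] (m : ℕ) : Set ℕ := {x | (∃ q e : ℕ, q.Prime ∧ x = q ^ e) ∧ (∃ K L : Subgroup G, K.Normal ∧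
  L.Normal ∧ K < L ∧ (∀ M : Subgroup G, M.Normal → K ≤ M → M ≤ L → M = K ∨ M = L) ∧ x ∣ K.relIndex L) ∧
  ∃ q : ℕ, q.Prime ∧ q ∣ m ∧ x ≡ 1 [MOD q]}

theorem key (G : Type u) [Group G] [Finite G] : Group.IsSolvable G → ∀ H : Subgroup G, (Nat.card H).Coprime H.index →
    (normalizer (H : Set G)).index ∈ Submonoid.closure (Good G (Nat.card H)) := by
  refine H1.group_induction (P := fun G _ _ => Group.IsSolvable G → ∀ H : Subgroup G, (Nat.card H).Coprime H.index →
    (normalizer (H : Set G)).index ∈ Submonoid.closure (Good G (Nat.card H))) (fun G _ _ ih hG H hH => ?_) G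
  by_cases h : (⊤ : Subgroup G) = ⊥
  · rw [index_eq_one.2 (eq_top_iff.2 (h.le.trans bot_le))]
    exact one_mem _
  obtain ⟨N, q, hq, _, h1, -, -, -, h2, h3⟩ := H1.exists_minimal_normal_elementary ⊤ inferInstance h
  haveI := Fact.mk hq
  have hf := QuotientGroup.mk'_surjective N
  have h4 := ih _ (H1.card_quotient_lt h1) inferInstance (H.map (QuotientGroup.mk' N))
    ((hH.coprime_dvd_left (card_map_dvd _ _)).coprime_dvd_right (index_map_dvd _ hf))
  rw [← index_comap_of_surjective _ hf, comap_normalizer_eq_of_surjective _ hf, comap_map_eq, QuotientGroup.ker_mk'] at h4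
  have h5 : normalizer ((H ⊔ N : Subgroup G) : Set G) = normalizer (H : Set G) ⊔ N := by
    refine le_antisymm (fun g hg => ?_) (sup_le (normalizer_sup le_rfl le_normalizer_of_normal)
      (le_sup_right.trans le_normalizer))
    obtain ⟨k, hk, n, hn, rfl⟩ := H1.piHallOf_frattini inferInstance (H1.piHallOf_of_coprime le_sup_left
      (hH.coprime_dvd_right (relIndex_dvd_index_of_le le_sup_left))) hg
    exact mul_mem (sup_le_sup_right le_normalizer N hk) (mem_sup_left hn)
  rw [← relIndex_mul_index (le_sup_left (b := N)), ← h5]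
  refine mul_mem ?_ (Submonoid.closure_mono ?_ h4)
  swap
  · rintro x ⟨a, ⟨K, L, _, _, b, c, d⟩, r, e, f, g⟩
    refine ⟨a, ⟨K.comap (QuotientGroup.mk' N), L.comap (QuotientGroup.mk' N), inferInstance, inferInstance,
      (comap_lt_comap_of_surjective hf).2 b, fun M hM k l => ?_, by rwa [relIndex_comap, map_comap_eq_self_of_surjective hf]⟩,
      r, e, f.trans (card_map_dvd _ _), g⟩
    rw [← comap_map_eq_self ((ker_le_comap _ K).trans k)]
    exact (c _ (hM.map _ hf) (by rw [← map_comap_eq_self_of_surjective hf K]; exact map_mono k)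
      (map_le_iff_le_comap.2 l)).imp (congrArg _) (congrArg _)
  rw [h5, H2.relIndex_sup_of_le_normalizer' le_normalizer_of_normal]
  by_cases k : q ∣ Nat.card H
  · rw [relIndex_eq_one.2 ((H1.piHallOf_ge_of_normal (H1.isPiHallOf_top.2 (H1.piHall_of_coprime hH))
      ((H1.isPGroup_iff_isPiNum.1 h2).mono (Set.singleton_subset_iff.2 k)) le_top le_normalizer_of_normal).trans le_normalizer)]
    exact one_mem _
  have h6 := copA_of_p' h2 (cop_iff.2 k)
  rw [← inf_relIndex_right, show normalizer (H : Set G) ⊓ N = centralizer (H : Set G) ⊓ N from le_antisymm (le_inf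
    (commutator_eq_bot_iff_le_centralizer.1 (eq_bot_iff.2 (le_trans (le_inf (commutator_le_right' inf_le_left)
    ((commutator_mono inf_le_right le_rfl).trans (commutator_le_left' le_normalizer_of_normal))) h6.inf_eq_bot.le)))
    inf_le_right) (inf_le_inf_right _ (centralizer_le_normalizer' H)), inf_relIndex_right]
  refine inner _ N H inferInstance le_normalizer_of_normal h6.cop fun x r a b c d => Submonoid.subset_closure
    ⟨?_, ⟨⊥, N, inferInstance, inferInstance, bot_lt_iff_ne_bot.2 h1, fun M hM _ => h3 M hM, by rwa [relIndex_bot_left]⟩,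
      r, a, b, d⟩
  obtain ⟨j, hj⟩ := h2.exists_card_eq
  obtain ⟨e, -, rfl⟩ := (Nat.dvd_prime_pow hq).1 (hj ▸ c)
  exact ⟨q, e, hq, rfl⟩

/-- Let `G` be a finite solvable group of order `mn` with `gcd(m, n) = 1`. Then the number of subgroups of order `m` is a product of natural numbers each of which is a power of a prime, divides the order of some chief factor of `G` (a quotient `L/K` of normal subgroups `K < L` of `G` with no normal subgroup of `G` strictly between them), and is congruent to `1` modulo some prime divisor of `m`. -/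
theorem result {G : Type*} [Group G] [Finite G] [Group.IsSolvable G] (m n : ℕ) (hG : Nat.card G = m * n) (hmn : Nat.Coprime m n) : ∃ (k : ℕ) (f : Fin k → ℕ), Nat.card {H : Subgroup G // Nat.card H = m} = ∏ i, f i ∧ ∀ i, (∃ q e : ℕ, q.Prime ∧ f i = q ^ e) ∧ (∃ K L : Subgroup G, K.Normal ∧ L.Normal ∧ K < L ∧ (∀ M : Subgroup G, M.Normal → K ≤ M → M ≤ L → M = K ∨ M = L) ∧ f i ∣ K.relIndex L) ∧ (∃ q : ℕ, q.Prime ∧ q ∣ m ∧ f i ≡ 1 [MOD q]) := by
  obtain ⟨H, hH, -⟩ := H1.exists_card_eq_of_coprime hG hmn (K := ⊥) (by simp)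
  have hm := H1.isPiNum_compl_of_coprime hmn
  have hn : H1.IsPiNum {p | ¬ p ∣ n}ᶜ n := fun p _ h => not_not.2 h
  have h1 : H.index = n := by
    have := H.card_mul_index
    rw [hH, hG] at this
    exact Nat.eq_of_mul_eq_mul_left (hH ▸ Nat.card_pos) this
  obtain ⟨l, h2, h3⟩ := Submonoid.exists_list_of_mem_closure (key G inferInstance H (by rwa [hH, h1]))
  refine ⟨l.length, l.get, ?_, fun i => hH ▸ h2 _ (List.get_mem l i)⟩
  letI := MulAction.compHom (Subgroup G) (MulAut.conj : G →* MulAut G)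
  rw [← List.prod_ofFn, List.ofFn_get, h3, show normalizer (H : Set G) = MulAction.stabilizer G H from
    Subgroup.ext fun _ => mem_normalizer_iff_cj, MulAction.index_stabilizer, ← Nat.card_coe_set_eq]
  refine Nat.card_congr (Equiv.subtypeEquivRight fun K => ⟨fun h => ?_, ?_⟩)
  · exact H1.piHall_conj ((H1.isPiHall_iff_card_eq hG hm hn).2 hH) ((H1.isPiHall_iff_card_eq hG hm hn).2 h)
  · rintro ⟨g, rfl⟩
    exact (card_cj g H).trans hH

end Cfsg.Agent.S4214
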