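import Cfsg.Statements.S4217
import Cfsg.Agent.H1.SylN

set_option autoImplicit false
open Cfsg

namespace Cfsg.Agent.S4217

open H1
open Subgroup in
theorem aux.{u} : ∀ (G : Type u) [Group G] [Finite G] (A : Subgroup G) [A.Normal],
    IsMulCommutative A → (∀ p : ℕ, p.Prime → ∃ U K : Subgroup G, ¬ p ∣ U.index ∧ K ⊓ A = ⊥ ∧
      A ⊔ K = U) → ∃ K : Subgroup G, K ⊓ A = ⊥ ∧ K ⊔ A = ⊤ := by
  apply group_induction
  intro G _ _ ih A _ hA h
  have key : ∀ (B : Subgroup G) [B.Normal], B ≤ A → B ≠ ⊥ → ∃ K : Subgroup G, K ⊓ A = B ∧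
      K ⊔ A = ⊤ := fun B _ h1 h2 => by
    let f := QuotientGroup.mk' B
    have hf := QuotientGroup.mk'_surjective B
    have := Normal.map ‹A.Normal› f hf
    have h3 : ∀ X : Subgroup G, (X.map f).comap f = X ⊔ B := fun X => by
      rw [comap_map_eq, QuotientGroup.ker_mk']
    obtain ⟨K, h4, h5⟩ := ih _ (card_quotient_lt h2) (A.map f) inferInstance fun p hp => by
      obtain ⟨U, K, h4, h5, h6⟩ := h p hp
      refine ⟨U.map f, K.map f, fun e => h4 (e.trans (index_map_dvd U hf)), ?_,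
        by rw [← Subgroup.map_sup, h6]⟩
      refine comap_injective hf ?_
      rw [comap_inf, h3, h3, sup_eq_left.2 h1, dedekind_right h1 (Or.inl le_normalizer_of_normal),
        h5, bot_sup_eq, MonoidHom.comap_bot, QuotientGroup.ker_mk']
    refine ⟨K.comap f, ?_, ?_⟩
    · rw [← sup_eq_left.2 h1, ← h3, ← comap_inf, h4, MonoidHom.comap_bot, QuotientGroup.ker_mk']
    · rw [← sup_eq_left.2 h1, ← h3, comap_sup_eq f _ _ hf, h5, comap_top]
  by_cases h0 : A = ⊥
  · exact ⟨⊤, by simp [h0]⟩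
  obtain ⟨q, hq, h1⟩ := Nat.exists_prime_and_dvd (mt card_eq_one.1 h0)
  have := Fact.mk hq
  obtain ⟨Q, hQ⟩ := exists_isSylowIn (p := q) A
  have hQn : Q.Normal := normalizer_eq_top_iff.1 (top_le_iff.1 (le_normalizer_of_normal.trans
    (hQ.normalizer_le_of_normal (le_normalizer_of_abelian hA hQ.le))))
  obtain ⟨B, h2, h3, h4, -⟩ := exists_complement_rel hQ.le le_normalizer_of_normal hQ.coprime
  have h5 : Nat.card B = Q.relIndex A := Nat.eq_of_mul_eq_mul_left Nat.card_pos (by
    rw [card_mul_relIndex hQ.le, mul_comm, ← card_sup_of_disjoint le_normalizer_of_normal h3, h4])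
  have hBn : B.Normal := normalizer_eq_top_iff.1 (top_le_iff.1 (le_normalizer_of_normal.trans
    (piHallOf_normalizer_le_of_nilpotent (isNilpotent_of_isMulCommutative hA) (piHallOf_of_coprime h2 (by
      rw [show B.relIndex A = Nat.card Q from Nat.eq_of_mul_eq_mul_left Nat.card_pos (by
        rw [card_mul_relIndex h2, ← card_sup_of_disjoint le_normalizer_of_normal h3, h4]), h5]
      exact hQ.coprime.symm)))))
  by_cases h6 : B = ⊥
  · rw [h6, bot_sup_eq] at h4
    subst h4
    obtain ⟨U, K, h7, h8, h9⟩ := h q hq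
    obtain ⟨H, hH⟩ := gaschutz_exists hA (isPGroup_coprime' hQ.isPGroup h7) h8 h9
    exact ⟨H, hH.symm.disjoint.eq_bot, hH.symm.sup_eq_top⟩
  obtain ⟨K, h7, h8⟩ := key B h2 h6
  obtain ⟨M, h9, h10⟩ := key Q hQ.le (mt hQ.eq_bot_iff.1 (not_not.2 h1))
  refine ⟨K ⊓ M, by rw [inf_inf_distrib_right, h7, h9, h3], ?_⟩
  have h11 : K ≤ K ⊓ M ⊔ B := by
    rw [inf_comm, ← dedekind_right (h7.ge.trans inf_le_left) (Or.inl le_normalizer_of_normal)]
    refine le_inf (le_top.trans ?_) le_rfl
    rw [← h10, ← h4]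
    exact sup_le le_sup_left (sup_le le_sup_right ((h9.ge.trans inf_le_left).trans le_sup_left))
  exact top_le_iff.1 (h8.ge.trans (sup_le (h11.trans (sup_le_sup_left h2 _)) le_sup_right))

/-- Let `A` be an abelian normal subgroup of the finite group `G`. Then `A` has a complement in `G` if and only if, for every prime `p` dividing the index of `A`, there are a Sylow `p`-subgroup `S` of `G/A` and a subgroup `K` of `G` with `K ∩ A = 1` and `KA` equal to the preimage of `S` (that is, `A` has a complement in the preimage of a Sylow `p`-subgroup of `G/A`). -/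
theorem result {G : Type*} [Group G] [Finite G] (A : Subgroup G) [A.Normal] (hA : IsMulCommutative A) : (∃ K : Subgroup G, K.IsComplement' A) ↔ ∀ p : ℕ, p.Prime → p ∣ A.index → ∃ (S : Sylow p (G ⧸ A)) (K : Subgroup G), K ⊓ A = ⊥ ∧ K ⊔ A = (S : Subgroup (G ⧸ A)).comap (QuotientGroup.mk' A) := by
  open Subgroup in
  refine ⟨fun ⟨K, hK⟩ p hp _ => ?_, fun h => ?_⟩
  · have := Fact.mk hp
    obtain ⟨S⟩ : Nonempty (Sylow p (G ⧸ A)) := inferInstance
    refine ⟨S, K ⊓ S.1.comap (QuotientGroup.mk' A), eq_bot_iff.2 ((inf_le_inf_right _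
      inf_le_left).trans hK.disjoint.eq_bot.le), ?_⟩
    rw [← dedekind_right ((QuotientGroup.ker_mk' A).ge.trans (ker_le_comap _ _))
      (Or.inl le_normalizer_of_normal), hK.sup_eq_top, top_inf_eq]
  · obtain ⟨K, h1, h2⟩ := aux G A hA fun p hp => by
      by_cases e : p ∣ A.index
      · obtain ⟨S, K, h1, h2⟩ := h p hp e
        have := Fact.mk hp
        refine ⟨_, K, ?_, h1, (sup_comm _ _).trans h2⟩
        rw [index_comap_of_surjective _ (QuotientGroup.mk'_surjective A)]
        exact S.not_dvd_index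
      · exact ⟨A, ⊥, e, by simp, by simp⟩
    exact ⟨K, (isComplement'_of_inf_sup (inf_comm K A ▸ h1) (sup_comm K A ▸ h2)).symm⟩

end Cfsg.Agent.S4217
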