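import Cfsg.Statements.S4218
import Cfsg.Agent.H1.PLen

set_option autoImplicit false
open Cfsg

namespace Cfsg.Agent.S4218

open H1

/-- Let `G` be a finite `p`-solvable group, `N₀ = O_{p'}(G)`, `P₁ = O_{p',p}(G)`, and let `F ≤ P₁` be the preimage of the Frattini subgroup of `P₁/N₀`. Then an element `g` of `G` induces the identity on `P₁/F` by conjugation (that is, `g x g⁻¹ x⁻¹ ∈ F` for all `x ∈ P₁`) if and only if `g ∈ P₁`: the group `G/P₁` acts faithfully on `P₁/F`. -/
theorem result {G : Type*} [Group G] [Finite G] {p : ℕ} [Fact p.Prime] (hG : Cfsg.IsPSolvable p G) (g : G) : (∀ x ∈ Cfsg.pPrimePCore p G, g * x * g⁻¹ * x⁻¹ ∈ ((frattini (↥(Cfsg.pPrimePCore p G) ⧸ (Cfsg.pPrimeCore p G).subgroupOf (Cfsg.pPrimePCore p G))).comap (QuotientGroup.mk' ((Cfsg.pPrimeCore p G).subgroupOf (Cfsg.pPrimePCore p G)))).map (Cfsg.pPrimePCore p G).subtype) ↔ g ∈ Cfsg.pPrimePCore p G := by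
  open Subgroup in
  have hf := QuotientGroup.mk'_surjective (pPrimeCore p G)
  have e := map_comap_eq_self_of_surjective hf (pCore p _)
  refine ⟨fun h => (PS.quot (H9.psol_of_isPSolvable hG) _).mem_pCore
    pPrimeCore_quotient_pPrimeCore fun x hx => ?_, fun h x hx => ⟨⟨g, h⟩ * ⟨x, hx⟩ * ⟨g, h⟩⁻¹ *
      ⟨x, hx⟩⁻¹, ?_, rfl⟩⟩
  · obtain ⟨x, rfl⟩ := hf x
    obtain ⟨y, h1, h2⟩ := h x hx
    have h3 := mem_map_of_mem (Subgroup.subtype _) (mem_comap.1
      (frattini_le_comap_frattini_of_surjective (φ := (quotientEquivMap (pPrimePCore p G)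
        (pPrimeCore p G)).toMonoidHom) (MulEquiv.surjective _) h1))
    change _ ∈ L.Phi (map _ (comap _ _)) at h3
    rw [e] at h3
    convert h3 using 1
    rw [← map_inv, ← map_inv, ← map_mul, ← map_mul, ← map_mul, ← h2]
    rfl
  · have h1 : IsPGroup p ((pPrimePCore p G).map (QuotientGroup.mk' (pPrimeCore p G))) := by
      rw [pPrimePCore, e]; exact pCore_isPGroup
    have := (h1.of_equiv (quotientEquivMap (pPrimePCore p G) (pPrimeCore p G)).symm).isNilpotent
    refine commutator_le_frattini ?_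
    simp only [map_mul, map_inv]
    exact commutator_mem_commutator (mem_top _) (mem_top _)

end Cfsg.Agent.S4218
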