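import Cfsg.Statements.S4219
import Cfsg.Agent.H1.Misc2

set_option autoImplicit false
open Cfsg

namespace Cfsg.Agent.S4219

open scoped Pointwise

open H1

/-- Let a finite group `G` act `t`-fold transitively on a finite set, let `H` be the stabilizer of `t` distinct points and `P` a Sylow `p`-subgroup of `H`. Then the normalizer of `P` in `G` is `t`-fold transitive on the fixed points of `P`: any `t` distinct fixed points of `P` can be carried to any other `t` distinct fixed points of `P` by an element normalizing `P`. -/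
theorem result {G : Type*} [Group G] [Finite G] {α : Type*} [Fintype α] [MulAction G α] {t : ℕ} (hG : MulAction.IsMultiplyPretransitive G α t) (x : Fin t ↪ α) {p : ℕ} [Fact p.Prime] (P : Sylow p (MulAction.stabilizer G x)) (a b : Fin t ↪ α) (ha : ∀ i, a i ∈ MulAction.fixedPoints ((P : Subgroup (MulAction.stabilizer G x)).map (MulAction.stabilizer G x).subtype) α) (hb : ∀ i, b i ∈ MulAction.fixedPoints ((P : Subgroup (MulAction.stabilizer G x)).map (MulAction.stabilizer G x).subtype) α) : ∃ g ∈ Subgroup.normalizer ((((P : Subgroup (MulAction.stabilizer G x)).map (MulAction.stabilizer G x).subtype) : Subgroup G) : Set G), g • a = b := by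
  have hP := isSylowIn_map_subtype P
  generalize (P : Subgroup (MulAction.stabilizer G x)).map (MulAction.stabilizer G x).subtype = Q at *
  let H := MulAction.stabilizer G x
  have key : ∀ c : Fin t ↪ α, (∀ i, c i ∈ MulAction.fixedPoints Q α) →
      ∃ g ∈ Subgroup.normalizer (Q : Set G), g • x = c := by
    intro c hc
    obtain ⟨g, rfl⟩ := hG.exists_smul_eq x c
    have h1 : MulAut.conj g⁻¹ • Q ≤ H := by
      rw [conj_smul_le_iff]
      intro y hy
      rw [MulAction.mem_stabilizer_iff, inv_inv, mul_smul, mul_smul, inv_smul_eq_iff]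
      ext i
      exact hc i ⟨y, hy⟩
    have h2 := hP.of_card_le (isPGroup_conj_smul _ hP.2) h1 (card_conj_smul _ _).ge
    obtain ⟨h, hh, e⟩ := hP.conj h2
    refine ⟨g * h, ?_, by rw [mul_smul, MulAction.mem_stabilizer_iff.1 hh]⟩
    rw [← conj_smul_eq_self_iff, ← conj_smul_conj_smul, e, conj_smul_inv_smul]
  obtain ⟨g, hg, rfl⟩ := key a ha
  obtain ⟨h, hh, rfl⟩ := key b hb
  exact ⟨h * g⁻¹, Subgroup.mul_mem _ hh (Subgroup.inv_mem _ hg), by rw [mul_smul, inv_smul_smul]⟩

end Cfsg.Agent.S4219
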