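import Cfsg.Statements.S4222
import Cfsg.Agent.H1.Misc2

set_option autoImplicit false
open Cfsg

namespace Cfsg.Agent.S4222

open H1

/-- If a normal subgroup `N` of a finite group is complete (its centre is trivial and every automorphism of `N` is inner), then the group is the internal direct product of `N` and the centralizer of `N`: the centralizer is a complement to `N`. -/
theorem result {T : Type*} [Group T] [Finite T] (N : Subgroup T) [N.Normal] (hz : Subgroup.center ↥N = ⊥) (ha : Function.Surjective (MulAut.conj : ↥N →* MulAut ↥N)) : (Subgroup.centralizer (N : Set T)).IsComplement' N := by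
  refine isComplement'_of_inf_sup ?_ ?_
  · rw [inf_comm, ← H9.map_center_subtype, hz, Subgroup.map_bot]
  · rw [eq_top_iff]
    intro g _
    obtain ⟨n, hn⟩ := ha (MulAut.conjNormal g)
    have : g * (n : T)⁻¹ ∈ Subgroup.centralizer (N : Set T) := by
      intro y hy
      have h1 := congrArg (fun φ : MulAut N => (φ ⟨(n : T)⁻¹ * y * n, N.mul_mem (N.mul_mem (N.inv_mem n.2) hy) n.2⟩ : T)) hn
      simp only [MulAut.conj_apply, Subgroup.coe_mul, Subgroup.coe_inv, MulAut.conjNormal_apply] at h1
      calc y * (g * (n : T)⁻¹) = (n * ((n : T)⁻¹ * y * n) * (n : T)⁻¹) * (g * (n : T)⁻¹) := by group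
        _ = _ := by rw [h1]; group
    have h2 : g = g * (n : T)⁻¹ * n := by group
    rw [h2]; exact Subgroup.mul_mem_sup this n.2

end Cfsg.Agent.S4222
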