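import Cfsg.Statements.S4223
import Mathlib


set_option autoImplicit false
open Cfsg

namespace Cfsg.Agent.S4223

open Subgroup Function

theorem idem {M : Type*} [Monoid M] [Finite M] (u : M) : ∃ n, u ^ (n + 1) * u ^ (n + 1) = u ^ (n + 1) := by
  obtain ⟨i, j, h, e⟩ := Finite.exists_ne_map_eq_of_infinite fun n : ℕ => u ^ n
  wlog l : i < j generalizing i j
  · exact this j i h.symm e.symm (by omega)
  obtain ⟨d, rfl⟩ := Nat.exists_eq_add_of_lt l
  have k : ∀ k, u ^ (i + k * (d + 1)) = u ^ i := fun k => by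
    induction k with
    | zero => simp
    | succ k ih => rw [show i + (k + 1) * (d + 1) = i + d + 1 + k * (d + 1) by ring, pow_add, ← e, ← pow_add, ih]
  refine ⟨i * d + i + d, ?_⟩
  rw [← pow_add, show i * d + i + d + 1 + (i * d + i + d + 1) = i + (i + 1) * (d + 1) + (i * d + d + 1) by ring, pow_add, k,
    ← pow_add, show i + (i * d + d + 1) = i * d + i + d + 1 by ring]

def Ind (A : Type*) [Group A] : Prop :=
  Nontrivial A ∧ ∀ H K : Subgroup A, H.Normal → K.Normal → H ⊓ K = ⊥ → H ⊔ K = ⊤ → H = ⊥ ∨ K = ⊥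

theorem split {A B : Type*} [Group A] [Group B] (hB : Ind B) (f : A →* B) (g : B →* A) (h1 : f.range.Normal)
    (h2 : ∀ a, g (f a) = 1 → f a = 1) (h3 : ∀ b, ∃ a, g (f a) = g b) : f.range = ⊥ ∨ g.ker = ⊥ :=
  hB.2 _ _ h1 inferInstance (eq_bot_iff.2 (by rintro _ ⟨⟨a, rfl⟩, h⟩; exact h2 a h)) (eq_top_iff.2 fun b _ => by
    obtain ⟨a, e⟩ := h3 b
    rw [← mul_inv_cancel_left (f a) b]
    exact mul_mem (mem_sup_left ⟨a, rfl⟩) (mem_sup_right (by simp [MonoidHom.mem_ker, e])))

theorem fit {A : Type*} [Group A] [Finite A] (hA : Ind A) (u v w : A →* A) (hw : Injective w)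
    (h : ∀ x, w x = u x * v x) (nu : ∀ a x, u (a * x * a⁻¹) = a * u x * a⁻¹) (nw : ∀ a x, w (a * x * a⁻¹) = a * w x * a⁻¹) :
    Injective u ∨ Injective v := by
  let e := MulEquiv.ofBijective w (Finite.injective_iff_bijective.1 hw)
  let t : Monoid.End A := e.symm.toMonoidHom.comp u
  have t1 : ∀ x, w (t x) = u x := fun x => e.apply_symm_apply _
  have t2 : ∀ n a x, (t ^ n) (a * x * a⁻¹) = a * (t ^ n) x * a⁻¹ := fun n a => by
    induction n with
    | zero => simp
    | succ n ih => intro x; rw [pow_succ', Monoid.End.coe_mul, comp_apply, comp_apply, ih]; exact hw (by rw [t1, nu, nw, t1])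
  haveI : Finite (Monoid.End A) := DFunLike.finite _
  obtain ⟨n, hn⟩ := idem t
  have i : ∀ x, (t ^ (n + 1)) ((t ^ (n + 1)) x) = (t ^ (n + 1)) x := fun x => DFunLike.congr_fun hn x
  rcases split hA (t ^ (n + 1)) (t ^ (n + 1)) ⟨by rintro _ ⟨x, rfl⟩ a; exact ⟨_, t2 _ a x⟩⟩ (fun a h => (i a).symm.trans h)
    (fun b => ⟨b, i b⟩) with k | k
  · refine Or.inr ((injective_iff_map_eq_one v).2 fun x hx => ?_)
    have : t x = x := hw (by rw [t1, h, hx, mul_one])
    exact (iterate_fixed this (n + 1)).symm.trans (k.le ⟨x, congrFun (Monoid.End.coe_pow _ t _) x⟩)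
  · refine Or.inl ((injective_iff_map_eq_one u).2 fun x hx => k.le ?_)
    have : t x = 1 := hw (by rw [t1, hx, map_one])
    exact (DFunLike.congr_fun (pow_succ t n) x).trans ((congrArg (t ^ n) this).trans (map_one _))

theorem main.{u, v} (m : ℕ) : ∀ {ι κ : Type} [Fintype ι] [Fintype κ] {A : ι → Type u} {B : κ → Type v} [∀ i, Group (A i)]
    [∀ j, Group (B j)] [∀ i, Finite (A i)] [∀ j, Finite (B j)], Fintype.card ι = m → (∀ i, Ind (A i)) → (∀ j, Ind (B j)) →
    ((∀ i, A i) ≃* ∀ j, B j) → ∃ σ : ι ≃ κ, ∀ i, Nonempty (A i ≃* B (σ i)) := by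
  classical
  induction m with
  | zero =>
    intro ι κ _ _ A B _ _ _ _ h hA hB e
    haveI := Fintype.card_eq_zero_iff.1 h
    haveI : IsEmpty κ := ⟨fun j => by
      haveI := (hB j).1
      obtain ⟨b, hb⟩ := exists_ne (1 : B j)
      exact hb (Pi.mulSingle_eq_one_iff.1 (e.symm.injective (Subsingleton.elim (e.symm (Pi.mulSingle j b)) _)))⟩
    exact ⟨Equiv.equivOfIsEmpty _ _, isEmptyElim⟩
  | succ m ih =>
    intro ι κ _ _ A B _ _ _ _ h hA hB e
    obtain ⟨i⟩ := Fintype.card_pos_iff.1 (m.succ_pos.trans_eq h.symm)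
    haveI := (hA i).1
    let P : Finset κ → (∀ j, B j) →* ∀ j, B j := fun s => MonoidHom.mk' (fun b j => if j ∈ s then b j else 1) fun a b => by
      ext j; by_cases h : j ∈ s <;> simp [h]
    let f : A i →* ∀ j, B j := e.toMonoidHom.comp (MonoidHom.mulSingle A i)
    let g : (∀ j, B j) →* A i := (Pi.evalMonoidHom A i).comp e.symm.toMonoidHom
    have gf : ∀ a, g (f a) = a := fun a => by simp [f, g]
    have nP : ∀ s a x, (g.comp ((P s).comp f)) (a * x * a⁻¹) = a * (g.comp ((P s).comp f)) x * a⁻¹ := fun s a x => by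
      have : P s (f (a * x * a⁻¹)) = f a * P s (f x) * (f a)⁻¹ := by
        rw [map_mul, map_mul, map_inv]
        ext j; by_cases h : j ∈ s <;> simp [P, h]
      simp only [MonoidHom.comp_apply, this, map_mul g, map_inv g, gf]
    have k : ∀ s, Injective (g.comp ((P s).comp f)) → ∃ j, Injective (g.comp ((P {j}).comp f)) := fun s => by
      induction s using Finset.induction_on with
      | empty => exact fun h => (not_subsingleton (A i) ⟨fun a b => h rfl⟩).elim
      | insert j s hj ih =>
        intro h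
        refine (fit (hA i) _ _ _ h (fun x => ?_) (nP {j}) (nP _)).elim (fun h => ⟨j, h⟩) ih
        simp only [MonoidHom.comp_apply, ← map_mul]
        congr 1
        ext l; by_cases h : l = j <;> simp [P, h, hj]
    obtain ⟨j, hj⟩ := k Finset.univ (by
      have : ∀ b, P Finset.univ b = b := fun b => by ext; simp [P]
      intro a b h; simpa [this, gf] using h)
    let f' : A i →* B j := (Pi.evalMonoidHom B j).comp f
    let g' : B j →* A i := g.comp (MonoidHom.mulSingle B j)
    have gf' : ∀ a, g' (f' a) = (g.comp ((P {j}).comp f)) a := fun a => congrArg g (by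
      ext l; by_cases h : l = j
      · subst h; simp [P, f']
      · simp [P, h])
    have i1 : Injective f' := fun a b h => hj (by rw [← gf', ← gf', h])
    have sj : ∀ b, ∃ a, g' (f' a) = g' b := fun b => by simpa only [gf'] using Finite.injective_iff_surjective.1 hj (g' b)
    have i2 : Injective g' := (MonoidHom.ker_eq_bot_iff _).1 ((split (hB j) f' g' ⟨by
      rintro _ ⟨a, rfl⟩ b
      obtain ⟨y, hy⟩ := e.surjective (Pi.mulSingle j b)
      refine ⟨y i * a * (y i)⁻¹, ?_⟩
      have : Pi.mulSingle i (y i * a * (y i)⁻¹) = y * Pi.mulSingle i a * y⁻¹ := by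
        ext l; by_cases h : l = i
        · subst h; simp
        · simp [h]
      simp [f', f, this, hy, -map_mul, map_mul e]⟩ (fun a h => by rw [hj (a₁ := a) (a₂ := 1) (by rw [← gf', h, map_one]), map_one]) sj).resolve_left
        fun h => not_subsingleton (A i) ⟨fun a b => i1 ((mem_bot.1 (h.le ⟨a, rfl⟩)).trans (mem_bot.1 (h.le ⟨b, rfl⟩)).symm)⟩)
    let e1 := MulEquiv.ofBijective f' ⟨i1, fun b => (sj b).imp fun a h => i2 h⟩
    let r : (∀ l : {l // l ≠ j}, B l) →* ∀ l : {l // l ≠ i}, A l := MonoidHom.mk'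
      (fun b l => e.symm (fun t => if h : t = j then 1 else b ⟨t, h⟩) l) fun a b => by
        ext l
        refine (congrFun (congrArg e.symm (funext fun t => ?_)) _).trans (congrFun (map_mul e.symm _ _) _)
        by_cases h : t = j <;> simp [h]
    have r1 : Injective r := (injective_iff_map_eq_one r).2 fun b hb => by
      obtain ⟨y, hy⟩ := e.surjective fun t => if h : t = j then 1 else b ⟨t, h⟩
      have y1 : Pi.mulSingle i (y i) = y := by
        ext l; by_cases h : l = i
        · subst h; simp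
        · simpa [h, r, ← hy] using (congrFun hb ⟨l, h⟩).symm
      have y2 : y i = 1 := i1 (by simp [f', f, y1, hy])
      rw [← y1, y2, Pi.mulSingle_one, map_one] at hy
      ext t
      simpa [t.2] using (congrFun hy t).symm
    have c := Nat.card_congr e.toEquiv
    rw [Nat.card_congr (Equiv.piSplitAt i A), Nat.card_congr (Equiv.piSplitAt j B), Nat.card_prod, Nat.card_prod,
      Nat.card_congr e1.toEquiv] at c
    obtain ⟨σ, hσ⟩ := ih (by simpa [h]) (fun l : {l // l ≠ i} => hA l) (fun l : {l // l ≠ j} => hB l)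
      (MulEquiv.ofBijective r ((Nat.bijective_iff_injective_and_card r).2
        ⟨r1, (Nat.eq_of_mul_eq_mul_left Nat.card_pos c).symm⟩)).symm
    refine ⟨(Equiv.optionSubtypeNe i).symm.trans (σ.optionCongr.trans (Equiv.optionSubtypeNe j)), fun l => ?_⟩
    obtain ⟨_ | l, rfl⟩ := (Equiv.optionSubtypeNe i).surjective l <;> rw [Equiv.trans_apply, Equiv.symm_apply_apply]
    exacts [⟨e1⟩, hσ l]

/-- If a finite group is isomorphic both to a direct product of `m` directly indecomposable nontrivial groups and to a direct product of `n` such groups (a group is directly indecomposable when it is not the internal direct product of two nontrivial normal subgroups), then `m = n` and the factors are isomorphic in pairs after a suitable matching. -/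
theorem result {m n : ℕ} {A : Fin m → Type*} {B : Fin n → Type*} [∀ i, Group (A i)] [∀ j, Group (B j)] [∀ i, Finite (A i)] [∀ j, Finite (B j)] (hA : ∀ i, Nontrivial (A i) ∧ ∀ H K : Subgroup (A i), H.Normal → K.Normal → H ⊓ K = ⊥ → H ⊔ K = ⊤ → H = ⊥ ∨ K = ⊥) (hB : ∀ j, Nontrivial (B j) ∧ ∀ H K : Subgroup (B j), H.Normal → K.Normal → H ⊓ K = ⊥ → H ⊔ K = ⊤ → H = ⊥ ∨ K = ⊥) (e : ((i : Fin m) → A i) ≃* ((j : Fin n) → B j)) : ∃ σ : Fin m ≃ Fin n, ∀ i, Nonempty (A i ≃* B (σ i)) := by
  exact main m (Fintype.card_fin m) hA hB e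

end Cfsg.Agent.S4223
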