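import Cfsg.Statements.S4224
import Cfsg.Agent.H1.Reg

set_option autoImplicit false
open Cfsg

namespace Cfsg.Agent.S4224

open H1

/-- In a regular `p`-group, for all elements `a`, `b` and every power `q = p^k`: `a^q` commutes with `b` if and only if the commutator `a⁻¹b⁻¹ab` has `q`-th power equal to `1`. -/
theorem result {G : Type*} [Group G] [Finite G] {p : ℕ} [Fact p.Prime] (hG : Cfsg.IsRegularPGroup p G) (a b : G) (k : ℕ) : a ^ p ^ k * b = b * a ^ p ^ k ↔ (a⁻¹ * b⁻¹ * a * b) ^ p ^ k = 1 := by
  have := (R1.of_reg hG).commute_iff k a⁻¹ b⁻¹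
  rw [inv_pow, Commute.inv_inv_iff, commute_iff_eq] at this
  simpa [commutatorElement_def] using this

end Cfsg.Agent.S4224
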