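import Cfsg.Statements.S4227
import Cfsg.Agent.S3783
import Cfsg.Agent.H3.Chr3
import Cfsg.Agent.H3.Galois
import Cfsg.Agent.PM.C

set_option autoImplicit false
open Cfsg

namespace Cfsg.Agent.S4227

open Subgroup

/-- A finite group in which every element has order dividing `6` has `2`-length at most `1` and `3`-length at most `1`. -/
theorem result {G : Type*} [Group G] [Finite G] (h : ∀ x : G, x ^ 6 = 1) : Cfsg.PLengthLE 2 1 G ∧ Cfsg.PLengthLE 3 1 G := by
  haveI : Fact (Nat.Prime 2) := ⟨Nat.prime_two⟩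
  haveI : Fact (Nat.Prime 3) := ⟨Nat.prime_three⟩
  haveI : Group.IsSolvable G := by
    obtain ⟨k, hk⟩ := (show IsPGroup 6 G from fun g => ⟨1, h g⟩).exists_card_dvd_pow
    exact H3.burnside_paqb Nat.prime_two Nat.prime_three (by rwa [← mul_pow])
  have h2 : ∀ (q m n : ℕ) [Fact q.Prime] (Q : Sylow q G), m * n = 6 → q.Coprime n → ∀ x ∈ (Q : Subgroup G), x ^ m = 1 :=
    fun q m n _ Q a b x hx => by
      obtain ⟨k, hk⟩ := Q.isPGroup'.exists_orderOf_eq_pow ⟨x, hx⟩
      rw [orderOf_mk] at hk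
      exact orderOf_dvd_iff_pow_eq_one.1 ((hk ▸ b.pow_left k).dvd_of_dvd_mul_right
        (a ▸ orderOf_dvd_of_pow_eq_one (h x)))
  have h3 : ∀ (q : ℕ) [Fact q.Prime], q ≠ 3 → ∀ Q : Sylow q G, IsMulCommutative (Q : Subgroup G) := fun q _ e Q =>
    PM.comm_of_sq (h2 q 2 3 Q rfl
      ((Nat.coprime_primes Fact.out Nat.prime_three).2 e))
  obtain ⟨S⟩ : Nonempty (Sylow 2 G) := inferInstance
  exact ⟨H1.pl_of_lcs 1 G (H9.psol_of_isPSolvable H3.psv_of_solv) S (H1.isSylowIn_top S)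
    (H9.comm_iff_commutator.1 (h3 2 (by decide) S)),
    S3783.result H3.psv_of_solv h3 1 fun P => h2 3 3 2 P rfl (by decide)⟩

end Cfsg.Agent.S4227
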