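import Cfsg.Statements.S4275
import Cfsg.Agent.H1.Misc2

set_option autoImplicit false
open Cfsg

namespace Cfsg.Agent.S4275

open scoped Pointwise

/-- Let G be a transitive group of permutations of a finite set Ω, let o ∈ Ω, and let α be an automorphism of G. Then α is induced by conjugation by a permutation of Ω normalizing G if and only if the image under α of the stabilizer of o fixes some point of Ω. -/
theorem result {Ω : Type*} [Fintype Ω] (G : Subgroup (Equiv.Perm Ω)) (htr : MulAction.IsPretransitive G Ω) (o : Ω) (α : G ≃* G) : (∃ σ : Equiv.Perm Ω, σ ∈ Subgroup.normalizer (G : Set (Equiv.Perm Ω)) ∧ ∀ g : G, ((α g : G) : Equiv.Perm Ω) = σ * (g : Equiv.Perm Ω) * σ⁻¹) ↔ ∃ ω : Ω, ∀ g ∈ (MulAction.stabilizer G o).map α.toMonoidHom, g • ω = ω := by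
  constructor
  · rintro ⟨σ, -, h⟩
    refine ⟨σ o, ?_⟩
    rintro _ ⟨g, hg, rfl⟩
    have : (g : Equiv.Perm Ω) o = o := hg
    change ((α g : G) : Equiv.Perm Ω) (σ o) = σ o
    rw [h]; simp [this]
  · rintro ⟨ω, h⟩
    have h1 : (MulAction.stabilizer G o).map α.toMonoidHom = MulAction.stabilizer G ω := by
      refine H1.eq_of_le_of_card_eq h ?_
      have e1 := Subgroup.card_mul_index (MulAction.stabilizer G o)
      have e2 := Subgroup.card_mul_index (MulAction.stabilizer G ω)
      rw [MulAction.index_stabilizer_of_transitive] at e1 e2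
      haveI : Nonempty Ω := ⟨o⟩
      rw [Subgroup.card_map_of_injective α.injective]
      exact Nat.eq_of_mul_eq_mul_right Nat.card_pos (e1.trans e2.symm)
    have h2 : ∀ g g' : G, g • o = g' • o ↔ α g • ω = α g' • ω := by
      intro g g'
      rw [← inv_smul_eq_iff, ← mul_smul, ← inv_smul_eq_iff (g := α g'), ← mul_smul, ← map_inv, ← map_mul,
        ← MulAction.mem_stabilizer_iff, ← MulAction.mem_stabilizer_iff, ← h1]
      exact (Subgroup.mem_map_iff_mem (f := α.toMonoidHom) α.injective).symm
    choose r hr using fun y => htr.exists_smul_eq o y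
    let f : Ω → Ω := fun y => α (r y) • ω
    have hf : ∀ g : G, f (g • o) = α g • ω := fun g => (h2 _ _).1 (hr _)
    have hinj : Function.Injective f := fun a b hab => by
      rw [← hr a, ← hr b]; exact (h2 _ _).2 hab
    let σ : Equiv.Perm Ω := Equiv.ofBijective f (Finite.injective_iff_bijective.1 hinj)
    have h3 : ∀ g : G, ((α g : G) : Equiv.Perm Ω) = σ * (g : Equiv.Perm Ω) * σ⁻¹ := by
      intro g
      rw [eq_mul_inv_iff_mul_eq]
      ext y
      obtain ⟨k, rfl⟩ := htr.exists_smul_eq o y
      change α g • f (k • o) = f (g • k • o)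
      rw [← mul_smul g k, hf, hf, map_mul, mul_smul]
    refine ⟨σ, H1.mem_normalizer_iff_conj_mem.2 fun x hx => ?_, h3⟩
    rw [← h3 ⟨x, hx⟩]; exact (α _).2

end Cfsg.Agent.S4275
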