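import Cfsg.Statements.S4277
import Cfsg.Agent.H1.Root

set_option autoImplicit false
open Cfsg

namespace Cfsg.Agent.S4277

open Subgroup Polynomial MulAction Pointwise

/-- permutation module -/
noncomputable def rho (k G Ω : Type*) [Field k] [Group G] [MulAction G Ω] : G →* Module.End k (Ω →₀ k) where
  toFun g := Finsupp.lmapDomain k k (g • ·)
  map_one' := by ext; simp
  map_mul' := by intros; ext; simp [mul_smul]

theorem rho_single {k G Ω : Type*} [Field k] [Group G] [MulAction G Ω] (g : G) (w : Ω) :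
    rho k G Ω g (Finsupp.single w 1) = Finsupp.single (g • w) 1 := by simp [rho]

theorem key {G Ω : Type*} [Group G] [Finite G] [MulAction G Ω] [Finite Ω] {p : ℕ} [hp : Fact p.Prime] (x : G) (hx : x ^ p = 1)
    (w : Ω) (tr : ∀ v, ∃ n : ℕ, x ^ n • w = v) (hw : ¬ p ∣ Nat.card (stabilizer G w)) (σ : MulAut G) (hσ : σ x = x) :
    ∃ s : (ZMod p)[X], IsUnit (aeval (rho (ZMod p) G Ω x) s) ∧
      ∀ g, aeval (rho (ZMod p) G Ω x) s * rho (ZMod p) G Ω g = rho (ZMod p) G Ω (σ g) * aeval (rho (ZMod p) G Ω x) s := by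
  classical
  choose n hn using tr
  obtain ⟨K, hK⟩ : ∃ K, K = (stabilizer G w).map σ.toMonoidHom := ⟨_, rfl⟩
  obtain ⟨O, hO⟩ : ∃ O : Finset Ω, ∀ v, v ∈ O ↔ v ∈ orbit K w := ⟨(Set.toFinite _).toFinset, fun v => Set.Finite.mem_toFinset _⟩
  have c1 : ¬ p ∣ O.card := fun c => hw (by
    have : (O : Set Ω) = orbit K w := Set.ext hO
    rw [← Set.ncard_coe_finset, this, ← index_stabilizer] at c
    rw [← card_map_of_injective (f := σ.toMonoidHom) σ.injective, ← hK]
    exact c.trans (index_dvd_card _))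
  have c2 : aeval (rho (ZMod p) G Ω x) (∑ v ∈ O, (X : (ZMod p)[X]) ^ n v) (Finsupp.single w 1) = ∑ v ∈ O, Finsupp.single v 1 := by
    simp only [map_sum, aeval_X_pow, LinearMap.sum_apply, ← MonoidHom.map_pow, rho_single, hn]
  have c3 : ∀ h ∈ stabilizer G w, rho (ZMod p) G Ω (σ h) (∑ v ∈ O, Finsupp.single v 1) = ∑ v ∈ O, Finsupp.single v 1 := fun h hh => by
    simp only [map_sum, rho_single]
    have m : σ h ∈ K := hK ▸ mem_map_of_mem _ hh
    refine Finset.sum_bijective (σ h • ·) (MulAction.bijective _) (fun v => ?_) fun _ _ => rfl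
    rw [hO, hO]
    exact ⟨fun c => mem_orbit_of_mem_orbit (⟨_, m⟩ : K) c, fun c =>
      (inv_smul_smul (σ h) v) ▸ mem_orbit_of_mem_orbit (⟨_, inv_mem m⟩ : K) c⟩
  refine ⟨∑ v ∈ O, X ^ n v, ?_, ?_⟩
  · rw [← isUnit_pow_iff hp.out.ne_zero, ← map_pow, sum_pow_char]
    simp only [map_sum, ← pow_mul, mul_comm _ p, aeval_X_pow, ← MonoidHom.map_pow]
    simp only [pow_mul, hx, one_pow, map_one, Finset.sum_const, nsmul_eq_mul, mul_one]
    rw [← map_natCast (algebraMap (ZMod p) _)]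
    exact (isUnit_iff_ne_zero.2 (mt (ZMod.natCast_eq_zero_iff _ _).1 c1)).map _
  generalize (∑ v ∈ O, (X : (ZMod p)[X]) ^ n v) = s at c2
  have c4 : ∀ g : G, aeval (rho (ZMod p) G Ω x) s (Finsupp.single (g • w) 1) = rho (ZMod p) G Ω (σ g) (∑ v ∈ O, Finsupp.single v 1) := fun g => by
    have a : (x ^ n (g • w))⁻¹ * g ∈ stabilizer G w := by rw [mem_stabilizer_iff, mul_smul, inv_smul_eq_iff, hn]
    have b : σ g = x ^ n (g • w) * σ ((x ^ n (g • w))⁻¹ * g) := by simp [hσ]
    rw [b, map_mul, Module.End.mul_apply, c3 _ a, ← c2, ← Module.End.mul_apply, map_pow, ← aeval_X_pow (R := ZMod p), ← map_mul,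
      mul_comm, map_mul, aeval_X_pow, ← map_pow, Module.End.mul_apply, rho_single, hn]
  intro g
  refine Finsupp.lhom_ext' fun v => LinearMap.ext_ring ?_
  obtain ⟨u, rfl⟩ : ∃ u : G, u • w = v := ⟨_, hn v⟩
  simp only [LinearMap.comp_apply, Finsupp.lsingle_apply, Module.End.mul_apply, rho_single, ← mul_smul, c4, map_mul]

/-- A case of the Schreier conjecture: if a finite simple group G has a subgroup of prime index, then the outer automorphism group of G is solvable. -/
theorem result {G : Type*} [Group G] [Finite G] [IsSimpleGroup G] (H : Subgroup G) (hH : H.index.Prime) : Group.IsSolvable (Cfsg.Out G) := by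
  haveI := Fact.mk hH
  have h1 : H.normalCore = ⊥ := (Normal.eq_bot_or_eq_top inferInstance).resolve_right fun e =>
    hH.ne_one (index_eq_one.2 (top_le_iff.1 (e ▸ H.normalCore_le)))
  have h2 : Function.Injective (toPermHom G (G ⧸ H)) := by rwa [← MonoidHom.ker_eq_bot_iff, ← normalCore_eq_ker]
  have h3 : ¬ H.index ∣ Nat.card H := fun c => by
    have := card_dvd_of_injective _ h2
    rw [Nat.card_perm, ← index_eq_card, ← H.index_mul_card, ← Nat.mul_factorial_pred hH.ne_zero] at this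
    exact absurd (hH.dvd_factorial.1 (c.trans (Nat.dvd_of_mul_dvd_mul_left hH.pos this))) (by have := hH.pos; omega)
  obtain ⟨x, hx⟩ := exists_prime_orderOf_dvd_card' H.index H.index_dvd_card
  have h4 : H1.IsSylowIn H.index (zpowers x) ⊤ := ⟨le_top, IsPGroup.of_card (n := 1) (by simp [hx]), by
    have := (zpowers x).index_mul_card
    rw [Nat.card_zpowers, hx, ← H.index_mul_card, mul_comm] at this
    rwa [relIndex_top_right, Nat.eq_of_mul_eq_mul_left hH.pos this]⟩
  have h5 : ∀ v : G ⧸ H, ∃ n : ℕ, x ^ n • ((1 : G) : G ⧸ H) = v := fun v => by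
    have a : zpowers x ⊓ H = ⊥ := inf_eq_bot_of_coprime (by
      rw [Nat.card_zpowers, hx]; exact hH.coprime_iff_not_dvd.2 h3)
    have b : Function.Injective fun y : zpowers x => (y : G) • ((1 : G) : G ⧸ H) := fun y z e => by
      simp only [Quotient.smul_coe, smul_eq_mul, mul_one, QuotientGroup.eq] at e
      exact Subtype.ext (inv_mul_eq_one.1 (mem_bot.1 (a ▸ mem_inf.2 ⟨mul_mem (inv_mem y.2) z.2, e⟩)))
    obtain ⟨⟨y, hy⟩, e⟩ := ((Nat.bijective_iff_injective_and_card _).2 ⟨b, by rw [Nat.card_zpowers, hx]; rfl⟩).2 v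
    obtain ⟨n, rfl⟩ := mem_powers_iff_mem_zpowers.2 hy
    exact ⟨n, e⟩
  have h6 : ∀ σ ∈ stabilizer (MulAut G) x, ∀ τ ∈ stabilizer (MulAut G) x, σ * τ = τ * σ := fun σ a τ b => by
    obtain ⟨s, s1, s2⟩ := key x (hx ▸ pow_orderOf_eq_one x) _ h5 (by rwa [stabilizer_quotient]) σ a
    obtain ⟨t, t1, t2⟩ := key x (hx ▸ pow_orderOf_eq_one x) _ h5 (by rwa [stabilizer_quotient]) τ b
    ext g
    have c : rho (ZMod H.index) G (G ⧸ H) (σ (τ g)) = rho (ZMod H.index) G (G ⧸ H) (τ (σ g)) := by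
      refine (s1.mul t1).mul_right_cancel ?_
      rw [← mul_assoc, ← s2, mul_assoc, ← t2, ← map_mul, mul_comm s, map_mul, ← mul_assoc (rho _ _ _ _), ← t2, mul_assoc, ← s2,
        ← mul_assoc, ← mul_assoc, ← map_mul, ← map_mul, mul_comm s]
    refine h2 (Equiv.ext fun v => ?_)
    have := LinearMap.congr_fun c (Finsupp.single v 1)
    rw [rho_single, rho_single] at this
    exact Finsupp.single_left_injective one_ne_zero this
  have h7 : (stabilizer (MulAut G) (zpowers x)).map (QuotientGroup.mk' (Inn G)) = ⊤ := eq_top_iff.2 fun σ _ => by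
    obtain ⟨σ, rfl⟩ := QuotientGroup.mk'_surjective _ σ
    obtain ⟨P, hP⟩ := h4.exists_sylow_top
    obtain ⟨g, hg⟩ := exists_smul_eq G P (σ⁻¹ • P)
    refine ⟨σ * MulAut.conj g, ?_, ?_⟩
    · have := congrArg (fun Q : Sylow H.index G => (Q : Subgroup G)) hg
      simp only [Sylow.coe_subgroup_smul, Sylow.pointwise_smul_def, hP] at this
      rw [SetLike.mem_coe, mem_stabilizer_iff, mul_smul, this, smul_inv_smul]
    · rw [map_mul, show QuotientGroup.mk' (Inn G) (MulAut.conj g) = 1 from (QuotientGroup.eq_one_iff _).2 ⟨g, rfl⟩, mul_one]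
  have h8 : ⁅stabilizer (MulAut G) (zpowers x), stabilizer (MulAut G) (zpowers x)⁆ ≤ stabilizer (MulAut G) x := by
    have a : ∀ σ ∈ stabilizer (MulAut G) (zpowers x), ∃ i : ℤ, x ^ i = σ x := fun σ b =>
      mem_zpowers_iff.1 ((mem_stabilizer_iff.1 b).le (smul_mem_pointwise_smul x σ _ (mem_zpowers x)))
    refine commutator_le.2 fun σ b τ c => ?_
    obtain ⟨i, hi⟩ := a _ (inv_mem b)
    obtain ⟨j, hj⟩ := a _ (inv_mem c)
    have d : σ⁻¹ (τ⁻¹ x) = τ⁻¹ (σ⁻¹ x) := by rw [← hi, ← hj, map_zpow, map_zpow, ← hi, ← hj, ← zpow_mul, ← zpow_mul, mul_comm]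
    show σ (τ (σ⁻¹ (τ⁻¹ x))) = x
    rw [d]
    simp
  refine ⟨⟨2, eq_bot_iff.2 ?_⟩⟩
  have h9 : derivedSeries (Out G) 1 ≤ (stabilizer (MulAut G) x).map (QuotientGroup.mk' (Inn G)) := by
    rw [derivedSeries_succ, derivedSeries_zero, ← h7, ← map_commutator]
    exact map_mono h8
  rw [derivedSeries_succ]
  refine (commutator_mono h9 h9).trans ?_
  rw [← map_commutator, commutator_eq_bot_iff_le_centralizer.2 fun σ a τ b => h6 τ b σ a, Subgroup.map_bot]

end Cfsg.Agent.S4277
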