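import Cfsg.Statements.S4282
import Cfsg.Agent.H1.HB4

set_option autoImplicit false
open Cfsg

namespace Cfsg.Agent.S4282

open scoped Pointwise
open H1

/-- A critical case behind the Hall–Higman theorem. Let p ≠ q be primes and G a finite group generated by a normal q-subgroup Q and a cyclic p-subgroup generated by x, such that the centralizer of every non-identity element of that cyclic subgroup is its product with the centre of G. Let K be an algebraically closed field of characteristic p and ρ a faithful representation of G on a nonzero finite-dimensional K-space whose restriction to Q is irreducible. If s is the least exponent with (ρ(x) − 1)^s = 0, then |⟨x⟩| − 1 ≤ s ≤ |⟨x⟩|; and if s = |⟨x⟩| − 1 then |⟨x⟩| − 1 is a power of q and Q is non-abelian. -/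
theorem result {G : Type*} [Group G] [Finite G] (p q : ℕ) [Fact p.Prime] [Fact q.Prime] (hpq : p ≠ q) (Q : Subgroup G) [Q.Normal] (hQ : IsPGroup q Q) (x : G) (hx : IsPGroup p (Subgroup.zpowers x)) (hgen : Q ⊔ Subgroup.zpowers x = ⊤) (hC : ∀ y ∈ Subgroup.zpowers x, y ≠ 1 → Subgroup.centralizer ({y} : Set G) = Subgroup.zpowers x ⊔ Subgroup.center G) {K : Type*} [Field K] [IsAlgClosed K] [CharP K p] {V : Type*} [AddCommGroup V] [Module K V] [FiniteDimensional K V] [Nontrivial V] (ρ : Representation K G V) (hfaith : Function.Injective ρ) (hirr : ∀ W : Submodule K V, (∀ g ∈ Q, Submodule.map (ρ g) W ≤ W) → W = ⊥ ∨ W = ⊤) (s : ℕ) (hs : (ρ x - 1) ^ s = 0) (hmin : ∀ k < s, (ρ x - 1) ^ k ≠ 0) : Nat.card (Subgroup.zpowers x) - 1 ≤ s ∧ s ≤ Nat.card (Subgroup.zpowers x) ∧ (s = Nat.card (Subgroup.zpowers x) - 1 → (∃ b : ℕ, Nat.card (Subgroup.zpowers x) - 1 = q ^ b) ∧ ¬ IsMulCommutative Q) := by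
  have hp : p.Prime := Fact.out
  have hq : q.Prime := Fact.out
  obtain ⟨n, hn⟩ := IsPGroup.iff_card.1 hx
  have h1 : (ρ x - 1) ^ Nat.card (Subgroup.zpowers x) = 0 := by
    rw [hn, sub_one_pow_char, ← map_pow, ← hn, Nat.card_zpowers, pow_orderOf_eq_one, map_one, sub_self]
  have h2 : s ≤ Nat.card (Subgroup.zpowers x) := le_of_not_gt fun h => hmin _ h h1
  have h3 : ∀ k, (ρ x - 1) ^ k ≠ 0 → k < s := fun k hk => lt_of_not_ge fun h => hk (by
    obtain ⟨j, rfl⟩ := Nat.exists_eq_add_of_le h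
    rw [pow_add, hs, zero_mul])
  by_cases h4 : (ρ x - 1) ^ (Nat.card (Subgroup.zpowers x) - 1) = 0
  swap
  · have := h3 _ h4
    exact ⟨this.le, h2, fun e => absurd e this.ne'⟩
  have hx1 : x ≠ 1 := fun e => by simp [e] at h4
  have hs' : ∀ T : Submodule K V, (∀ g ∈ Q, ∀ u ∈ T, ρ g u ∈ T) → T = ⊥ ∨ T = ⊤ := fun T hT =>
    hirr T fun g hg => Submodule.map_le_iff_le_comap.2 (hT g hg)
  have hN : ∀ B : Subgroup G, (∀ T : Submodule K V, (∀ g ∈ B, ∀ u ∈ T, ρ g u ∈ T) → T = ⊥ ∨ T = ⊤) →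
      (∀ g ∈ B, ∃ c : K, ρ g = c • 1) → Module.finrank K V = 1 := fun B h1 h2 => by
    obtain ⟨v, v0⟩ := exists_ne (0 : V)
    refine finrank_eq_one v v0 fun w => Submodule.mem_span_singleton.1
      (((h1 (Submodule.span K {v}) fun g hg u hu => ?_).resolve_left (by simpa using v0)).ge trivial)
    obtain ⟨c, hc⟩ := h2 g hg
    rw [hc]
    exact Submodule.smul_mem _ c hu
  have h5 : 1 < Module.finrank K V := by
    refine lt_of_le_of_ne Module.finrank_pos fun e => hx1 (hfaith ?_)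
    obtain ⟨v, v0, hv⟩ := finrank_eq_one_iff'.1 e.symm
    obtain ⟨c, hc⟩ := hv (ρ x v)
    rw [map_one]
    refine eq_one_of_pow_char (p := p) (c := c) (k := n) (LinearMap.ext fun w => ?_) (by
      rw [← map_pow, ← hn, Nat.card_zpowers, pow_orderOf_eq_one, map_one])
    obtain ⟨d, rfl⟩ := hv w
    simp [← hc, smul_comm c d]
  obtain ⟨e1, e2⟩ := crit (by rw [cen_sub_one]; exact crit_w hpq hfaith hQ hx hx1 hC hs') h5 h4
  have := h3 _ e2
  refine ⟨by omega, h2, fun _ => ⟨?_, fun h => h5.ne' (hN Q hs' fun g hg => schur hs' fun a ha => ?_)⟩⟩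
  · rw [e1, Nat.add_sub_cancel]
    exact finrank_pow (fun e => hpq ((Nat.prime_dvd_prime_iff_eq hp hq).1 ((CharP.cast_eq_zero_iff K p q).1 e))) Q V
      (MonoidHom.comp ρ Q.subtype) hQ fun T hT => hs' T fun g hg => hT ⟨g, hg⟩
  · rw [← map_mul, ← map_mul]
    exact congrArg ρ (congrArg Subtype.val (h.1.1 ⟨a, ha⟩ ⟨g, hg⟩))

end Cfsg.Agent.S4282
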