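import Cfsg.Statements.S4283
import Cfsg.Agent.H1.Frob

set_option autoImplicit false
open Cfsg

namespace Cfsg.Agent.S4283

open scoped Pointwise
open H1

/-- Let G be a finite group with centre Z and let K, H be abelian subgroups of G containing Z such that G/Z is a Frobenius group with complement H/Z and kernel K/Z. Then the conjugacy class sizes of G are exactly 1, [G : K] and [G : H], and these two indices are coprime. (This is the converse half of the characterization of finite groups whose conjugacy class sizes are exactly 1, m and n with m and n coprime.) -/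
theorem result {G : Type*} [Group G] [Finite G] (K H : Subgroup G) (hZK : Subgroup.center G ≤ K) (hZH : Subgroup.center G ≤ H) (hK : IsMulCommutative K) (hH : IsMulCommutative H) (hFrob : Cfsg.IsFrobeniusComplement (H.map (QuotientGroup.mk' (Subgroup.center G)))) (hker : Cfsg.frobeniusKernel (H.map (QuotientGroup.mk' (Subgroup.center G))) = (K.map (QuotientGroup.mk' (Subgroup.center G)) : Set (G ⧸ Subgroup.center G))) : Set.range (fun x : G => (Subgroup.centralizer ({x} : Set G)).index) = ({1, K.index, H.index} : Set ℕ) ∧ K.index.Coprime H.index := by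
  set π := QuotientGroup.mk' (Subgroup.center G) with hπ
  have hsurj : Function.Surjective π := QuotientGroup.mk'_surjective _
  have hkerπ : π.ker = Subgroup.center G := QuotientGroup.ker_mk' _
  obtain ⟨N, hN, e, hc, hf, h0, hcj⟩ := IsFrob.exists_kernel hFrob
  have hNK : N = K.map π := SetLike.coe_injective (e.trans hker)
  subst hNK
  have mK : ∀ x, π x ∈ K.map π ↔ x ∈ K := fun x => by
    rw [← Subgroup.mem_comap, Subgroup.comap_map_eq_self (hkerπ.le.trans hZK)]
  have mH : ∀ x, π x ∈ H.map π ↔ x ∈ H := fun x => by
    rw [← Subgroup.mem_comap, Subgroup.comap_map_eq_self (hkerπ.le.trans hZH)]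
  have m1 : ∀ x, π x = 1 ↔ x ∈ Subgroup.center G := fun x => by rw [← MonoidHom.mem_ker, hkerπ]
  have cK : ∀ x ∈ K, x ∉ Subgroup.center G → Subgroup.centralizer ({x} : Set G) = K := by
    intro x hx hz
    apply le_antisymm
    · intro y hy
      rw [← mK]
      refine centralizer_inf_le_kernel (K := K.map π) (H := H.map π) (by rw [Subgroup.normalizer_eq_top]; exact le_top) hf
        ((mK x).2 hx) ((m1 x).not.2 hz) ⟨by rw [hc.sup_eq_top]; trivial, ?_⟩
      show π y ∈ Subgroup.centralizer {π x}
      rw [Subgroup.mem_centralizer_singleton_iff] at hy ⊢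
      rw [← map_mul, hy, map_mul]
    · intro y hy
      exact Subgroup.mem_centralizer_singleton_iff.2 (congrArg Subtype.val (hK.is_comm.comm ⟨y, hy⟩ ⟨x, hx⟩))
  have cH : ∀ x ∈ H, x ∉ Subgroup.center G → Subgroup.centralizer ({x} : Set G) = H := by
    intro x hx hz
    apply le_antisymm
    · intro y hy
      rw [← mH]
      refine IsFrob.centralizer_le hFrob ((mH x).2 hx) ((m1 x).not.2 hz) ?_
      rw [Subgroup.mem_centralizer_singleton_iff] at hy ⊢
      rw [← map_mul, hy, map_mul]
    · intro y hy
      exact Subgroup.mem_centralizer_singleton_iff.2 (congrArg Subtype.val (hH.is_comm.comm ⟨y, hy⟩ ⟨x, hx⟩))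
  constructor
  · ext m
    simp only [Set.mem_range, Set.mem_insert_iff, Set.mem_singleton_iff]
    constructor
    · rintro ⟨x, rfl⟩
      by_cases hz : x ∈ Subgroup.center G
      · left
        rw [Subgroup.index_eq_one, Subgroup.centralizer_eq_top_iff_subset]
        simpa using hz
      by_cases hx : x ∈ K
      · exact Or.inr (Or.inl (by rw [cK x hx hz]))
      obtain ⟨g, hg⟩ := hcj (π x) ((mK x).not.2 hx)
      obtain ⟨g, rfl⟩ := hsurj g
      rw [mem_conj_smul, ← map_inv, ← map_mul, ← map_mul, mH] at hg
      have h1 := cH _ hg (fun h => hz (by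
        have := (inferInstance : (Subgroup.center G).Normal).conj_mem _ h g
        simpa [mul_assoc] using this))
      refine Or.inr (Or.inr ?_)
      rw [← h1]
      have : Subgroup.centralizer ({x} : Set G) = (Subgroup.centralizer ({g⁻¹ * x * g} : Set G)).comap (MulAut.conj g⁻¹).toMonoidHom := by
        ext y
        simp only [Subgroup.mem_centralizer_singleton_iff, Subgroup.mem_comap, MulEquiv.coe_toMonoidHom, MulAut.conj_apply, inv_inv]
        constructor
        · intro h
          calc _ = g⁻¹ * (y * x) * g := by group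
            _ = _ := by rw [h]; group
        · intro h
          calc y * x = g * (g⁻¹ * y * g * (g⁻¹ * x * g)) * g⁻¹ := by group
            _ = _ := by rw [h]; group
      rw [this, Subgroup.index_comap_of_surjective _ (MulAut.conj g⁻¹).surjective]
    · rintro (rfl | rfl | rfl)
      · exact ⟨1, by rw [Subgroup.index_eq_one, Subgroup.centralizer_eq_top_iff_subset]; simp⟩
      · obtain ⟨⟨_, x, hx, rfl⟩, h1⟩ := Subgroup.ne_bot_iff_exists_ne_one.1 h0
        exact ⟨x, by rw [cK x hx fun h => h1 (Subtype.ext ((m1 x).2 h))]⟩
      · obtain ⟨⟨_, x, hx, rfl⟩, h1⟩ := Subgroup.ne_bot_iff_exists_ne_one.1 hFrob.1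
        exact ⟨x, by rw [cH x hx fun h => h1 (Subtype.ext ((m1 x).2 h))]⟩
  · rw [← Subgroup.index_map_eq K hsurj (hkerπ.le.trans hZK), ← Subgroup.index_map_eq H hsurj (hkerπ.le.trans hZH), hc.index_eq_card,
      hc.symm.index_eq_card]
    exact hf.coprime (by rw [Subgroup.normalizer_eq_top]; exact le_top)

end Cfsg.Agent.S4283
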