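import Cfsg.Statements.S4291
import Cfsg.Agent.H9.Zs7

set_option autoImplicit false
open Cfsg

namespace Cfsg.Agent.S4291

/-- Let G be a finite group that occurs as a Frobenius complement. Then G has exactly one normal subgroup N such that every Sylow subgroup of N is cyclic and the quotient of G by N is trivial or isomorphic to one of the following five groups: the Klein four-group, the alternating group of degree 4, the symmetric group of degree 4, the alternating group of degree 5, the symmetric group of degree 5. (The quotient is described by a surjective homomorphism with kernel N; the Klein four-group is written as the dihedral group of order 4.) -/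
theorem result {G : Type*} [Group G] [Finite G]
    (hFC : (∃ (L : Type) (_ : Group L) (_ : Finite L) (H : Subgroup L), Cfsg.IsFrobeniusComplement H ∧ Nonempty (G ≃* H))) :
    ∃! N : Subgroup G, N.Normal ∧ (∀ (p : ℕ) [Fact p.Prime] (P : Sylow p N), IsCyclic P) ∧
      (N = ⊤ ∨
        (∃ f : G →* DihedralGroup 2, Function.Surjective f ∧ f.ker = N) ∨
        (∃ f : G →* alternatingGroup (Fin 4), Function.Surjective f ∧ f.ker = N) ∨
        (∃ f : G →* Equiv.Perm (Fin 4), Function.Surjective f ∧ f.ker = N) ∨
        (∃ f : G →* alternatingGroup (Fin 5), Function.Surjective f ∧ f.ker = N) ∨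
        (∃ f : G →* Equiv.Perm (Fin 5), Function.Surjective f ∧ f.ker = N)) := by
  open H9 Subgroup in open scoped commutatorElement in
  have h := Zs.IsFC.fc hFC
  have a : ∀ N : Subgroup G, N.Normal → ((∀ (p : ℕ) [Fact p.Prime] (P : Sylow p N), IsCyclic P) ↔ IsZGroup N) :=
    fun N _ => ⟨fun e => ⟨fun p hp => have := Fact.mk hp; e p⟩, fun _ _ _ _ => inferInstance⟩
  have b := fun (N : Subgroup G) [N.Normal] => (or_congr_right (or_congr Zs.tv_iff ((or_congr (Zs.tt_iff (n := 2))
    (Zs.tt_iff (n := 3))).trans or_assoc)) : Zs.Ty N ↔ _)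
  obtain ⟨N, h1, h2, h3⟩ := h.exists_N
  have h4 : Zs.Ty N := h3.imp_right (.imp_right (.imp_right And.right))
  refine ⟨N, ⟨h1, (a N h1).2 h2, (b N).1 h4⟩, fun M ⟨m1, m2, m3⟩ => ?_⟩
  exact le_antisymm (h4.le h.pq ((b M).2 m3) h2 ((a M m1).1 m2)) (Zs.Ty.le h.pq ((b M).2 m3) h4 ((a M m1).1 m2) h2)

end Cfsg.Agent.S4291
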