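import Cfsg.Statements.S4292
import Cfsg.Agent.H9.Zs1

set_option autoImplicit false
open Cfsg

namespace Cfsg.Agent.S4292

open H1
open Matrix Kronecker in
theorem fc_prod {A B : Type*} [Group A] [Finite A] [Group B] [Finite B] (hA : H9.Zs.FC A) (hB : H9.Zs.FC B)
    (h : (Nat.card A).Coprime (Nat.card B)) : H9.Zs.FC (A × B) := by
  obtain ⟨n, hn, ρ, hρ⟩ := hA
  obtain ⟨m, hm, σ, hσ⟩ := hB
  haveI : Nonempty (Fin n) := ⟨⟨0, hn⟩⟩
  haveI : Nonempty (Fin m) := ⟨⟨0, hm⟩⟩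
  haveI : CharZero (Matrix (Fin n × Fin m) (Fin n × Fin m) ℚ) := algebraRat.charZero _
  let ψ : A × B →* Matrix (Fin n × Fin m) (Fin n × Fin m) ℚ :=
    { toFun := fun g => ρ g.1 ⊗ₖ σ g.2
      map_one' := by simp
      map_mul' := fun a b => by simp [mul_kronecker_mul] }
  have key : ∀ (g : A × B) (k : ℕ), (ψ (g ^ k) - 1).det ≠ 0 → IsUnit (ψ g - 1) := by
    intro g k hk
    rw [map_pow, ← mul_geom_sum, det_mul] at hk
    exact (isUnit_iff_isUnit_det _).2 (left_ne_zero_of_mul hk).isUnit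
  refine H9.Zs.fc_of_charZero ψ fun g hg => H9.Zs.sum_eq_zero ?_ (by rw [← map_pow, pow_orderOf_eq_one, map_one])
  obtain ⟨a, b⟩ := g
  by_cases ha : a = 1
  · subst ha
    have hb : b ≠ 1 := fun e => hg (by rw [e]; rfl)
    refine key _ 1 ?_
    have : ψ ((1, b) ^ 1) - 1 = (1 : Matrix (Fin n) (Fin n) ℚ) ⊗ₖ (σ b - 1) := by
      rw [pow_one]
      ext ⟨i, j⟩ ⟨k, l⟩
      simp [ψ, mul_sub, one_apply, Prod.ext_iff, ite_and]
      split_ifs <;> simp
    rw [this, det_kronecker]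
    simp [hσ b hb]
  · refine key _ (Nat.card B) ?_
    have h1 : a ^ Nat.card B ≠ 1 := fun e => ha (orderOf_eq_one_iff.1 (Nat.eq_one_of_dvd_coprimes h
      (orderOf_dvd_natCard a) (orderOf_dvd_of_pow_eq_one e)))
    have : ψ ((a, b) ^ Nat.card B) - 1 = (ρ (a ^ Nat.card B) - 1) ⊗ₖ (1 : Matrix (Fin m) (Fin m) ℚ) := by
      rw [Prod.pow_mk, pow_card_eq_one']
      ext ⟨i, j⟩ ⟨k, l⟩
      simp [ψ, sub_mul, one_apply, Prod.ext_iff, ite_and]
      split_ifs <;> simp
    rw [this, det_kronecker]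
    simp [hρ _ h1, -map_pow]

/-- Let A and B be nontrivial finite groups. Then the direct product A × B occurs as a Frobenius complement if and only if A and B both occur as Frobenius complements and the orders of A and B are coprime. -/
theorem result {A B : Type*} [Group A] [Finite A] [Nontrivial A] [Group B] [Finite B] [Nontrivial B] :
    (∃ (L : Type) (_ : Group L) (_ : Finite L) (H : Subgroup L), Cfsg.IsFrobeniusComplement H ∧ Nonempty ((A × B) ≃* H)) ↔
    ((∃ (L : Type) (_ : Group L) (_ : Finite L) (H : Subgroup L), Cfsg.IsFrobeniusComplement H ∧ Nonempty (A ≃* H)) ∧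
     (∃ (L : Type) (_ : Group L) (_ : Finite L) (H : Subgroup L), Cfsg.IsFrobeniusComplement H ∧ Nonempty (B ≃* H)) ∧
     (Nat.card A).Coprime (Nat.card B)) := by
  constructor
  · intro h
    have h1 := H9.Zs.IsFC.fc h
    refine ⟨(h1.comp (MonoidHom.inl A B) (fun a b e => (Prod.ext_iff.1 e).1)).isFC,
      (h1.comp (MonoidHom.inr A B) (fun a b e => (Prod.ext_iff.1 e).2)).isFC, ?_⟩
    refine Nat.coprime_of_dvd fun p hp d1 d2 => ?_
    haveI := Fact.mk hp
    obtain ⟨a, ha⟩ := exists_prime_orderOf_dvd_card' p d1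
    obtain ⟨b, hb⟩ := exists_prime_orderOf_dvd_card' p d2
    obtain ⟨k, hk⟩ := h1.pq.mem_zpowers_of_comm hp (x := (a, 1)) (y := (1, b)) trivial trivial
      (by simp [Prod.orderOf_mk, ha]) (by simp [Prod.orderOf_mk, hb]) (by simp [Commute, SemiconjBy])
    have : b = 1 := by simpa using (Prod.ext_iff.1 hk).2.symm
    rw [this, orderOf_one] at hb
    exact hp.one_lt.ne hb
  · rintro ⟨h1, h2, h3⟩
    exact (fc_prod (H9.Zs.IsFC.fc h1) (H9.Zs.IsFC.fc h2) h3).isFC

end Cfsg.Agent.S4292
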