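import Cfsg.Statements.S4294
import Cfsg.Agent.H9.Zs9

set_option autoImplicit false
open Cfsg

namespace Cfsg.Agent.S4294

/-- A finite non-solvable subgroup of the multiplicative group of a division ring is isomorphic to the binary icosahedral group SL(2,5). -/
theorem result {D : Type*} [DivisionRing D] (H : Subgroup Dˣ) [Finite H] (hH : ¬ Group.IsSolvable H) :
    Nonempty (H ≃* Matrix.SpecialLinearGroup (Fin 2) (ZMod 5)) := by
  open H9 Subgroup in open scoped commutatorElement in
  have h := Zs.fc_of_division H
  let ψ : H →* D := (Units.coeHom D).comp H.subtype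
  have h1 : Function.Injective ψ := fun a b e => Subtype.ext (Units.ext e)
  rcases CharP.char_is_prime_or_zero D (ringChar D) with e | e
  · refine (hH (Group.isSolvable_of_comm fun a b => h1 ?_)).elim
    have := Fact.mk e
    letI := ZMod.algebra D (ringChar D)
    let E : Subalgebra (ZMod (ringChar D)) D := (Submodule.span _ (Set.range ψ)).toSubalgebra
      (Submodule.subset_span ⟨1, map_one ψ⟩) fun x y hx hy => by
        have := Submodule.mul_mem_mul hx hy
        rw [Submodule.span_mul_span] at this
        refine Submodule.span_mono ?_ this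
        rintro _ ⟨_, ⟨a, rfl⟩, _, ⟨b, rfl⟩, rfl⟩
        exact ⟨a * b, map_mul ψ a b⟩
    have : Module.Finite (ZMod (ringChar D)) E := Module.Finite.span_of_finite _ (Set.finite_range ψ)
    have : Finite E := Module.finite_of_finite (ZMod (ringChar D))
    rw [map_mul, map_mul]
    exact congrArg Subtype.val ((Finite.isDomain_to_isField E).mul_comm ⟨_, Submodule.subset_span ⟨a, rfl⟩⟩
      ⟨_, Submodule.subset_span ⟨b, rfl⟩⟩)
  · have := (CharP.ringChar_zero_iff_CharZero D).1 e
    exact Zs.amitsur (ρ := ψ) h ⟨fun g hg => (sub_ne_zero.2 fun e => hg (h1 (e.trans (map_one ψ).symm))).isUnit,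
      fun _ _ => h.order_mul⟩ hH

end Cfsg.Agent.S4294
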