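import Cfsg.Statements.S4295
import Cfsg.Agent.H1.QSq
import Cfsg.Agent.H9.Zs1
import Cfsg.Agent.H5.Dih

set_option autoImplicit false
open Cfsg

namespace Cfsg.Agent.S4295

open H1
theorem exists_mod (k : ℕ) : k ≠ 0 → ∃ (M : Type) (_ : AddCommGroup M) (_ : Finite M) (α β : M →+ M),
    (∀ x, α (α x) = -x) ∧ (∀ x, β (β x) = -x) ∧ (∀ x, α (β x) = -β (α x)) ∧ Nat.card M = k * k := by
  induction k using induction_on_primes with
  | zero => simp
  | one => exact fun _ => ⟨PUnit, inferInstance, inferInstance, 0, 0, fun _ => rfl, fun _ => rfl, fun _ => rfl, by simp⟩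
  | prime_mul p k hp ih =>
    intro h
    obtain ⟨M, _, _, α, β, h1, h2, h3, h4⟩ := ih (right_ne_zero_of_mul h)
    haveI := Fact.mk hp
    obtain ⟨a, b, hab⟩ := ZMod.sq_add_sq p (-1)
    let γ : ZMod p × ZMod p →+ ZMod p × ZMod p :=
      AddMonoidHom.mk' (fun x => (-x.2, x.1)) fun x y => by ext <;> simp; ring
    let δ : ZMod p × ZMod p →+ ZMod p × ZMod p :=
      AddMonoidHom.mk' (fun x => (a * x.1 + b * x.2, b * x.1 - a * x.2)) fun x y => by ext <;> simp <;> ring
    refine ⟨(ZMod p × ZMod p) × M, inferInstance, inferInstance, γ.prodMap α, δ.prodMap β, ?_, ?_, ?_, ?_⟩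
    · rintro ⟨⟨x, y⟩, m⟩
      simp [γ, h1]
    · rintro ⟨⟨x, y⟩, m⟩
      simp only [δ, AddMonoidHom.coe_prodMap, Prod.map, AddMonoidHom.mk'_apply, h2, Prod.neg_mk, Prod.mk.injEq,
        and_true]
      constructor
      · linear_combination x * hab
      · linear_combination y * hab
    · rintro ⟨⟨x, y⟩, m⟩
      simp only [γ, δ, AddMonoidHom.coe_prodMap, Prod.map, AddMonoidHom.mk'_apply, h3, Prod.neg_mk, Prod.mk.injEq,
        and_true]
      constructor <;> ring
    · rw [Nat.card_prod, Nat.card_prod, Nat.card_zmod, h4]; ring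

def mkAut {M : Type} [AddCommGroup M] (α : M →+ M) (h : ∀ x, α (α x) = -x) : MulAut (Multiplicative M) :=
  AddEquiv.toMultiplicative
    { toFun := α, invFun := fun x => -α x, left_inv := fun x => by simp [h],
      right_inv := fun x => by simp [h], map_add' := map_add α }

/-- For a natural number m the following are equivalent: (a) some finite group has a Frobenius complement isomorphic to the quaternion group of order 8 whose Frobenius kernel (the identity together with the elements lying in no conjugate of the complement) has exactly m elements; (b) m is an odd perfect square greater than 1. -/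
theorem result (m : ℕ) :
    (∃ (L : Type) (_ : Group L) (_ : Finite L) (H : Subgroup L), Cfsg.IsFrobeniusComplement H ∧
        Nonempty (H ≃* QuaternionGroup 2) ∧ Nat.card (Cfsg.frobeniusKernel H) = m) ↔
    (Odd m ∧ IsSquare m ∧ 1 < m) := by
  constructor
  · rintro ⟨L, _, _, H, hF, ⟨e⟩, rfl⟩
    have hP : IsPGroup 2 H := IsPGroup.of_card (n := 3) (by
      rw [Nat.card_congr e.toEquiv, Nat.card_eq_fintype_card, QuaternionGroup.card]; rfl)
    obtain ⟨h1, h2⟩ := kernel_odd_square hF hP le_rfl (fun h => by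
      have := (MulEquiv.isCyclic e).1 h
      have h3 := mul_comm' (QuaternionGroup.a 1 : QuaternionGroup 2) (QuaternionGroup.xa 0)
      exact absurd h3 (by decide))
    obtain ⟨N, hN, hNk, -, -, h0, -⟩ := IsFrob.exists_kernel hF
    refine ⟨h1, h2, ?_⟩
    rw [← hNk]
    exact (Subgroup.one_lt_card_iff_ne_bot N).2 h0
  · rintro ⟨h1, ⟨k, rfl⟩, h3⟩
    obtain ⟨M, _, _, α, β, ha, hb, hab, hc⟩ := exists_mod k (by rintro rfl; simp at h3)
    have er : ∀ x, mkAut α ha x = Multiplicative.ofAdd (α x.toAdd) := fun _ => rfl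
    have es : ∀ x, mkAut β hb x = Multiplicative.ofAdd (β x.toAdd) := fun _ => rfl
    have e2 : ∀ x, (mkAut α ha ^ 2) x = x⁻¹ := fun x => by
      rw [pow_two, MulAut.mul_apply, er, er]; simp [ha]
    let ρ := H5.quatHom 2 (mkAut α ha) (mkAut β hb) (by
      ext x; rw [pow_mul', pow_two, MulAut.mul_apply, e2, e2]; simp) (by
      ext x; rw [e2, MulAut.mul_apply, es, es]; simp [hb]) (by
      rw [mul_inv_eq_iff_eq_mul, eq_inv_mul_iff_mul_eq]
      ext x
      simp [er, es, hab, ha])
    have hz : ∀ x, ρ (QuaternionGroup.a 2) x = x⁻¹ := e2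
    have hM : Nat.card (Multiplicative M) = k * k := hc
    haveI : Nontrivial (Multiplicative M) := Finite.one_lt_card_iff_nontrivial.1 (hM ▸ h3)
    have hf : ∀ g ≠ 1, ∀ x, ρ g x = x → x = 1 := by
      intro g hg x hx
      have : g = QuaternionGroup.a 2 ∨ g * g = QuaternionGroup.a 2 := by
        clear hx
        revert g; decide
      have h4 : x⁻¹ = x := by
        rcases this with rfl | h
        · rw [← hz, hx]
        · rw [← hz, ← h, map_mul, MulAut.mul_apply, hx, hx]
      have h5 : orderOf x ∣ 2 := orderOf_dvd_of_pow_eq_one (by rw [pow_two]; nth_rewrite 1 [← h4]; simp)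
      have h6 : orderOf x ∣ k * k := hM ▸ orderOf_dvd_natCard x
      exact orderOf_eq_one_iff.1 (Nat.eq_one_of_dvd_coprimes (Nat.coprime_two_left.2 h1) h5 h6)
    obtain ⟨Γ, _, _, i, j, hi, hj, hij, -, h2, hn⟩ := H1.exists_ambient ρ
    have hfp := H9.Zs.fpf_of_action hi hij hf
    refine ⟨Γ, _, ‹_›, j.range, H1.isFrob_of_fpf (by rwa [sup_comm]) (H9.Zs.range_ne_bot hi)
      (H9.Zs.range_ne_bot hj) hfp, ⟨(MonoidHom.ofInjective hj).symm⟩, ?_⟩
    rw [frobeniusKernel_eq (by rwa [sup_comm]) hfp, ← hM]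
    exact card_range_of_injective hi

end Cfsg.Agent.S4295
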