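import Cfsg.Statements.S4296
import Cfsg.Agent.H1.QSq

set_option autoImplicit false
open Cfsg

namespace Cfsg.Agent.S4296

open H1

/-- Let H be a Frobenius complement in a finite group, and suppose some Sylow subgroup of H is not cyclic. Then the number of elements of the Frobenius kernel (the identity together with the elements lying in no conjugate of H) is an odd perfect square. -/
theorem result {L : Type*} [Group L] [Finite L] (H : Subgroup L) (hF : Cfsg.IsFrobeniusComplement H)
    (hZ : ∃ (p : ℕ) (_ : Fact p.Prime) (P : Sylow p H), ¬ IsCyclic P) :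
    Odd (Nat.card (Cfsg.frobeniusKernel H)) ∧ IsSquare (Nat.card (Cfsg.frobeniusKernel H)) := by
  obtain ⟨p, _, P, hP⟩ := hZ
  refine kernel_odd_square hF (p := p) (P := P.1.map H.subtype) (P.isPGroup'.map _)
    (Subgroup.map_subtype_le _) fun h => hP ?_
  exact (MulEquiv.isCyclic (Subgroup.equivMapOfInjective _ _ H.subtype_injective)).2 h

end Cfsg.Agent.S4296
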