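import Cfsg.Statements.S4297
import Cfsg.Agent.H9.Zs4
import Cfsg.Agent.H5.Dih

set_option autoImplicit false
open Cfsg

namespace Cfsg.Agent.S4297

open H1

/-- For every n ≥ 2 the dicyclic group of order 4n (generated by an element a of order 2n and an element x with x² = aⁿ and x a x⁻¹ = a⁻¹) occurs as a Frobenius complement of some finite Frobenius group. -/
theorem result (n : ℕ) (hn : 2 ≤ n) :
    ∃ (L : Type) (_ : Group L) (_ : Finite L) (H : Subgroup L), Cfsg.IsFrobeniusComplement H ∧ Nonempty (H ≃* QuaternionGroup n) := by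
  have hω := Complex.isPrimitiveRoot_exp (2 * n) (by omega)
  set ω := Complex.exp (2 * Real.pi * Complex.I / ((2 * n : ℕ) : ℂ)) with hωd
  have hω0 : ω ≠ 0 := Complex.exp_ne_zero _
  have hinj : Function.Injective Quaternion.ofComplex := Quaternion.ofComplex.toRingHom.injective
  let f : ℂˣ →* (Quaternion ℝ)ˣ := Units.map Quaternion.ofComplex.toRingHom.toMonoidHom
  have hf : Function.Injective f := Units.map_injective hinj
  let r := f (Units.mk0 ω hω0)
  let J : Quaternion ℝ := ⟨0, 0, 1, 0⟩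
  have hJ : J ≠ 0 := fun h => one_ne_zero (congrArg QuaternionAlgebra.imJ h : (1 : ℝ) = 0)
  have j1 : J.re = 0 := rfl
  have j2 : J.imI = 0 := rfl
  have j3 : J.imJ = 1 := rfl
  have j4 : J.imK = 0 := rfl
  clear_value J
  let s : (Quaternion ℝ)ˣ := Units.mk0 J hJ
  have hr : orderOf r = 2 * n := by
    rw [orderOf_injective f hf, ← orderOf_units, Units.val_mk0, ← hω.eq_orderOf]
  have hn1 : ω ^ n = -1 := (hω.pow (by omega) (mul_comm 2 n)).eq_neg_one_of_two_right
  have hs : s * s = r ^ n := by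
    rw [← map_pow]
    apply Units.ext
    show J * J = Quaternion.ofComplex (ω ^ n)
    rw [hn1, map_neg, map_one]
    apply Quaternion.ext <;> simp [j1, j2, j3, j4] <;> rfl
  have hnorm : ω⁻¹ = (starRingEnd ℂ) ω := Complex.inv_eq_conj (hω.norm'_eq_one (by omega))
  have h : s * r * s⁻¹ = r⁻¹ := by
    rw [mul_inv_eq_iff_eq_mul, ← map_inv]
    apply Units.ext
    show J * Quaternion.ofComplex ω = Quaternion.ofComplex ((Units.mk0 ω hω0)⁻¹ : ℂˣ) * J
    rw [Units.val_inv_eq_inv_val, Units.val_mk0, hnorm]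
    apply Quaternion.ext <;> simp [j1, j2, j3, j4]
  have hsr : s ∉ Subgroup.zpowers r := by
    rintro ⟨k, hk⟩
    have e : r = r⁻¹ := by rw [← h, ← hk]; group
    have : orderOf r ∣ 2 := orderOf_dvd_of_pow_eq_one (by rw [pow_two]; nth_rewrite 1 [e]; simp)
    have := Nat.le_of_dvd two_pos this
    omega
  obtain ⟨e⟩ := H5.quat_equiv_closure (by omega) r s hr hs h hsr
  haveI : NeZero n := ⟨by omega⟩
  haveI : Finite (Subgroup.closure {r, s}) := Finite.of_equiv _ e.symm.toEquiv
  obtain ⟨L, _, _, H, h1, ⟨e'⟩⟩ := ((H9.Zs.fc_of_division _).comp e.symm.toMonoidHom e.symm.injective).isFC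
  exact ⟨L, _, ‹_›, H, h1, ⟨e'.symm⟩⟩

end Cfsg.Agent.S4297
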