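import Cfsg.Statements.S4298
import Cfsg.Agent.H5.SL2X
import Cfsg.Agent.S2427

set_option autoImplicit false
open Cfsg

namespace Cfsg.Agent.S4298

open H5
open scoped commutatorElement

instance : Fact (Nat.Prime 7) := ⟨by norm_num⟩

/-- The group SL(2,3) of order 24 (the binary tetrahedral group) occurs as a Frobenius complement of some finite Frobenius group. -/
theorem result :
    ∃ (L : Type) (_ : Group L) (_ : Finite L) (H : Subgroup L), Cfsg.IsFrobeniusComplement H ∧ Nonempty (H ≃* Matrix.SpecialLinearGroup (Fin 2) (ZMod 3)) := by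

  obtain ⟨φ, h1, h2, -⟩ := hom_SL23 (x := sl2 (0 : ZMod 7) (-1) 1 (-1) (by simp)) (y := sl2 2 0 2 4 (by decide))
    (by decide +kernel) (by decide +kernel) (by decide +kernel)
  have : Nontrivial (SL2 (ZMod 3)) := ⟨1, -1, by decide⟩
  have h3 : φ (-1) ≠ 1 := by
    rw [show (-1 : SL2 (ZMod 3)) = (up 1 * sl2 1 0 (-1) 1 (by simp)) ^ 3 by decide +kernel, map_pow, map_mul, h1, h2]
    decide +kernel
  refine exists_frob 7 φ ((MonoidHom.ker_eq_bot_iff φ).1 ?_) (by rw [card_SL23]; norm_num)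
  rcases Cfsg.Agent.S2427.result.2.2.2.2.2 _ φ.normal_ker with h | h | h | h
  · exact h
  · exact (h3 (h.ge (Subgroup.mem_top _))).elim
  · exact (h3 (h.ge (mem_center_SL2.2 (Or.inr rfl)))).elim
  · refine (h3 (h.ge ?_)).elim
    have := Subgroup.commutator_mem_commutator (Subgroup.mem_top (sl2 (0 : ZMod 3) (-1) 1 0 (by simp)))
      (Subgroup.mem_top (sl2 (1 : ZMod 3) 1 1 (-1) (by decide)))
    rwa [show ⁅sl2 (0 : ZMod 3) (-1) 1 0 (by simp), sl2 (1 : ZMod 3) 1 1 (-1) (by decide)⁆ = -1 by decide +kernel] at this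


end Cfsg.Agent.S4298
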