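import Cfsg.Statements.S4299
import Cfsg.Agent.H9.Zs4

set_option autoImplicit false
open Cfsg

namespace Cfsg.Agent.S4299

open H1

/-- Every nontrivial finite cyclic group occurs as a Frobenius complement of some finite Frobenius group. -/
theorem result {C : Type*} [Group C] [Finite C] [IsCyclic C] [Nontrivial C] :
    ∃ (L : Type) (_ : Group L) (_ : Finite L) (H : Subgroup L), Cfsg.IsFrobeniusComplement H ∧ Nonempty (C ≃* H) := by
  haveI : NeZero (Nat.card C) := ⟨Nat.card_pos.ne'⟩
  have e : C ≃* rootsOfUnity (Nat.card C) ℂ := mulEquivOfCyclicCardEq (by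
    rw [HasEnoughRootsOfUnity.natCard_rootsOfUnity])
  exact ((H9.Zs.fc_of_division _).comp e.toMonoidHom e.injective).isFC

end Cfsg.Agent.S4299
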