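import Cfsg.Statements.S4300
import Cfsg.Agent.H9.Basic

set_option autoImplicit false
open Cfsg

namespace Cfsg.Agent.S4300

open Subgroup MulAction in

/-- Let G act faithfully and primitively on a set X, and suppose the stabilizer of some point is a simple group. Then either G is simple, or G has a normal subgroup, neither trivial nor the whole group, that acts regularly on X (transitively with trivial point stabilizers). -/
theorem result {G : Type*} [Group G] {X : Type*} [MulAction G X] [FaithfulSMul G X]
    (hprim : MulAction.IsPreprimitive G X) (x : X) (hsimple : IsSimpleGroup (MulAction.stabilizer G x)) :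
    IsSimpleGroup G ∨ ∃ N : Subgroup G, N.Normal ∧ N ≠ ⊥ ∧ N ≠ ⊤ ∧
      MulAction.IsPretransitive N X ∧ ∀ y : X, MulAction.stabilizer N y = ⊥ := by
  by_contra hc
  push Not at hc
  obtain ⟨h1, h2⟩ := hc
  apply h1
  haveI : Nontrivial G := (stabilizer G x).subtype_injective.nontrivial
  refine ⟨fun N hN => ?_⟩
  by_contra hc
  push Not at hc
  have htr : IsPretransitive N X := by
    refine (IsPreprimitive.isQuasiPreprimitive (M := G) (α := X)).isPretransitive_of_normal ?_
    intro e
    apply hc.1
    rw [eq_bot_iff]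
    intro n hn
    rw [mem_bot]
    refine FaithfulSMul.eq_of_smul_eq_smul (α := X) fun y => ?_
    have : y ∈ fixedPoints N X := e ▸ Set.mem_univ y
    simpa using this ⟨n, hn⟩
  obtain ⟨y, hy⟩ := h2 N hN hc.1 hc.2 htr
  rcases hsimple.eq_bot_or_eq_top_of_normal (N.subgroupOf (stabilizer G x)) inferInstance with e | e
  · apply hy
    rw [eq_bot_iff]
    intro n hn
    obtain ⟨g, rfl⟩ := exists_smul_eq G x y
    have h3 : g⁻¹ * n * g ∈ stabilizer G x := by
      rw [mem_stabilizer_iff, mul_smul, mul_smul]
      have : (n : G) • g • x = g • x := hn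
      rw [this, inv_smul_smul]
    have h4 : (⟨_, h3⟩ : stabilizer G x) ∈ N.subgroupOf (stabilizer G x) := by
      simpa [mem_subgroupOf] using hN.conj_mem _ n.2 g⁻¹
    rw [e, mem_bot] at h4
    have h5 : g⁻¹ * n * g = 1 := congrArg Subtype.val h4
    rw [mem_bot]
    apply Subtype.ext
    calc (n : G) = g * (g⁻¹ * n * g) * g⁻¹ := by group
      _ = 1 := by rw [h5]; simp
  · apply hc.2
    rw [eq_top_iff]
    intro g _
    obtain ⟨n, hn⟩ := exists_smul_eq N x (g • x)
    have h3 : (n : G)⁻¹ * g ∈ stabilizer G x := by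
      rw [mem_stabilizer_iff, mul_smul, ← hn]
      exact inv_smul_smul (n : G) x
    have h4 : (⟨_, h3⟩ : stabilizer G x) ∈ N.subgroupOf (stabilizer G x) := e ▸ mem_top _
    simpa using N.mul_mem n.2 (mem_subgroupOf.1 h4)

end Cfsg.Agent.S4300
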