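import Cfsg.Statements.S4301
import Cfsg.Agent.H2.Half

set_option autoImplicit false
open Cfsg

namespace Cfsg.Agent.S4301

open Equiv Subgroup in

/-- One-point extension of a multiply transitive group. Let X be a set and G a group of permutations of Option X (the set X with one extra point ∗ = none) all of whose elements fix ∗, such that G is k-transitive on the points of X for some k ≥ 2, X having at least k points. Suppose a permutation h of Option X and an element g of G satisfy: h interchanges ∗ with a point x of X and fixes a point y of X; g interchanges x and y; (g h)³ and h² lie in G; and for every f in G fixing x, the product h f h lies in G and fixes x. Then an element of the group generated by G and h fixes ∗ exactly when it lies in G, and that group acts (k+1)-transitively on Option X. -/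
theorem result {X : Type*} (G : Subgroup (Equiv.Perm (Option X))) (hfix : ∀ f ∈ G, f none = none)
    (k : ℕ) (hk : 2 ≤ k) (hkX : Nonempty (Fin k ↪ X))
    (htrans : ∀ a b : Fin k ↪ X, ∃ f ∈ G, ∀ i, f (some (a i)) = some (b i))
    (h g : Equiv.Perm (Option X)) (hg : g ∈ G) (x y : X)
    (h1 : h none = some x) (h2 : h (some x) = none) (h3 : h (some y) = some y)
    (h4 : g (some x) = some y) (h5 : g (some y) = some x)
    (h6 : (g * h) ^ 3 ∈ G) (h7 : h ^ 2 ∈ G)
    (h8 : ∀ f ∈ G, f (some x) = some x → h * f * h ∈ G ∧ (h * f * h) (some x) = some x) :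
    (∀ f ∈ Subgroup.closure ((G : Set (Equiv.Perm (Option X))) ∪ {h}), f none = none ↔ f ∈ G) ∧
      MulAction.IsMultiplyPretransitive (Subgroup.closure ((G : Set (Equiv.Perm (Option X))) ∪ {h})) (Option X) (k + 1) := by
  have hxy : x ≠ y := by rintro rfl; rw [h2] at h3; cases h3
  have hs : ∀ f ∈ G, ∀ a, ∃ b, f (some a) = some b := by
    intro f hf a
    cases e : f (some a) with
    | none => exact absurd (f.injective (e.trans (hfix f hf).symm)) (by simp)
    | some b => exact ⟨b, rfl⟩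
  classical
  obtain ⟨e⟩ := hkX
  have t2 : ∀ a b c d : X, a ≠ b → c ≠ d → ∃ f ∈ G, f (some a) = some c ∧ f (some b) = some d := by
    have : ∀ a b : X, a ≠ b → ∃ e' : Fin k ↪ X, e' ⟨0, by omega⟩ = a ∧ e' ⟨1, by omega⟩ = b := by
      intro a b hab
      refine ⟨(e.trans (swap (e ⟨0, by omega⟩) a).toEmbedding).trans
        (swap (swap (e ⟨0, by omega⟩) a (e ⟨1, by omega⟩)) b).toEmbedding, ?_, by simp⟩
      simp only [Function.Embedding.trans_apply, Equiv.coe_toEmbedding, swap_apply_left]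
      refine swap_apply_of_ne_of_ne (fun h' => ?_) hab
      have := (swap (e ⟨0, by omega⟩) a).injective ((swap_apply_left _ _).trans h')
      simpa using e.injective this
    intro a b c d hab hcd
    obtain ⟨e1, h1, h2⟩ := this a b hab
    obtain ⟨e2, h3, h4⟩ := this c d hcd
    obtain ⟨f, hf, h5⟩ := htrans e1 e2
    exact ⟨f, hf, h1 ▸ h3 ▸ h5 _, h2 ▸ h4 ▸ h5 _⟩
  have hah : ∀ a ∈ G, h * a * h ∈ G ∨ ∃ u ∈ G, ∃ v ∈ G, h * a * h = u * h * v := by
    intro a ha
    obtain ⟨b, hb⟩ := hs a ha x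
    by_cases hbx : b = x
    · exact Or.inl (h8 a ha (hbx ▸ hb)).1
    obtain ⟨u, hu, u1, u2⟩ := t2 x y x b hxy (Ne.symm hbx)
    have hv : g⁻¹ * u⁻¹ * a ∈ G := G.mul_mem (G.mul_mem (G.inv_mem hg) (G.inv_mem hu)) ha
    have hvx : (g⁻¹ * u⁻¹ * a) (some x) = some x := by
      simp only [Perm.mul_apply, hb, ← u2, ← h4]; simp
    refine Or.inr ⟨h * u * h * (h ^ 2)⁻¹ * g⁻¹ * (g * h) ^ 3 * (h ^ 2)⁻¹, ?_,
      g⁻¹ * (h ^ 2)⁻¹ * (h * (g⁻¹ * u⁻¹ * a) * h), ?_, ?_⟩
    · exact G.mul_mem (G.mul_mem (G.mul_mem (G.mul_mem (h8 u hu u1).1 (G.inv_mem h7)) (G.inv_mem hg)) h6) (G.inv_mem h7)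
    · exact G.mul_mem (G.mul_mem (G.inv_mem hg) (G.inv_mem h7)) (h8 _ hv hvx).1
    · simp [pow_succ, mul_assoc]
  have hK : ∀ f ∈ closure ((G : Set (Perm (Option X))) ∪ {h}), f ∈ G ∨ ∃ u ∈ G, ∃ v ∈ G, f = u * h * v := by
    have l1 : ∀ a ∈ G, ∀ f, (f ∈ G ∨ ∃ u ∈ G, ∃ v ∈ G, f = u * h * v) →
        (a * f ∈ G ∨ ∃ u ∈ G, ∃ v ∈ G, a * f = u * h * v) := by
      rintro a ha f (hf | ⟨u, hu, v, hv, rfl⟩)
      · exact Or.inl (G.mul_mem ha hf)
      · exact Or.inr ⟨a * u, G.mul_mem ha hu, v, hv, by simp [mul_assoc]⟩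
    have l2 : ∀ f, (f ∈ G ∨ ∃ u ∈ G, ∃ v ∈ G, f = u * h * v) →
        (h * f ∈ G ∨ ∃ u ∈ G, ∃ v ∈ G, h * f = u * h * v) := by
      rintro f (hf | ⟨u, hu, v, hv, rfl⟩)
      · exact Or.inr ⟨1, G.one_mem, f, hf, by simp⟩
      · rcases hah u hu with h' | ⟨a, ha, b, hb, h'⟩
        · exact Or.inl (by simpa [mul_assoc] using G.mul_mem h' hv)
        · exact Or.inr ⟨a, ha, b * v, G.mul_mem hb hv, by rw [← mul_assoc, ← mul_assoc, h', mul_assoc]⟩
    intro f hf
    induction hf using closure_induction_left with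
    | one => exact Or.inl G.one_mem
    | mul_left a ha f _ ih =>
      rcases ha with ha | rfl
      · exact l1 a ha f ih
      · exact l2 f ih
    | inv_mul_cancel a ha f _ ih =>
      rcases ha with ha | rfl
      · exact l1 _ (G.inv_mem ha) f ih
      · have := l1 _ (G.inv_mem h7) _ (l2 f ih)
        simpa [pow_two, mul_assoc] using this
  have hGK : ∀ f ∈ G, f ∈ closure ((G : Set (Perm (Option X))) ∪ {h}) := fun f hf => subset_closure (Or.inl hf)
  have hh : h ∈ closure ((G : Set (Perm (Option X))) ∪ {h}) := subset_closure (Or.inr rfl)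
  refine ⟨fun f hf => ⟨fun h0 => (hK f hf).resolve_right ?_, hfix f⟩, ?_⟩
  · rintro ⟨u, hu, v, hv, rfl⟩
    obtain ⟨b, hb⟩ := hs u hu x
    simp [hfix v hv, h1, hb] at h0
  · have mv : ∀ a : Fin (k + 1) ↪ Option X, ∃ w ∈ closure ((G : Set (Perm (Option X))) ∪ {h}), ∃ c : Fin k ↪ X,
        w (a 0) = none ∧ ∀ i, w (a i.succ) = some (c i) := by
      intro a
      obtain ⟨w, hw, h0⟩ : ∃ w ∈ closure ((G : Set (Perm (Option X))) ∪ {h}), w (a 0) = none := by
        cases e0 : a 0 with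
        | none => exact ⟨1, one_mem _, rfl⟩
        | some b =>
          obtain ⟨c, hc⟩ : ∃ c, b ≠ c := by
            by_cases hb : b = x
            · exact ⟨y, hb ▸ hxy⟩
            · exact ⟨x, hb⟩
          obtain ⟨f, hf, f1, -⟩ := t2 b c x y hc hxy
          exact ⟨h * f, mul_mem hh (hGK f hf), by simp [f1, h2]⟩
      have : ∀ i : Fin k, ∃ c, w (a i.succ) = some c := fun i => Option.ne_none_iff_exists'.1 fun e' =>
        Fin.succ_ne_zero i (a.injective (w.injective (e'.trans h0.symm)))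
      choose c hc using this
      exact ⟨w, hw, ⟨c, fun i j e' => Fin.succ_injective _ (a.injective (w.injective (by rw [hc, hc, e'])))⟩, h0, hc⟩
    refine ⟨fun a b => ?_⟩
    obtain ⟨w, hw, c, a0, a1⟩ := mv a
    obtain ⟨w', hw', c', b0, b1⟩ := mv b
    obtain ⟨f, hf, hf'⟩ := htrans c c'
    refine ⟨⟨w'⁻¹ * f * w, mul_mem (mul_mem (inv_mem hw') (hGK f hf)) hw⟩, ?_⟩
    ext1 i
    show w'⁻¹ (f (w (a i))) = b i
    rw [Perm.inv_eq_iff_eq]
    refine Fin.cases ?_ (fun i => ?_) i
    · rw [a0, b0, hfix f hf]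
    · rw [a1, b1, hf']

end Cfsg.Agent.S4301
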