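import Cfsg.Statements.S4302
import Cfsg.Agent.H1.Q2

set_option autoImplicit false
open Cfsg

namespace Cfsg.Agent.S4302

open H1
open Subgroup H9

/-- Let `X` be a finite solvable group whose Fitting subgroup is a 2-group (equivalently `F(X) = O₂(X)`), `T` a Sylow 2-subgroup of `X`, `J(T)` the subgroup generated by the abelian subgroups of `T` of largest order, `C` the largest normal subgroup of `X` centralizing the centre `Z(T)`, and `Y` the normal closure of `J(T)` in `X`. Then `X = C · Y · N_X(J(T))`, and either `Y ≤ C`, or `CY/C` is isomorphic to a direct product of at least one copy of the symmetric group of degree 3. -/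
theorem result {X : Type*} [Group X] [Finite X]
    [Group.IsSolvable X] (hF : Cfsg.fittingSubgroup X = Cfsg.pCore 2 X) (T : Sylow 2 X) :
    ((Subgroup.centralizer (((T : Subgroup X) ⊓ Subgroup.centralizer ((T : Subgroup X) : Set X) : Subgroup X) : Set X)).normalCore
        ⊔ Subgroup.normalClosure (Cfsg.thompsonSubgroupAOf (T : Subgroup X) : Set X)
        ⊔ Subgroup.normalizer (Cfsg.thompsonSubgroupAOf (T : Subgroup X) : Set X) = ⊤) ∧
    (Subgroup.normalClosure (Cfsg.thompsonSubgroupAOf (T : Subgroup X) : Set X)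
        ≤ (Subgroup.centralizer (((T : Subgroup X) ⊓ Subgroup.centralizer ((T : Subgroup X) : Set X) : Subgroup X) : Set X)).normalCore
      ∨ ∃ n : ℕ, 1 ≤ n ∧
        Nonempty (↥(Subgroup.normalClosure (Cfsg.thompsonSubgroupAOf (T : Subgroup X) : Set X)) ⧸
            ((Subgroup.centralizer (((T : Subgroup X) ⊓ Subgroup.centralizer ((T : Subgroup X) : Set X) : Subgroup X) : Set X)).normalCore).subgroupOf
              (Subgroup.normalClosure (Cfsg.thompsonSubgroupAOf (T : Subgroup X) : Set X))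
          ≃* (Fin n → Equiv.Perm (Fin 3)))) := by
  have hT := syl_top_of_sylow T
  rw [JA_eq, ← ncl_top]
  generalize (T : Subgroup X) = T at *
  have nY := le_normalizer_ncl (JA T) ⊤
  have cO : centralizer (Op 2 (⊤ : Subgroup X) : Set X) ≤ Op 2 ⊤ := by
    rw [Op_top, ← hF]; exact centralizer_fitting_le
  refine ⟨?_, ?_⟩
  · have := (hT.inf_normal le_top nY).frattini le_top nY
    refine top_le_iff.1 (this.ge.trans
      (sup_le (le_sup_of_le_left le_sup_right) (le_sup_of_le_right (inf_le_right.trans ?_))))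
    exact (normalizer_JA le_rfl).trans
      (congrArg (fun K : Subgroup X => normalizer (K : Set X)) (JA_eq_of_le (le_inf (JA_le T) (le_ncl _ ⊤)) inf_le_left)).le
  have n0 := le_normalizer_ncl (Zc T) ⊤
  have l0 : ncl (Zc T) ⊤ ≤ Zc (Op 2 ⊤) := ncl_le
    (le_inf ((inf_le_right.trans (centralizer_le hT.Op_le)).trans cO) (inf_le_right.trans (centralizer_le hT.Op_le)))
    (normalizer_Zc (le_normalizer_Op 2 ⊤))
  have c0 := isMulCommutative_of_le l0 (Zc_comm _)
  have p0 := (Op_p 2 (⊤ : Subgroup X)).to_le (l0.trans inf_le_left)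
  have nW : ⊤ ≤ normalizer (omegaOne 2 (ncl (Zc T) ⊤) : Set X) := L.normalizer_omegaOne n0
  have eW := L.isElem_omegaOne_of_comm (n := 2) c0
  have lW : omegaOne 2 (ncl (Zc T) ⊤) ≤ Op 2 ⊤ := (L.omegaOne_le _ _).trans (l0.trans inf_le_left)
  have k1 : ∀ D : Subgroup X, ⊤ ≤ normalizer (D : Set X) →
      Ores 2 D ≤ centralizer (omegaOne 2 (ncl (Zc T) ⊤) : Set X) → D ≤ (centralizer (Zc T : Set X)).normalCore :=
    fun D h1 h2 => by
      have : D.Normal := normalizer_eq_top_iff.1 (top_le_iff.1 h1)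
      rw [normal_le_normalCore, ← hT.eq_Ores_sup le_top h1]
      refine sup_le (Ores_le_iff.2 fun Q h3 h4 => le_centralizer_iff.1 ((le_ncl _ ⊤).trans
        (le_centralizer_of_omega_comm h4 p0 c0 (le_top.trans n0) (le_centralizer_iff.1 ((le_Ores h3 h4).trans h2)))))
        (inf_le_left.trans (le_centralizer_iff.1 inf_le_right))
  have k2 : (centralizer (Zc T : Set X)).normalCore = centralizer (omegaOne 2 (ncl (Zc T) ⊤) : Set X) :=
    le_antisymm (le_centralizer_iff.1 ((L.omegaOne_le _ _).trans (ncl_le_centralizer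
      (le_centralizer_iff.1 (normalCore_le _)) (nrm _ _)))) (k1 _ (normalizer_centralizer nW) (Ores_le _ _))
  rw [k2] at k1
  have hO := k1 _ (Opm_spec (p := 2) ⊤ _).1 (Opm_spec (p := 2) ⊤ _).2
  by_cases hY : ncl (JA T) ⊤ ≤ (centralizer (Zc T : Set X)).normalCore
  · exact .inl hY
  generalize omegaOne 2 (ncl (Zc T) ⊤) = W at *
  obtain ⟨Γ, _, _, i, f, h⟩ := exists_hol W
  have t := h.fp eW nW (psol_of_solvable inferInstance) hO (SN.of_normal le_top nY)
  have YN := (le_top (a := ncl (JA T) ⊤)).trans nW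
  have g : im f (ncl (JA T) ⊤) = ⨆ A : {A : Subgroup Γ // A ≤ im f (ncl (JA T) ⊤) ∧ IsBestOffenderOn 2 (im i W) A}, A.1 := by
    refine le_antisymm ((im_le_iff f YN).2 (ncl_le_iff.2 fun x _ => ?_)) (iSup_le fun A => A.2.1)
    have l := cj_le_ncl (JA T) (mem_top x)
    rw [cj_JA] at l ⊢
    refine JA_le_iff.2 fun A hA => (im_le_iff f (le_top.trans nW)).1 (le_iSup_of_le ⟨_, im_mono f ((le_JA hA).trans l),
      h.bo_comm t ((le_JA hA).trans l) (le_top.trans nW) hA.2.1 ((isPGroup_cj x hT.isP).to_le hA.1)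
        (ms_le_of_MA hA (lW.trans (hT.cj_of_mem (Subgroup.le_normalizer (mem_top x))).Op_le) eW.1)⟩ le_rfl)
  have ne : im f (ncl (JA T) ⊤) ≠ ⊥ := by rwa [Ne, im_eq_bot_iff f YN, h.kr_f, ← k2]
  obtain ⟨-, h1, h2, h3, -⟩ := S0617.result _ _ t.el t.nv t.fa (fun x hx => by
    rw [← subgroupOf_Op']
    exact t.cc ⟨x.2, fun y hy => congrArg Subtype.val (hx ⟨y, Op'_le _ _ hy⟩ (by rwa [← subgroupOf_Op']))⟩) g ne
  obtain ⟨e⟩ := equiv_pi _ (fun E => (h1 E).1) h2 h3 fun E => ⟨(h1 E).2.1.some.trans sl2_perm3.some⟩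
  obtain ⟨φ, h4, h5⟩ := exists_comp f e.toMonoidHom YN le_rfl
  have h6 : kr e.toMonoidHom = ⊥ := by rw [kr, (MonoidHom.ker_eq_bot_iff _).2 e.injective, Subgroup.map_bot]
  rw [h6, pre_bot, h.kr_f, ← k2] at h4
  obtain ⟨_, e'⟩ := sect_of_comp φ (h5 (im_self _ e.surjective)) h4
  refine .inr ⟨_, Nat.one_le_iff_ne_zero.2 fun z => ne ?_, e'⟩
  rw [← h3]
  have := (Nat.card_eq_zero.1 z).resolve_right (not_infinite_iff_finite.2 inferInstance)
  exact iSup_of_empty _

end Cfsg.Agent.S4302
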