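import Cfsg.Statements.S4304
import Cfsg.Agent.H1.Syl22

set_option autoImplicit false
open Cfsg

namespace Cfsg.Agent.S4304

open H1

/-- No finite group has exactly 15 Sylow 7-subgroups. -/
theorem result {G : Type*} [Group G] [Finite G] : Nat.card (Sylow 7 G) ≠ 15 := by
  intro h
  haveI : Fact (Nat.Prime 7) := ⟨by norm_num⟩
  obtain ⟨l, h1, h2⟩ := sylow_list (p := 7) G
  rw [h] at h1
  have h3 : ∀ m ∈ l, m = 1 := fun m hm => by
    have h4 : m ∣ 15 := h1 ▸ List.dvd_prod hm
    have h5 := Nat.le_of_dvd (by norm_num) h4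
    have h6 : m % 7 = 1 ∧ m ≠ 15 := by
      rcases h2 m hm with ⟨e1, e2⟩ | ⟨S, _, _, _, rfl, -⟩
      · exact ⟨e2, by
          rintro rfl
          obtain ⟨q, k, hq, -, e⟩ := (isPrimePow_nat_iff _).1 e1
          have a1 := (Nat.prime_dvd_prime_iff_eq (by norm_num) hq).1
            (Nat.Prime.dvd_of_dvd_pow (p := 3) (by norm_num) (e ▸ by norm_num : 3 ∣ q ^ k))
          have a2 := (Nat.prime_dvd_prime_iff_eq (by norm_num) hq).1
            (Nat.Prime.dvd_of_dvd_pow (p := 5) (by norm_num) (e ▸ by norm_num : 5 ∣ q ^ k))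
          omega⟩
      · exact ⟨card_sylow_modEq_one 7 S, card_sylow_seven⟩
    interval_cases m <;> omega
  rw [List.prod_eq_one h3] at h1
  omega

end Cfsg.Agent.S4304
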