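import Cfsg.Statements.S4305
import Cfsg.Agent.H1.Fpa2

set_option autoImplicit false
open Cfsg

namespace Cfsg.Agent.S4305

open scoped commutatorElement
open H1

/-- Let the symmetric group of degree 3 act by automorphisms on a finite solvable group `G` of order prime to 6, so that only the identity of `G` is fixed by all of it. Then the derived subgroup of `G` is nilpotent. -/
theorem result {G : Type*} [Group G] [Finite G] [Group.IsSolvable G]
    [MulDistribMulAction (Equiv.Perm (Fin 3)) G] (hcop : (Nat.card G).Coprime 6)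
    (hfpf : ∀ g : G, (∀ a : Equiv.Perm (Fin 3), a • g = g) → g = 1) :
    Group.IsNilpotent ↥(commutator G) := by
  obtain ⟨Γ, _, _, i, j, hi, hj, hij, -, h2, h3⟩ := exists_ambient (K := G)
    (MulDistribMulAction.toMulAut (Equiv.Perm (Fin 3)) G)
  have hfp : i.range ⊓ Subgroup.centralizer (j.range : Set Γ) = ⊥ := eq_bot_iff.2 (by
    rintro _ ⟨⟨x, rfl⟩, hx⟩
    rw [hfpf x ((mem_centralizer_range_iff hi hij).1 hx), map_one]
    exact Subgroup.one_mem _)
  have h6 : Nat.card (Equiv.Perm (Fin 3)) = 6 := by rw [Nat.card_perm]; simp [Nat.factorial]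
  have key : ∀ a : Equiv.Perm (Fin 3), a ≠ 1 → ((finRotate 3 = a ∨ finRotate 3 = a * a) ∧
      (a = finRotate 3 ∨ a = finRotate 3 * finRotate 3)) ∨ (a * a = 1 ∧ a * finRotate 3 * a⁻¹ = (finRotate 3)⁻¹ ∧
      ∀ b, b ≠ 1 → b ≠ a → ∀ x, x = 1 ∨ x = a ∨ x = b ∨ x = a * b ∨ x = b * a ∨ x = a * b * a) := by decide
  have := fpa_red (fun Δ _ K => IsMulCommutative K) (fun Δ _ _ j K F _ _ W _ _ _ ρ hj h =>
    core_s3 h (f := j (finRotate 3)) ⟨_, rfl⟩ (by
      rw [orderOf_injective j hj]; exact orderOf_eq_prime (by decide) (by decide))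
      (Nat.Coprime.coprime_dvd_right (by rw [card_range_of_injective hj, h6]; norm_num) h.cop.symm) ?_ ?_) Γ j i.range hj
    ⟨h3, isSolvable_range, by rw [card_range_of_injective hj, card_range_of_injective hi, h6]; exact hcop.symm,
      hfp, sup_comm j.range _ ▸ h2⟩ ⁅i.range, i.range⁆
    (Subgroup.commutator_le_right _ _) inferInstance fun Δ _ f hf => by
      rw [← Subgroup.map_eq_bot_iff, Subgroup.map_commutator]
      exact Subgroup.commutator_eq_bot_iff_le_centralizer.2 (Subgroup.le_centralizer _)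
  · rw [MonoidHom.range_eq_map, ← Subgroup.map_commutator] at this
    haveI : Group.IsNilpotent ((commutator G).map i) := this
    exact Group.nilpotent_of_mulEquiv ((commutator G).equivMapOfInjective i hi).symm
  · rintro _ ⟨a, rfl⟩ ha
    refine (key a fun e => ha (e ▸ map_one j)).imp (fun ⟨e1, e2⟩ => ⟨?_, ?_⟩) fun ⟨e1, e2, e3⟩ => ⟨?_, ?_, ?_⟩
    · rcases e1 with e | e <;> rw [e]
      · exact Subgroup.mem_zpowers _
      · rw [map_mul]; exact Subgroup.mul_mem _ (Subgroup.mem_zpowers _) (Subgroup.mem_zpowers _)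
    · rcases e2 with e | e <;> rw [e]
      · exact Subgroup.mem_zpowers _
      · rw [map_mul]; exact Subgroup.mul_mem _ (Subgroup.mem_zpowers _) (Subgroup.mem_zpowers _)
    · rw [← map_mul, e1, map_one]
    · rw [← map_inv, ← map_inv, ← map_mul, ← map_mul, e2]
    · rintro _ ⟨b, rfl⟩ b1 b2 _ ⟨x, rfl⟩
      have u1 : j a ∈ Subgroup.zpowers (j a) ⊔ Subgroup.zpowers (j b) := Subgroup.mem_sup_left (Subgroup.mem_zpowers _)
      have u2 : j b ∈ Subgroup.zpowers (j a) ⊔ Subgroup.zpowers (j b) := Subgroup.mem_sup_right (Subgroup.mem_zpowers _)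
      rcases e3 b (fun e => b1 (e ▸ map_one j)) (fun e => b2 (e ▸ rfl)) x with e | e | e | e | e | e <;>
        simp only [e, map_mul, map_one]
      exacts [Subgroup.one_mem _, u1, u2, Subgroup.mul_mem _ u1 u2, Subgroup.mul_mem _ u2 u1,
        Subgroup.mul_mem _ (Subgroup.mul_mem _ u1 u2) u1]
  · intro e
    have := Subgroup.card_le_of_le e
    rw [card_range_of_injective hj, h6, Nat.card_zpowers, orderOf_injective j hj,
      orderOf_eq_prime (p := 3) (by decide) (by decide)] at this
    omega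

end Cfsg.Agent.S4305
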