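import Cfsg.Statements.S4306
import Cfsg.Agent.H1.Pq2

set_option autoImplicit false
open Cfsg

namespace Cfsg.Agent.S4306

open H1

/-- Let `A` be a non-abelian group of order `pq` with `p, q` distinct primes, acting by automorphisms on a finite solvable group `G` of order prime to `pq`, so that only the identity of `G` is fixed by all of `A`. Then `G` has Fitting height at most 2: there is a normal nilpotent subgroup `F` of `G` with `G/F` nilpotent. -/
theorem result {G A : Type*} [Group G] [Finite G]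
    [Group.IsSolvable G] [Group A] [Finite A] [MulDistribMulAction A G] (p q : ℕ) (hp : p.Prime) (hq : q.Prime) (hpq : p ≠ q)
    (hA : Nat.card A = p * q) (hAna : ¬ IsMulCommutative A) (hcop : (Nat.card G).Coprime (p * q))
    (hfpf : ∀ g : G, (∀ a : A, a • g = g) → g = 1) :
    ∃ F : Subgroup G, ∃ hF : F.Normal, Group.IsNilpotent ↥F ∧ Group.IsNilpotent (G ⧸ F) := by
  obtain ⟨F, h0, h2, -, hn, hk⟩ := pq_fh ‹_› (MulDistribMulAction.toMulAut A G) (Or.inl (hA ▸ hcop.symm)) hfpf hp hq hA
    fun h => hAna inferInstance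
  haveI := hn 1
  obtain ⟨k, hk0⟩ := hk 0
  obtain ⟨l, hl⟩ := hk 1
  refine ⟨F 1, hn 1, Subgroup.isNilpotent_of_lowerCentralSeries_eq_bot (le_bot_iff.1 (hk0.trans h0.le)),
    Subgroup.nilpotent_iff_lowerCentralSeries.2 ⟨l, ?_⟩⟩
  rw [← Subgroup.map_top_of_surjective _ (QuotientGroup.mk'_surjective (F 1)), ← Subgroup.map_lowerCentralSeries,
    Subgroup.map_eq_bot_iff, QuotientGroup.ker_mk', ← h2]
  exact hl

end Cfsg.Agent.S4306
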