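import Cfsg.Statements.S4310
import Cfsg.Agent.H1.PiSep

set_option autoImplicit false
open Cfsg

namespace Cfsg.Agent.S4310

open scoped Pointwise
open H1
open Subgroup Cfsg in
theorem sep {G : Type*} [Group G] [Finite G] {π : Set ℕ} {A D M : Subgroup G} [A.Normal]
    (hD : IsPiHallOf π D A) (hAM : A ≤ M) (hM : IsPiNum π (A.relIndex M)) :
    PiSep π (M ⊓ normalizer (D : Set G) : Subgroup G) := by
  rw [isPiHallOf_iff'] at hD
  refine piSep_of_three (D := D) (B := A ⊓ normalizer (D : Set G)) (le_inf hD.1 le_normalizer)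
    (inf_le_inf_right _ hAM) inf_le_right
    (le_normalizer_inf le_normalizer_of_normal (le_normalizer_of_le inf_le_right)) (Or.inl hD.2.1)
    (Or.inr (hD.2.2.of_dvd ?_)) (Or.inl (hM.of_dvd ?_))
  · exact ⟨_, (relIndex_mul_relIndex D _ A (le_inf hD.1 le_normalizer) inf_le_left).symm⟩
  · have : A ⊓ normalizer (D : Set G) = A ⊓ (M ⊓ normalizer (D : Set G)) := by
      rw [← inf_assoc, inf_eq_left.2 hAM]
    rw [this, inf_relIndex_right]
    exact relIndex_dvd_relIndex_of_le_normalizer inf_le_left le_normalizer_of_normal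

/-- Let `π` be a set of primes and `A` a normal subgroup of the finite group `G`. Suppose `A` has a Hall `π`-subgroup and all Hall `π`-subgroups of `A` are conjugate in `A`, and likewise for `G/A`. Then `G` has a Hall `π`-subgroup and all Hall `π`-subgroups of `G` are conjugate. (The conjugacy of complements of coprime order that the usual proof uses rests, in general, on the odd order Theorem.) -/
theorem result {G : Type*} [Group G] [Finite G] (π : Set ℕ) (A : Subgroup G) [A.Normal]
    (hA : Cfsg.IsCPiGroup π ↥A) (hQ : Cfsg.IsCPiGroup π (G ⧸ A)) : Cfsg.IsCPiGroup π G := by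
  have hA2 : ∀ D E : Subgroup G, Cfsg.IsPiHallOf π D A → Cfsg.IsPiHallOf π E A →
      ∃ a ∈ A, MulAut.conj a • D = E := by
    intro D E hD hE
    obtain ⟨g, hg⟩ := hA.2 _ _ (isPiHallOf_iff.1 hD).2 (isPiHallOf_iff.1 hE).2
    refine ⟨g, g.2, ?_⟩
    have := congrArg (Subgroup.map A.subtype) hg
    rw [← conj_smul_eq_map, map_conj_smul, Subgroup.subgroupOf_map_subtype, Subgroup.subgroupOf_map_subtype,
      inf_eq_left.2 hD.1, inf_eq_left.2 hE.1] at this
    exact this.symm
  constructor
  · obtain ⟨D0, hD0⟩ := hA.1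
    have hD := isPiHallOf_map_subtype.2 hD0
    set D := D0.map A.subtype
    obtain ⟨Hb, hHb⟩ := hQ.1
    rw [isPiHall_iff] at hHb
    set M := Hb.comap (QuotientGroup.mk' A)
    have hAM : A ≤ M := QuotientGroup.le_comap_mk' _ _
    have h1 : A.relIndex M = Nat.card Hb := by
      rw [← card_map_mk', Subgroup.map_comap_eq_self_of_surjective (QuotientGroup.mk'_surjective A)]
    obtain ⟨H, hH, -⟩ := (sep hD hAM (h1 ▸ hHb.1)).exists_piHallOf
    set L := M ⊓ Subgroup.normalizer (D : Set G)
    have hLA : L ⊔ A = M := by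
      refine le_antisymm (sup_le inf_le_left hAM) (fun g hg => ?_)
      obtain ⟨a, ha, e⟩ := hA2 _ _ (piHallOf_smul hD (g := g) (Subgroup.le_normalizer_of_normal (Subgroup.mem_top g))) hD
      rw [conj_smul_conj_smul, conj_smul_eq_self_iff] at e
      have : g = a⁻¹ * (a * g) := by group
      rw [this]
      exact Subgroup.mul_mem _ (Subgroup.mem_sup_right (A.inv_mem ha))
        (Subgroup.mem_sup_left ⟨M.mul_mem (hAM ha) hg, e⟩)
    have h2 : L.relIndex M = L.relIndex A := by
      have e1 := card_sup_mul_card_inf (H := L) (K := A) Subgroup.le_normalizer_of_normal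
      rw [hLA, ← card_mul_relIndex (H := L) (K := M) inf_le_left, ← card_inf_mul_relIndex L A, mul_assoc,
        mul_comm (L.relIndex M)] at e1
      exact Nat.eq_of_mul_eq_mul_left Nat.card_pos (Nat.eq_of_mul_eq_mul_left Nat.card_pos e1)
    refine ⟨H, isPiHallOf_top.1 (piHallOf_trans (piHallOf_trans hH (M := M) inf_le_left ?_) le_top ?_)⟩
    · rw [h2]
      exact (isPiHallOf_iff'.1 hD).2.2.of_dvd (Subgroup.relIndex_dvd_of_le_left _
        (le_inf (hD.1.trans hAM) Subgroup.le_normalizer))
    · rw [Subgroup.relIndex_top_right, Hb.index_comap_of_surjective (QuotientGroup.mk'_surjective A)]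
      exact hHb.2
  · intro H K hH hK
    have m : ∀ X : Subgroup G, Cfsg.IsPiHall π X → Cfsg.IsPiHall π (X.map (QuotientGroup.mk' A)) := by
      intro X hX
      have := piHallOf_map (QuotientGroup.mk' A) (isPiHallOf_top.2 hX)
      rwa [Subgroup.map_top_of_surjective _ (QuotientGroup.mk'_surjective A), isPiHallOf_top] at this
    obtain ⟨g, hg⟩ := hQ.2 _ _ (m H hH) (m K hK)
    obtain ⟨g, rfl⟩ := QuotientGroup.mk'_surjective A g
    rw [← conj_smul_eq_map, ← map_conj_smul] at hg
    have hH1 := piHall_smul hH g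
    set H1 := MulAut.conj g • H with hH1e
    have e1 : H1 ≤ K ⊔ A := by
      intro x hx
      rw [mem_sup_iff_mk_mem_map, hg]
      exact Subgroup.mem_map_of_mem _ hx
    have i1 := piHallOf_inf_normal (isPiHallOf_top.2 hH1) (K := A) le_top Subgroup.le_normalizer_of_normal
    have i2 := piHallOf_inf_normal (isPiHallOf_top.2 hK) (K := A) le_top Subgroup.le_normalizer_of_normal
    obtain ⟨a, ha, e⟩ := hA2 _ _ i1 i2
    have hs := sep i2 (M := K ⊔ A) le_sup_right (by
      rw [Subgroup.relIndex_sup_right]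
      exact (isPiHall_iff.1 hK).1.of_dvd (Subgroup.relIndex_dvd_card _ _))
    have j1 : Cfsg.IsPiHallOf π K ((K ⊔ A) ⊓ Subgroup.normalizer ((K ⊓ A : Subgroup G) : Set G)) :=
      piHallOf_of_le (isPiHallOf_top.2 hK) (le_inf le_sup_left
        (le_normalizer_inf Subgroup.le_normalizer Subgroup.le_normalizer_of_normal)) le_top
    have j2 : Cfsg.IsPiHallOf π (MulAut.conj a • H1) ((K ⊔ A) ⊓ Subgroup.normalizer ((K ⊓ A : Subgroup G) : Set G)) := by
      refine piHallOf_of_le (isPiHallOf_top.2 (piHall_smul hH1 a)) (le_inf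
        (conj_smul_le_of_mem e1 (Subgroup.mem_sup_right ha)) ?_) le_top
      rw [← e, normalizer_conj_smul]
      exact conj_smul_mono a (le_normalizer_inf Subgroup.le_normalizer Subgroup.le_normalizer_of_normal)
    obtain ⟨c, -, hc⟩ := hs.piHallOf_conj j2 j1
    refine ⟨c * a * g, ?_⟩
    rw [← conj_smul_eq_map, ← conj_smul_conj_smul, ← conj_smul_conj_smul, ← hH1e, hc]

end Cfsg.Agent.S4310
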