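import Cfsg.Statements.S4320
import Cfsg.Agent.H1.Basic

set_option autoImplicit false
open Cfsg

namespace Cfsg.Agent.S4320

open Subgroup

theorem core {G A R W : Type*} [Group G] [Fintype G] [CommGroup A] [Finite A] [CommRing R] [AddCommGroup W] [Module R W]
    (π : G →* A) (hπ : Function.Surjective π) (hk : π.ker ≤ _root_.commutator G) (ε : R →+* ℤ) (u : G → R)
    (hu : ∀ g, ε (u g) = 1) (D : G → W) (hD : ∀ g h, D (g * h) = D g + u g • D h) :
    ∃ Δ : R, (ε Δ).natAbs = Nat.card A ∧ ∀ g, Δ • D g = 0 := by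
  classical
  let J : Submodule R W := RingHom.ker ε • Submodule.span R (Set.range D)
  let ψ : G →* Multiplicative (W ⧸ J) := MonoidHom.mk' (fun g => Multiplicative.ofAdd (J.mkQ (D g))) fun g h => by
    rw [← ofAdd_add, ← map_add, hD, Multiplicative.ofAdd.injective.eq_iff, Submodule.mkQ_apply, Submodule.mkQ_apply,
      Submodule.Quotient.eq, add_sub_add_left_eq_sub, show u g • D h - D h = (u g - 1) • D h by rw [sub_smul, one_smul]]
    exact Submodule.smul_mem_smul (by simp [RingHom.mem_ker, hu]) (Submodule.subset_span ⟨h, rfl⟩)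
  let ψ' := π.liftOfSurjective hπ ⟨ψ, hk.trans (Abelianization.commutator_subset_ker ψ)⟩
  have h1 : ∀ g, ψ' (π g) = ψ g := fun g => π.liftOfRightInverse_comp_apply _ _ _ g
  let l : (G → ℤ) →ₗ[ℤ] Additive A := Fintype.linearCombination ℤ fun g => Additive.ofMul (π g)
  have ls : Function.Surjective l := fun a => by
    obtain ⟨g, hg⟩ := hπ a.toMul
    exact ⟨Pi.single g 1, by simp [l, hg]⟩
  have c1 : Nat.card ((G → ℤ) ⧸ LinearMap.ker l) = Nat.card A := Nat.card_congr (l.quotKerEquivOfSurjective ls).toEquiv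
  haveI : Finite ((G → ℤ) ⧸ LinearMap.ker l) := Nat.finite_of_card_ne_zero (c1 ▸ Nat.card_pos.ne')
  let b : Module.Basis G ℤ (LinearMap.ker l) := (Module.finBasisOfFinrankEq ℤ _
    (((Submodule.finiteQuotient_iff _).1 this).trans (Module.finrank_fintype_fun_eq_card ℤ))).reindex
    (Fintype.equivFin G).symm
  have c2 := Submodule.natAbs_det_basis_change (Pi.basisFun ℤ G) _ b
  have h2 : ∀ i, ∃ a : G → R, (∀ g, ε (a g) = (b i : G → ℤ) g) ∧ ∑ g, a g • D g = 0 := fun i => by
    have : ∑ g, (b i : G → ℤ) g • D g ∈ J := by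
      have h3 := congrArg (MonoidHom.toAdditiveLeft ψ') (LinearMap.mem_ker.1 (b i).2)
      rw [map_zero, Fintype.linearCombination_apply, map_sum] at h3
      rw [← Submodule.Quotient.mk_eq_zero, ← Submodule.mkQ_apply, map_sum, ← h3]
      exact Finset.sum_congr rfl fun g _ => by rw [map_zsmul, map_zsmul]; simp [h1, ψ]
    obtain ⟨a, ha, e⟩ := (Submodule.mem_ideal_smul_span_iff_exists_sum _ _ _).1 this
    rw [Finsupp.sum_fintype _ _ (by simp)] at e
    refine ⟨fun g => ((b i : G → ℤ) g : R) - a g, fun g => by simp [RingHom.mem_ker.1 (ha g)], ?_⟩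
    simp only [sub_smul, Finset.sum_sub_distrib, e, Int.cast_smul_eq_zsmul, sub_self]
  choose μ m1 m2 using h2
  refine ⟨(Matrix.of μ).det, ?_, fun g => ?_⟩
  · rw [← c1, ← c2, RingHom.map_det, Module.Basis.det_apply, ← Matrix.det_transpose]
    congr 2
    ext i j
    simp [m1, Module.Basis.toMatrix_apply]
  · have : ∑ i, (Matrix.of μ).adjugate g i • ∑ j, μ i j • D j = 0 := by simp [m2]
    simp_rw [Finset.smul_sum, smul_smul] at this
    rw [Finset.sum_comm] at this
    simp_rw [← Finset.sum_smul] at this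
    rw [← this, Finset.sum_eq_single g (fun j _ hj => ?_) (by simp)]
    · exact congrArg (· • D g) (by simpa [Matrix.mul_apply] using (congrFun₂ (Matrix.adjugate_mul (Matrix.of μ)) g g).symm)
    · rw [show ∑ i, (Matrix.of μ).adjugate g i * μ i j = 0 by
        simpa [Matrix.mul_apply, hj.symm] using congrFun₂ (Matrix.adjugate_mul (Matrix.of μ)) g j, zero_smul]

/-- The Principal Ideal Theorem of class field theory in its group-theoretic form: for every finite group `G`, the transfer homomorphism from `G` into the abelianization `G'/G''` of its derived subgroup `G'` is the trivial homomorphism. -/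
theorem result {G : Type*} [Group G] [Finite G] :
    MonoidHom.transfer (Abelianization.of : ↥(commutator G) →* Abelianization ↥(commutator G)) =
      (1 : G →* Abelianization ↥(commutator G)) := by
  classical
  haveI := Fintype.ofFinite G
  set H := _root_.commutator G
  letI := H.fintypeQuotientOfFiniteIndex
  letI : CommGroup (G ⧸ H) := inferInstanceAs (CommGroup (Abelianization G))
  let T : H.LeftTransversal := default
  let t : G ⧸ H → G := fun q => T.2.leftQuotientEquiv q
  have ht : ∀ q, (t q : G ⧸ H) = q := T.2.quotientGroupMk_leftQuotientEquiv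
  have hm : ∀ (g : G) (q : G ⧸ H), (t q)⁻¹ * (g * t ((g : G ⧸ H)⁻¹ * q)) ∈ H := fun g q => by
    rw [← QuotientGroup.eq, QuotientGroup.mk_mul, ht, ht, mul_inv_cancel_left]
  let d : G → G ⧸ H → Additive (Abelianization H) := fun g q => Additive.ofMul (Abelianization.of ⟨_, hm g q⟩)
  let ρ : Representation ℤ (G ⧸ H) (G ⧸ H → Additive (Abelianization H)) :=
    { toFun := fun a => LinearMap.funLeft ℤ _ (a⁻¹ * ·)
      map_one' := by ext; simp
      map_mul' := fun a b => by ext; simp [mul_assoc] }
  letI := Module.compHom (G ⧸ H → Additive (Abelianization H)) ρ.asAlgebraHom.toRingHom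
  have hs : ∀ (r : MonoidAlgebra ℤ (G ⧸ H)) (f : G ⧸ H → Additive (Abelianization H)), r • f = ρ.asAlgebraHom r f :=
    fun _ _ => rfl
  let ε := MonoidAlgebra.lift ℤ ℤ (G ⧸ H) 1
  obtain ⟨Δ, h1, h2⟩ := core (QuotientGroup.mk' H) (QuotientGroup.mk'_surjective H) (QuotientGroup.ker_mk' H).le
    ε.toRingHom (fun g => MonoidAlgebra.single (g : G ⧸ H) 1) (fun g => by simp [ε])
    (fun g => (d g, (MonoidAlgebra.single (g : G ⧸ H) 1 - 1 : MonoidAlgebra ℤ (G ⧸ H)))) fun g h => by
      refine Prod.ext (funext fun q => ?_) ?_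
      · rw [Prod.fst_add, Prod.smul_fst, hs, Representation.asAlgebraHom_single_one]
        change _ = Additive.ofMul (Abelianization.of _ * Abelianization.of _)
        rw [← map_mul]
        exact congrArg (fun x => Additive.ofMul (Abelianization.of x)) (Subtype.ext (by simp [mul_assoc]))
      · simp [mul_sub, MonoidAlgebra.single_mul_single]
  have h3 : ∀ q, Δ.coeff q = Δ.coeff 1 := fun q => by
    obtain ⟨g, rfl⟩ := QuotientGroup.mk_surjective q
    have := congrArg (fun x => x.2.coeff g) (h2 g)
    simp [mul_sub, MonoidAlgebra.coeff_mul_single_apply] at this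
    omega
  have h4 : (Δ.coeff 1).natAbs = 1 := by
    have : ε Δ = Nat.card (G ⧸ H) * Δ.coeff 1 := by
      rw [MonoidAlgebra.lift_apply, Finsupp.sum_fintype _ _ (by simp)]
      simp [h3]
    change (ε Δ).natAbs = _ at h1
    rw [this, Int.natAbs_mul, Int.natAbs_natCast] at h1
    exact (Nat.mul_eq_left Nat.card_pos.ne').1 h1
  ext g
  have h5 : Δ.coeff 1 • ∑ q, d g q = 0 := by
    have := congrFun (congrArg Prod.fst (h2 g)) 1
    rw [Prod.smul_fst, hs, Representation.asAlgebraHom_def, MonoidAlgebra.lift_apply,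
      Finsupp.sum_fintype _ _ (by simp)] at this
    rw [Finset.smul_sum, ← Equiv.sum_comp (Equiv.inv _)]
    simpa [h3, ρ] using this
  have h6 : ∑ q, d g q = 0 := by
    rcases Int.natAbs_eq_iff.1 h4 with e | e <;> simpa [e] using h5
  rw [MonoidHom.transfer_def _ T, leftTransversals.diff]
  refine Eq.trans (Finset.prod_congr rfl fun q _ => ?_) ((toMul_sum _ _).symm.trans (congrArg Additive.toMul h6))
  refine congrArg Abelianization.of (Subtype.ext ?_)
  obtain ⟨x, rfl⟩ := QuotientGroup.mk_surjective q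
  simp only [smul_apply_eq_smul_apply_inv_smul]
  rfl

end Cfsg.Agent.S4320
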