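import Cfsg.Statements.S4416
import Cfsg.Agent.H1.ES2

set_option autoImplicit false
open Cfsg

namespace Cfsg.Agent.S4416

open H1

/-- Classification of extraspecial 2-groups in intrinsic form. An extraspecial 2-group has order 2^(2m+1) for some m ≥ 1, and the number of its elements squaring to the identity is either 2^(2m) + 2^m or 2^(2m) − 2^m; two extraspecial 2-groups of the same order with the same number of such elements are isomorphic. (The two cases are the central products of m dihedral groups of order 8, and of m − 1 dihedral groups with one quaternion group.) -/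
theorem result (E : Type*) [Group E] [Finite E] (hE : Cfsg.IsExtraspecial 2 E) :
    (∃ m : ℕ, 1 ≤ m ∧ Nat.card E = 2 ^ (2 * m + 1) ∧
      (Nat.card {x : E // x ^ 2 = 1} = 2 ^ (2 * m) + 2 ^ m ∨ Nat.card {x : E // x ^ 2 = 1} = 2 ^ (2 * m) - 2 ^ m)) ∧
    ∀ (E' : Type*) [Group E'] [Finite E'], Cfsg.IsExtraspecial 2 E' → Nat.card E' = Nat.card E →
      Nat.card {x : E' // x ^ 2 = 1} = Nat.card {x : E // x ^ 2 = 1} → Nonempty (E ≃* E') := by
  obtain ⟨m, z, h⟩ := xp_top hE
  have h1 := h.cd'
  refine ⟨⟨m + 1, by omega, h1, ?_⟩, fun E' _ _ hE' h2 h3 => ?_⟩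
  · have h2 := h.SS_val
    rw [SS_top, h1] at h2
    refine h2.imp (fun e => ?_) fun e => Nat.eq_sub_of_add_eq ?_ <;> zify <;> push_cast at e <;>
      rw [pow_succ, pow_succ _ (m + 1)] at e <;> omega
  obtain ⟨z', h', -⟩ := xp_card hE' (h2 ▸ h1)
  exact h.equiv_two h' (by rw [SS_top, SS_top, h2, h3])

end Cfsg.Agent.S4416
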