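import Cfsg.Statements.S4422
import Mathlib

set_option autoImplicit false
open Cfsg

namespace Cfsg.Agent.S4422

/-- Primitive divisors of `q^e - 1` are congruent to 1 modulo `e`. Let `q ≥ 2` and `e ≥ 1` be natural numbers and let `m` be a divisor of `q^e - 1` that is coprime to `q^i - 1` for every `1 ≤ i < e` (so `m` divides the primitive part of `q^e - 1`, the largest such divisor). Then `m ≡ 1 (mod e)`. -/
theorem result (q e m : ℕ) (hq : 2 ≤ q) (he : 1 ≤ e)
    (hm : m ∣ q ^ e - 1) (hcop : ∀ i : ℕ, 1 ≤ i → i < e → Nat.Coprime m (q ^ i - 1)) :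
    m % e = 1 % e := by
  have h0 : m ≠ 0 := by
    rintro rfl
    have := Nat.one_lt_pow (n := e) (by omega) hq
    have := Nat.eq_zero_of_zero_dvd hm
    omega
  change m ≡ 1 [MOD e]
  induction m using induction_on_primes with
  | zero => exact absurd rfl h0
  | one => rfl
  | prime_mul p a hp ih =>
    haveI := Fact.mk hp
    have h1 := ih ((Dvd.intro_left _ rfl).trans hm) (fun i h1 h2 => (hcop i h1 h2).coprime_mul_left)
      (by rintro rfl; simp at h0)
    have key : ∀ i, p ∣ q ^ i - 1 ↔ (q : ZMod p) ^ i = 1 := by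
      intro i
      rw [← ZMod.natCast_eq_zero_iff, Nat.cast_sub (Nat.one_le_pow _ _ (by omega)), sub_eq_zero]
      simp
    have h2 : (q : ZMod p) ^ e = 1 := (key e).1 ((Dvd.intro _ rfl).trans hm)
    have h3 : orderOf (q : ZMod p) = e := by
      rw [orderOf_eq_iff (by omega)]
      refine ⟨h2, fun i h4 h5 h6 => ?_⟩
      exact hp.one_lt.ne' (Nat.eq_one_of_dvd_coprimes (hcop i h5 h4) (Dvd.intro _ rfl) ((key i).2 h6))
    have h4 : (q : ZMod p) ≠ 0 := by
      intro h; rw [h, zero_pow (by omega)] at h2; exact zero_ne_one h2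
    have h5 : e ∣ p - 1 := h3 ▸ ZMod.orderOf_dvd_card_sub_one h4
    have h6 : p ≡ 1 [MOD e] := ((Nat.modEq_iff_dvd' hp.one_le).2 h5).symm
    simpa using h6.mul h1

end Cfsg.Agent.S4422
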