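import Cfsg.Statements.S4423
import Cfsg.Agent.H5.Zsig

set_option autoImplicit false
open Cfsg

namespace Cfsg.Agent.S4423

open H5

/-- product of the smaller `q ^ i - 1` -/
def Pr (q : ℕ) : ℕ → ℕ
  | 0 => 1
  | i + 1 => Pr q i * (q ^ (i + 1) - 1)

/-- candidate primitive part -/
def pp (q e : ℕ) : ℕ := (q ^ e - 1) / Nat.gcd (q ^ e - 1) (Pr q (e - 1) ^ 2)

theorem cop_Pr {m q n : ℕ} : m.Coprime (Pr q n) ↔ ∀ i, 1 ≤ i → i < n + 1 → m.Coprime (q ^ i - 1) := by
  induction n with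
  | zero => exact ⟨fun _ i a b => by omega, fun _ => Nat.coprime_one_right _⟩
  | succ n ih =>
    rw [Pr, Nat.coprime_mul_iff_right, ih]
    exact ⟨fun h i a b => (Nat.lt_succ_iff_lt_or_eq.1 b).elim (h.1 i a) fun c => c ▸ h.2,
      fun h => ⟨fun i a b => h i a (by omega), h _ (by omega) (by omega)⟩⟩

/-- the exceptions -/
def Ex : List (ℕ × ℕ) := [(2, 6), (2, 4), (2, 10), (2, 12), (2, 18), (3, 4), (3, 6), (5, 6), (2, 3), (2, 8), (2, 20), (4, 3), (4, 6)]

set_option synthInstance.maxSize 1000 in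
theorem f1 : ∀ q < 75, ∀ e < 43, 2 ≤ q → 3 ≤ e → (q, e) ∈ Ex ∨ (Nat.gcd (pp q e) (Pr q (e - 1)) = 1 ∧ 3 * e + 1 ≤ pp q e) := by
  decide +kernel

theorem f2 : ∀ e < 121, 3 ≤ e → (2, e) ∈ Ex ∨ (Nat.gcd (pp 2 e) (Pr 2 (e - 1)) = 1 ∧ 3 * e + 1 ≤ pp 2 e) := by
  decide +kernel

theorem f3 : ∀ x ∈ Ex, 0 < pp x.1 x.2 ∧ pp x.1 x.2 ≤ 2 * x.2 + 1 := by decide +kernel

theorem f4 : ∀ e < 183, e < 43 ∨ 14 ≤ Nat.totient e := by decide +kernel

theorem f5 : ∀ e < 1261, e < 121 ∨ 36 ≤ ((Finset.range (min e 170)).filter (Nat.Coprime e)).card := by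
  decide +kernel

theorem g1 (t : ℕ) (h : 14 ≤ t) : (t + 1) * (3 * ((t + 1) * t) + 1) ≤ 2 ^ t := by
  induction t, h using Nat.le_induction with
  | base => norm_num
  | succ t h ih => rw [pow_succ]; nlinarith [Nat.mul_le_mul h (Nat.mul_le_mul h h), Nat.mul_le_mul_right (t * t) h, Nat.mul_le_mul_right t h]

theorem g2 (t : ℕ) (h : 36 ≤ t) : ((t + 1) * (3 * ((t + 1) * t) + 1)) ^ 2 ≤ 2 ^ t := by
  induction t, h using Nat.le_induction with
  | base => norm_num
  | succ t h ih =>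
    have : 5 * ((t + 1 + 1) * (3 * ((t + 1 + 1) * (t + 1)) + 1)) ≤ 7 * ((t + 1) * (3 * ((t + 1) * t) + 1)) := by
      nlinarith [Nat.mul_le_mul_right (t * t) h, Nat.mul_le_mul_right t h]
    rw [pow_succ 2 t]
    generalize (t + 1 + 1) * (3 * ((t + 1 + 1) * (t + 1)) + 1) = x at *
    generalize (t + 1) * (3 * ((t + 1) * t) + 1) = y at *
    have := Nat.pow_le_pow_left this 2
    rw [mul_pow, mul_pow] at this
    omega

theorem two_le {r k : ℕ} (hr : r.Prime) (h : 3 ≤ k * r) (H : ∀ s, s.Prime → s ∣ k * r → s ≤ r) :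
    2 ^ (k * r).totient ≤ cyc (k * r) 2 ^ 2 := by
  have r2 := hr.two_le
  have q1 : 1 < 2 ^ r := Nat.one_lt_two_pow hr.ne_zero
  by_cases d : r ∣ k
  · rw [cyc_mul_of_dvd hr d, mul_comm k, Nat.totient_mul_of_prime_of_dvd hr d]
    refine le_trans ?_ (Nat.pow_le_pow_left (cyc_ge q1 k) 2)
    rw [pow_mul, ← pow_mul _ _ 2, mul_comm _ 2, pow_mul]
    refine Nat.pow_le_pow_left ?_ _
    have : 2 ^ 2 ≤ 2 ^ r := Nat.pow_le_pow_right two_pos r2
    generalize 2 ^ r = x at *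
    obtain ⟨y, rfl⟩ : ∃ y, x = y + 1 := ⟨x - 1, by omega⟩
    rw [Nat.add_sub_cancel]
    nlinarith
  · have r3 : 3 ≤ r := by
      by_contra c
      obtain rfl : r = 2 := by omega
      obtain ⟨s, a, b⟩ := Nat.exists_prime_and_dvd (n := k) (by omega)
      have := H s a (b.mul_right _)
      have := a.two_le
      exact d ((show s = 2 by omega) ▸ b)
    obtain ⟨u, rfl⟩ : ∃ u, r = u + 3 := ⟨r - 3, by omega⟩
    have a : (2 ^ (u + 1) * 3) ^ k.totient ≤ cyc (k * (u + 3)) 2 * 3 ^ k.totient :=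
      calc _ ≤ (2 ^ (u + 3) - 1) ^ k.totient := Nat.pow_le_pow_left (by
              have := Nat.one_le_two_pow (n := u)
              simp only [pow_succ]; omega) _
        _ ≤ _ := cyc_ge q1 k
        _ ≤ _ := cyc_mul_of_not_dvd hr d ▸ Nat.mul_le_mul_left _ (cyc_le one_lt_two k)
    rw [mul_pow] at a
    refine le_trans ?_ (Nat.pow_le_pow_left (Nat.le_of_mul_le_mul_right a (by positivity)) 2)
    rw [mul_comm k, Nat.totient_mul_of_prime_of_not_dvd hr d, ← pow_mul, ← pow_mul]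
    refine Nat.pow_le_pow_right two_pos ?_
    rw [show u + 3 - 1 = u + 2 from rfl]
    nlinarith [Nat.zero_le (u * k.totient)]

/-- Size of the primitive part of `q^e - 1`. For a prime power `q` and `e ≥ 3`, call a divisor of `q^e - 1` primitive when it is coprime to `q^i - 1` for every `1 ≤ i < e`; the primitive part is the largest primitive divisor. Apart from thirteen exceptional pairs, the primitive part is at least `3e + 1`: there is a primitive divisor `m ≥ 3e + 1` unless `(q, e)` is `(2, 6)` (where every primitive divisor is 1), one of `(2,4), (2,10), (2,12), (2,18), (3,4), (3,6), (5,6)` (where the primitive part is exactly `e + 1`), or one of `(2,3), (2,8), (2,20), (4,3), (4,6)` (where it is exactly `2e + 1`). The statement asserts the existence of a primitive divisor `m ≥ 3e + 1` outside the thirteen pairs, and that every primitive divisor is at most `2e + 1` for the thirteen pairs. -/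
theorem result (q e : ℕ) (hq : IsPrimePow q) (he : 3 ≤ e) :
    ((q, e) ∉ [(2, 6), (2, 4), (2, 10), (2, 12), (2, 18), (3, 4), (3, 6), (5, 6), (2, 3), (2, 8), (2, 20), (4, 3), (4, 6)] →
      ∃ m : ℕ, m ∣ q ^ e - 1 ∧ (∀ i : ℕ, 1 ≤ i → i < e → Nat.Coprime m (q ^ i - 1)) ∧ 3 * e + 1 ≤ m) ∧
    ((q, e) ∈ [(2, 6), (2, 4), (2, 10), (2, 12), (2, 18), (3, 4), (3, 6), (5, 6), (2, 3), (2, 8), (2, 20), (4, 3), (4, 6)] →
      ∀ m : ℕ, m ∣ q ^ e - 1 → (∀ i : ℕ, 1 ≤ i → i < e → Nat.Coprime m (q ^ i - 1)) → m ≤ 2 * e + 1) := by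
  have q2 : 1 < q := hq.two_le
  have e1 : e - 1 + 1 = e := by omega
  refine ⟨fun hx => ?_, fun hx m a b => ?_⟩
  swap
  · obtain ⟨c, d⟩ := f3 _ hx
    refine (Nat.le_of_dvd c ?_).trans d
    have f : m.Coprime (Nat.gcd (q ^ e - 1) (Pr q (e - 1) ^ 2)) :=
      ((cop_Pr.2 (e1.symm ▸ b)).pow_right 2).coprime_dvd_right (Nat.gcd_dvd_right _ _)
    exact f.dvd_of_dvd_mul_right ((Nat.div_mul_cancel (Nat.gcd_dvd_left _ _)).symm ▸ a)
  have fin : (q, e) ∈ Ex ∨ (Nat.gcd (pp q e) (Pr q (e - 1)) = 1 ∧ 3 * e + 1 ≤ pp q e) →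
      ∃ m : ℕ, m ∣ q ^ e - 1 ∧ (∀ i : ℕ, 1 ≤ i → i < e → Nat.Coprime m (q ^ i - 1)) ∧ 3 * e + 1 ≤ m := fun h =>
    ⟨pp q e, Nat.div_dvd_of_dvd (Nat.gcd_dvd_left _ _), fun i a b => cop_Pr.1 (h.resolve_left hx).1 i a (by omega), (h.resolve_left hx).2⟩
  obtain ⟨r, hs, H⟩ := e.primeFactors.exists_max_image id (Nat.nonempty_primeFactors.2 (by omega))
  have hr := Nat.prime_of_mem_primeFactors hs
  replace hs := Nat.dvd_of_mem_primeFactors hs
  replace H : ∀ s, s.Prime → s ∣ e → s ≤ r := fun s a b => H s (Nat.mem_primeFactors.2 ⟨a, b, by omega⟩)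
  have t1 := le_mul_totient (by omega) hr.pos H
  have t2 : r - 1 ≤ e.totient := Nat.totient_prime hr ▸ Nat.le_of_dvd (Nat.totient_pos.2 (by omega)) (Nat.totient_dvd_of_dvd hs)
  have t3 : 2 ≤ e.totient := Nat.le_of_dvd (Nat.totient_pos.2 (by omega)) (Nat.totient_even he).two_dvd
  have t4 : e ≤ (e.totient + 1) * e.totient := t1.trans (Nat.mul_le_mul_right _ (by omega))
  have t5 : r * (3 * e + 1) ≤ (e.totient + 1) * (3 * ((e.totient + 1) * e.totient) + 1) := Nat.mul_le_mul (by omega) (by omega)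
  have big : r * (3 * e + 1) ≤ cyc e q →
      ∃ m : ℕ, m ∣ q ^ e - 1 ∧ (∀ i : ℕ, 1 ≤ i → i < e → Nat.Coprime m (q ^ i - 1)) ∧ 3 * e + 1 ≤ m := fun h => by
    obtain ⟨m, a, b, c⟩ : ∃ m, m ∣ cyc e q ∧ ¬ r ∣ m ∧ cyc e q ≤ r * m := by
      by_cases c : r ∣ cyc e q
      · obtain ⟨m, hm⟩ := c
        exact ⟨m, Dvd.intro_left _ hm.symm, fun d => cyc_not_sq q2 he hr hs (by rw [hm, sq]; exact mul_dvd_mul_left _ d), hm.le⟩
      · exact ⟨_, dvd_rfl, c, Nat.le_mul_of_pos_left _ hr.pos⟩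
    refine ⟨m, a.trans (cyc_dvd q2 e), fun i i1 i2 => Nat.coprime_of_dvd fun s d f g => ?_,
      Nat.le_of_mul_le_mul_left (h.trans c) hr.pos⟩
    rcases cyc_cases q2 (by omega) d (f.trans a) with k | ⟨k1, k2⟩
    · exact (prim_of_order q2 k).2 i i1 i2 g
    · exact b (le_antisymm (H s d k1) (k2 r hr hs) ▸ f)
  rcases (show q = 2 ∨ 3 ≤ q by omega) with rfl | q3
  · by_cases c : 36 ≤ e.totient
    · obtain ⟨k, rfl⟩ := exists_eq_mul_left_of_dvd hs
      exact big (t5.trans ((Nat.pow_le_pow_iff_left two_ne_zero).1 ((g2 _ c).trans (two_le hr he H))))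
    · refine fin (f2 e ?_ he)
      by_contra d
      have f : e < 1261 := by nlinarith
      exact c (((f5 e f).resolve_left d).trans (Finset.card_le_card (Finset.filter_subset_filter _
        (Finset.range_subset_range.2 (min_le_left _ _)))))
  have c0 := cyc_ge q2 e
  by_cases c : 14 ≤ e.totient
  · exact big (t5.trans ((g1 _ c).trans ((Nat.pow_le_pow_left (by omega) _).trans c0)))
  have d : e < 43 := (f4 e (by nlinarith)).resolve_right c
  by_cases f : q < 75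
  · exact fin (f1 q f e d q2 he)
  have g : r ≤ e := Nat.le_of_dvd (by omega) hs
  refine big (le_trans ?_ ((Nat.pow_le_pow_left (show 74 ≤ q - 1 by omega) _).trans' (Nat.pow_le_pow_right (by norm_num) t3) |>.trans c0))
  nlinarith

end Cfsg.Agent.S4423
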