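import Cfsg.Statements.S4424
import Cfsg.Agent.H4.Ctr

set_option autoImplicit false
open Cfsg

namespace Cfsg.Agent.S4424

open H4 H1 MonoidAlgebra
open scoped Pointwise


/-- Let χ be an irreducible character of the finite group G lying in the p-block B (relative to a maximal ideal M of the algebraic integers containing p), and let p^a be the p-part of the order of G. Then the class function that equals p^a · χ on the p-regular elements and vanishes on the p-singular elements is an integer combination of the irreducible characters in B: there are integers a_ψ, zero for ψ outside B, with that function equal to Σ a_ψ ψ. -/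
theorem result {G : Type*} [Group G] [Finite G] (p : ℕ) [Fact p.Prime] (M : Ideal Cfsg.AlgInt) (hM : Cfsg.IsPModular p M) (B : Set (Cfsg.IrrCharacter G)) (hB : Cfsg.IsPBlock M B) (χ : Cfsg.IrrCharacter G) (hχ : χ ∈ B) : ∃ a : Cfsg.IrrCharacter G → ℤ, (∀ ψ, ψ ∉ B → a ψ = 0) ∧ (fun x : G => if p ∣ orderOf x then (0 : ℂ) else ((p ^ (Nat.card G).factorization p : ℕ) : ℂ) * (χ : G → ℂ) x) = fun x => ∑ᶠ ψ : Cfsg.IrrCharacter G, (a ψ : ℂ) * (ψ : G → ℂ) x := by
  classical
  obtain ⟨n, hn⟩ := (gen_in_iff (B := B)).2 ⟨gen_card_reg (p := p) (H3.irr_gen χ.2), by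
    rw [blockPart_smul, blockPart_reg hM hB, blockPart_irr_of_mem hχ]⟩
  refine ⟨fun ψ => if ψ ∈ B then n ψ else 0, fun ψ h => if_neg h, funext fun x => ?_⟩
  have := hn x
  rw [finsum_mem_eq_fs, sum_fs_eq_ite] at this
  rw [finsum_eq_sum_of_fintype]
  convert this using 1
  · simp only [Pi.smul_apply, reg, smul_eq_mul]; split_ifs <;> simp
  · exact Finset.sum_congr rfl fun ψ _ => by by_cases h : ψ ∈ B <;> simp [h]

end Cfsg.Agent.S4424
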