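import Cfsg.Statements.S4425
import Cfsg.Agent.H4.Ctr

set_option autoImplicit false
open Cfsg

namespace Cfsg.Agent.S4425

open H4 H1 MonoidAlgebra
open scoped Pointwise


/-- Let χ be an irreducible character of the finite group G, p a prime, p^a the p-part of the order of G and p^b the p-part of the degree χ(1). Let χ̃ be the class function equal to p^a · χ on p-regular elements and zero on p-singular elements. Then p^(−b) · χ̃ is a generalized character of G, while p^(−(b+1)) · χ̃ is not. -/
theorem result {G : Type*} [Group G] [Finite G] (p : ℕ) [Fact p.Prime] (χ : Cfsg.IrrCharacter G) : Cfsg.IsGeneralizedCharacter G (fun x : G => if p ∣ orderOf x then (0 : ℂ) else ((p ^ ((Nat.card G).factorization p - (Cfsg.charDegree (χ : G → ℂ)).factorization p) : ℕ) : ℂ) * (χ : G → ℂ) x) ∧ ¬ Cfsg.IsGeneralizedCharacter G (fun x : G => if p ∣ orderOf x then (0 : ℂ) else ((p ^ (Nat.card G).factorization p : ℕ) : ℂ) / ((p ^ ((Cfsg.charDegree (χ : G → ℂ)).factorization p + 1) : ℕ) : ℂ) * (χ : G → ℂ) x) := by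
  have hp : p.Prime := Fact.out
  obtain ⟨M, hM⟩ := exists_isPModular hp
  constructor
  · convert gen_reg_irr hM χ.2 (d := (Nat.card G).factorization p - nu p χ.1) (by omega) using 1
    funext x; simp only [Pi.smul_apply, reg, smul_eq_mul]; split_ifs <;> simp
  · intro h
    have := div_card_mem_O_one hM (gen_mem_OC h) fun x hx => if_pos hx
    rw [if_neg (not_dvd_orderOf_one hp), mem_O_iff, map_div₀, map_mul, map_div₀, v_irr_one hM χ.2,
      v_natCast hM Nat.card_pos.ne', Nat.cast_pow, Nat.cast_pow, map_pow, map_pow, pow_succ] at this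
    have h0 := v_p_ne_zero hM
    rw [show ∀ a b c : (O M).ValueGroup, a ≠ 0 → b ≠ 0 → c ≠ 0 → a / (b * c) * b / a = c⁻¹ from
      fun a b c _ _ _ => by field_simp, inv_le_one₀ (v_p_pos hM)] at this
    exacts [(v_p_lt_one hM).not_ge this, pow_ne_zero _ h0, pow_ne_zero _ h0, h0]

end Cfsg.Agent.S4425
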