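import Cfsg.Statements.S4426
import Cfsg.Agent.H4.Ctr

set_option autoImplicit false
open Cfsg

namespace Cfsg.Agent.S4426

open H4 H1 MonoidAlgebra
open scoped Pointwise


/-- Let χ be an irreducible character in the p-block B of the finite group G (relative to a maximal ideal M of the algebraic integers containing p), let p^a be the p-part of the order of G, and let χ̃ be the class function equal to p^a · χ on p-regular elements and zero elsewhere. For ξ ∈ B the inner product [χ̃, ξ] is an integer. The following are equivalent: (a) χ has height zero in B; (b) for some ξ ∈ B the integer [χ̃, ξ] is nonzero and the exact power of p dividing it equals the exact power of p dividing ξ(1); (c) the same holds for every ξ ∈ B. -/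
theorem result {G : Type*} [Group G] [Fintype G] (p : ℕ) [Fact p.Prime] (M : Ideal Cfsg.AlgInt) (hM : Cfsg.IsPModular p M) (B : Set (Cfsg.IrrCharacter G)) (hB : Cfsg.IsPBlock M B) (χ : Cfsg.IrrCharacter G) (hχ : χ ∈ B) : (Cfsg.blockHeight p B (χ : G → ℂ) = 0 ↔ ∃ ξ ∈ B, ∃ n : ℤ, Cfsg.classInner (fun x : G => if p ∣ orderOf x then (0 : ℂ) else ((p ^ (Nat.card G).factorization p : ℕ) : ℂ) * (χ : G → ℂ) x) (ξ : G → ℂ) = (n : ℂ) ∧ n ≠ 0 ∧ padicValInt p n = (Cfsg.charDegree (ξ : G → ℂ)).factorization p) ∧ (Cfsg.blockHeight p B (χ : G → ℂ) = 0 ↔ ∀ ξ ∈ B, ∃ n : ℤ, Cfsg.classInner (fun x : G => if p ∣ orderOf x then (0 : ℂ) else ((p ^ (Nat.card G).factorization p : ℕ) : ℂ) * (χ : G → ℂ) x) (ξ : G → ℂ) = (n : ℂ) ∧ n ≠ 0 ∧ padicValInt p n = (Cfsg.charDegree (ξ : G → ℂ)).factorization p) := by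
  have hp : p.Prime := Fact.out
  obtain ⟨a, ha⟩ := exists_amat hM hB
  have key : ∀ ξ ∈ B, (∃ n : ℤ, Cfsg.classInner (fun x : G => if p ∣ orderOf x then (0 : ℂ) else ((p ^ (Nat.card G).factorization p : ℕ) : ℂ) * (χ : G → ℂ) x) (ξ : G → ℂ) = (n : ℂ) ∧ n ≠ 0 ∧ padicValInt p n = (Cfsg.charDegree (ξ : G → ℂ)).factorization p) ↔ Cfsg.blockHeight p B (χ : G → ℂ) = 0 := fun ξ hξ => by
    have h1 : (fun x : G => if p ∣ orderOf x then (0 : ℂ) else ((p ^ (Nat.card G).factorization p : ℕ) : ℂ) * (χ : G → ℂ) x) = ((p ^ (Nat.card G).factorization p : ℕ) : ℂ) • reg p χ.1 := by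
      funext x; simp only [Pi.smul_apply, reg, smul_eq_mul]; split_ifs <;> simp
    have h2 := mB_add_blockDefect (p := p) ⟨χ, hχ⟩
    have h3 : nu p ξ.1 = mB p B + blockHeight p B ξ.1 := by
      have := mB_le (p := p) hξ; rw [blockHeight_eq]; omega
    rw [h1, H3.inner_smul_left, ← h2, pow_add, Nat.cast_mul, mul_assoc, ha.eq χ ξ hξ, ← ha.ndvd χ hχ ξ hξ]
    change (∃ n : ℤ, _ ∧ _ ∧ _ = nu p ξ.1) ↔ _
    have h0 : (p : ℤ) ^ mB p B ≠ 0 := pow_ne_zero _ (by exact_mod_cast hp.ne_zero)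
    rw [h3, ← mul_dvd_mul_iff_left h0, ← pow_add, ← add_assoc, padicValInt_dvd_iff, not_or, not_le]
    have h4 := mul_dvd_mul_left ((p : ℤ) ^ mB p B) (ha.dvd χ ξ hξ)
    rw [← pow_add, padicValInt_dvd_iff] at h4
    constructor
    · rintro ⟨n, h5, h6, h7⟩
      obtain rfl : (p : ℤ) ^ mB p B * a χ ξ = n := by exact_mod_cast h5
      exact ⟨h6, by omega⟩
    · exact fun ⟨h5, h6⟩ => ⟨_, by push_cast; rfl, h5, by have := h4.resolve_left h5; omega⟩
  exact ⟨⟨fun h => ⟨χ, hχ, (key χ hχ).2 h⟩, fun ⟨ξ, h, h'⟩ => (key ξ h).1 h'⟩,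
    ⟨fun h ξ h' => (key ξ h').2 h, fun h => (key χ hχ).1 (h χ hχ)⟩⟩

end Cfsg.Agent.S4426
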