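import Cfsg.Statements.S4430
import Cfsg.Agent.H4.Gal

set_option autoImplicit false
open Cfsg

namespace Cfsg.Agent.S4430

open H4 H1 MonoidAlgebra
open scoped Pointwise


/-- Let H be a subgroup of the finite group G, b a block of H whose induced block B₀ in G is defined (relative to a maximal ideal M of the algebraic integers containing p), and ξ ∈ b. For a block B of G let n_B be the value at 1 of the B-part of the induced character ξ^G (a natural number: the sum over χ ∈ B of the multiplicity of χ in ξ^G times χ(1)). Then for B = B₀ the exact power of p dividing n_B equals the exact power of p dividing ξ^G(1), while for every other block B either n_B = 0 or n_B is divisible by a strictly higher power of p than ξ^G(1). -/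
theorem result {G : Type*} [Group G] [Fintype G] (p : ℕ) [Fact p.Prime] (M : Ideal Cfsg.AlgInt) (hM : Cfsg.IsPModular p M) (H : Subgroup G) [Fintype H] (b : Set (Cfsg.IrrCharacter H)) (B₀ : Set (Cfsg.IrrCharacter G)) (hind : Cfsg.IsInducedBlock M H b B₀) (ξ : Cfsg.IrrCharacter H) (hξ : ξ ∈ b) : (∃ n : ℕ, Cfsg.blockPart B₀ (Cfsg.indFun H (ξ : H → ℂ)) 1 = (n : ℂ) ∧ n ≠ 0 ∧ n.factorization p = (Cfsg.charDegree (Cfsg.indFun H (ξ : H → ℂ))).factorization p) ∧ ∀ B : Set (Cfsg.IrrCharacter G), Cfsg.IsPBlock M B → B ≠ B₀ → ∃ n : ℕ, Cfsg.blockPart B (Cfsg.indFun H (ξ : H → ℂ)) 1 = (n : ℂ) ∧ (n = 0 ∨ (Cfsg.charDegree (Cfsg.indFun H (ξ : H → ℂ))).factorization p < n.factorization p) := by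
  classical
  have key : ∀ B : Set (IrrCharacter G), IsPBlock M B → ∃ n : ℕ, blockPart B (indFun H ξ.1) 1 = n ∧
      red M ((n : ℂ) / charDegree (indFun H ξ.1)) = lamB M B₀ (eB M B) ∧ (n : ℂ) / charDegree (indFun H ξ.1) ∈ O M := by
    intro B hB
    have h1 := H3.char_indFun H (H3.irr_char ξ.2)
    obtain ⟨n, hn⟩ : ∃ n : ℕ, blockPart B (indFun H ξ.1) 1 = n := by
      obtain ⟨c, hc, -⟩ := H3.char_eq_sum_nat h1
      exact ⟨∑ χ ∈ fs B, c χ * charDegree χ.1, by simp [blockPart_apply, hc, irr_one_eq]⟩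
    have h2 := blockPart_indFun_one H ξ B
    have h3 : indFun H ξ.1 1 ≠ 0 := by
      rw [H3.indFun_one]; exact mul_ne_zero (Nat.cast_ne_zero.2 H.index_ne_zero_of_finite) (H3.irr_one_ne_zero ξ.2)
    rw [← char_one_eq h1]
    exact ⟨n, hn, by rw [← hn, h2, mul_div_cancel_left₀ _ h3]; exact (red_om_resA_fI hM hind hξ hB).symm⟩
  have h0 : charDegree (indFun H ξ.1) ≠ 0 := by
    rw [← Nat.cast_ne_zero (R := ℂ), ← char_one_eq (H3.char_indFun H (H3.irr_char ξ.2)), H3.indFun_one]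
    exact mul_ne_zero (Nat.cast_ne_zero.2 H.index_ne_zero_of_finite) (H3.irr_one_ne_zero ξ.2)
  refine ⟨?_, fun B hB hne => ?_⟩
  · obtain ⟨n, h1, h2, -⟩ := key B₀ hind.2.1
    have h3 := h2.trans_ne (lamB_eB_self hM hind.2.1 ▸ one_ne_zero)
    have h4 : n ≠ 0 := by rintro rfl; simp at h3
    exact ⟨n, h1, h4, (red_natCast_div_ne_zero_iff hM h4 h0).1 h3⟩
  · obtain ⟨n, h1, h2, h3⟩ := key B hB
    refine ⟨n, h1, or_iff_not_imp_left.2 fun h4 => ((natCast_div_mem_iff hM h4 h0).1 h3).lt_of_ne' fun e => ?_⟩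
    exact (red_natCast_div_ne_zero_iff hM h4 h0).2 e (h2.trans (lamB_eB_ne hM hind.2.1 hB hne.symm))

end Cfsg.Agent.S4430
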