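import Cfsg.Statements.S4431
import Cfsg.Agent.H4.Gal

set_option autoImplicit false
open Cfsg

namespace Cfsg.Agent.S4431

open H4 H1 MonoidAlgebra
open scoped Pointwise


/-- Let H be a subgroup of the finite group G and b a block of H whose induced block B₀ in G is defined (relative to a maximal ideal M of the algebraic integers containing p). Let χ be an irreducible character of G, ψ ∈ b, and let η be the class function on H equal to p^a · χ on the p-regular elements of H and zero elsewhere, p^a being the p-part of the order of H. Then (a) if χ ∉ B₀, the number [η, ψ]/ψ(1) lies in the local ideal at M; (b) if χ ∈ B₀ has height zero, it does not. -/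
theorem result {G : Type*} [Group G] [Fintype G] (p : ℕ) [Fact p.Prime] (M : Ideal Cfsg.AlgInt) (hM : Cfsg.IsPModular p M) (H : Subgroup G) [Fintype H] (b : Set (Cfsg.IrrCharacter H)) (B₀ : Set (Cfsg.IrrCharacter G)) (hind : Cfsg.IsInducedBlock M H b B₀) (χ : Cfsg.IrrCharacter G) (ψ : Cfsg.IrrCharacter H) (hψ : ψ ∈ b) : (χ ∉ B₀ → Cfsg.MemLocalIdeal M (Cfsg.classInner (fun h : H => if p ∣ orderOf h then (0 : ℂ) else ((p ^ (Nat.card H).factorization p : ℕ) : ℂ) * (χ : G → ℂ) h) (ψ : H → ℂ) / (ψ : H → ℂ) 1)) ∧ (χ ∈ B₀ → Cfsg.blockHeight p B₀ (χ : G → ℂ) = 0 → ¬ Cfsg.MemLocalIdeal M (Cfsg.classInner (fun h : H => if p ∣ orderOf h then (0 : ℂ) else ((p ^ (Nat.card H).factorization p : ℕ) : ℂ) * (χ : G → ℂ) h) (ψ : H → ℂ) / (ψ : H → ℂ) 1)) := by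
  classical
  have h1 : (fun h : H => if p ∣ orderOf h then (0 : ℂ) else ((p ^ (Nat.card H).factorization p : ℕ) : ℂ) * χ.1 h) =
      ((p ^ (Nat.card H).factorization p : ℕ) : ℂ) • reg p fun h : H => χ.1 h := by
    ext h; simp only [Pi.smul_apply, reg, smul_eq_mul]; split_ifs <;> simp
  have h2 := OC_restrict (M := M) H (irr_mem_OC χ)
  have h0 := (Nat.card_pos (α := H)).ne'
  have h3 := (red_natCast_div_ne_zero_iff hM (pow_ne_zero ((Nat.card H).factorization p) (Fact.out : p.Prime).ne_zero)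
    h0).2 (by simp [(Fact.out : p.Prime).factorization_pow])
  obtain ⟨n, hn⟩ := inner_reg_rat (p := p) (H3.gen_restrict (H3.irr_gen χ.2) H) (H3.irr_gen ψ.2)
  have h4 : classInner (((p ^ (Nat.card H).factorization p : ℕ) : ℂ) • reg p fun h : H => χ.1 h) ψ.1 / ψ.1 1 =
      ((p ^ (Nat.card H).factorization p : ℕ) : ℂ) / Nat.card H * om ψ.1 (zR p fun h : H => χ.1 h) := by
    have := H3.card_ne_zero' H
    rw [om_zR _ (H3.irr_char ψ.2), H3.inner_smul_left]; field_simp
  have h5 := om_zR_mem_O (p := p) ψ.2 h2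
  rw [h1, memLocalIdeal_iff hM (by
    rw [H3.inner_smul_left, hn]; exact div_mem (intCast_mem _ _) (irr_mem_Alg _ _))
    (h4 ▸ mul_mem (mem_O_of_red_ne_zero h3) h5), h4, red_mul (mem_O_of_red_ne_zero h3) h5, ← Lz_eq hM hind.1 hψ h2,
    Lz_ind hM hind (H3.irr_class χ.2), mul_eq_zero, or_iff_right h3, ← Ne, Lz_ne_zero_iff hM hind.2.1,
    ← not_ne_iff, Lz_ne_zero_iff hM hind.2.1]
  tauto

end Cfsg.Agent.S4431
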