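import Cfsg.Statements.S4434
import Cfsg.Agent.H4.Quot

set_option autoImplicit false
open Cfsg

namespace Cfsg.Agent.S4434

open H4 H1 MonoidAlgebra
open scoped Pointwise


/-- Let N be a normal p-subgroup of the finite group G and write Ḡ = G/N; fix a maximal ideal M of the algebraic integers containing p. Then every block B of G contains a block B̄ of Ḡ (the inflation of every member of B̄ lies in B) whose defect groups are exactly the images in Ḡ of the defect groups of B. -/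
theorem result {G : Type*} [Group G] [Finite G] (p : ℕ) [Fact p.Prime] (M : Ideal Cfsg.AlgInt) (hM : Cfsg.IsPModular p M) (N : Subgroup G) [N.Normal] (hN : IsPGroup p N) (B : Set (Cfsg.IrrCharacter G)) (hB : Cfsg.IsPBlock M B) : ∃ Bbar : Set (Cfsg.IrrCharacter (G ⧸ N)), Cfsg.IsPBlock M Bbar ∧ (∀ χ ∈ Bbar, ∀ ψ : Cfsg.IrrCharacter G, (ψ : G → ℂ) = (χ : G ⧸ N → ℂ) ∘ QuotientGroup.mk → ψ ∈ B) ∧ ∀ Dbar : Subgroup (G ⧸ N), Cfsg.IsDefectGroup p M Bbar Dbar ↔ ∃ P : Subgroup G, Cfsg.IsDefectGroup p M B P ∧ Dbar = P.map (QuotientGroup.mk' N) := by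
  have hf := QuotientGroup.mk'_surjective N
  have hk : IsPGroup p (QuotientGroup.mk' N).ker := by rwa [QuotientGroup.ker_mk']
  obtain ⟨P, hP⟩ := exists_dg hM hB
  obtain ⟨B', h1, h2, h3⟩ := exists_dg_map hM hf hk hB hP
  have h4 : ∀ x : G, (MulAut.conj x • P).map (QuotientGroup.mk' N) =
      MulAut.conj (QuotientGroup.mk' N x) • P.map (QuotientGroup.mk' N) := fun x => map_conj_smul _ _ _
  refine ⟨B', h1, fun χ hχ ψ e => (show infl hf χ = ψ from Subtype.ext e.symm) ▸ h2 χ hχ, fun D => ⟨fun h => ?_, ?_⟩⟩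
  · obtain ⟨y, rfl⟩ := dg_exists_conj_eq hM h1 h3 h
    obtain ⟨x, rfl⟩ := hf y
    exact ⟨_, dg_conj hM hB hP x, (h4 x).symm⟩
  · rintro ⟨Q, hQ, rfl⟩
    obtain ⟨x, rfl⟩ := dg_exists_conj_eq hM hB hP hQ
    rw [h4]; exact dg_conj hM h1 h3 _

end Cfsg.Agent.S4434
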