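import Cfsg.Statements.S4435
import Cfsg.Agent.H4.Cover2

set_option autoImplicit false
open Cfsg

namespace Cfsg.Agent.S4435

open H4 H1 MonoidAlgebra
open scoped Pointwise


/-- Let N be a normal subgroup of the finite group G, b a block of N (relative to a maximal ideal M of the algebraic integers containing p), and T the stabilizer of b in G (the elements g such that conjugating any member of b by g gives a member of b); N ≤ T. Say that a block of T (or of G) covers b when some member has a constituent in b on restriction to N. Then: (i) every block B′ of T covering b induces a block B of G, B covers b, every ψ ∈ B′ induces to an irreducible character of G, and B consists exactly of the characters induced from members of B′; (ii) distinct blocks of T covering b induce distinct blocks of G; (iii) every block of G covering b is induced by some block of T covering b. -/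
theorem result {G : Type*} [Group G] [Fintype G] (p : ℕ) [Fact p.Prime] (M : Ideal Cfsg.AlgInt) (hM : Cfsg.IsPModular p M) (N : Subgroup G) [hN : N.Normal] [Fintype N] (b : Set (Cfsg.IrrCharacter N)) (hb : Cfsg.IsPBlock M b) (T : Subgroup G) [Fintype T] (hT : ∀ g : G, g ∈ T ↔ ∀ θ ∈ b, ∀ θ' : Cfsg.IrrCharacter N, (∀ n : N, (θ' : N → ℂ) n = (θ : N → ℂ) ⟨g * n * g⁻¹, hN.conj_mem n n.2 g⟩) → θ' ∈ b) (hNT : N ≤ T) : (∀ B' : Set (Cfsg.IrrCharacter T), Cfsg.IsPBlock M B' → (∃ ψ ∈ B', ∃ θ ∈ b, Cfsg.classInner (fun n : N => (ψ : T → ℂ) ⟨(n : G), hNT n.2⟩) (θ : N → ℂ) ≠ 0) → ∃ B : Set (Cfsg.IrrCharacter G), Cfsg.IsInducedBlock M T B' B ∧ (∃ χ ∈ B, ∃ θ ∈ b, Cfsg.classInner (fun n : N => (χ : G → ℂ) n) (θ : N → ℂ) ≠ 0) ∧ (∀ ψ ∈ B', Cfsg.IsIrrCharacter G (Cfsg.indFun T (ψ : T → ℂ))) ∧ ∀ χ : Cfsg.IrrCharacter G, χ ∈ B ↔ ∃ ψ ∈ B', (χ : G → ℂ) = Cfsg.indFun T (ψ : T → ℂ)) ∧ (∀ B'₁ B'₂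 : Set (Cfsg.IrrCharacter T), Cfsg.IsPBlock M B'₁ → Cfsg.IsPBlock M B'₂ → (∃ ψ ∈ B'₁, ∃ θ ∈ b, Cfsg.classInner (fun n : N => (ψ : T → ℂ) ⟨(n : G), hNT n.2⟩) (θ : N → ℂ) ≠ 0) → (∃ ψ ∈ B'₂, ∃ θ ∈ b, Cfsg.classInner (fun n : N => (ψ : T → ℂ) ⟨(n : G), hNT n.2⟩) (θ : N → ℂ) ≠ 0) → ∀ B : Set (Cfsg.IrrCharacter G), Cfsg.IsInducedBlock M T B'₁ B → Cfsg.IsInducedBlock M T B'₂ B → B'₁ = B'₂) ∧ (∀ B : Set (Cfsg.IrrCharacter G), Cfsg.IsPBlock M B → (∃ χ ∈ B, ∃ θ ∈ b, Cfsg.classInner (fun n : N => (χ : G → ℂ) n) (θ : N → ℂ) ≠ 0) → ∃ B' : Set (Cfsg.IrrCharacter T), Cfsg.IsPBlock M B' ∧ (∃ ψ ∈ B', ∃ θ ∈ b, Cfsg.classInner (fun n : N => (ψ : T → ℂ) ⟨(n : G), hNT n.2⟩) (θ : N → ℂ) ≠ 0) ∧ Cfsg.IsInducedBlock M T B' B) := by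
  obtain rfl : T = Stab ⊤ (aE M N b) := Subgroup.ext fun g => by
    rw [hT, stable_iff' hM hb, mem_Stab, and_iff_right (Subgroup.mem_top g)]
  have he := isBI_aE hM hb
  have key : ∀ B', IsPBlock M B' → aE M _ B' * aE M N b ≠ 0 → ∀ B, IsPBlock M B →
      (IsInducedBlock M (Stab ⊤ (aE M N b)) B' B ↔ eB M B = Tr (Stab ⊤ (aE M N b)) ⊤ (aE M _ B')) :=
    fun B' hB' h B hB => FR_ind hM hB' (FR_h0 he (isBI_aE hM hB') h).2 hB
  refine ⟨fun B' hB' h => ?_, fun B₁ B₂ h1 h2 h3 h4 B h5 h6 => ?_, fun B hB h => ?_⟩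
  · rw [cov_iff_amb hM hNT hB' hb] at h
    obtain ⟨h1, h2⟩ := FR_h0 he (isBI_aE hM hB') h
    obtain ⟨B, hB, h3⟩ := (FR_isBI (isBI_aE hM hB') h2).exists_block_top hM
    have h4 := FR_h0_F hM hb rfl hB' h
    have h5 := (key B' hB' h B hB).2 h3
    refine ⟨B, h5, (cov_iff hM hB hb).2 fun h6 => (isBI_aE hM hB').ne ?_, fun ψ hψ => FR_irr h4 hψ,
      fun χ => FR_mem_iff hM h4 h5⟩
    rw [← FR_Tr_mul (aE_mem_ZA _ B').1 (isBI_aE hM hB').idem h2, ← h3, ← h1,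
      ZA_comm_Fix (aE_mem_ZA _ B') (mem_Fix_Stab _ _), ← mul_assoc, h6, zero_mul]
  · rw [cov_iff_amb hM hNT h1 hb] at h3
    rw [cov_iff_amb hM hNT h2 hb] at h4
    exact aE_inj hM h1 h2 (FR_inj he (isBI_aE hM h1) (isBI_aE hM h2) h3 h4
      (((key _ h1 h3 B h5.2.1).1 h5).symm.trans ((key _ h2 h4 B h5.2.1).1 h6)))
  · obtain ⟨f, hf, h1, h2⟩ := FR_surj hM he (isBI_eB hM hB) ((cov_iff hM hB hb).1 h)
    obtain ⟨B', hB', rfl⟩ := hf.exists_block hM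
    exact ⟨B', hB', (cov_iff_amb hM hNT hB' hb).2 h1, (key B' hB' h1 B hB).2 h2⟩

end Cfsg.Agent.S4435
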