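import Cfsg.Statements.S4436
import Cfsg.Agent.H4.Cover2

set_option autoImplicit false
open Cfsg

namespace Cfsg.Agent.S4436

open H4 H1 MonoidAlgebra
open scoped Pointwise


/-- Let N be a normal subgroup of the finite group G, b a block of N (relative to a maximal ideal M of the algebraic integers containing p), T the stabilizer of b in G, N ≤ T, and B′ a block of T covering b (some member of B′ has a constituent in b on restriction to N) that induces the block B of G. Then every defect group of B′ is a defect group of B, and for every ψ ∈ B′ the induced character ψ^G is an irreducible character of G lying in B with the same height as ψ. -/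
theorem result {G : Type*} [Group G] [Fintype G] (p : ℕ) [Fact p.Prime] (M : Ideal Cfsg.AlgInt) (hM : Cfsg.IsPModular p M) (N : Subgroup G) [hN : N.Normal] [Fintype N] (b : Set (Cfsg.IrrCharacter N)) (hb : Cfsg.IsPBlock M b) (T : Subgroup G) [Fintype T] (hT : ∀ g : G, g ∈ T ↔ ∀ θ ∈ b, ∀ θ' : Cfsg.IrrCharacter N, (∀ n : N, (θ' : N → ℂ) n = (θ : N → ℂ) ⟨g * n * g⁻¹, hN.conj_mem n n.2 g⟩) → θ' ∈ b) (hNT : N ≤ T) (B' : Set (Cfsg.IrrCharacter T)) (hB' : Cfsg.IsPBlock M B') (hcov : (∃ ψ ∈ B', ∃ θ ∈ b, Cfsg.classInner (fun n : N => (ψ : T → ℂ) ⟨(n : G), hNT n.2⟩) (θ : N → ℂ) ≠ 0)) (B : Set (Cfsg.IrrCharacter G)) (hind : Cfsg.IsInducedBlock M T B' B) : (∀ D : Subgroup T, Cfsg.IsDefectGroup p M B' D → Cfsg.IsDefectGroup p M B (D.map T.subtype)) ∧ ∀ ψ ∈ B', ∃ χ ∈ B, (χ : G → ℂ) = Cfsg.indFun T (ψ : T → ℂ) ∧ Cfsg.blockHeight p B (χ : G → ℂ) = Cfsg.blockHeight p B' (ψ : T → ℂ) := by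
  obtain rfl : T = Stab ⊤ (aE M N b) := Subgroup.ext fun g => by
    rw [hT, stable_iff' hM hb, mem_Stab, and_iff_right (Subgroup.mem_top g)]
  have he := isBI_aE hM hb
  rw [cov_iff_amb hM hNT hB' hb] at hcov
  have h2 := (FR_h0 he (isBI_aE hM hB') hcov).2
  have hB := hind.2.1
  have h3 := (FR_ind hM hB' h2 hB).1 hind
  have h4 := FR_h0_F hM hb rfl hB' hcov
  have key : ∀ D : Subgroup (Stab ⊤ (aE M N b)), IsDefectGroup p M B' D →
      IsDefectGroup p M B (D.map (Subgroup.subtype _)) := fun D hD =>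
    (dg_iff_ADG_top hM hB).2 (h3 ▸ FR_ADG hM (isBI_aE hM hB') h2 ((dg_iff_ADG_map hM hB').1 hD))
  refine ⟨key, fun ψ hψ => ?_⟩
  have h5 : (⟨_, FR_irr h4 hψ⟩ : IrrCharacter G) ∈ B := (FR_mem_iff hM h4 hind).2 ⟨ψ, hψ, rfl⟩
  refine ⟨_, h5, rfl, ?_⟩
  obtain ⟨D, hD⟩ := exists_dg hM hB'
  have h6 := dg_factorization hM hB (key D hD)
  rw [Subgroup.card_subtype, dg_factorization hM hB' hD] at h6
  have h7 := nu_add_blockDefect (p := p) h5
  have h8 := nu_add_blockDefect (p := p) hψ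
  have h9 := factorization_index_add (p := p) (Stab ⊤ (aE M N b))
  have := nu_indFun (p := p) (G := G) ψ.2
  change nu p (indFun _ _) + _ = _ at h7
  omega

end Cfsg.Agent.S4436
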