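import Cfsg.Statements.S4437
import Cfsg.Agent.H4.Cons

set_option autoImplicit false
open Cfsg

namespace Cfsg.Agent.S4437

open H4 H1 MonoidAlgebra
open scoped Pointwise


/-- Let P be a p-subgroup of the finite group G, H = P·C_G(P), and b a block of H (relative to a maximal ideal M of the algebraic integers containing p) having P as a defect group; let B be the block of G induced by b. Let T be the stabilizer of b in N_G(P): the elements g of N_G(P) such that the g-conjugate of every member of b is again a member of b. Then B has defect group P if and only if p does not divide the index of H in T. -/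
theorem result {G : Type*} [Group G] [Fintype G] (p : ℕ) [Fact p.Prime] (M : Ideal Cfsg.AlgInt) (hM : Cfsg.IsPModular p M) (P : Subgroup G) (hP : IsPGroup p P) (H : Subgroup G) [Fintype H] (hH : H = P ⊔ Subgroup.centralizer (P : Set G)) (b : Set (Cfsg.IrrCharacter H)) (hb : Cfsg.IsPBlock M b) (hbP : Cfsg.IsDefectGroup p M b (P.subgroupOf H)) (B : Set (Cfsg.IrrCharacter G)) (hind : Cfsg.IsInducedBlock M H b B) (T : Subgroup G) (hT : ∀ g : G, g ∈ T ↔ (g ∈ Subgroup.normalizer (P : Set G) ∧ ∀ θ ∈ b, ∀ θ' : Cfsg.IrrCharacter H, (∀ h h' : H, (h' : G) = g * h * g⁻¹ → (θ' : H → ℂ) h' = (θ : H → ℂ) h) → θ' ∈ b)) : Cfsg.IsDefectGroup p M B P ↔ ¬ p ∣ H.relIndex T := by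
  subst hH
  have h1 : P ⊔ CS P ≤ NS P := sup_le Subgroup.le_normalizer (CS_le_NS P)
  have hB := hind.2.1
  have h2 := (ind_iff_mul hM hP le_sup_left le_sup_right h1 hb hB).1 hind
  have h3 := (isBI_aE hM hb).of_sup_CS hM hP
  obtain rfl : T = Stab (NS P) (aE M _ b) := Subgroup.ext fun g => by
    rw [hT, mem_Stab]
    exact and_congr_right fun hg => stable_iff hM hb (NS_le_NS_sup_CS P hg)
  rw [dg_iff_ADG hM hb le_sup_left] at hbP
  rw [dg_iff_ADG_top hM hB]
  refine ⟨fun h => MaxP.not_dvd hM ⟨isBI_eB hM hB, h, h3, h2⟩, fun h => (maxP_of_ADG_stab hM (isBI_eB hM hB) h3 h2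
    (ADG.of_stable (sup_CS_le_Stab h3) ((Stab_le _ _).trans (NS_le_NS_sup_CS P)) (le_Stab_NS h3) hP hbP.ne
      ?_ ?_)).dg⟩
  · rwa [inf_eq_left.2 le_sup_left]
  · rwa [← sup_assoc, sup_idem]

end Cfsg.Agent.S4437
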