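import Cfsg.Statements.S4442
import Cfsg.Agent.H3.Df2

set_option autoImplicit false
open Cfsg

namespace Cfsg.Agent.S4442

open H4 H1 H3

/-- Blocks of defect one. Let p be an odd prime and G a finite group whose Sylow p-subgroup P has order p; let C = C_G(P) and N = N_G(P), and fix a maximal ideal M of the algebraic integers containing p. Let B be a block of G with defect group P, b a block of C inducing B, and θ the member of b having P in its kernel (there is exactly one). Let T be the stabilizer of θ in N (the elements g ∈ N with θ(g c g⁻¹) = θ(c) for all c ∈ C) and e the index of C in T. Then e divides p − 1 and B contains exactly e + (p − 1)/e irreducible characters. Moreover B is the disjoint union of a set X of e characters and a set Y of (p − 1)/e characters such that, with f the index of C in N: every χ ∈ X has χ(1) ≡ ±(f/e)·θ(1) (mod p), there is one sign ε with ψ(1) ≡ ε f θ(1) (mod p) for all ψ ∈ Y, and all members of Y agree on the p-regular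 elements of G. -/
theorem result {G : Type*} [Group G] [Finite G] (p : ℕ) [Fact p.Prime] (M : Ideal Cfsg.AlgInt) (hM : Cfsg.IsPModular p M) (hodd : p ≠ 2) (P : Sylow p G) (hP : Nat.card P = p) (B : Set (Cfsg.IrrCharacter G)) (hB : Cfsg.IsPBlock M B) (hBP : Cfsg.IsDefectGroup p M B P) (b : Set (Cfsg.IrrCharacter (Subgroup.centralizer ((P : Subgroup G) : Set G)))) (hind : Cfsg.IsInducedBlock M (Subgroup.centralizer ((P : Subgroup G) : Set G)) b B) (θ : Cfsg.IrrCharacter (Subgroup.centralizer ((P : Subgroup G) : Set G))) (hθ : θ ∈ b) (hθP : ∀ x : Subgroup.centralizer ((P : Subgroup G) : Set G), (x : G) ∈ (P : Subgroup G) → (θ : Subgroup.centralizer ((P : Subgroup G) : Set G) → ℂ) x = (θ : Subgroup.centralizer ((P : Subgroup G) : Set G) → ℂ) 1) (T : Subgroup G) (hT : ∀ g : G, g ∈ T ↔ (g ∈ Subgroup.normalizer ((P : Subgroup G) : Set G) ∧ ∀ c c' : Subgroup.centralizer ((P : Subgroup G) : Set G), (c' : G) = g * c * g⁻¹ → (θ : Subgroup.centralizer ((P : Subgroup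 G) : Set G) → ℂ) c' = (θ : Subgroup.centralizer ((P : Subgroup G) : Set G) → ℂ) c)) (e f : ℕ) (he : (Subgroup.centralizer ((P : Subgroup G) : Set G)).relIndex T = e) (hf : (Subgroup.centralizer ((P : Subgroup G) : Set G)).relIndex (Subgroup.normalizer ((P : Subgroup G) : Set G)) = f) : e ∣ p - 1 ∧ Nat.card B = e + (p - 1) / e ∧ ∃ X Y : Set (Cfsg.IrrCharacter G), B = X ∪ Y ∧ Disjoint X Y ∧ Nat.card X = e ∧ Nat.card Y = (p - 1) / e ∧ (∀ χ ∈ X, (Cfsg.charDegree (χ : G → ℂ) : ℤ) ≡ ((f / e * Cfsg.charDegree (θ : Subgroup.centralizer ((P : Subgroup G) : Set G) → ℂ) : ℕ) : ℤ) [ZMOD p] ∨ (Cfsg.charDegree (χ : G → ℂ) : ℤ) ≡ -((f / e * Cfsg.charDegree (θ : Subgroup.centralizer ((P : Subgroup G) : Set G) → ℂ) : ℕ) : ℤ) [ZMOD p]) ∧ (∃ ε : ℤ, (ε = 1 ∨ ε = -1) ∧ ∀ ψ ∈ Y, (Cfsg.charDegree (ψ : G → ℂ) : ℤ) ≡ ε * ((f * Cfsg.charDegree (θ : Subgroup.centralizer ((P : Subgroup G) : Set G) → ℂ) : ℕ) : ℤ) [ZMOD p]) ∧ ∀ ψ ∈ Y, ∀ ψ' ∈ Y, ∀ g : G, ¬ p ∣ orderOf g → (ψ : G →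 ℂ) g = (ψ' : G → ℂ) g := by
  classical
  haveI := Fintype.ofFinite G
  haveI := Fintype.ofFinite P
  have h : Df M B P b θ := ⟨hM, hP, hind, hθ, hθP⟩
  obtain rfl : T = dT M P b := Subgroup.ext fun g => (hT g).trans h.mem_T.symm
  obtain ⟨ζ, a, δ, h2, h3, h4⟩ := h.dade
  have h5 := (card_ga (Stab_le _ _)).trans he
  have h6 := h.fb.fr.card_OS
  have h7 : 0 < e := h5 ▸ Nat.card_pos
  rw [h5] at h3 h6
  have h8 : p - 1 = e * (OS (ga (P : Subgroup G) (dT M P b))).card := Nat.sub_eq_of_eq_add (h6.trans hP).symm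
  have h9 : (p - 1) / e = (OS (ga (P : Subgroup G) (dT M P b))).card := by rw [h8, Nat.mul_div_cancel_left _ h7]
  have h10 : f = e * (dT M P b).relIndex (NS (P : Subgroup G)) := by
    rw [← he, Subgroup.relIndex_mul_relIndex _ _ _ (CS_le_Stab h.hm.be) (Stab_le _ _), hf]
  refine ⟨⟨_, h8⟩, by rw [h2.card, h3, h9, add_comm], _, _, h2.union, Set.disjoint_sdiff_left, h3,
    by rw [h2.card_image, h9], fun χ hχ => ?_, ⟨δ, h2.sign, ?_⟩, ?_⟩
  · have := h.modEq hχ.1 (n := a χ) fun t ht => by rw [(h2.val' χ hχ).2 t ht, red_intCast]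
    rw [h10, Nat.mul_div_cancel_left _ h7]
    rcases h4 χ hχ with h11 | h11 <;> rw [h11] at this
    exacts [.inl (by simpa using this), .inr (by simpa using this)]
  · rintro _ ⟨o, ho, rfl⟩
    have := h.modEq (h2.mem o ho) (n := δ * e) fun t ht => by
      rw [h2.val o ho t ht, Int.cast_zero, zero_add, red_mul (intCast_mem _ _) (os_mem_O ho t), red_intCast,
        red_os hM P.isPGroup' ho, h5]
      push_cast; rfl
    rw [h10]; convert this using 1; push_cast; ring
  · rintro _ ⟨o, ho, rfl⟩ _ ⟨o', ho', rfl⟩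
    exact h2.reg o ho o' ho'

end Cfsg.Agent.S4442
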