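import Cfsg.Statements.S4443
import Cfsg.Agent.H4.Maj2

set_option autoImplicit false
open Cfsg

namespace Cfsg.Agent.S4443

open H4 H1 MonoidAlgebra
open scoped Pointwise


theorem isConj_inv {G : Type*} [Group G] {a b : G} (h : IsConj a b) : IsConj a⁻¹ b⁻¹ := by
  obtain ⟨c, rfl⟩ := isConj_iff.1 h
  exact isConj_iff.2 ⟨c, by group⟩

theorem cnt {G : Type*} [Group G] [Fintype G] (S : Subgroup G) (a b : G) :
    (S.index : ℂ) * Nat.card {yz : G × G // IsConj a yz.1 ∧ IsConj b yz.2 ∧ yz.2 * yz.1⁻¹ ∈ S} =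
      (C1 a⁻¹).index * ev (indFun S fun _ => 1) (cls ℂ b * single a⁻¹ 1) := by
  classical
  have := Fintype.ofFinite S
  rw [← ev_mul_cls (cls_mem_Z _) (H3.class_indFun _ _), ev_indFun _ _ (mul_mem (cls_mem_Z _) (cls_mem_Z _)), ev_apply]
  congr 1
  simp only [coeff_resA, mul_one, coeff_mul_sum', coeff_cls]
  rw [Nat.card_eq_of_bijective (β := {sy : S × G // IsConj b (sy.1 * sy.2⁻¹) ∧ IsConj a⁻¹ sy.2})
    (fun x : {yz : G × G // IsConj a yz.1 ∧ IsConj b yz.2 ∧ yz.2 * yz.1⁻¹ ∈ S} =>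
      ⟨(⟨_, x.2.2.2⟩, x.1.1⁻¹), by simpa only [inv_inv, inv_mul_cancel_right] using x.2.2.1, isConj_inv x.2.1⟩)
      ⟨?_, ?_⟩, Nat.card_eq_fintype_card, Fintype.card_subtype, Finset.card_filter, Nat.cast_sum, Fintype.sum_prod_type]
  · refine Finset.sum_congr rfl fun _ _ => Finset.sum_congr rfl fun _ _ => ?_
    simp only [ite_and, Nat.cast_ite, Nat.cast_one, Nat.cast_zero, ite_mul, one_mul, zero_mul]
    congr
  · rintro ⟨⟨a, b⟩, h⟩ ⟨⟨c, d⟩, h'⟩ e
    simp only [Subtype.mk.injEq, Prod.mk.injEq, inv_inj] at e ⊢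
    obtain ⟨e1, rfl⟩ := e
    exact ⟨rfl, mul_right_cancel e1⟩
  · rintro ⟨⟨s, y⟩, h1, h2⟩
    exact ⟨⟨(y⁻¹, s * y⁻¹), inv_inv a ▸ isConj_inv h2, h1, by simp⟩, by simp⟩

/-- Let D be a normal p-subgroup of the finite group G, of order p^d, let p^a be the p-part of the order of G, and fix a Sylow p-subgroup S and a maximal ideal M of the algebraic integers containing p. Index by a finite type ι (via an injective map K) exactly the conjugacy classes of p-regular elements x of G for which D is a Sylow p-subgroup of C_G(x). For classes K_i, K_j let ω(i, j) be the number of pairs (y, z) ∈ K_i × K_j with z y⁻¹ ∈ S; this number is divisible by p^(a−d). Then the number of p-blocks of G having D as a defect group equals the rank over ℤ/pℤ of the matrix with (i, j) entry ω(i, j)/p^(a−d) reduced modulo p. -/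
theorem result {G : Type*} [Group G] [Finite G] (p : ℕ) [Fact p.Prime] (M : Ideal Cfsg.AlgInt) (hM : Cfsg.IsPModular p M) (D : Subgroup G) [D.Normal] (hD : IsPGroup p D) (S : Sylow p G) {ι : Type*} [Fintype ι] [DecidableEq ι] (K : ι → ConjClasses G) (hKinj : Function.Injective K) (hK : ∀ C : ConjClasses G, (∃ i, K i = C) ↔ ∃ x ∈ C.carrier, ¬ p ∣ orderOf x ∧ ∃ Q : Sylow p (Subgroup.centralizer ({x} : Set G)), (Q : Subgroup (Subgroup.centralizer ({x} : Set G))).map (Subgroup.centralizer ({x} : Set G)).subtype = D) : Nat.card {B : Set (Cfsg.IrrCharacter G) // Cfsg.IsPBlock M B ∧ Cfsg.IsDefectGroup p M B D} = (Matrix.of fun i j : ι => ((Nat.card {yz : G × G // yz.1 ∈ (K i).carrier ∧ yz.2 ∈ (K j).carrier ∧ yz.2 * yz.1⁻¹ ∈ (S : Subgroup G)} / p ^ ((Nat.card G).factorization p - (Nat.card D).factorization p) : ℕ) : ZMod p)).rank := by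
  classical
  have := Fintype.ofFinite G
  have hp : p.Prime := Fact.out
  have := charP_k hM
  set T := {B : Set (IrrCharacter G) // IsPBlock M B ∧ IsDefectGroup p M B D}
  have := Fintype.ofFinite T
  set m := (Nat.card G).factorization p - (Nat.card D).factorization p
  set x : ι → G := fun i => Quotient.out (K i)
  have hx : ∀ i g, g ∈ (K i).carrier ↔ IsConj (x i) g := fun i g => by
    rw [isConj_out_iff, ConjClasses.mem_carrier_iff_mk_eq, eq_comm]
  have hx1 : ∀ i j, IsConj (x i) (x j) → i = j := fun i j e =>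
    hKinj (((isConj_out_iff _ _).1 e).trans (Quotient.out_eq _))
  have hx2 : ∀ i, IsSylowIn p D (C1 (x i)) := fun i => by
    obtain ⟨y, h1, -, Q, hQ⟩ := (hK _).1 ⟨i, rfl⟩
    obtain ⟨c, hc⟩ := isConj_iff.1 ((hx i y).1 h1).symm
    have := (hQ ▸ isSylowIn_map_subtype Q : IsSylowIn p D (C1 y)).smul' c
    rwa [← C1_conj, hc, Subgroup.Normal.conj_smul_eq_self] at this
  have hx3 : ∀ B : T, ∀ g, (eB M B.1).coeff g ≠ 0 → ∀ g', C1 g' = C1 g → orderOf g' = orderOf g →
      ∃ i, IsConj (x i) g' := fun B g h g' e e' => by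
    have h1 : g ∈ CS D := mem_of_coeff_ne_zero (Br_mem_Sup D (eB M B.1)) (by rwa [Br_eB_normal hM B.2.1 hD])
    obtain ⟨i, hi⟩ := (hK (ConjClasses.mk g')).2 ⟨g', ConjClasses.mem_carrier_mk,
      e' ▸ not_dvd_of_eB_ne_zero hM B.2.1 h,
      (e ▸ dg_isSylowIn hM B.2.1 B.2.2 h (le_centralizer_singleton.2 h1) : IsSylowIn p D (C1 g')).exists_sylow⟩
    exact ⟨i, (isConj_out_iff _ _).2 hi⟩
  have hS := isSylowIn_top S
  set π := indFun (S : Subgroup G) fun _ => (1 : ℂ)
  have hπ : π ∈ OC G M := perm_mem_OC _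
  have a0 := red_natCast_ne_zero hM (n := (S : Subgroup G).index) (by simpa using hS.not_dvd)
  have a1 : ∀ i, ((C1 (x i)⁻¹).index).factorization p = m := fun i => by
    have := factorization_index_add (p := p) (C1 (x i))
    have := factorization_of_sylow (hx2 i)
    rw [C1_inv]; omega
  have a2 : ∀ i, red M (((C1 (x i)⁻¹).index : ℂ) / (p ^ m : ℕ)) ≠ 0 := fun i => by
    rw [red_natCast_div_ne_zero_iff hM Subgroup.index_ne_zero_of_finite (pow_pos hp.pos _).ne', hp.factorization_pow,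
      Finsupp.single_eq_same, a1]
  have a3 : ∀ B : T, red M (blockPart B.1 π 1 / (p ^ m : ℕ)) ≠ 0 := fun B =>
    red_part_perm hM B.2.1 hS (pow_pos hp.pos _).ne' (by
      have := factorization_index_add (p := p) D
      rw [hp.factorization_pow, Finsupp.single_eq_same, ← dg_factorization hM B.2.1 B.2.2]; omega)
  have key : ∀ i j, ((Nat.card {yz : G × G // yz.1 ∈ (K i).carrier ∧ yz.2 ∈ (K j).carrier ∧
      yz.2 * yz.1⁻¹ ∈ (S : Subgroup G)} : ℕ) : ℂ) / (p ^ m : ℕ) =
      ((C1 (x i)⁻¹).index : ℂ) / (p ^ m : ℕ) * ev π (cls ℂ (x j) * single (x i)⁻¹ 1) / (S : Subgroup G).index := by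
    intro i j
    simp only [hx]
    rw [div_mul_eq_mul_div, ← cnt, div_right_comm, mul_div_cancel_left₀ _ (ne_zero_of_red_ne_zero a0)]
  rw [← rank_map (ZMod.castHom dvd_rfl (k M)), Nat.card_eq_fintype_card, ← rank_eq_card
    (A := Matrix.of fun i (B : T) => lamB M B.1 (cls (k M) (x i)⁻¹) *
      (red M (blockPart B.1 π 1 / (p ^ m : ℕ)) / red M (S : Subgroup G).index))
    (C := Matrix.of fun (B : T) j => lamB M B.1 (cls (k M) (x j)))
    (A' := Matrix.of fun (B : T) i => (eB M B.1).coeff (x i)⁻¹ /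
      (red M (blockPart B.1 π 1 / (p ^ m : ℕ)) / red M (S : Subgroup G).index))
    (C' := Matrix.of fun j (B : T) => (eB M B.1).coeff (x j))]
  · congr 1
    ext i j
    have hW : ev π (cls ℂ (x j) * single (x i)⁻¹ 1) ∈ O M :=
      ev_mem_O (OC_apply hπ) (mul_mem (cls_mem_IntA _) (single_mem_IntA _ (one_mem _)))
    have h1 := div_mem_O (mul_mem (mem_O_of_red_ne_zero (a2 i)) hW) a0
    have h2 := congrArg (red M) (key i j)
    rw [← key] at h1
    rw [red_div (mul_mem (mem_O_of_red_ne_zero (a2 i)) hW) a0, red_mul (mem_O_of_red_ne_zero (a2 i)) hW,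
      robinson hM hπ (hx2 j) (by rw [C1_inv, factorization_of_sylow (hx2 i)])] at h2
    simp only [Matrix.mul_apply, Matrix.map_apply, Matrix.of_apply, map_natCast]
    generalize Nat.card {yz : G × G // yz.1 ∈ (K i).carrier ∧ yz.2 ∈ (K j).carrier ∧
      yz.2 * yz.1⁻¹ ∈ (S : Subgroup G)} = w at h1 h2 ⊢
    have h3 : p ^ m ∣ w := by
      rcases eq_or_ne w 0 with rfl | h0
      · simp
      · rw [natCast_div_mem_iff hM h0 (pow_pos hp.pos _).ne', hp.factorization_pow, Finsupp.single_eq_same] at h1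
        exact (hp.pow_dvd_iff_le_factorization h0).2 h1
    rw [← Nat.cast_div h3 (q_ne_zero m), red_natCast] at h2
    rw [h2, Finset.sum_subtype (p := fun B => IsPBlock M B ∧ IsDefectGroup p M B D) (F := ‹Fintype T›) _ (by simp),
      Finset.mul_sum, Finset.sum_div]
    refine Finset.sum_congr rfl fun B _ => ?_
    rw [red_part hM B.2.1 hπ (by rw [C1_inv, ← dg_factorization hM B.2.1 B.2.2, factorization_of_sylow (hx2 i)]),
      show blockPart B.1 π 1 / (C1 (x i)⁻¹).index = blockPart B.1 π 1 / (p ^ m : ℕ) /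
        (((C1 (x i)⁻¹).index : ℂ) / (p ^ m : ℕ)) by rw [div_div_div_cancel_right₀ (q_ne_zero m)],
      red_div (mem_O_of_red_ne_zero (a3 B)) (a2 i)]
    have := a2 i
    field_simp
  · ext B B'
    have := sum_lamB_eB' hM B'.2.1 B.2.1 (fun i => (x i)⁻¹) (fun i j e => hx1 i j (by simpa using isConj_inv e))
      fun g h _ => (hx3 B g h g⁻¹ (C1_inv g) (orderOf_inv g)).imp fun i e => by simpa using isConj_inv e
    simp only [Matrix.mul_apply, Matrix.of_apply, Matrix.one_apply, div_mul_eq_mul_div, ← mul_assoc,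
      ← Finset.sum_div, ← Finset.sum_mul, mul_comm ((eB M B.1).coeff _), this]
    split_ifs with h1 h2 h2
    · rw [h2, one_mul, div_self (div_ne_zero (a3 _) a0)]
    · exact absurd (Subtype.ext h1.symm) h2
    · exact absurd (congrArg Subtype.val h2.symm) h1
    · simp
  · ext B B'
    simp only [Matrix.mul_apply, Matrix.of_apply, Matrix.one_apply,
      sum_lamB_eB' hM B.2.1 B'.2.1 x hx1 fun g h _ => hx3 B' g h g rfl rfl]
    exact if_congr Subtype.ext_iff.symm rfl rfl

end Cfsg.Agent.S4443
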