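import Cfsg.Statements.S4444
import Cfsg.Agent.H3.Gl3

set_option autoImplicit false
open Cfsg

namespace Cfsg.Agent.S4444

/-- The Glauberman correspondence for a p-group of operators. Inside a finite group Γ let S normalise G with the orders of G and S coprime, S a p-group, and let C = G ⊓ C(S) be the fixed points. Call an irreducible character χ of G S-invariant when χ(s g s⁻¹) = χ(g) for s ∈ S, g ∈ G. Then: (i) for every S-invariant χ there is exactly one irreducible character β of C whose multiplicity [χ_C, β] in the restriction of χ is not divisible by p; (ii) that multiplicity is ≡ 1 or ≡ −1 (mod p); (iii) distinct S-invariant χ give distinct β; (iv) every irreducible character of C arises in this way. So χ ↦ β is a bijection from the S-invariant irreducible characters of G onto the irreducible characters of C. -/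
theorem result {Γ : Type*} [Group Γ] [Fintype Γ] (G S : Subgroup Γ) [Fintype G] (hnorm : ∀ s ∈ S, ∀ g ∈ G, s * g * s⁻¹ ∈ G) (hcop : (Nat.card G).Coprime (Nat.card S)) (p : ℕ) (hp : p.Prime) (hS : IsPGroup p S) (C : Subgroup Γ) [Fintype C] (hC : C = G ⊓ Subgroup.centralizer (S : Set Γ)) (hCG : C ≤ G) : (∀ χ : Cfsg.IrrCharacter G, (∀ s ∈ S, ∀ g g' : G, (g' : Γ) = s * g * s⁻¹ → (χ : G → ℂ) g' = (χ : G → ℂ) g) → ∃! β : Cfsg.IrrCharacter C, ∃ m : ℕ, Cfsg.classInner (fun c : C => (χ : G → ℂ) ⟨c, hCG c.2⟩) (β : C → ℂ) = (m : ℂ) ∧ ¬ p ∣ m) ∧ (∀ χ : Cfsg.IrrCharacter G, (∀ s ∈ S, ∀ g g' : G, (g' : Γ) = s * g * s⁻¹ → (χ : G → ℂ) g' = (χ : G → ℂ) g) → ∀ β : Cfsg.IrrCharacter C, ∀ m : ℕ, Cfsg.classInner (fun c : C => (χ : G → ℂ) ⟨c, hCG c.2⟩) (β : C → ℂ) = (m : ℂ) → ¬ p ∣ m → ((m : ℤ) ≡ 1 [ZMOD p] ∨ (m : ℤ) ≡ -1 [ZMOD p])) ∧ (∀ χ χ' : Cfsg.IrrCharacter G, (∀ s ∈ S, ∀ g g' : G, (g' : Γ)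 = s * g * s⁻¹ → (χ : G → ℂ) g' = (χ : G → ℂ) g) → (∀ s ∈ S, ∀ g g' : G, (g' : Γ) = s * g * s⁻¹ → (χ' : G → ℂ) g' = (χ' : G → ℂ) g) → ∀ β : Cfsg.IrrCharacter C, ∀ m m' : ℕ, Cfsg.classInner (fun c : C => (χ : G → ℂ) ⟨c, hCG c.2⟩) (β : C → ℂ) = (m : ℂ) → ¬ p ∣ m → Cfsg.classInner (fun c : C => (χ' : G → ℂ) ⟨c, hCG c.2⟩) (β : C → ℂ) = (m' : ℂ) → ¬ p ∣ m' → χ = χ') ∧ (∀ β : Cfsg.IrrCharacter C, ∃ χ : Cfsg.IrrCharacter G, (∀ s ∈ S, ∀ g g' : G, (g' : Γ) = s * g * s⁻¹ → (χ : G → ℂ) g' = (χ : G → ℂ) g) ∧ ∃ m : ℕ, Cfsg.classInner (fun c : C => (χ : G → ℂ) ⟨c, hCG c.2⟩) (β : C → ℂ) = (m : ℂ) ∧ ¬ p ∣ m) := by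
  subst hC
  have hK : ¬ p ∣ Nat.card G ∨ S = ⊥ := by
    obtain ⟨n, hn⟩ := (@IsPGroup.iff_card p S _ ⟨hp⟩ _).1 hS
    rcases n with _ | n
    · exact Or.inr (Subgroup.card_eq_one.1 hn)
    · exact Or.inl fun h => hp.one_lt.ne' (Nat.eq_one_of_dvd_coprimes hcop h
        (hn ▸ dvd_pow_self p n.succ_ne_zero))
  have B : H3.GlBij p G (H3.fixP G S) S := by
    rcases hK with h | rfl
    · exact H3.glBij_pGroup hp S hS G (H3.norm_of_conj hnorm) h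
    · have e0 : G ≤ Subgroup.centralizer ((⊥ : Subgroup Γ) : Set Γ) := fun x _ y hy => by
        rw [Subgroup.mem_bot.1 hy]; simp
      have e : H3.fixP G ⊥ = G := inf_eq_left.2 e0
      rw [e]
      have k : ∀ χ, H3.IrrOn G χ → H3.GlC p G χ χ 1 := fun χ h => ⟨h, Or.inl rfl, fun β hβ m hm => by
        split_ifs with c
        · rw [c, H3.ion_self h] at hm
          have : m = 1 := by exact_mod_cast hm.symm
          rw [this]; rfl
        · have : m = 0 := by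
            by_contra c'
            exact c (h.eq_of_ion hβ (by rw [hm]; exact_mod_cast c')).symm
          rw [this]; rfl⟩
      exact ⟨fun χ h _ => ⟨χ, 1, k χ h⟩, fun χ χ' β a _ b _ c d e =>
        ((k χ a).eq c d).symm.trans ((k χ' b).eq c e), fun β h => ⟨β, h, h.invBy_cent e0,
          (k β h).rel hp h le_rfl⟩⟩
  have R : ∀ (χ : G → ℂ) (β : H3.fixP G S → ℂ), H3.GlR p (H3.fixP G S) (extendByZero G χ)
      (extendByZero _ β) ↔ ∃ m : ℕ, classInner (fun c : H3.fixP G S => χ ⟨c, hCG c.2⟩) β = m ∧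
        ¬ p ∣ m := fun χ β => by rw [H3.GlR, H3.ion_ext hCG]
  refine ⟨fun χ h => ?_, fun χ h β m hm hp' => ?_, fun χ χ' h h' β m m' a b c d => ?_, fun β => ?_⟩
  · obtain ⟨β, ε, c⟩ := B.ex _ (H3.irrOn_ext χ.2) ((H3.invBy_ext_iff hnorm _).2 h)
    refine ⟨⟨_, c.1.1⟩, (R _ _).1 ?_, fun γ hγ => ?_⟩
    · rw [c.1.eq_ext]; exact c.rel hp (H3.irrOn_ext χ.2) hCG
    · have := c.eq (H3.irrOn_ext γ.2) ((R _ _).2 hγ)
      exact Subtype.ext (funext fun x => by simp only [← this, H3.extendByZero_coe])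
  · obtain ⟨γ, ε, c⟩ := B.ex _ (H3.irrOn_ext χ.2) ((H3.invBy_ext_iff hnorm _).2 h)
    have e := c.eq (H3.irrOn_ext β.2) ((R _ _).2 ⟨m, hm, hp'⟩)
    have := c.2.2 _ (H3.irrOn_ext β.2) m (by rw [H3.ion_ext hCG, hm])
    rw [if_pos e] at this
    rcases c.2.1 with rfl | rfl
    exacts [Or.inl this, Or.inr this]
  · exact (H3.irrEquiv G).injective (Subtype.ext (B.inj _ _ _ (H3.irrOn_ext χ.2)
      ((H3.invBy_ext_iff hnorm _).2 h) (H3.irrOn_ext χ'.2) ((H3.invBy_ext_iff hnorm _).2 h')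
      (H3.irrOn_ext β.2) ((R _ _).2 ⟨m, a, b⟩) ((R _ _).2 ⟨m', c, d⟩)))
  · obtain ⟨χ, a, b, c⟩ := B.surj _ (H3.irrOn_ext β.2)
    rw [← a.eq_ext] at b c
    exact ⟨⟨_, a.1⟩, (H3.invBy_ext_iff hnorm _).1 b, (R _ _).1 c⟩

end Cfsg.Agent.S4444
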