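import Cfsg.Statements.S4445
import Cfsg.Agent.H3.Gl3

set_option autoImplicit false
open Cfsg

namespace Cfsg.Agent.S4445

/-- Inside a finite group Γ let the solvable subgroup S normalise G with the orders of G and S coprime. Then the number of S-invariant irreducible characters of G (χ(s g s⁻¹) = χ(g) for all s ∈ S, g ∈ G) equals the number of conjugacy classes of G mapped to themselves by conjugation by every element of S. -/
theorem result {Γ : Type*} [Group Γ] [Fintype Γ] (G S : Subgroup Γ) [Fintype G] (hnorm : ∀ s ∈ S, ∀ g ∈ G, s * g * s⁻¹ ∈ G) (hcop : (Nat.card G).Coprime (Nat.card S)) (hsolv : Group.IsSolvable S) : Nat.card {χ : Cfsg.IrrCharacter G // (∀ s ∈ S, ∀ g g' : G, (g' : Γ) = s * g * s⁻¹ → (χ : G → ℂ) g' = (χ : G → ℂ) g)} = Nat.card {K : ConjClasses G // ∀ s ∈ S, ∀ g g' : G, (g' : Γ) = s * g * s⁻¹ → ConjClasses.mk g = K → ConjClasses.mk g' = K} := by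
  obtain ⟨R, h⟩ := H3.exists_glSys S hsolv
  have ok : H3.Ok S G := ⟨H3.norm_of_conj hnorm, hcop⟩
  have h1 := H3.card_inv_irr hnorm fun _ => True
  have h2 := h.card ok (fun _ => True) (fun _ => True) fun _ _ _ => Iff.rfl
  have h3 := H3.card_irrOn (H3.fixP G S) fun _ => True
  have h4 := H3.card_inv_classes ok (Or.inl hsolv) (fun _ => True) (fun _ => True) fun _ => Iff.rfl
  simp only [true_and, Nat.card_congr (Equiv.subtypeUnivEquiv fun _ => trivial)] at h1 h3 h4
  simp only [true_and, and_true] at h1 h2 h3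
  rw [h1, h2, ← h3, H3.card_irr_eq_card_conjClasses, ← h4]
  exact Nat.card_congr (Equiv.subtypeEquivRight fun c =>
    ⟨fun a g d s hs g' b => a s hs g g' b d, fun a s hs g g' b d => a g d s hs g' b⟩).symm

end Cfsg.Agent.S4445
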