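import Cfsg.Statements.S4446
import Cfsg.Agent.H3.Gl3

set_option autoImplicit false
open Cfsg

namespace Cfsg.Agent.S4446

theorem gen_pow {Γ : Type*} [Group Γ] [Finite Γ] {s t : Γ}
    (h : Subgroup.zpowers t = Subgroup.zpowers s) : ∃ k : ℕ, k.Coprime (orderOf s) ∧ t = s ^ k := by
  obtain ⟨k, rfl⟩ := mem_powers_iff_mem_zpowers.2 (h ▸ Subgroup.mem_zpowers t)
  have e : orderOf (s ^ k) = orderOf s := by rw [← Nat.card_zpowers, h, Nat.card_zpowers]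
  rw [orderOf_pow, Nat.div_eq_self] at e
  exact ⟨k, Nat.Coprime.symm (e.resolve_left (orderOf_pos s).ne'), rfl⟩

/-- Let the finite group Γ be generated by a normal subgroup G and a cyclic subgroup S of coprime orders, C = G ⊓ C(S), and let χ be an S-invariant irreducible character of G with canonical extension χ̂ to Γ (the extension whose determinantal order is coprime to the order of S). Then there are exactly one irreducible character β of C and one sign ε such that χ̂(c s) = ε β(c) for every c ∈ C and every generator s of S; this β is a constituent of the restriction of χ to C; distinct S-invariant χ give distinct β; and every irreducible character of C arises in this way. -/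
theorem result {Γ : Type*} [Group Γ] [Fintype Γ] (G S : Subgroup Γ) [Fintype G] (hnorm : ∀ s ∈ S, ∀ g ∈ G, s * g * s⁻¹ ∈ G) (hcop : (Nat.card G).Coprime (Nat.card S)) (htop : G ⊔ S = ⊤) (hcyc : IsCyclic S) (C : Subgroup Γ) [Fintype C] (hC : C = G ⊓ Subgroup.centralizer (S : Set Γ)) (hCG : C ≤ G) : (∀ (χ : Cfsg.IrrCharacter G) (χh : Cfsg.IrrCharacter Γ), (∀ s ∈ S, ∀ g g' : G, (g' : Γ) = s * g * s⁻¹ → (χ : G → ℂ) g' = (χ : G → ℂ) g) → (∀ g : G, (χh : Γ → ℂ) g = (χ : G → ℂ) g) → (Cfsg.detOrder (χh : Γ → ℂ)).Coprime (Nat.card S) → (∃! βε : Cfsg.IrrCharacter C × ℤ, (βε.2 = 1 ∨ βε.2 = -1) ∧ ∀ c : C, ∀ s : Γ, Subgroup.zpowers s = S → (χh : Γ → ℂ) ((c : Γ) * s) = (βε.2 : ℂ) * (βε.1 : C → ℂ) c) ∧ ∀ β : Cfsg.IrrCharacter C, ∀ ε : ℤ, (ε = 1 ∨ ε = -1) → (∀ c : C, ∀ s : Γ, Subgroup.zpowers s = S → (χh : Γ → ℂ) ((c : Γ) * s) = (ε : ℂ) * (β : C → ℂ) c) → Cfsg.classInner (fun c : C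 => (χ : G → ℂ) ⟨c, hCG c.2⟩) (β : C → ℂ) ≠ 0) ∧ (∀ (χ χ' : Cfsg.IrrCharacter G) (χh χh' : Cfsg.IrrCharacter Γ), (∀ s ∈ S, ∀ g g' : G, (g' : Γ) = s * g * s⁻¹ → (χ : G → ℂ) g' = (χ : G → ℂ) g) → (∀ s ∈ S, ∀ g g' : G, (g' : Γ) = s * g * s⁻¹ → (χ' : G → ℂ) g' = (χ' : G → ℂ) g) → (∀ g : G, (χh : Γ → ℂ) g = (χ : G → ℂ) g) → (∀ g : G, (χh' : Γ → ℂ) g = (χ' : G → ℂ) g) → (Cfsg.detOrder (χh : Γ → ℂ)).Coprime (Nat.card S) → (Cfsg.detOrder (χh' : Γ → ℂ)).Coprime (Nat.card S) → ∀ β : Cfsg.IrrCharacter C, ∀ ε ε' : ℤ, (ε = 1 ∨ ε = -1) → (ε' = 1 ∨ ε' = -1) → (∀ c : C, ∀ s : Γ, Subgroup.zpowers s = S → (χh : Γ → ℂ) ((c : Γ) * s) = (ε : ℂ) * (β : C → ℂ) c) → (∀ c : C, ∀ s : Γ, Subgroup.zpowers s = S → (χh' : Γ → ℂ) ((c : Γ) * s) = (ε' : ℂ) * (β : C → ℂ) c) → χ = χ') ∧ (∀ β : Cfsg.IrrCharacter C, ∃ (χ : Cfsg.IrrCharacter G) (χh : Cfsg.IrrCharacter Γ) (ε : ℤ), (∀ s ∈ S, ∀ g g' : G, (g'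 : Γ) = s * g * s⁻¹ → (χ : G → ℂ) g' = (χ : G → ℂ) g) ∧ (∀ g : G, (χh : Γ → ℂ) g = (χ : G → ℂ) g) ∧ (Cfsg.detOrder (χh : Γ → ℂ)).Coprime (Nat.card S) ∧ (ε = 1 ∨ ε = -1) ∧ ∀ c : C, ∀ s : Γ, Subgroup.zpowers s = S → (χh : Γ → ℂ) ((c : Γ) * s) = (ε : ℂ) * (β : C → ℂ) c) := by
  obtain ⟨s, rfl⟩ := (Subgroup.isCyclic_iff_exists_zpowers_eq_top S).1 hcyc
  have hN : G.Normal := Subgroup.normalizer_eq_top_iff.1 (top_le_iff.1
    (htop ▸ sup_le Subgroup.le_normalizer (H3.norm_of_conj hnorm)))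
  have hC' : ∀ c, c ∈ C ↔ c ∈ G ∧ c * s = s * c := fun c => by
    rw [hC, Subgroup.mem_inf, Subgroup.zpowers_eq_closure, Subgroup.centralizer_closure,
      Subgroup.mem_centralizer_singleton_iff]
  rw [Nat.card_zpowers] at hcop ⊢
  have hres : ∀ (χ : IrrCharacter G) (χh : IrrCharacter Γ),
      (∀ g : G, (χh : Γ → ℂ) g = (χ : G → ℂ) g) → IsIrrCharacter G fun g : G => (χh : Γ → ℂ) g :=
    fun χ χh h => by rw [funext h]; exact χ.2
  have hall : ∀ {χ : Γ → ℂ} {β : C → ℂ} {ε : ℂ}, IsIrrCharacter Γ χ →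
      (IsIrrCharacter G fun g : G => χ g) → (detOrder χ).Coprime (orderOf s) →
      (∀ c : C, χ (c * s) = ε * β c) → ∀ (c : C) t, Subgroup.zpowers t = Subgroup.zpowers s →
        χ (c * t) = ε * β c := fun a b d e c t ht => by
    obtain ⟨k, hk, rfl⟩ := gen_pow ht
    rw [H3.theta_pow G hC' hcop htop (H3.irr_char a) b d hk c (Subgroup.mem_zpowers s), e]
  have hε : ∀ {ε : ℤ}, ε = 1 ∨ ε = -1 → (ε : ℂ) ≠ 0 := fun h => by rcases h with rfl | rfl <;> simp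
  refine ⟨fun χ χh _ h1 h2 => ⟨?_, fun β ε h3 h4 => ?_⟩,
    fun χ χ' χh χh' _ _ h1 h1' _ _ β ε ε' h3 h3' h4 h4' => ?_, fun β => ?_⟩
  · obtain ⟨β, ε, a, b, c⟩ := H3.theta_pm G hC' hcop htop χh.2 (hres χ χh h1) h2
      (Subgroup.mem_zpowers s) hC'
    refine ⟨(⟨β, a⟩, ε), ⟨b, hall χh.2 (hres χ χh h1) h2 c⟩, ?_⟩
    rintro ⟨γ, δ⟩ ⟨d, e⟩
    have e1 : (δ : ℂ) • (γ : C → ℂ) = (ε : ℂ) • β := funext fun x => (e x s rfl).symm.trans (c x)
    have e2 := congrArg (classInner · β) e1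
    simp only [H3.inner_smul_left, H3.irr_inner_self a, mul_one] at e2
    have e3 : γ.1 = β := H3.irr_eq_of_inner_ne_zero γ.2 a fun h => hε b (by rw [← e2, h, mul_zero])
    rw [e3, H3.irr_inner_self a, mul_one] at e2
    exact Prod.ext (Subtype.ext e3) (by exact_mod_cast e2)
  · rw [← funext fun c : C => h1 ⟨c, hCG c.2⟩]
    refine H3.theta_constituent G hC' (H3.irr_char χh.2) (H3.irr_char β.2)
      (Subgroup.mem_zpowers s) ?_
    rw [show (fun c : C => (χh : Γ → ℂ) (c * s)) = (ε : ℂ) • (β : C → ℂ) from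
      funext fun c => h4 c s rfl, H3.inner_smul_left, H3.irr_inner_self β.2, mul_one]
    exact hε h3
  · have := H3.theta_inj G hC' hcop χh'.2 (hres _ _ h1') χh.2 (hres _ _ h1) β.2 (hε h3') (hε h3)
      (fun c => h4' c s rfl) fun c => h4 c s rfl
    rw [funext h1, funext h1'] at this
    exact Subtype.ext this
  · obtain ⟨χ, ε, a, b, c, d, e⟩ := H3.theta_surj G hC' hcop htop β.2
    exact ⟨⟨_, b⟩, ⟨χ, a⟩, ε, fun x _ g g' h => by
      change χ g' = χ g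
      rw [h, H3.irr_class a], fun _ => rfl, c, d, hall a b c e⟩

end Cfsg.Agent.S4446
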