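import Cfsg.Statements.S4452
import Cfsg.Agent.H3.Gl3
import Cfsg.Agent.H3.Chr

set_option autoImplicit false
open Cfsg

namespace Cfsg.Agent.S4452

theorem aux {G : Type*} [Group G] [Finite G] (K H : Subgroup G) [K.Normal] (hKH : K ⊔ H = ⊤)
    (hcop : (Nat.card K).Coprime (Nat.card H)) :
    Nat.card {χ : IrrCharacter G // (charDegree (χ : G → ℂ)).Coprime (Nat.card H)} =
      Nat.card {θ : IrrCharacter K // True ∧ ∀ s ∈ H, ∀ g g' : K, (g' : G) = s * g * s⁻¹ →
        (θ : K → ℂ) g' = (θ : K → ℂ) g} * Nat.card (H →* ℂˣ) := by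
  have := Fintype.ofFinite G
  have := Fintype.ofFinite K
  have hc : K.IsComplement' H := Subgroup.isComplement'_of_disjoint_and_mul_eq_univ
    (Subgroup.disjoint_of_coprime_natCard hcop)
    (by rw [← Subgroup.normal_mul, hKH, Subgroup.coe_top])
  have hi : K.index = Nat.card H := hc.symm.index_eq_card
  have e := hc.symm.QuotientMulEquiv
  have hinv : ∀ θ : {θ : IrrCharacter K // True ∧ ∀ s ∈ H, ∀ g g' : K, (g' : G) = s * g * s⁻¹ →
      (θ : K → ℂ) g' = (θ : K → ℂ) g}, ∀ g, H3.cj K θ.1.1 g = θ.1.1 := fun θ g => by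
    have : (⊤ : Subgroup G) ≤ H3.inertia K θ.1.1 := hKH ▸ sup_le (H3.le_inertia K
      (H3.irr_class θ.1.2)) fun s hs => funext fun n => θ.2.2 s hs n _ rfl
    exact this (Subgroup.mem_top g)
  choose ex h1 h2 _ using fun θ => H3.extend_of_coprime_card K (Subtype.prop _) (hinv θ)
    (hi ▸ hcop)
  have h3 : ∀ θ, IsIrrCharacter K fun n : K => ex θ n := fun θ => by
    rw [funext (h2 θ)]; exact θ.1.2
  rw [← Nat.card_congr (MulEquiv.monoidHomCongrLeft (N := ℂˣ) e).toEquiv, ← Nat.card_prod]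
  refine (Nat.card_eq_of_bijective (fun x => ⟨⟨_, H3.irr_mul_hom (h1 x.1)
    (x.2.comp (QuotientGroup.mk' K))⟩, by
      rw [H3.deg_of_eq (n := charDegree x.1.1.1) (by rw [← H3.ideg, ← h2]; simp)]
      exact hcop.coprime_dvd_left (H3.deg_dvd x.1.1.2)⟩) ⟨?_, ?_⟩).symm
  · rintro ⟨θ, f⟩ ⟨θ', f'⟩ h
    have h := congrArg (fun x => x.1.1) h
    have k : ∀ (f : G ⧸ K →* ℂˣ), ∀ n ∈ K, (f.comp (QuotientGroup.mk' K) n : ℂ) =
        f.comp (QuotientGroup.mk' K) 1 := fun f n hn => by
      simp [(QuotientGroup.eq_one_iff n).2 hn]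
    obtain rfl : θ = θ' := Subtype.ext (Subtype.ext (funext fun n => by
      have := congrFun h n
      simp only [Pi.mul_apply, h2, k _ _ n.2] at this
      simpa using this))
    have := H3.gallagher_inj K (H3.irr_char (h1 θ)) (h3 θ) (H3.isIrr_hom _) (k f) (H3.isIrr_hom _)
      (k f') (by rw [mul_comm, mul_comm _ (ex θ)]; exact h)
    rw [(MonoidHom.cancel_right (QuotientGroup.mk'_surjective K)).1 (H3.hom_fun_injective this)]
  · rintro ⟨χ, hχ⟩
    obtain ⟨θ, a, b⟩ := H3.exists_irr_under K χ.2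
    obtain ⟨m, c, d⟩ := H3.degree_ratio_dvd K a χ.2 b
    rw [H3.ideg, H3.ideg_eq a] at c
    obtain rfl : m = 1 := Nat.eq_one_of_dvd_coprimes hχ
      ⟨charDegree θ, by exact_mod_cast c⟩ (hi ▸ d)
    have e1 := H3.eq_of_sub_char_of_degree (H3.char_sub_of_inner_ne_zero
      (H3.char_restrict (H3.irr_char χ.2) K) a b) (by
        rw [H3.ideg_eq a, OneMemClass.coe_one, H3.ideg, c]; simp)
    let t : {θ : IrrCharacter K // True ∧ ∀ s ∈ H, ∀ g g' : K, (g' : G) = s * g * s⁻¹ →
      (θ : K → ℂ) g' = (θ : K → ℂ) g} := ⟨⟨θ, a⟩, trivial, fun s _ g g' h => by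
        simp only [← e1, h]; exact H3.irr_class χ.2 _ _⟩
    obtain ⟨μ, m1, m2⟩ := H3.linear_twist K (H3.irr_char χ.2) (H3.irr_char (h1 t)) (h3 t)
      fun n hn => (congrFun e1 ⟨n, hn⟩).trans (h2 t ⟨n, hn⟩).symm
    exact ⟨⟨t, QuotientGroup.lift K μ m1⟩, Subtype.ext (Subtype.ext (funext fun g => by
      rw [m2, mul_comm]; rfl))⟩

/-- Let the finite group G be the product of a normal subgroup K and a solvable subgroup H of coprime orders, and let N = N_G(H). Then the number of irreducible characters of G of degree coprime to the order of H equals the number of irreducible characters of N of degree coprime to the order of H. (The two sets are in fact in a canonical bijection; only the equality of their sizes is stated here.) -/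
theorem result {G : Type*} [Group G] [Finite G] (K H : Subgroup G) [K.Normal] (hKH : K ⊔ H = ⊤) (hcop : (Nat.card K).Coprime (Nat.card H)) (hsolv : Group.IsSolvable H) : Nat.card {χ : Cfsg.IrrCharacter G // (Cfsg.charDegree (χ : G → ℂ)).Coprime (Nat.card H)} = Nat.card {η : Cfsg.IrrCharacter (Subgroup.normalizer (H : Set G)) // (Cfsg.charDegree (η : Subgroup.normalizer (H : Set G) → ℂ)).Coprime (Nat.card H)} := by
  have := Fintype.ofFinite G
  set N := Subgroup.normalizer (H : Set G)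
  have hHN : H ≤ N := Subgroup.le_normalizer
  have hn : ∀ s ∈ H, ∀ g ∈ K, s * g * s⁻¹ ∈ K := fun s _ g hg => ‹K.Normal›.conj_mem g hg s
  have ok : H3.Ok H K := ⟨H3.norm_of_conj hn, hcop⟩
  have hF : H3.fixP K H = K ⊓ N := le_antisymm (inf_le_inf_left _
    (Subgroup.centralizer_le_normalizer _)) (le_inf inf_le_left fun x hx y hy => by
      have : y * x * y⁻¹ * x⁻¹ = 1 := Subgroup.disjoint_def.1
        (Subgroup.disjoint_of_coprime_natCard hcop) (K.mul_mem (hn y hy x hx.1) (K.inv_mem hx.1))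
        (by have := H.mul_mem hy (H1.conj_mem_of_mem_normalizer hx.2 (H.inv_mem hy))
            simpa [mul_assoc] using this)
      rw [← mul_inv_eq_one, ← this]; group)
  have e := Subgroup.subgroupOfEquivOfLe hHN
  have e' : K.subgroupOf N ≃* H3.fixP K H := by
    rw [hF, ← Subgroup.inf_subgroupOf_right]; exact Subgroup.subgroupOfEquivOfLe inf_le_right
  have h1 := aux (K.subgroupOf N) (H.subgroupOf N) (by
    rw [eq_top_iff]
    rintro ⟨x, hx⟩ -
    obtain ⟨k, hk, h, hh, rfl⟩ := Subgroup.mem_sup_of_normal_left.1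
      (hKH ▸ Subgroup.mem_top x : x ∈ K ⊔ H)
    have : k ∈ N := by simpa using N.mul_mem hx (N.inv_mem (hHN hh))
    exact Subgroup.mul_mem_sup (x := (⟨k, this⟩ : N)) (y := (⟨h, hHN hh⟩ : N)) hk hh)
    (by rw [Nat.card_congr e.toEquiv]
        exact hcop.coprime_dvd_left (Subgroup.card_comap_dvd_of_injective _ _ N.subtype_injective))
  obtain ⟨R, h⟩ := H3.exists_glSys H hsolv
  rw [Nat.card_congr e.toEquiv] at h1
  rw [aux K H hKH hcop, h1, Nat.card_congr (MulEquiv.monoidHomCongrLeft (N := ℂˣ) e).toEquiv,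
    H3.card_inv_irr hn fun _ => True,
    h.card ok (fun _ => True) (fun _ => True) fun _ _ _ => Iff.rfl,
    ← H3.card_irrOn (H3.fixP K H) fun _ => True]
  congr 1
  refine Nat.card_congr ⟨fun θ => ⟨⟨_, H3.irr_comp_equiv θ.1.2 e'⟩, trivial, fun s hs g g' a => ?_⟩,
    fun θ => ⟨⟨_, H3.irr_comp_equiv θ.1.2 e'.symm⟩, trivial⟩, fun θ => by simp, fun θ => by simp⟩
  have : (g : N) ∈ (H3.fixP K H).subgroupOf N := by rw [hF]; exact ⟨g.2, g.1.2⟩
  rw [show g' = g from Subtype.ext (a.trans (mul_inv_eq_iff_eq_mul.2 (Subtype.ext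
    (this.2 s hs))))]

end Cfsg.Agent.S4452
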