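import Cfsg.Statements.S4454
import Cfsg.Agent.H3.Chr2

set_option autoImplicit false
open Cfsg

namespace Cfsg.Agent.S4454

/-- Let N ≤ G be normal subgroups of the finite group Γ with Γ/G cyclic and Γ/N a Frobenius group with kernel G/N: G ≠ Γ, N ≠ G, and no element of Γ outside G fixes a non-identity coset of N in G under conjugation. Let ϑ be an irreducible character of N invariant under conjugation by Γ and suppose ϑ is fully ramified in G: the character of G induced from ϑ equals e·χ for an irreducible character χ of G and a natural number e. Then the index of G in Γ divides e − 1 or e + 1. -/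
theorem result {Γ : Type*} [Group Γ] [Fintype Γ] (G N : Subgroup Γ) [hG : G.Normal] [hN : N.Normal] [Fintype G] [Fintype N] (hNG : N ≤ G) (hGlt : G ≠ ⊤) (hNlt : N ≠ G) (hcyc : IsCyclic (Γ ⧸ G)) (hfrob : ∀ x : Γ, x ∉ G → ∀ g : Γ, g ∈ G → x * g * x⁻¹ * g⁻¹ ∈ N → g ∈ N) (θ : Cfsg.IrrCharacter N) (hinv : ∀ (x : Γ) (n : N), (θ : N → ℂ) ⟨x * n * x⁻¹, hN.conj_mem n n.2 x⟩ = (θ : N → ℂ) n) (χ : Cfsg.IrrCharacter G) (e : ℕ) (hram : Cfsg.indFun (N.subgroupOf G) (fun n : N.subgroupOf G => (θ : N → ℂ) ⟨(n : G), n.2⟩) = fun g => (e : ℂ) * (χ : G → ℂ) g) : (G.index : ℤ) ∣ (e : ℤ) - 1 ∨ (G.index : ℤ) ∣ (e : ℤ) + 1 := by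
  classical
  have hθ' := H3.irr_subgroupOf N hNG θ.2
  have he0 : (e : ℂ) ≠ 0 := fun h => by
    have := congrFun hram 1
    rw [H3.indFun_one, h, zero_mul] at this
    exact mul_ne_zero (Nat.cast_ne_zero.2 Subgroup.index_ne_zero_of_finite)
      (H3.irr_one_ne_zero hθ') this
  have hin : classInner (fun n : N => (χ : G → ℂ) ⟨n, hNG n.2⟩) (θ : N → ℂ) = e := by
    rw [← H3.inner_subgroupOf N hNG, ← H3.inner_indFun_right _ _ (H3.irr_class χ.2), hram]
    change classInner _ ((e : ℂ) • (χ : G → ℂ)) = _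
    rw [H3.inner_smul_right, H3.irr_inner_self χ.2]; simp
  have hcj : ∀ g, H3.cj N θ.1 g = θ.1 := fun g => funext (hinv g)
  obtain ⟨e', -, h1, hχN⟩ := H3.clifford_inertia N hNG θ.2 (fun g _ => hcj g) χ.2 (hin ▸ he0)
  rw [← h1, hin] at hχN
  have hχinv : ∀ g, H3.cj G χ.1 g = χ.1 := fun g => by
    refine H3.irr_eq_of_inner_ne_zero (H3.irr_cj G χ.2 g) χ.2 fun h => he0 ?_
    have h2 : classInner (H3.cj G χ.1 g) ((e : ℂ) • χ.1) = 0 := by
      rw [H3.inner_smul_right, h, mul_zero]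
    rw [show (e : ℂ) • χ.1 = _ from hram.symm, H3.inner_indFun_right _ _
      (H3.class_cj G (H3.irr_class χ.2) g), H3.inner_subgroupOf N hNG,
      show (fun n : N => H3.cj G χ.1 g ⟨n, hNG n.2⟩) = (e : ℂ) • θ.1 from funext fun n =>
        (hχN ⟨_, hN.conj_mem n n.2 g⟩).trans (by rw [hinv]; rfl), H3.inner_smul_left,
      H3.irr_inner_self θ.2, mul_one] at h2
    exact h2
  obtain ⟨ψ, ψ1, ψ2⟩ := H3.extend_of_cyclic G hcyc χ.2 hχinv
  obtain ⟨x, hx⟩ := hcyc.exists_generator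
  obtain ⟨x, rfl⟩ := QuotientGroup.mk_surjective x
  have hxG : x ∉ G := fun h => hGlt (by
    rw [eq_top_iff]; intro y _
    have := hx y
    rwa [(QuotientGroup.eq_one_iff x).2 h, Subgroup.zpowers_one_eq_bot, Subgroup.mem_bot,
      QuotientGroup.eq_one_iff] at this)
  let U := N ⊔ Subgroup.zpowers x
  have := Fintype.ofFinite U
  have hNU : N ≤ U := le_sup_left
  have hU : ∀ u ∈ U, ∃ n ∈ N, ∃ k : ℤ, u = n * x ^ k := fun u hu => by
    obtain ⟨n, hn, _, ⟨k, rfl⟩, rfl⟩ := Subgroup.mem_sup_of_normal_left.1 hu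
    exact ⟨n, hn, k, rfl⟩
  have hUG : ∀ u ∈ U, u ∈ G → u ∈ N := fun u hu h => by
    obtain ⟨n, hn, k, rfl⟩ := hU u hu
    refine N.mul_mem hn (hfrob x hxG _ ((G.mul_mem_cancel_left (hNG hn)).1 h) ?_)
    rw [show x * x ^ k * x⁻¹ * (x ^ k)⁻¹ = 1 by group]; exact N.one_mem
  let x' : U := ⟨x, Subgroup.mem_sup_right (Subgroup.mem_zpowers x)⟩
  have hc : IsCyclic (U ⧸ N.subgroupOf U) := ⟨⟨(x' : U ⧸ N.subgroupOf U), fun y => by
    obtain ⟨y, rfl⟩ := QuotientGroup.mk_surjective y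
    obtain ⟨n, hn, k, h⟩ := hU y y.2
    refine ⟨k, ?_⟩
    change ((x' ^ k : U) : U ⧸ N.subgroupOf U) = _
    rw [QuotientGroup.eq, Subgroup.mem_subgroupOf]
    simpa [h, x', mul_assoc] using hN.conj_mem _ hn (x ^ k)⁻¹⟩⟩
  have hcard : Nat.card (U ⧸ N.subgroupOf U) = G.index := by
    have : N.subgroupOf U = G.subgroupOf U := le_antisymm (fun u hu => hNG hu)
      fun u hu => hUG u u.2 hu
    have h2 : G ⊔ U = ⊤ := by
      rw [eq_top_iff]; intro y _
      obtain ⟨k, hk⟩ := hx y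
      have : (x ^ k)⁻¹ * y ∈ G := QuotientGroup.eq.1 hk
      simpa [x'] using Subgroup.mul_mem _ (Subgroup.mem_sup_right (U.zpow_mem x'.2 k))
        (Subgroup.mem_sup_left (T := U) this)
    rw [← Subgroup.index_eq_card, this, ← Subgroup.relIndex, ← Subgroup.relIndex_sup_left, h2,
      Subgroup.relIndex_top_right]
  have hθU := H3.irr_subgroupOf N hNU θ.2
  obtain ⟨η, η1, η2⟩ := H3.extend_of_cyclic (N.subgroupOf U) hc hθU fun g => funext fun n =>
    hinv g ⟨n, n.2⟩
  have η3 : IsIrrCharacter _ fun n : N.subgroupOf U => η n := by rw [funext η2]; exact hθU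
  have hψN : ∀ n : N, ψ n = e * θ.1 n := fun n => (ψ2 ⟨n, hNG n.2⟩).trans (hχN n)
  obtain ⟨φ, φ1, φ2, φ3⟩ := H3.factor_over (N.subgroupOf U) (H3.char_restrict (H3.irr_char ψ1) U)
    (H3.irr_char η1) η3 (e := e) fun n => by rw [η2]; exact hψN ⟨n, n.2⟩
  obtain ⟨φ', p1, p2⟩ := H3.exists_deflate (QuotientGroup.mk' (N.subgroupOf U))
    (QuotientGroup.mk'_surjective _) φ1 fun g hg => φ2 g ((QuotientGroup.eq_one_iff g).1 hg)
  have hφ1 : φ' 1 = e := by
    have := congrFun φ3 1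
    rw [← map_one (QuotientGroup.mk' (N.subgroupOf U)), p2]
    have e1 : ψ 1 = e * θ.1 1 := (ψ2 1).trans (hχN 1)
    have e2 : η 1 = θ.1 1 := η2 1
    simp only [OneMemClass.coe_one, Pi.mul_apply, e1, e2] at this
    exact (mul_right_cancel₀ (H3.irr_one_ne_zero θ.2) this).symm
  obtain ⟨a, ε, μ, h1, h2, -⟩ := H3.char_reg_pm (fun a b => mul_comm' a b) p1
    (fun y hy => by
      obtain ⟨y, rfl⟩ := QuotientGroup.mk'_surjective _ y
      have hyG : (y : Γ) ∉ G := fun h => hy ((QuotientGroup.eq_one_iff y).2 (hUG y y.2 h))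
      have s1 := congrFun ((S0868.result G ψ ψ1 (by rw [funext ψ2]; exact χ.2) ψ ψ1 _ rfl).2.2 rfl) y
      have s2 := congrFun ((S0868.result _ η η1 η3 η η1 _ rfl).2.2 rfl) y
      let F : Γ → ℂ := fun z => ψ (z * y) * starRingEnd ℂ (ψ (z * y))
      let F' : G → ℂ := fun g => ∑ n : N, F (n * g)
      have t1 := H3.sum_quot (N.subgroupOf G) (fun g => ⟨g * y * (g : Γ)⁻¹ * (y : Γ)⁻¹, by
        simpa [mul_assoc] using G.mul_mem g.2 (hG.conj_mem _ (G.inv_mem g.2) y)⟩)
        (fun a b => by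
          simp only [Subgroup.mem_subgroupOf, Subgroup.coe_mul, Subgroup.coe_inv]
          constructor
          · intro h
            refine hfrob y hyG _ (G.mul_mem (G.inv_mem a.2) b.2) ?_
            have h' := QuotientGroup.eq.2 h
            rw [← QuotientGroup.eq_one_iff]
            simp only [QuotientGroup.mk_mul, QuotientGroup.mk_inv, mul_left_inj] at h' ⊢
            calc _ = (y : Γ ⧸ N) * ((a : Γ) : Γ ⧸ N)⁻¹ * (((b : Γ) : Γ ⧸ N) * (y : Γ) *
                ((b : Γ) : Γ ⧸ N)⁻¹)⁻¹ * (a : Γ) := by group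
              _ = 1 := by rw [← h']; group
          · intro h
            rw [← QuotientGroup.eq] at h ⊢
            simp only [QuotientGroup.mk_mul, QuotientGroup.mk_inv, h]) F' fun a b h => by
          refine Fintype.sum_equiv (Equiv.mulRight ⟨a * (b : Γ)⁻¹, by
            simpa [mul_assoc] using hN.conj_mem _ (N.inv_mem h) b⟩) _ _ fun n => ?_
          simp [mul_assoc]
      have t2 : ∀ g : G, ∑ n : N, F (n * (g * y * (g : Γ)⁻¹ * (y : Γ)⁻¹)) = ∑ n : N, F n := fun g => by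
        refine (Fintype.sum_equiv (H3.cjAut N g).toEquiv _ _ fun n => ?_).symm
        have : ψ (g * n * (g : Γ)⁻¹ * (g * y * (g : Γ)⁻¹ * (y : Γ)⁻¹) * y) = ψ (n * y) := by
          rw [← H3.irr_class ψ1 (n * y) g]; congr 1; group
        simp only [F, ← this]; rfl
      have t3 : ∑ g : G, F' g = Nat.card N * ∑ g : G, F g := by
        rw [Finset.sum_comm, Finset.sum_congr rfl fun (n : N) _ => Fintype.sum_equiv
          (Equiv.mulLeft (⟨n, hNG n.2⟩ : G)) (fun g : G => F (n * g)) (fun g : G => F g)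
          fun _ => rfl]
        simp
      have t4 : ∑ n : N, F n = φ y * starRingEnd ℂ (φ y) * ∑ n : N.subgroupOf U,
          η (n * y) * starRingEnd ℂ (η (n * y)) := by
        rw [Finset.mul_sum]
        refine (Fintype.sum_equiv (Subgroup.subgroupOfEquivOfLe hNU).toEquiv _ _ fun n => ?_).symm
        have a1 : ψ ((n : U) * y) = φ (n * y) * η (n * y) := congrFun φ3 (n * y)
        rw [H3.char_ker_mul φ1 (φ2 _ n.2)] at a1
        change _ = ψ ((n : U) * y) * starRingEnd ℂ (ψ ((n : U) * y))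
        rw [a1, map_mul]; ring
      simp only [F', t2, t3, t4, Finset.sum_const, Finset.card_univ, nsmul_eq_mul,
        ← Nat.card_eq_fintype_card] at t1
      rw [inv_mul_eq_one₀ (H3.card_ne_zero' _)] at s1 s2
      simp only [F] at t1
      rw [← s1, ← s2, H1.card_subgroupOf hNU, Complex.mul_conj, mul_comm _ (Nat.card G : ℂ),
        mul_right_inj' (H3.card_ne_zero' _), mul_left_eq_self₀,
        or_iff_left (H3.card_ne_zero' _), Complex.normSq_eq_norm_sq] at t1
      rw [p2]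
      exact (pow_eq_one_iff_of_nonneg (norm_nonneg _) two_ne_zero).1 (by exact_mod_cast t1)) (by
        rw [← Finite.one_lt_card_iff_nontrivial, hcard]
        exact Subgroup.one_lt_index_of_ne_top hGlt)
  rw [hφ1, hcard] at h2
  have h3 : (e : ℤ) = a * G.index + ε := by exact_mod_cast h2
  rcases h1 with rfl | rfl
  · exact Or.inl ⟨a, by rw [h3]; ring⟩
  · exact Or.inr ⟨a, by rw [h3]; ring⟩

end Cfsg.Agent.S4454
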