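import Cfsg.Statements.S4457
import Cfsg.Agent.H3.Chr4

set_option autoImplicit false
open Cfsg

namespace Cfsg.Agent.S4457

/-- Let G be a finite group whose irreducible character degrees are exactly 1 and m (m ≠ 1). Then either G has an abelian normal subgroup of index m, or m is a power of a prime p and G is the direct product of a p-group and an abelian group: there are normal subgroups P and A with P a p-group, A abelian, P ⊓ A = 1 and P ⊔ A = G. -/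
theorem result {G : Type*} [Group G] [Finite G] (m : ℕ) (hcd : ∀ χ : Cfsg.IrrCharacter G, Cfsg.charDegree (χ : G → ℂ) = 1 ∨ Cfsg.charDegree (χ : G → ℂ) = m) (hm : ∃ χ : Cfsg.IrrCharacter G, Cfsg.charDegree (χ : G → ℂ) = m) (hm1 : m ≠ 1) : (∃ A : Subgroup G, A.Normal ∧ (∀ a ∈ A, ∀ b ∈ A, a * b = b * a) ∧ A.index = m) ∨ ∃ p e : ℕ, p.Prime ∧ m = p ^ e ∧ ∃ P A : Subgroup G, P.Normal ∧ A.Normal ∧ IsPGroup p P ∧ (∀ a ∈ A, ∀ b ∈ A, a * b = b * a) ∧ P ⊓ A = ⊥ ∧ P ⊔ A = ⊤ := by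
  obtain ⟨χ, hχ⟩ := hm
  rcases H3.two_degrees (fun χ h => hcd ⟨χ, h⟩) ⟨_, χ.2, hχ⟩ hm1 with ⟨T, a, b, c⟩ | ⟨a, b⟩
  · exact Or.inl ⟨T, Subgroup.Normal.of_commutator_le G c, fun _ h _ => H1.comm_of_mem a h, b⟩
  obtain ⟨p, hp, h⟩ := Nat.exists_prime_and_dvd hm1
  have := Fact.mk hp
  obtain ⟨c, d⟩ := b p hp h
  obtain ⟨P⟩ : Nonempty (Sylow p G) := inferInstance
  obtain ⟨k, hk⟩ : ∃ k, (pResidual p G).index = p ^ k :=
    (H2.isPGroup_quotient_pResidual p).exists_card_eq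
  have h1 := H3.ito _ (fun _ h _ => H1.comm_of_mem c h) χ.2 (H3.ideg χ)
  rw [hk, hχ] at h1
  obtain ⟨e, -, he⟩ := (Nat.dvd_prime_pow hp).1 h1
  exact Or.inr ⟨p, e, hp, he, P, pResidual p G, inferInstance, inferInstance, P.2,
    fun _ h _ => H1.comm_of_mem c h, H2.inf_eq_bot_of_coprime_card P.2 d,
    (sup_comm _ _).trans (H2.pResidual_sup_sylow P)⟩

end Cfsg.Agent.S4457
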