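import Cfsg.Statements.S4462
import Cfsg.Agent.H3.Chr4

set_option autoImplicit false
open Cfsg

namespace Cfsg.Agent.S4462

universe u

theorem aux (n : ℕ) : ∀ (G : Type u) [Group G] [Finite G] [Group.IsSolvable G],
    (charDegrees G).ncard ≤ n → ∃ N : ℕ → Subgroup G, N 0 = ⊥ ∧ N n = ⊤ ∧ Monotone N ∧
      (∀ i, (N i).Normal) ∧ ∀ i, ∃ (Q : Type u) (_ : Group Q) (f : N (i + 1) →* Q),
        Group.IsNilpotent Q ∧ f.ker ≤ (N i).subgroupOf (N (i + 1)) := by
  induction n with
  | zero =>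
    intro G _ _ _ h
    exact absurd h ((Set.ncard_pos H3.finite_cd).2 ⟨1, H3.one_mem_cd⟩).not_ge
  | succ n ih =>
    intro G _ _ _ h
    obtain ⟨M, a, b, c, d, e⟩ : ∃ N : ℕ → Subgroup (G ⧸ fittingSubgroup G), N 0 = ⊥ ∧ N n = ⊤ ∧
        Monotone N ∧ (∀ i, (N i).Normal) ∧ ∀ i, ∃ (Q : Type u) (_ : Group Q) (f : N (i + 1) →* Q),
        Group.IsNilpotent Q ∧ f.ker ≤ (N i).subgroupOf (N (i + 1)) := by
      by_cases c : fittingSubgroup G = ⊤
      · have := QuotientGroup.subsingleton_iff.2 c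
        exact ⟨fun _ => ⊥, rfl, Subsingleton.elim _ _, monotone_const, fun _ => inferInstance,
          fun i => ⟨_, _, MonoidHom.id _, inferInstance, by simp⟩⟩
      exact ih _ (by have := H3.cd_fitting c; omega)
    refine ⟨fun i => Nat.casesOn i ⊥ fun i => (M i).comap (QuotientGroup.mk' _), rfl, by simp [b],
      monotone_nat_of_le_succ fun i => ?_, fun i => ?_, fun i => ?_⟩
    · cases i
      · exact bot_le
      · exact Subgroup.comap_mono (c (Nat.le_succ _))
    · cases i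
      · exact inferInstanceAs (⊥ : Subgroup G).Normal
      · exact (d _).comap _
    · rcases i with _ | i
      · refine ⟨_, _, MonoidHom.id _, ?_, by simp⟩
        change Group.IsNilpotent ((M 0).comap _)
        rw [a, MonoidHom.comap_bot, QuotientGroup.ker_mk']
        exact H1.fitting_isNilpotent
      · obtain ⟨Q, _, f, g1, g2⟩ := e i
        exact ⟨Q, _, f.comp (MonoidHom.subgroupComap _ _), g1, fun x hx => g2 hx⟩

/-- Let G be a finite solvable group with exactly n distinct irreducible character degrees. Then G has normal subgroups 1 = N₀ ≤ N₁ ≤ ⋯ ≤ Nₙ = G with every quotient N_{i+1}/N_i nilpotent (the nilpotent length of G is at most n). -/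
theorem result {G : Type*} [Group G] [Finite G] (hsolv : Group.IsSolvable G) (n : ℕ) (hcd : Nat.card {d : ℕ // ∃ χ : Cfsg.IrrCharacter G, Cfsg.charDegree (χ : G → ℂ) = d} = n) : ∃ N : Fin (n + 1) → Subgroup G, N 0 = ⊥ ∧ N (Fin.last n) = ⊤ ∧ Monotone N ∧ (∀ i, (N i).Normal) ∧ ∀ i : Fin n, ∀ h : (N i.castSucc).subgroupOf (N i.succ) |>.Normal, Group.IsNilpotent (↥(N i.succ) ⧸ (N i.castSucc).subgroupOf (N i.succ)) := by
  obtain ⟨N, a, b, c, d, e⟩ := aux n G (le_of_eq hcd)
  refine ⟨fun i => N i, a, b, fun i j h => c h, fun i => d i, fun i h => ?_⟩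
  obtain ⟨Q, _, f, g1, g2⟩ := e i
  exact H3.nil_quot_of_hom f _ g2

end Cfsg.Agent.S4462
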