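import Cfsg.Statements.S4464
import Cfsg.Agent.H3.Tf

set_option autoImplicit false
open Cfsg

namespace Cfsg.Agent.S4464

open H3 Subgroup
open scoped Pointwise

universe u

theorem aux (p : ℕ) [hp : Fact p.Prime] (n : ℕ) : ∀ (G : Type u) [Group G] [Finite G], Nat.card G = n →
    (∀ χ, IsIrrCharacter G χ → ∀ d : ℕ, χ 1 = d → d < p) → ∀ P : Sylow p G,
      (P : Subgroup G).Normal ∧ ∀ x ∈ (P : Subgroup G), ∀ y ∈ (P : Subgroup G), x * y = y * x := by
  induction n using Nat.strong_induction_on with | _ n ih => ?_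
  intro G _ _ hn hb P
  classical
  have := Fintype.ofFinite G
  have hsub : ∀ (H : Subgroup G) θ, IsIrrCharacter H θ → ∀ d : ℕ, θ 1 = d → d < p := fun H θ hθ d hd => by
    have := Fintype.ofFinite H
    obtain ⟨χ, hχ, h⟩ := exists_irr_over H hθ
    obtain ⟨m, -, hm⟩ := irr_one_nat hχ
    exact (degree_le_of_constituent (char_restrict (irr_char hχ) H) hθ h (m := m) hm hd).trans_lt (hb χ hχ m hm)
  have hab : ∀ Q : Sylow p G, ∀ x ∈ (Q : Subgroup G), ∀ y ∈ (Q : Subgroup G), x * y = y * x := fun Q x hx y hy => by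
    by_contra hxy
    have h1 : (⟨x, hx⟩ * ⟨y, hy⟩ * ⟨x, hx⟩⁻¹ * ⟨y, hy⟩⁻¹ : Q) ≠ 1 := fun h => hxy (by
      have : x * y * x⁻¹ * y⁻¹ = 1 := congrArg Subtype.val h
      rw [mul_inv_eq_one, mul_inv_eq_iff_eq_mul] at this
      exact this)
    obtain ⟨θ, hθ, h2⟩ := exists_irr_ne_of_ne_one h1
    obtain ⟨k, hk⟩ := degree_prime_pow Q.isPGroup' hθ
    have h3 := hsub _ θ hθ _ hk
    obtain rfl : k = 0 := by
      by_contra h; exact absurd (Nat.le_self_pow h p) (by omega)
    refine h2 ((mem_charKer (irr_char hθ) _).1 ((degree_one_iff_commutator_le hθ).1 (by simpa using hk) ?_))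
    exact commutator_mem_commutator (mem_top _) (mem_top _)
  refine ⟨?_, hab P⟩
  by_cases hZ : ∃ x ∈ (P : Subgroup G), x ≠ 1 ∧ x ∈ center G
  · obtain ⟨x, hx, h1, h2⟩ := hZ
    have hN : (zpowers x).Normal := ⟨fun y hy g => by
      rw [mem_center_iff.1 ((zpowers_le.2 h2) hy) g, mul_inv_cancel_right]; exact hy⟩
    have h3 := (ih _ (by
      rw [← hn, card_eq_card_quotient_mul_card_subgroup (zpowers x)]
      exact lt_mul_of_one_lt_right Nat.card_pos (one_lt_card_iff_ne_bot _ |>.2 (by simpa using h1)))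
      (G ⧸ zpowers x) rfl (fun χ hχ d hd => hb _ (irr_comp_surj hχ (QuotientGroup.mk' _)
        (QuotientGroup.mk'_surjective _)) d (by simpa using hd)) (P.mapSurjective (QuotientGroup.mk'_surjective _))).1
    have h4 := h3.comap (QuotientGroup.mk' (zpowers x))
    rwa [Sylow.coe_mapSurjective, comap_map_eq, QuotientGroup.ker_mk', sup_eq_left.2 (zpowers_le.2 hx)] at h4
  have hTI : ∀ g : G, g ∉ normalizer ((P : Subgroup G) : Set G) →
      (P : Subgroup G) ⊓ (MulAut.conj g • (P : Subgroup G)) = ⊥ := fun g hg => by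
    rw [eq_bot_iff]
    intro x ⟨h1, h2⟩
    by_contra h3
    let C := centralizer ({x} : Set G)
    have h4 : ∀ Q : Sylow p G, x ∈ (Q : Subgroup G) → (Q : Subgroup G) ≤ C := fun Q h y hy =>
      mem_centralizer_singleton_iff.2 (hab Q y hy x h)
    have h5 : C ≠ ⊤ := fun h => hZ ⟨x, h1, h3, mem_center_iff.2 fun y =>
      mem_centralizer_singleton_iff.1 (show y ∈ C from h ▸ mem_top y)⟩
    have h6 := ih _ (hn ▸ (Finite.card_subtype_lt (p := (· ∈ C)) (not_forall.1 fun h => h5 (eq_top_iff.2 fun y _ => h y)).choose_spec)) C rfl (hsub C)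
    have := (h6 (P.subtype (h4 P h1))).1
    have := Sylow.unique_of_normal (P.subtype (h4 P h1)) this
    have h7 := Sylow.subtype_injective (Subsingleton.elim ((g • P).subtype (h4 (g • P) h2)) (P.subtype (h4 P h1)))
    exact hg (Sylow.smul_eq_iff_mem_normalizer.1 h7)
  by_cases h0 : (P : Subgroup G) = ⊥
  · rw [h0]; infer_instance
  have hp' : p ≤ Nat.card (P : Subgroup G) := by
    obtain ⟨k, hk⟩ := IsPGroup.iff_card.1 P.isPGroup'
    rw [hk]
    exact Nat.le_self_pow (fun h => h0 (card_eq_one.1 (by simpa [h] using hk))) p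
  let N := normalizer ((P : Subgroup G) : Set G)
  have := Fintype.ofFinite N
  have h8 : indFun N (fun _ => 1) = fun _ => 1 := class_ext (class_indFun _ _) (class_const 1) fun χ hχ => by
    obtain ⟨m, -, hm⟩ := irr_one_nat hχ
    rw [inner_indFun_left _ _ (irr_class hχ), ← H3.inner_conj_symm, tf_char P.isPGroup' (tf_free P hTI le_rfl) le_normalizer
      (irr_char hχ) hm ((hb χ hχ m hm).trans_le hp'), H3.inner_conj_symm]
  have h9 := congrFun h8 1
  rw [indFun_one, mul_one, Nat.cast_eq_one, index_eq_one] at h9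
  exact normalizer_eq_top_iff.1 h9

/-- Let p be a prime and G a finite group all of whose irreducible character degrees are less than p. Then G has a normal abelian Sylow p-subgroup. -/
theorem result {G : Type*} [Group G] [Finite G] (p : ℕ) (hp : p.Prime) (hb : ∀ χ : Cfsg.IrrCharacter G, Cfsg.charDegree (χ : G → ℂ) < p) : ∃ P : Subgroup G, P.Normal ∧ (∀ x ∈ P, ∀ y ∈ P, x * y = y * x) ∧ IsPGroup p P ∧ ¬ p ∣ P.index := by
  have := Fact.mk hp
  obtain ⟨P⟩ : Nonempty (Sylow p G) := inferInstance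
  obtain ⟨h1, h2⟩ := aux p _ G rfl (fun χ hχ d hd => by simpa [charDegree, hd] using hb ⟨χ, hχ⟩) P
  exact ⟨P, h1, h2, P.isPGroup', P.not_dvd_index⟩

end Cfsg.Agent.S4464
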