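import Cfsg.Statements.S4465
import Cfsg.Agent.H3.Jordan

set_option autoImplicit false
open Cfsg

namespace Cfsg.Agent.S4465

/-- Let the finite group G have a faithful character χ of degree n (G is a linear group of degree n), and let π be the set of primes greater than n + 1. Then G has an abelian Hall π-subgroup: an abelian subgroup A whose order is divisible only by primes greater than n + 1 and whose index is divisible by no prime greater than n + 1. -/
theorem result {G : Type*} [Group G] [Finite G] (χ : G → ℂ) (hχ : Cfsg.IsCharacter G χ) (hfaith : ∀ g : G, χ g = χ 1 → g = 1) (n : ℕ) (hn : Cfsg.charDegree χ = n) : ∃ A : Subgroup G, (∀ x ∈ A, ∀ y ∈ A, x * y = y * x) ∧ (∀ q : ℕ, q.Prime → q ∣ Nat.card A → n + 1 < q) ∧ ∀ q : ℕ, q.Prime → q ∣ A.index → q ≤ n + 1 := by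
  obtain ⟨U, u1, u2⟩ := H3.blichfeldt n G χ hχ hfaith hn.le
  exact ⟨U, fun x hx y hy => congrArg Subtype.val (H3.comm_of_deg_lt (H3.char_restrict hχ U)
    (fun g hg => Subtype.ext (hfaith g hg)) (fun q hq h =>
      (hn.le.trans_lt (Nat.lt_succ_self _)).trans (u1 q hq h)) ⟨x, hx⟩ ⟨y, hy⟩), u1,
    fun q hq h => not_lt.1 (u2 q hq h)⟩

end Cfsg.Agent.S4465
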