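import Cfsg.Statements.S4473
import Cfsg.Agent.H3.Mono
import Cfsg.Agent.H5.PGL2

set_option autoImplicit false
open Cfsg

namespace Cfsg.Agent.S4473

open scoped Pointwise
open H1
open Matrix MulAction OnePoint

theorem not_unip_C {g : H5.PG ℂ} (hg : IsOfFinOrder g) : ¬ H5.Unip (OnePoint ℂ) g := by
  intro hu
  obtain ⟨x, hx⟩ : ∃ x : OnePoint ℂ, g • x = x := by
    obtain ⟨a, b, c, d, h, rfl⟩ := H5.exists_pg g
    refine H5.exists_fix_of_root fun u v => ?_
    obtain ⟨s, hs⟩ := IsAlgClosed.exists_pow_nat_eq (u ^ 2 - 4 * v) (n := 2) (by norm_num)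
    exact ⟨(s - u) / 2, by linear_combination (1 / 4 : ℂ) * hs⟩
  obtain ⟨c, a, b, -, rfl⟩ := H5.exists_conj_aff hx
  obtain ⟨rfl, hb⟩ := H5.unip_aff.1 (H5.unip_conj_iff.1 hu)
  obtain ⟨n, hn, e⟩ := isOfFinOrder_iff_pow_eq_one.1 hg
  rw [conj_pow, mul_inv_eq_one, mul_eq_left, H5.aff_one_pow, H5.aff_eq_one] at e
  exact mul_ne_zero (Nat.cast_ne_zero.2 hn.ne') hb e.2

theorem not_unip_sub (H : Subgroup (H5.PG ℂ)) [Finite H] (g : H) : ¬ H5.Unip (OnePoint ℂ) g :=
  not_unip_C (g := g.1) (H.subtype.isOfFinOrder (isOfFinOrder_of_finite g))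

theorem moeb_C (H : Subgroup (H5.PG ℂ)) [Finite H] : H5.Moeb H (OnePoint ℂ) 2 := by
  refine ⟨fun g x y z h1 h2 h3 h4 h5 h6 => Subtype.ext (H5.pg_three _ x y z h1 h2 h3 h4 h5 h6), fun g => ?_,
    ⟨∞, (0 : ℂ), by simp⟩, fun x hx => ?_, fun g hg => absurd hg (not_unip_sub H g),
    fun g h x _ _ hg => absurd hg (not_unip_sub H g)⟩
  · obtain ⟨y, -, hy⟩ := H5.exists_ne_of_not_unip (not_unip_sub H g) ∞
    exact ⟨y, hy⟩
  · obtain ⟨μ, hμ⟩ := H5.isCyclic_of_fix (H.subtype.comp (stabilizer H x).subtype)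
      (Subtype.val_injective.comp Subtype.val_injective) (x := x) (fun g => g.2) fun g => not_unip_sub H g.1
    exact isCyclic_of_injective_ringHom ((Units.coeHom ℂ).comp μ) (Units.val_injective.comp hμ)

theorem comm_of_cyc {G Q : Type*} [Group G] [Group Q] (f : G →* Q) (hf : f.ker ≤ Subgroup.center G)
    (S : Subgroup Q) (hS : IsCyclic S) {a b : G} (ha : f a ∈ S) (hb : f b ∈ S) : a * b = b * a := by
  let A := S.comap f
  let f' : A →* S := (f.comp A.subtype).codRestrict S fun x => x.2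
  have := commutative_of_cyclic_center_quotient f' (fun x hx => by
    have h1 : (x : G) ∈ Subgroup.center G := hf (congrArg Subtype.val hx)
    exact Subgroup.mem_center_iff.2 fun y => Subtype.ext (Subgroup.mem_center_iff.1 h1 y)) ⟨a, ha⟩ ⟨b, hb⟩
  exact congrArg Subtype.val this

/-- Let the finite group G have a faithful irreducible character χ of degree 2 that is primitive: χ is not induced from a character of any proper subgroup. Then the centre of G has index 12, 24 or 60. -/
theorem result {G : Type*} [Group G] [Fintype G] (χ : Cfsg.IrrCharacter G) (hfaith : ∀ g : G, (χ : G → ℂ) g = (χ : G → ℂ) 1 → g = 1) (h2 : Cfsg.charDegree (χ : G → ℂ) = 2) (hprim : ∀ H : Subgroup G, H ≠ ⊤ → ∀ θ : H → ℂ, Cfsg.IsCharacter H θ → (χ : G → ℂ) ≠ Cfsg.indFun H θ) : (Subgroup.center G).index = 12 ∨ (Subgroup.center G).index = 24 ∨ (Subgroup.center G).index = 60 := by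
  classical
  obtain ⟨χ, hχ⟩ := χ
  obtain ⟨n, ρ, hρ, rfl⟩ := id hχ
  have hch : IsCharacter G ρ.character := ⟨n, ρ, rfl⟩
  have h1 : ρ.character 1 = n := by simp
  obtain rfl : n = 2 := by
    simpa [charDegree, h1] using h2
  have hk : H3.charKer ρ.character = ⊥ :=
    (Subgroup.eq_bot_iff_forall _).2 fun g hg => hfaith g ((H3.mem_charKer hch g).1 hg)
  have hinj : Function.Injective ρ := (H3.charKer_eq_bot_iff ρ).1 hk
  have hZ := H3.charCenter_eq_center hχ hk
  let M : G →* Matrix (Fin 2) (Fin 2) ℂ :=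
    (LinearMap.toMatrixAlgEquiv' (R := ℂ) (n := Fin 2)).toMulEquiv.toMonoidHom.comp ρ
  have hM : Function.Injective M := (LinearMap.toMatrixAlgEquiv' (R := ℂ) (n := Fin 2)).injective.comp hinj
  let ψ : G →* H5.PG ℂ := ProjGenLinGroup.mk.comp M.toHomUnits
  have hker : ψ.ker = Subgroup.center G := by
    ext g
    have e : g ∈ ψ.ker ↔ M.toHomUnits g ∈ Subgroup.center (GL (Fin 2) ℂ) := by
      rw [← ProjGenLinGroup.ker_mk]; rfl
    rw [e]
    constructor
    · intro h
      refine Subgroup.mem_center_iff.2 fun x => hM ?_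
      have := congrArg Units.val (Subgroup.mem_center_iff.1 h (M.toHomUnits x))
      simpa using this
    · intro h
      rw [← hZ, H3.mem_charCenter_rep] at h
      obtain ⟨ω, -, hω⟩ := h
      refine GeneralLinearGroup.mem_center_iff_val_mem_range_scalar.2 ⟨ω, ?_⟩
      show _ = LinearMap.toMatrixAlgEquiv' (ρ g)
      rw [hω]
      ext i j
      simp [Matrix.scalar_apply, Matrix.diagonal_apply, Matrix.one_apply, LinearMap.toMatrixAlgEquiv'_apply, Pi.single_apply]
  have hidx : (Subgroup.center G).index = Nat.card ψ.range := by rw [← hker, Subgroup.index_ker]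
  haveI : Finite ψ.range := Finite.of_surjective _ ψ.rangeRestrict_surjective
  have hm := moeb_C ψ.range
  have hker' : ψ.rangeRestrict.ker ≤ Subgroup.center G := by rw [MonoidHom.ker_rangeRestrict, hker]
  have hsq : 2 ^ 2 ≤ (Subgroup.center G).index := H3.degree_sq_le_index hχ h1 _ hZ.ge
  have hst : ∀ z : OnePoint ℂ, ((stabilizer ψ.range z).comap ψ.rangeRestrict).Normal →
      (stabilizer ψ.range z).comap ψ.rangeRestrict ≤ Subgroup.center G := by
    intro z hn
    rw [← hZ]
    refine H3.le_charCenter_of_homog hch (by rw [h1]; norm_num)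
      (H3.homog_of_prim hχ (fun H hH θ hθ => (hprim H hH θ hθ).symm) _) fun a ha b hb => ?_
    rw [comm_of_cyc ψ.rangeRestrict hker' _ (hm.cyc z fun g _ => not_unip_sub _ g) ha hb]
    congr 1; group
  have hix : ∀ z : OnePoint ℂ, ((stabilizer ψ.range z).comap ψ.rangeRestrict).index = (stabilizer ψ.range z).index :=
    fun z => Subgroup.index_comap_of_surjective _ ψ.rangeRestrict_surjective
  rcases hm.classify_ss (not_unip_sub _) with ⟨x, hx⟩ | ⟨z, hz⟩ | ⟨⟨e⟩⟩ | ⟨⟨e⟩⟩ | ⟨⟨e⟩⟩
  · exfalso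
    have ht : (stabilizer ψ.range x).comap ψ.rangeRestrict = ⊤ := eq_top_iff.2 fun g _ => hx _
    have := Subgroup.index_antitone (hst x (ht ▸ inferInstance))
    rw [ht, Subgroup.index_top] at this
    omega
  · exfalso
    have := Subgroup.index_antitone (hst z (Subgroup.normal_of_index_eq_two ((hix z).trans hz)))
    rw [hix, hz] at this
    omega
  · left
    rw [hidx, Nat.card_congr e.toEquiv, nat_card_alternatingGroup]; simp [Nat.factorial]
  · right; left
    rw [hidx, Nat.card_congr e.toEquiv, Nat.card_perm]; simp [Nat.factorial]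
  · right; right
    rw [hidx, Nat.card_congr e.toEquiv, nat_card_alternatingGroup]; simp [Nat.factorial]

end Cfsg.Agent.S4473
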