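import Cfsg.Statements.S4476
import Cfsg.Agent.H3.Cy

set_option autoImplicit false
open Cfsg

namespace Cfsg.Agent.S4476

open H3

/-- Let G be a finite group of even order g with exactly t involutions, and put α = (g − 1)/t (a rational number). Then (a) some non-identity element x of G has at most α² conjugates; and (b) some non-principal real-valued irreducible character of G has degree at most α. -/
theorem result {G : Type*} [Group G] [Fintype G] (heven : Even (Nat.card G)) (t : ℕ) (ht : Nat.card {x : G // orderOf x = 2} = t) : (∃ x : G, x ≠ 1 ∧ ((Subgroup.centralizer ({x} : Set G)).index : ℚ) ≤ (((Nat.card G : ℚ) - 1) / t) ^ 2) ∧ ∃ χ : Cfsg.IrrCharacter G, (χ : G → ℂ) ≠ (fun _ => 1) ∧ (∀ g : G, ((χ : G → ℂ) g).im = 0) ∧ (Cfsg.charDegree (χ : G → ℂ) : ℚ) ≤ ((Nat.card G : ℚ) - 1) / t := by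
  classical
  have h0 : 0 < t := by
    obtain ⟨x, hx⟩ := exists_prime_orderOf_dvd_card' (hp := ⟨Nat.prime_two⟩) 2 heven.two_dvd
    have : Nonempty {x : G // orderOf x = 2} := ⟨⟨x, hx⟩⟩
    exact ht ▸ Nat.card_pos
  have h0' : (0 : ℚ) < t := by exact_mod_cast h0
  let S := Finset.univ.filter fun χ : IrrCharacter G => χ.1 ≠ fun _ => 1
  let R := S.filter fun χ => ∀ g, (χ.1 g).im = 0
  have h1 : (t : ℚ) ≤ ∑ χ ∈ R, (charDegree χ.1 : ℚ) := by
    have a := congrArg Complex.re (inv_count (G := G))
    rw [ht, Complex.re_sum, Complex.natCast_re] at a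
    have : (t : ℝ) ≤ ∑ χ ∈ R, (charDegree χ.1 : ℝ) := by
      rw [a, Finset.sum_filter (s := S)]
      refine Finset.sum_le_sum fun χ _ => ?_
      split_ifs with h
      · rcases fs_real χ.2 h with e | e <;> simp [e]
      · simp [fs_nonreal χ.2 h]
    exact_mod_cast this
  have e1 : S = Finset.univ.erase ⟨_, isIrr_one⟩ := by ext χ; simp [S, Subtype.ext_iff]
  have h2 : ∑ χ ∈ S, (charDegree χ.1 : ℚ) ^ 2 = Nat.card G - 1 := by
    have a := sum_deg_sq (G := G)
    rw [← Finset.add_sum_erase _ _ (Finset.mem_univ ⟨_, isIrr_one⟩),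
      deg_of_eq (χ := fun _ => 1) (n := 1) (by simp), ← e1] at a
    rw [← a]; push_cast; ring
  have h3 : ∑ χ ∈ R, (charDegree χ.1 : ℚ) ^ 2 ≤ Nat.card G - 1 :=
    h2 ▸ Finset.sum_le_sum_of_subset_of_nonneg (Finset.filter_subset _ _) fun _ _ _ => by positivity
  have hR : R.Nonempty := by
    rw [Finset.nonempty_iff_ne_empty]
    intro e
    rw [e, Finset.sum_empty] at h1
    linarith
  have hg : (1 : ℚ) < Nat.card G := by
    exact_mod_cast (Nat.le_of_dvd Nat.card_pos heven.two_dvd)
  constructor
  · by_contra! h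
    have a : (t : ℚ) ^ 2 ≤ S.card * (Nat.card G - 1) :=
      calc (t : ℚ) ^ 2 ≤ (∑ χ ∈ S, (charDegree χ.1 : ℚ)) ^ 2 := by
            gcongr
            exact h1.trans (Finset.sum_le_sum_of_subset_of_nonneg (Finset.filter_subset _ _)
              fun _ _ _ => by positivity)
        _ ≤ _ := h2 ▸ sq_sum_le_card_mul_sum_sq
    have b : ∑ x : G, (Nat.card (Subgroup.centralizer ({x} : Set G)) : ℝ) =
        (S.card + 1) * Nat.card G := by
      simp only [← sum_norm_sq_char]
      rw [Finset.sum_comm, Finset.sum_congr rfl fun χ _ => sum_norm_sq_irr χ.2, Finset.sum_const,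
        nsmul_eq_mul, e1, ← Finset.card_erase_add_one (Finset.mem_univ ⟨_, isIrr_one⟩)]
      push_cast; rfl
    replace b : ∑ x : G, (Nat.card (Subgroup.centralizer ({x} : Set G)) : ℚ) =
        (S.card + 1) * Nat.card G := by exact_mod_cast b
    rw [← Finset.add_sum_erase _ _ (Finset.mem_univ 1), Subgroup.centralizer_eq_top_iff_subset.2
      (by simp), Subgroup.card_top] at b
    have : Nontrivial G := Finite.one_lt_card_iff_nontrivial.1 (by exact_mod_cast hg)
    obtain ⟨y, hy⟩ := exists_ne (1 : G)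
    have c := Finset.sum_lt_sum_of_nonempty (s := Finset.univ.erase (1 : G)) ⟨y, by simpa⟩
      (f := fun x => ((Nat.card G - 1) / t : ℚ) ^ 2 * Nat.card (Subgroup.centralizer ({x} : Set G)))
      (g := fun _ => (Nat.card G : ℚ)) fun x hx => by
        rw [← (Subgroup.centralizer ({x} : Set G)).index_mul_card, Nat.cast_mul]
        have := h x (Finset.mem_erase.1 hx).1
        rw [← (Subgroup.centralizer ({x} : Set G)).index_mul_card, Nat.cast_mul] at this
        exact mul_lt_mul_of_pos_right this (by exact_mod_cast Nat.card_pos)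
    rw [← Finset.mul_sum, Finset.sum_const, Finset.card_erase_of_mem (Finset.mem_univ _),
      Finset.card_univ, ← Nat.card_eq_fintype_card, nsmul_eq_mul, Nat.cast_sub Nat.card_pos,
      show ∑ x ∈ Finset.univ.erase (1 : G), (Nat.card (Subgroup.centralizer ({x} : Set G)) : ℚ) =
        S.card * Nat.card G by linarith, div_pow, div_mul_eq_mul_div,
      div_lt_iff₀ (by positivity), Nat.cast_one] at c
    have : (0 : ℚ) < (Nat.card G - 1) * Nat.card G := mul_pos (by linarith) (by linarith)
    nlinarith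
  · by_contra! h
    have c := Finset.sum_lt_sum_of_nonempty hR
      (f := fun χ => ((Nat.card G - 1) / t : ℚ) * charDegree χ.1)
      (g := fun χ => (charDegree χ.1 : ℚ) ^ 2) fun χ hχ => by
        rw [sq]
        simp only [R, S, Finset.mem_filter] at hχ
        exact mul_lt_mul_of_pos_right (h χ hχ.1.2 hχ.2) (by exact_mod_cast deg_pos χ.2)
    rw [← Finset.mul_sum] at c
    have := mul_le_mul_of_nonneg_left h1 (div_nonneg (by linarith : (0 : ℚ) ≤ Nat.card G - 1) h0'.le)
    rw [div_mul_cancel₀ _ h0'.ne'] at this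
    linarith

end Cfsg.Agent.S4476
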