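import Cfsg.Statements.S4477
import Cfsg.Agent.H3.Cw
import Cfsg.Agent.L.PG4

set_option autoImplicit false
open Cfsg

namespace Cfsg.Agent.S4477

open H3

universe u

theorem odd_inv {G : Type*} [Group G] [Finite G] (h : 2 ∣ Nat.card G) :
    Nat.card {x : G // orderOf x = 2} % 2 = 1 := by
  classical
  have := Fintype.ofFinite G
  have a := Equiv.Perm.card_fixedPoints_modEq (f := (Inv.inv : G → G)) (p := 2) (n := 1)
    (funext fun x => inv_inv x)
  have b : Fintype.card (Function.fixedPoints (Inv.inv : G → G)) =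
      1 + Nat.card {x : G // orderOf x = 2} := by
    simp only [Nat.card_eq_fintype_card, Fintype.card_subtype]
    rw [← Finset.card_erase_add_one (a := 1) (by simp [Function.IsFixedPt]), add_comm]
    congr 2
    ext x
    simp [orderOf_eq_prime_iff, sq, and_comm, inv_eq_iff_mul_eq_one, Function.IsFixedPt]
  rw [b, ← Nat.card_eq_fintype_card, Nat.ModEq] at a
  omega

theorem card_sq_one {G : Type*} [Group G] [Finite G] :
    Nat.card {s : G // s * s = 1} = 1 + Nat.card {x : G // orderOf x = 2} := by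
  classical
  have := Fintype.ofFinite G
  simp only [Nat.card_eq_fintype_card, Fintype.card_subtype]
  rw [← Finset.card_erase_add_one (a := 1) (by simp), add_comm]
  congr 2
  ext x
  simp [orderOf_eq_prime_iff, sq, and_comm]

theorem aux (n : ℕ) : ∀ (G : Type u) [Group G] [Finite G], Nat.card G = n → IsPGroup 2 G →
    Nat.card {x : G // orderOf x = 2} % 4 = 1 → IsCyclic G ∨ (commutator G).index = 4 := by
  induction n using Nat.strong_induction_on with
  | _ n ih =>
  intro G _ _ hn hG ht
  classical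
  have := Fintype.ofFinite G
  have := hG.isNilpotent
  by_cases hc : commutator G = ⊥
  · left
    by_contra h
    have hc' : IsMulCommutative (⊤ : Subgroup G) := Subgroup.le_centralizer_iff_isMulCommutative.1
      (Subgroup.commutator_eq_bot_iff_le_centralizer.1 hc)
    obtain ⟨A, -, a, b⟩ := L.exists_elem_two (hG.to_subgroup ⊤)
      (fun e => h (isCyclic_of_surjective _ Subgroup.topEquiv.surjective)) (Or.inr hc')
    have c := Subgroup.card_dvd_of_le (show A ≤ H1.powKer ⊤ hc' 2 from fun x hx =>
      H1.mem_powKer.2 ⟨trivial, a.2 x hx⟩)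
    have d : Nat.card (H1.powKer ⊤ hc' 2) = Nat.card {s : G // s * s = 1} :=
      Nat.card_congr (Equiv.subtypeEquivRight fun x => by simp [H1.mem_powKer, sq])
    rw [b, d, card_sq_one] at c
    omega
  right
  obtain ⟨z, hz, h2⟩ : ∃ z ∈ commutator G ⊓ Subgroup.center G, orderOf z = 2 := by
    obtain ⟨k, hk⟩ := (hG.to_subgroup (commutator G ⊓ Subgroup.center G)).exists_card_eq
    obtain ⟨x, hx⟩ := exists_prime_orderOf_dvd_card' (G := ↥(commutator G ⊓ Subgroup.center G)) 2
      (hk ▸ dvd_pow_self 2 fun e => inf_center_ne_bot' _ hc (Subgroup.card_eq_one.1 (by rw [hk, e, pow_zero])))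
    exact ⟨x, x.2, by rwa [Subgroup.orderOf_coe]⟩
  let Z := Subgroup.zpowers z
  have hZ : Z ≤ Subgroup.center G := Subgroup.zpowers_le.2 hz.2
  have hZ' : Z ≤ commutator G := Subgroup.zpowers_le.2 hz.1
  have := normal_of_le_center hZ
  have h3 : (commutator (G ⧸ Z)).index = (commutator G).index := by
    rw [commutator_def, ← Subgroup.map_top_of_surjective _ (QuotientGroup.mk'_surjective Z),
      ← Subgroup.map_commutator, H1.index_map_mk', ← commutator_def, sup_eq_left.2 hZ']
  have h4 : ¬ IsCyclic (G ⧸ Z) := fun e => hc (by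
    have := commutative_of_cyclic_center_quotient (QuotientGroup.mk' Z) (by simpa using hZ)
    exact Subgroup.commutator_eq_bot_iff_le_centralizer.2 fun a _ b _ => this b a)
  have h5 : Nat.card G = Nat.card (G ⧸ Z) * 2 := by
    rw [Z.card_eq_card_quotient_mul_card_subgroup, Nat.card_zpowers, h2]
  by_cases h6 : Nat.card {x : G ⧸ Z // orderOf x = 2} % 4 = 1
  · exact h3 ▸ (ih _ (by have := Nat.card_pos (α := G ⧸ Z); omega) _ rfl (hG.to_quotient Z)
      h6).resolve_left h4
  have h7 := odd_inv (G := G ⧸ Z) (by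
    obtain ⟨k, hk⟩ := (hG.to_quotient Z).exists_card_eq
    refine hk ▸ dvd_pow_self 2 fun e => h4 ?_
    have := (Nat.card_eq_one_iff_unique.1 (by rw [hk, e, pow_zero])).1
    infer_instance)
  obtain ⟨z2, z1⟩ := orderOf_eq_prime_iff.1 h2
  have hzi : z⁻¹ = z := inv_eq_of_mul_eq_one_right (by rw [← sq, z2])
  have h8 : Nat.card {s : G // s * s = 1} + Nat.card {s : G // s * s = z} =
      2 * Nat.card {s : G ⧸ Z // s * s = 1} := by
    have a := QuotientGroup.card_preimage_mk Z {s : G ⧸ Z | s * s = 1}
    rw [Nat.card_zpowers, h2] at a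
    refine Eq.trans ?_ a
    simp only [Nat.card_eq_fintype_card, Fintype.card_subtype]
    rw [← Finset.card_union_of_disjoint (Finset.disjoint_filter.2 fun x _ a b =>
      z1 (b.symm.trans a))]
    congr 1
    ext x
    simp only [Finset.mem_union, Finset.mem_filter, Finset.mem_univ, true_and, Set.mem_preimage,
      Set.mem_setOf_eq, ← QuotientGroup.mk_mul, QuotientGroup.eq_one_iff, Z]
    rw [mem_zpowers_iff_mem_range_orderOf, h2]
    simp [Finset.range_add_one, eq_comm, or_comm]
  let S : IrrCharacter G → Prop := fun χ => χ.1 z ≠ χ.1 1 ∧ charDegree χ.1 = 2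
  have h9 : ∀ χ : IrrCharacter G, ∃ c : ℤ, fs χ.1 * χ.1 1⁻¹ - fs χ.1 * χ.1 z⁻¹ =
      8 * c + if S χ ∧ ∀ g, (χ.1 g).im = 0 then 4 else 0 := fun χ => by
    rw [inv_one, hzi]
    by_cases a : χ.1 z = χ.1 1
    · exact ⟨0, by simp [S, a]⟩
    by_cases b : ∀ g, (χ.1 g).im = 0
    swap
    · exact ⟨0, by simp [b, fs_nonreal χ.2 b]⟩
    obtain ⟨f, hf⟩ := exists_hom_charCenter (irr_one_ne_zero χ.2)
    have c := hf ⟨z, center_le_charCenter χ.2 hz.2⟩
    have d := c z
    have c := c 1
    rw [one_mul] at c
    rw [← sq, z2, c, ← mul_assoc] at d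
    have e : χ.1 z = -χ.1 1 := by
      rcases mul_self_eq_one_iff.1 (mul_right_cancel₀ (irr_one_ne_zero χ.2)
        (d.symm.trans (one_mul _).symm)) with e | e
      · exact absurd (by rw [c, e, one_mul]) a
      · rw [c, e, neg_one_mul]
    obtain ⟨k, hk⟩ := pdeg hG χ.2
    simp only [S, b, a, hk, ne_eq, not_false_eq_true, true_and, implies_true, and_true]
    rw [e, ideg, hk]
    match k with
    | 0 => exact absurd ((mem_charKer (irr_char χ.2) z).1 ((degree_one_iff_commutator_le χ.2).1
        ((deg_eq_one_iff (irr_char χ.2)).1 hk) hz.1)) a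
    | 1 =>
      rcases fs_real χ.2 b with e | e
      · exact ⟨0, by norm_num [e]⟩
      · exact ⟨-1, by norm_num [e]⟩
    | k + 2 =>
      rw [if_neg (by have := Nat.one_le_two_pow (n := k); rw [pow_add]; omega)]
      rcases fs_real χ.2 b with e | e
      · exact ⟨2 ^ k, by rw [e]; push_cast; ring⟩
      · exact ⟨-2 ^ k, by rw [e]; push_cast; ring⟩
  choose c hc' using h9
  have h10 : (Nat.card {s : G // s * s = 1} : ℤ) - Nat.card {s : G // s * s = z} =
      8 * ∑ χ, c χ + 4 * Nat.card {χ // S χ ∧ ∀ g, (χ.1 g).im = 0} := by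
    have : (Nat.card {s : G // s * s = 1} : ℂ) - Nat.card {s : G // s * s = z} =
        8 * ∑ χ, c χ + 4 * Nat.card {χ // S χ ∧ ∀ g, (χ.1 g).im = 0} := by
      rw [card_sqrt, card_sqrt, ← Finset.sum_sub_distrib, Finset.sum_congr rfl fun χ _ => hc' χ,
        Finset.sum_add_distrib, Finset.sum_ite, Nat.card_eq_fintype_card,
        Fintype.card_subtype fun χ => S χ ∧ ∀ g, (χ.1 g).im = 0]
      simp [Finset.mul_sum, mul_comm]
    exact_mod_cast this
  have h11 := Equiv.Perm.card_fixedPoints_modEq (p := 2) (n := 1) (α := {χ // S χ})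
    (f := fun χ => ⟨⟨_, irr_conj χ.1.2⟩, fun e => χ.2.1 ((starRingEnd ℂ).injective e),
      deg_of_eq (by simp only [ideg, χ.2.2, map_natCast])⟩) (funext fun χ => Subtype.ext (Subtype.ext (funext fun g => Complex.conj_conj _)))
  rw [← Nat.card_eq_fintype_card, ← Nat.card_eq_fintype_card, Nat.card_congr
    ((Equiv.subtypeEquivRight (q := fun χ : {χ // S χ} => ∀ g, (χ.1.1 g).im = 0) fun χ => by
      simp [Function.IsFixedPt, Subtype.ext_iff, funext_iff, Complex.conj_eq_iff_im]).trans
      (Equiv.subtypeSubtypeEquivSubtypeInter S fun χ => ∀ g, (χ.1 g).im = 0)), Nat.ModEq] at h11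
  rw [card_sq_one, card_sq_one] at h8
  rw [card_sq_one] at h10
  let _ : MulAction (G →* ℂˣ) {χ // S χ} :=
    { smul := fun f χ => ⟨⟨_, irr_mul_hom χ.1.2 f⟩, by
        simpa [MonoidHom.mem_ker.1 (Abelianization.commutator_subset_ker f hz.1)] using χ.2.1,
        (deg_mul_hom _ _).trans χ.2.2⟩
      one_smul := fun χ => Subtype.ext (Subtype.ext (funext fun g => mul_one _))
      mul_smul := fun a b χ => Subtype.ext (Subtype.ext (funext fun g => by
        change _ * ((a g * b g : ℂˣ) : ℂ) = _ * (b g : ℂ) * a g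
        push_cast; ring)) }
  obtain ⟨k, hk⟩ := hG.index (commutator G)
  obtain ⟨χ, hχ⟩ := (IsPGroup.of_card (card_hom.trans hk)).nonempty_fixed_point_of_prime_not_dvd_card
    {χ // S χ} (by omega)
  have hv : ∀ g, g ∉ commutator G → χ.1.1 g = 0 := fun g =>
    vanish_of_twist fun f => congrArg (fun z => z.1.1) (hχ f)
  have h12 : Nat.card G ≤ Nat.card (commutator G) * 4 := by
    have a := sum_norm_sq_irr χ.1.2
    rw [← Finset.sum_filter_of_ne (p := (· ∈ commutator G)) fun g _ h =>
      by_contra fun e => h (by simp [hv g e])] at a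
    have b := Finset.sum_le_card_nsmul (Finset.univ.filter (· ∈ commutator G))
      (fun g => ‖χ.1.1 g‖ ^ 2) 4 fun g _ => by
        have := norm_char_le' (irr_char χ.1.2) g
        rw [norm_one_eq_deg (irr_char χ.1.2), χ.2.2] at this
        push_cast at this
        nlinarith [norm_nonneg (χ.1.1 g)]
    rw [a, ← Fintype.card_subtype, ← Nat.card_eq_fintype_card, nsmul_eq_mul] at b
    exact_mod_cast b
  rw [← (commutator G).card_mul_index] at h12
  replace h12 := Nat.le_of_mul_le_mul_left h12 Nat.card_pos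
  have h13 : ¬ (commutator G).index ≤ 2 := fun e => by
    have := L.isCyclic_of_relIndex_Phi (N := commutator G) (hG.to_subgroup ⊤)
      (H1.commutator_le_map_frattini inferInstance) (by rwa [Subgroup.relIndex_top_right])
    exact h4 (isCyclic_of_surjective ((QuotientGroup.mk' Z).comp (⊤ : Subgroup G).subtype)
      ((QuotientGroup.mk'_surjective Z).comp Subgroup.topEquiv.surjective))
  rw [hk] at h12 h13 ⊢
  match k with
  | 0 => simp at h13
  | 1 => simp at h13
  | 2 => rfl
  | k + 3 => have := Nat.one_le_two_pow (n := k); rw [pow_add] at h12; omega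

/-- Let G be a finite 2-group whose number of involutions is congruent to 1 modulo 4. Then G is cyclic or its commutator subgroup has index 4. -/
theorem result {G : Type*} [Group G] [Finite G] (hG : IsPGroup 2 G) (ht : Nat.card {x : G // orderOf x = 2} % 4 = 1) : IsCyclic G ∨ (commutator G).index = 4 := by
  exact aux _ G rfl hG ht

end Cfsg.Agent.S4477
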