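import Cfsg.Statements.S4478
import Cfsg.Agent.H4.Inv2
import Cfsg.Agent.H3.Chr

set_option autoImplicit false
open Cfsg

namespace Cfsg.Agent.S4478

open H4 H1 MonoidAlgebra
open scoped Pointwise


/-- Let G be a finite group of even order and χ an irreducible character of G whose degree x is divisible by the full power of 2 dividing the order of G and, for every odd prime p such that G has an element of order 2p, by the full power of p dividing the order of G. Then all involutions of G are conjugate, the centralizer of every involution has order exactly x with x coprime to its index, and the Frobenius–Schur indicator of χ equals 1. -/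
theorem result {G : Type*} [Group G] [Fintype G] (heven : Even (Nat.card G)) (χ : Cfsg.IrrCharacter G) (h2 : 2 ^ (Nat.card G).factorization 2 ∣ Cfsg.charDegree (χ : G → ℂ)) (hp : ∀ p : ℕ, p.Prime → p ≠ 2 → (∃ g : G, orderOf g = 2 * p) → p ^ (Nat.card G).factorization p ∣ Cfsg.charDegree (χ : G → ℂ)) : (∀ s t : G, orderOf s = 2 → orderOf t = 2 → IsConj s t) ∧ (∀ s : G, orderOf s = 2 → Nat.card (Subgroup.centralizer ({s} : Set G)) = Cfsg.charDegree (χ : G → ℂ) ∧ (Nat.card (Subgroup.centralizer ({s} : Set G))).Coprime (Subgroup.centralizer ({s} : Set G)).index) ∧ (Nat.card G : ℂ)⁻¹ * ∑ g : G, (χ : G → ℂ) (g * g) = 1 := by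
  classical
  have hn : ∀ p : ℕ, p.Prime → p ^ (Nat.card G).factorization p ∣ charDegree χ.1 → nu p χ.1 = (Nat.card G).factorization p :=
    fun p hp h => le_antisymm (nu_le χ.2) ((hp.pow_dvd_iff_le_factorization (charDegree_ne_zero χ.2)).1 h)
  have h0 : ∀ s : G, orderOf s = 2 → ∀ p : ℕ, p.Prime → p ∣ Nat.card (C1 s) → nu p χ.1 = (Nat.card G).factorization p :=
    fun s hs p hp' h => by
      by_cases e : p = 2
      · exact e ▸ hn 2 Nat.prime_two h2
      have := Fact.mk hp'
      obtain ⟨g, hg⟩ := exists_prime_orderOf_dvd_card' p h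
      rw [← Subgroup.orderOf_coe] at hg
      exact hn p hp' (hp p hp' e ⟨s * g, by rw [(mem_centralizer_singleton.1 g.2).orderOf_mul_eq_mul_orderOf_of_coprime (by
        rw [hs, hg]; exact (Nat.coprime_primes Nat.prime_two hp').2 (Ne.symm e)), hs, hg]⟩)
  have h1 : ∀ s : G, orderOf s = 2 → ∀ g ∈ C1 s, g ≠ 1 → χ.1 g = 0 := fun s hs g hg h => by
    obtain ⟨p, hp', h3⟩ := Nat.exists_prime_and_dvd (mt orderOf_eq_one_iff.1 h)
    exact eq_zero_of_nu hp' χ.2 (h0 s hs p hp' (h3.trans (Subgroup.orderOf_dvd_natCard _ hg))) h3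
  have h3 : ∀ s : G, orderOf s = 2 → Nat.card (C1 s) ≤ charDegree χ.1 := fun s hs => by
    obtain ⟨k, hk⟩ := H3.card_dvd_of_vanish (H3.gen_restrict (H3.irr_gen χ.2) (C1 s)) fun g hg =>
      h1 s hs g g.2 fun e => hg (Subtype.ext e)
    refine Nat.le_of_dvd (Nat.pos_of_ne_zero (charDegree_ne_zero χ.2)) (Int.natCast_dvd_natCast.1 ⟨k, ?_⟩)
    rw [Subgroup.coe_one, irr_one_eq] at hk
    exact_mod_cast hk
  obtain ⟨t, ht⟩ := exists_prime_orderOf_dvd_card' 2 heven.two_dvd
  have h4 : ∑ g, χ.1 g = 0 := by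
    have := H3.irr_inner_ne χ.2 H3.isIrr_one fun e => by
      simpa [e] using h1 t ht t (mem_centralizer_singleton.2 (Commute.refl t)) (ne_one_of_two ht)
    simpa [classInner, H3.card_ne_zero' G, -Nat.card_eq_fintype_card] using this
  have h5 : ∀ g : G, χ.1 (g * g) = if orderOf g = 2 then χ.1 1 else if 2 ∣ orderOf g then 0 else χ.1 (g * g) := fun g => by
    split_ifs with e e'
    · rw [mul_self_of_two e]
    · refine h1 _ (orderOf_pow_orderOf_div (orderOf_pos g).ne' e') _ (mem_centralizer_singleton.2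
        (((Commute.refl g).mul_right (Commute.refl g)).pow_left _)) fun h => ?_
      rcases (Nat.dvd_prime Nat.prime_two).1 (orderOf_dvd_iff_pow_eq_one.2 ((sq g).trans h)) with h | h
      · rw [h] at e'; omega
      · exact e h
    · rfl
  have h6 : ∑ g with ¬ 2 ∣ orderOf g, χ.1 (g * g) = 0 := by
    rw [← h4, ← Finset.sum_filter_add_sum_filter_not Finset.univ (fun g => 2 ∣ orderOf g) χ.1, Finset.sum_eq_zero (s := Finset.univ.filter fun g => 2 ∣ orderOf g) fun g hg =>
      eq_zero_of_nu Nat.prime_two χ.2 (hn 2 Nat.prime_two h2) (Finset.mem_filter.1 hg).2, zero_add]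
    have k : ∀ g ∈ Finset.univ.filter fun g : G => ¬ 2 ∣ orderOf g, g * g ∈ Finset.univ.filter fun g : G => ¬ 2 ∣ orderOf g :=
      fun g hg => by simpa [sq] using not_dvd_orderOf_pow (Finset.mem_filter.1 hg).2 2
    refine Finset.sum_bij (fun g _ => g * g) k (fun a ha b hb => Finset.inj_on_of_surj_on_of_card_le (fun g _ => g * g) k
      (fun b hb => ?_) le_rfl ha hb) (fun b hb => ?_) fun _ _ => rfl <;>
    · obtain ⟨j, hj⟩ := exists_sqrt_odd (Finset.mem_filter.1 hb).2
      exact ⟨b ^ j, by simpa using not_dvd_orderOf_pow (Finset.mem_filter.1 hb).2 j, by rw [← sq, hj]⟩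
  have h7 : ∑ g, χ.1 (g * g) = ((Finset.univ.filter fun g : G => orderOf g = 2).card * charDegree χ.1 : ℕ) := by
    rw [Finset.sum_congr rfl fun g _ => h5 g, Finset.sum_ite, Finset.sum_const, Finset.sum_ite, Finset.sum_const_zero,
      Finset.filter_filter, Finset.filter_congr (p := fun g => ¬ orderOf g = 2 ∧ ¬ 2 ∣ orderOf g) (q := fun g => ¬ 2 ∣ orderOf g) fun g _ => ⟨fun h => h.2, fun h =>
        ⟨fun e => h e.symm.dvd, h⟩⟩, h6, irr_one_eq]
    simp
  have h8 : 0 < (Finset.univ.filter fun g : G => orderOf g = 2).card * charDegree χ.1 :=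
    Nat.mul_pos (Finset.card_pos.2 ⟨t, by simpa using ht⟩) (Nat.pos_of_ne_zero (charDegree_ne_zero χ.2))
  have h9 : H3.fs χ.1 = 1 := by
    rcases H3.fs_cases χ.2 with h | h | h
    · rw [H3.fs, h7, mul_eq_zero, inv_eq_zero, Nat.cast_eq_zero, Nat.cast_eq_zero] at h
      have := Nat.card_pos (α := G); omega
    · exact h
    · rw [H3.fs, h7, inv_mul_eq_iff_eq_mul₀ (H3.card_ne_zero' G), mul_neg_one, eq_neg_iff_add_eq_zero] at h
      norm_cast at h; omega
  have h10 := h9
  rw [H3.fs, h7, inv_mul_eq_iff_eq_mul₀ (H3.card_ne_zero' G), mul_one, Nat.cast_inj] at h10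
  have h11 : ∀ s : G, orderOf s = 2 → (Finset.univ.filter (IsConj s ·)) = (Finset.univ.filter fun g : G => orderOf g = 2) ∧
      Nat.card (C1 s) = charDegree χ.1 := fun s hs => by
    have k1 := H3.card_class_mul_card_centralizer s
    rw [Nat.card_eq_fintype_card, Fintype.card_subtype, ← h10] at k1
    have k2 : Finset.univ.filter (IsConj s ·) ⊆ Finset.univ.filter fun g : G => orderOf g = 2 := fun g hg => by
      simpa [← orderOf_isConj (Finset.mem_filter.1 hg).2] using hs
    have k3 := Finset.card_le_card k2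
    have k4 := h3 s hs
    have k5 := Finset.eq_of_subset_of_card_le k2 (Nat.le_of_mul_le_mul_right (k1.ge.trans (Nat.mul_le_mul_left _ k4))
      (Nat.pos_of_ne_zero (charDegree_ne_zero χ.2)))
    rw [k5] at k1
    exact ⟨k5, Nat.eq_of_mul_eq_mul_left (Nat.pos_of_mul_pos_right h8 |> fun _ => Finset.card_pos.2 ⟨t, by simpa using ht⟩) k1⟩
  refine ⟨fun s t hs ht => (Finset.mem_filter.1 ((h11 s hs).1.ge (by simpa using ht))).2, fun s hs => ⟨(h11 s hs).2,
    Nat.coprime_of_dvd fun p hp' k1 k2 => ?_⟩, h9⟩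
  have k3 := h0 s hs p hp' k1
  rw [nu, ← (h11 s hs).2, ← (C1 s).card_mul_index, Nat.factorization_mul Nat.card_pos.ne' Subgroup.index_ne_zero_of_finite,
    Finsupp.add_apply] at k3
  exact (hp'.factorization_pos_of_dvd Subgroup.index_ne_zero_of_finite k2).ne' (Nat.left_eq_add.1 k3)

end Cfsg.Agent.S4478
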