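import Cfsg.Statements.S4479
import Cfsg.Agent.H4.Klein

set_option autoImplicit false
open Cfsg

namespace Cfsg.Agent.S4479

open H4 H1 MonoidAlgebra
open scoped Pointwise


/-- An order formula from the principal 2-block. Let G be a finite group of order 4·g₀ with g₀ odd having no normal 2-complement (no normal subgroup of order g₀); let P be a Sylow 2-subgroup, J an involution of P, and fix a maximal ideal M of the algebraic integers containing 2. Suppose the principal 2-block consists of the principal character and three further distinct characters χ₁, χ₂, χ₃ of degrees x₁, x₂, x₃, with χ_i(J) = ε_i = ±1. Then, writing c(J) and c(P) for the orders of the centralizers of J and of P, the order of G equals 8·α·c(J)³/c(P)² with α = x₁x₂x₃ / ((x₁ + ε₁)(x₂ + ε₂)(x₃ + ε₃)). -/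
theorem result {G : Type*} [Group G] [Finite G] (M : Ideal Cfsg.AlgInt) (hM : Cfsg.IsPModular 2 M) (g₀ : ℕ) (hg₀ : Odd g₀) (hG : Nat.card G = 4 * g₀) (hnc : ¬ ∃ N : Subgroup G, N.Normal ∧ Nat.card N = g₀) (P : Sylow 2 G) (J : G) (hJ : J ∈ (P : Subgroup G)) (hJ2 : orderOf J = 2) (χ₁ χ₂ χ₃ : Cfsg.IrrCharacter G) (ε₁ ε₂ ε₃ : ℤ) (hB : Cfsg.principalBlock M G = {χ : Cfsg.IrrCharacter G | (χ : G → ℂ) = (fun _ => 1) ∨ χ = χ₁ ∨ χ = χ₂ ∨ χ = χ₃}) (hdist : (χ₁ : G → ℂ) ≠ (fun _ => 1) ∧ (χ₂ : G → ℂ) ≠ (fun _ => 1) ∧ (χ₃ : G → ℂ) ≠ (fun _ => 1) ∧ χ₁ ≠ χ₂ ∧ χ₁ ≠ χ₃ ∧ χ₂ ≠ χ₃) (hε : (ε₁ = 1 ∨ ε₁ = -1) ∧ (ε₂ = 1 ∨ ε₂ = -1) ∧ (ε₃ = 1 ∨ ε₃ = -1)) (hval : (χ₁ : G → ℂ) J = ε₁ ∧ (χ₂ : G → ℂ) J = ε₂ ∧ (χ₃ : G → ℂ) J = ε₃) : (Nat.card G : ℚ) = 8 * (((Cfsg.charDegree (χ₁ : G → ℂ) : ℚ) * Cfsg.charDegree (χ₂ : G → ℂ) * Cfsg.charDegree (χ₃ : G → ℂ)) / ((Cfsg.charDegree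 (χ₁ : G → ℂ) + ε₁) * (Cfsg.charDegree (χ₂ : G → ℂ) + ε₂) * (Cfsg.charDegree (χ₃ : G → ℂ) + ε₃))) * (Nat.card (Subgroup.centralizer ({J} : Set G)) : ℚ) ^ 3 / (Nat.card (Subgroup.centralizer ((P : Subgroup G) : Set G)) : ℚ) ^ 2 := by
  obtain ⟨⟨h1, -⟩, h2⟩ := k4_four hM hg₀ hG hnc P hJ2 hB hdist hval
  have k1 : (charDegree χ₁.1 : ℚ) ≠ 0 := by exact_mod_cast charDegree_ne_zero χ₁.2
  have k2 : (charDegree χ₂.1 : ℚ) ≠ 0 := by exact_mod_cast charDegree_ne_zero χ₂.2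
  have k3 : (charDegree χ₃.1 : ℚ) ≠ 0 := by exact_mod_cast charDegree_ne_zero χ₃.2
  have k4 : (Nat.card (CS (P : Subgroup G)) : ℚ) ≠ 0 := by exact_mod_cast Nat.card_pos.ne'
  have k5 : (Nat.card (C1 J) : ℚ) ≠ 0 := by exact_mod_cast Nat.card_pos.ne'
  replace h1 : (1 : ℚ) + (charDegree χ₁.1 * ε₁ + (charDegree χ₂.1 * ε₂ + charDegree χ₃.1 * ε₃)) = 0 := by exact_mod_cast h1
  have h3 : (1 : ℚ) + (ε₁ / charDegree χ₁.1 + (ε₂ / charDegree χ₂.1 + ε₃ / charDegree χ₃.1)) =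
      ((charDegree χ₁.1 + ε₁) * (charDegree χ₂.1 + ε₂) * (charDegree χ₃.1 + ε₃)) /
        (charDegree χ₁.1 * charDegree χ₂.1 * charDegree χ₃.1) := by
    field_simp
    obtain ⟨rfl | rfl, rfl | rfl, rfl | rfl⟩ := hε <;> push_cast at h1 ⊢ <;> first | linear_combination h1 | linear_combination -h1
  rw [h3] at h2
  have h4 : ((charDegree χ₁.1 + ε₁) * (charDegree χ₂.1 + ε₂) * (charDegree χ₃.1 + ε₃) : ℚ) ≠ 0 := fun e => by
    simp [e, k5] at h2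
  rw [mul_right_comm, ← h2]
  generalize (charDegree χ₁.1 + ε₁ : ℚ) * (charDegree χ₂.1 + ε₂) * (charDegree χ₃.1 + ε₃) = u at h4
  field_simp

end Cfsg.Agent.S4479
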