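import Cfsg.Statements.S4480
import Cfsg.Agent.H4.Klein

set_option autoImplicit false
open Cfsg

namespace Cfsg.Agent.S4480

open H4 H1 MonoidAlgebra
open scoped Pointwise ComplexConjugate


/-- Same setting as the Klein-four order formula: G of order 4·g₀ (g₀ odd) with no normal 2-complement, P a Sylow 2-subgroup, J an involution of P, M over 2, principal 2-block {1, χ₁, χ₂, χ₃} with χ_i(J) = ε_i = ±1. Suppose ε₁ε₂ε₃ = −1 and ε₃ = −1, and put q = x₃ = χ₃(1). Then there is a natural number m with 4·c(J) = m·c(P)·(q + 1), and the order of G equals (m³·c(P)/4)·(q³ − q)/2, that is 8·#G = m³·c(P)·(q³ − q). -/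
theorem result {G : Type*} [Group G] [Finite G] (M : Ideal Cfsg.AlgInt) (hM : Cfsg.IsPModular 2 M) (g₀ : ℕ) (hg₀ : Odd g₀) (hG : Nat.card G = 4 * g₀) (hnc : ¬ ∃ N : Subgroup G, N.Normal ∧ Nat.card N = g₀) (P : Sylow 2 G) (J : G) (hJ : J ∈ (P : Subgroup G)) (hJ2 : orderOf J = 2) (χ₁ χ₂ χ₃ : Cfsg.IrrCharacter G) (ε₁ ε₂ ε₃ : ℤ) (hB : Cfsg.principalBlock M G = {χ : Cfsg.IrrCharacter G | (χ : G → ℂ) = (fun _ => 1) ∨ χ = χ₁ ∨ χ = χ₂ ∨ χ = χ₃}) (hdist : (χ₁ : G → ℂ) ≠ (fun _ => 1) ∧ (χ₂ : G → ℂ) ≠ (fun _ => 1) ∧ (χ₃ : G → ℂ) ≠ (fun _ => 1) ∧ χ₁ ≠ χ₂ ∧ χ₁ ≠ χ₃ ∧ χ₂ ≠ χ₃) (hε : (ε₁ = 1 ∨ ε₁ = -1) ∧ (ε₂ = 1 ∨ ε₂ = -1) ∧ (ε₃ = 1 ∨ ε₃ = -1)) (hval : (χ₁ : G → ℂ) J = ε₁ ∧ (χ₂ : G → ℂ) J = ε₂ ∧ (χ₃ : G → ℂ) J = ε₃) (hprod : ε₁ * ε₂ * ε₃ = -1) (hε₃ : ε₃ = -1) : ∃ m : ℕ, 4 * Nat.card (Subgroup.centralizer ({J} : Set G)) = m * Nat.card (Subgroup.centralizer ((P : Subgroup G) : Set G)) *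 (Cfsg.charDegree (χ₃ : G → ℂ) + 1) ∧ 8 * Nat.card G = m ^ 3 * Nat.card (Subgroup.centralizer ((P : Subgroup G) : Set G)) * (Cfsg.charDegree (χ₃ : G → ℂ) ^ 3 - Cfsg.charDegree (χ₃ : G → ℂ)) := by
  have := Fintype.ofFinite G
  obtain ⟨⟨h1, h3, h3a, -⟩, h2⟩ := k4_four hM hg₀ hG hnc P hJ2 hB hdist hval
  obtain ⟨hP, hone⟩ := k4_of_card hM hg₀ hG hnc P
  have k1 := charDegree_ne_zero χ₁.2
  have k2 := charDegree_ne_zero χ₂.2
  subst hε₃
  obtain ⟨rfl, rfl⟩ : ε₁ = 1 ∧ ε₂ = 1 := by obtain ⟨rfl | rfl, rfl | rfl, -⟩ := hε <;> omega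
  have kc : ∀ χ ∈ principalBlock M G, (⟨_, H3.irr_conj χ.2⟩ : IrrCharacter G) ∈ principalBlock M G := fun χ hχ => by
    have := sameBlock_conj H3.char_one (H3.irr_char χ.2) hχ
    simp only [map_one] at this
    exact this
  have kd : ∀ χ ψ : IrrCharacter G, (⟨_, H3.irr_conj χ.2⟩ : IrrCharacter G) = ψ →
      charDegree χ.1 = charDegree ψ.1 ∧ conj (χ.1 J) = ψ.1 J := by
    rintro χ _ rfl
    exact ⟨(charDegree_of_eq (by simp [irr_one_eq])).symm, rfl⟩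
  have kr : ∀ χ : IrrCharacter G, Odd (charDegree χ.1) → (⟨_, H3.irr_conj χ.2⟩ : IrrCharacter G) = χ → H3.fs χ.1 = 1 :=
    fun χ h e => (H3.fs_real χ.2 fun g => Complex.conj_eq_iff_im.1 (congrFun (congrArg Subtype.val e) g)).resolve_right
      fun h' => Nat.not_even_iff_odd.2 h (even_of_fs χ.2 h')
  have k0 : ∀ χ : IrrCharacter G, (⟨_, H3.irr_conj χ.2⟩ : IrrCharacter G).1 = (fun _ => 1) → χ.1 = fun _ => 1 :=
    fun χ e => funext fun g => by simpa using congrArg conj (congrFun e g)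
  have h4 : charDegree χ₁.1 = charDegree χ₂.1 := by
    by_contra h4
    have h5 := k4_fs hM hP hone hJ2
    rw [sum_four hB hdist, kr χ₁ (Nat.odd_iff.2 (by omega)), kr χ₂ (Nat.odd_iff.2 (by omega)), hval.1, hval.2.1, hval.2.2,
      show (triv G).1 = fun _ => 1 from rfl, H3.fs_one] at h5
    · rcases H3.fs_cases χ₃.2 with e | e | e <;> norm_num [e] at h5
    · rcases hB.le (kc χ₂ (by simp [hB])) with e | e | e | e
      exacts [(hdist.2.1 (k0 _ e)).elim, (h4 (kd _ _ e).1.symm).elim, e, absurd (kd _ _ e).2 (by norm_num [hval])]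
    · rcases hB.le (kc χ₁ (by simp [hB])) with e | e | e | e
      exacts [(hdist.1 (k0 _ e)).elim, e, (h4 (kd _ _ e).1).elim, absurd (kd _ _ e).2 (by norm_num [hval])]
  have h5 : charDegree χ₃.1 = 2 * charDegree χ₁.1 + 1 := by omega
  have kv : ∀ χ : IrrCharacter G, χ.1 J = 1 ∨ χ.1 J = -1 → charDegree χ.1 ∣ (C1 J).index := fun χ h => by
    have h6 := isIntegral_centralChar χ.2 J
    have h7 : IsIntegral ℤ (((C1 J).index / charDegree χ.1 : ℚ) : ℂ) := by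
      rw [centralChar, irr_one_eq] at h6
      rcases h with e | e <;> rw [e] at h6
      · simpa using h6
      · simpa [neg_div] using h6.neg
    obtain ⟨n, hn⟩ := H3.int_of_isIntegral_rat h7
    rw [eq_div_iff (by exact_mod_cast charDegree_ne_zero χ.2)] at hn
    exact Int.natCast_dvd_natCast.1 ⟨n, by rw [mul_comm]; exact_mod_cast hn.symm⟩
  obtain ⟨r, hr⟩ := Nat.Coprime.mul_dvd_of_dvd_of_dvd (by simp [h5]) (kv χ₁ (by simp [hval])) (kv χ₃ (by simp [hval]))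
  have h6 := (C1 J).card_mul_index
  rw [← h6, hr, ← h4, h5] at h2
  rw [← h6, hr, h5]
  have k5 : Nat.card (C1 J) ≠ 0 := Nat.card_pos.ne'
  generalize charDegree χ₁.1 = x at *
  generalize Nat.card (C1 J) = c at *
  have h7 : (4 * c) ^ 2 = (Nat.card (CS (P : Subgroup G)) * (2 * x + 1 + 1)) ^ 2 * r := by
    have : (x : ℚ) ≠ 0 := by exact_mod_cast k1
    have : (c : ℚ) ≠ 0 := by exact_mod_cast k5
    push_cast at h2
    field_simp at h2
    apply Nat.cast_injective (R := ℚ)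
    push_cast
    linear_combination -2 * h2
  obtain ⟨m, hm⟩ := (Nat.pow_dvd_pow_iff two_ne_zero).1 ⟨r, h7⟩
  rw [hm, mul_pow, Nat.mul_right_inj (pow_ne_zero _ (mul_ne_zero Nat.card_pos.ne' (by omega)))] at h7
  refine ⟨m, by rw [hm]; ring, ?_⟩
  rw [show (2 * x + 1) ^ 3 - (2 * x + 1) = (2 * x + 1) * (2 * x) * (2 * x + 1 + 1) from Nat.sub_eq_of_eq_add (by ring), ← h7]
  linear_combination (2 * x * (2 * x + 1) * m ^ 2) * hm

end Cfsg.Agent.S4480
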