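import Cfsg.Statements.S4482
import Cfsg.Agent.H4.Dih2

set_option autoImplicit false
open Cfsg

namespace Cfsg.Agent.S4482

open H4 H1 MonoidAlgebra
open scoped Pointwise


/-- An order formula for groups with dihedral Sylow 2-subgroups and one class of involutions. Let G be a finite group whose Sylow 2-subgroup P = ⟨σ, τ⟩ is dihedral of order 2^n ≥ 8 (σ of order 2^(n−1), τ an involution inverting σ), let J be the central involution σ^(2^(n−2)), and suppose J, τ and στ are conjugate in G. Fix M over 2 and let χ₁ be an irreducible character in the principal 2-block taking one constant value δ₁ = ±1 at every non-identity power of σ, with χ₁ ≠ 1. Then, with x₁ = χ₁(1) and c(·) denoting orders of centralizers, x₁ ≠ δ₁ and #G · (x₁ − δ₁)² = 2·x₁(x₁ + δ₁)·c(J)³·(1/c(J, τ) + 1/c(J, στ))², where c(J, y) is the order of the joint centralizer of J and y. -/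
theorem result {G : Type*} [Group G] [Finite G] (M : Ideal Cfsg.AlgInt) (hM : Cfsg.IsPModular 2 M) (n : ℕ) (hn : 3 ≤ n) (P : Sylow 2 G) (σ τ : G) (hσ : σ ∈ (P : Subgroup G)) (hτ : τ ∈ (P : Subgroup G)) (hσo : orderOf σ = 2 ^ (n - 1)) (hτo : orderOf τ = 2) (hrel : τ * σ * τ⁻¹ = σ⁻¹) (hgen : Subgroup.closure ({σ, τ} : Set G) = (P : Subgroup G)) (hconj : IsConj (σ ^ (2 ^ (n - 2))) τ ∧ IsConj (σ ^ (2 ^ (n - 2))) (σ * τ)) (χ₁ : Cfsg.IrrCharacter G) (hχ₁ : χ₁ ∈ Cfsg.principalBlock M G) (h1 : (χ₁ : G → ℂ) ≠ (fun _ => 1)) (δ₁ : ℤ) (hδ₁ : δ₁ = 1 ∨ δ₁ = -1) (hval : ∀ l : ℕ, 0 < l → l < 2 ^ (n - 1) → (χ₁ : G → ℂ) (σ ^ l) = δ₁) : (Cfsg.charDegree (χ₁ : G → ℂ) : ℤ) ≠ δ₁ ∧ (Nat.card G : ℚ) * ((Cfsg.charDegree (χ₁ : G → ℂ) : ℚ) - δ₁) ^ 2 = 2 * (Cfsg.charDegree (χ₁ : G → ℂ) : ℚ) * ((Cfsg.charDegree (χ₁ : G → ℂ) : ℚ) + δ₁) * (Nat.card (Subgroup.centralizer ({σ ^ (2 ^ (n - 2))} : Set G)) : ℚ) ^ 3 * (1 /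 (Nat.card (Subgroup.centralizer ({σ ^ (2 ^ (n - 2)), τ} : Set G)) : ℚ) + 1 / (Nat.card (Subgroup.centralizer ({σ ^ (2 ^ (n - 2)), σ * τ} : Set G)) : ℚ)) ^ 2 := by
  obtain ⟨m, rfl⟩ : ∃ m, n = m + 2 := ⟨n - 2, by omega⟩
  simp only [Nat.add_sub_cancel, show m + 2 - 1 = m + 1 from rfl] at *
  have h0 : τ ∉ Subgroup.zpowers σ := fun h => by
    have : σ ^ 2 = 1 := by
      rw [sq, mul_eq_one_iff_eq_inv, ← hrel, eq_mul_inv_iff_mul_eq]
      exact cyclic_le_CS inferInstance h σ (Subgroup.mem_zpowers σ)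
    have := Nat.le_of_dvd two_pos (hσo ▸ orderOf_dvd_of_pow_eq_one this)
    have := Nat.pow_le_pow_right two_pos (show 2 ≤ m + 1 by omega)
    omega
  have h2 : τ ^ 2 = 1 := hτo ▸ pow_orderOf_eq_one τ
  have h : DI (P : Subgroup G) m σ τ := ⟨⟨hσ, hτ, hσo, h0, by
    rw [← hgen, ← sup_zpowers_eq_closure]
    exact relIndex_sup_zpowers_two (H2.mem_normalizer_of_cj_le (by rw [H2.cj_zpowers, hrel]; simp)) (h2 ▸ one_mem _) h0,
    by omega, .inl ⟨h2, hrel⟩⟩, h2, hrel⟩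
  obtain ⟨e1, e2⟩ := di_order hM h (isSylowIn_top P) (fun s hs => by
    obtain ⟨g, hg⟩ := exists_conj_mem_sylow P (isPElt_two hs)
    refine IsConj.trans ?_ (isConj_iff.2 ⟨g, rfl⟩).symm
    rcases h.two_cases hg ((H4.orderOf_conj _ _).trans hs) with e | e | e
    exacts [e ▸ .refl _, hconj.1.trans e.symm, hconj.2.trans e.symm]) hχ₁ (fun e => h1 (e ▸ rfl)) hδ₁ hval
  have k : ∀ x y : G, C1 x ⊓ C1 y = Subgroup.centralizer {x, y} := fun x y => by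
    ext g; simp [Subgroup.mem_centralizer_iff]
  rw [k, k, irr_one_eq] at e2
  refine (and_iff_right_of_imp fun e3 e => ?_).2 (Rat.cast_injective (α := ℂ) (by push_cast; exact e2))
  rw [← e, Int.cast_natCast, sub_self, zero_pow two_ne_zero, mul_zero] at e3
  have := Nat.pos_of_ne_zero (charDegree_ne_zero χ₁.2)
  have := @Nat.card_pos (Subgroup.centralizer {σ ^ 2 ^ m}) _ _
  have := @Nat.card_pos (Subgroup.centralizer {σ ^ 2 ^ m, τ}) _ _
  have := @Nat.card_pos (Subgroup.centralizer {σ ^ 2 ^ m, σ * τ}) _ _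
  exact absurd e3 (ne_of_lt (by positivity))

end Cfsg.Agent.S4482
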