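import Cfsg.Statements.S4485
import Cfsg.Agent.H3.Unif

set_option autoImplicit false
open Cfsg

namespace Cfsg.Agent.S4485

open H3

/-- Let G be a finite group and p a prime dividing its order such that every non-identity element of a Sylow p-subgroup P has the same centralizer as P itself (so P is abelian); let p^n be the order of P. If G has a faithful character of degree x with x² < p^n − 1, then P is normal in G. -/
theorem result {G : Type*} [Group G] [Finite G] (p : ℕ) (hp : p.Prime) (hpG : p ∣ Nat.card G) (P : Sylow p G) (hstar : ∀ x ∈ (P : Subgroup G), x ≠ 1 → Subgroup.centralizer ({x} : Set G) = Subgroup.centralizer ((P : Subgroup G) : Set G)) (n : ℕ) (hn : Nat.card P = p ^ n) (χ : G → ℂ) (hχ : Cfsg.IsCharacter G χ) (hfaith : ∀ g : G, χ g = χ 1 → g = 1) (hdeg : Cfsg.charDegree χ ^ 2 + 1 < p ^ n) : (P : Subgroup G).Normal := by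
  have := Fact.mk hp
  have := Fintype.ofFinite G
  obtain ⟨V, U⟩ := exists_uc P hstar
  have hc : ∀ a ∈ Subgroup.normalClosure ((P : Subgroup G) : Set G),
      ∀ b ∈ Subgroup.normalClosure ((P : Subgroup G) : Set G), a * b = b * a := fun a ha b hb => by
    have := hfaith _ (ker_of_forall_constituent (char_class hχ) fun ψ hψ h => U.comm_ker hψ (by
      have := degree_le_of_constituent hχ hψ h (deg_eq hχ) (ideg_eq hψ)
      have : charDegree ψ ^ 2 ≤ charDegree χ ^ 2 := by gcongr
      omega) ha hb)
    rwa [mul_inv_eq_one, mul_inv_eq_iff_eq_mul] at this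
  refine ⟨fun x hx g => ?_⟩
  have hx' := Subgroup.normalClosure_normal.conj_mem _ (Subgroup.le_normalClosure hx) g
  refine (H1.isSylowIn_top P).le_of_le_normalizer (H1.isPGroup_conj_smul g P.isPGroup') le_top
    (H1.conj_smul_le_iff.2 fun y hy => Subgroup.centralizer_le_normalizer _ fun z hz => ?_)
    (H1.conj_mem_conj_smul hx)
  exact hc _ (Subgroup.le_normalClosure hz) _
    (Subgroup.normalClosure_normal.conj_mem _ (Subgroup.le_normalClosure hy) g)

end Cfsg.Agent.S4485
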