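import Cfsg.Statements.S4486
import Cfsg.Agent.H3.Unif

set_option autoImplicit false
open Cfsg

namespace Cfsg.Agent.S4486

open H3

/-- Let G be a finite group and p a prime dividing its order such that every non-identity element of a Sylow p-subgroup P has the same centralizer as P; let p^n be the order of P. If G has a non-principal irreducible character χ of degree x with x² < p^n − 1, then either G has a proper normal subgroup containing P, or G has a normal subgroup of index p^n and x = 1. -/
theorem result {G : Type*} [Group G] [Finite G] (p : ℕ) (hp : p.Prime) (hpG : p ∣ Nat.card G) (P : Sylow p G) (hstar : ∀ x ∈ (P : Subgroup G), x ≠ 1 → Subgroup.centralizer ({x} : Set G) = Subgroup.centralizer ((P : Subgroup G) : Set G)) (n : ℕ) (hn : Nat.card P = p ^ n) (χ : Cfsg.IrrCharacter G) (h1 : (χ : G → ℂ) ≠ fun _ => 1) (hdeg : Cfsg.charDegree (χ : G → ℂ) ^ 2 + 1 < p ^ n) : (∃ K : Subgroup G, K.Normal ∧ K ≠ ⊤ ∧ (P : Subgroup G) ≤ K) ∨ ((∃ N : Subgroup G, N.Normal ∧ N.index = p ^ n) ∧ Cfsg.charDegree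 (χ : G → ℂ) = 1) := by
  have := Fact.mk hp
  obtain ⟨V, U⟩ := exists_uc P hstar
  by_cases hK : Subgroup.normalClosure ((P : Subgroup G) : Set G) = ⊤
  swap
  · exact Or.inl ⟨_, inferInstance, hK, Subgroup.le_normalClosure⟩
  have hc := irr_char χ.2
  have hn1 := charKer_normal (irr_class χ.2)
  have hd : charDegree (χ : G → ℂ) = 1 := by
    refine (deg_eq_one_iff hc).2 ((degree_one_iff_commutator_le χ.2).2 ?_)
    refine Subgroup.commutator_le.2 fun a _ b _ => (mem_charKer hc _).2 ?_
    exact U.comm_ker χ.2 (hn ▸ hdeg) (hK ▸ Subgroup.mem_top a) (hK ▸ Subgroup.mem_top b)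
  obtain ⟨θ, -, -, -, -, e⟩ := U.small χ.2 (by
    by_contra! h
    exact charKer_ne_top χ.2 h1 (top_le_iff.1 (hK ▸ Subgroup.normalClosure_le_normal
      fun x hx => (mem_charKer hc x).2 (h x hx)))) (by omega)
  have e1 := Subgroup.relIndex_eq_one.1 (Nat.eq_one_of_mul_eq_one_right (e.symm.trans hd))
  exact Or.inr ⟨⟨_, inferInstance,
    (MonoidHom.ker_transferSylow_isComplement' P e1).symm.index_eq_card.trans hn⟩, hd⟩

end Cfsg.Agent.S4486
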