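import Cfsg.Statements.S4496
import Cfsg.Agent.H3.SelfC

set_option autoImplicit false
open Cfsg

namespace Cfsg.Agent.S4496

open H3

/-- Let the finite group G contain an element x of prime order p with C_G(x) = ⟨x⟩. Then: (a) every normal subgroup of order divisible by p contains the commutator subgroup; (b) every normal subgroup S of order prime to p has order dividing the number of subgroups of order p of G and congruent to 1 modulo p, and in G/S the image of x again has prime order p and commutes only with its own powers. -/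
theorem result {G : Type*} [Group G] [Finite G] (p : ℕ) (hp : p.Prime) (x : G) (hx : orderOf x = p) (hC : Subgroup.centralizer ({x} : Set G) = Subgroup.zpowers x) (S : Subgroup G) [S.Normal] : (p ∣ Nat.card S → commutator G ≤ S) ∧ (¬ p ∣ Nat.card S → Nat.card S ∣ Nat.card {H : Subgroup G // Nat.card H = p} ∧ Nat.card S % p = 1 ∧ orderOf (QuotientGroup.mk x : G ⧸ S) = p ∧ Subgroup.centralizer ({(QuotientGroup.mk x : G ⧸ S)} : Set (G ⧸ S)) = Subgroup.zpowers (QuotientGroup.mk x : G ⧸ S)) := by
  have := Fact.mk hp
  have h : SC p x := ⟨hx, hC⟩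
  refine ⟨h.commutator_le, fun hS => ?_⟩
  have o : orderOf (QuotientGroup.mk x : G ⧸ S) = p := by
    refine ((Nat.dvd_prime hp).1 (hx ▸ orderOf_map_dvd (QuotientGroup.mk' S) x)).resolve_left
      fun e => H1.ne_one_of_orderOf_prime hp hx ((Subgroup.eq_bot_iff_forall _).1 (h.inf_bot hS) x
        ⟨(QuotientGroup.eq_one_iff x).1 (orderOf_eq_one_iff.1 e), Subgroup.mem_zpowers x⟩)
  refine ⟨?_, ?_, o, ?_⟩
  · rw [h.card_sub]
    have e := H1.card_sup_of_disjoint Subgroup.le_normalizer_of_normal (h.inf_N hS)
    have e2 := Subgroup.card_subgroup_dvd_card (Subgroup.normalizer (Subgroup.zpowers x : Set G) ⊔ S)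
    rw [e, ← (Subgroup.normalizer (Subgroup.zpowers x : Set G)).card_mul_index] at e2
    exact Nat.dvd_of_mul_dvd_mul_left Nat.card_pos e2
  · have := (H1.fpf_of_prime_card (h.card.symm ▸ hp) (h.cenP.symm ▸ h.inf_bot hS)).card_modEq
      Subgroup.le_normalizer_of_normal
    rw [h.card] at this
    exact Eq.trans this (Nat.mod_eq_of_lt hp.one_lt)
  · refine (Subgroup.eq_of_le_of_card_ge (Subgroup.zpowers_le.2
      (Subgroup.mem_centralizer_singleton_iff.2 rfl)) ?_).symm
    rw [Nat.card_zpowers, o, ← h.card, ← hC]
    exact H1.card_centralizer_mk_le S x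

end Cfsg.Agent.S4496
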