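import Cfsg.Statements.S4497
import Cfsg.Agent.H3.SelfC

set_option autoImplicit false
open Cfsg

namespace Cfsg.Agent.S4497

open H3

/-- Let the finite group G contain an element x of prime order p with C_G(x) = ⟨x⟩, let t be the number of conjugacy classes of elements of order p, and let S* = O_{p′}(G) be the largest normal subgroup of order prime to p. Then S* ≤ G′; if t ≠ p − 1 the quotient G′/S* is simple (in particular non-trivial); if t = p − 1 then G′ = S*. -/
theorem result {G : Type*} [Group G] [Finite G] (p : ℕ) (hp : p.Prime) (x : G) (hx : orderOf x = p) (hC : Subgroup.centralizer ({x} : Set G) = Subgroup.zpowers x) (t : ℕ) (ht : Nat.card {C : ConjClasses G // ∃ g ∈ C.carrier, orderOf g = p} = t) : Cfsg.pPrimeCore p G ≤ commutator G ∧ (t ≠ p - 1 → ∀ h : ((Cfsg.pPrimeCore p G).subgroupOf (commutator G)).Normal, IsSimpleGroup (↥(commutator G) ⧸ (Cfsg.pPrimeCore p G).subgroupOf (commutator G))) ∧ (t = p - 1 → commutator G = Cfsg.pPrimeCore p G) := by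
  have := Fact.mk hp
  have h : SC p x := ⟨hx, hC⟩
  have h0 := h.le_commutator (H1.not_dvd_card_pPrimeCore (G := G) (p := p))
  refine ⟨h0, fun h1 _ => ?_, fun h1 => le_antisymm (H1.le_pPrimeCore
    ((Nat.Prime.coprime_iff_not_dvd hp).2 (h.index_comm ht h1).2.1).symm) h0⟩
  have hd := h.dvd_comm ht h1
  have : Nontrivial (↥(commutator G) ⧸ (pPrimeCore p G).subgroupOf (commutator G)) :=
    QuotientGroup.nontrivial_iff.2 fun e => H1.not_dvd_card_pPrimeCore
      (hd.trans (Subgroup.card_dvd_of_le (Subgroup.subgroupOf_eq_top.1 e)))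
  refine ⟨fun Q hQ => ?_⟩
  set M := Q.comap (QuotientGroup.mk' _)
  have hn : commutator G ≤ Subgroup.normalizer (M.map (commutator G).subtype : Set G) :=
    H1.normal_map_subtype_iff.1 inferInstance
  by_cases h2 : p ∣ Nat.card M
  · right
    obtain ⟨y, hy, h3⟩ := H1.exists_mem_ne_one (mt ((h.syl.of_le (h.le_normal hd) le_top).inf_normal
      (Subgroup.map_subtype_le M) ((h.le_normal hd).trans hn)).eq_bot_iff.1
        (by rwa [Subgroup.card_subtype, not_not]))
    have := h.comm_le hd hn (h.le_of_ne hy.1 h3 hy.2)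
    refine (Subgroup.eq_top_iff' _).2 fun q => ?_
    obtain ⟨g, rfl⟩ := QuotientGroup.mk'_surjective _ q
    obtain ⟨g', a, b⟩ := this g.2
    exact Subtype.ext b ▸ a
  · left
    have : M ≤ pPrimeCore p (commutator G) :=
      H1.le_pPrimeCore ((Nat.Prime.coprime_iff_not_dvd hp).2 h2).symm
    refine (Subgroup.eq_bot_iff_forall _).2 fun q hq => ?_
    obtain ⟨g, rfl⟩ := QuotientGroup.mk'_surjective _ q
    exact (QuotientGroup.eq_one_iff g).2 (H1.map_subtype_pPrimeCore_le _ ⟨g, this hq, rfl⟩)

end Cfsg.Agent.S4497
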