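import Cfsg.Statements.S4731
import Cfsg.Agent.H4.Maj2

set_option autoImplicit false
open Cfsg

namespace Cfsg.Agent.S4731

open H4 H1 MonoidAlgebra
open scoped Pointwise


/-- Let p ≠ q be primes, M_p and M_q maximal ideals of the algebraic integers containing p and q respectively, and G a finite group with no element of order pq; let q^b be the q-part of the order of G. For a p-block B_p (relative to M_p), a q-block B_q (relative to M_q) and a p-singular element y, the sum of χ(1)χ(y) over the irreducible characters χ lying in both B_p and B_q is q^b times an algebraic integer. -/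
theorem result {G : Type*} [Group G] [Finite G] (p q : ℕ) [Fact p.Prime] [Fact q.Prime] (hpq : p ≠ q) (Mp Mq : Ideal Cfsg.AlgInt) (hMp : Cfsg.IsPModular p Mp) (hMq : Cfsg.IsPModular q Mq) (hno : ∀ g : G, orderOf g ≠ p * q) (b : ℕ) (hb : (Nat.card G).factorization q = b) (Bp : Set (Cfsg.IrrCharacter G)) (hBp : Cfsg.IsPBlock Mp Bp) (Bq : Set (Cfsg.IrrCharacter G)) (hBq : Cfsg.IsPBlock Mq Bq) (y : G) (hy : p ∣ orderOf y) : ∃ ω : Cfsg.AlgInt, ∑ᶠ χ ∈ Bp ∩ Bq, (Cfsg.charDegree (χ : G → ℂ) : ℂ) * (χ : G → ℂ) y = (q : ℂ) ^ b * (ω : ℂ) := by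
  classical
  have := Fintype.ofFinite G
  have hp : p.Prime := Fact.out
  have hq : q.Prime := Fact.out
  obtain ⟨Q⟩ : Nonempty (Sylow q G) := inferInstance
  have := Fintype.ofFinite (Q : Subgroup G)
  have h1 : ∀ g, blockPart Bq (fun g => KB Bp g y⁻¹) g = ∑ χ ∈ fs (Bp ∩ Bq), χ.1 y * χ.1 g := fun g => by
    rw [blockPart_apply]
    refine (Finset.sum_subset (fun χ h => by simp_all) fun χ h h' => ?_).symm.trans (Finset.sum_congr rfl fun χ h => ?_)
    · rw [inner_eq_zero_of_blockPart (blockPart_KB _ _) (by simp_all), zero_mul]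
    · rw [inner_KB _ (mem_fs.1 h).1, irr_inv, Complex.conj_conj]
  have h2 : ∀ u : (Q : Subgroup G), u ≠ 1 → ∑ χ ∈ fs (Bp ∩ Bq), χ.1 y * χ.1 u = 0 := fun u hu => by
    rw [← h1]
    refine blockPart_eq_zero_of_section hMq hBq fun g hg => KB_eq_zero_weak hMp hBp (fun h => ?_) (by simpa using hy)
    have h3 := isPElt_of_mem hq Q.isPGroup' u.2
    have h4 : q ∣ orderOf g := by
      by_contra h4
      rw [pp_of_isPElt hq h3, pp_of_not_dvd hq h4, isConj_one_left] at hg
      exact hu (Subtype.ext hg)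
    obtain ⟨k, hk⟩ := exists_orderOf_eq (((Nat.coprime_primes hp hq).2 hpq).mul_dvd_of_dvd_of_dvd h h4)
    exact hno _ hk
  have h3 : IsIntegral ℤ (∑ χ ∈ fs (Bp ∩ Bq), χ.1 y * ((∑ u : (Q : Subgroup G), χ.1 (1 * u)) / Nat.card (Q : Subgroup G))) :=
    IsIntegral.sum _ fun χ _ => (isIntegral_char (H3.irr_char χ.2) _).mul
      (avg_isIntegral (H3.irr_char χ.2) (Q : Subgroup G) (one_mem _))
  refine ⟨⟨_, h3⟩, ?_⟩
  have h4 : (Nat.card (Q : Subgroup G) : ℂ) = q ^ b := by rw [Q.card_eq_multiplicity, hb]; simp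
  simp only [finsum_mem_eq_fs, one_mul, h4, ← mul_div_assoc (_ : ℂ) (∑ _ : (Q : Subgroup G), _), ← Finset.sum_div]
  rw [mul_div_cancel₀ _ (by exact_mod_cast (pow_pos hq.pos b).ne')]
  simp only [Finset.mul_sum]
  rw [Finset.sum_comm, Finset.sum_eq_single 1 (fun u _ hu => h2 u hu) (by simp)]
  simp [← irr_one_eq, mul_comm]

end Cfsg.Agent.S4731
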