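import Cfsg.Statements.S4498
import Cfsg.Agent.H4.Maj2
import Cfsg.Agent.S4731

set_option autoImplicit false
open Cfsg

namespace Cfsg.Agent.S4498

open H4 H1 MonoidAlgebra
open scoped Pointwise


/-- Let p and q be distinct primes dividing the order of the finite group G, and suppose G has no element of order p·q. Fix maximal ideals M_p over p and M_q over q of the algebraic integers. Then the principal p-block and the principal q-block of G have a non-principal irreducible character in common. -/
theorem result {G : Type*} [Group G] [Finite G] (p q : ℕ) [Fact p.Prime] [Fact q.Prime] (hpq : p ≠ q) (hp : p ∣ Nat.card G) (hq : q ∣ Nat.card G) (hno : ∀ g : G, orderOf g ≠ p * q) (Mp Mq : Ideal Cfsg.AlgInt) (hMp : Cfsg.IsPModular p Mp) (hMq : Cfsg.IsPModular q Mq) : ∃ χ : Cfsg.IrrCharacter G, (χ : G → ℂ) ≠ (fun _ => 1) ∧ χ ∈ Cfsg.principalBlock Mp G ∧ χ ∈ Cfsg.principalBlock Mq G := by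
  by_contra h
  push Not at h
  have hq' : q.Prime := Fact.out
  obtain ⟨y, hy⟩ := exists_prime_orderOf_dvd_card' p hp
  obtain ⟨ω, hω⟩ := S4731.result p q hpq Mp Mq hMp hMq hno _ rfl _ isPBlock_principal _ isPBlock_principal y (hy ▸ dvd_rfl)
  have e : principalBlock Mp G ∩ principalBlock Mq G = {triv G} := Set.eq_singleton_iff_unique_mem.2
    ⟨⟨triv_mem_principal hMp, triv_mem_principal hMq⟩, fun χ hχ => by
      by_contra h1
      exact h χ (fun e => h1 (Subtype.ext e)) hχ.1 hχ.2⟩
  rw [e, finsum_mem_singleton, ← irr_one_eq] at hω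
  have h1 := (hq'.dvd_iff_one_le_factorization Nat.card_pos.ne').1 hq
  have h2 := congrArg (red Mq) hω
  rw [red_mul (pow_mem (natCast_mem _ _) _) (algInt_mem_O _), red_pow (natCast_mem _ _), red_natCast, p_eq_zero hMq,
    zero_pow (by omega)] at h2
  simp at h2

end Cfsg.Agent.S4498
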