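import Cfsg.Statements.S4500
import Cfsg.Agent.H3.BT

set_option autoImplicit false
open Cfsg

namespace Cfsg.Agent.S4500

open H3 H4

/-- Let G be a non-trivial finite group of order p^a · q^b · r^c with p, q, r distinct primes and a ≤ 2. Then G has a non-principal irreducible character whose degree is a power of q, and a non-principal irreducible character whose degree is a power of r; the power may be the zeroth, so a non-principal linear character serves for both. -/
theorem result {G : Type*} [Group G] [Finite G] [Nontrivial G] (p q r a b c : ℕ) (hp : p.Prime) (hq : q.Prime) (hr : r.Prime) (hpq : p ≠ q) (hpr : p ≠ r) (hqr : q ≠ r) (ha : a ≤ 2) (hG : Nat.card G = p ^ a * q ^ b * r ^ c) : (∃ χ : Cfsg.IrrCharacter G, (χ : G → ℂ) ≠ (fun _ => 1) ∧ ∃ k : ℕ, Cfsg.charDegree (χ : G → ℂ) = q ^ k) ∧ ∃ χ : Cfsg.IrrCharacter G, (χ : G → ℂ) ≠ (fun _ => 1) ∧ ∃ k : ℕ, Cfsg.charDegree (χ : G → ℂ) = r ^ k := by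
  by_cases h : p ∣ Nat.card G
  · have := Fact.mk hp
    obtain ⟨M, hM⟩ := exists_isPModular hp
    obtain ⟨g, hg⟩ := exists_prime_orderOf_dvd_card' p h
    have k : ∀ {q r b c : ℕ}, q.Prime → r.Prime → p ≠ q → p ≠ r → Nat.card G = p ^ a * q ^ b * r ^ c →
        ∃ χ : Cfsg.IrrCharacter G, (χ : G → ℂ) ≠ (fun _ => 1) ∧ ∃ k : ℕ, Cfsg.charDegree (χ : G → ℂ) = q ^ k := fun {q r b c} hq hr h1 h2 hG => by
      obtain ⟨χ, c1, c2, c3, -⟩ := exists_principal_not_dvd hM hg.symm.dvd hr
      have d : blockDefect p (principalBlock M G) = a := by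
        rw [blockDefect_principal hM, hG, Nat.factorization_mul (mul_pos (pow_pos hp.pos a) (pow_pos hq.pos b)).ne' (pow_pos hr.pos c).ne',
          Nat.factorization_mul (pow_pos hp.pos a).ne' (pow_pos hq.pos b).ne']
        simp [hp.factorization_pow, hq.factorization_pow, hr.factorization_pow, Finsupp.single_apply, h1.symm, h2.symm]
      have e : ¬ p ∣ charDegree χ.1 := fun e => by
        have f := (hp.dvd_iff_one_le_factorization (deg_pos χ.2).ne').1 e
        have i := blockHeight_eq (p := p) (principalBlock M G) χ.1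
        rw [mB_principal hM, tsub_zero] at i
        have := height_add_two_le hM isPBlock_principal c1 (by rw [i]; exact Nat.one_le_iff_ne_zero.1 f)
        rw [i, d] at this
        exact absurd (le_trans (Nat.add_le_add_right f 2) (this.trans ha)) (by omega)
      obtain ⟨k, -, i⟩ := (Nat.dvd_prime_pow hq).1 (((hp.coprime_iff_not_dvd.2 e).symm.pow_right a).dvd_of_dvd_mul_left
        (((hr.coprime_iff_not_dvd.2 c3).symm.pow_right c).dvd_of_dvd_mul_right (hG ▸ deg_dvd χ.2)))
      exact ⟨χ, fun e => c2 (Subtype.ext e), k, i⟩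
    exact ⟨k hq hr hpq hpr hG, k hr hq hpr hpq (hG.trans (mul_right_comm _ _ _))⟩
  · have : Group.IsSolvable G := burnside_paqb (a := b) (b := c) hq hr
      (((hp.coprime_iff_not_dvd.2 h).symm.pow_right a).dvd_of_dvd_mul_left (by rw [hG, mul_assoc]))
    obtain ⟨g, -, hg⟩ := SetLike.exists_of_lt (Group.IsSolvable.commutator_lt_top_of_nontrivial G)
    obtain ⟨f, hf⟩ := exists_hom_ne_one hg
    have k : ∀ q, ∃ χ : Cfsg.IrrCharacter G, (χ : G → ℂ) ≠ (fun _ => 1) ∧ ∃ k : ℕ, Cfsg.charDegree (χ : G → ℂ) = q ^ k := fun q =>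
      ⟨⟨_, isIrr_hom f⟩, fun e => hf (Units.ext (congrFun e g)), 0, deg_of_eq (by simp)⟩
    exact ⟨k q, k r⟩

end Cfsg.Agent.S4500
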