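import Cfsg.Statements.S4635
import Cfsg.Agent.H4.Cyc2

set_option autoImplicit false
open Cfsg

namespace Cfsg.Agent.S4635

open H4 H1 MonoidAlgebra
open scoped Pointwise


/-- Let B be a block of the finite group G relative to a maximal ideal M of the algebraic integers containing the prime p, with a nontrivial cyclic defect group P; let Z be the subgroup of order p of P and H = N_G(Z), which contains N_G(P). Let c be the block of H with defect group P that induces B. Then B and c contain the same number of irreducible characters, have the same p-regular rank, and there is a perfect isometry from c onto B. -/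
theorem result {G : Type*} [Group G] [Finite G] (p : ℕ) [Fact p.Prime] (M : Ideal Cfsg.AlgInt) (hM : Cfsg.IsPModular p M) (B : Set (Cfsg.IrrCharacter G)) (hB : Cfsg.IsPBlock M B) (P : Subgroup G) (hPD : Cfsg.IsDefectGroup p M B P) (hP1 : P ≠ ⊥) (hcyc : IsCyclic P) (Z : Subgroup G) (hZ : Z ≤ P) (hZcard : Nat.card Z = p) (H : Subgroup G) (hH : H = Subgroup.normalizer (Z : Set G)) (c : Set (Cfsg.IrrCharacter H)) (hcD : Cfsg.IsDefectGroup p M c (P.subgroupOf H)) (hc : Cfsg.IsInducedBlock M H c B) : Nat.card c = Nat.card B ∧ Cfsg.blockRank p c = Cfsg.blockRank p B ∧ ∃ (I : Cfsg.IrrCharacter H → Cfsg.IrrCharacter G) (ε : Cfsg.IrrCharacter H → ℤ), Cfsg.IsPerfectIsometry p M c B I ε := by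
  have := Fintype.ofFinite G
  have := Fintype.ofFinite P
  have := Fintype.ofFinite H
  have := Fintype.ofFinite (P.subgroupOf H)
  obtain ⟨z, -, rfl⟩ := H3.exists_gen_prime hZcard
  have h0 : NS P ≤ H := hH ▸ cyclic_NS_zpowers hcyc (hZ (Subgroup.mem_zpowers z))
  have hle := P.le_normalizer.trans h0
  obtain ⟨e, hm⟩ := exists_maxP hM hc.1 hcD
  obtain ⟨h1, h2⟩ := hm.up hM hc hPD h0
  have h3 := fb_cyc hM hB h1 hcyc
  have h4 := FB.sub h0 hm hc.1 h3 h2
  have φ := (Subgroup.subgroupOfEquivOfLe hle).symm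
  have c1 : IsCyclic (P.subgroupOf H) := isCyclic_of_surjective φ φ.surjective
  have := (Subgroup.nontrivial_iff_ne_bot P).2 hP1
  have := φ.injective.nontrivial
  have c2 : P.subgroupOf H ≠ ⊥ := (Subgroup.nontrivial_iff_ne_bot _).1 this
  obtain ⟨Θ, x, h5⟩ := cyc_fs h3 hcyc hP1
  obtain ⟨Θ', x', h6⟩ := cyc_fs h4 c1 c2
  have h7 := h5.transport (Subgroup.subgroupOfEquivOfLe hle)
  have h8 := ga_sub hle (Stab_le (NS (P.subgroupOf H)) e) (h2 ▸ Stab_le _ _)
  rw [h2] at h8
  have h9 : Nat.card (ga (P.subgroupOf H) (Stab (NS (P.subgroupOf H)) e)) = Nat.card (ga P (Stab (NS P) (incA H e))) := by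
    rw [← h8, Subgroup.comap_equiv_eq_map_symm', Subgroup.card_map_of_injective (MulEquiv.injective _)]
  have h10 := h6.toFr.card_OS
  rw [h9, card_subgroupOf hle, ← h5.toFr.card_OS] at h10
  have h11 := cyc_card_ge h3 hcyc hP1
  rw [← Nat.eq_of_mul_eq_mul_left Nat.card_pos (Nat.add_right_cancel h10), ← h9] at h11
  obtain ⟨I, ε, h, -⟩ := (h8 ▸ h7).perfect_dade hM h6 h11 (cyc_card_ge h4 c1 c2)
  exact ⟨Nat.card_congr (h.1.equiv _), by
    rw [cyc_rank h3 hcyc hP1, cyc_rank h4 c1 c2, ← card_ga (Stab_le _ _), ← card_ga (Stab_le _ _), h9], I, ε, h⟩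

end Cfsg.Agent.S4635
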