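import Cfsg.Statements.S4502
import Cfsg.Agent.S4635

set_option autoImplicit false
open Cfsg

namespace Cfsg.Agent.S4502

open H4 Subgroup
open scoped Pointwise

/-- Let G be a finite group whose order is divisible by the prime p exactly once, and let P be a Sylow p-subgroup. Then the number of irreducible characters of G of degree not divisible by p equals the number of conjugacy classes of the normalizer of P. -/
theorem result {G : Type*} [Group G] [Finite G] (p : ℕ) [Fact p.Prime] (hdiv : p ∣ Nat.card G) (hsq : ¬ p ^ 2 ∣ Nat.card G) (P : Sylow p G) : Nat.card {χ : Cfsg.IrrCharacter G // ¬ p ∣ Cfsg.charDegree (χ : G → ℂ)} = Nat.card (ConjClasses (Subgroup.normalizer ((P : Subgroup G) : Set G))) := by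
  classical
  have hp : p.Prime := Fact.out
  obtain ⟨M, hM⟩ := exists_isPModular hp
  have hf : (Nat.card G).factorization p = 1 := le_antisymm (by
      by_contra h
      exact hsq ((hp.pow_dvd_iff_le_factorization Nat.card_pos.ne').2 (by omega)))
      ((hp.dvd_iff_one_le_factorization Nat.card_pos.ne').1 hdiv)
  have hP : ∀ Q : Sylow p G, Nat.card (Q : Subgroup G) = p := fun Q => by rw [Q.card_eq_multiplicity, hf, pow_one]
  have h0 : (P : Subgroup G) ≠ ⊥ := fun h => hp.one_lt.ne' (by rw [← hP P, h, card_bot])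
  have h1 : ∀ B : Set (IrrCharacter G), IsPBlock M B → ∀ χ ∈ B,
      (¬ p ∣ charDegree χ.1 ↔ IsDefectGroup p M B (P : Subgroup G)) := fun B hB χ hχ => by
    have h2 := blockDefect_blockOf_eq_zero_iff hM (χ := χ)
    rw [← eq_blockOf hM hB hχ, hf] at h2
    have h3 := nu_le (p := p) χ.2
    rw [hf] at h3
    rw [hp.dvd_iff_one_le_factorization (charDegree_ne_zero χ.2)]
    refine ⟨fun h => ?_, fun h h' => ?_⟩
    · obtain ⟨D, hD⟩ := exists_dg hM hB
      obtain ⟨Q, hQ⟩ := (dg_isPGroup hD).exists_le_sylow
      obtain rfl : D = Q := eq_of_le_of_card_ge hQ (by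
        rw [hP, dg_card hM hB hD]; exact Nat.le_self_pow (fun e => h (h2.1 e).ge) p)
      obtain ⟨x, rfl⟩ := MulAction.exists_smul_eq G Q P
      exact dg_conj hM hB hD x
    · have := dg_card hM hB h
      rw [h2.2 (le_antisymm h3 h'), hP, pow_zero] at this
      exact hp.one_lt.ne' this
  set N := normalizer ((P : Subgroup G) : Set G)
  have h2 : ∀ b : Set (IrrCharacter N), IsPBlock M b → IsDefectGroup p M b ((P : Subgroup G).subgroupOf N) :=
    fun b hb => by
      obtain ⟨D, hD⟩ := exists_dg hM hb
      have : ((P : Subgroup G).subgroupOf N).Normal := normal_in_normalizer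
      have h3 := normal_le_dg hM hb hD (hN := this) (P.subtype le_normalizer).isPGroup'
      have h4 : D = (P : Subgroup G).subgroupOf N := (P.subtype le_normalizer).is_maximal' (dg_isPGroup hD) h3
      exact h4 ▸ hD
  choose! F hF using fun (b : Set (IrrCharacter N)) (hb : IsPBlock M b) =>
    exists_ind hM P.isPGroup' le_normalizer (CS_le_NS _) le_rfl hb
  have h3 := sum_blocks_sum hM (G := N) fun _ => (1 : ℕ)
  have h4 := sum_blocks_sum hM (G := G) fun χ => if ¬ p ∣ charDegree χ.1 then 1 else 0
  simp only [Finset.sum_const, smul_eq_mul, mul_one, Finset.card_univ, card_fs] at h3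
  rw [← H3.card_irr_eq_card_conjClasses, Nat.card_eq_fintype_card, Nat.card_eq_fintype_card, ← h3, Fintype.card_subtype,
    Finset.card_filter, ← h4, Finset.sum_congr rfl (g := fun B => if IsDefectGroup p M B (P : Subgroup G) then Nat.card B else 0)
      fun B hB => by
        rw [Finset.sum_congr rfl fun χ hχ => if_congr (h1 B (mem_blocks.1 hB) χ (mem_fs.1 hχ)) rfl rfl]
        simp [card_fs], ← Finset.sum_filter]
  symm
  refine Finset.sum_bij (fun b _ => F b) (fun b hb => ?_) (fun b hb c hc e => ?_) (fun B hB => ?_) fun b hb => ?_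
  · have := hF b (mem_blocks.1 hb)
    exact Finset.mem_filter.2 ⟨mem_blocks.2 this.2.1, first_main_dg hM P.isPGroup' (h2 b this.1) this⟩
  · exact first_main_unique hM P.isPGroup' (h2 c (mem_blocks.1 hc)) (hF c (mem_blocks.1 hc))
      (e ▸ hF b (mem_blocks.1 hb))
  · obtain ⟨b, h5, -⟩ := first_main_exists hM (mem_blocks.1 (Finset.mem_filter.1 hB).1) (Finset.mem_filter.1 hB).2
    exact ⟨b, mem_blocks.2 h5.1, ind_unique hM (hF b h5.1) h5⟩
  · have := hF b (mem_blocks.1 hb)
    exact (S4635.result p M hM _ this.2.1 P (first_main_dg hM P.isPGroup' (h2 b this.1) this) h0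
      (isCyclic_of_prime_card (hP P)) P le_rfl (hP P) N rfl b (h2 b this.1) this).1

end Cfsg.Agent.S4502
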