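import Cfsg.Statements.S4507
import Cfsg.Agent.H3.Df2

set_option autoImplicit false
open Cfsg

namespace Cfsg.Agent.S4507

open H4 H1 H3

/-- Let G be a finite group whose order g is divisible by the prime p exactly once, g′ = g/p, and fix a maximal ideal M of the algebraic integers containing p. Call two irreducible characters p-conjugate when a field automorphism of ℂ fixing the g′-th roots of unity carries one to the other. Let B be a p-block of positive defect (its defect group is a Sylow p-subgroup). Then B contains a subset Y (the exceptional family) such that: Y is a full p-conjugacy class (its members are pairwise p-conjugate and every p-conjugate of a member of Y lies in Y); every member of B outside Y is p-conjugate only to itself; the size t of Y divides p − 1 and B has exactly t + (p − 1)/t members; and there are signs δ_χ = ±1 (χ ∈ B) such that for every p-regular element x and every θ ∈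 Y, Σ_{χ ∈ B ∖ Y} δ_χ χ(x) + δ_θ θ(x) = 0. -/
theorem result {G : Type*} [Group G] [Finite G] (p : ℕ) [Fact p.Prime] (M : Ideal Cfsg.AlgInt) (hM : Cfsg.IsPModular p M) (hdiv : p ∣ Nat.card G) (hsq : ¬ p ^ 2 ∣ Nat.card G) (B : Set (Cfsg.IrrCharacter G)) (hB : Cfsg.IsPBlock M B) (hd : 0 < Cfsg.blockDefect p B) : ∃ Y : Set (Cfsg.IrrCharacter G), Y ⊆ B ∧ Y.Nonempty ∧ (∀ θ ∈ Y, ∀ ψ : Cfsg.IrrCharacter G, (∃ σ : ℂ ≃+* ℂ, σ (Complex.exp (2 * Real.pi * Complex.I / ((Nat.card G / p ^ (Nat.card G).factorization p) : ℕ))) = Complex.exp (2 * Real.pi * Complex.I / ((Nat.card G / p ^ (Nat.card G).factorization p) : ℕ)) ∧ (ψ : G → ℂ) = fun g => σ ((θ : G → ℂ) g)) ↔ ψ ∈ Y) ∧ (∀ χ ∈ B, χ ∉ Y → ∀ ψ : Cfsg.IrrCharacter G, (∃ σ : ℂ ≃+* ℂ, σ (Complex.exp (2 * Real.pi * Complex.I / ((Nat.card G / p ^ (Nat.card G).factorization p) : ℕ))) = Complex.exp (2 * Real.pi * Complex.I / ((Nat.card G / p ^ (Nat.card G).factorization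 p) : ℕ)) ∧ (ψ : G → ℂ) = fun g => σ ((χ : G → ℂ) g)) → ψ = χ) ∧ Nat.card Y ∣ p - 1 ∧ Nat.card B = Nat.card Y + (p - 1) / Nat.card Y ∧ ∃ δ : Cfsg.IrrCharacter G → ℤ, (∀ χ ∈ B, δ χ = 1 ∨ δ χ = -1) ∧ ∀ x : G, ¬ p ∣ orderOf x → ∀ θ ∈ Y, (∑ᶠ χ ∈ B \ Y, (δ χ : ℂ) * (χ : G → ℂ) x) + (δ θ : ℂ) * (θ : G → ℂ) x = 0 := by
  classical
  haveI := Fintype.ofFinite G
  obtain ⟨P⟩ : Nonempty (Sylow p G) := inferInstance
  haveI := Fintype.ofFinite P
  have hf : (Nat.card G).factorization p = 1 := le_antisymm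
    (Nat.lt_succ_iff.1 (not_le.1 fun h => hsq ((hM.1.pow_dvd_iff_le_factorization Nat.card_pos.ne').2 h)))
    (hM.1.factorization_pos_of_dvd Nat.card_pos.ne' hdiv)
  have hP : Nat.card P = p := by rw [show Nat.card P = _ from P.card_eq_multiplicity, hf, pow_one]
  haveI : Nontrivial P := Finite.one_lt_card_iff_nontrivial.1 (hM.1.one_lt.trans_eq hP.symm)
  obtain ⟨c, θ, h⟩ := exists_df' hM hB hP (dg_of_pos hM hB hP hd)
  obtain ⟨ζ, a, δ, h2, h3, h4⟩ := h.dade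
  have h6 := h.fb.fr.card_OS
  have h8 : p - 1 = _ := Nat.sub_eq_of_eq_add (h6.trans hP).symm
  have h9 := h.fb.fr.nonempty
  rw [hf, pow_one]
  set n := Nat.card G / p with hn
  have hn' : Nat.card G = p * n := (Nat.mul_div_cancel' hdiv).symm
  have hn0 : n ≠ 0 := fun e => Nat.card_pos.ne' (by rw [hn', e, mul_zero])
  have hr : ∀ σ : ℂ →+* ℂ, (∀ x, x ^ n = 1 → σ x = x ^ 1) → ∀ χ ∈ B, gal σ χ ∈ B ∧
      (∀ g, ¬ p ∣ orderOf g → (gal σ χ).1 g = χ.1 g) ∧ ∀ t : P, dD c θ (gal σ χ).1 t = σ (dD c θ χ.1 t) := fun σ hσ χ hχ => by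
    have e1 : ∀ m, m ∣ Nat.card G → ¬ p ∣ m → m ∣ n := fun m h1 h2 =>
      ((hM.1.coprime_iff_not_dvd.2 h2).symm).dvd_of_dvd_mul_left (hn' ▸ h1)
    have e2 : ∀ g, ¬ p ∣ orderOf g → (gal σ χ).1 g = χ.1 g := fun g hg => by
      rw [gal_apply, ringHom_char_apply σ hσ (irr_char χ.2) (e1 _ (orderOf_dvd_natCard g) hg), pow_one]
    exact ⟨mem_of_reg hM hB hχ fun g hg => (e2 g hg).symm, e2, fun t => h.D_gal σ (fun y hy => by
      rw [ringHom_char_apply σ hσ (irr_char θ.2) (e1 _ ((orderOf_dvd_natCard y).trans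
        (Subgroup.card_subgroup_dvd_card _)) hy), pow_one]) (irr_class χ.2) t.2⟩
  have hz : ∀ σ : ℂ →+* ℂ, (∀ x, x ^ n = 1 → σ x = x ^ 1) → ∀ l l', l ≠ 1 → l' ≠ 1 →
      (Units.map (σ : ℂ →* ℂ)).comp l = l' → gal σ (ζ (os _ l)) = ζ (os _ l') := fun σ hσ l l' hl hl' e => by
    have ho := mem_OS.2 ⟨l, hl, (rfl : os (ga (P : Subgroup G) (dT M P c)) l = _)⟩
    have ho' := mem_OS.2 ⟨l', hl', (rfl : os (ga (P : Subgroup G) (dT M P c)) l' = _)⟩
    obtain ⟨e1, e2, e3⟩ := hr σ hσ _ (h2.mem _ ho)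
    refine h.ext e1 (h2.mem _ ho') (fun g hg => (e2 g hg).trans (h2.reg _ ho _ ho' g hg)) fun t ht => ?_
    rw [e3, h2.val _ ho t ht, h2.val _ ho' t ht, map_add, map_mul, map_intCast, map_intCast, gal_os, e]
  refine ⟨ζ '' OS (ga (P : Subgroup G) (dT M P c)), by rintro _ ⟨o, ho, rfl⟩; exact h2.mem o ho,
    (Finset.coe_nonempty.2 h9).image _, ?_, fun χ hχ hχ' ψ ⟨σ, hσ, e⟩ => ?_, ?_, ?_,
    fun χ => if χ ∈ ζ '' OS (ga (P : Subgroup G) (dT M P c)) then -δ else a χ, fun χ hχ => ?_, ?_⟩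
  · rintro _ ⟨_, ho, rfl⟩ ψ
    obtain ⟨l, hl, rfl⟩ := mem_OS.1 ho
    refine ⟨fun ⟨σ, hσ, e⟩ => ?_, ?_⟩
    · have hl' : (Units.map ((σ : ℂ →+* ℂ) : ℂ →* ℂ)).comp l ≠ 1 := fun e => hl (MonoidHom.ext fun t => Units.ext
        (σ.injective (by simpa using congrArg Units.val (DFunLike.congr_fun e t))))
      exact ⟨_, mem_OS.2 ⟨_, hl', rfl⟩, (hz σ (fixes_roots _ hn0 hσ) l _ hl hl' rfl).symm.trans (Subtype.ext e.symm)⟩
    · rintro ⟨_, ho', rfl⟩
      obtain ⟨l', hl', rfl⟩ := mem_OS.1 ho'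
      obtain ⟨m, hm, rfl⟩ := exists_pow_hom hP hl hl'
      have hc : p.Coprime n := hM.1.coprime_iff_not_dvd.2 fun h => hsq (by rw [hn', sq]; exact Nat.mul_dvd_mul_left _ h)
      obtain ⟨j, j1, j2⟩ := Nat.chineseRemainder hc m 1
      obtain ⟨σ, hσ⟩ := exists_galois_pow (n := p * n) (k := j) (mul_ne_zero hM.1.ne_zero hn0) (Nat.Coprime.mul_right
        (hM.1.coprime_iff_not_dvd.2 fun h => hm ((j1.dvd_iff dvd_rfl).1 h)).symm (Nat.coprime_of_mul_modEq_one 1 (by simpa using j2)))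
      have hσ' : ∀ x, x ^ n = 1 → σ x = x ^ 1 := fun x hx => by
        rw [hσ x (by rw [mul_comm, pow_mul, hx, one_pow]), pow_eq_pow_of_modEq j2 hx]
      obtain ⟨τ, hτ⟩ := exists_ringEquiv σ
      have e1 := (Complex.isPrimitiveRoot_exp n hn0).pow_eq_one
      refine ⟨τ, by rw [hτ _ (mem_Alg_iff.1 (mem_Alg_of_isIntegral (IsIntegral.of_pow (Nat.pos_of_ne_zero hn0)
        (e1 ▸ isIntegral_one)))), hσ' _ e1, pow_one], ?_⟩
      rw [← hz σ hσ' l _ hl hl' (MonoidHom.ext fun t => Units.ext ?_)]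
      · exact funext fun g => (hτ _ (mem_Alg_iff.1 (irr_mem_Alg _ g))).symm
      · have e2 : (l t : ℂ) ^ p = 1 := by
          rw [← Units.val_pow_eq_pow_val, ← map_pow, show t ^ p = 1 from (congrArg _ hP.symm).trans pow_card_eq_one', map_one, Units.val_one]
        show σ (l t) = ((l t ^ m : ℂˣ) : ℂ)
        rw [hσ _ (by rw [pow_mul, e2, one_pow]), pow_eq_pow_of_modEq j1 e2, Units.val_pow_eq_pow_val]
  · obtain ⟨e1, e2, e3⟩ := hr σ (fixes_roots _ hn0 hσ) χ hχ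
    rw [show ψ = gal σ χ from Subtype.ext e]
    exact h.ext e1 hχ e2 fun t ht => by rw [e3, (h2.val' χ ⟨hχ, hχ'⟩).2 t ht, map_intCast]
  · rw [h2.card_image, h8]; exact Dvd.intro_left _ rfl
  · rw [h2.card, h2.card_image, h3, h8, Nat.mul_div_cancel _ h9.card_pos]
  · beta_reduce; split_ifs with h10
    · rcases h2.sign with rfl | rfl <;> simp
    · exact h4 χ ⟨hχ, h10⟩
  · rintro g hg _ ⟨o, ho, rfl⟩
    have := h2.rel o ho g hg
    beta_reduce
    rw [finsum_mem_eq_fs, Finset.sum_congr rfl fun χ hχ => by rw [if_neg (mem_fs.1 hχ).2], if_pos ⟨o, ho, rfl⟩]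
    push_cast at this ⊢
    linear_combination this

end Cfsg.Agent.S4507
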