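import Cfsg.Statements.S4508
import Cfsg.Agent.H3.Ord3
import Cfsg.Agent.H3.Cw
import Cfsg.Agent.H1.Simp

set_option autoImplicit false
open Cfsg

namespace Cfsg.Agent.S4508

open H3 H4 Subgroup Finset
open scoped Classical

theorem det_prod' {G : Type*} [Group G] [Fintype G] {χ : G → ℂ} (hχ : IsCharacter G χ) (H : Subgroup G) {ι : Type*} [Fintype ι]
    (l : ι → H →* ℂˣ) (h : ∀ x : H, χ x = ∑ i, (l i x : ℂ)) (x : H) : (∏ i, (l i x : ℂ)) ^ (commutator G).index = 1 := by
  obtain ⟨δ, hδ⟩ := exists_detHom hχ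
  have a : δ x ^ (commutator G).index = 1 := by
    rw [← map_pow]; exact Abelianization.commutator_subset_ker δ (pow_index_mem _ _)
  let M : H →* Matrix ι ι ℂ :=
    { toFun := fun x => Matrix.diagonal fun i => (l i x : ℂ)
      map_one' := by simp
      map_mul' := fun a b => by simp [Matrix.diagonal_mul_diagonal] }
  have b := detChar_matrix M x
  have c := detChar_comp H.subtype hχ x
  rw [show (fun g => (M g).trace) = fun g => χ (H.subtype g) from funext fun g => by
    simp [M, Matrix.trace_diagonal, h g], c, hδ] at b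
  rw [show ∏ i, (l i x : ℂ) = δ x by simpa [M, Matrix.det_diagonal] using b.symm, ← Units.val_pow_eq_pow_val, a, Units.val_one]

/-- Let the finite group G contain an element x of prime order p with C_G(x) = ⟨x⟩, and let t be the number of conjugacy classes of elements of order p. If G has an irreducible character of degree p − 1, then t is even or the commutator subgroup has even index. -/
theorem result {G : Type*} [Group G] [Finite G] (p : ℕ) (hp : p.Prime) (x : G) (hx : orderOf x = p) (hC : Subgroup.centralizer ({x} : Set G) = Subgroup.zpowers x) (t : ℕ) (ht : Nat.card {C : ConjClasses G // ∃ g ∈ C.carrier, orderOf g = p} = t) (χ : Cfsg.IrrCharacter G) (hχ : Cfsg.charDegree (χ : G → ℂ) + 1 = p) : Even t ∨ Even (commutator G).index := by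
  haveI := Fact.mk hp
  letI := Fintype.ofFinite G
  by_contra! k0
  obtain ⟨t1, m1⟩ := k0
  rw [Nat.not_even_iff_odd] at t1 m1
  obtain ⟨P, e1, e2⟩ := H1.card_formula hx hC
  have hP : Nat.card (P : Subgroup G) = p := by rw [e1, Nat.card_zpowers, hx]
  obtain ⟨e, t', B, V, r, σ, T, h⟩ := exists_bd P hP
  have hC' : CS (P : Subgroup G) = P := by rw [e1]; exact (H4.centralizer_zpowers x).trans hC
  have e0 := h.et_pos.1
  obtain rfl : t = t' := by
    have a := card_mul_index (NS (P : Subgroup G))
    rw [h.card_N hC', ← card_sylow_eq] at a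
    rw [← a, ← h.et, add_tsub_cancel_right, h.et, show Nat.card _ = t from (Nat.card_congr (Equiv.subtypeEquivRight fun C =>
      exists_congr fun g => and_congr_left' ConjClasses.mem_carrier_iff_mk_eq.symm)).trans ht] at e2
    exact Nat.eq_of_mul_eq_mul_left (mul_pos (mul_pos hp.pos e0) (Nat.card_pos (α := Sylow p G))) (by rw [e2]; ring)
  have et := h.et
  have x0 : x ∈ (P : Subgroup G) := e1 ▸ mem_zpowers x
  have x1 : x ≠ 1 := H1.ne_one_of_orderOf_prime hp hx
  have d0 := deg_pos χ.2
  rcases hp.eq_two_or_odd' with rfl | po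
  · obtain ⟨K, _, a⟩ := MonoidHom.ker_transferSylow_isComplement' P (by
      have := h.he
      rw [show e = 1 by have := h.et_pos.2; nlinarith, relIndex_eq_one] at this
      exact this) |> fun a => (⟨_, inferInstance, a⟩ : ∃ K : Subgroup G, K.Normal ∧ K.IsComplement' P)
    have b : K.index = 2 := a.symm.index_eq_card.trans hP
    have : commutator G ≤ K := commutator_le.2 fun g _ h _ => by
      simp only [commutatorElement_def, mul_mem_iff_of_index_two b, inv_mem_iff]; tauto
    exact (Nat.not_even_iff_odd.2 m1) (even_iff_two_dvd.2 (b ▸ index_dvd_of_le this))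
  have he : Even e := by
    rw [← et, Nat.odd_add_one, Nat.not_odd_iff_even, Nat.even_mul] at po
    exact po.resolve_right (Nat.not_even_iff_odd.2 t1)
  have hB : χ ∈ B := by_contra fun a => ne_zero_of_pelt hp (irr_char χ.2) (fun b => by have := Nat.le_of_dvd d0 b; omega) (k := 1)
    (by rw [pow_one, ← hx, pow_orderOf_eq_one]) (h.vanish hC' a x0 x1)
  have rv := h.rV χ hB
  have md := h.mod rv
  rw [← h.deg hB] at md
  have e2' : 2 ≤ e := Nat.le_of_dvd e0 he.two_dvd
  have tl : 2 * t < p := by nlinarith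
  have T0 := h.T_pos rv
  have k1 : ∀ u : ℕ, 0 < u → u < p → u * charDegree χ.1 % p = p - u := fun u a b => by
    rw [show u * charDegree χ.1 = p - u + p * (u - 1) by
      obtain ⟨u, rfl⟩ := Nat.exists_eq_add_of_le' a
      obtain ⟨c, hc⟩ := Nat.exists_eq_add_of_lt b
      rw [show charDegree χ.1 = u + c + 1 by omega, hc, show u + 1 + c + 1 - (u + 1) = c + 1 by omega, add_tsub_cancel_right]; ring,
      Nat.add_mul_mod_self_left, Nat.mod_eq_of_lt (by omega)]
  have k2 := k1 _ T0.1 (by omega)
  have s : σ (r χ) = -1 := (h.sg _ rv).resolve_left fun a => by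
    have := md.1 a
    have : T (r χ) = t := by rcases h.hT _ rv with b | b <;> omega
    omega
  have hT : T (r χ) = 1 := by
    have := Nat.mod_eq_zero_of_dvd (md.2 s)
    rw [Nat.add_mod, k2, Nat.mod_eq_of_lt hp.one_lt] at this
    by_contra a
    rw [Nat.mod_eq_of_lt (by omega)] at this
    omega
  have h0 := h.sum_zero hB s (by rwa [hT, one_mul, ← h.deg hB])
  obtain ⟨H, a, b, c, d, -⟩ := h.exists_compl hC'
  obtain ⟨u, hu⟩ := b.exists_generator
  have ou : orderOf u = e := (orderOf_eq_card_of_forall_mem_zpowers hu).trans c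
  have hζ := Complex.isPrimitiveRoot_exp e e0.ne'
  set ζ := Complex.exp (2 * Real.pi * Complex.I / e)
  let ζ' : ℂˣ := Units.mk0 ζ (hζ.ne_zero e0.ne')
  have oζ : orderOf ζ' = e := by rw [← orderOf_units]; exact hζ.eq_orderOf.symm
  let l := monoidHomOfForallMemZpowers hu (g' := ζ') (by rw [oζ, ou])
  have lu : l u = ζ' := monoidHomOfForallMemZpowers_apply_gen _ _
  have := det_prod' (irr_char χ.2) H (ι := Fin t × Fin e) (fun i => l ^ (i.2 : ℕ)) (fun x => by
    simp only [Fintype.sum_prod_type, MonoidHom.pow_apply, Units.val_pow_eq_pow_val, sum_const, card_univ, Fintype.card_fin]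
    by_cases x1 : x = 1
    · have : charDegree χ.1 = t * e := by rw [mul_comm]; omega
      simp [x1, ideg χ, this]
    · rw [h.zero_N hC' (irr_char χ.2) h0 (a x.2) fun f => x1 (Subtype.ext (d.le ⟨f, x.2⟩)), Fin.sum_univ_eq_sum_range fun i => (l x : ℂ) ^ i]
      obtain ⟨k, rfl⟩ := hu x
      have l1 : (l (u ^ k) : ℂ) ≠ 1 := fun f => x1 (by
        have : ζ' ^ k = 1 := by rw [← lu, ← map_zpow]; exact Units.ext f
        rw [← orderOf_dvd_iff_zpow_eq_one, oζ, ← ou, orderOf_dvd_iff_zpow_eq_one] at this
        exact this)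
      have l2 : (l (u ^ k) : ℂ) ^ e = 1 := by
        rw [← Units.val_pow_eq_pow_val, ← map_pow, ← c, pow_card_eq_one', map_one, Units.val_one]
      simp only at l1 ⊢
      rw [geom_sum_eq l1, l2]; simp) u
  simp only [Fintype.prod_prod_type, MonoidHom.pow_apply, Units.val_pow_eq_pow_val, lu, prod_const, card_univ, Fintype.card_fin,
    prod_pow_eq_pow_sum, ← pow_mul] at this
  have k := (hζ.pow_eq_one_iff_dvd _).1 this
  rw [Fintype.sum_prod_type, sum_congr rfl fun _ _ => Fin.sum_univ_eq_sum_range (fun i => i) e, sum_const, card_univ,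
    Fintype.card_fin, smul_eq_mul, mul_comm t] at k
  have k2 := sum_range_id_mul_two e
  obtain ⟨f, rfl⟩ := he
  obtain ⟨y, hy⟩ := k
  have k3 : (f + f - 1) * t * (commutator G).index = 2 * y := by
    refine Nat.eq_of_mul_eq_mul_left e0 ?_
    rw [← mul_assoc, ← mul_assoc, ← k2]; nlinarith
  exact (Nat.not_even_iff_odd.2 (((Nat.odd_iff.2 (by omega) : Odd (f + f - 1)).mul t1).mul m1)) (k3 ▸ even_two_mul y)

end Cfsg.Agent.S4508
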