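import Cfsg.Statements.S4509
import Cfsg.Agent.H3.SelfC

set_option autoImplicit false
open Cfsg

namespace Cfsg.Agent.S4509

open H3

/-- Let the finite group G contain an element x of prime order p with C_G(x) = ⟨x⟩; let t be the number of conjugacy classes of elements of order p and 1 + n·p the number of subgroups of order p. Then G has a normal subgroup of order 1 + n·p if and only if either t = p − 1, or t < p − 1 and G″ ≠ G′. Moreover, if t = p − 1 then G′ has order 1 + n·p and G/G′ is cyclic of order p; and if t < p − 1 and G″ ≠ G′ then G″ has order 1 + n·p and G′ has order p·(1 + n·p). -/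
theorem result {G : Type*} [Group G] [Finite G] (p : ℕ) (hp : p.Prime) (x : G) (hx : orderOf x = p) (hC : Subgroup.centralizer ({x} : Set G) = Subgroup.zpowers x) (t : ℕ) (ht : Nat.card {C : ConjClasses G // ∃ g ∈ C.carrier, orderOf g = p} = t) (n : ℕ) (hn : Nat.card {H : Subgroup G // Nat.card H = p} = 1 + n * p) : ((∃ S : Subgroup G, S.Normal ∧ Nat.card S = 1 + n * p) ↔ (t = p - 1 ∨ (t < p - 1 ∧ derivedSeries G 2 ≠ derivedSeries G 1))) ∧ (t = p - 1 → Nat.card (commutator G) = 1 + n * p ∧ IsCyclic (G ⧸ commutator G) ∧ (commutator G).index = p) ∧ (t < p - 1 → derivedSeries G 2 ≠ derivedSeries G 1 → Nat.card (derivedSeries G 2) = 1 + n * p ∧ Nat.card (commutator G) = p * (1 + n * p)) := by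
  have := Fact.mk hp
  have h : SC p x := ⟨hx, hC⟩
  rw [h.card_sub] at hn
  obtain ⟨e, e1, e2, e3⟩ := h.count
  rw [ht] at e3
  have A : t = p - 1 → Nat.card (commutator G) = 1 + n * p ∧ IsCyclic (G ⧸ commutator G) ∧
      (commutator G).index = p := fun h1 => by
    obtain ⟨a, b, c⟩ := h.index_comm ht h1
    refine ⟨Nat.eq_of_mul_eq_mul_right hp.pos ?_, isCyclic_of_prime_card a, a⟩
    rw [← hn, c]
    conv_lhs => rw [← a]
    conv_rhs => rw [← h.card]
    rw [Subgroup.card_mul_index, Subgroup.index_mul_card]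
  have B : t < p - 1 → derivedSeries G 2 ≠ derivedSeries G 1 →
      Nat.card (derivedSeries G 2) = 1 + n * p ∧ Nat.card (commutator G) = p * (1 + n * p) :=
    fun h1 h2 => by
      have hd := h.dvd_comm ht h1.ne
      have hl : derivedSeries G 2 ≤ commutator G := Subgroup.commutator_le_left _ _
      have h3 : ¬ p ∣ Nat.card (derivedSeries G 2) := fun e =>
        h2 (le_antisymm hl (h.commutator_le e))
      have h4 := (h.dich (h.le_normal hd (Subgroup.mem_zpowers x))).resolve_left
        fun e => h3 (h.dvd_of_le e)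
      have h5 := H1.card_inf_mul_relIndex (Subgroup.normalizer (Subgroup.zpowers x : Set G))
        (commutator G)
      rw [h4, h.card, ← (h.syl.of_le (h.le_normal hd) le_top).relIndex_normalizer_eq le_top
        Subgroup.le_normalizer_of_normal, Subgroup.relIndex_top_right, hn] at h5
      have h6 : commutator G = Subgroup.zpowers x ⊔ derivedSeries G 2 :=
        le_antisymm (h.comm_le hd (fun g hg => H1.mem_normalizer_iff_conj_mem.2 fun y hy => by
          rw [show g * y * g⁻¹ = (g * y * g⁻¹ * y⁻¹) * y by group]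
          exact mul_mem (Subgroup.mem_sup_right (Subgroup.commutator_mem_commutator hg
            (sup_le (h.le_normal hd) hl hy))) hy) le_sup_left) (sup_le (h.le_normal hd) hl)
      refine ⟨Nat.eq_of_mul_eq_mul_left hp.pos ?_, h5.symm⟩
      rw [h5, h6, H1.card_sup_of_disjoint Subgroup.le_normalizer_of_normal
        (inf_comm _ (Subgroup.zpowers x) ▸ h.inf_bot h3), h.card]
  refine ⟨⟨fun ⟨S, hS, hc⟩ => or_iff_not_imp_left.2 fun h1 => ⟨lt_of_le_of_ne (Nat.le_of_dvd
    (by have := hp.two_le; omega) (Dvd.intro_left e e3)) h1, fun h2 => ?_⟩, fun h1 => h1.elim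
      (fun a => ⟨_, inferInstance, (A a).1⟩) fun a => ⟨_, inferInstance, (B a.1 a.2).1⟩⟩, A, B⟩
  have hS' : ¬ p ∣ Nat.card S := fun e => hp.one_lt.ne' (Nat.dvd_one.1
    ((Nat.dvd_add_left (Dvd.intro_left n rfl)).1 (hc ▸ e)))
  have h3 : Subgroup.normalizer (Subgroup.zpowers x : Set G) ⊔ S = ⊤ :=
    Subgroup.eq_top_of_card_eq _ (by
      rw [H1.card_sup_of_disjoint Subgroup.le_normalizer_of_normal (h.inf_N hS'), hc, ← hn,
        Subgroup.card_mul_index])
  have : (Subgroup.zpowers x ⊔ S).Normal := Subgroup.normalizer_eq_top_iff.1 (top_le_iff.1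
    (h3 ▸ sup_le (H1.le_normalizer_sup le_rfl Subgroup.le_normalizer_of_normal)
      (le_sup_right.trans Subgroup.le_normalizer)))
  have h4 := h.commutator_le (S := Subgroup.zpowers x ⊔ S) (h.dvd_of_le le_sup_left)
  have h5 : derivedSeries G 2 ≤ S := Subgroup.commutator_le.2 fun a ha b hb => by
    obtain ⟨y, hy, s, hs, rfl⟩ := Subgroup.mem_sup_of_normal_right.1 (h4 ha)
    obtain ⟨z, hz, r, hr, rfl⟩ := Subgroup.mem_sup_of_normal_right.1 (h4 hb)
    rw [← QuotientGroup.eq_one_iff, ← QuotientGroup.mk'_apply, map_commutatorElement, map_mul,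
      map_mul, QuotientGroup.mk'_apply S s, QuotientGroup.mk'_apply S r,
      (QuotientGroup.eq_one_iff s).2 hs, (QuotientGroup.eq_one_iff r).2 hr, mul_one, mul_one,
      commutatorElement_eq_one_iff_mul_comm, ← map_mul, ← map_mul,
      H1.comm_of_mem inferInstance hy hz]
  exact hS' ((h.dvd_comm ht h1).trans (Subgroup.card_dvd_of_le (h2.ge.trans h5)))

end Cfsg.Agent.S4509
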