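import Cfsg.Statements.S4510
import Cfsg.Agent.H4.Maj

set_option autoImplicit false
open Cfsg

namespace Cfsg.Agent.S4510

open H4 H1 MonoidAlgebra
open scoped Pointwise


/-- Let G be a finite group, p a prime, M a maximal ideal of the algebraic integers containing p, and call the defect of a conjugacy class the exponent of p in the order of the centralizer of its elements. Two irreducible characters lying in p-blocks of defect exactly d lie in the same block if and only if their central characters (class size times χ(x)/χ(1)) agree modulo the local ideal at M at every p-regular element x whose class has defect exactly d. -/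
theorem result {G : Type*} [Group G] [Finite G] (p : ℕ) [Fact p.Prime] (M : Ideal Cfsg.AlgInt) (hM : Cfsg.IsPModular p M) (d : ℕ) (χ ψ : Cfsg.IrrCharacter G) (hχ : Cfsg.blockDefect p (Cfsg.blockOf M (χ : G → ℂ)) = d) (hψ : Cfsg.blockDefect p (Cfsg.blockOf M (ψ : G → ℂ)) = d) : Cfsg.SameBlock M (χ : G → ℂ) (ψ : G → ℂ) ↔ ∀ x : G, ¬ p ∣ orderOf x → (Nat.card (Subgroup.centralizer ({x} : Set G))).factorization p = d → Cfsg.MemLocalIdeal M (Cfsg.centralChar (χ : G → ℂ) x - Cfsg.centralChar (ψ : G → ℂ) x) := by
  refine ⟨fun h x _ _ => h x, fun h => ?_⟩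
  have hB := isPBlock_blockOf (M := M) χ.2
  have hB' := isPBlock_blockOf (M := M) ψ.2
  obtain ⟨g, h1, h2⟩ := exists_defectClass hM hB
  have key : ∀ g, (eB M (blockOf M χ.1)).coeff g ≠ 0 →
      lamB M (blockOf M χ.1) (cls (k M) g) = lamB M (blockOf M ψ.1) (cls (k M) g) := by
    intro g hg
    have h3 := le_of_eB_ne_zero hM hB hg
    rcases h3.lt_or_eq with h4 | h4
    · have a1 : lamB M (blockOf M χ.1) (cls (k M) g) = 0 := by
        by_contra h5; exact absurd (le_of_lamB_cls hM hB h5) (by omega)
      have a2 : lamB M (blockOf M ψ.1) (cls (k M) g) = 0 := by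
        by_contra h5; exact absurd (le_of_lamB_cls hM hB' h5) (by omega)
      rw [a1, a2]
    · rw [lamB_cls hM hB (mem_blockOf_self hM χ), lamB_cls hM hB' (mem_blockOf_self hM ψ)]
      exact (memLocalIdeal_sub_iff hM (centralChar_mem_Alg χ.2 g) (centralChar_mem_Alg ψ.2 g)
        (centralChar_mem_O χ.2 g) (centralChar_mem_O ψ.2 g)).1
        (h g (not_dvd_of_eB_ne_zero hM hB hg) (h4.trans hχ))
  have e : lamB M (blockOf M χ.1) (eB M (blockOf M χ.1)) = lamB M (blockOf M ψ.1) (eB M (blockOf M χ.1)) :=
    Fix_linear_ext (K := ⊤) (Z_le_Fix _ (eB_mem_Z _)) fun g hg => by rw [acls_top]; exact key g hg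
  have e2 := block_eq_of_lamB_eB hM hB' hB (by rw [← e, lamB_eB_self hM hB]; exact one_ne_zero)
  exact sameBlock_of_mem hM hB (mem_blockOf_self hM χ) (e2 ▸ mem_blockOf_self hM ψ)

end Cfsg.Agent.S4510
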