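import Cfsg.Statements.S4513
import Cfsg.Agent.H4.Klein

set_option autoImplicit false
open Cfsg

namespace Cfsg.Agent.S4513

open H4 H1 MonoidAlgebra
open scoped Pointwise


/-- Blocks of defect one for p = 2. Let M be a maximal ideal of the algebraic integers containing 2, B a 2-block of the finite group G whose defect group is the subgroup generated by an involution x, C = C_G(x), b a block of C inducing B and θ a member of b taking the same value at x as at 1 (there is exactly one). Then B consists of exactly two irreducible characters, which agree on every element of odd order, and they can be labelled χ₁, χ₂ with signs ε₁, ε₂ = ±1, ε₁ε₂ = −1, such that χᵢ(x y) = εᵢ θ(y) for every element y of C of odd order. -/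
theorem result {G : Type*} [Group G] [Finite G] (M : Ideal Cfsg.AlgInt) (hM : Cfsg.IsPModular 2 M) (x : G) (hx : orderOf x = 2)
    (B : Set (Cfsg.IrrCharacter G)) (hB : Cfsg.IsPBlock M B) (hBD : Cfsg.IsDefectGroup 2 M B (Subgroup.zpowers x))
    (b : Set (Cfsg.IrrCharacter ↥(Subgroup.centralizer ({x} : Set G)))) (hb : Cfsg.IsInducedBlock M (Subgroup.centralizer ({x} : Set G)) b B)
    (θ : Cfsg.IrrCharacter ↥(Subgroup.centralizer ({x} : Set G))) (hθ : θ ∈ b)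
    (hθx : ∀ z : ↥(Subgroup.centralizer ({x} : Set G)), (z : G) = x → (θ : ↥(Subgroup.centralizer ({x} : Set G)) → ℂ) z = (θ : ↥(Subgroup.centralizer ({x} : Set G)) → ℂ) 1) :
    Nat.card B = 2 ∧ (∀ χ ∈ B, ∀ ψ ∈ B, ∀ g : G, ¬ 2 ∣ orderOf g → (χ : G → ℂ) g = (ψ : G → ℂ) g) ∧
      ∃ χ₁ ∈ B, ∃ χ₂ ∈ B, χ₁ ≠ χ₂ ∧ ∃ ε₁ ε₂ : ℤ, (ε₁ = 1 ∨ ε₁ = -1) ∧ (ε₂ = 1 ∨ ε₂ = -1) ∧ ε₁ * ε₂ = -1 ∧
        ∀ y : ↥(Subgroup.centralizer ({x} : Set G)), ¬ 2 ∣ orderOf y →
          (χ₁ : G → ℂ) (x * y) = (ε₁ : ℂ) * (θ : ↥(Subgroup.centralizer ({x} : Set G)) → ℂ) y ∧ (χ₂ : G → ℂ) (x * y) = (ε₂ : ℂ) * (θ : ↥(Subgroup.centralizer ({x} : Set G)) → ℂ) y := by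
  classical
  have h0 : ∀ s : Subgroup.zpowers x, s ≠ 1 → (s : G) = x := fun s hs =>
    ((mem_zpowers_two hx).1 s.2).resolve_left (by simpa using hs)
  have hP := (dg_iff_ADG_top hM hB).1 hBD
  let t : Subgroup.zpowers x := ⟨x, Subgroup.mem_zpowers x⟩
  have ht : t ≠ 1 := fun e => ne_one_of_two hx (congrArg Subtype.val e)
  obtain ⟨e, hm⟩ := exists_maxP hM hB hBD
  have hab := cyclic_le_CS (P := Subgroup.zpowers x) inferInstance
  have h1 : Stab (NS (Subgroup.zpowers x)) e ≤ CS (Subgroup.zpowers x) := fun g hg => by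
    rw [CS_zpowers, mem_centralizer_singleton]
    exact (mul_inv_eq_iff_eq_mul.1 (h0 ⟨_, (Subgroup.mem_normalizer_iff.1 hg.1 x).1 t.2⟩ fun e =>
      ne_one_of_two hx (by simpa using congrArg Subtype.val e))).symm
  have h : FB 2 (Subgroup.zpowers x) e B := ⟨hM, hB, hm, hab, fun g hg _ _ _ _ => h1 hg⟩
  have hu : ∀ b, IsInducedBlock M (C1 (t : G)) b B → b = lb 2 _ e t := fun b hb => hm.lb_eq hM hB hb fun s hs =>
    Subtype.ext (h0 s fun e => ht (by simpa [e] using hs))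
  have hc : Nat.card (Subgroup.zpowers x) = 2 := by rw [Nat.card_zpowers, hx]
  obtain ⟨h2, h3⟩ := h.small ht (Subtype.ext (orderOf_dvd_iff_pow_eq_one.1 hx.dvd)) (by omega)
  have := Fintype.ofFinite G
  have := Fintype.ofFinite (C1 (t : G))
  have h4 : ∀ χ ∈ B, ∀ ψ ∈ B, ∀ g : G, ¬ 2 ∣ orderOf g → χ.1 g = ψ.1 g := fun χ hχ ψ hψ g hg => by
    simpa [reg_of_not_dvd _ hg] using congrFun (((aNil_of_ab hM hm hab h1).ab hM hB hBD hab hψ).2.2.1 χ hχ) g
  have h5 : ∀ χ ∈ B, ∀ y : C1 x, ¬ 2 ∣ orderOf y → χ.1 (x * y) = dd 2 e χ.1 t * θ.1 y := fun χ hχ y hy => by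
    have := congrFun ((h.loc ht).2.2.1 θ (hu b hb ▸ hθ)) y
    rw [reg_of_not_dvd _ hy, reg_of_not_dvd _ hy] at this
    rw [this]; exact h.apply_uniq ht hu hχ hy
  rw [hc] at h2
  obtain ⟨χ₁, χ₂, h6, h7⟩ := Finset.card_eq_two.1 ((card_fs B).trans h2)
  have k1 : χ₁ ∈ B := mem_fs.1 (by simp [h7])
  have k2 : χ₂ ∈ B := mem_fs.1 (by simp [h7])
  have h8 := KB_eq_zero_weak hM hB (not_dvd_orderOf_one Nat.prime_two) hx.symm.dvd
  have h9 := fun χ hχ => h5 χ hχ 1 (not_dvd_orderOf_one Nat.prime_two)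
  simp only [OneMemClass.coe_one, mul_one] at h9
  rw [KB, h7, Finset.sum_pair h6, h4 χ₂ k2 χ₁ k1 1 (not_dvd_orderOf_one Nat.prime_two), ← mul_add, h9 _ k1, h9 _ k2, ← map_add,
    ← add_mul] at h8
  simp only [mul_eq_zero, H3.irr_one_ne_zero χ₁.2, H3.irr_one_ne_zero θ.2, map_eq_zero, false_or, or_false] at h8
  refine ⟨h2, h4, χ₁, k1, χ₂, k2, h6, ?_⟩
  rcases h3 χ₁ k1 with e1 | e1 <;> rcases h3 χ₂ k2 with e2 | e2
  · norm_num [e1, e2] at h8
  · exact ⟨1, -1, by simp, by simp, by simp, fun y hy => by simp [h5 _ k1 y hy, h5 _ k2 y hy, e1, e2]⟩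
  · exact ⟨-1, 1, by simp, by simp, by simp, fun y hy => by simp [h5 _ k1 y hy, h5 _ k2 y hy, e1, e2]⟩
  · norm_num [e1, e2] at h8

end Cfsg.Agent.S4513
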