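import Cfsg.Statements.S4634
import Cfsg.Agent.H4.Cyc4

set_option autoImplicit false
open Cfsg

namespace Cfsg.Agent.S4634

open H4 H1 MonoidAlgebra
open scoped Pointwise


/-- Let B be a block of the finite group G relative to a maximal ideal M of the algebraic integers containing the prime p, with a nontrivial cyclic defect group P, let c be a block of C_G(P) inducing B, T the stabilizer of c in N_G(P) and e the index of C_G(P) in T. Let F be any finite group of order #P · e having a cyclic subgroup Q of order #P that is its own centralizer (F is then the semidirect product of Q by a cyclic group of order e acting faithfully). Then there is a perfect isometry from the set of all irreducible characters of F onto B whose signs agree on all the characters of F that do not contain Q in their kernel. -/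
theorem result {G : Type*} [Group G] [Finite G] (p : ℕ) [Fact p.Prime] (M : Ideal Cfsg.AlgInt) (hM : Cfsg.IsPModular p M) (B : Set (Cfsg.IrrCharacter G)) (hB : Cfsg.IsPBlock M B) (P : Subgroup G) (hPD : Cfsg.IsDefectGroup p M B P) (hP1 : P ≠ ⊥) (hcyc : IsCyclic P) (c : Set (Cfsg.IrrCharacter (Subgroup.centralizer (P : Set G)))) (hc : Cfsg.IsInducedBlock M (Subgroup.centralizer (P : Set G)) c B) (T : Subgroup G) (hT : ∀ g : G, g ∈ T ↔ (g ∈ Subgroup.normalizer (P : Set G) ∧ Cfsg.StabilizesBlock (Subgroup.centralizer (P : Set G)) c g)) (e : ℕ) (he : (Subgroup.centralizer (P : Set G)).relIndex T = e) (F : Type*) [Group F] [Finite F] (hF : Nat.card F = Nat.card P * e) (Q : Subgroup F) (hQ : IsCyclic Q) (hQcard : Nat.card Q = Nat.card P) (hQC : Subgroup.centralizer (Q : Set F) = Q) : ∃ (I : Cfsg.IrrCharacter F → Cfsg.IrrCharacter G) (ε : Cfsg.IrrCharacter F → ℤ), Cfsg.IsPerfectIsometry p M (Set.univ : Set (Cfsg.IrrCharacter F)) B I ε ∧ ∀ η η' : Cfsg.IrrCharacter F, (∃ x ∈ Q, (η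 : F → ℂ) x ≠ (η : F → ℂ) 1) → (∃ x ∈ Q, (η' : F → ℂ) x ≠ (η' : F → ℂ) 1) → ε η = ε η' := by
  obtain rfl := eq_Stab hM hc.1 hT
  have := Fintype.ofFinite G
  have := Fintype.ofFinite P
  have := Fintype.ofFinite F
  have := Fintype.ofFinite Q
  have h := fb_cyc hM hB (maxP_of_ind hM hPD hc) hcyc
  have : ((CS P).subgroupOf (Stab (NS P) (aE M _ c))).Normal :=
    Subgroup.normal_subgroupOf_of_le_normalizer ((Stab_le _ _).trans (NS_le_NS_CS _))
  have h1 := h.hm.not_dvd' hM h.ab
  have h2 := (cyclic_quot hcyc h.hm.dg.isP hP1 (Stab_le _ _) h1).2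
  rw [he] at h1 h2
  have h3 : Q.index = e := Nat.eq_of_mul_eq_mul_left (Nat.card_pos (α := P)) (by rw [← hF, ← hQcard, Q.card_mul_index])
  have h4 : IsPGroup p Q := .of_card (hQcard.trans h.card)
  obtain ⟨R, rfl⟩ : ∃ R : Sylow p F, Q = R := ⟨h4.toSylow (h3 ▸ h1), rfl⟩
  have h5 : e < p := (Nat.le_of_dvd (Nat.sub_pos_of_lt (Fact.out : p.Prime).one_lt) h2).trans_lt
    (Nat.sub_one_lt (Fact.out : p.Prime).ne_zero)
  have := normal_of_index_lt R (h3 ▸ h5)
  have φ := (mulEquivOfCyclicCardEq hQcard : R ≃* P)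
  have := (Subgroup.nontrivial_iff_ne_bot P).2 hP1
  have := φ.symm.injective.nontrivial
  have h6 := fb_cyc hM isPBlock_principal (maxP_e0 hM R) hQ
  obtain ⟨Θ, x, h7⟩ := cyc_fs h hcyc hP1
  obtain ⟨Θ', x', h8, h9⟩ := h6.principal_fs
  have h10 := cyc_card_ge h6 hQ ((Subgroup.nontrivial_iff_ne_bot _).1 this)
  have h11 := cyc_card_ge h hcyc hP1
  have h12 : Nat.card (ga (R : Subgroup F) (Stab (NS R) (e0 M R))) = e := by
    rw [card_ga (Stab_le _ _), stab_e0 hM, NS_eq_top, Subgroup.relIndex_top_right, ← h3]; exact congrArg _ hQC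
  have h13 : Nat.card (ga P (Stab (NS P) (aE M _ c))) = e := (card_ga (Stab_le _ _)).trans he
  have h14 := h7.transport φ
  rw [mulAut_eq_of_card h4 (Γ := Subgroup.comap _ _) ((by rw [Subgroup.comap_equiv_eq_map_symm',
    Subgroup.card_map_of_injective (MulEquiv.injective _), h13] : _ = e).trans h12.symm) (by
      rwa [Subgroup.comap_equiv_eq_map_symm', Subgroup.card_map_of_injective (MulEquiv.injective _), h13])] at h14
  have h15 := h8.toFr.card_OS
  rw [hQcard, ← h7.toFr.card_OS, h12, ← h13] at h15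
  rw [← Nat.eq_of_mul_eq_mul_left Nat.card_pos (Nat.add_right_cancel h15), h13, ← h12] at h11
  obtain ⟨I, ε, h16, h17⟩ := h14.perfect_dade hM h8 h11 h10
  have h18 := single_block hM h4 (fun g hg h => by_contra fun e => h (by
    simpa using h4.dvd_orderOf (g := ⟨g, hQC ▸ hg⟩) (by simpa using e))) isPBlock_principal
  have h19 : (R : Subgroup F).index < Nat.card R := h3 ▸ h5.trans_le (Nat.le_of_dvd Nat.card_pos
    (h4.card_eq_or_dvd.resolve_left Finite.one_lt_card.ne'))
  have h20 : ∀ η η' : IrrCharacter F, η ≠ η' → (∃ x ∈ (R : Subgroup F), η.1 x ≠ η.1 1) →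
      (∃ x ∈ (R : Subgroup F), η'.1 x ≠ η'.1 1) → ∀ n : ℤ, ∃ t, t ≠ 1 ∧ x' η t ≠ n := fun η η' a b c n =>
    (nonconst_of_index_lt h19 a b c n).imp fun t ht => ⟨ht.1, by
      rw [← h9 η (h18 ▸ trivial) t ht.1 t (pp_of_isPElt Fact.out (isPElt_of_mem Fact.out h4 t.2))]; exact ht.2⟩
  refine ⟨I, ε, h18 ▸ h16, fun η η' a b => by_contra fun e => e (h17 η (h18 ▸ trivial) η' (h18 ▸ trivial)
    (h20 η η' (fun e' => e (by rw [e'])) a b) (h20 η' η (fun e' => e (by rw [e'])) b a))⟩

end Cfsg.Agent.S4634
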