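import Cfsg.Statements.S4636
import Cfsg.Agent.H9.SPE
import Cfsg.Agent.L.PG1

set_option autoImplicit false
open scoped Pointwise
open Cfsg

namespace Cfsg.Agent.S4636

open H9 FT Subgroup

/-- Let P be a nontrivial cyclic p-subgroup of the finite group G and Z its subgroup of order p. For every x outside N_G(Z), P meets its conjugate xPx⁻¹ trivially; consequently N_G(Q) ≤ N_G(Z) for every nontrivial subgroup Q of P. -/
theorem result {G : Type*} [Group G] [Finite G] (p : ℕ) [Fact p.Prime] (P : Subgroup G) (hP : IsPGroup p P) (hP1 : P ≠ ⊥) (hcyc : IsCyclic P) (Z : Subgroup G) (hZ : Z ≤ P) (hZcard : Nat.card Z = p) : (∀ x : G, x ∉ Subgroup.normalizer (Z : Set G) → P ⊓ MulAut.conj x • P = ⊥) ∧ ∀ Q : Subgroup G, Q ≤ P → Q ≠ ⊥ → Subgroup.normalizer (Q : Set G) ≤ Subgroup.normalizer (Z : Set G) := by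
  have hu : U1 p P := u1_of_rk hP (rk_le_one_of_cyclic hcyc)
  have hZ0 : omegaOne p Z = Z := le_antisymm (L.omegaOne_le _ _) fun x hx => L.mem_omegaOne hx (by
    have := pow_card_eq_one' (x := (⟨x, hx⟩ : Z))
    rw [hZcard] at this
    exact congrArg Subtype.val this)
  have key : ∀ Q : Subgroup G, Q ≤ P → Q ≠ ⊥ → omegaOne p Q = Z := fun Q hQ h0 => by
    rw [hu.omegaOne_eq' hQ (dvd_card_of_p_le le_rfl (hP.to_le hQ) h0), ← hu.omegaOne_eq' hZ hZcard.symm.dvd, hZ0]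
  refine ⟨fun x hx => ?_, fun Q hQ h0 => key Q hQ h0 ▸ L.normalizer_omegaOne le_rfl⟩
  by_contra h0
  rw [← cj_eq_smul] at h0
  have h1 : cj x⁻¹ (P ⊓ cj x P) ≤ P := cj_le_iff.2 (by rw [inv_inv]; exact inf_le_right)
  have h2 : Z ≤ cj x⁻¹ (P ⊓ cj x P) := key _ h1 (by rwa [Ne, cj_eq_bot_iff]) ▸ L.omegaOne_le _ _
  have h3 : cj x Z ≤ P := le_trans (by simpa using le_cj_iff.1 h2) (inf_le_left (b := cj x P))
  have h4 : Z ≤ cj x Z := (key _ h3 (by
    rw [Ne, cj_eq_bot_iff]; rintro rfl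
    rw [card_bot] at hZcard
    exact (Fact.out : p.Prime).one_lt.ne hZcard)).ge.trans (L.omegaOne_le _ _)
  exact hx (mem_normalizer_iff_cj.2 (eq_of_le_of_card_ge h4 (card_cj x Z).le).symm)

end Cfsg.Agent.S4636
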