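import Cfsg.Statements.S4638
import Cfsg.Agent.H4.Frob2

set_option autoImplicit false
open Cfsg

namespace Cfsg.Agent.S4638

open H4 H1 MonoidAlgebra
open scoped Pointwise


/-- Let B be a block of the finite group G relative to a maximal ideal M of the algebraic integers containing 2, with a Klein four defect group P, and let c be its Brauer correspondent: the block of N_G(P) with defect group P that induces B. Then there is a perfect isometry from c onto B. -/
theorem result {G : Type*} [Group G] [Finite G] (M : Ideal Cfsg.AlgInt) (hM : Cfsg.IsPModular 2 M) (B : Set (Cfsg.IrrCharacter G)) (hB : Cfsg.IsPBlock M B) (P : Subgroup G) (hPD : Cfsg.IsDefectGroup 2 M B P) (hV : IsKleinFour P) (c : Set (Cfsg.IrrCharacter (Subgroup.normalizer (P : Set G)))) (hcD : Cfsg.IsDefectGroup 2 M c (P.subgroupOf (Subgroup.normalizer (P : Set G)))) (hc : Cfsg.IsInducedBlock M (Subgroup.normalizer (P : Set G)) c B) : ∃ (I : Cfsg.IrrCharacter (Subgroup.normalizer (P : Set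 G)) → Cfsg.IrrCharacter G) (ε : Cfsg.IrrCharacter (Subgroup.normalizer (P : Set G)) → ℤ), Cfsg.IsPerfectIsometry 2 M c B I ε := by
  have := Fintype.ofFinite G
  have := Fintype.ofFinite P
  have := Fintype.ofFinite (NS P)
  have := Fintype.ofFinite (P.subgroupOf (NS P))
  obtain ⟨e, hm⟩ := exists_maxP hM hc.1 hcD
  obtain ⟨h1, h2⟩ := hm.up hM hc hPD le_rfl
  have h3 := fb_kf hM hB h1 hV
  have h4 := FB.sub le_rfl hm hc.1 h3 h2
  have φ := Subgroup.subgroupOfEquivOfLe (P.le_normalizer)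
  have hV' : IsKleinFour (P.subgroupOf (NS P)) := ⟨(Nat.card_congr φ.toEquiv).trans hV.1, (Monoid.exponent_eq_of_mulEquiv φ).trans hV.2⟩
  obtain ⟨Θ, x, h5⟩ := h3.kf_fs hV
  obtain ⟨Θ', x', h6⟩ := h4.kf_fs hV'
  have h7 := h5.transport (Subgroup.subgroupOfEquivOfLe P.le_normalizer)
  rw [← h2, ga_sub _ (Stab_le _ _) (h2 ▸ Stab_le _ _)] at h7
  have := Finite.one_lt_card_iff_nontrivial.1 (show 1 < Nat.card (P.subgroupOf (NS P)) by simp)
  have h8 := h6.toFr.card_OS
  have h9 := (h4.kf hV').2.2.1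
  rw [← card_ga (Stab_le _ _)] at h9
  rw [hV'.1] at h8
  have h10 : ∀ a b : ℕ, a * b + 1 = 4 → a = 1 ∨ a = 3 → a + b ≤ 4 := by rintro a b h (rfl | rfl) <;> omega
  obtain ⟨I, ε, h, -⟩ := h7.perfect_dade hM h6 ((h10 _ _ h8 h9).trans (h3.kf hV).1.ge) ((h10 _ _ h8 h9).trans (h4.kf hV').1.ge)
  exact ⟨I, ε, h⟩

end Cfsg.Agent.S4638
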