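import Cfsg.Statements.S4640
import Cfsg.Agent.H4.Dade

set_option autoImplicit false
open Cfsg

namespace Cfsg.Agent.S4640

open H4 H1 MonoidAlgebra
open scoped Pointwise


/-- Let N be a normal subgroup of the finite group G of index a power of the prime p, M a maximal ideal of the algebraic integers containing p, b a block of N stabilized by every element of G, and B a block of G covering b (some member of B has a member of b as a constituent of its restriction to N). Suppose that B has a commutative defect group P. Then G = NP and P ∩ N is a defect group of b; every member of B restricts to a member of b; every member of b is the restriction of exactly [G : N] members of B; B contains exactly [G : N] times as many irreducible characters as b; and B and b have the same p-regular rank. -/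
theorem result {G : Type*} [Group G] [Fintype G] (p : ℕ) [Fact p.Prime] (M : Ideal Cfsg.AlgInt) (hM : Cfsg.IsPModular p M) (N : Subgroup G) [N.Normal] [Fintype N] (hNi : ∃ k : ℕ, N.index = p ^ k) (b : Set (Cfsg.IrrCharacter N)) (hb : Cfsg.IsPBlock M b) (hstab : ∀ g : G, Cfsg.StabilizesBlock N b g) (B : Set (Cfsg.IrrCharacter G)) (hB : Cfsg.IsPBlock M B) (hcov : ∃ χ ∈ B, ∃ θ ∈ b, Cfsg.classInner (fun n : N => (χ : G → ℂ) n) (θ : N → ℂ) ≠ 0) (P : Subgroup G) (hPD : Cfsg.IsDefectGroup p M B P) (hPab : ∀ x ∈ P, ∀ y ∈ P, x * y = y * x) : N ⊔ P = ⊤ ∧ Cfsg.IsDefectGroup p M b ((P ⊓ N).subgroupOf N) ∧ (∀ χ ∈ B, ∃ θ ∈ b, ∀ n : N, (χ : G → ℂ) n = (θ : N → ℂ) n) ∧ (∀ θ ∈ b, Nat.card {χ : Cfsg.IrrCharacter G // χ ∈ B ∧ ∀ n : N, (χ : G → ℂ) n = (θ : N → ℂ) n} = N.index) ∧ Nat.card B = N.index * Nat.card b ∧ Cfsg.blockRank p B = Cfsg.blockRank p b := by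
  classical
  obtain ⟨n, hn⟩ := hNi
  have h0 := (cov_iff hM hB hb).1 hcov
  have h1 : aE M N b ∈ Fix (k M) ⊤ := mem_Fix.2 fun g _ => ((stabilizesBlock_iff hM hb).1 (hstab g)).2
  have h2 := (isBI_eB hM hB).eq_of_mul ((isBI_aE hM hb).of_pow hM le_top (NS_eq_top N).ge
    (by rwa [Subgroup.relIndex_top_right]) h1) h0
  obtain ⟨h3, h4⟩ := ADG.stable hM le_top (NS_eq_top N).ge (isBI_aE hM hb) h1 (h2 ▸ (dg_iff_ADG_top hM hB).1 hPD)
  have h5 : N ⊔ P = ⊤ := by
    rw [Subgroup.relIndex_top_right] at h4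
    obtain ⟨i, -, hi⟩ := (Nat.dvd_prime_pow Fact.out).1 (hn ▸ Subgroup.index_dvd_of_le (le_sup_right : N ≤ P ⊔ N))
    rw [sup_comm, ← Subgroup.index_eq_one, hi]
    exact (Nat.pow_eq_one.2 (.inr (by_contra fun e => h4 (hi ▸ dvd_pow_self p e))))
  have h6 : ∀ g : G, ∃ u ∈ N, ∃ x ∈ P, u * x = g := fun g =>
    Subgroup.mem_sup_of_normal_left.1 (h5.ge (Subgroup.mem_top g))
  have h7 : commutator G ≤ N := by
    rw [← Subgroup.Normal.quotient_commutative_iff_commutator_le]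
    refine ⟨⟨fun a c => ?_⟩⟩
    obtain ⟨a, rfl⟩ := QuotientGroup.mk_surjective a
    obtain ⟨c, rfl⟩ := QuotientGroup.mk_surjective c
    obtain ⟨u, hu, x, hx, rfl⟩ := h6 a
    obtain ⟨w, hw, y, hy, rfl⟩ := h6 c
    simp only [QuotientGroup.mk_mul, (QuotientGroup.eq_one_iff _).2 hu, (QuotientGroup.eq_one_iff _).2 hw, one_mul]
    rw [← QuotientGroup.mk_mul, hPab x hx y hy, QuotientGroup.mk_mul]
  have h8 : ∀ g : G, ¬ p ∣ orderOf g → g ∈ N := fun g hg =>
    mem_of_relIndex_pow (NS_eq_top N).ge (by rwa [Subgroup.relIndex_top_right]) (Subgroup.mem_top g) hg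
  have h9 : ∀ χ ∈ B, ∀ f : G →* ℂˣ, (∀ u ∈ N, f u = 1) → (χ.1 * fun g => (f g : ℂ)) = χ.1 → f = 1 := by
    intro χ hχ f h1 h2
    refine MonoidHom.ext fun g => ?_
    obtain ⟨u, hu, x, hx, rfl⟩ := h6 g
    rw [map_mul, h1 u hu, one_mul]
    obtain ⟨c, h3, -, h4⟩ := exists_major hM hB hPD hx fun y hy => hPab y hy x hx
    by_contra e
    refine (sec_cEl (isPElt_of_mem Fact.out (dg_isPGroup hPD) hx)).sb_ne_zero hM h3 h4 hχ ?_
    rw [sb, ← blockPart_reg hM h3.1, show reg p (sh _ χ.1) = 0 from funext fun y => ?_]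
    · exact map_zero (bpL c)
    · by_cases hy : p ∣ orderOf y
      · exact reg_of_dvd _ hy
      · have := congrFun h2 (x * y)
        rw [Pi.mul_apply, map_mul, h1 _ (h8 y (by rwa [Subgroup.orderOf_coe])), mul_one] at this
        exact (reg_of_not_dvd _ hy).trans (by_contra fun e' => e (Units.ext ((mul_eq_left₀ e').1 this)))
  have h10 : ∀ χ ∈ B, Cfsg.IsIrrCharacter N fun u : N => χ.1 u := fun χ hχ => by
    refine H3.isIrr_of_norm_one (H3.char_restrict (H3.irr_char χ.2) N) ?_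
    rw [← H3.inner_indFun_left N _ (H3.irr_class χ.2), H3.indFun_restrict N (H3.irr_class χ.2),
      H3.indFun_one_normal_eq_sum, Finset.sum_mul, H3.inner_sum_left, Finset.sum_eq_single (triv G) (fun β hβ e => ?_)
      (by simp)]
    · rw [show (triv G).1 1 • (triv G).1 * χ.1 = χ.1 by ext; simp, H3.irr_inner_self χ.2]
    · have h3 := (Finset.mem_filter.mp hβ).2
      have h4 : β.1 1 = 1 := (H3.degree_one_iff_commutator_le β.2).mpr fun x hx =>
        (H3.mem_charKer (H3.irr_char β.2) x).mpr (h3 x (h7 hx))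
      obtain ⟨f, hf⟩ := H3.exists_hom_of_degree_one (H3.irr_char β.2) h4
      rw [smul_mul_assoc, H3.inner_smul_left, hf, mul_comm (fun g => (f g : ℂ)), H3.irr_inner_ne (H3.irr_mul_hom χ.2 f)
        χ.2 fun e' => e (Subtype.ext ?_), mul_zero]
      rw [hf, h9 χ hχ f (fun u hu => Units.ext (by simpa [hf] using h3 u hu)) e']
      rfl
  have h11 : ∀ χ ∈ B, ∃ θ ∈ b, ∀ u : N, χ.1 u = θ.1 u := fun χ hχ => by
    obtain ⟨θ, h1, h2⟩ := exists_under_of_cov hM hB hb h0 hχ
    exact ⟨θ, h1, congrFun (H3.irr_eq_of_inner_ne_zero (h10 χ hχ) θ.2 h2)⟩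
  have h12 : ∀ θ ∈ b, Nat.card {χ : Cfsg.IrrCharacter G // χ ∈ B ∧ ∀ u : N, χ.1 u = θ.1 u} = N.index := fun θ hθ => by
    obtain ⟨χ, hχ, h1⟩ := exists_over_of_cov hM hB hb h0 hθ
    have h2 := congrFun (H3.irr_eq_of_inner_ne_zero (h10 χ hχ) θ.2 h1)
    rw [← H3.card_hom_trivial_on N h7]
    refine (Nat.card_eq_of_bijective (fun f => ⟨⟨_, H3.irr_mul_hom χ.2 f.1⟩, mem_of_reg hM hB hχ fun g hg => by
      simp [f.2 g (h8 g hg)], fun u => by simp [f.2 u u.2, h2]⟩) ⟨fun f f' e => ?_, fun ψ => ?_⟩).symm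
    · refine Subtype.ext (div_eq_one.1 (h9 χ hχ _ (fun u hu => by simp [f.2 u hu, f'.2 u hu]) (funext fun g => ?_)))
      have := congrArg (·.1.1 g) e
      simp only [Pi.mul_apply] at this
      simp [← mul_div_assoc, this]
    · obtain ⟨f, h3, h4⟩ := H3.linear_twist N (H3.irr_char ψ.1.2) (H3.irr_char χ.2) (h10 χ hχ)
        fun u hu => (ψ.2.2 ⟨u, hu⟩).trans (h2 ⟨u, hu⟩).symm
      exact ⟨⟨f, h3⟩, Subtype.ext (Subtype.ext (funext fun g => by simp [h4, mul_comm]))⟩
  haveI : Nonempty (Cfsg.IrrCharacter N) := ⟨triv N⟩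
  choose! r h13 h14 using h11
  have h15 : ∀ F : Cfsg.IrrCharacter N → ℂ, ∑ χ ∈ fs B, F (r χ) = N.index * ∑ θ ∈ fs b, F θ := fun F => by
    rw [← Finset.sum_fiberwise_of_maps_to (t := fs b) (g := r) fun χ hχ => mem_fs.2 (h13 χ (mem_fs.1 hχ)),
      Finset.mul_sum]
    refine Finset.sum_congr rfl fun θ hθ => ?_
    rw [Finset.sum_congr rfl (g := fun _ => F θ) fun χ hχ => by rw [(Finset.mem_filter.1 hχ).2], Finset.sum_const,
      nsmul_eq_mul, ← h12 θ (mem_fs.1 hθ), ← Nat.card_eq_finsetCard]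
    congr 2
    refine Nat.card_congr (Equiv.subtypeEquivRight fun χ => ?_)
    rw [Finset.mem_filter, mem_fs]
    exact and_congr_right fun hχ => ⟨fun e => e ▸ h14 χ hχ, fun e => Subtype.ext (funext fun u =>
      (h14 χ hχ u).symm.trans (e u))⟩
  refine ⟨h5, (dg_iff_ADG hM hb inf_le_right).2 h3, fun χ hχ => ⟨_, h13 χ hχ, h14 χ hχ⟩, h12, ?_, ?_⟩
  · have := h15 fun _ => 1
    simp only [Finset.sum_const, card_fs, nsmul_eq_mul, mul_one] at this
    exact_mod_cast this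
  · refine Nat.cast_injective (R := ℂ) (mul_left_cancel₀ (H3.card_ne_zero' G) ?_)
    rw [(RC.of_block hM hB).card_mul_rank, ← N.index_mul_card, Nat.cast_mul, mul_assoc,
      (RC.of_block hM hb).card_mul_rank, Finset.mul_sum, ← Finset.sum_subset (Finset.subset_univ
      (Finset.univ.filter (· ∈ N))) fun g _ hg => reg_of_dvd _ (by_contra fun e => hg (by simpa using h8 g e)),
      Finset.sum_subtype (p := (· ∈ N)) _ (by simp)]
    refine Finset.sum_congr rfl fun u _ => ?_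
    by_cases e : p ∣ orderOf u
    · rw [reg_of_dvd _ e, reg_of_dvd _ (by rwa [Subgroup.orderOf_coe]), mul_zero]
    · rw [reg_of_not_dvd _ e, reg_of_not_dvd _ (by rwa [Subgroup.orderOf_coe]), KB, KB,
        ← h15 fun θ => θ.1 u * starRingEnd ℂ (θ.1 u)]
      exact Finset.sum_congr rfl fun χ hχ => by rw [h14 χ (mem_fs.1 hχ)]

end Cfsg.Agent.S4640
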