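import Cfsg.Statements.S4644
import Cfsg.Agent.H4.Wat

set_option autoImplicit false
open Cfsg

namespace Cfsg.Agent.S4644

open H4 H1 MonoidAlgebra
open scoped Pointwise


/-- Let B be a block of the finite group G relative to a maximal ideal M of the algebraic integers containing the prime p, with a commutative defect group P; let c be a block of C_G(P) inducing B and T the stabilizer of c in N_G(P). Let u be an element of P fixed under conjugation by every element of T, H = C_G(u) (so C_G(P) ≤ H), and f the block of H induced by c inside H. Then B and f have the same p-regular rank and the same number of irreducible characters. -/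
theorem result {G : Type*} [Group G] [Finite G] (p : ℕ) [Fact p.Prime] (M : Ideal Cfsg.AlgInt) (hM : Cfsg.IsPModular p M) (B : Set (Cfsg.IrrCharacter G)) (hB : Cfsg.IsPBlock M B) (P : Subgroup G) (hPD : Cfsg.IsDefectGroup p M B P) (hPab : ∀ x ∈ P, ∀ y ∈ P, x * y = y * x) (c : Set (Cfsg.IrrCharacter (Subgroup.centralizer (P : Set G)))) (hc : Cfsg.IsInducedBlock M (Subgroup.centralizer (P : Set G)) c B) (T : Subgroup G) (hT : ∀ g : G, g ∈ T ↔ (g ∈ Subgroup.normalizer (P : Set G) ∧ Cfsg.StabilizesBlock (Subgroup.centralizer (P : Set G)) c g)) (u : G) (hu : u ∈ P) (huT : ∀ g ∈ T, g * u * g⁻¹ = u) (H : Subgroup G) (hH : H = Subgroup.centralizer ({u} : Set G)) (f : Set (Cfsg.IrrCharacter H)) (hf : Cfsg.IsInducedBlockIn M H (Subgroup.centralizer (P : Set G)) c f) : Cfsg.blockRank p B = Cfsg.blockRank p f ∧ Nat.card B = Nat.card f := by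
  subst hH
  have hab : P ≤ CS P := fun x hx y hy => hPab y hy x hx
  have hm := maxP_of_ind hM hPD hc
  have h1 : Stab (NS P) (aE M _ c) ≤ C1 u := fun g hg => mem_centralizer_singleton.2
    (mul_inv_eq_iff_eq_mul.1 (huT g ((hT g).2 ((mem_Stab_iff hM hc.1).1 hg)))).symm
  obtain ⟨h2, h3⟩ := MaxP.le_C1 hab ⟨u, hu⟩
  obtain ⟨-, h4, -⟩ := (isInducedBlockIn_iff hM h2).1 hf
  obtain rfl : f = lb p P (aE M _ c) u := aE_inj hM h4 (hm.lb hM hB ⟨u, hu⟩).1.1 (Loc.unique hM hm h3 ⟨isBI_aE hM h4,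
    (indIn_iff_mul hM h4 hc.1 hm.dg.isP hab h2 (CS_le_NS P) inf_le_left).1 hf⟩ (hm.loc_lb hM hB hab ⟨u, hu⟩))
  exact ⟨wat hM G B P _ hB hm hab ⟨u, hu⟩ h1, wat_card hM hB hm hab (u := ⟨u, hu⟩) h1⟩

end Cfsg.Agent.S4644
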