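import Cfsg.Statements.S4645
import Cfsg.Agent.H4.Abel

set_option autoImplicit false
open Cfsg

namespace Cfsg.Agent.S4645

open H4 H1 MonoidAlgebra
open scoped Pointwise


/-- Let B be a block of the finite group G relative to a maximal ideal M of the algebraic integers containing the prime p, with a nontrivial cyclic defect group P; let c be a block of C_G(P) inducing B and T the stabilizer of c in N_G(P). Let Q be a nontrivial subgroup of P (so C_G(P) ≤ C_G(Q)), f the block of C_G(Q) induced by c inside C_G(Q), and T' the stabilizer of f in N_G(Q). Then T' = T·C_G(Q), the index of C_G(Q) in T' equals the index of C_G(P) in T, f has p-regular rank 1, and f is a nilpotent block of C_G(Q). -/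
theorem result {G : Type*} [Group G] [Finite G] (p : ℕ) [Fact p.Prime] (M : Ideal Cfsg.AlgInt) (hM : Cfsg.IsPModular p M) (B : Set (Cfsg.IrrCharacter G)) (hB : Cfsg.IsPBlock M B) (P : Subgroup G) (hPD : Cfsg.IsDefectGroup p M B P) (hP1 : P ≠ ⊥) (hcyc : IsCyclic P) (c : Set (Cfsg.IrrCharacter (Subgroup.centralizer (P : Set G)))) (hc : Cfsg.IsInducedBlock M (Subgroup.centralizer (P : Set G)) c B) (T : Subgroup G) (hT : ∀ g : G, g ∈ T ↔ (g ∈ Subgroup.normalizer (P : Set G) ∧ Cfsg.StabilizesBlock (Subgroup.centralizer (P : Set G)) c g)) (Q : Subgroup G) (hQP : Q ≤ P) (hQ1 : Q ≠ ⊥) (f : Set (Cfsg.IrrCharacter (Subgroup.centralizer (Q : Set G)))) (hf : Cfsg.IsInducedBlockIn M (Subgroup.centralizer (Q : Set G)) (Subgroup.centralizer (P : Set G)) c f) (T' : Subgroup G) (hT' : ∀ g : G, g ∈ T' ↔ (g ∈ Subgroup.normalizer (Q : Set G) ∧ Cfsg.StabilizesBlock (Subgroup.centralizer (Q : Set G)) f g)) : T' = T ⊔ Subgroup.centralizer (Q : Set G)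 ∧ (Subgroup.centralizer (Q : Set G)).relIndex T' = (Subgroup.centralizer (P : Set G)).relIndex T ∧ Cfsg.blockRank p f = 1 ∧ Cfsg.IsNilpotentBlock p M f := by
  have hP := (dg_iff_ADG_top hM hB).1 hPD
  have hm : MaxP p (eB M B) P (aE M _ c) := ⟨isBI_eB hM hB, hP, isBI_aE hM hc.1, (ind_CS_iff hM hP.isP hc.1 hB).1 hc⟩
  have hf' := hf.2.1
  obtain rfl := eq_Stab hM hc.1 hT
  obtain rfl := eq_Stab hM hf' hT'
  have hab := cyclic_le_CS hcyc
  have h0 := hab.trans (CS_anti hQP)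
  have h1 : SLE p Q (aE M _ f) P (aE M _ c) := NSub.sle ⟨hP.isP, isBI_aE hM hf', hm.be, hQP, h0.trans (CS_le_NS Q),
    Fix_anti h0 (aE_mem_ZA _ f).1, (indIn_iff_mul hM hf' hc.1 hP.isP hab (CS_anti hQP) (CS_le_NS P) inf_le_left).1 hf⟩
  have h7 := hm.not_dvd hM
  rw [sup_eq_right.2 hab] at h7
  have hF : Free P (Stab (NS P) (aE M _ c)) := fun g hg x hx h2 h3 =>
    cyclic_free hcyc hP.isP (Stab_le _ _) h7 hg hx h2 (mul_inv_eq_iff_eq_mul.1 h3).symm
  obtain ⟨x, rfl⟩ := (Subgroup.isCyclic_iff_exists_zpowers_eq_top Q).1 (Subgroup.isCyclic_of_le hQP)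
  have hx := hQP (Subgroup.mem_zpowers x)
  have h2 := (Stab_le _ (aE M _ c)).trans (cyclic_NS_zpowers hcyc hx)
  have h3 := le_antisymm (fun g hg => by
    obtain ⟨w, k1, k2⟩ := hm.abelian hM hab h1 hg
    rw [← inv_mul_cancel_left w g, sup_comm]
    exact Subgroup.mul_mem_sup (inv_mem k1) k2)
    (sup_le (fun g hg => ⟨h2 hg, h1.cj_eq hM hg (h2 hg)⟩) (CS_le_Stab h1.bf) : _ ⊔ _ ≤ Stab (NS _) (aE M _ f))
  have h4 := hF.nil hM hB hm hab hQ1 hf' rfl h1
  refine ⟨h3, ?_, h4.rank hM hf', (isNilpotentBlock_iff_top hM).2 ⟨hf', h4⟩⟩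
  rw [h3, relIndex_sup_of_le_normalizer (h2.trans (NS_le_NS_CS _)), ← Subgroup.inf_relIndex_left]
  congr 1
  exact (congrArg _ (CS_zpowers x)).trans (hF.inf_eq (CS_le_Stab hm.be) (t := ⟨x, hx⟩) (by simpa using hQ1))

end Cfsg.Agent.S4645
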