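import Cfsg.Statements.S4649
import Cfsg.Agent.H4.Cyc2

set_option autoImplicit false
open Cfsg

namespace Cfsg.Agent.S4649

open H4 H1 MonoidAlgebra
open scoped Pointwise


/-- A block with cyclic defect group, of a finite group relative to a maximal ideal M of the algebraic integers containing the prime p, is nilpotent if and only if its p-regular rank is 1 (it has a unique irreducible Brauer character). -/
theorem result {G : Type*} [Group G] [Finite G] (p : ℕ) [Fact p.Prime] (M : Ideal Cfsg.AlgInt) (hM : Cfsg.IsPModular p M) (B : Set (Cfsg.IrrCharacter G)) (hB : Cfsg.IsPBlock M B) (P : Subgroup G) (hPD : Cfsg.IsDefectGroup p M B P) (hcyc : IsCyclic P) : Cfsg.IsNilpotentBlock p M B ↔ Cfsg.blockRank p B = 1 := by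
  obtain ⟨e, hm⟩ := exists_maxP hM hB hPD
  refine (isNilpotentBlock_iff_top hM).trans ⟨fun h => h.2.rank hM hB, fun h => ⟨hB, aNil_of_ab hM hm (cyclic_le_CS hcyc) ?_⟩⟩
  by_cases h0 : P = ⊥
  · subst h0; exact fun g _ x hx => by rw [Subgroup.mem_bot.1 hx]; simp
  · exact Subgroup.relIndex_eq_one.1 ((cyc_rank (fb_cyc hM hB hm hcyc) hcyc h0).symm.trans h)

end Cfsg.Agent.S4649
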