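import Cfsg.Statements.S4648
import Cfsg.Agent.H4.SLoc
import Cfsg.Agent.S4649

set_option autoImplicit false
open Cfsg

namespace Cfsg.Agent.S4648

open H4 H1 MonoidAlgebra
open scoped Pointwise


/-- Let B be a block of the finite group G relative to a maximal ideal M of the algebraic integers containing the prime p, with a nontrivial defect group D. If B has p-regular rank 1 and at most four irreducible characters, then B is nilpotent, D has exactly as many elements as B has irreducible characters, and p is 2 or 3. -/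
theorem result {G : Type*} [Group G] [Finite G] (p : ℕ) [Fact p.Prime] (M : Ideal Cfsg.AlgInt) (hM : Cfsg.IsPModular p M) (B : Set (Cfsg.IrrCharacter G)) (hB : Cfsg.IsPBlock M B) (D : Subgroup G) (hD : Cfsg.IsDefectGroup p M B D) (hD1 : D ≠ ⊥) (hl : Cfsg.blockRank p B = 1) (hk : Nat.card B ≤ 4) : Cfsg.IsNilpotentBlock p M B ∧ Nat.card D = Nat.card B ∧ (p = 2 ∨ p = 3) := by
  have h1 := dg_card hM hB hD
  have h2 := card_eq_of_small hM hB hl hk
  have h3 : blockDefect p B ≠ 0 := fun e => hD1 (Subgroup.card_eq_one.1 (by rw [h1, e, pow_zero]))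
  have hp : p.Prime := Fact.out
  have h4 : p ≤ 4 := (Nat.le_self_pow h3 p).trans (h2 ▸ hk)
  have h5 : p = 2 ∨ p = 3 := by
    have := hp.two_le
    interval_cases p <;> simp_all (config := {decide := true})
  refine ⟨?_, h1.trans h2.symm, h5⟩
  by_cases hc : IsCyclic D
  · exact (Cfsg.Agent.S4649.result p M hM B hB D hD hc).2 hl
  have h6 : Nat.card D = 4 := by
    have h7 : Nat.card D ≤ 4 := h1 ▸ h2 ▸ hk
    have h8 := (Subgroup.one_lt_card_iff_ne_bot D).2 hD1
    have := Fact.mk Nat.prime_two
    have := Fact.mk Nat.prime_three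
    by_contra h
    rcases (by omega : Nat.card D = 2 ∨ Nat.card D = 3) with e | e <;> exact hc (isCyclic_of_prime_card e)
  obtain rfl : p = 2 := h5.resolve_right fun e => by
    have : p ∣ 4 := h6 ▸ h1 ▸ dvd_pow_self p h3
    rw [e] at this; omega
  have hk4 : IsKleinFour D := ⟨h6, (not_isCyclic_iff_exponent_eq_prime Nat.prime_two (by rw [h6]; rfl)).1 hc⟩
  obtain ⟨e, hm⟩ := exists_maxP hM hB hD
  have h := fb_kf hM hB hm hk4
  exact (isNilpotentBlock_iff_top hM).2 ⟨hB, aNil_of_ab hM hm h.ab (Subgroup.relIndex_eq_one.1 (by rw [← hl]; exact (h.kf hk4).2.2.2.symm))⟩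

end Cfsg.Agent.S4648
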