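import Cfsg.Statements.S4651
import Cfsg.Agent.H4.KR

set_option autoImplicit false
open Cfsg

namespace Cfsg.Agent.S4651

open H4 H1 MonoidAlgebra
open scoped Pointwise


/-- An alternating-sum identity over chains of p-subgroups (the character-count form behind the chain reformulation of Alperin's weight conjecture, which holds unconditionally for the difference k − l). Let b be a block of the finite group G relative to a maximal ideal M of the algebraic integers containing the prime p. Consider the nonempty chains s = {Q_0 < Q_1 < ⋯ < Q_m} of nontrivial p-subgroups of G in which every member is normal in the largest member; let N_G(s) be the intersection of the normalizers of the members (the stabilizer of the chain), and let b_s be the set of irreducible characters of N_G(s) lying in blocks of N_G(s) that induce b. Then #G · (k(b) − l(b)) equals the sum over all such chains s of (−1)^m · #N_G(s) · (k(b_s) − l(b_s)), where k counts irreducible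 characters and l is the p-regular rank; equivalently, k(b) − l(b) is the alternating sum of k(b_s) − l(b_s) over representatives of the conjugacy classes of such chains. -/
theorem result {G : Type*} [Group G] [Finite G] (p : ℕ) [Fact p.Prime] (M : Ideal Cfsg.AlgInt) (hM : Cfsg.IsPModular p M) (b : Set (Cfsg.IrrCharacter G)) (hb : Cfsg.IsPBlock M b) : (Nat.card G : ℤ) * ((Nat.card b : ℤ) - (Cfsg.blockRank p b : ℤ)) = ∑ᶠ s ∈ {s : Finset (Subgroup G) | s.Nonempty ∧ (∀ Q ∈ s, ∀ R ∈ s, Q ≤ R ∨ R ≤ Q) ∧ (∀ Q ∈ s, Q ≠ ⊥ ∧ IsPGroup p Q) ∧ ∃ T ∈ s, ∀ Q ∈ s, Q ≤ T ∧ T ≤ Subgroup.normalizer ((Q : Subgroup G) : Set G)}, (-1 : ℤ) ^ (s.card - 1) * (Nat.card (((⨅ Q ∈ s, Subgroup.normalizer ((Q : Subgroup G) : Set G) : Subgroup G))) : ℤ) * ((Nat.card {ψ : Cfsg.IrrCharacter (((⨅ Q ∈ s, Subgroup.normalizer ((Q : Subgroup G) : Set G) : Subgroup G))) | ∃ β : Set (Cfsg.IrrCharacter (((⨅ Q ∈ s, Subgroup.normalizer ((Q : Subgroup G) : Set G) : Subgroup G)))),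 ψ ∈ β ∧ Cfsg.IsInducedBlock M (((⨅ Q ∈ s, Subgroup.normalizer ((Q : Subgroup G) : Set G) : Subgroup G))) β b} : ℤ) - (Cfsg.blockRank p {ψ : Cfsg.IrrCharacter (((⨅ Q ∈ s, Subgroup.normalizer ((Q : Subgroup G) : Set G) : Subgroup G))) | ∃ β : Set (Cfsg.IrrCharacter (((⨅ Q ∈ s, Subgroup.normalizer ((Q : Subgroup G) : Set G) : Subgroup G)))), ψ ∈ β ∧ Cfsg.IsInducedBlock M (((⨅ Q ∈ s, Subgroup.normalizer ((Q : Subgroup G) : Set G) : Subgroup G))) β b} : ℤ)) := by
  classical
  cases nonempty_fintype G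
  refine Int.cast_injective (α := ℂ) ?_
  rw [finsum_mem_eq_fs]
  push_cast
  have h0 : b = UB (eB M b) := Set.ext fun χ => mem_iff_lam_eB hM hb
  rw [h0, card_sub_rank hM (φ := .id G) Function.injective_id (eB_mem_Z b) fun _ => rfl, ← h0, eq_comm,
    Finset.sum_congr rfl (g := fun s : Finset (Subgroup G) => (-1) ^ (s.card - 1) * ∑ g with p ∣ orderOf g,
      Vw p (eB M b) g ((⨅ Q ∈ s, NS Q) ⊓ C1 (pp p g))) fun s hs => ?_]
  · simp only [Finset.mul_sum]
    rw [Finset.sum_comm, eq_comm]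
    refine Finset.sum_congr rfl fun g hg => ?_
    have h1 := chain_sum (isPElt_pp (Fact.out : p.Prime) g)
      (mt (pp_eq_one_iff Fact.out).1 (not_not.2 (Finset.mem_filter.1 hg).2)) (Vw p (eB M b) g)
    rw [← Finset.add_sum_erase (fs {s | Ch p (pp p g) s}) _ (a := ∅) (mem_fs.2 (show Ch p _ ∅ from ⟨by simp, by simp, by simp, by simp⟩)), add_eq_zero_iff_eq_neg,
      ← Finset.sum_neg_distrib] at h1
    refine .trans (by simp [MonoidHom.range_eq_top.2 (show Function.Surjective (MonoidHom.id G) from fun x => ⟨x, rfl⟩)]) (h1.trans (.trans (Finset.sum_congr rfl fun s hs => ?_) (Finset.sum_subset (fun s hs => ?_)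
      fun s hs h => ?_)))
    · obtain ⟨n, hn⟩ := Nat.exists_eq_succ_of_ne_zero (Finset.card_ne_zero.2
        (Finset.nonempty_iff_ne_empty.2 (Finset.ne_of_mem_erase hs)))
      rw [hn, Nat.succ_sub_one, pow_succ]; ring
    · obtain ⟨h2, h3⟩ := Finset.mem_erase.1 hs
      have h3 := mem_fs.1 h3
      obtain ⟨Q, hQ⟩ := Finset.nonempty_iff_ne_empty.2 h2
      have h4 := (sup_mem_of_tot h3.tot).resolve_left fun e => (h3.isP Q hQ).1 (le_bot_iff.1 (e ▸ Finset.le_sup (f := id) hQ))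
      exact mem_fs.2 ⟨⟨Q, hQ⟩, h3.tot, h3.isP, _, h4, fun R hR => ⟨Finset.le_sup (f := id) hR, h3.nor R hR _ h4⟩⟩
    · obtain ⟨h2, h3, h4, T, -, h5⟩ := mem_fs.1 hs
      rw [Vw, dif_neg fun e => h (Finset.mem_erase.2 ⟨h2.ne_empty, mem_fs.2 ⟨h3, h4, fun Q hQ R hR =>
        (h5 R hR).1.trans (h5 Q hQ).2, by simpa [Subgroup.mem_iInf] using pp_mem (p := p) e.1⟩⟩), mul_zero]
  obtain ⟨-, -, h4, T, h5, h6⟩ := mem_fs.1 hs
  have h7 := card_sub_rank hM (⨅ Q ∈ s, NS Q).subtype_injective (eB_mem_Z b) (E' := resA _ (eB M b)) fun _ => coeff_resA _ _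
  have h8 : ∀ β, IsPBlock M β → (IsInducedBlock M (⨅ Q ∈ s, NS Q) β b ↔ lamB M β (resA _ (eB M b)) ≠ 0) := fun β hβ =>
    ind_iff_of_defined hM (exists_ind hM (h4 T h5).2 (le_iInf₂ fun Q hQ => (h6 Q hQ).2)
      (le_iInf₂ fun Q hQ => (CS_anti (h6 Q hQ).1).trans (CS_le_NS Q)) (iInf₂_le T h5) hβ) hb
  rw [Subgroup.range_subtype] at h7
  rw [← h7, mul_assoc, show UB (resA _ (eB M b)) = {ψ | ∃ β, ψ ∈ β ∧ IsInducedBlock M (⨅ Q ∈ s, NS Q) β b} from
    Set.ext fun ψ => ⟨fun h => ⟨_, mem_blockOf_self hM ψ, (h8 _ (isPBlock_blockOf ψ.2)).2 (by rwa [lamB_blockOf hM ψ.2])⟩,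
      fun ⟨β, h1, h2⟩ => by have := (h8 β h2.1).1 h2; rwa [lamB_eq hM h2.1 h1] at this⟩]

end Cfsg.Agent.S4651
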