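import Cfsg.Statements.S4654
import Cfsg.Agent.H4.Cover

set_option autoImplicit false
open Cfsg

namespace Cfsg.Agent.S4654

open H4 H1 MonoidAlgebra
open scoped Pointwise


/-- Fix a prime p and a maximal ideal M of the algebraic integers containing p. Let P be a normal p-subgroup of the finite group G, B a p-block of G and e a p-block of C_G(P) such that (P, e) is a Brauer pair of B (as P is normal, this says that e occurs in the idempotent of B, which is supported on C_G(P)). Let T be the stabilizer of e in G under conjugation. Then the idempotent of e is a block idempotent of T: some block E of T has, at every element of T, the same idempotent coefficient as e (zero off C_G(P)); and the idempotent of B is the sum of the distinct G-conjugates of the idempotent of e: its coefficient at g is the sum over all x in G of the coefficient of e at x⁻¹ g x, divided by the order of T. -/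
theorem result {G : Type*} [Group G] [Fintype G] (p : ℕ) [Fact p.Prime] (M : Ideal Cfsg.AlgInt) (hM : Cfsg.IsPModular p M) (P : Subgroup G) [P.Normal] (hP : IsPGroup p P) (B : Set (Cfsg.IrrCharacter G)) (e : Set (Cfsg.IrrCharacter (Subgroup.centralizer (P : Set G)))) (hBe : Cfsg.IsBrauerPairOf p M B P e) (T : Subgroup G) (hT : ∀ x : G, x ∈ T ↔ Cfsg.StabilizesBlock (Subgroup.centralizer (P : Set G)) e x) : (∃ E : Set (Cfsg.IrrCharacter T), Cfsg.IsPBlock M E ∧ ∀ t : T, Cfsg.blockCoeff E t = Cfsg.subgroupBlockCoeff (Subgroup.centralizer (P : Set G)) e (t : G)) ∧ ∀ g : G, Cfsg.blockCoeff B g = (Nat.card T : ℂ)⁻¹ * ∑ x : G, Cfsg.subgroupBlockCoeff (Subgroup.centralizer (P : Set G)) e (x⁻¹ * g * x) := by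
  obtain ⟨-, he, hB, h1⟩ := (isBrauerPairOf_iff hM).1 hBe
  obtain rfl : T = Stab (NS P) (aE M (CS P) e) := eq_Stab hM he fun y => by
    rw [hT]; exact (and_iff_right (mem_NS_of_normal P y)).symm
  have hf := isBI_aE hM he
  refine ⟨?_, fun g => ?_⟩
  · obtain ⟨E, h2, -, h3⟩ := exists_block_coeff hM (CS_le_Stab hf) he (hf.stab hM hP)
    exact ⟨E, h2, h3⟩
  · rw [Br_eB_normal hM hB hP] at h1
    have hN : NS P ≤ NS (CS P) := NS_le_NS_CS P
    have h2 : eB M B = orb (NS P) (aE M (CS P) e) := by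
      refine ((isBI_eB hM hB).mul_idem_mem ?_ (orb_idem hN hf) (orb_ne_zero hN hf)
        (mul_orb_eq (Z_le_Fix _ (eB_mem_Z B)) h1)).symm
      exact ⟨NS_eq_top P ▸ orb_mem_Fix _ _, fun _ h => (h trivial).elim⟩
    have h3 : aF (CS P) e ∈ Fix ℂ (Stab (NS P) (aE M (CS P) e)) :=
      aF_mem_Fix hM ((Stab_le _ _).trans hN) he (mem_Fix_Stab _ _)
    have h9 := aF_mem_IntA hM he
    have h8 : fI B = Tr (Stab (NS P) (aE M (CS P) e)) (NS P) (aF (CS P) e) := by
      refine fI_eq_of_eB hM hB (Tr_mem_IntA _ _ h9) ?_ (by rw [redA_Tr _ _ h9, redA_aF, h2])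
      rw [mul_Tr (Tr_mem_Fix (Stab_le _ _) h3), Tr_mul_self (Stab_le _ _) h3 fun x hx hx' => ?_, aF_mul_self]
      by_contra h4
      rw [← Ne, ← mul_ne_zero_iff_redA (cj_mem_IntA x h9) h9
        (ZA_comm_Fix (cj_mem_ZA' (hN hx) (aF_mem_ZA _ e)) (aF_mem_ZA _ e).1)
        (by rw [← map_mul, aF_mul_self]) (aF_mul_self _ _), redA_cj, redA_aF] at h4
      exact hx' ⟨hx, (hf.cj' (hN hx)).eq_of_mul hf h4⟩
    rw [← coeff_fI, h8, eq_comm, inv_mul_eq_iff_eq_mul₀ (H3.card_ne_zero' _), ← nsmul_eq_mul,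
      ← coeff_smul_apply, ← sum_cj_eq (Stab_le _ _) h3, coeff_sum']
    refine Finset.sum_congr ?_ fun x _ => by rw [coeff_cj, coeff_aF]
    ext x; simp [mem_NS_of_normal]

end Cfsg.Agent.S4654
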