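import Cfsg.Statements.S4662
import Cfsg.Agent.H4.Pairs

set_option autoImplicit false
open Cfsg

namespace Cfsg.Agent.S4662

open H4 H1 MonoidAlgebra
open scoped Pointwise


/-- Fix a prime p and a maximal ideal M of the algebraic integers containing p. Let (P, e) be a maximal Brauer pair of the p-block B of the finite group G, Q ≤ P, and f the p-block of C_G(Q) with (Q, f) ≤ (P, e). Let T be the stabilizer of f in N_G(Q). Then the idempotent of f is a block idempotent of T, and N_P(Q) is contained in a defect group of that block of T; moreover for some x in G the conjugate pair (x Q x⁻¹, conjugate of f) again lies below (P, e) and, with T' the stabilizer of the conjugate of f in N_G(x Q x⁻¹), N_P(x Q x⁻¹) is a defect group of the block of T' whose idempotent is that of the conjugate of f. -/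
theorem result {G : Type*} [Group G] [Fintype G] (p : ℕ) [Fact p.Prime] (M : Ideal Cfsg.AlgInt) (hM : Cfsg.IsPModular p M) (B : Set (Cfsg.IrrCharacter G)) (P Q : Subgroup G) (e : Set (Cfsg.IrrCharacter (Subgroup.centralizer (P : Set G)))) (f : Set (Cfsg.IrrCharacter (Subgroup.centralizer (Q : Set G)))) (hmax : Cfsg.IsMaximalBrauerPair p M B P e) (hQP : Q ≤ P) (hf : Cfsg.IsPBlock M f) (hle : Cfsg.SubpairLE p M Q f P e) (T : Subgroup G) (hT : ∀ y : G, y ∈ T ↔ y ∈ Subgroup.normalizer (Q : Set G) ∧ Cfsg.StabilizesBlock (Subgroup.centralizer (Q : Set G)) f y) : (∃ F : Set (Cfsg.IrrCharacter T), Cfsg.IsPBlock M F ∧ (∀ t : T, Cfsg.blockCoeff F t = Cfsg.subgroupBlockCoeff (Subgroup.centralizer (Q : Set G)) f (t : G)) ∧ ∃ D : Subgroup T, Cfsg.IsDefectGroup p M F D ∧ (P ⊓ Subgroup.normalizer (Q : Set G)).subgroupOf T ≤ D) ∧ ∃ x : G, Cfsg.SubpairLE p M (Q.map (MulAut.conj x).toMonoidHom) (Cfsg.conjBlock Q x f) P e ∧ ∀ (T' : Subgroup G), (∀ y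 : G, y ∈ T' ↔ y ∈ Subgroup.normalizer ((Q.map (MulAut.conj x).toMonoidHom) : Set G) ∧ Cfsg.StabilizesBlock (Subgroup.centralizer ((Q.map (MulAut.conj x).toMonoidHom) : Set G)) (Cfsg.conjBlock Q x f) y) → ∃ F' : Set (Cfsg.IrrCharacter T'), Cfsg.IsPBlock M F' ∧ (∀ t : T', Cfsg.blockCoeff F' t = Cfsg.subgroupBlockCoeff (Subgroup.centralizer ((Q.map (MulAut.conj x).toMonoidHom) : Set G)) (Cfsg.conjBlock Q x f) (t : G)) ∧ Cfsg.IsDefectGroup p M F' ((P ⊓ Subgroup.normalizer ((Q.map (MulAut.conj x).toMonoidHom) : Set G)).subgroupOf T') := by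
  obtain ⟨hB, he, h⟩ := (isMaximal_iff hM).1 hmax
  have h1 := ((subpairLE_iff hM h.dg.isP he).1 hle).2
  obtain rfl := eq_Stab hM hf hT
  constructor
  · obtain ⟨F, h2, h3, h4⟩ := exists_block_coeff hM (CS_le_Stab h1.bf) hf (h1.bf.stab hM h1.isP)
    obtain ⟨D, h5, h6⟩ := (h1.bf.stab hM h1.isP).exists_ADG_ge hM (h1.inf_le_Stab hM)
      (h.dg.isP.to_le inf_le_left) (h1.Br_ne_zero hM)
    exact ⟨F, h2, h4, D.subgroupOf _, (dg_iff_ADG hM h2 h5.le).2 (h3.symm ▸ h5), Subgroup.subgroupOf_mono _ h6⟩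
  · obtain ⟨x, h2, h3⟩ := h.exists_good_N hM h1.isP h1.bf (h.mul_of_sle hM h1)
    refine ⟨x, (subpairLE_conj_iff hM h.dg.isP hf he x).2 h2, fun T' hT' => ?_⟩
    rw [← aE_conjBlock] at h2 h3
    obtain rfl := eq_Stab (Q := MulAut.conj x • Q) hM (isPBlock_conjBlock x hf) hT'
    obtain ⟨F, h4, h5, h6⟩ := exists_block_coeff hM (CS_le_Stab h2.bf) (isPBlock_conjBlock x hf)
      (h2.bf.stab hM h2.isP)
    exact ⟨F, h4, h6, (dg_iff_ADG hM h4 h3.le).2 (h5.symm ▸ h3)⟩

end Cfsg.Agent.S4662
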