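import Cfsg.Statements.S4664
import Cfsg.Agent.H4.Gal

set_option autoImplicit false
open Cfsg

namespace Cfsg.Agent.S4664

open H4 H1 MonoidAlgebra
open scoped Pointwise
open scoped ComplexConjugate

/-- Fix a prime p and a maximal ideal M of the algebraic integers containing p, and let B be a p-block of the finite group G. Let m be the p'-part of the order of G and η = exp(2πi/m). Then every coefficient of the idempotent of B lies in the cyclotomic field ℚ(η). -/
theorem result {G : Type*} [Group G] [Fintype G] (p : ℕ) [Fact p.Prime] (M : Ideal Cfsg.AlgInt) (hM : Cfsg.IsPModular p M) (B : Set (Cfsg.IrrCharacter G)) (hB : Cfsg.IsPBlock M B) (g : G) : Cfsg.blockCoeff B g ∈ IntermediateField.adjoin ℚ ({Complex.exp (2 * Real.pi * Complex.I / ((Nat.card G / p ^ (Nat.card G).factorization p : ℕ) : ℂ))} : Set ℂ) := by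
  have hp : p.Prime := Fact.out
  by_cases hg : p ∣ orderOf g
  · rw [blockCoeff_eq_zero hM hB hg]; exact zero_mem _
  have h0 := (Nat.card_pos (α := G)).ne'
  have h1 := (Nat.ordCompl_pos p h0).ne'
  haveI : NeZero (Nat.card G / p ^ (Nat.card G).factorization p) := ⟨h1⟩
  have h2 : orderOf g⁻¹ ∣ Nat.card G / p ^ (Nat.card G).factorization p := by
    rw [orderOf_inv]
    refine ((hp.coprime_iff_not_dvd.2 hg).symm.pow_right ((Nat.card G).factorization p)).dvd_of_dvd_mul_left ?_
    rw [Nat.ordProj_mul_ordCompl_eq_self]; exact orderOf_dvd_natCard g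
  rw [blockCoeff_eq]
  refine mul_mem (inv_mem (natCast_mem _ _)) (sum_mem fun χ _ => mul_mem (irr_one_eq χ ▸ natCast_mem _ _) ?_)
  obtain ⟨s, h3, h4⟩ := H3.char_eigen (H3.irr_char χ.2) g⁻¹
  rw [← irr_inv, ← zpow_one g⁻¹, h4]
  refine multiset_sum_mem _ fun x hx => ?_
  obtain ⟨y, hy, rfl⟩ := Multiset.mem_map.1 hx
  obtain ⟨i, -, rfl⟩ := (Complex.isPrimitiveRoot_exp _ h1).eq_pow_of_pow_eq_one (ξ := y)
    (by obtain ⟨c, hc⟩ := h2; rw [hc, pow_mul, h3 y hy, one_pow])
  rw [zpow_one]
  exact pow_mem (IntermediateField.mem_adjoin_simple_self ℚ _) i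

end Cfsg.Agent.S4664
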