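import Cfsg.Statements.S4665
import Cfsg.Agent.H4.Ctr

set_option autoImplicit false
open Cfsg

namespace Cfsg.Agent.S4665

open H4 H1 MonoidAlgebra
open scoped Pointwise


/-- Fix a prime p, a maximal ideal M of the algebraic integers containing p, and a p-block B of the finite group G, and let p^a be the p-part of the order of G. Let χ be an integer combination of the irreducible characters in B. If the function that agrees with χ on p-regular elements and vanishes on p-singular elements is again an integer combination of the irreducible characters in B, then p^a divides χ(1). -/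
theorem result {G : Type*} [Group G] [Fintype G] (p : ℕ) [Fact p.Prime] (M : Ideal Cfsg.AlgInt) (hM : Cfsg.IsPModular p M) (B : Set (Cfsg.IrrCharacter G)) (hB : Cfsg.IsPBlock M B) (χ : G → ℂ) (hχ : (∃ n : Cfsg.IrrCharacter G → ℤ, ∀ g : G, χ g = ∑ᶠ ψ ∈ B, (n ψ : ℂ) * (ψ : G → ℂ) g)) (h0 : (∃ n : Cfsg.IrrCharacter G → ℤ, ∀ g : G, Cfsg.pRegularPart p χ g = ∑ᶠ ψ ∈ B, (n ψ : ℂ) * (ψ : G → ℂ) g)) : ∃ k : ℤ, χ 1 = (p ^ (Nat.card G).factorization p : ℂ) * k := by
  have hp : p.Prime := Fact.out
  obtain ⟨h1, -⟩ := gen_in_iff.1 h0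
  rw [pRegularPart_eq] at h1
  have := div_card_mem_O_one hM (gen_mem_OC h1) fun x hx => reg_of_dvd _ hx
  obtain ⟨n, hn⟩ := H3.gen_one_int (gen_in_iff.1 hχ).1
  rw [reg_of_not_dvd _ (not_dvd_orderOf_one hp), hn, mem_O_iff, map_div₀, v_natCast hM Nat.card_pos.ne',
    div_le_one₀ (pow_pos (v_p_pos hM) _), ← int_dvd_iff_v hM] at this
  obtain ⟨m, rfl⟩ := this
  exact ⟨m, by rw [hn]; push_cast; rfl⟩

end Cfsg.Agent.S4665
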