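import Cfsg.Statements.S4666
import Cfsg.Agent.H4.Ctr

set_option autoImplicit false
open Cfsg

namespace Cfsg.Agent.S4666

open H4 H1 MonoidAlgebra
open scoped Pointwise


/-- Fix a prime p and a maximal ideal M of the algebraic integers containing p, and a p-block B of the finite group G of defect d. For every integer combination χ of the irreducible characters in B, p^d times the function that agrees with χ on p-regular elements and vanishes elsewhere is again an integer combination of the irreducible characters in B. -/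
theorem result {G : Type*} [Group G] [Fintype G] (p : ℕ) [Fact p.Prime] (M : Ideal Cfsg.AlgInt) (hM : Cfsg.IsPModular p M) (B : Set (Cfsg.IrrCharacter G)) (hB : Cfsg.IsPBlock M B) (χ : G → ℂ) (hχ : (∃ n : Cfsg.IrrCharacter G → ℤ, ∀ g : G, χ g = ∑ᶠ ψ ∈ B, (n ψ : ℂ) * (ψ : G → ℂ) g)) : (∃ n : Cfsg.IrrCharacter G → ℤ, ∀ g : G, (p ^ Cfsg.blockDefect p B : ℂ) * Cfsg.pRegularPart p χ g = ∑ᶠ ψ ∈ B, (n ψ : ℂ) * (ψ : G → ℂ) g) := by
  cases nonempty_fintype G
  obtain ⟨h1, h2⟩ := gen_in_iff.1 hχ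
  refine (gen_in_iff (θ := ((p ^ blockDefect p B : ℕ) : ℂ) • reg p χ)).2 ⟨H3.isGen_of_inner (H3.class_smul _
    (class_reg (H3.gen_class h1))) fun ψ hψ => ?_, by rw [blockPart_smul, blockPart_reg hM hB, h2]⟩ |>.imp
    fun n hn g => by rw [← hn, pRegularPart_eq]; simp
  rw [H3.inner_smul_left]
  by_cases h : (⟨ψ, hψ⟩ : IrrCharacter G) ∈ B
  · exact inner_reg_int hM h1 hψ (card_le_nu_add h)
  · exact ⟨0, by rw [inner_eq_zero_of_blockPart (χ := ⟨ψ, hψ⟩) (by rw [blockPart_reg hM hB, h2]) h]; simp⟩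

end Cfsg.Agent.S4666
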