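import Cfsg.Statements.S4668
import Cfsg.Agent.H4.Cons

set_option autoImplicit false
open Cfsg

namespace Cfsg.Agent.S4668

open H4 H1 MonoidAlgebra
open scoped Pointwise


/-- Fix a prime p and a maximal ideal M of the algebraic integers containing p. Let Q₀ < Q₁ < ⋯ < Q_m be a strictly increasing chain of p-subgroups of the finite group G and N the intersection of their normalizers. Then every block idempotent of N is supported on C_G(Q_m): for every p-block E of N, the idempotent coefficient of E vanishes at every element of N outside C_G(Q_m). -/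
theorem result {G : Type*} [Group G] [Fintype G] (p : ℕ) [Fact p.Prime] (M : Ideal Cfsg.AlgInt) (hM : Cfsg.IsPModular p M) (m : ℕ) (Q : Fin (m + 1) → Subgroup G) (hQ : StrictMono Q) (hQp : ∀ i, IsPGroup p (Q i)) (N : Subgroup G) (hN : ∀ g : G, g ∈ N ↔ ∀ i, g ∈ Subgroup.normalizer (Q i : Set G)) (E : Set (Cfsg.IrrCharacter N)) (hE : Cfsg.IsPBlock M E) (n : N) (hn : (n : G) ∉ Subgroup.centralizer (Q (Fin.last m) : Set G)) : Cfsg.blockCoeff E n = 0 := by
  by_contra h
  have h0 := fI_mem_Sup hM hE (H := (CS (Q (Fin.last m))).subgroupOf N) fun x hx => ?_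
  · exact h (h0 n hn)
  by_contra h1
  rw [← coeff_incA] at h1
  have he := isBI_aE hM hE
  have h2 := not_dvd_of_idem hM he.mem he.idem h1
  have h3 : ∀ i, N ≤ NS (Q i) := fun i g hg => (hN g).1 hg i
  have h4 := mem_of_coeff_ne_zero (idem_mem_Sup_CS hM ((hQp (Fin.last m)).to_inf_left (K := N)) inf_le_right
    (le_normalizer_inf (h3 _) Subgroup.le_normalizer) he.mem he.idem) h1
  refine hx (show (x : G) ∈ CS (Q (Fin.last m)) from Fin.induction (motive := fun i => (x : G) ∈ CS (Q i))
    (CS_anti (le_inf (hQ.monotone (Fin.le_last _)) fun g hg => (hN g).2 fun i =>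
      Subgroup.le_normalizer (hQ.monotone (Fin.zero_le i) hg)) h4) (fun i hi => ?_) _)
  refine zpowers_le_CS.1 (p_times_q (hQp i.castSucc) (coprime_zpowers h2) (hQp _) (le_CS_zpowers.2 hi)
    (le_normalizer_of_le (hQ.monotone i.castSucc_lt_succ.le)) (Subgroup.zpowers_le.2 (h3 _ x.2))
    (le_CS_zpowers.2 (CS_anti (le_inf (inf_le_left.trans (hQ.monotone (Fin.le_last _))) fun g hg =>
      (hN g).2 fun j => ?_) h4)))
  rcases le_or_gt j i.castSucc with hj | hj
  · exact CS_le_NS _ (CS_anti (hQ.monotone hj) hg.2)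
  · exact Subgroup.le_normalizer (hQ.monotone (Fin.castSucc_lt_iff_succ_le.1 hj) hg.1)

end Cfsg.Agent.S4668
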