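import Cfsg.Statements.S4670
import Cfsg.Agent.H4.Cons

set_option autoImplicit false
open Cfsg

namespace Cfsg.Agent.S4670

open H4 H1 MonoidAlgebra
open scoped Pointwise


/-- Fix a prime p and a maximal ideal M of the algebraic integers containing p. Let P be a p-subgroup of the finite group G and H a subgroup containing N_G(P). For every p-block B of G with defect group P there is exactly one p-block c of H with defect group P whose idempotent agrees with that of B, modulo the local ideal at M, at every element of C_G(P) (their Brauer-map images at P coincide); and every p-block c of H with defect group P arises in this way from exactly one such B. This is the Brauer correspondence over H. -/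
theorem result {G : Type*} [Group G] [Fintype G] (p : ℕ) [Fact p.Prime] (M : Ideal Cfsg.AlgInt) (hM : Cfsg.IsPModular p M) (P H : Subgroup G) (hP : IsPGroup p P) (hH : Subgroup.normalizer (P : Set G) ≤ H) : (∀ B : Set (Cfsg.IrrCharacter G), Cfsg.IsPBlock M B → Cfsg.IsDefectGroup p M B P → ∃! c : Set (Cfsg.IrrCharacter H), Cfsg.IsPBlock M c ∧ Cfsg.IsDefectGroup p M c (P.subgroupOf H) ∧ ∀ x : G, x ∈ Subgroup.centralizer (P : Set G) → Cfsg.MemLocalIdeal M (Cfsg.blockCoeff B x - Cfsg.subgroupBlockCoeff H c x)) ∧ (∀ c : Set (Cfsg.IrrCharacter H), Cfsg.IsPBlock M c → Cfsg.IsDefectGroup p M c (P.subgroupOf H) → ∃! B : Set (Cfsg.IrrCharacter G), Cfsg.IsPBlock M B ∧ Cfsg.IsDefectGroup p M B P ∧ ∀ x : G, x ∈ Subgroup.centralizer (P : Set G) → Cfsg.MemLocalIdeal M (Cfsg.blockCoeff B x - Cfsg.subgroupBlockCoeff H c x)) := by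
  have h0 : P ≤ H := Subgroup.le_normalizer.trans hH
  have h1 : NS P ⊓ H = NS P := inf_eq_left.2 hH
  have key : ∀ B : Set (IrrCharacter G), IsPBlock M B → ∀ c : Set (IrrCharacter H), IsPBlock M c →
      ((∀ x : G, x ∈ CS P → MemLocalIdeal M (blockCoeff B x - subgroupBlockCoeff H c x)) ↔
        Br P (eB M B) = Br P (aE M H c)) := fun B hB c hc => by
    rw [← sub_eq_zero, ← map_sub, trunc_eq_zero_iff]
    refine forall₂_congr fun x _ => ?_
    rw [memLocalIdeal_sub_iff hM (blockCoeff_mem_Alg B x) (subgroupBlockCoeff_mem_Alg H c x)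
      (blockCoeff_mem_O hM hB x) (coeff_aF H c x ▸ aF_mem_IntA hM hc x), coeff_sub, Finsupp.sub_apply,
      coeff_eB, coeff_aE, sub_eq_zero]
  refine ⟨fun B hB hD => ?_, fun c hc hD => ?_⟩
  · rw [dg_iff_ADG_top hM hB] at hD
    obtain ⟨h2, h3⟩ := first_main_top hM (isBI_eB hM hB) hD
    obtain ⟨f, h4, h5, h6⟩ := first_main_BI' hM (h1.symm ▸ h2) (h1.symm ▸ h3)
    obtain ⟨c, hc, rfl⟩ := h4.exists_block hM
    exact ⟨c, ⟨hc, (dg_iff_ADG hM hc h0).2 h5, (key B hB c hc).2 h6.symm⟩, fun c' h => aE_inj hM h.1 hc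
      (h4.eq_of_Br_eq hM (isBI_aE hM h.1) h0 hP (h6.trans ((key B hB c' h.1).1 h.2.2)) h5.ne).symm⟩
  · rw [dg_iff_ADG hM hc h0] at hD
    obtain ⟨h2, h3⟩ := first_main_BI hM (isBI_aE hM hc) hD
    obtain ⟨f, h4, h5, h6⟩ := first_main_top' hM (h1 ▸ h2) (h1 ▸ h3)
    obtain ⟨B, hB, rfl⟩ := h4.exists_block_top hM
    exact ⟨B, ⟨hB, (dg_iff_ADG_top hM hB).2 h5, (key B hB c hc).2 h6⟩, fun B' h => block_eq_of_eB hM h.1 hB
      (h4.eq_of_Br_eq hM (isBI_eB hM h.1) le_top hP (h6.trans ((key B' h.1 c hc).1 h.2.2).symm) h5.ne).symm⟩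

end Cfsg.Agent.S4670
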