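import Cfsg.Statements.S4672
import Cfsg.Agent.H4.Pairs

set_option autoImplicit false
open Cfsg

namespace Cfsg.Agent.S4672

open H4 H1 MonoidAlgebra
open scoped Pointwise


/-- Fix a prime p and a maximal ideal M of the algebraic integers containing p. Let N be a normal subgroup of the finite group G of p-power index and c a p-block of N stable under conjugation by G. Then the idempotent of c is a block idempotent of G: there is a p-block B of G whose idempotent coefficients agree with those of c on N and vanish off N; and for every defect group P of such a block B, G = NP and P ∩ N is a defect group of c. -/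
theorem result {G : Type*} [Group G] [Fintype G] (p : ℕ) [Fact p.Prime] (M : Ideal Cfsg.AlgInt) (hM : Cfsg.IsPModular p M) (N : Subgroup G) [N.Normal] (hN : ∃ k : ℕ, N.index = p ^ k) (c : Set (Cfsg.IrrCharacter N)) (hc : Cfsg.IsPBlock M c) (hst : ∀ x : G, Cfsg.StabilizesBlock N c x) : (∃ B : Set (Cfsg.IrrCharacter G), Cfsg.IsPBlock M B ∧ ∀ g : G, Cfsg.blockCoeff B g = Cfsg.subgroupBlockCoeff N c g) ∧ ∀ B : Set (Cfsg.IrrCharacter G), Cfsg.IsPBlock M B → (∀ g : G, Cfsg.blockCoeff B g = Cfsg.subgroupBlockCoeff N c g) → ∀ P : Subgroup G, Cfsg.IsDefectGroup p M B P → N ⊔ P = ⊤ ∧ Cfsg.IsDefectGroup p M c ((P ⊓ N).subgroupOf N) := by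
  have hf := isBI_aE hM hc
  have h1 : aE M N c ∈ Fix (k M) ⊤ := mem_Fix.2 fun x _ => ((stabilizesBlock_iff hM hc).1 (hst x)).2
  obtain ⟨n, hn⟩ := hN
  have h2 : IsBI ⊤ (aE M N c) := hf.of_le le_top (fun z hz h g hg => by_contra fun h3 =>
    hg (mem_of_coprime_index (by
      rw [hn]; exact ((Nat.Prime.coprime_iff_not_dvd Fact.out).2 (not_dvd_of_idem hM hz h h3)).symm.pow_right n))) h1
  refine ⟨?_, fun B hB h3 P hP => ?_⟩
  · obtain ⟨B, hB, h3⟩ := h2.exists_block_top hM
    refine ⟨B, hB, fun g => ?_⟩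
    rw [← coeff_aF, ← fI_eq_of_eB hM hB (aF_mem_IntA hM hc) (aF_mul_self N c) (by rw [redA_aF, h3]), coeff_fI]
  · have h4 : eB M B = aE M N c := ext_coeff fun g => by rw [coeff_eB, coeff_aE, h3]
    have h5 := (dg_iff_ADG_top hM hB).1 hP
    rw [h4] at h5
    obtain ⟨h6, h7⟩ := h5.stable hM le_top (NS_eq_top N).ge hf h1
    refine ⟨?_, (dg_iff_ADG hM hc inf_le_right).2 h6⟩
    rw [Subgroup.relIndex_top_right] at h7
    obtain ⟨i, -, hi⟩ := (Nat.dvd_prime_pow Fact.out).1 (hn ▸ Subgroup.index_dvd_of_le (le_sup_right : N ≤ P ⊔ N))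
    rw [sup_comm, ← Subgroup.index_eq_one, hi]
    rcases i with _ | i
    · rfl
    · exact (h7 (hi ▸ dvd_pow_self p i.succ_ne_zero)).elim

end Cfsg.Agent.S4672
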