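import Cfsg.Statements.S4673
import Cfsg.Agent.H4.Cover

set_option autoImplicit false
open Cfsg

namespace Cfsg.Agent.S4673

open H4 H1 MonoidAlgebra
open scoped Pointwise


/-- Fix a prime p and a maximal ideal M of the algebraic integers containing p. Let N ≤ L be normal subgroups of the finite group G with L/N a p-group, let B be a p-block of G covering the p-block c of N (some member of B has a constituent in c on restriction to N), and suppose that N contains a defect group of B. Then the stabilizer T of c in G satisfies T ∩ L = N. -/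
theorem result {G : Type*} [Group G] [Fintype G] (p : ℕ) [Fact p.Prime] (M : Ideal Cfsg.AlgInt) (hM : Cfsg.IsPModular p M) (N L : Subgroup G) [N.Normal] [L.Normal] [Fintype N] (hNL : N ≤ L) (hLN : ∃ k : ℕ, (N.subgroupOf L).index = p ^ k) (B : Set (Cfsg.IrrCharacter G)) (hB : Cfsg.IsPBlock M B) (c : Set (Cfsg.IrrCharacter N)) (hc : Cfsg.IsPBlock M c) (hcov : (∃ χ ∈ B, ∃ θ ∈ c, Cfsg.classInner (fun n : N => (χ : G → ℂ) n) (θ : N → ℂ) ≠ 0)) (hD : ∃ D : Subgroup G, Cfsg.IsDefectGroup p M B D ∧ D ≤ N) (T : Subgroup G) (hT : ∀ x : G, x ∈ T ↔ Cfsg.StabilizesBlock N c x) : T ⊓ L = N := by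
  haveI := charP_k hM
  obtain ⟨n, hn⟩ := hLN
  obtain ⟨D, hD, hDN⟩ := hD
  have he := isBI_aE hM hc
  have hN : ∀ K : Subgroup G, K ≤ NS N := fun K => le_top.trans (NS_eq_top N).ge
  have h1 : aE M N c ∈ Fix (k M) (T ⊓ L) := mem_Fix.2 fun x hx => ((stabilizesBlock_iff hM hc).1 ((hT x).1 hx.1)).2
  have h2 : N ≤ T ⊓ L := le_inf (fun x hx => (hT x).2 ((stabilizesBlock_iff hM hc).2
    ⟨mem_NS_of_normal N x, mem_Fix.1 he.mem.1 x hx⟩)) hNL
  obtain ⟨E, h3, -, h4⟩ := exists_ADG_stable hM h2 (hN _) he h1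
  have h5 := isBI_orb_of_pow hM hNL (hN L) hn he
  have hEL := h3.le.trans inf_le_right
  have h6 := (isBI_eB hM hB).knorr_Br hM le_top (NS_eq_top L).ge h5 (fun h => (cov_iff hM hB hc).1 hcov (by
    rw [← orb_mul_self (hN L) he, ← mul_assoc, h, zero_mul])) hEL h3.isP
    (Br_mul_ne_zero_left h3.isP (Fix_anti hEL (orb_mem_Fix _ _)) (Fix_anti h3.le h1)
      ((orb_mul_self (hN L) he).symm ▸ h3.ne))
  obtain ⟨x, hx⟩ := dg_exists_conj_le hM hB hD h3.isP h6
  have h7 : E ≤ N := by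
    rw [conj_smul_le_iff_le] at hx
    exact hx.trans (conj_smul_le_of_mem_normalizer hDN (mem_NS_of_normal N _))
  rw [sup_eq_right.2 h7] at h4
  refine le_antisymm (le_of_not_dvd_of_regular h4 fun t ht h => ?_) h2
  exact mem_of_relIndex_pow (hN L) hn ht.2 h

end Cfsg.Agent.S4673
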