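import Cfsg.Statements.S4674
import Cfsg.Agent.H4.Cover2

set_option autoImplicit false
open Cfsg

namespace Cfsg.Agent.S4674

open H4 H1 MonoidAlgebra
open scoped Pointwise


/-- Fix a prime p and a maximal ideal M of the algebraic integers containing p. Let N be a normal subgroup of the finite group G, Q a p-subgroup of N, H = N_G(Q) and L = H ∩ N = N_N(Q). Let d be a p-block of N with defect group Q and e the p-block of L with defect group Q that induces d inside N (its Brauer correspondent). Then block induction from H to G is a bijection from the p-blocks of H covering e onto the p-blocks of G covering d: every block of H covering e induces exactly one block of G, and that block covers d; and every block of G covering d is induced by exactly one block of H covering e. -/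
theorem result {G : Type*} [Group G] [Fintype G] (p : ℕ) [Fact p.Prime] (M : Ideal Cfsg.AlgInt) (hM : Cfsg.IsPModular p M) (N : Subgroup G) [N.Normal] [Fintype N] (Q : Subgroup G) (hQ : IsPGroup p Q) (hQN : Q ≤ N) [Fintype ↥(Subgroup.normalizer (Q : Set G) ⊓ N)] (d : Set (Cfsg.IrrCharacter N)) (hd : Cfsg.IsPBlock M d) (hdQ : Cfsg.IsDefectGroup p M d (Q.subgroupOf N)) (e : Set (Cfsg.IrrCharacter ↥(Subgroup.normalizer (Q : Set G) ⊓ N))) (he : Cfsg.IsPBlock M e) (heQ : Cfsg.IsDefectGroup p M e (Q.subgroupOf (Subgroup.normalizer (Q : Set G) ⊓ N))) (hed : Cfsg.IsInducedBlockIn M N (Subgroup.normalizer (Q : Set G) ⊓ N) e d) : (∀ c : Set (Cfsg.IrrCharacter ↥(Subgroup.normalizer (Q : Set G))), Cfsg.IsPBlock M c → (∃ ψ ∈ c, ∃ ξ ∈ e, Cfsg.classInner (fun l : ↥(Subgroup.normalizer (Q : Set G) ⊓ N) => (ψ : ↥(Subgroup.normalizer (Q : Set G)) → ℂ) (Subgroup.inclusion inf_le_left l)) (ξ : ↥(Subgroup.normalizer (Q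 : Set G) ⊓ N) → ℂ) ≠ 0) → ∃! B : Set (Cfsg.IrrCharacter G), Cfsg.IsInducedBlock M (Subgroup.normalizer (Q : Set G)) c B ∧ (∃ χ ∈ B, ∃ θ ∈ d, Cfsg.classInner (fun n : N => (χ : G → ℂ) n) (θ : N → ℂ) ≠ 0)) ∧ (∀ B : Set (Cfsg.IrrCharacter G), Cfsg.IsPBlock M B → (∃ χ ∈ B, ∃ θ ∈ d, Cfsg.classInner (fun n : N => (χ : G → ℂ) n) (θ : N → ℂ) ≠ 0) → ∃! c : Set (Cfsg.IrrCharacter ↥(Subgroup.normalizer (Q : Set G))), (Cfsg.IsPBlock M c ∧ ∃ ψ ∈ c, ∃ ξ ∈ e, Cfsg.classInner (fun l : ↥(Subgroup.normalizer (Q : Set G) ⊓ N) => (ψ : ↥(Subgroup.normalizer (Q : Set G)) → ℂ) (Subgroup.inclusion inf_le_left l)) (ξ : ↥(Subgroup.normalizer (Q : Set G) ⊓ N) → ℂ) ≠ 0) ∧ Cfsg.IsInducedBlock M (Subgroup.normalizer (Q : Set G)) c B) := by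
  haveI := charP_k hM
  have h1 := (dg_iff_ADG hM hd hQN).1 hdQ
  have hd' := isBI_aE hM hd
  have h2 : aE M _ e = Br Q (aE M N d) := by
    have := (indIn_iff_mul hM hd he hQ (le_inf Subgroup.le_normalizer hQN) inf_le_right inf_le_left
      (inf_le_inf_right _ (CS_le_NS Q))).1 hed
    exact ((first_main_BI hM hd' h1).1.eq_of_mul (isBI_aE hM he) (this.trans_ne (isBI_aE hM he).ne)).symm
  have k1 : ∀ c : Set (IrrCharacter (NS Q)), IsPBlock M c → ((∃ ψ ∈ c, ∃ ξ ∈ e, Cfsg.classInner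
      (fun l : ↥(NS Q ⊓ N) => (ψ : NS Q → ℂ) (Subgroup.inclusion inf_le_left l)) (ξ : ↥(NS Q ⊓ N) → ℂ) ≠ 0) ↔
      aE M _ c * Br Q (aE M N d) ≠ 0) := fun c hc => h2 ▸ cov_iff_amb hM inf_le_left hc he
  have k2 := fun c (hc : IsPBlock M c) B (hB : IsPBlock M B) =>
    ind_iff_mul hM hQ Subgroup.le_normalizer (CS_le_NS Q) le_rfl hc hB
  refine ⟨fun c hc h => ?_, fun B hB h => ?_⟩
  · obtain ⟨B, hB⟩ := exists_ind hM hQ Subgroup.le_normalizer (CS_le_NS Q) le_rfl hc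
    exact ⟨B, ⟨hB, (cov_iff hM hB.2.1 hd).2 ((HK_cov hM hd' h1 (isBI_eB hM hB.2.1) (isBI_aE hM hc)
      ((k2 c hc B hB.2.1).1 hB)).2 ((k1 c hc).1 h))⟩, fun B' h => ind_unique hM h.1 hB⟩
  · rw [cov_iff hM hB hd] at h
    obtain ⟨c, hc⟩ := exists_ind_of_Br hM hQ Subgroup.le_normalizer (CS_le_NS Q) le_rfl hB
      ((isBI_eB hM hB).knorr_Br hM le_top (NS_eq_top N).ge hd' h hQN hQ h1.ne)
    have h3 := (k2 c hc.1 B hB).1 hc
    refine ⟨c, ⟨⟨hc.1, (k1 c hc.1).2 ((HK_cov hM hd' h1 (isBI_eB hM hB) (isBI_aE hM hc.1) h3).1 h)⟩, hc⟩,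
      fun c' h' => aE_inj hM h'.1.1 hc.1 (HK_unique hM hd' h1 (isBI_eB hM hB) h (isBI_aE hM h'.1.1)
        ((k2 c' h'.1.1 B hB).1 h'.2) (isBI_aE hM hc.1) h3)⟩

end Cfsg.Agent.S4674
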