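import Cfsg.Statements.S4681
import Cfsg.Agent.H4.BFus

set_option autoImplicit false
open Cfsg

namespace Cfsg.Agent.S4681

open H4 H1 MonoidAlgebra
open scoped Pointwise


/-- Fix a prime p and a maximal ideal M of the algebraic integers containing p. Let B₀ be the principal p-block of the finite group G, P a Sylow p-subgroup and e₀ the principal p-block of C_G(P). Then (P, e₀) is a maximal Brauer pair of B₀, and the fusion system of B₀ on (P, e₀) is the fusion system of G on P: its maps from each subgroup of P are exactly the conjugation maps into P by elements of G. -/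
theorem result {G : Type*} [Group G] [Fintype G] (p : ℕ) [Fact p.Prime] (M : Ideal Cfsg.AlgInt) (hM : Cfsg.IsPModular p M) (S : Sylow p G) : Cfsg.IsMaximalBrauerPair p M (Cfsg.principalBlock M G) (S : Subgroup G) (Cfsg.principalBlock M (Subgroup.centralizer ((S : Subgroup G) : Set G))) ∧ ∀ F : Cfsg.FusionSystem (S : Subgroup G), Cfsg.IsBlockFusionSystemOn p M (Cfsg.principalBlock M G) (S : Subgroup G) (Cfsg.principalBlock M (Subgroup.centralizer ((S : Subgroup G) : Set G))) F → ∀ Q : Subgroup G, F.Hom Q = (Cfsg.groupFusionSystem (S : Subgroup G)).Hom Q := by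
  have hS := S.2
  have h0 := isBI_aE (H := CS (S : Subgroup G)) hM isPBlock_principal
  have hm : MaxP p (eB M (principalBlock M G)) S (aE M (CS (S : Subgroup G)) (principalBlock M _)) :=
    ⟨isBI_eB hM isPBlock_principal, (dg_iff_ADG_top hM isPBlock_principal).1
      ((dg_principal_iff hM).2 (isSylowIn_top S)), h0, (principal_pair_iff hM hS h0).2 rfl⟩
  refine ⟨(isMaximal_iff hM).2 ⟨isPBlock_principal, isPBlock_principal, hm⟩, fun F hF => ?_⟩
  refine H2.hom_eq_of_mor fun Q σ => ?_
  rw [((isBF_iff hM).1 hF).2, H2.mor_group_iff]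
  constructor
  · rintro ⟨x, f, h1, h2, h3⟩
    exact ⟨h1.le, fun u hu => h3 u hu ▸ h2.le (conj_mem_conj_smul hu), x, h3⟩
  · rintro ⟨h1, h2, x, h3⟩
    have h4 : MulAut.conj x • Q ≤ S := conj_smul_le_iff.2 fun u hu => h3 u hu ▸ h2 u hu
    obtain ⟨f, hf⟩ := exists_sle hM hS h0 h1
    obtain ⟨g, hg⟩ := exists_sle hM hS h0 h4
    refine ⟨x, f, hf, ?_, h3⟩
    have h5 := (principal_pair_iff hM hf.isP hf.bf).1 (hm.mul_of_sle hM hf)
    have h6 := (principal_pair_iff hM hg.isP hg.bf).1 (hm.mul_of_sle hM hg)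
    rw [← Br_principal hM hf.isP] at h5
    rw [← Br_principal hM hg.isP] at h6
    rwa [h5, cj_Br', cj_of_mem_Z (eB_mem_Z _), ← h6]

end Cfsg.Agent.S4681
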