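import Cfsg.Statements.S4682
import Cfsg.Agent.H4.Pairs

set_option autoImplicit false
open Cfsg

namespace Cfsg.Agent.S4682

open H4 H1 MonoidAlgebra
open scoped Pointwise


/-- Fix a prime p and a maximal ideal M of the algebraic integers containing p, a p-block B of the finite group G with maximal Brauer pair (P, e), P abelian, and a Brauer pair (Q, f) ≤ (P, e). Let T_Q be the stabilizer of f in N_G(Q) and T_P the stabilizer of e in N_G(P). Then every element of T_Q is a product of an element of T_P and an element of C_G(Q); and the index of C_G(Q) in T_Q equals the index of T_P ∩ C_G(Q) in T_P ∩ N_G(Q). -/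
theorem result {G : Type*} [Group G] [Fintype G] (p : ℕ) [Fact p.Prime] (M : Ideal Cfsg.AlgInt) (hM : Cfsg.IsPModular p M) (B : Set (Cfsg.IrrCharacter G)) (P : Subgroup G) (e : Set (Cfsg.IrrCharacter (Subgroup.centralizer (P : Set G)))) (hmax : Cfsg.IsMaximalBrauerPair p M B P e) (hab : ∀ x ∈ P, ∀ y ∈ P, x * y = y * x) (Q : Subgroup G) (f : Set (Cfsg.IrrCharacter (Subgroup.centralizer (Q : Set G)))) (hQP : Q ≤ P) (hf : Cfsg.IsPBlock M f) (hle : Cfsg.SubpairLE p M Q f P e) (TQ : Subgroup G) (hTQ : ∀ y : G, y ∈ TQ ↔ y ∈ Subgroup.normalizer (Q : Set G) ∧ Cfsg.StabilizesBlock (Subgroup.centralizer (Q : Set G)) f y) (TP : Subgroup G) (hTP : ∀ y : G, y ∈ TP ↔ y ∈ Subgroup.normalizer (P : Set G) ∧ Cfsg.StabilizesBlock (Subgroup.centralizer (P : Set G)) e y) : (∀ x ∈ TQ, ∃ y ∈ TP, ∃ c ∈ Subgroup.centralizer (Q : Set G), x = y * c) ∧ ((Subgroup.centralizer (Q : Set G)).subgroupOf TQ).index = ((TP ⊓ Subgroup.centralizer (Q : Set G)).subgroupOf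 (TP ⊓ Subgroup.normalizer (Q : Set G))).index := by
  obtain ⟨hB, he, h⟩ := (isMaximal_iff hM).1 hmax
  have h1 := ((subpairLE_iff hM h.dg.isP he).1 hle).2
  obtain rfl := eq_Stab hM hf hTQ
  obtain rfl := eq_Stab hM he hTP
  have key : ∀ x ∈ Stab (NS Q) (aE M (CS Q) f), ∃ y ∈ Stab (NS P) (aE M (CS P) e) ⊓ NS Q, ∃ c ∈ CS Q,
      x = y * c := fun x hx => by
    obtain ⟨c, h2, h3⟩ := h.abelian hM (fun x hx y hy => hab y hy x hx) h1 hx
    exact ⟨c * x, ⟨h3, mul_mem (CS_le_NS Q h2) hx.1⟩, x⁻¹ * c⁻¹ * x,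
      conj_mem_of_mem_normalizer' (NS_le_NS_CS Q hx.1) (inv_mem h2) , by
        have := conj_mem_of_mem_normalizer' (NS_le_NS_CS Q hx.1) (inv_mem h2)
        group⟩
  refine ⟨fun x hx => ?_, ?_⟩
  · obtain ⟨y, h2, h3⟩ := key x hx
    exact ⟨y, h2.1, h3⟩
  · have : Stab (NS Q) (aE M (CS Q) f) = (Stab (NS P) (aE M (CS P) e) ⊓ NS Q) ⊔ CS Q := by
      refine le_antisymm (fun x hx => ?_) (sup_le (fun y hy => ⟨hy.2, h1.cj_eq hM hy.1 hy.2⟩) (CS_le_Stab h1.bf))
      obtain ⟨y, h2, c, h3, rfl⟩ := key x hx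
      exact Subgroup.mul_mem_sup h2 h3
    change (CS Q).relIndex _ = Subgroup.relIndex _ _
    rw [this, relIndex_sup_of_le_normalizer (inf_le_right.trans (NS_le_NS_CS Q)),
      ← Subgroup.inf_relIndex_right (CS Q), ← Subgroup.inf_relIndex_right (_ ⊓ CS Q)]
    congr 1
    exact le_antisymm (le_inf (le_inf (inf_le_right.trans inf_le_left) inf_le_left) inf_le_right)
      (inf_le_inf_right _ inf_le_right)

end Cfsg.Agent.S4682
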