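import Cfsg.Statements.S4685
import Cfsg.Agent.H4.Star3

set_option autoImplicit false
open Cfsg

namespace Cfsg.Agent.S4685

open H4 H1 MonoidAlgebra
open scoped Pointwise


/-- Fix a prime p and a maximal ideal M of the algebraic integers containing p, a p-block B of the finite group G with maximal Brauer pair (P, e) and fusion system F on P. Then for every h the number of irreducible characters of height h in B is divisible by the index of Z(P) ∩ foc(F) in Z(P), where foc(F) is the focal subgroup of F. -/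
theorem result {G : Type*} [Group G] [Fintype G] (p : ℕ) [Fact p.Prime] (M : Ideal Cfsg.AlgInt) (hM : Cfsg.IsPModular p M) (B : Set (Cfsg.IrrCharacter G)) (P : Subgroup G) (e : Set (Cfsg.IrrCharacter (Subgroup.centralizer (P : Set G)))) (hmax : Cfsg.IsMaximalBrauerPair p M B P e) (F : Cfsg.FusionSystem P) (hF : Cfsg.IsBlockFusionSystemOn p M B P e F) (h : ℕ) : ((P ⊓ Subgroup.centralizer (P : Set G) ⊓ F.focalSubgroup).subgroupOf (P ⊓ Subgroup.centralizer (P : Set G))).index ∣ Nat.card {χ : Cfsg.IrrCharacter G // χ ∈ B ∧ Cfsg.blockHeight p B (χ : G → ℂ) = h} := by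
  obtain ⟨h1, h2⟩ := (isBF_iff hM).1 hF
  obtain ⟨h3, -, h4⟩ := (isMaximal_iff hM).1 h1
  have := fun x : G => Fintype.ofFinite (C1 x)
  rw [Subgroup.inf_subgroupOf_left]
  exact relIndex_focal_dvd hM h3 h4 h2 inf_le_left h fun χ h5 _ t ht b h7 h8 =>
    (sec_cEl (isPElt_of_mem Fact.out h4.dg.isP ht.1)).sb_ne_zero hM h7
      (h4.defect_eq hM h7 h8 (CS_zpowers t) (le_centralizer_singleton.2 ht.2)) h5

end Cfsg.Agent.S4685
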