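import Cfsg.Statements.S4687
import Cfsg.Agent.H4.Pairs

set_option autoImplicit false
open Cfsg

namespace Cfsg.Agent.S4687

open H4 H1 MonoidAlgebra
open scoped Pointwise


/-- Fix a prime p and a maximal ideal M of the algebraic integers containing p, and a p-block B of the finite group G with maximal Brauer pair (P, e), P abelian. Then B is nilpotent if and only if its inertial quotient is trivial: every element of N_G(P) stabilizing e centralizes P. -/
theorem result {G : Type*} [Group G] [Fintype G] (p : ℕ) [Fact p.Prime] (M : Ideal Cfsg.AlgInt) (hM : Cfsg.IsPModular p M) (B : Set (Cfsg.IrrCharacter G)) (P : Subgroup G) (e : Set (Cfsg.IrrCharacter (Subgroup.centralizer (P : Set G)))) (hmax : Cfsg.IsMaximalBrauerPair p M B P e) (hab : ∀ x ∈ P, ∀ y ∈ P, x * y = y * x) : Cfsg.IsNilpotentBlock p M B ↔ ∀ x : G, x ∈ Subgroup.normalizer (P : Set G) → Cfsg.StabilizesBlock (Subgroup.centralizer (P : Set G)) e x → x ∈ Subgroup.centralizer (P : Set G) := by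
  obtain ⟨hB, he, h⟩ := (isMaximal_iff hM).1 hmax
  have hab' : P ≤ CS P := fun x hx y hy => hab y hy x hx
  rw [isNilpotentBlock_iff_top hM, and_iff_right hB]
  constructor
  · intro h1 x h2 h3
    have := h1.stab_le hM h.dg.isP h.be h.mul (h.ADG_stab hM) ((mem_Stab_iff hM he).2 ⟨h2, h3⟩)
    rwa [sup_eq_right.2 hab'] at this
  · intro h1
    refine aNil_top_iff.2 fun Q hQ f hf h2 x hx _ => ?_
    obtain ⟨y, h3⟩ := h.exists_conj hM hQ hf h2
    obtain ⟨c, h4, h5⟩ := h.abelian hM hab' h3 (x := y * x * y⁻¹) (Stab_NS_conj y Q f ▸ conj_mem_conj_smul hx)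
    have h6 := (CS _).mul_mem_cancel_left h4 |>.1
      (CS_anti h3.le (h1 _ h5.1 ((mem_Stab_iff hM he).1 h5).2))
    rw [CS_conj, mem_conj_smul] at h6
    simpa [mul_assoc] using h6

end Cfsg.Agent.S4687
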