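import Cfsg.Statements.S4688
import Cfsg.Agent.H4.BFus

set_option autoImplicit false
open Cfsg

namespace Cfsg.Agent.S4688

open H4 H1 MonoidAlgebra
open scoped Pointwise


/-- Fix a prime p and a maximal ideal M of the algebraic integers containing p, and a nilpotent p-block B of the finite group G with maximal Brauer pair (P, e). Then for every Brauer pair (Q, f) of B, f is a nilpotent block of C_G(Q); and if moreover (Q, f) ≤ (P, e), then C_P(Q) is a defect group of f as a block of C_G(Q). -/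
theorem result {G : Type*} [Group G] [Fintype G] (p : ℕ) [Fact p.Prime] (M : Ideal Cfsg.AlgInt) (hM : Cfsg.IsPModular p M) (B : Set (Cfsg.IrrCharacter G)) (P : Subgroup G) (e : Set (Cfsg.IrrCharacter (Subgroup.centralizer (P : Set G)))) (hmax : Cfsg.IsMaximalBrauerPair p M B P e) (hnil : Cfsg.IsNilpotentBlock p M B) (Q : Subgroup G) (f : Set (Cfsg.IrrCharacter (Subgroup.centralizer (Q : Set G)))) (hQf : Cfsg.IsBrauerPairOf p M B Q f) : Cfsg.IsNilpotentBlock p M f ∧ (Cfsg.SubpairLE p M Q f P e → Cfsg.IsDefectGroup p M f ((P ⊓ Subgroup.centralizer (Q : Set G)).subgroupOf (Subgroup.centralizer (Q : Set G)))) := by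
  obtain ⟨hB, hc, hm⟩ := (isMaximal_iff hM).1 hmax
  obtain ⟨hQ, hf, -, h1⟩ := (isBrauerPairOf_iff hM).1 hQf
  have H := ((isNilpotentBlock_iff_top hM).1 hnil).2
  exact ⟨(isNilpotentBlock_iff hM).2 ⟨hf, H.local hM (eB_mem_Z B) hQ (isBI_aE hM hf) h1⟩, fun h =>
    (dg_iff_ADG hM hf inf_le_right).2 (H.ADG_CS hM hm ((subpairLE_iff hM hm.dg.isP hc).1 h).2)⟩

end Cfsg.Agent.S4688
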