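import Cfsg.Statements.S4689
import Cfsg.Agent.H4.Star3

set_option autoImplicit false
open Cfsg

namespace Cfsg.Agent.S4689

open H4 H1 MonoidAlgebra
open scoped Pointwise


/-- Fix a prime p and a maximal ideal M of the algebraic integers containing p, and a nilpotent p-block B of the finite group G. Then B has p-regular rank one (a single irreducible Brauer character), and some χ₀ ∈ B restricts to that Brauer character: every χ ∈ B agrees on the p-regular elements with a natural-number multiple of χ₀. -/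
theorem result {G : Type*} [Group G] [Fintype G] (p : ℕ) [Fact p.Prime] (M : Ideal Cfsg.AlgInt) (hM : Cfsg.IsPModular p M) (B : Set (Cfsg.IrrCharacter G)) (hnil : Cfsg.IsNilpotentBlock p M B) : Cfsg.blockRank p B = 1 ∧ ∃ χ₀ ∈ B, ∀ χ ∈ B, ∃ d : ℕ, ∀ x : G, Cfsg.pRegularPart p (χ : G → ℂ) x = (d : ℂ) * Cfsg.pRegularPart p (χ₀ : G → ℂ) x := by
  obtain ⟨hB, hN⟩ := (isNilpotentBlock_iff_top hM).1 hnil
  obtain ⟨P, hP⟩ := exists_dg hM hB
  obtain ⟨χ, h1, h2⟩ := exists_height_zero hM hB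
  obtain ⟨Φ, h⟩ := hN.chars hM hB hP h1 h2
  exact ⟨hN.rank hM hB, χ, h1, fun ψ hψ => ⟨_, fun x => by
    simpa [pRegularPart_eq] using congrFun (h (Φ.symm ⟨ψ, hψ⟩)).1 x⟩⟩

end Cfsg.Agent.S4689
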