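import Cfsg.Statements.S4692
import Cfsg.Agent.H4.Cons
import Cfsg.Agent.H4.BFus

set_option autoImplicit false
open Cfsg

namespace Cfsg.Agent.S4692

open H4 H1 MonoidAlgebra
open scoped Pointwise
/-- Fix a prime p and a maximal ideal M of the algebraic integers containing p. Let N be a normal subgroup of p-power index in the finite group G and c a p-block of N stable under conjugation by G, and let B be the p-block of G whose idempotent is that of c (it exists and is unique). Then c is nilpotent as a block of N if and only if B is nilpotent as a block of G. -/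
theorem result {G : Type*} [Group G] [Fintype G] (p : ℕ) [Fact p.Prime] (M : Ideal Cfsg.AlgInt) (hM : Cfsg.IsPModular p M) (N : Subgroup G) [N.Normal] (hN : ∃ k : ℕ, N.index = p ^ k) (c : Set (Cfsg.IrrCharacter N)) (hc : Cfsg.IsPBlock M c) (hst : ∀ x : G, Cfsg.StabilizesBlock N c x) (B : Set (Cfsg.IrrCharacter G)) (hB : Cfsg.IsPBlock M B) (hBc : ∀ g : G, Cfsg.blockCoeff B g = Cfsg.subgroupBlockCoeff N c g) : Cfsg.IsNilpotentBlock p M c ↔ Cfsg.IsNilpotentBlock p M B := by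
  haveI := charP_k hM
  obtain ⟨n, hn⟩ := hN
  have h0 : eB M B = aE M N c := ext_coeff fun g => by rw [coeff_eB, coeff_aE, hBc]
  have hz := isBI_eB hM hB
  rw [isNilpotentBlock_iff hM, isNilpotentBlock_iff_top hM, and_iff_right hc, and_iff_right hB, ← h0, aNil_top_iff]
  have hr : ∀ g : G, ¬ p ∣ orderOf g → g ∈ N := fun g hg => mem_of_coprime_index
    (hn ▸ ((Nat.Prime.coprime_iff_not_dvd hM.1).2 hg).symm.pow_right n)
  have hN : ∀ Q : Subgroup G, CS Q ≤ NS (CS Q ⊓ N) := fun Q =>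
    le_normalizer_inf Subgroup.le_normalizer (le_top.trans (NS_eq_top N).ge)
  have ho : ∀ Q f, IsBI (CS Q ⊓ N) f → IsBI (CS Q) (orb (CS Q) f) := fun Q f hf =>
    isBI_orb inf_le_left (hN Q) (idem_Sup_of_regular hM fun g hg h => ⟨hg, hr g h⟩) hf
  constructor
  · intro h Q hQ F hF h1 x hx h2
    have h3 : x ∈ NS (Q ⊓ N) := le_normalizer_inf (A := Subgroup.zpowers x) (Subgroup.zpowers_le.2 hx.1)
      (le_top.trans (NS_eq_top N).ge) (Subgroup.mem_zpowers x)
    obtain ⟨F₀, h4⟩ := exists_sle hM hQ hF (inf_le_left : Q ⊓ N ≤ Q)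
    have h5 := h4.cj_eq hM hx h3
    have h6 := (h4.mul_iff_Z hz.mem_Z hz.idem).1 h1
    obtain ⟨f, hf, h7⟩ := exists_isBI hM (CS (Q ⊓ N) ⊓ N) h4.bf.ne
    have h8 : x ∈ NS (CS (Q ⊓ N) ⊓ N) := le_normalizer_inf (A := Subgroup.zpowers x)
      (Subgroup.zpowers_le.2 (NS_le_NS_CS _ h3)) (le_top.trans (NS_eq_top N).ge) (Subgroup.mem_zpowers x)
    obtain ⟨y, hy, h9⟩ := h4.bf.exists_cj_of_cov inf_le_left (hN _) (hf.cj' h8) hf (mul_cj_ne_zero h5 h7) h7
    have k0 : y * x ∈ Stab (NS (Q ⊓ N)) f := ⟨Subgroup.mul_mem _ (CS_le_NS _ hy) h3, by rw [cj_mul, h9]⟩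
    have k1 := h (Q ⊓ N) inf_le_right hQ.to_inf_left f hf (hf.mul_eq ⟨Br_mem_Fix (inf_le_left.trans (CS_le_NS _))
      (Z_le_Fix _ hz.mem_Z), fun g hg => by
        by_contra k
        exact hg ⟨mem_of_coeff_ne_zero (Br_mem_Sup _ _) k,
          mem_of_coeff_ne_zero (trunc_mem_Sup_of (h0 ▸ (aE_mem_ZA N c).2)) k⟩⟩
      (Br_idem hQ.to_inf_left (Z_le_Fix _ hz.mem_Z) hz.idem) fun k => h7 (by
        rw [← h6, (ZA_comm_Fix h4.bf.mem (Br_mem_Fix (CS_le_NS _) (Z_le_Fix _ hz.mem_Z))).symm, mul_assoc, k,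
          mul_zero])) (pq p (y * x)) (hr _ (not_dvd_orderOf_pq hM.1 _)) (pq_mem k0).1 (pq_mem k0).2
      (not_dvd_orderOf_pq hM.1 _)
    have k2 : x ∈ CS (Q ⊓ N) := mem_CS_of_conj_eq (isPElt_pp hM.1 (y * x)) h2 h3 fun w hw => by
      have k3 := hy _ (conj_mem_of_mem_normalizer h3 hw)
      calc x * w * x⁻¹ = y * x * w * (y * x)⁻¹ := by
            rw [show y * x * w * (y * x)⁻¹ = y * (x * w * x⁻¹) * y⁻¹ by group, ← k3]; group
        _ = _ := by
          conv_lhs => rw [← pp_mul_pq (p := p) (y * x), mul_assoc _ _ w, ← k1 w hw]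
          group
    refine zpowers_le_CS.1 (le_centralizer_of_section (N := Q ⊓ N) (le_inf
      (commutator_le_of_le_normalizer (Subgroup.zpowers_le.2 hx.1)) ((Subgroup.commutator_mono le_rfl
        (Subgroup.zpowers_le.2 (hr x h2))).trans (Subgroup.commutator_le_right _ _))) (zpowers_le_CS.2 k2)
      (isPGroup_coprime hQ.to_inf_left (coprime_zpowers h2)).symm)
  · intro h Q _ hQ f hf h1 x _ h2 h3 h4
    have h5 := ho Q f hf
    refine h Q hQ _ h5 (mul_orb_eq (Br_mem_Fix (CS_le_NS Q) (Z_le_Fix _ hz.mem_Z)) h1) x ⟨h2, ?_⟩ h4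
    refine (h5.cj' (NS_le_NS_CS Q h2)).eq_of_mul h5 fun h6 => hf.ne ?_
    have h7 := congrArg (cj x) (orb_mul_self (hN Q) hf)
    rw [map_mul, h3] at h7
    calc f = cj x (orb (CS Q) f) * (orb (CS Q) f * f) := by rw [orb_mul_self (hN Q) hf, h7]
      _ = 0 := by rw [← mul_assoc, h6, zero_mul]

end Cfsg.Agent.S4692
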