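import Cfsg.Statements.S4693
import Cfsg.Agent.H4.BFus

set_option autoImplicit false
open Cfsg

namespace Cfsg.Agent.S4693

open H4 H1 MonoidAlgebra
open scoped Pointwise


/-- Fix a prime p and a maximal ideal M of the algebraic integers containing p, a p-block B of the finite group G with maximal Brauer pair (P, e) and fusion system F on P, and a Brauer pair (Q, f) ≤ (P, e) with Q centric in F. Suppose every element of G normalizes Q and stabilizes f. Then the idempotent of B agrees with that of f modulo M at every element of G, and f is the idempotent of a nilpotent block of Q·C_G(Q): some p-block of Q·C_G(Q) has the idempotent coefficients of f and is nilpotent. -/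
theorem result {G : Type*} [Group G] [Fintype G] (p : ℕ) [Fact p.Prime] (M : Ideal Cfsg.AlgInt) (hM : Cfsg.IsPModular p M) (B : Set (Cfsg.IrrCharacter G)) (P : Subgroup G) (e : Set (Cfsg.IrrCharacter (Subgroup.centralizer (P : Set G)))) (hmax : Cfsg.IsMaximalBrauerPair p M B P e) (F : Cfsg.FusionSystem P) (hF : Cfsg.IsBlockFusionSystemOn p M B P e F) (Q : Subgroup G) (f : Set (Cfsg.IrrCharacter (Subgroup.centralizer (Q : Set G)))) (hQP : Q ≤ P) (hf : Cfsg.IsPBlock M f) (hle : Cfsg.SubpairLE p M Q f P e) (hcen : F.IsCentric Q) (hG : ∀ x : G, x ∈ Subgroup.normalizer (Q : Set G) ∧ Cfsg.StabilizesBlock (Subgroup.centralizer (Q : Set G)) f x) : (∀ g : G, Cfsg.MemLocalIdeal M (Cfsg.blockCoeff B g - Cfsg.subgroupBlockCoeff (Subgroup.centralizer (Q : Set G)) f g)) ∧ ∃ F' : Set (Cfsg.IrrCharacter ↥(Q ⊔ Subgroup.centralizer (Q : Set G))), Cfsg.IsPBlock M F' ∧ (∀ t : ↥(Q ⊔ Subgroup.centralizer (Q : Set G)), Cfsg.blockCoeff F' t = Cfsg.subgroupBlockCoeff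 (Subgroup.centralizer (Q : Set G)) f (t : G)) ∧ Cfsg.IsNilpotentBlock p M F' := by
  obtain ⟨hB, hc, hm⟩ := (isMaximal_iff hM).1 hmax
  have h := ((subpairLE_iff hM hm.dg.isP hc).1 hle).2
  have h1 := (ADG_sup_CS_iff hM h.isP h.bf).2 ((((isBF_iff hM).1 hF).2.centric_iff hM hm h).1 hcen)
  have h2 := h.bf.sup_CS hM h.isP
  refine ⟨fun g => ?_, ?_⟩
  · have hT : Stab (NS Q) (aE M (CS Q) f) = ⊤ := eq_top_iff.2 fun x _ => (mem_Stab_iff hM hf).2 (hG x)
    have h3 := h.bf.stab hM h.isP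
    rw [hT] at h3
    have h4 := hm.mul_of_sle hM h
    rw [Br_idem_ZA hM h.isP le_top (fun x _ => (hG x).1) hm.bz.mem hm.bz.idem] at h4
    have h5 := hm.bz.eq_of_mul h3 (h4.symm ▸ h3.ne)
    rw [memLocalIdeal_sub_iff hM (blockCoeff_mem_Alg _ _) (subgroupBlockCoeff_mem_Alg _ _ _)
      (blockCoeff_mem_O hM hB g) (coeff_aF _ f g ▸ mem_IntA.1 (aF_mem_IntA hM hf) g), ← coeff_eB, h5, coeff_aE]
  · obtain ⟨E, h3, h4, h5⟩ := exists_block_coeff hM le_sup_right hf h2
    exact ⟨E, h3, h5, (isNilpotentBlock_iff hM).2 ⟨h3, h4 ▸ aNil_of_ADG hM h2 h1⟩⟩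

end Cfsg.Agent.S4693
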