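import Cfsg.Statements.S4694
import Cfsg.Agent.H4.Cent

set_option autoImplicit false
open Cfsg

namespace Cfsg.Agent.S4694

open H4 H1 MonoidAlgebra
open scoped Pointwise


/-- Fix a prime p and a maximal ideal M of the algebraic integers containing p, a p-block B of the finite group G and a Brauer pair (Q, e) of B. Let T be the stabilizer of e in N_G(Q) and suppose that (Q, e) carries a weight: the block of T whose idempotent is that of e contains an irreducible character χ that is constant on the cosets of Q and whose degree has p-part equal to the p-part of the index of Q in T. Then Z(Q) is a defect group of e as a block of C_G(Q), and Q is the largest normal p-subgroup of T: every p-subgroup of T normalized by T lies in Q. -/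
theorem result {G : Type*} [Group G] [Fintype G] (p : ℕ) [Fact p.Prime] (M : Ideal Cfsg.AlgInt) (hM : Cfsg.IsPModular p M) (B : Set (Cfsg.IrrCharacter G)) (Q : Subgroup G) (e : Set (Cfsg.IrrCharacter (Subgroup.centralizer (Q : Set G)))) (hQe : Cfsg.IsBrauerPairOf p M B Q e) (T : Subgroup G) (hT : ∀ y : G, y ∈ T ↔ y ∈ Subgroup.normalizer (Q : Set G) ∧ Cfsg.StabilizesBlock (Subgroup.centralizer (Q : Set G)) e y) (F' : Set (Cfsg.IrrCharacter T)) (hF' : Cfsg.IsPBlock M F') (hF'e : ∀ t : T, Cfsg.blockCoeff F' t = Cfsg.subgroupBlockCoeff (Subgroup.centralizer (Q : Set G)) e (t : G)) (χ : Cfsg.IrrCharacter T) (hχ : χ ∈ F') (hχQ : ∀ q : G, q ∈ Q → ∀ t : T, ∀ t' : T, (t' : G) = q * (t : G) → (χ : T → ℂ) t' = (χ : T → ℂ) t) (hdeg : (Cfsg.charDegree (χ : T → ℂ)).factorization p + (Nat.card Q).factorization p = (Nat.card T).factorization p) : Cfsg.IsDefectGroup p M e ((Q ⊓ Subgroup.centralizer (Q : Set G)).subgroupOf (Subgroup.centralizer (Q : Set G))) ∧ ∀ R : Subgroup G, R ≤ T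 → IsPGroup p R → (∀ t ∈ T, t ∈ Subgroup.normalizer (R : Set G)) → R ≤ Q := by
  obtain ⟨hQ, hb, -⟩ := (isBrauerPairOf_iff hM).1 hQe
  have h1 := isBI_aE hM hb
  have hT' := eq_Stab hM hb hT
  have h2 : Q ⊔ CS Q ≤ T := hT' ▸ sup_CS_le_Stab h1
  have h3 : Q ≤ T := le_sup_left.trans h2
  have t1 : T ≤ NS Q := hT' ▸ Stab_le _ _
  have c1 := H3.irr_char χ.2
  have h0 : χ.1 1 ≠ 0 := by rw [irr_one_eq]; exact_mod_cast charDegree_ne_zero χ.2
  have h4 : ∀ q : T, (q : G) ∈ Q → χ.1 q = χ.1 1 := fun q hq => hχQ q hq 1 q (by simp)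
  have n1 := Subgroup.normal_subgroupOf_of_le_normalizer t1
  constructor
  · have := Fintype.ofFinite (Q ⊔ CS Q : Subgroup G)
    have := Subgroup.normal_subgroupOf_of_le_normalizer (t1.trans (NS_le_NS_sup_CS Q))
    have := Fintype.ofFinite ((Q ⊔ CS Q).subgroupOf (T))
    have c2 := H3.char_restrict_le _ h2 c1
    obtain ⟨θ, h5, h6⟩ := H3.exists_irr_inner_ne_zero (H3.char_class c2) fun e => h0 (congrFun e 1)
    obtain ⟨n, h7, h8⟩ := H3.degree_ratio_dvd _ (H3.irr_subgroupOf _ h2 h5) χ.2 (by rwa [H3.inner_subgroupOf _ h2])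
    have b1 := isPBlock_blockOf (M := M) h5
    have b2 := mem_blockOf_self hM ⟨θ, h5⟩
    have b3 := (cov_iff_amb hM h2 hF' b1).1 ⟨χ, hχ, _, b2, h6⟩
    rw [aE_eq_of_coeff (le_sup_right.trans h2) hF'e] at b3
    have := Subgroup.normal_subgroupOf_of_le_normalizer (sup_le Q.le_normalizer (CS_le_NS Q))
    have h9 := dg_of_rel_defect hM b1 b2 (D := Q.subgroupOf _) hQ.comap_subtype
      (fun y hy x hx => Subtype.ext (mem_CS_of_regular hQ y.2 (by rwa [Subgroup.orderOf_coe]) _ hx))
      (fun x hx => H3.charKer_le_charCenter _ ((H3.mem_charKer (H3.irr_char h5) x).2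
        (H3.ker_of_constituent c2 h5 h6 (h4 _ hx)))) (by
      have e1 : charDegree χ.1 = n * charDegree θ := charDegree_of_eq (by
        rw [h7, Nat.cast_mul, ← char_one_eq (H3.irr_char h5)]; rfl)
      have e2 := (Nat.factorization_le_iff_dvd (ne_zero_of_dvd_ne_zero Subgroup.index_ne_zero_of_finite h8)
        Subgroup.index_ne_zero_of_finite).2 h8 p
      rw [e1, ← Subgroup.index_mul_card ((Q ⊔ CS Q).subgroupOf T), Nat.factorization_mul Subgroup.index_ne_zero_of_finite
        Nat.card_pos.ne', Nat.factorization_mul (ne_zero_of_dvd_ne_zero Subgroup.index_ne_zero_of_finite h8)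
        (charDegree_ne_zero h5), Nat.card_congr (Subgroup.subgroupOfEquivOfLe h2).toEquiv] at hdeg
      rw [Nat.card_congr (Subgroup.subgroupOfEquivOfLe (le_sup_left : Q ≤ _)).toEquiv, nu]
      simp only [Finsupp.add_apply] at hdeg ⊢
      omega)
    rw [dg_iff_ADG hM b1 le_sup_left, ← (h1.sup_CS hM hQ).eq_of_mul (isBI_aE hM b1) b3] at h9
    exact (dg_iff_ADG hM hb inf_le_right).2 ((ADG_sup_CS_iff hM hQ h1).1 h9)
  · intro R r1 r2 r3 u hu
    obtain ⟨ψ, h5, h6⟩ := H3.exists_deflate_irr (QuotientGroup.mk' (Q.subgroupOf _)) (QuotientGroup.mk'_surjective _) χ.2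
      fun g hg => h4 g ((QuotientGroup.eq_one_iff g).1 hg)
    have := Subgroup.normal_subgroupOf_of_le_normalizer (H := T) (N := R) r3
    have h7 : nu p ψ = (Nat.card (T ⧸ Q.subgroupOf _)).factorization p := by
      rw [Subgroup.card_eq_card_quotient_mul_card_subgroup (Q.subgroupOf T), Nat.factorization_mul Nat.card_pos.ne'
        Nat.card_pos.ne', Nat.card_congr (Subgroup.subgroupOfEquivOfLe h3).toEquiv, Finsupp.add_apply] at hdeg
      rw [nu, charDegree_of_eq ((h6 1).trans (irr_one_eq χ))]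
      omega
    have h8 := isPBlock_blockOf (M := M) h5
    obtain ⟨D, h9⟩ := exists_dg hM h8
    have h10 := dg_card hM h8 h9
    rw [(blockDefect_blockOf_eq_zero_iff hM (χ := ⟨ψ, h5⟩)).2 h7, pow_zero, Subgroup.card_eq_one] at h10
    have := Subgroup.Normal.map this _ (QuotientGroup.mk'_surjective (Q.subgroupOf (T)))
    exact (QuotientGroup.eq_one_iff (N := Q.subgroupOf _) ⟨u, r1 hu⟩).1
      (h10.le (normal_le_dg hM h8 h9 (P := (R.subgroupOf T).map (QuotientGroup.mk' _))
        (r2.comap_subtype.map _) ⟨⟨u, r1 hu⟩, hu, rfl⟩))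

end Cfsg.Agent.S4694
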