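import Cfsg.Statements.S4696
import Cfsg.Agent.H4.Cyc3

set_option autoImplicit false
open Cfsg

namespace Cfsg.Agent.S4696

open H4 H1 MonoidAlgebra
open scoped Pointwise


/-- Let p be a prime, M a maximal ideal of the algebraic integers containing p, and B a p-block of the finite group G whose defect group D is cyclic of order p^a with a ≥ 1. Let C = C_G(D), let b be a block of C inducing B, let T be the stabilizer of b in N_G(D) (the elements g of N_G(D) such that the g-conjugate of every member of b is again in b), and let e be the index of C in T (the inertial index of B). Then e divides p − 1, every irreducible character in B has height zero, and B is the disjoint union of a set X of e characters and a set Y of (p^a − 1)/e characters, the members of Y agreeing on p-regular elements, for which there are signs δ_χ = ±1 (χ ∈ X) and δ₀ = ±1 such that: for every ψ ∈ Y and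 every p-regular g, δ₀ ψ(g) + Σ_{χ ∈ X} δ_χ χ(g) = 0; for all χ, χ' ∈ X the integers δ_χ χ(1) and δ_χ' χ'(1) are congruent modulo p^a; and for ψ ∈ Y and χ ∈ X, ψ(1) ≡ −e δ₀ δ_χ χ(1) modulo p^a. -/
theorem result {G : Type*} [Group G] [Finite G] (p : ℕ) [Fact p.Prime] (M : Ideal Cfsg.AlgInt) (hM : Cfsg.IsPModular p M) (D : Subgroup G) (hD : IsCyclic D) (a : ℕ) (ha : 1 ≤ a) (hDa : Nat.card D = p ^ a) (B : Set (Cfsg.IrrCharacter G)) (hB : Cfsg.IsPBlock M B) (hBD : Cfsg.IsDefectGroup p M B D) (b : Set (Cfsg.IrrCharacter (Subgroup.centralizer (D : Set G)))) (hind : Cfsg.IsInducedBlock M (Subgroup.centralizer (D : Set G)) b B) (T : Subgroup G) (hT : ∀ g : G, g ∈ T ↔ (g ∈ Subgroup.normalizer (D : Set G) ∧ ∀ θ ∈ b, ∀ θ' : Cfsg.IrrCharacter (Subgroup.centralizer (D : Set G)), (∀ h h' : Subgroup.centralizer (D : Set G), (h' : G) = g * h * g⁻¹ → (θ' : Subgroup.centralizer (D : Set G) →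 ℂ) h' = (θ : Subgroup.centralizer (D : Set G) → ℂ) h) → θ' ∈ b)) (e : ℕ) (he : (Subgroup.centralizer (D : Set G)).relIndex T = e) : e ∣ p - 1 ∧ (∀ χ ∈ B, Cfsg.blockHeight p B (χ : G → ℂ) = 0) ∧ ∃ X Y : Set (Cfsg.IrrCharacter G), B = X ∪ Y ∧ Disjoint X Y ∧ Nat.card X = e ∧ Nat.card Y = (p ^ a - 1) / e ∧ (∀ ψ ∈ Y, ∀ ψ' ∈ Y, ∀ g : G, ¬ p ∣ orderOf g → (ψ : G → ℂ) g = (ψ' : G → ℂ) g) ∧ ∃ (δ : Cfsg.IrrCharacter G → ℤ) (δ₀ : ℤ), (∀ χ ∈ X, δ χ = 1 ∨ δ χ = -1) ∧ (δ₀ = 1 ∨ δ₀ = -1) ∧ (∀ ψ ∈ Y, ∀ g : G, ¬ p ∣ orderOf g → (δ₀ : ℂ) * (ψ : G → ℂ) g + ∑ᶠ χ ∈ X, (δ χ : ℂ) * (χ : G → ℂ) g = 0) ∧ (∀ χ ∈ X, ∀ χ' ∈ X, δ χ * (Cfsg.charDegree (χ : G → ℂ) : ℤ) ≡ δ χ' * (Cfsg.charDegree (χ' : G → ℂ) : ℤ) [ZMOD (p : ℤ) ^ a]) ∧ (∀ ψ ∈ Y, ∀ χ ∈ X, (Cfsg.charDegree (ψ : G → ℂ) : ℤ) ≡ -((e : ℤ) * δ₀ * δ χ * (Cfsg.charDegree (χ : G → ℂ) : ℤ)) [ZMOD (p : ℤ) ^ a]) := by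
  obtain rfl := eq_Stab' hM hind.1 hT
  have := Fintype.ofFinite G
  have := Fintype.ofFinite D
  have h0 := ne_bot_of_card ha hDa
  have := (Subgroup.nontrivial_iff_ne_bot D).2 h0
  have h := fb_cyc hM hB (maxP_of_ind hM hBD hind) hD
  have : ((CS D).subgroupOf (Stab (NS D) (aE M _ b))).Normal :=
    Subgroup.normal_subgroupOf_of_le_normalizer ((Stab_le _ _).trans (NS_le_NS_CS _))
  have h1 := h.hm.not_dvd' hM h.ab
  have h2 := (cyclic_quot hD h.hm.dg.isP h0 (Stab_le _ _) h1).2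
  obtain ⟨Θ, x, h3⟩ := cyc_fs h hD h0
  obtain ⟨ζ, c, δ, h4, h5, h6⟩ := h3.dade (cyc_card_ge h hD h0)
  have h7 := h3.toFr.card_OS
  rw [← card_ga (Stab_le _ _)] at he h1 h2
  subst he
  set Γ := ga D (Stab (NS D) (aE M _ b))
  have h8 : ∀ χ ∈ B \ ζ '' OS Γ, ∀ g, p ∣ orderOf g → c χ * χ.1 g = Θ 1 g := fun χ hχ g hg => by
    rw [h3.exp χ hχ.1 g hg, h3.congr (η' := (c χ : ℂ) • 1) fun t ht => by simp [(h4.val' χ hχ).2 t ht], map_smul]
    rcases h6 χ hχ with e | e <;> simp [e]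
  have h9 : ∀ χ ∈ B \ ζ '' OS Γ, ∀ χ' ∈ B \ ζ '' OS Γ, c χ * (charDegree χ.1 : ℤ) ≡ c χ' * charDegree χ'.1 [ZMOD p ^ a] :=
    fun χ hχ χ' hχ' => (Int.modEq_iff_dvd.2 (by
      simpa only [hDa, Nat.cast_pow] using dvd_of_sing (H3.gen_sub (H3.gen_intCast_smul (H3.irr_gen χ.2) (c χ))
        (H3.gen_intCast_smul (H3.irr_gen χ'.2) (c χ'))) h.hm.dg.isP (fun g hg => by simp [h8 χ hχ g hg, h8 χ' hχ' g hg])
        (n := c χ * charDegree χ.1 - c χ' * charDegree χ'.1) (by simp [irr_one_eq]))).symm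
  have h10 : ∀ ψ ∈ ζ '' OS Γ, ∀ g, ¬ p ∣ orderOf g → ((-δ : ℤ) : ℂ) * ψ.1 g + ∑ χ ∈ fs (B \ ζ '' OS Γ), c χ * χ.1 g = 0 := by
    rintro _ ⟨o, ho, rfl⟩ g hg
    simpa using h4.rel o ho g hg
  refine ⟨h2, fun χ hχ => ?_, _, _, h4.union, Set.disjoint_sdiff_left, h5, ?_, ?_, c, -δ, h6,
    by rcases h4.sign with e | e <;> simp [e], fun ψ hψ g hg => by rw [finsum_mem_eq_fs]; exact h10 ψ hψ g hg, h9,
    fun ψ hψ χ hχ => ?_⟩
  · by_cases k : χ ∈ ζ '' OS Γ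
    · obtain ⟨o, ho, rfl⟩ := k
      refine h3.height_zero hM hB h.card hχ (c := δ * Nat.card Γ) (mul_ne_zero (by
        rcases h4.sign with e | e <;> simp [e]) (mt (natCast_eq_zero_iff hM _).1 h1)) fun t ht => ?_
      rw [h4.val o ho t ht, Int.cast_zero, zero_add, red_mul (intCast_mem _ _) (H3.os_mem_O ho t), red_intCast,
        H3.red_os hM h.hm.dg.isP ho]
    · exact h3.height_zero hM hB h.card hχ (c := c χ) (by rcases h6 χ ⟨hχ, k⟩ with e | e <;> simp [e]) fun t ht => by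
        rw [(h4.val' χ ⟨hχ, k⟩).2 t ht, red_intCast]
  · rw [h4.card_image, ← hDa, ← h7, Nat.add_sub_cancel, Nat.mul_div_cancel_left _ Nat.card_pos]
  · rintro _ ⟨o, ho, rfl⟩ _ ⟨o', ho', rfl⟩
    exact h4.reg o ho o' ho'
  · have k1 : -δ * charDegree ψ.1 + ∑ χ ∈ fs (B \ ζ '' OS Γ), c χ * charDegree χ.1 = 0 := Int.cast_injective (α := ℂ) (by
      simpa [irr_one_eq] using h10 ψ hψ 1 (not_dvd_orderOf_one Fact.out))
    have k2 := Int.ModEq.sum (s := fs (B \ ζ '' OS Γ)) fun χ' h' => h9 χ' (mem_fs.1 h') χ hχ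
    rw [Finset.sum_const, card_fs, h5, nsmul_eq_mul, eq_neg_of_add_eq_zero_right k1] at k2
    convert k2.mul_left δ using 1
    · rcases h4.sign with e | e <;> simp [e]
    · ring

end Cfsg.Agent.S4696
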