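import Cfsg.Statements.S4697
import Cfsg.Agent.H4.Kb

set_option autoImplicit false
open Cfsg

namespace Cfsg.Agent.S4697

open H4 H1 MonoidAlgebra
open scoped Pointwise


/-- Let p be a prime, M a maximal ideal of the algebraic integers containing p, and B a p-block of the finite group G with an abelian defect group D of order p^d. If D has rank 2 (its least number of generators is 2) then B contains at most p^d irreducible characters; if D has rank 3 then the number k of irreducible characters in B satisfies k^3 ≤ p^(5d). -/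
theorem result {G : Type*} [Group G] [Finite G] (p : ℕ) [Fact p.Prime] (M : Ideal Cfsg.AlgInt) (hM : Cfsg.IsPModular p M) (B : Set (Cfsg.IrrCharacter G)) (hB : Cfsg.IsPBlock M B) (D : Subgroup G) (hBD : Cfsg.IsDefectGroup p M B D) (hab : IsMulCommutative D) (d : ℕ) (hDd : Nat.card D = p ^ d) : (Group.rank D = 2 → Nat.card B ≤ p ^ d) ∧ (Group.rank D = 3 → Nat.card B ^ 3 ≤ p ^ (5 * d)) := by
  have h1 : ∀ S : Finset D, Subgroup.closure (S : Set D) = ⊤ → D = Subgroup.closure (D.subtype '' S) := fun S h => by
    rw [← MonoidHom.map_closure, h, ← MonoidHom.range_eq_map, Subgroup.range_subtype]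
  have h2 : ∀ x y : D, Commute (x : G) y := fun x y => congrArg Subtype.val (hab.1.1 x y)
  obtain ⟨S, h3, h4⟩ := Group.rank_spec D
  refine ⟨fun h => ?_, fun h => ?_⟩
  · classical
    obtain ⟨x, y, -, rfl⟩ := Finset.card_eq_two.1 (h3.trans h)
    exact hDd ▸ card_le_of_two_gen hM hB hBD (by simpa [Set.image_pair] using h1 _ h4) (h2 x y)
  · classical
    obtain ⟨x, hx, h5⟩ := S.exists_max_image orderOf (Finset.card_pos.1 (by omega))
    obtain ⟨y, z, -, h6⟩ := Finset.card_eq_two.1 (show (S.erase x).card = 2 by rw [Finset.card_erase_of_mem hx]; omega)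
    have h7 := Finset.insert_erase hx
    rw [h6] at h7
    subst h7
    rw [mul_comm, pow_mul, ← hDd]
    exact card_le_of_three_gen hM hB hBD (by simpa [Set.image_insert_eq] using h1 _ h4) (h2 x y) (h2 x z) (h2 y z)
      (by simpa using h5 y (by simp)) (by simpa using h5 z (by simp))

end Cfsg.Agent.S4697
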