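import Cfsg.Statements.S4698
import Cfsg.Agent.H4.Kb
import Cfsg.Agent.S4716

set_option autoImplicit false
open Cfsg

namespace Cfsg.Agent.S4698

open H4 H1 MonoidAlgebra
open scoped Pointwise


/-- Let p be a prime, M a maximal ideal of the algebraic integers containing p, and B a p-block of defect d of the finite group G, containing k irreducible characters. Then k ≤ p^d when d ≤ 2, and k ≤ p^(2d − 2) when d ≥ 3. -/
theorem result {G : Type*} [Group G] [Finite G] (p : ℕ) [Fact p.Prime] (M : Ideal Cfsg.AlgInt) (hM : Cfsg.IsPModular p M) (B : Set (Cfsg.IrrCharacter G)) (hB : Cfsg.IsPBlock M B) (d : ℕ) (hd : Cfsg.blockDefect p B = d) : (d ≤ 2 → Nat.card B ≤ p ^ d) ∧ (3 ≤ d → Nat.card B ≤ p ^ (2 * d - 2)) := by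
  induction d using Nat.strong_induction_on generalizing G with
  | _ d ih =>
  obtain ⟨D, hD⟩ := exists_dg hM hB
  have h1 := dg_card hM hB hD
  rw [hd] at h1
  obtain rfl | h0 := Nat.eq_zero_or_pos d
  · exact ⟨fun _ => by simp [card_eq_one_of_defect hM hB hd], by omega⟩
  have := (Subgroup.nontrivial_iff_ne_bot D).2 (ne_bot_of_card h0 h1)
  have := (dg_isPGroup hD).center_nontrivial
  obtain ⟨⟨u, hu⟩, h2⟩ := exists_ne (1 : Subgroup.center D)
  obtain ⟨b, _, B', D', h3, h4, h5, h6, -, h7, h8, h9⟩ := exists_major_quot hM hB hD u.2 fun x hx =>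
    congrArg Subtype.val (Subgroup.mem_center_iff.1 hu ⟨x, hx⟩)
  have p1 := (Fact.out : p.Prime).one_lt
  have h10 : blockDefect p B' < d := (Nat.pow_lt_pow_iff_right p1).1 (by
    rw [← h1, ← h8, dg_card hM h5 h6]
    exact lt_mul_of_one_lt_right (by positivity) ((Nat.succ_le_of_lt (orderOf_pos _)).lt_of_ne' (by simpa using h2)))
  refine ⟨fun h => h1 ▸ h9 (isCyclic_of_card_dvd_prime (p := p) ?_), fun h => ?_⟩
  · rw [dg_card hM h5 h6]
    simpa using pow_dvd_pow p (show blockDefect p B' ≤ 1 by omega)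
  by_cases h11 : ∀ χ ∈ B, blockHeight p B χ.1 = 0
  · have h12 := S4716.result p M hM B hB d hd h11 u (isPElt_of_mem Fact.out (dg_isPGroup hD) u.2) b h3 (h4.trans hd)
    have h13 : Nat.card B' ≤ p ^ (2 * d - 4) := by
      obtain ⟨h14, h15⟩ := ih _ h10 B' h5 rfl
      rcases le_or_gt (blockDefect p B') 2 with e | e
      exacts [(h14 e).trans (Nat.pow_le_pow_right p1.le (by omega)), (h15 e).trans (Nat.pow_le_pow_right p1.le (by omega))]
    refine (Nat.pow_le_pow_iff_left two_ne_zero).1 (h12.trans ((Nat.mul_le_mul_left _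
      (h7.trans_le ((H4.rank_le_card _).trans h13))).trans_eq ?_))
    rw [← pow_add, ← pow_mul]; congr 1; omega
  · push Not at h11
    obtain ⟨χ, h11, h12⟩ := h11
    have h13 := card_le_of_height hM hB h11 h12
    rw [hd, show 2 * d = 2 * d - 2 + 2 by omega, pow_add] at h13
    exact Nat.le_of_mul_le_mul_right (c := p ^ 2) (by omega) (by positivity)

end Cfsg.Agent.S4698
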