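import Cfsg.Statements.S4707
import Cfsg.Agent.H3.Dtwo
import Cfsg.Agent.S0494
import Cfsg.Agent.S0157
import Cfsg.Agent.H4.FS

set_option autoImplicit false
open Cfsg

namespace Cfsg.Agent.S4707

open H3 Subgroup

theorem val_of_beta {G : Type*} [Group G] [Fintype G] {p : ℕ} [hp : Fact p.Prime] {x : G}
    (h : D2 p x) {ψ : G → ℂ} (hψ : IsIrrCharacter G ψ) {c : ℤ}
    (e : ∀ l, l ≠ 1 → classInner (dbeta x l) ψ = c) :
    (∀ y ∈ zpowers x, y ≠ 1 → ψ y = c) ∧ (p : ℤ) ∣ charDegree ψ - c := by
  classical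
  have hc := char_restrict (irr_char hψ) (zpowers x)
  obtain ⟨n, hn⟩ := inner_char_nat (char_hom 1) hc
  have k : ∀ y : zpowers x, ψ y = (n - c) * ∑ l : zpowers x →* ℂˣ, (l y : ℂ) + c := fun y => by
    have := congrFun (H4.eq_sum_hf (cyc_comm inferInstance) fun y : zpowers x => ψ y) y
    rw [this, Finset.mul_sum, Finset.sum_apply, ← Finset.add_sum_erase _ _ (Finset.mem_univ 1),
      ← Finset.add_sum_erase _ _ (Finset.mem_univ 1), Finset.sum_congr rfl
        (g := fun l => (n - c) * (l y : ℂ)) fun l hl => by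
          have := (D2.inner_beta l (irr_class hψ) fun _ _ => rfl).symm.trans
            (e l (Finset.ne_of_mem_erase hl))
          rw [Pi.smul_apply, inner_char_symm hc (char_hom l), ← this, hn]; simp,
      Pi.smul_apply, inner_char_symm hc (char_hom 1), hn]
    simp; ring
  refine ⟨fun y hy h1 => by
    simpa [sum_hom (a := ⟨y, hy⟩) (cyc_comm inferInstance) fun e => h1 (congrArg Subtype.val e)]
      using k ⟨y, hy⟩,
    n - c, ?_⟩
  have := k 1
  rw [sum_hom_one (cyc_comm inferInstance), h.toSC.card, coe_one, ideg_eq hψ] at this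
  have : ((charDegree ψ - c : ℤ) : ℂ) = (p * (n - c) : ℤ) := by push_cast; linear_combination this
  exact_mod_cast this

theorem eq_or_eq {G : Type*} [Group G] [Fintype G] {a b c d : G → ℂ} (ha : IsIrrCharacter G a)
    (hb : IsIrrCharacter G b) (hc : IsIrrCharacter G c) (hd : IsIrrCharacter G d) {n : ℕ}
    (h : classInner (a - b) (c - d) = n + 1) : a = c ∨ b = d := by
  classical
  by_contra! e
  rw [H3.inner_sub_left, H3.inner_sub_right, H3.inner_sub_right, irr_inner_ne ha hc e.1,
    irr_inner_ne hb hd e.2, irr_inner ha hd, irr_inner hb hc] at h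
  have := congrArg Complex.re h
  have : (0 : ℝ) ≤ n := n.cast_nonneg
  split_ifs at * <;> simp at * <;> linarith

theorem no_sub {G : Type*} [Group G] [Fintype G] {p : ℕ} [hp : Fact p.Prime] {x : G}
    (h : D2 p x) {χ : G → ℂ} (hχ : IsIrrCharacter G χ) (hv : ∀ y ∈ zpowers x, y ≠ 1 → χ y = -1)
    (hd : χ 1 = p - 1) (hf : ∀ g, χ g = χ 1 → g = 1) (h5 : p ≠ 5) (H : Subgroup G) [Fintype H]
    (hH : H.index = 2 * p) (h0 : classInner (fun g : H => χ g) (fun _ => 1) ≠ 0) : False := by
  classical
  have h6 := h.five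
  obtain ⟨a, ha⟩ := (default : Sylow 2 G).isPGroup'.exists_card_eq
  rw [h.card_T hχ hv hd hf h5] at ha
  obtain ⟨a, rfl⟩ := Nat.exists_eq_succ_of_ne_zero (show a ≠ 0 by rintro rfl; omega)
  have cH : Nat.card H = 2 ^ a * (p - 2) := by
    have := H.card_mul_index
    rw [hH, h.card_G hχ hv hd hf, ha, pow_succ] at this
    exact Nat.eq_of_mul_eq_mul_right (show 0 < 2 * p by omega) (by linarith)
  have o : ¬ 2 ∣ p - 2 := by rw [pow_succ] at ha; omega
  have reg : ∀ g ∈ H, ¬ p ∣ orderOf g := fun g hg e => by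
    have := e.trans (cH ▸ H1.orderOf_dvd_card_of_mem hg)
    rcases (Nat.Prime.dvd_mul hp.out).1 this with e | e
    · exact h.reg_two (g := (1 : G)) (k := 0) (by simp) (by
        have := (Nat.prime_dvd_prime_iff_eq hp.out Nat.prime_two).1 (hp.out.dvd_of_dvd_pow e)
        omega)
    · exact Nat.not_dvd_of_pos_of_lt (by omega) (by omega) e
  have ev : ∀ g : G, 2 ∣ orderOf g → orderOf g = 2 := fun g e => by
    obtain ⟨y, ⟨n, rfl⟩, hy⟩ := H1.exists_pow_orderOf_eq e
    exact Nat.dvd_antisymm (orderOf_dvd_of_pow_eq_one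
      (h.cen_two hχ hv hd hf h5 hy ((Commute.refl g).zpow_right n))) e
  set I := Finset.univ.filter fun g : H => orderOf (g : G) = 2
  obtain ⟨m, hm⟩ := inner_char_nat (char_restrict (irr_char hχ) H) char_one
  have s : ∑ g : H, χ g = p - 2 + (Nat.card H - I.card) := by
    rw [Finset.sum_congr rfl (g := fun g : H => (if g = 1 then (p : ℂ) - 2 else 0) +
      (1 - if orderOf (g : G) = 2 then 1 else 0)) fun g _ => by
        by_cases h1 : g = 1
        · simp [h1, hd]; ring
        by_cases h2 : orderOf (g : G) = 2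
        · simp only [h1, h2, h.val_two hχ hv hd hf h2]; simp
        · simp only [h1, h2, h.val_odd hχ hv hd hf (reg g g.2) (fun e => h1 (Subtype.ext e))
            (Nat.odd_iff.2 (Nat.two_dvd_ne_zero.1 (mt (ev g) h2)))]; simp]
    simp [Finset.sum_add_distrib, I]
  have cI : I.card = p - 2 := by
    have e := hm
    simp only [classInner, map_one, mul_one, s] at e
    rw [inv_mul_eq_iff_eq_mul₀ (card_ne_zero' H)] at e
    have e2 : (p : ℤ) - 2 + (Nat.card H - I.card) = Nat.card H * m := by exact_mod_cast e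
    have : m ≠ 0 := by rintro rfl; exact h0 (by simpa using hm)
    have : 2 * (p - 2) ≤ Nat.card H := cH ▸ Nat.mul_le_mul_right _ (Nat.le_self_pow (by
      rintro rfl; omega) 2)
    obtain rfl | h7 : m = 1 ∨ 2 ≤ m := by omega
    · omega
    · have : Nat.card H * 2 ≤ Nat.card H * m := Nat.mul_le_mul_left _ h7
      omega
  have cC : ∀ u ∈ I, (∀ v ∈ H ⊓ centralizer {(u : G)}, ∀ w ∈ H ⊓ centralizer {(u : G)},
      v * w = w * v) ∧ Nat.card (H ⊓ centralizer {(u : G)} : Subgroup G) = 2 ^ a := fun u hu => by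
    have hu := (Finset.mem_filter.1 hu).2
    have c2 := fun v (hv' : v ∈ H ⊓ centralizer {(u : G)}) =>
      h.cen_two hχ hv hd hf h5 hu (mem_centralizer_singleton_iff.1 hv'.2)
    have cm : ∀ K : Subgroup G, (∀ v ∈ K, v ^ 2 = 1) → ∀ v ∈ K, ∀ w ∈ K, v * w = w * v :=
      fun K hK v a w b => by
        have := fun z hz => (mul_eq_one_iff_eq_inv.1 ((sq z).symm.trans (hK z hz)))
        rw [this _ (K.mul_mem a b), mul_inv_rev, ← this _ a, ← this _ b]
    obtain ⟨T, hT, h7⟩ := H1.exists_isSylowIn_ge (p := 2) (U := zpowers (u : G))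
      (H1.isPGroup_zpowers_iff.2 ⟨1, hu⟩) (zpowers_le.2 u.2)
    refine ⟨cm _ c2, ?_⟩
    rw [hT.eq_of_le (fun v => ⟨1, Subtype.ext (c2 v v.2)⟩) (fun v hv' => ⟨hT.1 hv',
      mem_centralizer_singleton_iff.2 (cm T (fun z hz => ?_) _ hv' _ (h7 (mem_zpowers _)))⟩)
      inf_le_left, hT.card_eq, cH, Nat.factorization_mul (by positivity) (by omega)]
    · simp [Nat.factorization_eq_zero_of_not_dvd o, Nat.prime_two.factorization_self]
    · obtain ⟨k, hk⟩ := H1.exists_orderOf_eq_pow hT.2 hz
      rcases k with _ | k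
      · simp [orderOf_eq_one_iff.1 hk]
      · exact ev z (hk ▸ dvd_pow_self 2 k.succ_ne_zero) ▸ pow_orderOf_eq_one z
  have d : 2 ^ a - 1 ∣ I.card := by
    rw [Finset.card_eq_sum_card_image (fun u : H => H ⊓ centralizer {(u : G)})]
    refine Finset.dvd_sum fun K hK => ?_
    obtain ⟨u, hu, rfl⟩ := Finset.mem_image.1 hK
    rw [← (cC u hu).2, ← H1.card_subgroupOf inf_le_left, Nat.card_eq_fintype_card,
      Fintype.card_subtype, ← Finset.card_erase_of_mem (a := (1 : H)) (by simp [one_mem])]
    refine Dvd.intro 1 ((mul_one _).trans (congrArg _ (Finset.ext fun v => ?_)))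
    simp only [Finset.mem_erase, Finset.mem_filter, Finset.mem_univ, true_and, mem_subgroupOf]
    refine ⟨fun ⟨a, b⟩ => ?_, fun ⟨a, b⟩ => ⟨fun e => by simp [I, e] at a,
      b ▸ ⟨v.2, mem_centralizer_singleton_iff.2 rfl⟩⟩⟩
    have : v ∈ I := Finset.mem_filter.2 ⟨Finset.mem_univ _, orderOf_eq_prime (h.cen_two hχ hv hd hf
      h5 (Finset.mem_filter.1 hu).2 (mem_centralizer_singleton_iff.1 b.2))
        fun e => a (Subtype.ext e)⟩
    exact ⟨this, (H1.eq_of_le_of_card_eq (fun w (hw : w ∈ H ⊓ centralizer {(u : G)}) => mem_inf.2 ⟨hw.1,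
      mem_centralizer_singleton_iff.2 ((cC u hu).1 _ hw _ b)⟩)
        ((cC u hu).2.trans (cC v this).2.symm)).symm⟩
  rw [cI, show p - 2 = 2 * (2 ^ a - 1) + 1 by rw [pow_succ] at ha; omega] at d
  have := Nat.dvd_one.1 ((Nat.dvd_add_right (dvd_mul_left _ 2)).1 d)
  rw [pow_succ] at ha
  omega

/-- Let p > 3 be a prime and G a primitive permutation group of degree 2p that is not doubly transitive. If a Sylow p-subgroup of G has normalizer of order 2p, then p = 5 and G is isomorphic to the alternating group of degree 5. -/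
theorem result {α : Type*} [Fintype α] [DecidableEq α] {p : ℕ} [Fact p.Prime] (hp : 3 < p) (hα : Fintype.card α = 2 * p) (G : Subgroup (Equiv.Perm α)) (hprim : MulAction.IsPreprimitive G α) (hnot2 : ¬ MulAction.IsMultiplyPretransitive G α 2) (P : Sylow p G) (hN : Nat.card (Subgroup.normalizer ((P : Subgroup G) : Set G)) = 2 * p) : p = 5 ∧ Nonempty (G ≃* alternatingGroup (Fin 5)) := by
  classical
  have hp' : p.Prime := Fact.out
  have := Fintype.ofFinite G
  have hα' := Nat.card_eq_fintype_card.trans hα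
  have h5 : 5 ≤ p := hp'.five_le_of_ne_two_of_ne_three (by omega) hp.ne'
  obtain ⟨a⟩ : Nonempty α := Fintype.card_pos_iff.1 (by omega)
  have tr : ∀ K : Subgroup G, K.Normal → K ≠ ⊥ → 2 * p ∣ Nat.card K := fun K _ hK => by
    have := MulAction.IsQuasiPreprimitive.isPretransitive_of_normal (G := G) (X := α) (N := K)
      fun e => hK ((eq_bot_iff_forall _).2 fun g hg => Subtype.ext (Equiv.ext fun b =>
        (e.ge (Set.mem_univ b) ⟨g, hg⟩ :)))
    rw [← hα', ← MulAction.index_stabilizer_of_transitive K a]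
    exact index_dvd_card _
  have h2 : 2 * p ∣ Nat.card G := hN ▸ card_subgroup_dvd_card _
  have hG := (dvd_mul_left p 2).trans h2
  obtain ⟨x, h, hP⟩ := exists_d2 P h5 hG hN fun e => by
    have e1 := (MonoidHom.ker_transferSylow_isComplement' P e).card_mul
    rw [by_contra fun h => MonoidHom.not_dvd_card_ker_transferSylow P e
      ((dvd_mul_left p 2).trans (tr _ inferInstance h)), card_bot, one_mul] at e1
    obtain ⟨n, hn⟩ := P.isPGroup'.exists_card_eq
    have := (Nat.prime_dvd_prime_iff_eq Nat.prime_two hp').1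
      (Nat.prime_two.dvd_of_dvd_pow (hn ▸ e1 ▸ (dvd_mul_right 2 p).trans h2))
    omega
  have : Nontrivial G := Finite.one_lt_card_iff_nontrivial.1
    (hp'.one_lt.trans_le (Nat.le_of_dvd Nat.card_pos hG))
  have : IsSimpleGroup G := ⟨fun K _ => or_iff_not_imp_left.2 fun hK => by
    have d := (dvd_mul_left p 2).trans (tr K inferInstance hK)
    have hx := h.toSC.le_normal d (mem_zpowers x)
    by_contra h1
    have z : (zpowers (⟨x, hx⟩ : K)).map K.subtype = zpowers x := by simp
    have k : SC p (⟨x, hx⟩ : K) := ⟨(orderOf_mk x hx).trans h.ord, by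
      ext g
      rw [← mem_map_iff_mem K.subtype_injective (K := zpowers _), z, ← h.cen]
      simp [mem_centralizer_singleton_iff, Subtype.ext_iff]⟩
    obtain ⟨e, -, e2, e3⟩ := k.count
    obtain rfl : e = 1 := e2 ▸ relIndex_eq_one.2 fun g hg => by
      have hg' := le_normalizer_map K.subtype ⟨g, hg, rfl⟩
      rw [← mem_map_iff_mem K.subtype_injective, z] at *
      by_contra h3
      have i := H1.card_mul_relIndex (le_normalizer (H := zpowers x))
      rw [h.toSC.card, h.two, mul_comm] at i
      refine h1 (top_le_iff.1 (h.toSC.sup_top d ▸ sup_le le_rfl fun n hn => by_contra fun h4 => h4 ?_))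
      have := (mul_mem_iff_of_index_two (Nat.eq_of_mul_eq_mul_right hp'.pos i) (a := ⟨n, hn⟩)
        (b := ⟨_, hg'⟩)).2 (iff_of_false (fun e => h4 (h.toSC.le_normal d e)) h3)
      exact (K.mul_mem_cancel_right g.2).1 (h.toSC.le_normal d this)
    obtain ⟨b, c, -⟩ := k.index_comm rfl (by omega)
    have : commutator K = ⊥ := (map_eq_bot_iff_of_injective _ K.subtype_injective).1
      (by_contra fun e => c ((dvd_mul_left p 2).trans
        (card_subtype K _ ▸ tr _ (H1.map_char_normal K _) e)))
    rw [this, index_bot] at b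
    have := Nat.le_of_dvd hp'.pos (b ▸ tr K inferInstance hK)
    omega⟩
  have hq : ¬ (Nat.card G).Prime := fun e =>
    Nat.not_prime_mul (by omega) (by omega) (((Nat.dvd_prime e).1 h2).resolve_left (by omega) ▸ e)
  have fa : ∀ χ, IsIrrCharacter G χ → χ ≠ (fun _ => 1) → ∀ g, χ g = χ 1 → g = 1 :=
    fun χ hχ h1 g hg => mem_bot.1 (((charKer_normal (irr_class hχ)).eq_bot_or_eq_top.resolve_right
      (charKer_ne_top hχ h1)).le ((mem_charKer (irr_char hχ) g).2 hg))
  have hH : (MulAction.stabilizer G a).index = 2 * p :=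
    (MulAction.index_stabilizer_of_transitive G a).trans hα'
  set π : G → ℂ := fun g => (Nat.card (MulAction.fixedBy α g) : ℂ) with hπ
  have cπ : IsCharacter G π := char_perm α
  have π1 : classInner (fun _ => 1) π = 1 := by
    rw [hπ, perm_eq_indFun α a, inner_indFun_right _ _ (class_const 1), irr_inner_self isIrr_one]
  have dπ : charDegree π = 2 * p := deg_of_eq (by simp [π, hα])
  have π0 : ∀ l, classInner (dbeta x l) π = 0 := fun l => by
    rw [D2.inner_beta l (char_class cπ) (a := 0) fun y hy => by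
      have : IsEmpty (MulAction.fixedBy α (y : G)) := ⟨fun b => hy (Subtype.ext (h.toSC.eq_one y.2
        fun e => P.not_dvd_index (by
          have e1 := (MulAction.stabilizer G b.1).card_mul_index
          rw [MulAction.index_stabilizer_of_transitive, hα', ← (P : Subgroup G).index_mul_card,
            hP, h.toSC.card, ← mul_assoc] at e1
          exact hP ▸ Nat.eq_of_mul_eq_mul_right hp'.pos e1 ▸
            (e.trans (H1.orderOf_dvd_card_of_mem b.2)).mul_right 2)))⟩
      simp only [π, Nat.card_of_isEmpty, Nat.cast_zero, Pi.zero_apply]]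
    simp [classInner]
  have ex : ∀ l, l ≠ 1 → ∃ u v, IsIrrCharacter G u ∧ IsIrrCharacter G v ∧ u ≠ v ∧
      dbeta x l - (fun _ => 1) = u - v ∧ u ≠ (fun _ => 1) ∧ v ≠ (fun _ => 1) ∧
      charDegree v = charDegree u + 1 ∧ mu ⊤ π v ≠ 0 := fun l hl => by
    have i : classInner (dbeta x l - fun _ => 1) (fun _ => 1) = 0 := by
      rw [H3.inner_sub_left, D2.inner_beta_one hl, irr_inner_self isIrr_one, sub_self]
    obtain ⟨u, v, hu, hv, h1, h3⟩ := gen_norm_two' (gen_sub (D2.gen_beta l) gen_one) (by
      rw [H3.inner_sub_right, i, H3.inner_sub_left, h.inner_beta_beta hl hl,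
        inner_gen_symm gen_one (D2.gen_beta l), D2.inner_beta_one hl]
      simp [(hom_inv_ne_self h.odd hl).symm])
    have := deg_pos hu
    have := deg_pos hv
    have k : ∀ f : G → ℂ, dbeta x l - (fun _ => 1) = f → f 1 = -1 := by
      rintro _ rfl; simp [D2.beta_one]
    rcases h3 with e | e | e
    · have e1 := k _ e
      have e2 := congrArg (classInner · π) e
      rw [e, H3.inner_sub_left] at i
      simp only [H3.inner_sub_left, π0, π1, inner_char_symm (irr_char hv) cπ,
        mu_top cπ (irr_char hv), mu_top (irr_char hu) cπ] at e2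
      rw [Pi.sub_apply, ideg_eq hu, ideg_eq hv] at e1
      refine ⟨u, v, hu, hv, h1, e, ?_, ?_, by exact_mod_cast (by linear_combination -e1 :
        (charDegree v : ℂ) = charDegree u + 1), fun e3 => ?_⟩
      · rintro rfl
        simp [irr_inner_self hu, irr_inner_ne hv hu h1.symm] at i
      · rintro rfl
        simp [irr_inner_self hv, irr_inner_ne hu hv h1] at i
      · exact Nat.succ_ne_zero (mu ⊤ u π) (by exact_mod_cast (by
          rw [e3] at e2; linear_combination -e2 : (mu ⊤ u π : ℂ) + 1 = 0))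
    · have e1 := k _ e
      rw [Pi.add_apply, ideg_eq hu, ideg_eq hv] at e1
      have : (charDegree u + charDegree v : ℤ) = -1 := by exact_mod_cast e1
      omega
    · have e1 := k _ e
      rw [Pi.neg_apply, Pi.add_apply, ideg_eq hu, ideg_eq hv, neg_inj] at e1
      have : charDegree u + charDegree v = 1 := by exact_mod_cast e1
      omega
  choose! u v hu hv huv e u1 v1 duv πv using ex
  have two : ∀ a b, IsIrrCharacter G a → IsIrrCharacter G b → a ≠ b → mu ⊤ π a ≠ 0 → mu ⊤ π b ≠ 0 →
      charDegree a + charDegree b ≤ 2 * p := fun a b ha hb hab h1 h2 => by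
    rw [← dπ, deg_sum (chOn_of_char cπ ⊤)]
    refine le_trans ?_ (Finset.sum_le_sum_of_subset (s := {a, b}) (by
      simp [Finset.insert_subset_iff, mem_irrs, irrOn_top, ha, hb]))
    rw [Finset.sum_pair hab]
    exact add_le_add (Nat.le_mul_of_pos_left _ (Nat.pos_of_ne_zero h1))
      (Nat.le_mul_of_pos_left _ (Nat.pos_of_ne_zero h2))
  have alt : ∀ l m, l ≠ 1 → m ≠ 1 → u l = u m ∨ v l = v m := fun l m hl hm =>
    eq_or_eq (hu l hl) (hv l hl) (hu m hm) (hv m hm)
      (n := (if l = m then 1 else 0) + if l = m⁻¹ then 1 else 0) (by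
        rw [← e l hl, ← e m hm, H3.inner_sub_left, H3.inner_sub_right, H3.inner_sub_right,
          h.inner_beta_beta hl hm, D2.inner_beta_one hl, inner_gen_symm gen_one (D2.gen_beta m),
          D2.inner_beta_one hm, irr_inner_self isIrr_one]
        push_cast; ring)
  have ib : ∀ l, l ≠ 1 → ∀ ψ, classInner (dbeta x l) ψ =
      classInner (u l) ψ - classInner (v l) ψ + classInner (fun _ => 1) ψ := fun l hl ψ => by
    rw [← H3.inner_sub_left, ← e l hl, H3.inner_sub_left, sub_add_cancel]
  have : Nontrivial (zpowers x →* ℂˣ) := Finite.one_lt_card_iff_nontrivial.1 (by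
    rw [card_hom_of_comm (cyc_comm inferInstance), h.toSC.card]; exact hp'.one_lt)
  obtain ⟨l, hl⟩ := exists_ne (1 : zpowers x →* ℂˣ)
  have hvl : ∀ m, m ≠ 1 → v m = v l := by
    by_contra! hc
    obtain ⟨m, hm, hc⟩ := hc
    have a1 := (alt m l hm hl).resolve_right hc
    obtain ⟨-, k, hk⟩ := val_of_beta h (hu l hl) (c := 1) fun k hk => by
      have : u k = u l := (alt k l hk hl).elim id fun b => ((alt k m hk hm).resolve_right
        fun c => hc (c.symm.trans b)).trans a1
      rw [ib k hk, ← this, irr_inner_self (hu k hk), irr_inner_ne (hv k hk) (hu k hk) (huv k hk).symm,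
        irr_inner_ne isIrr_one (hu k hk) (u1 k hk).symm]; simp
    have b1 := two _ _ (hv m hm) (hv l hl) hc (πv m hm) (πv l hl)
    rw [duv m hm, duv l hl, a1] at b1
    have := deg_pos (hu l hl)
    have : charDegree (u l) = 1 := by
      have : k = 0 := by
        have : (5 : ℤ) ≤ p := by exact_mod_cast h5
        have : k < 1 := by nlinarith
        have : -1 < k := by nlinarith
        omega
      subst this
      omega
    have c := (degree_one_iff_commutator_le (hu l hl)).1 ((deg_eq_one_iff (irr_char (hu l hl))).1 this)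
    exact hq (H1.prime_card_of_comm fun a b => commutatorElement_eq_one_iff_mul_comm.1 (fa _ (hu l hl)
      (u1 l hl) _ ((mem_charKer (irr_char (hu l hl)) _).1
        (c (commutator_mem_commutator (mem_top a) (mem_top b))))))
  have hχ := hv l hl
  obtain ⟨hv', k, hk⟩ := val_of_beta h hχ (c := -1) fun k hk => by
    rw [ib k hk, ← hvl k hk, irr_inner_self (hv k hk), irr_inner_ne (hu k hk) (hv k hk) (huv k hk),
      irr_inner_ne isIrr_one (hv k hk) (v1 k hk).symm]; simp
  have m1 : mu ⊤ π (fun _ => 1) ≠ 0 := fun e => by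
    rw [inner_char_symm char_one cπ, mu_top cπ char_one, e] at π1; simp at π1
  have b1 := two _ _ hχ isIrr_one (v1 l hl) (πv l hl) m1
  rw [deg_of_eq (χ := fun _ => 1) (n := 1) (by simp)] at b1
  have hd : charDegree (v l) + 1 = p := by
    have : (5 : ℤ) ≤ p := by exact_mod_cast h5
    have : k < 3 := by nlinarith
    have : 0 < k := by nlinarith
    obtain rfl | rfl : k = 1 ∨ k = 2 := by omega
    · omega
    refine absurd ((Cfsg.Agent.S0157.result (G := G) α (by omega)).1 ?_) hnot2
    have c := char_sub_of_inner_ne_zero cπ isIrr_one (by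
      rw [inner_char_symm cπ char_one, π1]; exact one_ne_zero)
    have := char_eq_zero_of_degree_zero (char_sub_of_inner_ne_zero c hχ (by
      rw [H3.inner_sub_left, mu_top cπ (irr_char hχ), irr_inner_ne isIrr_one hχ (v1 l hl).symm]
      simpa using πv l hl)) (by
        have : (charDegree (v l) : ℂ) + 1 = 2 * p := by exact_mod_cast (by omega : _ + 1 = 2 * p)
        simp only [Pi.sub_apply, deg_eq cπ, dπ, ideg_eq hχ]
        push_cast; linear_combination -this)
    exact (congrArg (IsIrrCharacter G) (sub_eq_zero.1 this)).mpr hχ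
  have hd' : v l 1 = p - 1 := by rw [ideg_eq hχ, ← hd]; simp
  have hv'' : ∀ y ∈ zpowers x, y ≠ 1 → v l y = -1 := by simpa using hv'
  obtain rfl : p = 5 := by_contra fun h6 => no_sub h hχ hv'' hd' (fa _ hχ (v1 l hl)) h6 _ hH (by
    rw [← inner_indFun_right _ _ (irr_class hχ), ← perm_eq_indFun α a,
      inner_char_symm (irr_char hχ) cπ, mu_top cπ (irr_char hχ)]
    exact_mod_cast πv l hl)
  exact ⟨rfl, Cfsg.Agent.S0494.result (h.card_G hχ hv'' hd' (fa _ hχ (v1 l hl)))⟩

end Cfsg.Agent.S4707
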