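import Cfsg.Statements.S4708
import Cfsg.Agent.H4.Prin

set_option autoImplicit false
open Cfsg

namespace Cfsg.Agent.S4708

open H4 H1 MonoidAlgebra
open scoped Pointwise


/-- Let p be a prime, M a maximal ideal of the algebraic integers containing p, G a finite group and H a normal subgroup. Write λ(X) for the sum of the squares of the degrees of the irreducible characters in the principal p-block of a group X. Then λ(H) ≤ λ(G) ≤ [G : H]·λ(H). -/
theorem result {G : Type*} [Group G] [Finite G] (p : ℕ) [Fact p.Prime] (M : Ideal Cfsg.AlgInt) (hM : Cfsg.IsPModular p M) (H : Subgroup G) [H.Normal] : (∑ᶠ θ ∈ Cfsg.principalBlock M H, Cfsg.charDegree (θ : H → ℂ) ^ 2) ≤ (∑ᶠ χ ∈ Cfsg.principalBlock M G, Cfsg.charDegree (χ : G → ℂ) ^ 2) ∧ (∑ᶠ χ ∈ Cfsg.principalBlock M G, Cfsg.charDegree (χ : G → ℂ) ^ 2) ≤ H.index * ∑ᶠ θ ∈ Cfsg.principalBlock M H, Cfsg.charDegree (θ : H → ℂ) ^ 2 := by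
  classical
  cases nonempty_fintype G
  cases nonempty_fintype H
  simp only [finsum_mem_eq_fs]
  have h1 : ∀ (χ : Cfsg.IrrCharacter G), ∃ c : Cfsg.IrrCharacter H → ℕ,
      (∀ θ : Cfsg.IrrCharacter H, Cfsg.classInner (fun n : H => χ.1 n) θ.1 = c θ) ∧
      Cfsg.charDegree χ.1 = ∑ θ, c θ * Cfsg.charDegree θ.1 := fun χ => by
    obtain ⟨c, h1, h2⟩ := H3.char_eq_sum_nat (H3.char_restrict (H3.irr_char χ.2) H)
    refine ⟨c, h1, charDegree_of_eq ?_⟩
    simpa [irr_one_eq] using congrFun h2 1
  choose c h1 h2 using h1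
  constructor
  · calc _ ≤ ∑ θ ∈ fs (Cfsg.principalBlock M H), ∑ χ ∈ fs (Cfsg.principalBlock M G),
          (c χ θ * Cfsg.charDegree θ.1) ^ 2 := Finset.sum_le_sum fun θ hθ => by
          obtain ⟨χ, h3, h4⟩ := exists_over_of_cov hM isPBlock_principal isPBlock_principal (principal_cov hM H)
            (mem_fs.1 hθ)
          refine le_trans (Nat.pow_le_pow_left (Nat.le_mul_of_pos_left _ ?_) 2) (Finset.single_le_sum
            (f := fun χ => (c χ θ * Cfsg.charDegree θ.1) ^ 2) (fun _ _ => Nat.zero_le _) (mem_fs.2 h3))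
          rw [h1] at h4
          exact Nat.pos_of_ne_zero (by simpa using h4)
      _ ≤ _ := by
          rw [Finset.sum_comm]
          refine Finset.sum_le_sum fun χ _ => ?_
          rw [h2]
          exact (Finset.sum_le_sum_of_subset (Finset.subset_univ _)).trans
            (Finset.sum_sq_le_sq_sum_of_nonneg fun _ _ => Nat.zero_le _)
  · have h3 : ∀ θ : Cfsg.IrrCharacter H, ∑ χ, c χ θ * Cfsg.charDegree χ.1 = H.index * Cfsg.charDegree θ.1 := fun θ => by
      have := sum_over θ (Set.univ : Set (Cfsg.IrrCharacter G))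
      rw [fI_univ, resA_one, om_one θ.2, mul_one, show fs Set.univ = Finset.univ from by ext; simp] at this
      simp only [H3.inner_char_symm (H3.irr_char θ.2) (H3.char_restrict (H3.irr_char (Subtype.prop _)) H), h1,
        irr_one_eq] at this
      exact_mod_cast this
    calc _ = ∑ χ ∈ fs (Cfsg.principalBlock M G), ∑ θ ∈ fs (Cfsg.principalBlock M H),
          c χ θ * Cfsg.charDegree χ.1 * Cfsg.charDegree θ.1 := Finset.sum_congr rfl fun χ hχ => by
          rw [sq]
          nth_rewrite 2 [h2 χ]
          rw [Finset.mul_sum, ← Finset.sum_subset (Finset.subset_univ (fs (Cfsg.principalBlock M H))) fun θ _ h => ?_]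
          · exact Finset.sum_congr rfl fun _ _ => by ring
          · have : c χ θ = 0 := by_contra fun e => h (mem_fs.2 (under_principal hM (mem_fs.1 hχ) (by
              rw [h1]; exact_mod_cast e)))
            simp [this]
      _ ≤ _ := by
          rw [Finset.sum_comm, Finset.mul_sum]
          refine Finset.sum_le_sum fun θ _ => ?_
          rw [← Finset.sum_mul, sq, ← mul_assoc, ← h3]
          exact Nat.mul_le_mul_right _ (Finset.sum_le_sum_of_subset (Finset.subset_univ _))

end Cfsg.Agent.S4708
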