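import Cfsg.Statements.S4709
import Cfsg.Agent.H4.Frob3

set_option autoImplicit false
open Cfsg

namespace Cfsg.Agent.S4709

open H4 H1 MonoidAlgebra
open scoped Pointwise


/-- Let p be a prime, M a maximal ideal of the algebraic integers containing p, and G a finite group with a nontrivial abelian Sylow p-subgroup P; put N = N_G(P), C = C_G(P). Suppose N/C is cyclic of order m with 1 < m < #P − 1 (C has index m in N and N is generated by C and one element), and C_G(y) ∩ N = C for every non-identity y ∈ P. Put r = (#P − 1)/m. Then there is s ≤ m such that the principal p-block is the disjoint union of a set X of s characters containing the principal character and a set Y of r characters, with integers a_χ ≠ 0 (χ ∈ X), d and a sign δ = ±1, such that: every χ ∈ X takes the value a_χ at every element whose p-part is a non-identity element of P; there is a map ζ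 from the non-principal linear characters ψ of P onto Y, constant on N-conjugacy classes, with ζ_ψ(z) = d + δ·Σ ψ'(y) for every z whose p-part y is a non-identity element of P, the sum running over the N-conjugates ψ' of ψ; (d − δ)^2 + (r − 1) d^2 + Σ_{χ ∈ X} a_χ^2 = m + 1; all members of Y agree on p-regular elements; and (r d − δ) η(g) + Σ_{χ ∈ X} a_χ χ(g) = 0 for every η ∈ Y and every p-regular g. -/
theorem result {G : Type*} [Group G] [Finite G] (p : ℕ) [Fact p.Prime] (M : Ideal Cfsg.AlgInt) (hM : Cfsg.IsPModular p M) (P : Sylow p G) (hab : IsMulCommutative P) (hP1 : Nat.card P ≠ 1) (m : ℕ) (hm1 : 1 < m) (hm2 : m + 1 < Nat.card P) (hCN : (Subgroup.centralizer ((P : Subgroup G) : Set G)).relIndex (Subgroup.normalizer ((P : Subgroup G) : Set G)) = m) (hcyc : ∃ g : G, g ∈ Subgroup.normalizer ((P : Subgroup G) : Set G) ∧ Subgroup.centralizer ((P : Subgroup G)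 : Set G) ⊔ Subgroup.zpowers g = Subgroup.normalizer ((P : Subgroup G) : Set G)) (hfrob : ∀ y : G, y ∈ (P : Subgroup G) → y ≠ 1 → Subgroup.centralizer ({y} : Set G) ⊓ Subgroup.normalizer ((P : Subgroup G) : Set G) = Subgroup.centralizer ((P : Subgroup G) : Set G)) : ∃ (s : ℕ) (X Y : Set (Cfsg.IrrCharacter G)), s ≤ m ∧ Cfsg.principalBlock M G = X ∪ Y ∧ Disjoint X Y ∧ Nat.card X = s ∧ Nat.card Y = (Nat.card P - 1) / m ∧ (∃ χ₁ ∈ X, (χ₁ : G → ℂ) = fun _ => 1) ∧ ∃ (a : Cfsg.IrrCharacter G → ℤ) (d δ : ℤ) (ζ : (↥(P : Subgroup G) →* ℂˣ) → Cfsg.IrrCharacter G), (δ = 1 ∨ δ = -1) ∧ (∀ χ ∈ X, a χ ≠ 0 ∧ ∀ z y : G, Cfsg.IsPPart p z y → y ∈ (P : Subgroup G) → y ≠ 1 → (χ : G → ℂ) z = (a χ : ℂ)) ∧ (∀ ψ : ↥(P : Subgroup G) →* ℂˣ, ψ ≠ 1 → ζ ψ ∈ Y) ∧ (∀ η ∈ Y, ∃ ψ : ↥(P : Subgroup G) →* ℂˣ, ψ ≠ 1 ∧ ζ ψ = η) ∧ (∀ ψ ψ' : ↥(P : Subgroup G) →* ℂˣ, ψ ≠ 1 → (∃ n : G, n ∈ Subgroup.normalizer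 ((P : Subgroup G) : Set G) ∧ ∀ w w' : ↥(P : Subgroup G), (w' : G) = n * w * n⁻¹ → ψ' w' = ψ w) → ζ ψ' = ζ ψ) ∧ (∀ ψ : ↥(P : Subgroup G) →* ℂˣ, ψ ≠ 1 → ∀ (z : G) (y : ↥(P : Subgroup G)), Cfsg.IsPPart p z (y : G) → (y : G) ≠ 1 → (ζ ψ : G → ℂ) z = (d : ℂ) + (δ : ℂ) * ∑ᶠ ψ' ∈ {ψ' : ↥(P : Subgroup G) →* ℂˣ | ∃ n : G, n ∈ Subgroup.normalizer ((P : Subgroup G) : Set G) ∧ ∀ w w' : ↥(P : Subgroup G), (w' : G) = n * w * n⁻¹ → ψ' w' = ψ w}, ((ψ' y : ℂˣ) : ℂ)) ∧ ((d - δ) ^ 2 + ((Nat.card P - 1) / m - 1 : ℤ) * d ^ 2 + ∑ᶠ χ ∈ X, a χ ^ 2 = (m : ℤ) + 1) ∧ (∀ η ∈ Y, ∀ η' ∈ Y, ∀ g : G, ¬ p ∣ orderOf g → (η : G → ℂ) g = (η' : G → ℂ) g) ∧ (∀ η ∈ Y, ∀ g : G, ¬ p ∣ orderOf g → ((((Nat.card P - 1) / m : ℕ) : ℂ) * d - δ) * (η : G → ℂ) g + ∑ᶠ χ ∈ X, (a χ : ℂ) * (χ : G → ℂ) g = 0) := by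
  have := Fintype.ofFinite G
  have := Fintype.ofFinite P
  have := Finite.one_lt_card_iff_nontrivial.1 (show 1 < Nat.card P by omega)
  obtain ⟨Θ, x, h1, h2, h3⟩ := frob_exc hM hab hfrob
  obtain ⟨ζ, a, d, δ, h4⟩ := h1.exc ⟨_, triv_mem_principal hM⟩
  have h5 := h1.toFr.card_OS
  have h6 := h4.card_le
  have h7 := h4.norm
  rw [card_ga le_rfl, hCN] at h5 h6 h7
  have h8 : (Nat.card P - 1) / m = (OS (ga (P : Subgroup G) (NS P))).card := Nat.div_eq_of_eq_mul_right (by omega) (by omega)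
  have h9 : ((Nat.card P : ℤ) - 1) / m = (OS (ga (P : Subgroup G) (NS P))).card :=
    Int.ediv_eq_of_eq_mul_right (by omega) (by rw [← h5]; push_cast; ring)
  refine ⟨_, _, _, h6, h4.union, Set.disjoint_sdiff_left, rfl, h8 ▸ h4.card_image,
    ⟨_, (h3 ζ a d δ h4 fun e => by rw [e] at h5; omega).1, rfl⟩, a, d, δ, fun ψ => ζ (os _ ψ), h4.sign, fun χ hχ =>
    ⟨(h4.val' χ hχ).1, fun z y hz hy h => ?_⟩, fun ψ hψ => ⟨_, mem_OS.2 ⟨ψ, hψ, rfl⟩, rfl⟩, ?_, fun ψ ψ' _ h => congrArg ζ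
    (os_conj h), fun ψ hψ z y hz hy => ?_, by rw [h9, finsum_mem_eq_fs]; exact h7, ?_, ?_⟩
  · have k : (⟨y, hy⟩ : P) ≠ 1 := fun e => h (congrArg Subtype.val e)
    exact (h2 χ hχ.1 _ k z (eq_pp_of_isPPart hM.1 hz).symm).trans ((h4.val' χ hχ).2 _ k)
  · rintro _ ⟨_, ho, rfl⟩
    obtain ⟨l, hl, rfl⟩ := mem_OS.1 ho
    exact ⟨l, hl, rfl⟩
  · have k : y ≠ 1 := fun e => hy (congrArg Subtype.val e)
    have ho := mem_OS.2 ⟨ψ, hψ, (rfl : os (ga (P : Subgroup G) (NS P)) ψ = _)⟩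
    rw [h2 _ (h4.mem _ ho) _ k z (eq_pp_of_isPPart hM.1 hz).symm, h4.val _ ho _ k, os_finsum h1.toFr hψ]
  · rintro _ ⟨o, ho, rfl⟩ _ ⟨o', ho', rfl⟩
    exact h4.reg o ho o' ho'
  · rintro _ ⟨o, ho, rfl⟩ g hg
    rw [h8, finsum_mem_eq_fs]; exact h4.rel o ho g hg

end Cfsg.Agent.S4709
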