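import Cfsg.Statements.S4710
import Cfsg.Agent.H4.Ctr

set_option autoImplicit false
open Cfsg

namespace Cfsg.Agent.S4710

open H4 H1 MonoidAlgebra
open scoped Pointwise


/-- Let p be a prime, M a maximal ideal of the algebraic integers containing p, and B a p-block of defect d of the finite group G containing k irreducible characters. If B contains a character of positive height then 2k ≤ p^(2d − 2); and every character in B has height 0 when d ≤ 1 and height at most d − 2 when d ≥ 2. -/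
theorem result {G : Type*} [Group G] [Finite G] (p : ℕ) [Fact p.Prime] (M : Ideal Cfsg.AlgInt) (hM : Cfsg.IsPModular p M) (B : Set (Cfsg.IrrCharacter G)) (hB : Cfsg.IsPBlock M B) (d : ℕ) (hd : Cfsg.blockDefect p B = d) : ((∃ χ ∈ B, 0 < Cfsg.blockHeight p B (χ : G → ℂ)) → 2 * Nat.card B ≤ p ^ (2 * d - 2)) ∧ ∀ χ ∈ B, (d ≤ 1 → Cfsg.blockHeight p B (χ : G → ℂ) = 0) ∧ (2 ≤ d → Cfsg.blockHeight p B (χ : G → ℂ) ≤ d - 2) := by
  classical
  subst hd
  refine ⟨fun ⟨ψ, hψ, h⟩ => ?_, fun χ hχ => ?_⟩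
  · obtain ⟨a, ha⟩ := exists_amat hM hB
    obtain ⟨χ, h1, h2⟩ := exists_height_zero hM hB
    have h0 : (1 : ℤ) ≤ p := by exact_mod_cast (Fact.out : p.Prime).pos
    have hd := height_add_two_le hM hB hψ h.ne'
    set S := (fs B).filter fun ζ => blockHeight p B ζ.1 = 0
    set T := (fs B).filter fun ζ => ¬ blockHeight p B ζ.1 = 0
    have key : ∀ (U : Finset (IrrCharacter G)), ∀ α ∈ B, U ⊆ (fs B).erase α →
        (∀ ζ ∈ U, (p : ℤ) ^ 2 ≤ a α ζ * a α ζ) → 4 * (U.card * (p : ℤ) ^ 2) ≤ p ^ (2 * blockDefect p B) :=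
      fun U α hα hU h3 => by
        have h4 := Finset.sum_le_sum h3
        rw [Finset.sum_const, nsmul_eq_mul] at h4
        have h5 := Finset.sum_le_sum_of_subset_of_nonneg (f := fun ζ => a α ζ * a α ζ) hU fun _ _ _ => mul_self_nonneg _
        linarith [ha.off_le hα]
    have k1 := key S ψ hψ (fun ζ hζ => Finset.mem_erase.2 ⟨fun e => h.ne' (e ▸ (Finset.mem_filter.1 hζ).2),
      (Finset.mem_filter.1 hζ).1⟩) fun ζ hζ => by
        have h3 := mem_fs.1 (Finset.mem_filter.1 hζ).1
        rw [ha.symm ψ hψ ζ h3]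
        exact (pow_le_pow_right₀ h0 (by omega)).trans (ha.pow_le h3 (Finset.mem_filter.1 hζ).2 hψ)
    have k2 := key T χ h1 (fun ζ hζ => Finset.mem_erase.2 ⟨fun e => (Finset.mem_filter.1 hζ).2 (e ▸ h2),
      (Finset.mem_filter.1 hζ).1⟩) fun ζ hζ => by
        have := (Finset.mem_filter.1 hζ).2
        exact (pow_le_pow_right₀ h0 (by omega)).trans (ha.pow_le h1 h2 (mem_fs.1 (Finset.mem_filter.1 hζ).1))
    have k3 : S.card + T.card = Nat.card B := by rw [Finset.card_filter_add_card_filter_not, card_fs]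
    have k4 : (p : ℤ) ^ (2 * blockDefect p B) = p ^ (2 * blockDefect p B - 2) * p ^ 2 := by
      rw [← pow_add]; congr 1; omega
    rw [← k3]; zify
    refine le_of_mul_le_mul_right ?_ (pow_pos (zero_lt_one.trans_le h0) 2)
    linarith
  · by_cases h : blockHeight p B χ.1 = 0
    · exact ⟨fun _ => h, fun _ => h ▸ Nat.zero_le _⟩
    · have := height_add_two_le hM hB hχ h
      exact ⟨fun _ => by omega, fun _ => by omega⟩

end Cfsg.Agent.S4710
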