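import Cfsg.Statements.S4713
import Cfsg.Agent.H3.Chr3

set_option autoImplicit false
open Cfsg

namespace Cfsg.Agent.S4713

/-- Let p be a prime and G a finite p-solvable group. Then G has a normal abelian Sylow p-subgroup if and only if the degree of every irreducible character of G is prime to p. -/
theorem result {G : Type*} [Group G] [Finite G] (p : ℕ) [Fact p.Prime] (hsolv : Cfsg.IsPSolvable p G) (P : Sylow p G) : ((P : Subgroup G).Normal ∧ IsMulCommutative P) ↔ ∀ χ : Cfsg.IrrCharacter G, ¬ p ∣ Cfsg.charDegree (χ : G → ℂ) := by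
  refine ⟨fun ⟨_, h⟩ χ => H3.not_dvd_of_normal (fun a b c d => H1.comm_of_mem h b d)
    P.not_dvd_index χ.2, fun h => ?_⟩
  have := H3.ito_psolv hsolv (fun χ a => h ⟨χ, a⟩) P
  exact ⟨this, H3.comm_of_not_dvd (fun χ a => h ⟨χ, a⟩) P.2⟩

end Cfsg.Agent.S4713
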