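import Cfsg.Statements.S4714
import Cfsg.Agent.H4.Cent

set_option autoImplicit false
open Cfsg

namespace Cfsg.Agent.S4714

open H4 H1 MonoidAlgebra
open scoped Pointwise


/-- Let p be a prime, M a maximal ideal of the algebraic integers containing p, D a p-subgroup of the finite group G with G = D·C_G(D), and B a p-block with defect group D. Let χ be a member of B having D in its kernel (there is exactly one, the canonical character of B). Then the irreducible characters in B are exactly the functions θ on G for which there is an irreducible character ζ of D such that θ(yx) = ζ(y)χ(x) whenever y ∈ D, x has order prime to p and x commutes with y, and θ(z) = 0 whenever the p-part of z does not lie in D. -/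
theorem result {G : Type*} [Group G] [Finite G] (p : ℕ) [Fact p.Prime] (M : Ideal Cfsg.AlgInt) (hM : Cfsg.IsPModular p M) (D : Subgroup G) (hD : IsPGroup p D) (hG : D ⊔ Subgroup.centralizer (D : Set G) = ⊤) (B : Set (Cfsg.IrrCharacter G)) (hB : Cfsg.IsPBlock M B) (hBD : Cfsg.IsDefectGroup p M B D) (χ : Cfsg.IrrCharacter G) (hχ : χ ∈ B) (hχD : ∀ y ∈ D, (χ : G → ℂ) y = (χ : G → ℂ) 1) : (∀ θ : Cfsg.IrrCharacter G, θ ∈ B ↔ ∃ ζ : Cfsg.IrrCharacter D, (∀ (y : D) (x : G), ¬ p ∣ orderOf x → Commute (y : G) x → (θ : G → ℂ) ((y : G) * x) = (ζ : D → ℂ) y * (χ : G → ℂ) x) ∧ (∀ z : G, (∀ y : G, Cfsg.IsPPart p z y → y ∉ D) → (θ : G → ℂ) z = 0)) ∧ ∀ ζ : Cfsg.IrrCharacter D, ∃ θ ∈ B, (∀ (y : D) (x : G), ¬ p ∣ orderOf x → Commute (y : G) x → (θ : G → ℂ) ((y : G) * x) = (ζ : D → ℂ) y * (χ : G → ℂ) x) ∧ (∀ z : G, (∀ y : G, Cfsg.IsPPart p z y → y ∉ D) → (θ : G → ℂ) z = 0) := by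
  have := normal_of_sup_CS hG
  obtain ⟨Φ, h⟩ := chars_of_sup hM hB hBD hG hχ (height_zero_of_ker hM hB hBD hχ hχD).1
  have key : ∀ ζ, (∀ (y : D) (x : G), ¬ p ∣ orderOf x → Commute (y : G) x → (Φ ζ).1.1 (y * x) = ζ.1 y * χ.1 x) ∧
      ∀ z : G, (∀ y : G, Cfsg.IsPPart p z y → y ∉ D) → (Φ ζ).1.1 z = 0 := fun ζ => ⟨fun y x h1 h2 => by
    rw [h ζ _ y (pp_mul_of_commute Fact.out h2 (isPElt_of_mem Fact.out hD y.2) h1),
      H3.char_ker_mul (H3.irr_char χ.2) (hχD y y.2)], fun z hz => by_contra fun h1 =>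
    hz _ (isPPart_pp Fact.out z) (pp_mem_of_normal hM hB hBD (Φ ζ).2 h1)⟩
  refine ⟨fun θ => ⟨fun h1 => ⟨Φ.symm ⟨θ, h1⟩, by simpa using key (Φ.symm ⟨θ, h1⟩)⟩, fun ⟨ζ, h1, h2⟩ => ?_⟩,
    fun ζ => ⟨_, (Φ ζ).2, key ζ⟩⟩
  convert (Φ ζ).2 using 1
  refine Subtype.ext (funext fun g => ?_)
  by_cases h3 : pp p g ∈ D
  · have h4 := not_dvd_orderOf_pq (Fact.out : p.Prime) g
    rw [← pp_mul_pq (p := p) g]
    exact (h1 ⟨_, h3⟩ _ h4 (commute_pp_pq g)).trans ((key ζ).1 ⟨_, h3⟩ _ h4 (commute_pp_pq g)).symm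
  · have h4 : ∀ y : G, Cfsg.IsPPart p g y → y ∉ D := fun y hy => eq_pp_of_isPPart Fact.out hy ▸ h3
    exact (h2 g h4).trans ((key ζ).2 g h4).symm

end Cfsg.Agent.S4714
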