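import Cfsg.Statements.S4715
import Cfsg.Agent.H4.Wat

set_option autoImplicit false
open Cfsg

namespace Cfsg.Agent.S4715

open H4 H1 MonoidAlgebra
open scoped Pointwise
open Cfsg in
section
variable {G : Type*} [Group G] [Finite G] {M : Ideal AlgInt} {p : ℕ} [hp : Fact p.Prime] {P Q : Subgroup G}
  {j e f f' : (k M)[G]} {u u' : G}

theorem ADG_cen (hM : IsPModular p M) (h : MaxP p j P e) (h1 : P ≤ CS Q) (h' : SLE p Q f P e) : ADG p (CS Q) f P :=
  ⟨h1, h.dg.isP, (h'.nsub hM (h1.trans (CS_le_NS Q))).ne, fun S h4 h5 h6 => by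
    obtain ⟨g, h7⟩ := exists_nsub_sup hM h'.isP h'.bf h5 (h4.trans (CS_le_Stab h'.bf)) h6
    obtain ⟨y, h8, -⟩ := h7.exists_conj hM h (h.mul_of_sle hM h')
    rw [← card_conj_smul y S]
    exact Subgroup.card_le_of_le ((conj_smul_mono y le_sup_right).trans h8)⟩

theorem fus_cen (hM : IsPModular p M) (h : MaxP p j P e) (h' : SLE p Q f P e) {x : G} (k1 : P ≤ CS Q)
    (k2 : P ≤ CS (MulAut.conj x • Q)) (h'' : SLE p (MulAut.conj x • Q) (cj x f) P e) :
    ∃ y ∈ Stab (NS P) e, ∀ u ∈ Q, x * u * x⁻¹ = y * u * y⁻¹ := by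
  have h1 := ADG_cen hM h k2 h''
  have h2 := h''.nsub hM (h1.le.trans (CS_le_NS _))
  have h4 := (h'.nsub hM (k1.trans (CS_le_NS _))).cj x
  obtain ⟨c, h5, h6⟩ := exists_conj_SLE hM h''.bf h1 (CS_anti h''.le) h.be h2.mul h4.isP
    (CS_conj x Q ▸ conj_smul_mono x k1) (CS_anti h4.le) h4.be h4.mul
  rw [conj_smul_conj_smul, ← cj_mul] at h6
  have h7 := eq_of_le_of_card_eq h6.le (card_conj_smul _ _)
  rw [h7] at h6
  refine ⟨c * x, ⟨conj_smul_eq_self_iff.1 h7, h6.eq_of_eq⟩, fun u hu => ?_⟩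
  rw [show c * x * u * (c * x)⁻¹ = c * (x * u * x⁻¹) * c⁻¹ by group, ← h5 _ (conj_mem_conj_smul hu), mul_inv_cancel_right]

theorem brel_trans (hM : IsPModular p M) {s t : P} (h1 : BRel p P e u f s) (h2 : BRel p P e u' f' s)
    (h3 : BRel p P e u f t) : BRel p P e u' f' t := by
  obtain ⟨y, h4, h5⟩ := h1
  obtain ⟨y', h6, h7⟩ := h2
  have := h3.cj (y'⁻¹ * y)
  rwa [cj_mul, h5.unique hM h7, cj_inv_cj, show y'⁻¹ * y * u * (y'⁻¹ * y)⁻¹ = y'⁻¹ * (y * u * y⁻¹) * y' by group, ← h4,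
    h6, show y'⁻¹ * (y' * u' * y'⁻¹) * y' = u' by group] at this

theorem inner_star_le [Fintype G] (hM : IsPModular p M) (χ : IrrCharacter G) {η : P → ℕ} {E : ℕ} (h : ∀ t, η t ≤ E) :
    (classInner (star p e χ.1 fun t => η t) χ.1).re ≤ E := by
  obtain ⟨X, hX⟩ := exists_pReps G p
  have := fun x : G => Fintype.ofFinite (C1 x)
  have hc := H3.irr_class χ.2
  rw [← mul_one (E : ℝ), ← Complex.one_re, ← H3.irr_inner_self χ.2, hX.inner_sb hM hc hc,
    hX.inner_sb hM (class_star hM hc _) hc]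
  simp only [Complex.re_sum, Finset.mul_sum]
  refine Finset.sum_le_sum fun x hx => Finset.sum_le_sum fun b hb => ?_
  rw [(sec_cEl (hX.elt x hx)).sb_star hM hc (mem_blocks.1 hb), H3.inner_smul_left]
  obtain ⟨m, h1, h2⟩ : ∃ m ≤ E, wt p e (fun t => (η t : ℂ)) (cEl x) (aE M _ b) = m := by
    unfold wt; split_ifs; exacts [⟨_, h _, rfl⟩, ⟨0, zero_le, by simp⟩]
  rw [h2, ← Complex.ofReal_natCast, Complex.re_ofReal_mul]
  exact mul_le_mul_of_nonneg_right (Nat.cast_le.2 h1) (H3.inner_self_re_nonneg _)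
end

/-- Let p be a prime, M a maximal ideal of the algebraic integers containing p, B a p-block of the finite group G with defect group D of order p^d, H = D·C_G(D), b a block of H inducing B, T the stabilizer of b in N_G(D) and e = [T : H] the inertial index of B; let n be the integer with p^n ≤ e < p^(n+1) and p^c the order of the centre of D. Then every irreducible character in B has height h with h + c ≤ n + d. -/
theorem result {G : Type*} [Group G] [Finite G] (p : ℕ) [Fact p.Prime] (M : Ideal Cfsg.AlgInt) (hM : Cfsg.IsPModular p M) (B : Set (Cfsg.IrrCharacter G)) (hB : Cfsg.IsPBlock M B) (D : Subgroup G) (hBD : Cfsg.IsDefectGroup p M B D) (d : ℕ) (hDd : Nat.card D = p ^ d) (H : Subgroup G) (hH : H = D ⊔ Subgroup.centralizer (D : Set G)) (b : Set (Cfsg.IrrCharacter H)) (hind : Cfsg.IsInducedBlock M H b B) (T : Subgroup G) (hT : ∀ g : G, g ∈ T ↔ (g ∈ Subgroup.normalizer (D : Set G) ∧ ∀ θ ∈ b, ∀ θ' : Cfsg.IrrCharacter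 H, (∀ h h' : H, (h' : G) = g * h * g⁻¹ → (θ' : H → ℂ) h' = (θ : H → ℂ) h) → θ' ∈ b)) (e : ℕ) (he : H.relIndex T = e) (n : ℕ) (hn : p ^ n ≤ e ∧ e < p ^ (n + 1)) (c : ℕ) (hc : Nat.card (Subgroup.center D) = p ^ c) : ∀ χ ∈ B, Cfsg.blockHeight p B (χ : G → ℂ) + c ≤ n + d := by
  classical
  subst hH he
  intro χ hχ
  cases nonempty_fintype G
  cases nonempty_fintype D
  have := fun x : G => Fintype.ofFinite (C1 x)
  have hp : p.Prime := Fact.out
  have h0 := dg_isPGroup hBD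
  have h1 := (isBI_aE hM hind.1).of_sup_CS hM h0
  have hm : MaxP p (eB M B) D (aE M _ b) := ⟨isBI_eB hM hB, (dg_iff_ADG_top hM hB).1 hBD, h1,
    Br_mul_of_ind hM hind h0 le_sup_left le_sup_right h1 (by rw [Br_of_Sup h1.mem.2, h1.idem])⟩
  obtain rfl : T = Stab (NS D) (aE M _ b) := Subgroup.ext fun g => (hT g).trans
    (and_congr_right fun hg => stable_iff hM hind.1 (NS_le_NS_sup_CS D hg))
  generalize aE M _ b = e at *
  have hc' := hc
  replace hc := H3.irr_class χ.2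
  have hd : Cfsg.blockDefect p B = d := Nat.pow_right_injective hp.two_le ((dg_card hM hB hBD).symm.trans hDd)
  let R : D → D → Prop := fun t s => ∃ u f, BRel p D e u f t ∧ BRel p D e u f s
  let I : D → D → ℂ := fun t s => if R t s then 1 else 0
  have h2 : ∀ t, St p e (I t) := fun t u f s s' h h' => if_congr
    ⟨fun ⟨u, f, h1, h2⟩ => ⟨u, f, h1, brel_trans hM h h2 h'⟩, fun ⟨u, f, h1, h2⟩ => ⟨u, f, h1, brel_trans hM h' h2 h⟩⟩ rfl rfl
  have h3 : ∀ t ∈ Subgroup.center D, D ≤ CS (Subgroup.zpowers (t : G)) := fun t ht x hx => by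
    rw [CS_zpowers]
    exact mem_centralizer_singleton.2 (congrArg Subtype.val (Subgroup.mem_center_iff.1 ht ⟨x, hx⟩)).symm
  let a : D → ℝ := fun t => p ^ d * (Cfsg.classInner (star p e χ.1 (I t)) χ.1).re
  have h4 : ∀ t : Subgroup.center D, (Kp p (p ^ (d + 1))).card * (p : ℝ) ^ Cfsg.blockHeight p B χ.1 ≤
      ∑ i ∈ Kp p (p ^ (d + 1)), a (t ^ i) := fun t => by
    obtain ⟨b, k1, k2⟩ := hm.exists_loc hM hB t
    have k3 := sec_cEl (isPElt_of_mem hp h0 t.1.2)
    have k4 := hm.defect_eq hM k1 k2 (CS_zpowers _) (CS_zpowers (t : G) ▸ h3 t t.2)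
    have k5 := SF.le_sum_norm hM (cF_mem_SF hM k3.center (pow_pos hp.pos (d + 1)).ne' (Subtype.ext (by
      have : t.1 ^ p ^ (d + 1) = 1 := by rw [pow_succ, pow_mul, ← hDd, pow_card_eq_one', one_pow]
      simpa using congrArg Subtype.val this)) b (H3.irr_gen χ.2) (H3.irr_gen χ.2))
      ((k3.pow hp.not_dvd_one).cF_self_ne_zero hM k1 k4 hχ) (j := Cfsg.blockHeight p B χ.1) (fun i hi => by
        have := (k3.pow hi).v_cF hM k1 k4 hχ hχ
        by_cases e : Cfsg.blockHeight p B χ.1 = 0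
        exacts [(this.1 e).le, (this.2 e).le]) 1
    rw [mul_one] at k5
    refine k5.trans_eq (Finset.sum_congr rfl fun i hi => ?_)
    have k6 := (zpowers_pow_eq k3.elt (mem_Kp.1 hi).2).symm ▸ k2
    have k7 := SLE.brel (t := t.1 ^ i) k6
    have := (h2 (t.1 ^ i)).inner_supp hM (k3.pow (mem_Kp.1 hi).2) k1.1 k6 (t := t.1 ^ i) rfl (fun s hs => by
      obtain ⟨u, f, h1, h2⟩ : R _ s := by_contra fun h => hs (if_neg h)
      exact brel_trans hM h1 k7 h2) hc hc
    rw [show I (t.1 ^ i) (t.1 ^ i) = 1 from if_pos ⟨_, _, k7, k7⟩, one_mul] at this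
    rw [pow_one, ← Complex.ofReal_re ‖_‖, norm_cF_self, cF, ← this, k4, hd, ← Complex.ofReal_natCast,
      Complex.re_ofReal_mul, Nat.cast_pow]
  cases nonempty_fintype (Subgroup.center D)
  have h5 := Finset.sum_le_sum fun t (_ : t ∈ Finset.univ) => h4 t
  have h5' : ∀ i ∈ Kp p (p ^ (d + 1)), ∑ t : Subgroup.center D, a (t ^ i) = ∑ t : Subgroup.center D, a t :=
    fun i hi => Equiv.sum_comp (powCoprime (by
      rw [hc']; exact (hp.coprime_iff_not_dvd.2 (mem_Kp.1 hi).2).pow_left c)) fun t : Subgroup.center D => a t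
  rw [Finset.sum_comm, Finset.sum_congr rfl h5', Finset.sum_const, Finset.sum_const, Finset.card_univ, ← Nat.card_eq_fintype_card, nsmul_eq_mul, nsmul_eq_mul,
    mul_left_comm, mul_le_mul_iff_right₀ card_Kp_pos, ← Finset.mul_sum, ← Complex.re_sum, ← H3.inner_sum_left] at h5
  have h6 := star_sum (p := p) (e := e) χ.1 Finset.univ (fun _ => 1) fun t : Subgroup.center D => I t
  simp only [one_smul] at h6
  rw [← h6, show ∑ t : Subgroup.center D, I t = fun s => ((Finset.univ.filter fun t : Subgroup.center D => R t s).card : ℂ)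
    from funext fun s => by rw [Finset.sum_apply, Finset.sum_boole]] at h5
  have h7 := h5.trans (mul_le_mul_of_nonneg_left (inner_star_le hM χ (E := (D ⊔ CS D).relIndex (Stab (NS D) e))
    fun s => ?_) (by positivity))
  · have h8 : p ^ c * p ^ Cfsg.blockHeight p B χ.1 < p ^ d * p ^ (n + 1) :=
      (show _ ≤ _ by rw [← hc']; exact_mod_cast h7).trans_lt (mul_lt_mul_of_pos_left hn.2 (pow_pos hp.pos d))
    rw [← pow_add, ← pow_add, Nat.pow_lt_pow_iff_right hp.one_lt] at h8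
    omega
  rcases (Finset.univ.filter fun t : Subgroup.center D => R t s).eq_empty_or_nonempty with h | ⟨t, ht⟩
  · simp [h]
  obtain ⟨u, f, k1, k2⟩ := (Finset.mem_filter.1 ht).2
  have h8 : ∀ t' : Finset.univ.filter fun t : Subgroup.center D => R t s,
      ∃ y : Stab (NS D) e, (t'.1 : G) = y * t * (y : G)⁻¹ := fun t' => by
    obtain ⟨u', f', k3, k4⟩ := (Finset.mem_filter.1 t'.2).2
    obtain ⟨y', k5, k6⟩ := brel_trans hM k4 k2 k3
    obtain ⟨y, k7, k8⟩ := k1
    have k9 : (t'.1 : G) = y' * y⁻¹ * t * (y' * y⁻¹)⁻¹ := by rw [k5, k7]; group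
    obtain ⟨x, k10, k11⟩ := fus_cen hM hm k8 (x := y' * y⁻¹) (h3 t t.2) (by
      rw [← zpowers_conj, ← k9]; exact h3 _ t'.1.2) (by rwa [← zpowers_conj, ← k9, ← cj_mul, inv_mul_cancel_right])
    exact ⟨⟨x, k10⟩, k9.trans (k11 _ (Subgroup.mem_zpowers _))⟩
  choose y hy using h8
  rw [← Nat.card_eq_finsetCard]
  refine Nat.card_le_card_of_injective (fun t' => (y t' : _ ⧸ (D ⊔ CS D).subgroupOf _)) fun t₁ t₂ h => ?_
  have h9 : D ⊔ CS D ≤ C1 (t : G) := sup_le (CS_zpowers (t : G) ▸ h3 t t.2) fun g hg =>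
    mem_centralizer_singleton.2 (hg _ t.1.2)
  have h10 : (t : G) * ((y t₁ : G)⁻¹ * y t₂) = (y t₁ : G)⁻¹ * y t₂ * t :=
    mem_centralizer_singleton.1 (h9 (Subgroup.mem_subgroupOf.1 (QuotientGroup.eq.1 h)))
  refine Subtype.ext (Subtype.ext (Subtype.ext ?_))
  rw [hy, hy t₂, show (y t₂ : G) * t = y t₁ * ((y t₁ : G)⁻¹ * y t₂ * t) by group, ← h10]
  group

end Cfsg.Agent.S4715
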