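import Cfsg.Statements.S4719
import Cfsg.Agent.H4.Maj2
import Cfsg.Agent.H1.Invol
import Mathlib.GroupTheory.FixedPointFree

set_option autoImplicit false
universe u
open Cfsg

namespace Cfsg.Agent.S4719

open H4 H1 MonoidAlgebra
open scoped Pointwise
section
variable {G : Type*} [Group G] [Finite G]

theorem small_class {t : G} (ht : orderOf t = 2) : ∃ g ≠ (1 : G), (C1 g).index ≤ 2 * Nat.card (C1 t) ^ 2 := by
  classical
  have := Fintype.ofFinite G
  by_contra h
  push Not at h
  set c := Nat.card (C1 t)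
  set n := Nat.card {t : G // orderOf t = 2}
  have h1 : Nat.card G ≤ c * n := card_le_mul_card_two ht
  have h2 : 2 * c ^ 2 < n := (h t (by rintro rfl; simp at ht)).trans_le (index_centralizer_le_card_two ht)
  have h3 : ∀ x : G, (2 * c ^ 2 + 1) * nPairs x ≤ Nat.card G + if x = 1 then (2 * c ^ 2 + 1) * n else 0 := fun x => by
    split_ifs with e
    · rw [e, nPairs_one]; exact Nat.le_add_left _ _
    · rw [add_zero, ← (C1 x).card_mul_index, mul_comm]; exact Nat.mul_le_mul (nPairs_le x) (h x e)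
  have h4 := Finset.sum_le_sum fun x (_ : x ∈ Finset.univ) => h3 x
  simp only [Finset.sum_add_distrib, ← Finset.mul_sum, sum_nPairs, Finset.sum_ite_eq', Finset.mem_univ, if_true,
    Finset.sum_const, smul_eq_mul, Finset.card_univ, ← Nat.card_eq_fintype_card] at h4
  have h5 := Nat.mul_le_mul h1 h1
  have h6 := Nat.mul_le_mul_right n (show 2 * c ^ 2 + 1 ≤ n from h2)
  have h7 : 0 < c * n := Nat.mul_pos Nat.card_pos (by omega)
  change (2 * c ^ 2 + 1) * n ^ 2 ≤ _ at h4
  nlinarith

theorem card_le_comm (x : G) {K T : Set G} (h : ∀ g ∈ K, g * x * g⁻¹ * x⁻¹ ∈ T) :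
    Nat.card K ≤ Nat.card (C1 x) * Nat.card T := by
  classical
  rw [← card_fs, ← card_fs T]
  refine Finset.card_le_mul_card_image_of_maps_to (fun g hg => mem_fs.2 (h g (mem_fs.1 hg))) _ fun b _ => ?_
  rcases ((fs K).filter fun g => g * x * g⁻¹ * x⁻¹ = b).eq_empty_or_nonempty with e | ⟨a, ha⟩
  · simp [e]
  · rw [← SetLike.coe_sort_coe, ← card_fs]
    refine Finset.card_le_card_of_injOn (a⁻¹ * ·) (fun g hg => mem_fs.2 (mem_centralizer_singleton.2 ?_))
      (mul_right_injective _).injOn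
    have := mul_right_cancel ((Finset.mem_filter.1 ha).2.trans (Finset.mem_filter.1 hg).2.symm)
    show x * _ = _ * x
    calc _ = a⁻¹ * (a * x * a⁻¹) * g := by group
      _ = _ := by rw [this]; group

theorem inv_comm {s : G} (hs : s * s = 1) (w : G) : s * (w * s * w⁻¹ * s⁻¹) * s⁻¹ = (w * s * w⁻¹ * s⁻¹)⁻¹ := by
  have h1 : s⁻¹ = s := inv_eq_of_mul_eq_one_right hs
  simp [h1, mul_assoc, hs]

theorem card_ab {Z : Subgroup G} [hZ : Z.Normal] (h : Z ≤ CS Z) {s t : G} (hs : s * s = 1) (ht : t * t = 1)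
    (hc : Commute s t) : Nat.card Z ≤ Nat.card (C1 s) * (Nat.card (C1 t) * Nat.card (C1 (s * t))) := by
  refine (card_le_comm s (K := Z) (T := {w | w ∈ Z ∧ s * w * s⁻¹ = w⁻¹}) fun g hg => ⟨?_, inv_comm hs g⟩).trans
    (Nat.mul_le_mul_left _ (card_le_comm t (T := C1 (s * t)) fun w hw => mem_centralizer_singleton.2 ?_))
  · simpa [mul_assoc] using mul_mem hg (hZ.conj_mem _ (inv_mem hg) s)
  · have h1 := inv_comm ht w
    have h2 : s * (w * t * w⁻¹ * t⁻¹) * s⁻¹ = (w * t * w⁻¹ * t⁻¹)⁻¹ := by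
      have h3 := h (hZ.conj_mem _ hw.1 t) _ (inv_mem hw.1)
      have h4 : s * t * s⁻¹ = t := by rw [hc.eq]; simp
      calc _ = s * w * s⁻¹ * (s * t * s⁻¹) * (s * w * s⁻¹)⁻¹ * (s * t * s⁻¹)⁻¹ := by group
        _ = w⁻¹ * (t * w * t⁻¹) := by rw [hw.2, h4]; group
        _ = _ := by rw [h3]; group
    generalize w * t * w⁻¹ * t⁻¹ = u at h1 h2
    show s * t * u = u * (s * t)
    calc _ = (s * (t * u * t⁻¹)⁻¹ * s⁻¹)⁻¹ * (s * t) := by group
      _ = _ := by rw [h1, inv_inv, h2, inv_inv]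

theorem exists_normal {s t : G} (hs : orderOf s = 2) (ht : t * t = 1) (hc : Commute s t) {m : ℕ}
    (h1 : Nat.card (C1 s) ≤ m) (h2 : Nat.card (C1 t) ≤ m) (h3 : Nat.card (C1 (s * t)) ≤ m) :
    ∃ A : Subgroup G, A.Normal ∧ A ≠ ⊥ ∧ Nat.card A ≤ m * (m * m) * (2 * m ^ 2).factorial := by
  obtain ⟨g, h4, h5⟩ := small_class hs
  set N := (C1 g).normalCore
  refine ⟨CS N, inferInstance, fun e => h4 ?_, ?_⟩
  · rw [← Subgroup.mem_bot, ← e]; exact le_centralizer_singleton.1 (C1 g).normalCore_le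
  · rw [← card_inf_mul_relIndex N]
    refine Nat.mul_le_mul ((card_ab (inf_le_right.trans (CS_anti inf_le_left)) ((pow_two s).symm.trans
      (hs ▸ pow_orderOf_eq_one s)) ht hc).trans (by gcongr)) ?_
    refine (Nat.le_of_dvd (Nat.pos_of_ne_zero Subgroup.index_ne_zero_of_finite)
      (Subgroup.relIndex_dvd_index_of_normal _ _)).trans (le_trans ?_ (Nat.factorial_le (h5.trans (by gcongr))))
    rw [show N = _ from Subgroup.normalCore_eq_ker _, Subgroup.index_ker, Subgroup.index, ← Nat.card_perm]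
    exact Subgroup.card_le_card_group _

theorem card_quot_le (A : Subgroup G) [A.Normal] (x : G) {T : Set G}
    (h : ∀ g, g * x * g⁻¹ * x⁻¹ ∈ A → g * x * g⁻¹ * x⁻¹ ∈ T) :
    Nat.card A * Nat.card (C1 (x : G ⧸ A)) ≤ Nat.card (C1 x) * Nat.card T := by
  rw [← card_comap_mk']
  refine card_le_comm x fun g hg => h g ((QuotientGroup.eq_one_iff _).1 ?_)
  have : Commute (x : G ⧸ A) g := mem_centralizer_singleton.1 hg
  simp [← this.eq]

theorem quot_le (A : Subgroup G) [A.Normal] (x : G) : Nat.card (C1 (x : G ⧸ A)) ≤ Nat.card (C1 x) :=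
  Nat.le_of_mul_le_mul_left ((card_quot_le A x (T := A) fun _ h => h).trans_eq (mul_comm _ _)) Nat.card_pos

theorem quot_lt (A : Subgroup G) [A.Normal] (hA : Odd (Nat.card A)) {x : G} (hx : x * x = 1)
    (h : ¬ MonoidHom.FixedPointFree (MulAut.conjNormal (H := A) x)) :
    Nat.card (C1 (x : G ⧸ A)) < Nat.card (C1 x) := by
  obtain ⟨c, h1, h2⟩ : ∃ c : A, x * c * x⁻¹ = c ∧ c ≠ 1 := by
    by_contra h1
    exact h fun c hc => by_contra fun h2 => h1 ⟨c, congrArg Subtype.val hc, h2⟩
  refine Nat.lt_of_mul_lt_mul_left ((card_quot_le A x (T := A \ {c.1}) fun g hg => ⟨hg, fun e => ?_⟩).trans_lt ?_)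
  · have h3 := inv_comm hx g
    rw [Set.mem_singleton_iff.1 e, h1, eq_inv_iff_mul_eq_one] at h3
    have h4 : orderOf c = 2 := orderOf_eq_prime (Subtype.ext (by simpa [sq] using h3)) h2
    exact (Nat.not_even_iff_odd.2 hA) (even_iff_two_dvd.2 (h4 ▸ orderOf_dvd_natCard c))
  · rw [mul_comm]
    exact Nat.mul_lt_mul_of_pos_right (Set.ncard_lt_ncard (Set.diff_singleton_ssubset.2 c.2)) Nat.card_pos
end

theorem four (m : ℕ) : ∃ N, ∀ (G : Type u) [Group G] [Finite G] (s t : G), orderOf s = 2 → orderOf t = 2 →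
    orderOf (s * t) = 2 → Commute s t → Nat.card (C1 s) + Nat.card (C1 t) + Nat.card (C1 (s * t)) +
      (Nat.card G).factorization 2 < m → Nat.card G ≤ N := by
  induction m with
  | zero => exact ⟨0, fun _ _ _ _ _ _ _ _ _ h => absurd h (Nat.not_lt_zero _)⟩
  | succ m ih =>
  obtain ⟨N, hN⟩ := ih
  refine ⟨(m + N) * (m * (m * m) * (2 * m ^ 2).factorial), fun G _ _ s t hs ht hst hc h => ?_⟩
  have sq : ∀ {x : G}, orderOf x = 2 → x * x = 1 := fun h => (pow_two _).symm.trans (h ▸ pow_orderOf_eq_one _)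
  obtain ⟨A, _, h1, h2⟩ := exists_normal hs (sq ht) hc (m := m) (by omega) (by omega) (by omega)
  have h3 : ∀ x : G, orderOf x = 2 → Nat.card (C1 x) ≤ m → orderOf (x : G ⧸ A) = 2 ∨
      Nat.card G ≤ (m + N) * (m * (m * m) * (2 * m ^ 2).factorial) := fun x hx hm => by
    by_cases h4 : x ∈ A
    · refine Or.inr ((Subgroup.card_top (G := G)).symm.trans_le ((card_le_comm x (K := (⊤ : Subgroup G)) (T := A)
        fun g _ => mul_mem (‹A.Normal›.conj_mem _ h4 g) (inv_mem h4)).trans (Nat.mul_le_mul (by omega) h2)))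
    · exact Or.inl (orderOf_eq_prime (by rw [pow_two, ← QuotientGroup.mk_mul, sq hx, QuotientGroup.mk_one])
        fun e => h4 ((QuotientGroup.eq_one_iff _).1 e))
  refine (h3 s hs (by omega)).elim (fun a1 => (h3 t ht (by omega)).elim (fun a2 => (h3 _ hst (by omega)).elim
    (fun a3 => ?_) id) id) id
  rw [Subgroup.card_eq_card_quotient_mul_card_subgroup A] at h ⊢
  refine Nat.mul_le_mul ((hN _ _ _ a1 a2 a3 (hc.map (QuotientGroup.mk' A)) ?_).trans (by omega)) h2
  rw [Nat.factorization_mul Nat.card_pos.ne' Nat.card_pos.ne', Finsupp.add_apply] at h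
  have b1 := quot_le A s
  have b2 := quot_le A t
  have b3 := quot_le A (s * t)
  rw [← QuotientGroup.mk_mul]
  rcases Nat.even_or_odd (Nat.card A) with h4 | h4
  · have := (Nat.prime_two.dvd_iff_one_le_factorization Nat.card_pos.ne').1 h4.two_dvd
    omega
  by_cases c1 : MonoidHom.FixedPointFree (MulAut.conjNormal (H := A) s)
  swap; · have := quot_lt A h4 (sq hs) c1; omega
  by_cases c2 : MonoidHom.FixedPointFree (MulAut.conjNormal (H := A) t)
  swap; · have := quot_lt A h4 (sq ht) c2; omega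
  have c3 := quot_lt A h4 (sq hst) fun c3 => h1 ((Subgroup.eq_bot_iff_forall _).2 fun a ha =>
    congrArg Subtype.val (c3 ⟨a, ha⟩ (by
      have e : ∀ {x : G}, x * x = 1 → Function.Involutive (MulAut.conjNormal (H := A) x) := fun h a => by
        rw [← MulAut.mul_apply, ← map_mul, h, map_one, MulAut.one_apply]
      rw [map_mul, MulAut.mul_apply, c1.coe_eq_inv_of_involutive (e (sq hs)),
        c2.coe_eq_inv_of_involutive (e (sq ht))]
      simp)))
  omega

theorem rank_ind (a n r : ℕ) : ∃ N, ∀ (G : Type u) [Group G] [Finite G] (E : Subgroup G), (∀ x ∈ E, x * x = 1) →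
    Nat.card E = 2 ^ (r + 1) → (Nat.card G).factorization 2 ≤ a →
    (∀ Q ≤ E, Nat.card Q = 2 ^ r → Nat.card (NS Q) ≤ n) → Nat.card G ≤ N := by
  induction r with
  | zero => exact ⟨n, fun G _ _ E _ _ _ h => by simpa [NS_eq_top] using h ⊥ bot_le (by simp)⟩
  | succ r ih =>
  obtain ⟨N, hN⟩ := ih
  obtain ⟨N', hN'⟩ := four.{u} (N * 2 + N * 2 + N * 2 + a + 1)
  refine ⟨N', fun G _ _ E h1 h2 h3 h4 => ?_⟩
  have hc : ∀ x ∈ E, ∀ y ∈ E, Commute x y := fun x hx y hy => by
    have := inv_eq_of_mul_eq_one_right (h1 _ (mul_mem hx hy))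
    rwa [mul_inv_rev, inv_eq_of_mul_eq_one_right (h1 x hx), inv_eq_of_mul_eq_one_right (h1 y hy), eq_comm] at this
  have key : ∀ e ∈ E, e ≠ 1 → Nat.card (C1 e) ≤ N * 2 := fun e he h5 => by
    set Z := Subgroup.zpowers (cEl e)
    have : Z.Normal := ⟨fun n hn g => by
      rwa [Subgroup.mem_center_iff.1 (Subgroup.zpowers_le.2 (cEl_mem_center e) hn) g, mul_inv_cancel_right]⟩
    have h6 : Nat.card Z = 2 := by rw [Nat.card_zpowers, ← Subgroup.orderOf_coe]; exact two_of (h1 e he) h5
    have h7 : E ≤ C1 e := fun x hx => mem_centralizer_singleton.2 (hc e he x hx)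
    have h8 : Z ≤ E.subgroupOf (C1 e) := Subgroup.zpowers_le.2 he
    have h9 := Subgroup.card_eq_card_quotient_mul_card_subgroup Z
    rw [h9, h6]
    refine Nat.mul_le_mul_right _ (hN _ ((E.subgroupOf (C1 e)).map (QuotientGroup.mk' Z)) ?_ ?_ ?_ fun Q h10 h11 => ?_)
    · rintro _ ⟨x, hx, rfl⟩
      rw [← map_mul, show x * x = 1 from Subtype.ext (h1 x hx), map_one]
    · have := card_mul_relIndex h8
      rw [h6, card_subgroupOf h7, h2, pow_succ'] at this
      rw [card_map_mk']; omega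
    · refine le_trans ?_ h3
      exact (Nat.factorization_le_iff_dvd Nat.card_pos.ne' Nat.card_pos.ne').2
        ((Dvd.intro _ h9.symm).trans (Subgroup.card_subgroup_dvd_card _)) 2
    · refine le_trans ?_ (h4 ((Q.comap (QuotientGroup.mk' Z)).map (C1 e).subtype) ?_ ?_)
      · refine le_trans ?_ (Subgroup.card_le_of_le (le_normalizer_map (C1 e).subtype (Subgroup.le_normalizer_comap _)))
        rw [Subgroup.card_map_of_injective (C1 e).subtype_injective, card_comap_mk']
        exact Nat.le_mul_of_pos_left _ Nat.card_pos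
      · refine Subgroup.map_le_iff_le_comap.2 ((Subgroup.comap_mono h10).trans ?_)
        rw [Subgroup.comap_map_eq, QuotientGroup.ker_mk']
        exact sup_le le_rfl h8
      · rw [Subgroup.card_map_of_injective (C1 e).subtype_injective, card_comap_mk', h6, h11, pow_succ']
  have := Fintype.ofFinite E
  obtain ⟨x, y, z, hxy, hxz, hyz⟩ := Fintype.two_lt_card_iff.1 (show 2 < Fintype.card E by
    rw [← Nat.card_eq_fintype_card, h2, pow_succ, pow_succ]; have := Nat.two_pow_pos r; omega)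
  have b1 : (x * y : E).1 ≠ 1 := fun e => hxy (Subtype.ext (mul_left_cancel ((h1 x x.2).trans e.symm)))
  have b2 : (x * z : E).1 ≠ 1 := fun e => hxz (Subtype.ext (mul_left_cancel ((h1 x x.2).trans e.symm)))
  have b3 : (x * y : E).1 * (x * z : E).1 ≠ 1 := fun e =>
    hyz (mul_left_cancel (Subtype.ext (mul_left_cancel ((h1 _ (x * y).2).trans e.symm))))
  have b4 := mul_mem (x * y).2 (x * z).2
  have := key _ (x * y).2 b1
  have := key _ (x * z).2 b2
  have := key _ b4 b3
  exact hN' G _ _ (two_of (h1 _ (x * y).2) b1) (two_of (h1 _ (x * z).2) b2) (two_of (h1 _ b4) b3)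
    (hc _ (x * y).2 _ (x * z).2) (by omega)

/-- For every natural number a there is a bound N with the following property. Let G be a finite group with Sylow 2-subgroups of order 2^a and r ≥ 0 such that G has no non-principal 2-block (relative to a maximal ideal of the algebraic integers containing 2) of defect ≥ r, and suppose a Sylow 2-subgroup of G contains an elementary abelian subgroup of order 2^(r+1). Then the order of G is at most N. -/
theorem result (a : ℕ) : ∃ N : ℕ, ∀ (G : Type u) [Group G] [Finite G] (M : Ideal Cfsg.AlgInt) (r : ℕ) (P : Sylow 2 G), Cfsg.IsPModular 2 M → Nat.card P = 2 ^ a → (∀ B : Set (Cfsg.IrrCharacter G), Cfsg.IsPBlock M B → B ≠ Cfsg.principalBlock M G → Cfsg.blockDefect 2 B < r) → (∃ E : Subgroup G, E ≤ (P : Subgroup G) ∧ IsMulCommutative E ∧ (∀ x ∈ E, x * x = 1) ∧ Nat.card E = 2 ^ (r + 1)) → Nat.card G ≤ N := by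
  obtain ⟨L, hL⟩ := landau.{u} (2 ^ (2 * a))
  choose N hN using rank_ind.{u} a (L * (2 ^ a).factorial)
  refine ⟨(Finset.range a).sup N, fun G _ _ M r P hM hP h ⟨E, h1, h2, h3, h4⟩ => ?_⟩
  have h5 : (Nat.card G).factorization 2 = a :=
    Nat.pow_right_injective le_rfl (P.card_eq_multiplicity.symm.trans hP)
  have h6 : r < a := (Nat.pow_le_pow_iff_right one_lt_two).1 (h4.symm.trans_le ((Subgroup.card_le_of_le h1).trans_eq hP))
  refine (hN r G E h3 h4 h5.le fun Q h7 h8 => ?_).trans (Finset.le_sup (f := N) (Finset.mem_range.2 h6))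
  have hQ : IsPGroup 2 Q := IsPGroup.of_card h8
  have h9 : Q ≤ CS Q := fun x hx y hy => comm_of_mem h2 (h7 hy) (h7 hx)
  rw [← card_mul_relIndex (CS_le_NS Q)]
  refine Nat.mul_le_mul (hL _ ?_) ?_
  · have h10 : principalBlock M (CS Q) = Set.univ := Set.eq_univ_of_forall fun χ => by
      have hb := isPBlock_blockOf (M := M) χ.2
      obtain ⟨B, hB⟩ := defined_CS hM hQ hb
      rw [← (third_main hM ⟨B, hB⟩).1 ?_]; · exact mem_blockOf_self hM χ
      by_contra h11
      have h12 := h B hB.2.1 fun e => h11 (e ▸ hB)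
      obtain ⟨D, hD⟩ := exists_dg (p := 2) hM hb
      have := Subgroup.normal_subgroupOf_of_le_normalizer (CS_le_NS Q)
      have h13 := Subgroup.card_le_of_le (normal_le_dg hM hb hD (P := Q.subgroupOf (CS Q)) (hQ.comap_subtype))
      rw [card_subgroupOf h9, h8, dg_card hM hb hD, Nat.pow_le_pow_iff_right one_lt_two] at h13
      have := ind_defect_le hM hB
      omega
    have h11 := card_block_le hM (isPBlock_principal (M := M) (G := CS Q))
    rw [blockDefect_principal hM, h10] at h11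
    rw [← H3.card_irr_eq_card_conjClasses]
    refine le_trans (by simpa using h11) (Nat.pow_le_pow_right two_pos (Nat.mul_le_mul_left _ (le_trans ?_ h5.le)))
    exact (Nat.factorization_le_iff_dvd Nat.card_pos.ne' Nat.card_pos.ne').2 (Subgroup.card_subgroup_dvd_card _) 2
  · rw [Subgroup.relIndex, ← Subgroup.normalizerMonoidHom_ker, Subgroup.index_ker]
    refine (Subgroup.card_le_card_group _).trans ((Nat.card_le_card_of_injective _ MulEquiv.toEquiv_injective).trans ?_)
    exact Nat.card_perm.le.trans (Nat.factorial_le (h8 ▸ Nat.pow_le_pow_right two_pos h6.le))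

end Cfsg.Agent.S4719
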