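import Cfsg.Statements.S4720
import Cfsg.Agent.H4.Maj2

set_option autoImplicit false
open Cfsg

namespace Cfsg.Agent.S4720

open H4 H1 MonoidAlgebra
open scoped Pointwise


/-- Let p be a prime, M a maximal ideal of the algebraic integers containing p, P a p-subgroup of the finite group G, N a subgroup with P ≤ N ≤ N_G(P), and U a nonempty subset of P normalized by N such that an element of U and an element of P that are conjugate in G are already conjugate in N, and such that λ(C_G(y)) = w·#C_N(y) for every y ∈ U with one rational number w, where λ(X) denotes the sum of the squares of the degrees of the irreducible characters in the principal p-block of X. For a complex function θ on P and χ in the principal block of G put a_χ(θ) = #P⁻¹ Σ_{y ∈ P} χ(y) θ(y⁻¹). Then for generalized characters θ, η of P with θ vanishing outside U, Σ_χ a_χ(θ)·conj(a_χ(η)) = (w/#P²)·Σ_{y ∈ P} θ(y)·conj(Σ_{x ∈ N} η(x y x⁻¹)) (η extended by zero off P; the conjugates lie in P), the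 first sum over the principal p-block of G. -/
theorem result {G : Type*} [Group G] [Finite G] (p : ℕ) [Fact p.Prime] (M : Ideal Cfsg.AlgInt) (hM : Cfsg.IsPModular p M) (P : Subgroup G) (hP : IsPGroup p P) (N : Subgroup G) (hPN : P ≤ N) (hNN : N ≤ Subgroup.normalizer (P : Set G)) (U : Set G) (hUne : U.Nonempty) (hUP : U ⊆ (P : Set G)) (hUN : ∀ n ∈ N, ∀ u ∈ U, n * u * n⁻¹ ∈ U) (hfus : ∀ u ∈ U, ∀ g : G, g * u * g⁻¹ ∈ (P : Set G) → ∃ n ∈ N, n * u * n⁻¹ = g * u * g⁻¹) (w : ℚ) (hw : ∀ y ∈ U, ((∑ᶠ ψ ∈ Cfsg.principalBlock M ↥(Subgroup.centralizer ({y} : Set G)), Cfsg.charDegree (ψ : ↥(Subgroup.centralizer ({y} : Set G)) → ℂ) ^ 2) : ℚ) = w * Nat.card ↥(N ⊓ Subgroup.centralizer ({y} : Set G))) (θ η : ↥P → ℂ) (hθ : Cfsg.IsGeneralizedCharacter ↥P θ) (hη : Cfsg.IsGeneralizedCharacter ↥P η) (hθU : ∀ y : ↥P, (y : G) ∉ U → θ y = 0) : ∑ᶠ χ ∈ Cfsg.principalBlock M G, ((Nat.card ↥P : ℂ)⁻¹ * ∑ᶠ y : ↥P, (χ : G → ℂ) (y : G) * θ y⁻¹) * (starRingEnd ℂ) ((Nat.card ↥P : ℂ)⁻¹ * ∑ᶠ y :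 ↥P, (χ : G → ℂ) (y : G) * η y⁻¹) = ((w : ℂ) / ((Nat.card ↥P : ℂ) ^ 2)) * ∑ᶠ y : ↥P, θ y * (starRingEnd ℂ) (∑ᶠ x : ↥N, Cfsg.extendByZero P η ((x : G) * (y : G) * (x : G)⁻¹)) := by
  classical
  have := Fintype.ofFinite G
  have := Fintype.ofFinite P
  have := Fintype.ofFinite N
  have hp : p.Prime := Fact.out
  have hB := isPBlock_principal (M := M) (G := G)
  have ha : ∀ θ, IsGeneralizedCharacter P θ → ∀ χ : IrrCharacter G, (Nat.card P : ℂ)⁻¹ * ∑ᶠ y : P, χ.1 y * θ y⁻¹ =
      classInner θ fun y : P => χ.1 y := fun θ hθ χ => by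
    rw [H3.inner_gen_symm hθ (H3.gen_restrict (H3.irr_gen χ.2) P), finsum_eq_sum_of_fintype]
    simp only [classInner, H3.gen_inv hθ]
  simp only [finsum_mem_eq_fs, ha θ hθ, ha η hη] at hw ⊢
  simp only [finsum_eq_sum_of_fintype]
  have key : ∀ y : P, (y : G) ∈ U → ∑ z : P, (starRingEnd ℂ) (η z) * KB (principalBlock M G) z y =
      w * (starRingEnd ℂ) (∑ x : N, extendByZero P η (x * y * (x : G)⁻¹)) := fun y hy => by
    have h1 := isPElt_of_mem hp hP y.2
    have h2 : KB (principalBlock M G) (y : G) y = w * Nat.card (N ⊓ C1 (y : G) : Subgroup G) := by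
      have := KB_sect_principal hM h1 (not_dvd_orderOf_one hp) (not_dvd_orderOf_one hp)
      simp only [OneMemClass.coe_one, mul_one] at this
      rw [this, KB_one_one]
      exact_mod_cast congrArg (Rat.cast : ℚ → ℂ) (hw y hy)
    rw [sum_conj_eq N y (extendByZero P η)]
    simp only [mul_comm _ (extendByZero P η _), H3.sum_extendByZero, map_mul, map_sum, map_natCast, Finset.mul_sum]
    refine Finset.sum_congr rfl fun z _ => ?_
    rw [coeff_acls]
    split_ifs with h
    · obtain ⟨n, -, h⟩ := h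
      rw [← h, show KB _ (n * y * n⁻¹) _ = KB _ (y : G) _ from class_KB _ _ _ _, h2]; simp; ring
    · rw [KB_eq_zero hM hB fun e => h ?_]; · simp
      rw [pp_of_isPElt hp h1, pp_of_isPElt hp (isPElt_of_mem hp hP z.2)] at e
      obtain ⟨c, hc⟩ := isConj_iff.1 e.symm
      exact hc ▸ hfus y hy c (hc ▸ z.2)
  calc _ = ((Nat.card P : ℂ) ^ 2)⁻¹ * ∑ y : P, θ y * ∑ z : P, (starRingEnd ℂ) (η z) * KB (principalBlock M G) z y := by
        simp only [KB, classInner, Finset.mul_sum, Finset.sum_mul, map_mul, map_sum, map_inv₀, map_natCast,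
          Complex.conj_conj]
        rw [Finset.sum_comm]
        simp only [Finset.sum_comm (s := fs _)]
        rw [Finset.sum_comm]
        refine Finset.sum_congr rfl fun _ _ => Finset.sum_congr rfl fun _ _ => Finset.sum_congr rfl fun _ _ => by ring
    _ = _ := by
      rw [Finset.mul_sum, Finset.mul_sum]
      refine Finset.sum_congr rfl fun y _ => ?_
      by_cases h : (y : G) ∈ U
      · rw [key y h]; ring
      · simp [hθU y h]

end Cfsg.Agent.S4720
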