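import Cfsg.Statements.S4722
import Cfsg.Agent.H4.Maj2
import Cfsg.Agent.H4.Inv2

set_option autoImplicit false
open Cfsg

namespace Cfsg.Agent.S4722

open H4 H1 MonoidAlgebra
open scoped Pointwise


/-- Let M be a maximal ideal of the algebraic integers containing 2, P a 2-subgroup of the finite group G, U a subset of P, and t an involution of G such that no element of U is inverted by any conjugate of t. Let θ be a generalized character of P vanishing outside U, and for χ in the principal 2-block B₀ put a_χ = #P⁻¹ Σ_{y ∈ P} χ(y) θ(y⁻¹). Then Σ_{χ ∈ B₀} a_χ χ(t)^2/χ(1) = 0, Σ_{χ ∈ B₀} a_χ χ(1) = 0 and Σ_{χ ∈ B₀} a_χ χ(t) = 0. If moreover #P⁻¹ Σ_{y ∈ P} θ(y) ≠ 0, then either at least two of the a_χ have positive real part and at least two have negative real part, or G has a proper normal subgroup containing O_2'(G) and t. -/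
theorem result {G : Type*} [Group G] [Finite G] (M : Ideal Cfsg.AlgInt) (hM : Cfsg.IsPModular 2 M) (P : Subgroup G) (hP : IsPGroup 2 P) (U : Set G) (hUP : U ⊆ (P : Set G)) (t : G) (ht : orderOf t = 2) (hinv : ∀ u ∈ U, ∀ g : G, (g * t * g⁻¹) * u * (g * t * g⁻¹)⁻¹ ≠ u⁻¹) (θ : ↥P → ℂ) (hθ : Cfsg.IsGeneralizedCharacter ↥P θ) (hθU : ∀ y : ↥P, (y : G) ∉ U → θ y = 0) : (∑ᶠ χ ∈ Cfsg.principalBlock M G, ((Nat.card ↥P : ℂ)⁻¹ * ∑ᶠ y : ↥P, (χ : G → ℂ) (y : G) * θ y⁻¹) * (χ : G → ℂ) t ^ 2 / (χ : G → ℂ) 1 = 0) ∧ (∑ᶠ χ ∈ Cfsg.principalBlock M G, ((Nat.card ↥P : ℂ)⁻¹ * ∑ᶠ y : ↥P, (χ : G → ℂ) (y : G) * θ y⁻¹) * (χ : G → ℂ) 1 = 0) ∧ (∑ᶠ χ ∈ Cfsg.principalBlock M G, ((Nat.card ↥P : ℂ)⁻¹ * ∑ᶠ y : ↥P, (χ : G → ℂ) (y : G) * θ y⁻¹) * (χ : G → ℂ) t = 0) ∧ ((Nat.card ↥P : ℂ)⁻¹ * ∑ᶠ y : ↥P, θ y ≠ 0 → (2 ≤ Nat.card {χ : Cfsg.IrrCharacter G // χ ∈ Cfsg.principalBlock M G ∧ 0 < (((Nat.card ↥P : ℂ)⁻¹ * ∑ᶠ y : ↥P, (χ : G → ℂ) (y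 : G) * θ y⁻¹)).re} ∧ 2 ≤ Nat.card {χ : Cfsg.IrrCharacter G // χ ∈ Cfsg.principalBlock M G ∧ (((Nat.card ↥P : ℂ)⁻¹ * ∑ᶠ y : ↥P, (χ : G → ℂ) (y : G) * θ y⁻¹)).re < 0}) ∨ ∃ K : Subgroup G, K.Normal ∧ K ≠ ⊤ ∧ Cfsg.pPrimeCore 2 G ≤ K ∧ t ∈ K) := by
  classical
  have := Fintype.ofFinite G
  have := Fintype.ofFinite P
  have hp := Nat.prime_two
  have hB := isPBlock_principal (M := M) (G := G)
  have ha : ∀ χ : IrrCharacter G, (Nat.card P : ℂ)⁻¹ * ∑ᶠ y : P, χ.1 y * θ y⁻¹ =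
      classInner θ fun y : P => χ.1 y := fun χ => by
    rw [H3.inner_gen_symm hθ (H3.gen_restrict (H3.irr_gen χ.2) P), finsum_eq_sum_of_fintype]
    simp only [classInner, H3.gen_inv hθ]
  simp only [ha, finsum_mem_eq_fs]
  have key : ∀ g, t * g * t⁻¹ = g⁻¹ →
      ∑ χ ∈ fs (principalBlock M G), classInner θ (fun y : P => χ.1 y) * χ.1 g = 0 := fun g hg => by
    rw [sum_inner_res_mul, Finset.sum_eq_zero fun h _ => ?_, mul_zero]
    by_cases h1 : (h : G) ∈ U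
    · rw [KB_eq_zero hM hB fun e => ?_, mul_zero]
      rw [pp_of_isPElt hp (isPElt_of_mem hp hP h.2)] at e
      obtain ⟨c, hc⟩ := isConj_iff.1 e
      refine hinv h h1 c ?_
      have : t * pp 2 g * t⁻¹ = (pp 2 g)⁻¹ := by rw [← pp_conj, hg, pp_inv]
      rw [← hc]
      calc _ = c * (t * pp 2 g * t⁻¹) * c⁻¹ := by group
        _ = _ := by rw [this]; group
    · rw [hθU h h1, zero_mul]
  have tt := mul_self_of_two ht
  have k0 := key 1 (by simp)
  have k1 := key t (by simp [inv_of_two ht, tt])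
  have k2 : ∑ χ ∈ fs (principalBlock M G), classInner θ (fun y : P => χ.1 y) * χ.1 t ^ 2 / χ.1 1 = 0 := by
    have h1 := Finset.sum_eq_zero (s := Finset.univ) fun i _ => key _ (inv_conj_mul tt i)
    rw [Finset.sum_comm] at h1
    refine mul_left_cancel₀ (H3.card_ne_zero' G) ?_
    rw [mul_zero, ← h1, Finset.mul_sum]
    refine Finset.sum_congr rfl fun χ _ => ?_
    have := H3.irr_one_ne_zero χ.2
    rw [← Finset.mul_sum, eq_div_of_mul_eq this ((mul_comm _ _).trans (sum_conj_mul χ.2 t t))]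
    field_simp
  refine ⟨k2, k0, k1, fun h0 => or_iff_not_imp_right.2 fun hK => ?_⟩
  choose a ha using fun χ : IrrCharacter G => H3.inner_gen_int hθ (H3.gen_restrict (H3.irr_gen χ.2) P)
  choose c hc using fun χ : IrrCharacter G => char_int_of_sq (H3.irr_gen χ.2) (t := t) (by rw [sq, tt])
  have hd : ∀ χ : IrrCharacter G, (0 : ℝ) < charDegree χ.1 := fun χ => by
    exact_mod_cast Nat.pos_of_ne_zero (charDegree_ne_zero χ.2)
  simp only [ha, hc, irr_one_eq] at k0 k1 k2 ⊢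
  have hr : ∀ χ ∈ fs (principalBlock M G), χ ≠ triv G →
      (c χ : ℝ) / charDegree χ.1 ≠ c (triv G) / charDegree (triv G).1 := fun χ h h' e => by
    have e1 : (c (triv G) : ℝ) = 1 := by exact_mod_cast (hc (triv G)).symm.trans (triv_apply t)
    rw [e1, charDegree_of_eq (χ := (triv G).1) (n := 1) (by simp), Nat.cast_one, div_one, div_eq_one_iff_eq (hd χ).ne'] at e
    refine hK ⟨H3.charKer χ.1, H3.charKer_normal (H3.irr_class χ.2), H3.charKer_ne_top χ.2 fun e => h' (Subtype.ext e),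
      fun g hg => (H3.mem_charKer (H3.irr_char χ.2) g).2 (ker_of_principal hM ?_ (mem_fs.1 h) g hg),
      (H3.mem_charKer (H3.irr_char χ.2) t).2 ?_⟩
    · exact fun h => (Nat.not_even_iff_odd.2 odd_card_core) (even_iff_two_dvd.2 h)
    · rw [hc, irr_one_eq]; exact_mod_cast e
  have a0 : (a (triv G) : ℝ) ≠ 0 := fun e => h0 (by
    have : (a (triv G) : ℂ) = 0 := by exact_mod_cast e
    rw [← this, ← ha, finsum_eq_sum_of_fintype]; simp [classInner])
  have k0' : ∑ χ ∈ fs (principalBlock M G), (a χ : ℝ) * charDegree χ.1 = 0 := by exact_mod_cast k0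
  have k1' : ∑ χ ∈ fs (principalBlock M G), (a χ : ℝ) * charDegree χ.1 * (c χ / charDegree χ.1) = 0 := by
    refine Eq.trans (Finset.sum_congr rfl fun χ _ => ?_) (show ∑ χ ∈ fs (principalBlock M G), (a χ : ℝ) * c χ = 0 by
      exact_mod_cast k1)
    have := (hd χ).ne'; field_simp
  have k2' : ∑ χ ∈ fs (principalBlock M G), (a χ : ℝ) * charDegree χ.1 * (c χ / charDegree χ.1) ^ 2 = 0 := by
    refine Eq.trans (Finset.sum_congr rfl fun χ _ => ?_)
      (show ∑ χ ∈ fs (principalBlock M G), (a χ : ℝ) * c χ ^ 2 / charDegree χ.1 = 0 by exact_mod_cast k2)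
    have := (hd χ).ne'; field_simp
  have ho := mem_fs.2 (triv_mem_principal (G := G) hM)
  have r1 := two_le_card_pos _ _ _ _ ho a0 (fun χ _ => hd χ) hr k0' k1' k2'
  have r2 := two_le_card_pos _ (fun χ => -(a χ : ℝ)) _ _ ho (neg_ne_zero.2 a0) (fun χ _ => hd χ) hr
    (by simp [k0']) (by simp [k1']) (by simp [k2'])
  simp only [Nat.card_eq_fintype_card, Fintype.card_subtype]
  exact ⟨r1.trans (Finset.card_le_card fun χ => by simp), r2.trans (Finset.card_le_card fun χ => by simp)⟩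

end Cfsg.Agent.S4722
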