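import Cfsg.Statements.S4725
import Cfsg.Agent.H4.Gal

set_option autoImplicit false
open Cfsg

namespace Cfsg.Agent.S4725

open H4 H1 MonoidAlgebra
open scoped Pointwise


/-- Let p be a prime, M a maximal ideal of the algebraic integers containing p, H a subgroup of the finite group G, and b a p-block of H inducing the p-block B of G, with b and B of the same defect. Then for every height-zero ζ ∈ b there is a height-zero χ ∈ B whose multiplicity in the character induced from ζ is not divisible by p. -/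
theorem result {G : Type*} [Group G] [Fintype G] (p : ℕ) [Fact p.Prime] (M : Ideal Cfsg.AlgInt) (hM : Cfsg.IsPModular p M) (H : Subgroup G) (b : Set (Cfsg.IrrCharacter ↥H)) (B : Set (Cfsg.IrrCharacter G)) (hind : Cfsg.IsInducedBlock M H b B) (hdef : Cfsg.blockDefect p b = Cfsg.blockDefect p B) (ζ : Cfsg.IrrCharacter ↥H) (hζ : ζ ∈ b) (hζ0 : Cfsg.blockHeight p b (ζ : ↥H → ℂ) = 0) : ∃ χ ∈ B, Cfsg.blockHeight p B (χ : G → ℂ) = 0 ∧ ∃ a : ℕ, Cfsg.classInner (Cfsg.indFun H (ζ : ↥H → ℂ)) (χ : G → ℂ) = (a : ℂ) ∧ ¬ p ∣ a := by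
  classical
  obtain ⟨c, hc, -⟩ := H3.char_eq_sum_nat (H3.char_indFun H (H3.irr_char ζ.2))
  by_contra! h
  have h1 := blockPart_indFun_one H ζ B
  obtain ⟨h2, h3⟩ := red_om_resA_fI hM hind hζ hind.2.1
  rw [lamB_eB_self hM hind.2.1] at h3
  have h4 : ((p ^ blockDefect p B : ℕ) : ℂ) * blockPart B (indFun H ζ.1) 1 / Nat.card G =
      hw p b ζ.1 * om ζ.1 (resA H (fI B)) := by
    have := H3.card_ne_zero' H
    have : (H.index : ℂ) ≠ 0 := Nat.cast_ne_zero.2 H.index_ne_zero_of_finite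
    rw [h1, H3.indFun_one, hw, hdef, ← H.card_mul_index]; push_cast; field_simp
  have h5 := congrArg (red M) h4
  rw [red_mul (hw_mem_O hM hζ) h2, h3, mul_one, blockPart_apply, Finset.mul_sum, Finset.sum_div,
    Finset.sum_congr rfl (g := fun χ => c χ * hw p B χ.1) fun χ _ => by rw [hc, hw]; ring,
    red_sum _ _ fun χ hχ => mul_mem (natCast_mem _ _) (hw_mem_O hM (mem_fs.1 hχ)), Finset.sum_eq_zero fun χ hχ => ?_] at h5
  · exact (red_hw_ne_zero_iff hM hζ).2 hζ0 h5.symm
  rw [red_mul (natCast_mem _ _) (hw_mem_O hM (mem_fs.1 hχ)), mul_eq_zero, red_natCast, natCast_eq_zero_iff hM,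
    ← not_ne_iff (a := red M _), red_hw_ne_zero_iff hM (mem_fs.1 hχ), or_iff_not_imp_right, not_not]
  exact fun e => h χ (mem_fs.1 hχ) e _ (hc χ)

end Cfsg.Agent.S4725
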