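import Cfsg.Statements.S4726
import Cfsg.Agent.H4.Cons

set_option autoImplicit false
open Cfsg

namespace Cfsg.Agent.S4726

open H4 H1 MonoidAlgebra
open scoped Pointwise


/-- Let p be a prime, M a maximal ideal of the algebraic integers containing p, H a subgroup of the finite group G and b a p-block of H with defect group D₀ such that C_G(D₀) ≤ H. Then b induces a block of G, and for every block B of G induced by b there is a defect group D of B with Z(D) ≤ Z(D₀) ≤ D₀ ≤ D (as subgroups of G). In particular, if the defect groups of B are abelian then D₀ is a defect group of B. -/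
theorem result {G : Type*} [Group G] [Finite G] (p : ℕ) [Fact p.Prime] (M : Ideal Cfsg.AlgInt) (hM : Cfsg.IsPModular p M) (H : Subgroup G) (b : Set (Cfsg.IrrCharacter ↥H)) (hb : Cfsg.IsPBlock M b) (D₀ : Subgroup ↥H) (hD₀ : Cfsg.IsDefectGroup p M b D₀) (hC : Subgroup.centralizer ((D₀.map H.subtype : Subgroup G) : Set G) ≤ H) : Cfsg.InducedBlockDefined M H b ∧ ∀ B : Set (Cfsg.IrrCharacter G), Cfsg.IsInducedBlock M H b B → (∃ D : Subgroup G, Cfsg.IsDefectGroup p M B D ∧ (Subgroup.center ↥D).map D.subtype ≤ ((Subgroup.center ↥D₀).map D₀.subtype).map H.subtype ∧ ((Subgroup.center ↥D₀).map D₀.subtype).map H.subtype ≤ D₀.map H.subtype ∧ D₀.map H.subtype ≤ D) ∧ (∀ D : Subgroup G, Cfsg.IsDefectGroup p M B D → IsMulCommutative ↥D → Cfsg.IsDefectGroup p M B (D₀.map H.subtype)) := by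
  haveI := charP_k hM
  have h0 := (dg_iff_ADG_map hM hb).1 hD₀
  set Q := D₀.map H.subtype with hQ
  have he := isBI_aE hM hb
  refine ⟨defined_of_CS_le hM hb h0.isP h0.le hC h0.ne, fun B hB => ?_⟩
  have hz := isBI_eB hM hB.2.1
  obtain ⟨f, hf, h1⟩ := exists_pair hM h0.isP (Fix_anti h0.le he.mem.1) (Fix_anti hC he.mem.1) he.idem h0.ne
  obtain ⟨c, hc, rfl⟩ := hf.exists_block hM
  have h2 := aL_eq_of_Br hM hb hc h0.isP h0.le hC (CS_le_NS Q) le_rfl h1 (Z_le_Fix H hz.mem_Z)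
  rw [aL_apply H, ind_lamB_eB hM hB, aL_eq_one_iff hM hc (Br_mem_ZA' Q (Z_le_Fix _ hz.mem_Z))
    (Br_idem h0.isP (Z_le_Fix _ hz.mem_Z) hz.idem)] at h2
  obtain ⟨P, hP⟩ := hz.exists_ADG hM
  obtain ⟨e, h3, h4⟩ := exists_pair hM hP.isP (Z_le_Fix _ hz.mem_Z) (Z_le_Fix _ hz.mem_Z) hz.idem hP.ne
  obtain ⟨y, h5⟩ := MaxP.exists_conj hM ⟨hz, hP, h3, h4⟩ h0.isP hf h2
  have h6 := h5.cj y⁻¹
  rw [conj_inv_smul_smul, cj_inv_cj] at h6
  have h7 := hP.cj' (mem_NS_of_normal ⊤ y⁻¹) (cj_of_mem_Z hz.mem_Z _)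
  set D := MulAut.conj y⁻¹ • P
  have h8 : D ⊓ CS Q ≤ Q := by
    have k1 : Q ⊔ D ⊓ CS Q ≤ H := sup_le h0.le (inf_le_right.trans hC)
    have k2 := isPGroup_sup_of_CS h0.isP (h7.isP.to_inf_left (K := CS Q)) (inf_le_right.trans (CS_le_NS Q))
    have k3 := Br_sup_of_Sup' (Q := Q) hf.mem.2 (h6.Br_CS_ne_zero hM)
    have k4 : Q ⊔ D ⊓ CS Q ≤ NS Q := sup_le Subgroup.le_normalizer (inf_le_right.trans (CS_le_NS Q))
    rw [← h1] at k3
    have k5 := Br_mul_ne_zero_left k2 (Br_mem_Fix k4 (Fix_anti k1 he.mem.1))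
      (Fix_sup (mem_Fix_of_Sup_CS hf.mem.2) (Fix_anti inf_le_right hf.mem.1)) k3
    rw [Br_Br le_sup_left] at k5
    exact le_sup_right.trans (h0.eq_of_le k1 k2 k5 le_sup_left).ge
  have h9 := (dg_iff_ADG_top hM hB.2.1).2 h7
  refine ⟨⟨D, h9, ?_, Subgroup.map_mono (Subgroup.map_subtype_le _), h6.le⟩, fun E hE hab => ?_⟩
  · rintro _ ⟨x, hx, rfl⟩
    have k1 : (x : G) ∈ CS Q := fun u hu => congrArg Subtype.val (Subgroup.mem_center_iff.1 hx ⟨u, h6.le hu⟩)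
    obtain ⟨w, hw, k2⟩ := h8 ⟨x.2, k1⟩
    exact ⟨w, ⟨⟨w, hw⟩, Subgroup.mem_center_iff.2 fun u => Subtype.ext (Subtype.ext
      ((k2 ▸ k1 : H.subtype w ∈ CS Q) u ⟨u, u.2, rfl⟩)), rfl⟩, k2⟩
  · obtain ⟨x, k1⟩ := dg_exists_conj_eq hM hB.2.1 hE h9
    have k2 : E ≤ CS E := fun a ha u hu => comm_of_mem hab hu ha
    have k3 : D ≤ CS D := by rw [← k1, CS_conj]; exact conj_smul_mono x k2
    rwa [le_antisymm h6.le ((le_inf le_rfl (k3.trans (CS_anti h6.le))).trans h8)]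

end Cfsg.Agent.S4726
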