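import Cfsg.Statements.S4727
import Cfsg.Agent.H4.Ker

set_option autoImplicit false
open Cfsg

namespace Cfsg.Agent.S4727

open H4 H1 MonoidAlgebra
open scoped Pointwise


/-- Let p be a prime, π a set of primes containing p, M a maximal ideal of the algebraic integers containing p, and B a p-block of the finite group G with defect group D; let B₁ be the block of N_G(D) with defect group D that induces B (the Brauer correspondent of B). Suppose every element of O_π'(N_G(D)), the largest normal subgroup of N_G(D) whose order has no prime divisor in π, lies in the kernel of every member of B₁. If y is a p-element whose centralizer C has a normal Hall π'-subgroup (every element of C whose order has no prime divisor in π lies in O_π'(C)), then χ(y x) = χ(y) for every χ ∈ B and every x ∈ C whose order has no prime divisor in π. -/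
theorem result {G : Type*} [Group G] [Finite G] (p : ℕ) [Fact p.Prime] (M : Ideal Cfsg.AlgInt) (hM : Cfsg.IsPModular p M) (π : Set ℕ) (hpπ : p ∈ π) (B : Set (Cfsg.IrrCharacter G)) (hB : Cfsg.IsPBlock M B) (D : Subgroup G) (hBD : Cfsg.IsDefectGroup p M B D) (B₁ : Set (Cfsg.IrrCharacter ↥(Subgroup.normalizer (D : Set G)))) (hB₁ : Cfsg.IsInducedBlock M (Subgroup.normalizer (D : Set G)) B₁ B) (hB₁D : Cfsg.IsDefectGroup p M B₁ (D.subgroupOf (Subgroup.normalizer (D : Set G)))) (hker : ∀ n : ↥(Subgroup.normalizer (D : Set G)), n ∈ Cfsg.piCore {q | q ∉ π} ↥(Subgroup.normalizer (D : Set G)) → n ∈ Cfsg.blockKer B₁) (y : G) (hy : ∃ k : ℕ, orderOf y = p ^ k) (hC : ∀ x : ↥(Subgroup.centralizer ({y} : Set G)), (∀ q : ℕ, q.Prime → q ∣ orderOf x → q ∉ π) → x ∈ Cfsg.piCore {q | q ∉ π} ↥(Subgroup.centralizer ({y} : Set G))) : ∀ χ ∈ B, ∀ x : G, x ∈ Subgroup.centralizer ({y} : Set G) → (∀ q : ℕ, q.Prime → q ∣ orderOf x → q ∉ π) → (χ : G → ℂ) (y * x) = (χ : G → ℂ) y := by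
  classical
  intro χ hχ x hx hx'
  have hp : p.Prime := Fact.out
  have := Fintype.ofFinite (C1 y)
  have h1 := fun (h : C1 y) (e : pp p (h : G) = y) => second_main_sum hM (fun b => defined_C1 hM hy) hB h (by rw [e])
    (H3.irr_class χ.2)
  rw [blockPart_irr_of_mem hχ] at h1
  have h2 : ¬ p ∣ orderOf x := fun h => hx' p hp h hpπ
  refine (h1 (cEl y * ⟨x, hx⟩) (pp_mul_of_commute hp (mem_centralizer_singleton.1 hx) hy h2)).trans
    ((Finset.sum_congr rfl fun b hb => ?_).trans (h1 (cEl y) (pp_of_isPElt hp hy)).symm)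
  have hb := (Finset.mem_filter.1 hb).2
  have h3 := ker_pair hM (σ := {q | q ∉ π}) (fun h => h hpπ) hBD hB₁ hker (isPGroup_zpowers hp hy)
    (by rw [CS, H4.centralizer_zpowers]; exact isBI_aE hM hb.1) ((ind_C1_iff hM hy hb.1 hB).1 hb)
  rw [CS, H4.centralizer_zpowers] at h3
  simp only [blockPart_apply]
  refine Finset.sum_congr rfl fun θ hθ => congrArg _ (H3.char_mul_ker (H3.irr_char θ.2) ?_ _)
  have h4 := Subgroup.le_normalizer.trans (NS_le_NS_piCoreOf {q | q ∉ π} (C1 y))
  exact ker_of_mul_single hM hb.1 (piCoreOf_le _ _) h4 (fun h => piCoreOf_isPiNum _ _ p hp h hpπ)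
    (isBI_aE hM hb.1).ne (isBI_aE hM hb.1).idem (Fix_anti (piCoreOf_le _ _) (aE_mem_ZA _ b).1) h3 (mem_fs.1 hθ)
    (mem_piCoreOf.2 (hC _ (by simpa using hx')))

end Cfsg.Agent.S4727
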