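import Cfsg.Statements.S4728
import Cfsg.Agent.H4.Ker

set_option autoImplicit false
open Cfsg

namespace Cfsg.Agent.S4728

open H4 H1 MonoidAlgebra
open scoped Pointwise


/-- Let p be a prime, π a set of primes containing p, M a maximal ideal of the algebraic integers containing p, B a p-block of the finite group G with defect group D, and B₁ the block of N_G(D) with defect group D inducing B. Let D₀ be a p-subgroup, H₀ = D₀·C_G(D₀), and b a block of H₀ inducing B. Write O_π'(X) for the largest normal subgroup of X whose order has no prime divisor in π. Suppose that O_π'(C_G(D₀)) is a normal Hall π'-subgroup of C_G(D₀) (it contains every element of C_G(D₀) whose order has no prime divisor in π) and that every element of it lies in the kernel of every member of b. Then every element of O_π'(N_G(D)) lies in the kernel of every member of B₁. -/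
theorem result {G : Type*} [Group G] [Finite G] (p : ℕ) [Fact p.Prime] (M : Ideal Cfsg.AlgInt) (hM : Cfsg.IsPModular p M) (π : Set ℕ) (hpπ : p ∈ π) (B : Set (Cfsg.IrrCharacter G)) (hB : Cfsg.IsPBlock M B) (D : Subgroup G) (hBD : Cfsg.IsDefectGroup p M B D) (B₁ : Set (Cfsg.IrrCharacter ↥(Subgroup.normalizer (D : Set G)))) (hB₁ : Cfsg.IsInducedBlock M (Subgroup.normalizer (D : Set G)) B₁ B) (hB₁D : Cfsg.IsDefectGroup p M B₁ (D.subgroupOf (Subgroup.normalizer (D : Set G)))) (D₀ : Subgroup G) (hD₀ : IsPGroup p D₀) (H₀ : Subgroup G) (hH₀ : H₀ = D₀ ⊔ Subgroup.centralizer (D₀ : Set G)) (b : Set (Cfsg.IrrCharacter ↥H₀)) (hb : Cfsg.IsInducedBlock M H₀ b B) (hcompl : ∀ x : ↥(Subgroup.centralizer (D₀ : Set G)), (∀ q : ℕ, q.Prime → q ∣ orderOf x → q ∉ π) → x ∈ Cfsg.piCore {q | q ∉ π} ↥(Subgroup.centralizer (D₀ : Set G))) (hkerb : ∀ x : ↥(Subgroup.centralizer (D₀ : Set G)), x ∈ Cfsg.piCore {q | q ∉ π} ↥(Subgroup.centralizer (D₀ : Set G)) → ∀ θ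 ∈ b, ∀ h : ↥H₀, (h : G) = (x : G) → (θ : ↥H₀ → ℂ) h = (θ : ↥H₀ → ℂ) 1) : ∀ n : ↥(Subgroup.normalizer (D : Set G)), n ∈ Cfsg.piCore {q | q ∉ π} ↥(Subgroup.normalizer (D : Set G)) → n ∈ Cfsg.blockKer B₁ := by
  intro n hn θ hθ
  subst hH₀
  have hp : p.Prime := Fact.out
  have hf := (isBI_aE hM hb.1).of_sup_CS hM hD₀
  have h1 := (ind_iff_mul hM hD₀ le_sup_left le_sup_right (sup_le Subgroup.le_normalizer (CS_le_NS _)) hb.1 hB).1 hb
  have hz := isBI_eB hM hB
  have hD' := (dg_iff_ADG_top hM hB).1 hBD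
  obtain ⟨e, he, h2⟩ := exists_pair hM hD'.isP (Z_le_Fix _ hz.mem_Z) (Z_le_Fix _ hz.mem_Z) hz.idem hD'.ne
  obtain ⟨y, h3⟩ := (MaxP.mk hz hD' he h2).exists_conj hM hD₀ hf h1
  have h4 := h3.ker_up (T := fun x => ∀ q : ℕ, q.Prime → q ∣ orderOf x → q ∉ π) fun x hx hx' => by
    rw [CS_conj, mem_conj_smul] at hx
    have := aE_mul_single (M := M) (x := ⟨_, Subgroup.mem_sup_right hx⟩) fun θ hθ => hkerb ⟨_, hx⟩ (hcompl _ (by
      simpa [← orderOf_conj x y⁻¹] using hx')) θ hθ _ rfl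
    simpa [mul_assoc] using congrArg (cj y) this
  have h5 := Subgroup.le_normalizer.trans (NS_le_NS_piCoreOf {q | q ∉ π} (NS D))
  have h6 : ¬ p ∣ Nat.card (piCoreOf {q | q ∉ π} (NS D)) := fun h => piCoreOf_isPiNum _ _ p hp h hpπ
  have h7 : piCoreOf {q | q ∉ π} (NS D) ≤ CS D := fun w hw => mem_centralizer_of_mem_normalizer
    (Subgroup.le_normalizer.trans h5) (inf_eq_bot_of_coprime (isPGroup_coprime' hD'.isP h6)) hw (piCoreOf_le _ _ hw)
  exact ker_of_mul_single hM hB₁.1 (piCoreOf_le _ _) h5 h6 he.ne (by rwa [aE_eq_Br hM hBD hB₁]) (Fix_anti h7 he.mem.1)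
    (fun w hw => h4 w (h7 hw) fun q hq h => piCoreOf_isPiNum _ _ q hq (h.trans (orderOf_dvd_card_of_mem hw))) hθ
    (mem_piCoreOf.2 hn)

end Cfsg.Agent.S4728
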