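import Cfsg.Statements.S4734
import Cfsg.Agent.H4.Ker

set_option autoImplicit false
open Cfsg

namespace Cfsg.Agent.S4734

open H4 H1 MonoidAlgebra
open scoped Pointwise


/-- Let p be a prime, π a set of primes containing p, M a maximal ideal of the algebraic integers containing p, B a p-block of the finite group G with defect group D, and B₁ the block of N_G(D) with defect group D inducing B. Write O_π'(X) for the largest normal subgroup of X whose order has no prime divisor in π, and suppose every element of O_π'(N_G(D)) lies in the kernel of every member of B₁. Let G₀ be a subgroup and B₀ a block of G₀ with defect group D₀ such that C_G(D₀) ≤ G₀ and B₀ induces B. Then every element of O_π'(G₀) lies in the kernel of every member of B₀. -/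
theorem result {G : Type*} [Group G] [Finite G] (p : ℕ) [Fact p.Prime] (M : Ideal Cfsg.AlgInt) (hM : Cfsg.IsPModular p M) (π : Set ℕ) (hpπ : p ∈ π) (B : Set (Cfsg.IrrCharacter G)) (hB : Cfsg.IsPBlock M B) (D : Subgroup G) (hBD : Cfsg.IsDefectGroup p M B D) (B₁ : Set (Cfsg.IrrCharacter ↥(Subgroup.normalizer (D : Set G)))) (hB₁ : Cfsg.IsInducedBlock M (Subgroup.normalizer (D : Set G)) B₁ B) (hB₁D : Cfsg.IsDefectGroup p M B₁ (D.subgroupOf (Subgroup.normalizer (D : Set G)))) (hker : ∀ n : ↥(Subgroup.normalizer (D : Set G)), n ∈ Cfsg.piCore {q | q ∉ π} ↥(Subgroup.normalizer (D : Set G)) → n ∈ Cfsg.blockKer B₁) (G₀ : Subgroup G) (B₀ : Set (Cfsg.IrrCharacter ↥G₀)) (hB₀ : Cfsg.IsInducedBlock M G₀ B₀ B) (D₀ : Subgroup ↥G₀) (hD₀ : Cfsg.IsDefectGroup p M B₀ D₀) (hC : Subgroup.centralizer ((D₀.map G₀.subtype : Subgroup G) : Set G) ≤ G₀) : ∀ x : ↥G₀, x ∈ Cfsg.piCore {q | q ∉ π} ↥G₀ → x ∈ Cfsg.blockKer B₀ := by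
  intro x hx θ hθ
  have hp : p.Prime := Fact.out
  have he := isBI_aE hM hB₀.1
  have h1 := (dg_iff_ADG_map hM hB₀.1).1 hD₀
  obtain ⟨g, hg, h2⟩ := exists_pair hM h1.isP (Fix_anti h1.le he.mem.1) (Fix_anti hC he.mem.1) he.idem h1.ne
  obtain ⟨c, hc, rfl⟩ := hg.exists_block hM
  have h3 := aL_eq_of_Br hM hB₀.1 hc h1.isP h1.le hC (CS_le_NS _) le_rfl h2 (Z_le_Fix _ (eB_mem_Z B))
  rw [aL_apply G₀, ind_lamB_eB hM hB₀] at h3
  have := charP_k hM
  have h4 := ker_pair hM (σ := {q | q ∉ π}) (fun h => h hpπ) hBD hB₁ hker h1.isP hg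
    ((aL_eq_one_iff hM hc (Br_mem_ZA' _ (Z_le_Fix _ (eB_mem_Z B)))
      (Br_idem h1.isP (Z_le_Fix _ (eB_mem_Z B)) (eB_mul_self hM hB))).1 h3)
  have h5 := Subgroup.le_normalizer.trans (NS_le_NS_piCoreOf {q | q ∉ π} G₀)
  have h6 : ¬ p ∣ Nat.card (piCoreOf {q | q ∉ π} G₀) := fun h => piCoreOf_isPiNum _ _ p hp h hpπ
  exact ker_of_sig hM hB₀.1 (piCoreOf_le _ _) h5 h6 (mul_sig_ne_zero hM h1.isP (Fix_anti h1.le he.mem.1)
    (h1.le.trans h5) h6 hg h2 fun w hw => h4 w (inf_le_piCoreOf (hC.trans h5) (piCoreOf_isPiNum _ _) hw)) hθ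
    (mem_piCoreOf.2 hx)

end Cfsg.Agent.S4734
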