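import Cfsg.Statements.S4735
import Cfsg.Agent.H4.Prin

set_option autoImplicit false
open Cfsg

namespace Cfsg.Agent.S4735

open H4 H1 MonoidAlgebra
open scoped Pointwise
open scoped ComplexConjugate

/-- Let p be a prime, M a maximal ideal of the algebraic integers containing p, G a finite group, H = O_p'(G) and Ḡ = G/H. For x ∈ G write λ(G, x) for the sum of |χ(x)|^2 over the irreducible characters χ in the principal p-block of G. Then λ(G, x) is a positive integer, λ(G, x) = λ(Ḡ, x̄) where x̄ is the image of x, and λ(G, x) ≤ #C_Ḡ(x̄). Moreover λ(G, 1) = [G : H] if and only if the principal block is the only p-block of Ḡ. -/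
theorem result {G : Type*} [Group G] [Finite G] (p : ℕ) [Fact p.Prime] (M : Ideal Cfsg.AlgInt) (hM : Cfsg.IsPModular p M) (x : G) : (∃ n : ℕ, 0 < n ∧ ∑ᶠ χ ∈ Cfsg.principalBlock M G, Complex.normSq ((χ : G → ℂ) x) = n) ∧ ∑ᶠ χ ∈ Cfsg.principalBlock M G, Complex.normSq ((χ : G → ℂ) x) = ∑ᶠ ψ ∈ Cfsg.principalBlock M (G ⧸ Cfsg.pPrimeCore p G), Complex.normSq ((ψ : G ⧸ Cfsg.pPrimeCore p G → ℂ) (QuotientGroup.mk x)) ∧ ∑ᶠ χ ∈ Cfsg.principalBlock M G, Complex.normSq ((χ : G → ℂ) x) ≤ (Nat.card ↥(Subgroup.centralizer ({(QuotientGroup.mk x : G ⧸ Cfsg.pPrimeCore p G)} : Set (G ⧸ Cfsg.pPrimeCore p G))) : ℝ) ∧ ((∑ᶠ χ ∈ Cfsg.principalBlock M G, Cfsg.charDegree (χ : G → ℂ) ^ 2) = (Cfsg.pPrimeCore p G).index ↔ ∀ B : Set (Cfsg.IrrCharacter (G ⧸ Cfsg.pPrimeCore p G)), Cfsg.IsPBlock M B → B = Cfsg.principalBlock M (G ⧸ Cfsg.pPrimeCore p G)) := by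
  have hf := QuotientGroup.mk'_surjective (Cfsg.pPrimeCore p G)
  have hk : ¬ p ∣ Nat.card (QuotientGroup.mk' (Cfsg.pPrimeCore p G)).ker := by
    rw [QuotientGroup.ker_mk']; exact not_dvd_card_pPrimeCore
  simp only [finsum_mem_eq_fs, Complex.normSq_eq_norm_sq]
  have h1 := sum_principal_coprime hM hf hk fun χ => ‖χ.1 x‖ ^ 2
  refine ⟨?_, h1, h1 ▸ ?_, ?_⟩
  · obtain ⟨n, hn⟩ := KB_principal_int hM x x
    rw [KB_self] at hn
    have h2 : (∑ χ ∈ fs (Cfsg.principalBlock M G), ‖χ.1 x‖ ^ 2) = n := by exact_mod_cast hn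
    have h3 := Finset.single_le_sum (f := fun χ : Cfsg.IrrCharacter G => ‖χ.1 x‖ ^ 2) (fun _ _ => by positivity)
      (mem_fs.2 (triv_mem_principal (G := G) hM))
    rw [h2] at h3
    simp only [triv_apply, norm_one, one_pow] at h3
    have h4 : 1 ≤ n := by exact_mod_cast h3
    lift n to ℕ using by omega
    exact ⟨n, by omega, by rw [h2]; simp⟩
  · rw [← H3.sum_norm_sq_char]
    exact Finset.sum_le_sum_of_subset_of_nonneg (Finset.subset_univ _) fun _ _ _ => by positivity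
  · rw [sum_principal_coprime hM hf hk fun χ => Cfsg.charDegree χ.1 ^ 2, Subgroup.index_eq_card, ← H3.sum_deg_sq]
    simp only [charDegree_infl]
    refine ⟨fun h B hB => ?_, fun h => Finset.sum_congr (Finset.eq_univ_of_forall fun χ => ?_) fun _ _ => rfl⟩
    · obtain ⟨χ, hχ⟩ := block_nonempty hM hB
      refine block_eq_of_mem hM hB isPBlock_principal hχ (by_contra fun h1 => ?_)
      exact (Finset.sum_lt_sum_of_subset (Finset.subset_univ _) (Finset.mem_univ χ) (by simpa using h1)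
        (pow_pos (H3.deg_pos χ.2) 2) fun _ _ _ => Nat.zero_le _).ne h
    · rw [mem_fs, ← h _ (isPBlock_blockOf χ.2)]
      exact mem_blockOf_self hM χ

end Cfsg.Agent.S4735
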