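import Cfsg.Statements.S4955
import Cfsg.Agent.H3.Cw

set_option autoImplicit false
open Cfsg

namespace Cfsg.Agent.S4955

open H3

/-- Let X be a finite group with an abelian normal Sylow p-subgroup V (a normal p-subgroup of index prime to p in which any two elements commute), and let G be a complement to V in X. Then for every v in V, writing C for the centralizer of v in G, the number k(X) of conjugacy classes of X satisfies k(X) ≤ (order of C)·(order of V) − ((order of G) − k(G)); the statement is written with the subtracted term moved to the left. In particular, if some v in V is centralized by no nonidentity element of G, then k(X) is at most the order of V. -/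
theorem result {X : Type*} [Group X] [Finite X] (p : ℕ) [Fact p.Prime] (V : Subgroup X) [V.Normal] (hVp : IsPGroup p V) (hidx : ¬ p ∣ V.index) (hab : ∀ a ∈ V, ∀ b ∈ V, a * b = b * a) (G : Subgroup X) (hGV : Subgroup.IsComplement' V G) (v : X) (hv : v ∈ V) : Nat.card (ConjClasses X) + Nat.card G ≤ Nat.card ↥(G ⊓ Subgroup.centralizer ({v} : Set X)) * Nat.card V + Nat.card (ConjClasses G) := by
  have a := kgv_bound V hVp hidx hab hv
  rw [card_irr_eq_card_conjClasses, card_irr_compl hGV, hGV.symm.index_eq_card] at a
  refine a.trans (Nat.add_le_add_right ?_ _)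
  rw [← Nat.card_prod]
  refine Nat.card_le_card_of_surjective (fun x : ↥(G ⊓ Subgroup.centralizer ({v} : Set X)) × V =>
    ⟨x.2 * x.1, mul_mem (Subgroup.mem_centralizer_singleton_iff.2 (hab _ x.2.2 _ hv)) x.1.2.2⟩)
    fun y => ?_
  obtain ⟨⟨w, g⟩, e⟩ := hGV.2 y.1
  refine ⟨⟨⟨g, g.2, ?_⟩, w⟩, Subtype.ext e⟩
  exact (Subgroup.mul_mem_cancel_left _
    (Subgroup.mem_centralizer_singleton_iff.2 (hab _ w.2 _ hv))).1 (by
      replace e : w.1 * g.1 = y.1 := e
      rw [e]; exact y.2)

end Cfsg.Agent.S4955
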