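import Cfsg.Statements.S4956
import Cfsg.Agent.H3.Cw
import Cfsg.Agent.H1.SZ

set_option autoImplicit false
open Cfsg

namespace Cfsg.Agent.S4956

open H3

/-- Let X be a finite group, V an abelian normal subgroup of X (any two elements of V commute) and G a complement to V in X whose order is coprime to that of V. Let S be a set of representatives of the orbits of G on V under conjugation: S lies in V and every element of V is conjugate under G to exactly one member of S. Then the number of conjugacy classes of X equals the sum, over s in S, of the number of conjugacy classes of the centralizer of s in G. -/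
theorem result {X : Type*} [Group X] [Finite X] (V : Subgroup X) [V.Normal] (hab : ∀ a ∈ V, ∀ b ∈ V, a * b = b * a) (G : Subgroup X) (hGV : Subgroup.IsComplement' V G) (hcop : (Nat.card V).Coprime (Nat.card G)) (S : Finset X) (hSV : ∀ s ∈ S, s ∈ V) (hrep : ∀ v ∈ V, ∃! s, s ∈ S ∧ ∃ g ∈ G, g * v * g⁻¹ = s) : Nat.card (ConjClasses X) = ∑ s ∈ S, Nat.card (ConjClasses ↥(G ⊓ Subgroup.centralizer ({s} : Set X))) := by
  classical
  have hmn : Nat.card X = Nat.card G * Nat.card V := by rw [← hGV.card_mul_card, mul_comm]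
  obtain ⟨k, hk0, hk1⟩ := Nat.chineseRemainder hcop.symm 0 1
  replace hk0 : Nat.card G ∣ k := (Nat.modEq_zero_iff_dvd).mp hk0
  have hd : ∀ x ∈ V, x ∈ G → x = 1 := fun x a b => Subgroup.disjoint_def.1 hGV.disjoint a b
  have hp : ∀ v ∈ V, ∀ g ∈ G, v * g = g * v → (v * g) ^ k = v := fun v a g b e => by
    rw [Commute.mul_pow e, pow_eq_self_of_dvd hk1 (H1.orderOf_dvd_card_of_mem a),
      orderOf_dvd_iff_pow_eq_one.1 ((H1.orderOf_dvd_card_of_mem b).trans hk0), mul_one]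
  rw [← Finset.sum_coe_sort, ← Nat.card_sigma]
  symm
  refine Nat.card_congr (Equiv.ofBijective (fun c => Quotient.lift (s := IsConj.setoid _)
    (fun g => ConjClasses.mk (c.1.1 * g.1)) (fun a b e => ?_) c.2) ⟨?_, fun C => ?_⟩)
  · obtain ⟨t, rfl⟩ := isConj_iff.1 e
    refine ConjClasses.mk_eq_mk_iff_isConj.2 (isConj_iff.2 ⟨t, ?_⟩)
    simp only [Subgroup.coe_mul, InvMemClass.coe_inv, ← mul_assoc,
      Subgroup.mem_centralizer_singleton_iff.1 t.2.2]
  · rintro ⟨⟨s, hs⟩, ⟨g⟩⟩ ⟨⟨s', hs'⟩, ⟨g'⟩⟩ e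
    obtain ⟨y, hy⟩ := isConj_iff.1 (ConjClasses.mk_eq_mk_iff_isConj.1 e)
    obtain ⟨⟨v, h⟩, rfl⟩ := hGV.2 y
    have c := Subgroup.mem_centralizer_singleton_iff.1 g.2.2
    have c' := Subgroup.mem_centralizer_singleton_iff.1 g'.2.2
    have a := congrArg (· ^ k) hy
    simp only [conj_pow, hp s (hSV s hs) _ g.2.1 c.symm, hp s' (hSV s' hs') _ g'.2.1 c'.symm] at a
    have b : h.1 * s * h.1⁻¹ = s' := by
      have := hab _ v.2 _ (‹V.Normal›.conj_mem _ (hSV s hs) h)
      rw [← a, ← mul_inv_cancel_right (h.1 * s * h.1⁻¹) v.1, ← this]; group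
    obtain rfl : s = s' := (hrep s (hSV s hs)).unique ⟨hs, 1, one_mem _, by simp⟩ ⟨hs', h, h.2, b⟩
    have d : v.1 * (h.1 * g * h.1⁻¹) * v.1⁻¹ = g' := by
      refine mul_left_cancel (a := s) ?_
      replace hy : v.1 * h.1 * (s * g) * (v.1 * h.1)⁻¹ = s * g' := hy
      calc _ = v.1 * h.1 * s * (v.1 * h.1)⁻¹ * (v.1 * (h.1 * g * h.1⁻¹) * v.1⁻¹) := by rw [a]
        _ = _ := by rw [← hy]; group
    have f : h.1 * g * h.1⁻¹ = g' := by
      have h1 : h.1 * g * h.1⁻¹ ∈ G := mul_mem (mul_mem h.2 g.2.1) (inv_mem h.2)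
      rw [← mul_inv_eq_one]
      refine hd _ ?_ (mul_mem h1 (inv_mem g'.2.1))
      rw [← d]
      have := mul_mem (mul_mem v.2 (‹V.Normal›.conj_mem _ (inv_mem v.2) (h.1 * g * h.1⁻¹)))
        (one_mem V)
      rw [← inv_mem_iff]
      convert this using 1; group
    congr 1
    exact ConjClasses.mk_eq_mk_iff_isConj.2 (isConj_iff.2 ⟨⟨h, h.2,
      Subgroup.mem_centralizer_singleton_iff.2 (mul_inv_eq_iff_eq_mul.1 b)⟩, Subtype.ext f⟩)
  · obtain ⟨x, rfl⟩ := ConjClasses.exists_rep C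
    have a : x ^ k ∈ V := H1.mem_of_coprime_index (by
      rw [hGV.symm.index_eq_card]
      exact hcop.coprime_dvd_left (orderOf_pow_dvd_right hmn hk0 x))
    obtain ⟨n, hn, b⟩ := H1.exists_conj_le_of_solvable_left (A := G) (N := V)
      (B := Subgroup.zpowers (x * (x ^ k)⁻¹)) (by rw [Subgroup.normalizer_eq_top]; exact le_top)
      (by rw [inf_comm]; exact hGV.disjoint.eq_bot) (H1.isSolvable_zpowers _)
      (by rw [sup_comm, hGV.sup_eq_top]; exact le_top)
      (by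
        rw [Nat.card_zpowers]
        exact hcop.symm.coprime_dvd_left (orderOf_mul_pow_inv_dvd hmn hk1 x))
    have c := H1.conj_smul_le_iff.1 b _ (Subgroup.mem_zpowers _)
    obtain ⟨s, ⟨d, h, e, rfl⟩, -⟩ := hrep _ (‹V.Normal›.conj_mem _ a n)
    refine ⟨⟨⟨_, d⟩, ConjClasses.mk ⟨h * (n * (x * (x ^ k)⁻¹) * n⁻¹) * h⁻¹,
      G.mul_mem (G.mul_mem e c) (G.inv_mem e), Subgroup.mem_centralizer_singleton_iff.2 (by group)⟩⟩,
      ConjClasses.mk_eq_mk_iff_isConj.2 (isConj_iff.2 ⟨(h * n)⁻¹, by group⟩)⟩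

end Cfsg.Agent.S4956
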