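import Cfsg.Statements.S4964
import Cfsg.Agent.H4.Quot

set_option autoImplicit false
open Cfsg

namespace Cfsg.Agent.S4964

open H4 H1 MonoidAlgebra
open scoped Pointwise


/-- Let D be a normal p-subgroup of the finite group G, let D′ be its commutator subgroup (normal in G), and fix a maximal ideal M of the algebraic integers containing p. Then (i) two irreducible characters of G ⧸ D′ lie in the same p-block if and only if their inflations to G do, and (ii) every p-block of G contains the inflation of some irreducible character of G ⧸ D′; so inflation induces a bijection between the p-blocks of G ⧸ D′ and the p-blocks of G. -/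
theorem result {G : Type*} [Group G] [Finite G] (p : ℕ) [Fact p.Prime] (M : Ideal Cfsg.AlgInt) (hM : Cfsg.IsPModular p M) (D : Subgroup G) [D.Normal] (hD : IsPGroup p D) : (∀ χ ψ : Cfsg.IrrCharacter (G ⧸ ⁅D, D⁆), Cfsg.SameBlock M (χ : G ⧸ ⁅D, D⁆ → ℂ) (ψ : G ⧸ ⁅D, D⁆ → ℂ) ↔ Cfsg.SameBlock M ((χ : G ⧸ ⁅D, D⁆ → ℂ) ∘ QuotientGroup.mk) ((ψ : G ⧸ ⁅D, D⁆ → ℂ) ∘ QuotientGroup.mk)) ∧ ∀ B : Set (Cfsg.IrrCharacter G), Cfsg.IsPBlock M B → ∃ χ : Cfsg.IrrCharacter (G ⧸ ⁅D, D⁆), ∃ θ ∈ B, (θ : G → ℂ) = (χ : G ⧸ ⁅D, D⁆ → ℂ) ∘ QuotientGroup.mk := by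
  have hf := QuotientGroup.mk'_surjective ⁅D, D⁆
  have hk : IsPGroup p (QuotientGroup.mk' ⁅D, D⁆).ker := by
    rw [QuotientGroup.ker_mk']; exact hD.to_le (Subgroup.commutator_le_left _ _)
  refine ⟨fun χ ψ => ⟨sameBlock_infl hM hf, sameBlock_reg hM hf hk fun g hg h => ?_⟩, fun B hB => ?_⟩
  · rw [QuotientGroup.ker_mk']
    refine CS_anti (Subgroup.commutator_le_left D D) (le_centralizer_of_frattini (A := Subgroup.zpowers g)
      Subgroup.le_normalizer_of_normal ?_ (le_trans ?_ (commutator_le_map_frattini hD.isNilpotent)) (Subgroup.mem_zpowers g))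
    · obtain ⟨n, hn⟩ := (hD.to_subgroup (frattini D)).exists_card_eq
      rw [hn, Nat.card_zpowers]
      exact (((Fact.out : p.Prime).coprime_iff_not_dvd.2 hg).symm).pow_right n
    · refine Subgroup.commutator_le.2 fun u hu x hx => (QuotientGroup.eq_one_iff _).1 ?_
      have h1 := Subgroup.Normal.map (inferInstance : D.Normal) _ hf
      have h2 : QuotientGroup.mk' ⁅D, D⁆ x ∈ CS (Cfsg.pCore p _) := by
        obtain ⟨n, rfl⟩ := hx; rw [map_zpow]; exact zpow_mem h n
      have := h2 _ (le_pCore (hD.map (QuotientGroup.mk' ⁅D, D⁆)) ⟨u, hu, rfl⟩)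
      change QuotientGroup.mk' ⁅D, D⁆ _ = 1
      rw [map_commutatorElement, commutatorElement_eq_one_iff_mul_comm, this]
  · obtain ⟨χ, h⟩ := exists_infl_mem hM hf hk hB
    exact ⟨χ, _, h, rfl⟩

end Cfsg.Agent.S4964
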