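import Cfsg.Statements.S4965
import Cfsg.Agent.H3.Cw

set_option autoImplicit false
open Cfsg

namespace Cfsg.Agent.S4965

open H3

/-- Let X be a finite group with an abelian normal subgroup V (any two elements of V commute), and let φ be the action of X ⧸ V on V induced by conjugation (well defined because V is abelian; the hypothesis hφ says that the class of x acts as conjugation by x). Then X has at most as many conjugacy classes as the semidirect product of V by X ⧸ V formed with this action: the split extension has the largest class number among extensions with the given action. -/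
theorem result {X : Type*} [Group X] [Finite X] (V : Subgroup X) [V.Normal] (hab : ∀ a ∈ V, ∀ b ∈ V, a * b = b * a) (φ : X ⧸ V →* MulAut ↥V) (hφ : ∀ (x : X) (v : ↥V), ((φ (QuotientGroup.mk x) v : ↥V) : X) = x * v * x⁻¹) : Nat.card (ConjClasses X) ≤ Nat.card (ConjClasses (SemidirectProduct ↥V (X ⧸ V) φ)) := by
  have e1 := card_comm_eq_card_conjClasses_mul_card X
  have e2 := card_comm_eq_card_conjClasses_mul_card (SemidirectProduct ↥V (X ⧸ V) φ)
  have e3 : Nat.card (SemidirectProduct ↥V (X ⧸ V) φ) = Nat.card X := by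
    rw [SemidirectProduct.card, V.card_eq_card_quotient_mul_card_subgroup, mul_comm]
  have : Finite (SemidirectProduct ↥V (X ⧸ V) φ) := Nat.finite_of_card_ne_zero (e3 ▸ Nat.card_pos.ne')
  refine Nat.le_of_mul_le_mul_right ?_ (Nat.card_pos (α := X))
  rw [← e1, ← e3, ← e2]
  have h : ∀ q : (X ⧸ V) × (X ⧸ V), ∃ r : X × X, ∀ p : {p : X × X // Commute p.1 p.2},
      ((p.1.1 : X ⧸ V), (p.1.2 : X ⧸ V)) = q → Commute r.1 r.2 ∧ p.1.1 * r.1⁻¹ ∈ V ∧
        p.1.2 * r.2⁻¹ ∈ V := fun q => by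
    by_cases h : ∃ p : {p : X × X // Commute p.1 p.2}, ((p.1.1 : X ⧸ V), (p.1.2 : X ⧸ V)) = q
    · obtain ⟨r, rfl⟩ := h
      refine ⟨r, fun p e => ⟨r.2, ?_, ?_⟩⟩
      · simpa only [div_eq_mul_inv] using QuotientGroup.eq_iff_div_mem.1 (Prod.mk.inj e).1
      · simpa only [div_eq_mul_inv] using QuotientGroup.eq_iff_div_mem.1 (Prod.mk.inj e).2
    · exact ⟨1, fun p e => absurd ⟨p, e⟩ h⟩
  choose r hr using h
  have key : ∀ p : {p : X × X // Commute p.1 p.2}, Commute
      (⟨⟨_, (hr _ p rfl).2.1⟩, p.1.1⟩ : SemidirectProduct ↥V (X ⧸ V) φ)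
      ⟨⟨_, (hr _ p rfl).2.2⟩, p.1.2⟩ := fun p => by
    refine SemidirectProduct.ext (Subtype.ext ?_) (congrArg QuotientGroup.mk p.2.eq)
    simp only [SemidirectProduct.mul_left, Subgroup.coe_mul, hφ]
    obtain ⟨a, b, c⟩ := hr _ p rfl
    generalize r (p.1.1, p.1.2) = s at a b c
    have d := p.2.eq
    generalize p.1.1 = x at b d
    generalize p.1.2 = y at c d
    have h1 := hab _ b _ ((‹V.Normal›).conj_mem _ c s.1)
    have h2 := hab _ c _ ((‹V.Normal›).conj_mem _ b s.2)
    calc _ = x * s.1⁻¹ * (x * s.1⁻¹ * (s.1 * (y * s.2⁻¹) * s.1⁻¹) * (x * s.1⁻¹)⁻¹) := by group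
      _ = x * y * (s.1 * s.2)⁻¹ := by rw [h1]; group
      _ = y * x * (s.2 * s.1)⁻¹ := by rw [d, a.eq]
      _ = y * s.2⁻¹ * (y * s.2⁻¹ * (s.2 * (x * s.1⁻¹) * s.2⁻¹) * (y * s.2⁻¹)⁻¹) := by
        rw [h2]; group
      _ = _ := by group
  refine Nat.card_le_card_of_injective (fun p => ⟨(_, _), key p⟩) fun p q e => ?_
  simp only [Subtype.mk.injEq, Prod.mk.injEq, SemidirectProduct.ext_iff] at e
  obtain ⟨⟨a, b⟩, c, d⟩ := e
  rw [b, d] at a c
  exact Subtype.ext (Prod.ext (mul_right_cancel a) (mul_right_cancel c))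

end Cfsg.Agent.S4965
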