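import Cfsg.Statements.S4966
import Mathlib

set_option autoImplicit false
open Cfsg

namespace Cfsg.Agent.S4966

open Module Function

section
variable {F G V : Type*} [Field F] [Group G] [Fintype G] [AddCommGroup V] [Module F V] (ρ : Representation F G V)

def Inv (C : LinearMap.BilinForm F V) : Prop := ∀ g x y, C (ρ g x) (ρ g y) = C x y
def Eqv (f : End F V) : Prop := ∀ g x, f (ρ g x) = ρ g (f x)

noncomputable def avg (f : End F V) : End F V := (Fintype.card G : F)⁻¹ • ∑ g, ρ g * f * ρ g⁻¹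

theorem avg_apply (f : End F V) (x : V) : avg ρ f x = (Fintype.card G : F)⁻¹ • ∑ g, ρ g (f (ρ g⁻¹ x)) := by
  simp [avg, LinearMap.sum_apply]

theorem rr (g h : G) (x : V) : ρ g (ρ h x) = ρ (g * h) x := by rw [map_mul]; rfl

theorem eqv_avg (f : End F V) : Eqv ρ (avg ρ f) := fun h x => by
  rw [avg_apply, avg_apply, map_smul, map_sum]
  congr 1
  refine (Fintype.sum_equiv (Equiv.mulLeft h) _ _ fun g => ?_).symm
  rw [rr, rr, Equiv.coe_mulLeft, mul_inv_rev, inv_mul_cancel_right]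

theorem avg_const (hc : (Fintype.card G : F) ≠ 0) (x : V) : (Fintype.card G : F)⁻¹ • ∑ _g : G, x = x := by
  rw [Finset.sum_const, Finset.card_univ, ← Nat.cast_smul_eq_nsmul F, smul_smul, inv_mul_cancel₀ hc, one_smul]

theorem exists_proj (hc : (Fintype.card G : F) ≠ 0) (R : Submodule F V) (hR : ∀ g, ∀ x ∈ R, ρ g x ∈ R) :
    ∃ π : End F V, Eqv ρ π ∧ (∀ x, π x ∈ R) ∧ ∀ x ∈ R, π x = x := by
  obtain ⟨Q, hQ⟩ := R.exists_isCompl
  refine ⟨avg ρ (R.projection Q hQ), eqv_avg ρ _, fun x => ?_, fun x hx => ?_⟩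
  · rw [avg_apply]
    exact R.smul_mem _ (R.sum_mem fun g _ => hR _ _ (Submodule.projection_apply_mem hQ _))
  · rw [avg_apply, Finset.sum_congr rfl fun g _ => show _ = x by
      rw [Submodule.projection_apply_of_mem_left hQ (hR _ _ hx), rr, mul_inv_cancel, map_one, End.one_apply], avg_const hc]

theorem exists_ginv (hc : (Fintype.card G : F) ≠ 0) {χ : End F V} (h : Eqv ρ χ) : ∃ ψ : End F V, Eqv ρ ψ ∧ ∀ x, χ (ψ (χ x)) = χ x := by
  obtain ⟨s, hs⟩ := χ.rangeRestrict.exists_rightInverse_of_surjective χ.range_rangeRestrict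
  obtain ⟨t, ht⟩ := LinearMap.exists_extend s
  have e : ∀ x, χ (t (χ x)) = χ x := fun x => by
    have := LinearMap.congr_fun ht ⟨χ x, x, rfl⟩
    rw [show t (χ x) = s ⟨χ x, x, rfl⟩ from this]
    exact congrArg Subtype.val (LinearMap.congr_fun hs ⟨χ x, x, rfl⟩)
  refine ⟨avg ρ t, eqv_avg ρ _, fun x => ?_⟩
  rw [avg_apply, map_smul, map_sum, Finset.sum_congr rfl fun g _ => show _ = χ x by
    rw [h, ← h g⁻¹, e, ← h, rr, mul_inv_cancel, map_one, End.one_apply], avg_const hc]

variable {ρ}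
theorem Inv.ker {C : LinearMap.BilinForm F V} (h : Inv ρ C) (g : G) (x : V) (hx : x ∈ LinearMap.ker C) : ρ g x ∈ LinearMap.ker C := by
  refine LinearMap.ext fun y => ?_
  have := h g x (ρ g⁻¹ y)
  rw [rr, mul_inv_cancel, map_one, End.one_apply, LinearMap.mem_ker.1 hx] at this
  exact this

theorem Inv.comp {C : LinearMap.BilinForm F V} (h : Inv ρ C) {a b : End F V} (ha : Eqv ρ a) (hb : Eqv ρ b) : Inv ρ (C.comp a b) :=
  fun g x y => by simp only [LinearMap.BilinForm.comp_apply]; rw [ha, hb, h]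

theorem Inv.add {C D : LinearMap.BilinForm F V} (h : Inv ρ C) (h' : Inv ρ D) : Inv ρ (C + D) :=
  fun g x y => by simp only [LinearMap.add_apply]; rw [h, h']

theorem cancel [Finite F] [FiniteDimensional F V] (hc : (Fintype.card G : F) ≠ 0) {B C : LinearMap.BilinForm F V} (hB : B.Nondegenerate)
    (iB : Inv ρ B) (iC : Inv ρ C) {R : Submodule F V} (h1 : R ≤ LinearMap.ker C) (h2 : LinearMap.ker C.flip ≤ R)
    (h3 : ∀ D, Inv ρ D → ∀ x ∈ R, ∀ y ∈ R, D x y = 0) {r : V} (hr : r ∈ R) : r = 0 := by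
  let χ : End F V := (B.toDual hB).symm.toLinearMap.comp C
  have e : ∀ x y, B (χ x) y = C x y := fun x y => LinearMap.BilinForm.apply_toDual_symm_apply (hB := hB) _ _
  have q : Eqv ρ χ := fun g x => by
    rw [← sub_eq_zero]
    refine hB.1 _ fun y => ?_
    have : y = ρ g (ρ g⁻¹ y) := by rw [rr, mul_inv_cancel, map_one, End.one_apply]
    rw [this, map_sub, LinearMap.sub_apply, iB, e, e, iC, sub_self]
  obtain ⟨ψ, qψ, hψ⟩ := exists_ginv ρ hc q
  have qk : ∀ k, Eqv ρ (ψ ^ k) := fun k => by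
    induction k with
    | zero => exact fun _ _ => rfl
    | succ k ih => exact fun g x => by rw [pow_succ, End.mul_apply, qψ, ih, End.mul_apply]
  have st : ∀ k, χ ((ψ ^ (k + 1)) r) = (ψ ^ k) r := fun k => by
    obtain ⟨x, hx⟩ : B ((ψ ^ k) r) ∈ LinearMap.range C := by
      rw [← LinearMap.flip_flip C, ← LinearMap.dualAnnihilator_ker_eq_range_flip, Submodule.mem_dualAnnihilator]
      exact fun y hy => h3 _ (iB.comp (qk k) (qk 0)) r hr y (h2 hy)
    have : (ψ ^ k) r = χ x := by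
      rw [← sub_eq_zero]
      exact hB.1 _ fun y => by rw [map_sub, LinearMap.sub_apply, e, hx, sub_self]
    rw [pow_succ', End.mul_apply, this, hψ]
  have s2 : ∀ k, (χ ^ k) ((ψ ^ k) r) = r := fun k => by
    induction k with
    | zero => rfl
    | succ k ih => rw [pow_succ χ, End.mul_apply, st, ih]
  have z : χ r = 0 := hB.1 _ fun y => by rw [e, LinearMap.mem_ker.1 (h1 hr)]; rfl
  have : Finite V := Module.finite_of_finite F
  obtain ⟨a, b, ne, ab⟩ := Finite.exists_ne_map_eq_of_infinite fun k : ℕ => (ψ ^ k) r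
  wlog lt : a < b generalizing a b
  · exact this b a ne.symm ab.symm (by omega)
  obtain ⟨c, rfl⟩ := Nat.exists_eq_add_of_lt lt
  have := s2 (a + c + 1)
  rw [← ab, show a + c + 1 = c + 1 + a by ring, pow_add, End.mul_apply, s2, pow_succ, End.mul_apply, z, map_zero] at this
  exact this.symm

theorem minrad [FiniteDimensional F V] (hc : (Fintype.card G : F) ≠ 0) (P : LinearMap.BilinForm F V → Prop) (h0 : P 0)
    (hi : ∀ C, P C → Inv ρ C ∧ C.IsRefl)
    (ha : ∀ C D π, P C → P D → Eqv ρ π → (∀ x ∈ LinearMap.ker C, π x = x) → P (C + D.comp π π)) :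
    ∃ C, P C ∧ ∀ D, P D → ∀ x ∈ LinearMap.ker C, ∀ y ∈ LinearMap.ker C, D x y = 0 := by
  obtain ⟨_, ⟨C, hC, rfl⟩, hm⟩ := (wellFounded_lt (α := Submodule F V)).has_min {R | ∃ C, P C ∧ LinearMap.ker C = R} ⟨_, 0, h0, rfl⟩
  obtain ⟨π, q, m, f⟩ := exists_proj ρ hc _ (hi C hC).1.ker
  refine ⟨C, hC, fun D hD x hx y hy => ?_⟩
  have le : LinearMap.ker (C + D.comp π π) ≤ LinearMap.ker C := fun x hx => LinearMap.ext fun y => by
    have := LinearMap.congr_fun (LinearMap.mem_ker.1 hx) (y - π y)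
    have z : C x (π y) = 0 := (hi C hC).2 _ _ (by rw [LinearMap.mem_ker.1 (m y)]; rfl)
    simpa [f _ (m y), z] using this
  have := (eq_of_le_of_not_lt le (hm _ ⟨_, ha C D π hC hD q f, rfl⟩)).ge hx
  simpa [f _ hx, f _ hy, LinearMap.mem_ker.1 hx] using LinearMap.congr_fun (LinearMap.mem_ker.1 this) y

theorem sq_sum [CharP F 2] {S : LinearMap.BilinForm F V} (h : ∀ x y, S x y = S y x) {ι : Type*} (s : Finset ι) (v : ι → V) :
    S (∑ i ∈ s, v i) (∑ i ∈ s, v i) = ∑ i ∈ s, S (v i) (v i) := by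
  classical
  induction s using Finset.induction_on with
  | empty => simp
  | insert a s ha ih =>
    rw [Finset.sum_insert ha, Finset.sum_insert ha, ← ih]
    generalize ∑ i ∈ s, v i = w
    simp only [map_add, LinearMap.add_apply]
    rw [h w (v a)]
    linear_combination CharTwo.add_self_eq_zero (S (v a) w)
end

/-- Let F be a finite field of characteristic p, G a finite group of order prime to p, and V a finite-dimensional representation of G over F carrying a nondegenerate G-invariant bilinear form (equivalently, V is self-dual). Then V is the direct sum of two G-invariant subspaces U and W such that U carries a G-invariant alternating bilinear form that is nondegenerate on U and W carries a G-invariant symmetric bilinear form that is nondegenerate on W; moreover when p = 2 the decomposition can be chosen with G acting trivially on W. -/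
theorem result {F : Type*} [Field F] [Fintype F] (p : ℕ) [Fact p.Prime] [CharP F p] {G : Type*} [Group G] [Finite G] (hcop : ¬ p ∣ Nat.card G) {V : Type*} [AddCommGroup V] [Module F V] [FiniteDimensional F V] (ρ : Representation F G V) (B : LinearMap.BilinForm F V) (hB : B.Nondegenerate) (hBinv : ∀ g : G, ∀ x y : V, B (ρ g x) (ρ g y) = B x y) : ∃ U W : Submodule F V, IsCompl U W ∧ (∀ g : G, ∀ u ∈ U, ρ g u ∈ U) ∧ (∀ g : G, ∀ w ∈ W, ρ g w ∈ W) ∧ (∃ A : LinearMap.BilinForm F V, (∀ x : V, A x x = 0) ∧ (∀ g : G, ∀ x ∈ U, ∀ y ∈ U, A (ρ g x) (ρ g y) = A x y) ∧ (∀ x ∈ U, (∀ y ∈ U, A x y = 0) → x = 0)) ∧ (∃ S : LinearMap.BilinForm F V, (∀ x y : V, S x y = S y x) ∧ (∀ g : G, ∀ x ∈ W, ∀ y ∈ W, S (ρ g x) (ρ g y) = S x y) ∧ (∀ x ∈ W, (∀ y ∈ W, S x y = 0) → x = 0)) ∧ (p = 2 → ∀ g : G, ∀ w ∈ W, ρ g w = w) := by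
  have := Fintype.ofFinite G
  have hc : (Fintype.card G : F) ≠ 0 := by rwa [Ne, CharP.cast_eq_zero_iff F p, ← Nat.card_eq_fintype_card]
  obtain ⟨A, ⟨iA, aA⟩, mA⟩ := minrad (ρ := ρ) hc (fun C => Inv ρ C ∧ C.IsAlt) ⟨fun _ _ _ => rfl, fun _ => rfl⟩
    (fun C h => ⟨h.1, h.2.isRefl⟩) fun C D π h1 h2 q _ => ⟨h1.1.add (h2.1.comp q q), fun x => by
      rw [LinearMap.add_apply, LinearMap.add_apply, h1.2 x, LinearMap.BilinForm.comp_apply, h2.2, add_zero]⟩
  obtain ⟨π, q, m, f⟩ := exists_proj ρ hc _ iA.ker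
  obtain ⟨S, ⟨iS, sS, kS⟩, mS⟩ := minrad (ρ := ρ) hc (fun C => Inv ρ C ∧ (∀ x y, C x y = C y x) ∧ LinearMap.ker π ≤ LinearMap.ker C)
    ⟨fun _ _ _ => rfl, fun _ _ => rfl, by simp⟩ (fun C h => ⟨h.1, fun x y e => by rw [h.2.1, e]⟩)
    fun C D τ h1 h2 q f => ⟨h1.1.add (h2.1.comp q q), fun x y => by
      simp only [LinearMap.add_apply, LinearMap.BilinForm.comp_apply]; rw [h1.2.1, h2.2.1], fun x hx => LinearMap.ext fun y => by
      simp [f _ (h1.2.2 hx), LinearMap.mem_ker.1 (h1.2.2 hx), LinearMap.mem_ker.1 (h2.2.2 hx)]⟩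
  have z1 : ∀ x y, A x (π y) = 0 := fun x y => aA.isRefl _ _ (by rw [LinearMap.mem_ker.1 (m y)]; rfl)
  have z2 : ∀ x y, S x (π y) = S x y := fun x y => by
    rw [eq_comm, ← sub_eq_zero, ← map_sub, sS, LinearMap.mem_ker.1 (kS (show y - π y ∈ LinearMap.ker π by simp [f _ (m y)]))]; rfl
  have nd : ∀ x ∈ LinearMap.ker A, (∀ y ∈ LinearMap.ker A, S x y = 0) → x = 0 := fun x hx h => by
    refine cancel hc hB hBinv (iA.add iS) (R := LinearMap.ker A ⊓ LinearMap.ker S) (fun x hx => ?_) (fun x hx => ?_) (fun D iD x hx y hy => ?_)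
      ⟨hx, LinearMap.ext fun y => (z2 x y).symm.trans (h _ (m y))⟩
    · simp [LinearMap.mem_ker.1 hx.1, LinearMap.mem_ker.1 hx.2]
    · have e : ∀ y, A y x + S y x = 0 := fun y => LinearMap.congr_fun (LinearMap.mem_ker.1 hx) y
      have s : ∀ y, S x y = 0 := fun y => by
        have := e (π y)
        rwa [LinearMap.mem_ker.1 (m y), LinearMap.zero_apply, zero_add, sS, z2] at this
      exact ⟨LinearMap.ext fun y => aA.isRefl _ _ (by have := e y; rwa [sS, s, add_zero] at this), LinearMap.ext s⟩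
    · have := mS (D.comp π π) ⟨iD.comp q q, fun x y => ?_, fun x hx => LinearMap.ext fun y => by
        simp [LinearMap.mem_ker.1 hx]⟩ x hx.2 y hy.2
      · simpa [f _ hx.1, f _ hy.1] using this
      · exact sub_eq_zero.1 (mA (D - D.flip) ⟨fun g x y => by
          simp only [LinearMap.sub_apply, LinearMap.BilinForm.flip_apply]; rw [iD, iD], fun x => sub_self _⟩ _ (m x) _ (m y))
  refine ⟨LinearMap.ker π, LinearMap.ker A, ⟨Submodule.disjoint_def.2 fun x h1 h2 => (f x h2).symm.trans h1,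
    codisjoint_iff_le_sup.2 fun x _ => Submodule.mem_sup.2 ⟨x - π x, by simp [f _ (m x)], π x, m x, by simp⟩⟩,
    fun g u hu => by rw [LinearMap.mem_ker, q, LinearMap.mem_ker.1 hu, map_zero], iA.ker,
    ⟨A, aA, fun g x _ y _ => iA g x y, fun x hx h => ?_⟩, ⟨S, sS, fun g x _ y _ => iS g x y, nd⟩, ?_⟩
  · refine (f x (LinearMap.ext fun y => ?_)).symm.trans hx
    simpa [z1] using h (y - π y) (by simp [f _ (m y)])
  · rintro rfl g w hw
    have c1 : (Fintype.card G : F) = 1 := by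
      rw [← Nat.card_eq_fintype_card]
      obtain ⟨k, hk⟩ := Nat.odd_iff.2 (Nat.two_dvd_ne_zero.1 hcop)
      rw [hk]; push_cast; rw [CharTwo.two_eq_zero]; ring
    let N : End F V := ∑ g, ρ g
    have hN : ∀ x, N x = ∑ g, ρ g x := fun x => LinearMap.sum_apply _ _ _
    have l : ∀ g x, ρ g (N x) = N x := fun g x => by
      rw [hN, map_sum]
      exact Fintype.sum_equiv (Equiv.mulLeft g) _ _ fun h => rr ρ _ _ _
    have r : ∀ g x, N (ρ g x) = N x := fun g x => by
      rw [hN, hN]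
      exact Fintype.sum_equiv (Equiv.mulRight g) _ _ fun h => rr ρ _ _ _
    have NN : ∀ x, N (N x) = N x := fun x => by
      rw [hN (N x), Finset.sum_congr rfl fun g _ => l g x, Finset.sum_const, Finset.card_univ, ← Nat.cast_smul_eq_nsmul F, c1, one_smul]
    have adj : ∀ x y, S (N x) y = S x (N y) := fun x y => by
      rw [hN, hN, map_sum, map_sum, LinearMap.sum_apply]
      refine Fintype.sum_equiv (Equiv.inv G) _ _ fun h => ?_
      rw [← iS h⁻¹, rr, inv_mul_cancel, map_one]; rfl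
    have qe : Eqv ρ (1 - N) := fun g x => by simp [l, r]
    have alt : (S.comp (1 - N) (1 - N)).IsAlt := fun x => by
      have : S (N x) (N x) = S x x := by
        rw [hN, sq_sum sS, Finset.sum_congr rfl fun g _ => iS g x x, Finset.sum_const, Finset.card_univ, nsmul_eq_mul, c1, one_mul]
      have e := adj x (N x)
      rw [NN] at e
      simp only [LinearMap.BilinForm.comp_apply, LinearMap.sub_apply, End.one_apply, map_sub]
      rw [adj x x, ← e, this]; ring
    have mN : N w ∈ LinearMap.ker A := by rw [hN]; exact Submodule.sum_mem _ fun g _ => iA.ker g w hw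
    have : w - N w = 0 := nd _ (sub_mem hw mN) fun y hy => by
      have := mA _ ⟨iS.comp qe qe, alt⟩ w hw y hy
      simp only [LinearMap.BilinForm.comp_apply, LinearMap.sub_apply, End.one_apply] at this
      rwa [map_sub, ← adj, map_sub N, NN, sub_self, map_zero, LinearMap.zero_apply, sub_zero] at this
    rw [sub_eq_zero.1 this, l]


end Cfsg.Agent.S4966
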