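import Cfsg.Statements.S4967
import Cfsg.Agent.H5.Sing

set_option autoImplicit false
open Cfsg

namespace Cfsg.Agent.S4967

open H5 Module Polynomial Function

theorem frob_pow {F K : Type*} [Field F] [Fintype F] [Field K] [Algebra F K] [Finite K] (i : ℕ) (x : K) :
    (FiniteField.frobeniusAlgEquivOfAlgebraic F K ^ i) x = x ^ (Fintype.card F ^ i) := by
  rw [AlgEquiv.coe_pow, FiniteField.coe_frobeniusAlgEquivOfAlgebraic_iterate]

theorem core {F K V H : Type*} [Field F] [Fintype F] [Field K] [Algebra F K] [Finite K] [AddCommGroup V] [Module F V]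
    [FiniteDimensional F V] [CommGroup H] [Finite H] (ρ : Representation F H V) (ψ : K →ₐ[F] End F V)
    (hd : finrank F K = finrank F V) (φ : H →* K) (hφ : ∀ h, ψ (φ h) = ρ h) (hi : Injective φ)
    (hg : Algebra.adjoin F (Set.range φ) = ⊤) :
    ((∃ B : LinearMap.BilinForm F V, B.Nondegenerate ∧ ∀ h : H, ∀ x y : V, B (ρ h x) (ρ h y) = B x y) →
      ∃ i < finrank F V, Nat.card H ∣ Fintype.card F ^ i + 1 ∧ finrank F V ∣ 2 * i ∧ (i = 0 → finrank F V = 1)) ∧
    (∀ i, Nat.card H ∣ Fintype.card F ^ i + 1 →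
      ∃ B : LinearMap.BilinForm F V, B.Nondegenerate ∧ ∀ h : H, ∀ x y : V, B (ρ h x) (ρ h y) = B x y) := by
  have : Nontrivial V := nontrivial_of_finrank_pos (R := F) (hd ▸ finrank_pos)
  constructor
  · rintro ⟨B, hB, hb⟩
    have : IsCyclic H := isCyclic_of_injective_ringHom φ hi
    obtain ⟨g, hgen⟩ := IsCyclic.exists_monoid_generator (α := H)
    have ha : Algebra.adjoin F {φ g} = ⊤ := by
      rw [eq_top_iff, ← hg, Algebra.adjoin_le_iff]
      rintro _ ⟨h, rfl⟩
      obtain ⟨k, rfl⟩ := hgen h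
      simp only [map_pow]
      exact pow_mem (Algebra.self_mem_adjoin_singleton F _) k
    have adj : ∀ (P : F[X]) x y, B (aeval (ρ g) P x) y = B x (aeval (ρ g⁻¹) P y) := by
      intro P
      induction P using Polynomial.induction_on' with
      | add p q hp hq => intro x y; simp [hp, hq]
      | monomial n a =>
        intro x y
        rw [aeval_monomial, aeval_monomial, ← map_pow, ← map_pow, inv_pow]
        have := hb (g ^ n) x (ρ (g ^ n)⁻¹ y)
        rw [← End.mul_apply _ _ y, ← map_mul, mul_inv_cancel, map_one, End.one_apply] at this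
        simp only [End.mul_apply, Module.algebraMap_end_apply, map_smul, LinearMap.smul_apply, this]
    have rt : aeval (φ g⁻¹) (minpoly F (φ g)) = 0 := by
      apply ψ.injective
      change ψ _ = ψ 0
      rw [← aeval_algHom_apply, hφ, map_zero]
      refine LinearMap.ext fun y => hB.2 _ fun x => ?_
      rw [← adj, ← hφ, aeval_algHom_apply, minpoly.aeval]
      simp
    obtain ⟨σ, hσ⟩ := minpoly.exists_algEquiv_of_root' (.of_finite F _) rt
    obtain ⟨⟨i, lt⟩, rfl⟩ := (FiniteField.bijective_frobeniusAlgEquivOfAlgebraic_pow F K).2 σ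
    have e : g ^ (Fintype.card F ^ i + 1) = 1 := by
      apply hi
      rw [pow_succ, map_mul, map_pow, ← frob_pow, hσ, ← map_mul, inv_mul_cancel]
    refine ⟨i, hd ▸ lt, ?_, ?_, ?_⟩
    · rw [← IsCyclic.exponent_eq_card, Monoid.exponent_dvd_iff_forall_pow_eq_one]
      intro h
      obtain ⟨k, rfl⟩ := hgen h
      simp only [← pow_mul]
      rw [mul_comm, pow_mul, e, one_pow]
    · rw [← hd, ← FiniteField.orderOf_frobeniusAlgEquivOfAlgebraic, orderOf_dvd_iff_pow_eq_one, mul_comm, pow_mul]
      apply AlgEquiv.coe_toAlgHom_injective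
      refine AlgHom.ext_of_adjoin_eq_top ha ?_
      rintro _ rfl
      simp only at hσ
      change ((FiniteField.frobeniusAlgEquivOfAlgebraic F K ^ i) ^ 2) (φ g) = φ g
      rw [sq, AlgEquiv.mul_apply, hσ, map_inv, map_inv₀, hσ, map_inv, inv_inv]
    · rintro rfl
      have e2 : φ g ^ 2 = 1 := by rw [← map_pow, show g ^ 2 = 1 by simpa using e, map_one]
      rw [← hd, ← Subalgebra.bot_eq_top_iff_finrank_eq_one, eq_top_iff, ← ha, Algebra.adjoin_le_iff]
      rintro _ rfl
      rcases sq_eq_one_iff.1 e2 with h | h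
      · rw [h]; exact one_mem _
      · rw [h]; exact neg_mem (one_mem _)
  · intro i hc
    obtain ⟨v, hv⟩ := exists_ne (0 : V)
    let T := LinearEquiv.ofBijective (orb ψ v) ⟨orb_inj ψ hv, orb_surj ψ hd hv⟩
    let σ := FiniteField.frobeniusAlgEquivOfAlgebraic F K ^ i
    have hT : ∀ h x, T.symm (ρ h x) = φ h * T.symm x := fun h x => by
      obtain ⟨c, rfl⟩ := T.surjective x
      rw [T.symm_apply_apply, LinearEquiv.symm_apply_eq]
      change ρ h (ψ c v) = ψ (φ h * c) v
      rw [map_mul, hφ, End.mul_apply]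
    have nd := traceForm_nondegenerate F K
    refine ⟨(Algebra.traceForm F K).comp T.symm.toLinearMap (σ.toLinearMap.comp T.symm.toLinearMap), ⟨fun x hx => ?_, fun x hx => ?_⟩,
      fun h x y => ?_⟩
    · refine T.symm.injective ((nd.1 _ fun y => ?_).trans (map_zero _).symm)
      simpa using hx (T (σ.symm y))
    · refine T.symm.injective (σ.injective ((nd.2 _ fun y => ?_).trans (by simp)))
      simpa using hx (T y)
    · have : φ h * σ (φ h) = 1 := by
        rw [frob_pow, ← pow_succ', ← map_pow, ← map_one φ]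
        obtain ⟨k, hk⟩ := hc
        rw [hk, pow_mul, pow_card_eq_one', one_pow]
      change Algebra.trace F K (T.symm (ρ h x) * σ (T.symm (ρ h y))) = Algebra.trace F K (T.symm x * σ (T.symm y))
      rw [hT, hT, map_mul σ, mul_mul_mul_comm, this, one_mul]

open scoped IsMulCommutative in
theorem setup {F V H : Type*} [Field F] [Fintype F] [AddCommGroup V] [Module F V] [Nontrivial V]
    [FiniteDimensional F V] [CommGroup H] [Finite H] (ρ : Representation F H V) (hfaith : Function.Injective ρ)
    (hirr : ∀ U : Submodule F V, (∀ h : H, ∀ u ∈ U, ρ h u ∈ U) → U = ⊥ ∨ U = ⊤) :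
    ((∃ B : LinearMap.BilinForm F V, B.Nondegenerate ∧ ∀ h : H, ∀ x y : V, B (ρ h x) (ρ h y) = B x y) →
      ∃ i < finrank F V, Nat.card H ∣ Fintype.card F ^ i + 1 ∧ finrank F V ∣ 2 * i ∧ (i = 0 → finrank F V = 1)) ∧
    (∀ i, Nat.card H ∣ Fintype.card F ^ i + 1 →
      ∃ B : LinearMap.BilinForm F V, B.Nondegenerate ∧ ∀ h : H, ∀ x y : V, B (ρ h x) (ρ h y) = B x y) := by
  let A := Algebra.adjoin F (Set.range ρ)
  have : IsMulCommutative A := Algebra.isMulCommutative_adjoin F (by
    rintro _ ⟨a, rfl⟩ _ ⟨b, rfl⟩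
    rw [← map_mul, ← map_mul, mul_comm])
  have m : ∀ h, ρ h ∈ A := fun h => Algebra.subset_adjoin ⟨h, rfl⟩
  have cm : ∀ a b : A, a.1 * b.1 = b.1 * a.1 := fun a b => congrArg Subtype.val (mul_comm a b)
  have inj : ∀ a : A, a ≠ 0 → Injective a.1 := fun a ha => by
    rcases hirr (LinearMap.ker a.1) (fun h u hu => by
      rw [LinearMap.mem_ker] at hu ⊢
      rw [← End.mul_apply, cm a ⟨_, m h⟩, End.mul_apply, hu, map_zero]) with e | e
    · exact LinearMap.ker_eq_bot.1 e
    · exact absurd (Subtype.ext (LinearMap.ker_eq_top.1 e)) ha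
  have : NoZeroDivisors A := ⟨fun {a b} hab => by
    by_contra! c
    obtain ⟨v, hv⟩ := exists_ne (0 : V)
    have : a.1 (b.1 v) = a.1 (b.1 0) := by
      rw [← End.mul_apply, ← End.mul_apply, show a.1 * b.1 = 0 from congrArg Subtype.val hab]; rfl
    exact hv (inj b c.2 (inj a c.1 this))⟩
  have : IsDomain A := NoZeroDivisors.to_isDomain A
  have : Finite V := Module.finite_of_finite F
  have : Finite (End F V) := Module.finite_of_finite F
  letI := (Finite.isField_of_domain A).toField
  obtain ⟨v, hv⟩ := exists_ne (0 : V)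
  have hd : finrank F A = finrank F V := by
    refine (LinearEquiv.ofBijective (orb A.val v) ⟨orb_inj _ hv, ?_⟩).finrank_eq
    rcases hirr (LinearMap.range (orb A.val v)) (by
      rintro h _ ⟨a, rfl⟩
      exact ⟨⟨_, m h⟩ * a, rfl⟩) with e | e
    · exact absurd ((Submodule.eq_bot_iff _).1 e v ⟨1, rfl⟩) hv
    · exact LinearMap.range_eq_top.1 e
  refine core ρ A.val hd (MonoidHom.codRestrict ρ A m) (fun _ => rfl) (fun a b h => hfaith (congrArg Subtype.val h)) ?_
  have := Algebra.adjoin_adjoin_coe_preimage (R := F) (s := Set.range ρ)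
  rw [← this]
  congr 1
  ext a
  exact ⟨fun ⟨h, e⟩ => ⟨h, congrArg Subtype.val e⟩, fun ⟨h, e⟩ => ⟨h, Subtype.ext e⟩⟩

/-- Let F be a finite field with r elements and of characteristic p, H a finite abelian group of order prime to p, and V a faithful irreducible representation of H over F of dimension n (faithful: distinct elements act differently; irreducible: the only H-invariant subspaces are 0 and V). Call V self-dual when it carries a nondegenerate H-invariant bilinear form. If n = 1 and V is self-dual then H has order at most 2. If n ≥ 2 then V is self-dual if and only if n is even and the order of H divides r^(n/2) + 1. -/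
theorem result {F : Type*} [Field F] [Fintype F] (p : ℕ) [Fact p.Prime] [CharP F p] {H : Type*} [CommGroup H] [Finite H] (hcop : ¬ p ∣ Nat.card H) {V : Type*} [AddCommGroup V] [Module F V] [FiniteDimensional F V] (ρ : Representation F H V) (hfaith : Function.Injective ρ) (hirr : ∀ U : Submodule F V, (∀ h : H, ∀ u ∈ U, ρ h u ∈ U) → U = ⊥ ∨ U = ⊤) : (Module.finrank F V = 1 → (∃ B : LinearMap.BilinForm F V, B.Nondegenerate ∧ ∀ h : H, ∀ x y : V, B (ρ h x) (ρ h y) = B x y) → Nat.card H ≤ 2) ∧ (2 ≤ Module.finrank F V → ((∃ B : LinearMap.BilinForm F V, B.Nondegenerate ∧ ∀ h : H, ∀ x y : V, B (ρ h x) (ρ h y) = B x y) ↔ (Even (Module.finrank F V) ∧ Nat.card H ∣ Fintype.card F ^ (Module.finrank F V / 2) + 1))) := by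
  refine ⟨fun h1 hB => ?_, fun h2 => ?_⟩
  · have : Nontrivial V := nontrivial_of_finrank_pos (R := F) (by omega)
    obtain ⟨i, lt, d, -⟩ := (setup ρ hfaith hirr).1 hB
    obtain rfl : i = 0 := by omega
    exact Nat.le_of_dvd (by norm_num) (by simpa using d)
  · have : Nontrivial V := nontrivial_of_finrank_pos (R := F) (by omega)
    refine ⟨fun hB => ?_, fun h => (setup ρ hfaith hirr).2 _ h.2⟩
    obtain ⟨i, lt, d, ⟨k, hk⟩, h0⟩ := (setup ρ hfaith hirr).1 hB
    have e : finrank F V = 2 * i := by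
      rcases k with _ | _ | k
      · omega
      · omega
      · nlinarith
    rw [e]
    exact ⟨even_two_mul i, by rwa [Nat.mul_div_cancel_left _ two_pos]⟩


end Cfsg.Agent.S4967
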