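import Cfsg.Statements.S5014
import Cfsg.Agent.RS.B

set_option autoImplicit false
open Cfsg

namespace Cfsg.Agent.S5014

open RS Cfsg Subgroup

/-- Let X = ⟨A, B⟩ be a rank one group with unipotent subgroups A and B and let Ω be the set of conjugates of A under X. Then Ω has at least three members, X acts doubly transitively on Ω by conjugation (any two ordered pairs of distinct members are carried to one another by a single element of X), and A acts regularly on Ω with A removed: for C, D in Ω different from A there is exactly one element of A conjugating C to D. -/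
theorem result {G : Type*} [Group G] {A B : Subgroup G} (h : Cfsg.IsRankOnePair A B) :
    (∃ C₁ ∈ Cfsg.unipotentSubgroups A B, ∃ C₂ ∈ Cfsg.unipotentSubgroups A B, ∃ C₃ ∈ Cfsg.unipotentSubgroups A B,
      C₁ ≠ C₂ ∧ C₁ ≠ C₃ ∧ C₂ ≠ C₃) ∧
    (∀ C₁ ∈ Cfsg.unipotentSubgroups A B, ∀ C₂ ∈ Cfsg.unipotentSubgroups A B, ∀ D₁ ∈ Cfsg.unipotentSubgroups A B,
      ∀ D₂ ∈ Cfsg.unipotentSubgroups A B, C₁ ≠ C₂ → D₁ ≠ D₂ →
        ∃ x ∈ A ⊔ B, Cfsg.conjBy C₁ x = D₁ ∧ Cfsg.conjBy C₂ x = D₂) ∧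
    (∀ C ∈ Cfsg.unipotentSubgroups A B, ∀ D ∈ Cfsg.unipotentSubgroups A B, C ≠ A → D ≠ A →
      ∃! a : G, a ∈ A ∧ Cfsg.conjBy C a = D) := by
  have h' : R1 A B := h
  refine ⟨?_, fun C hC C' hC' D hD D' hD' e e' => ?_, fun C hC D hD e e' => ?_⟩
  · obtain ⟨a, ha, b, hb, a1, b1, e⟩ := h'.ex
    exact ⟨A, Om_left, B, h'.Om_right, _, Om_cj Om_left (mem_sup_right hb), h.ne,
      (h'.symm.cj_pair hb b1).ne, e ▸ (h'.cj_pair ha a1).ne⟩
  · obtain ⟨x, hx, rfl, rfl⟩ := h'.two hC hC' e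
    obtain ⟨y, hy, rfl, rfl⟩ := h'.two hD hD' e'
    exact ⟨y * x⁻¹, mul_mem hy (inv_mem hx), by simp [cj_cj], by simp [cj_cj]⟩
  · obtain ⟨a, ha, rfl⟩ := (h'.mem_Om.1 hC).resolve_left e
    obtain ⟨c, hc, rfl⟩ := (h'.mem_Om.1 hD).resolve_left e'
    refine ⟨c * a⁻¹, ⟨mul_mem hc (inv_mem ha), by simp [cj_cj]⟩, fun y hy => ?_⟩
    exact eq_mul_inv_of_mul_eq (h'.uniq (mul_mem hy.1 ha) hc (cj_cj.symm.trans hy.2))

end Cfsg.Agent.S5014
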