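import Cfsg.Statements.S5015
import Cfsg.Agent.RS.B

set_option autoImplicit false
open Cfsg

namespace Cfsg.Agent.S5015

open RS Cfsg Subgroup MulAction

/-- Let a group Y act doubly transitively on a set Ω with at least three points, and suppose that the stabilizer of a point α contains a nilpotent subgroup A, normalized by that stabilizer, which acts regularly on the points other than α. Then for any y in Y moving α, the subgroups A and y A y⁻¹ are the unipotent subgroups of a rank one group, and the normal closure of A in Y (the subgroup generated by all conjugates of A) is generated by A and y A y⁻¹ alone. -/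
theorem result {Y Ω : Type*} [Group Y] [MulAction Y Ω]
    (h2 : MulAction.IsMultiplyPretransitive Y Ω 2) (hΩ : 3 ≤ ENat.card Ω) (α : Ω) (A : Subgroup Y)
    (hA : A ≤ MulAction.stabilizer Y α) (hAn : ∀ y ∈ MulAction.stabilizer Y α, Cfsg.conjBy A y = A)
    (hnil : Group.IsNilpotent A) (hreg : ∀ β γ : Ω, β ≠ α → γ ≠ α → ∃! a : Y, a ∈ A ∧ a • β = γ)
    (y : Y) (hy : y ∉ MulAction.stabilizer Y α) :
    Cfsg.IsRankOnePair A (Cfsg.conjBy A y) ∧ Subgroup.normalClosure (A : Set Y) = A ⊔ Cfsg.conjBy A y := by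
  haveI : IsPretransitive Y Ω := isPretransitive_of_is_two_pretransitive
  have well : ∀ u v : Y, u • α = v • α → conjBy A u = conjBy A v := fun u v e => by
    rw [← mul_inv_cancel_left v u, ← cj_cj, hAn _ (by rw [mem_stabilizer_iff, mul_smul, e, inv_smul_smul])]
  have reg : ∀ (u : Y) β γ, β ≠ u • α → γ ≠ u • α → ∃ a ∈ conjBy A u, a • β = γ := fun u β γ h1 h2 => by
    obtain ⟨a, ⟨ha, e⟩, -⟩ := hreg (u⁻¹ • β) (u⁻¹ • γ) (by simpa [inv_smul_eq_iff] using h1)
      (by simpa [inv_smul_eq_iff] using h2)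
    exact ⟨_, cj_mem ha u, by rw [mul_smul, mul_smul, e, smul_inv_smul]⟩
  have fix : ∀ u : Y, ∀ a ∈ conjBy A u, a • u • α = u • α := by
    rintro u _ ⟨a, ha, rfl⟩
    simp [mul_smul, show a • α = α from hA ha]
  have one : ∀ u : Y, ∀ a ∈ conjBy A u, ∀ β, β ≠ u • α → a • β = β → a = 1 := by
    rintro u _ ⟨a, ha, rfl⟩ β h1 h2
    have := (hreg (u⁻¹ • β) (u⁻¹ • β) (by simpa [inv_smul_eq_iff] using h1)
      (by simpa [inv_smul_eq_iff] using h1)).unique (y₁ := a) (y₂ := 1)
      ⟨ha, by simpa [mul_smul, smul_eq_iff_eq_inv_smul] using h2⟩ ⟨one_mem _, one_smul _ _⟩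
    simp [this]
  have cond : ∀ u v : Y, u • α ≠ v • α → RankOneCondition (conjBy A u) (conjBy A v) :=
    fun u v e a ha a1 => by
      have h1 : a⁻¹ • v • α ≠ v • α := fun e' => a1 (inv_eq_one.1 (one u _ (inv_mem ha) _ e.symm e'))
      obtain ⟨b, hb, e'⟩ := reg v (a⁻¹ • v • α) (u • α) h1 e
      refine ⟨b, hb, ?_, ?_⟩
      · rintro rfl
        rw [one_smul, inv_smul_eq_iff, fix u a ha] at e'
        exact e e'.symm
      · rw [cj_cj, cj_cj]
        exact well _ _ (by rw [mul_smul, mul_smul, ← e', inv_smul_smul])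
  have hy' : (1 : Y) • α ≠ y • α := fun e => hy (by simpa using e.symm)
  refine ⟨⟨fun e => ?_, hnil, nilpotent_of_mulEquiv (A.equivMapOfInjective _ (MulAut.conj y).injective),
    by simpa using cond 1 y hy', by simpa using cond y 1 hy'.symm⟩, le_antisymm ?_ (sup_le
      le_normalClosure ((cj_mono le_normalClosure).trans
        (cj_eq_iff.2 (normalizer_eq_top (normalClosure (A : Set Y)) ▸ mem_top y)).le))⟩
  · obtain ⟨γ, h1, h2⟩ : ∃ γ, γ ≠ α ∧ γ ≠ y • α := by
      by_contra! hc
      have : (Set.univ : Set Ω) ⊆ {α, y • α} := fun γ _ => (em (γ = α)).imp_right (hc γ)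
      have h3 := (Set.encard_le_encard this).trans (Set.encard_insert_le _ _)
      rw [Set.encard_univ, Set.encard_singleton] at h3
      exact absurd (hΩ.trans h3) (by decide)
    obtain ⟨a, ha, e'⟩ := reg 1 (y • α) γ hy'.symm (by simpa)
    rw [cj_one, e] at ha
    exact h2 (e'.symm.trans (fix y a ha))
  · have : ∀ u, conjBy A u ≤ A ⊔ conjBy A y := fun u => by
      by_cases e : u • α = (1 : Y) • α
      · rw [well _ _ e, cj_one]; exact le_sup_left
      · obtain ⟨a, ha, e'⟩ := reg 1 (y • α) (u • α) hy'.symm e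
        rw [well u (a * y) (by rw [mul_smul, e']), ← cj_cj]
        exact cj_le le_sup_right (mem_sup_left (cj_one (A := A) ▸ ha))
    refine (closure_le _).2 fun x hx => ?_
    obtain ⟨a, ha, h⟩ := Group.mem_conjugatesOfSet_iff.1 hx
    obtain ⟨c, rfl⟩ := isConj_iff.1 h
    exact this c (cj_mem ha c)

end Cfsg.Agent.S5015
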