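import Cfsg.Statements.S5017
import Cfsg.Agent.RS.B

set_option autoImplicit false
open Cfsg

namespace Cfsg.Agent.S5017

open RS Cfsg Subgroup

/-- Let X be a rank one group with unipotent subgroups A and B and N a normal subgroup of X. Then either X = N A or N lies in the centre of X. Consequently a perfect rank one group is quasisimple. -/
theorem result {X : Type*} [Group X] {A B : Subgroup X} (h : Cfsg.IsRankOneGroup X A B) :
    (∀ N : Subgroup X, N.Normal → N ⊔ A = ⊤ ∨ N ≤ Subgroup.center X) ∧
    (Group.IsPerfect X → Cfsg.IsQuasisimple X) := by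
  have h' : R1 A B := h.2
  have k : ∀ N : Subgroup X, N.Normal → N ⊔ A = ⊤ ∨ N ≤ Subgroup.center X := fun N hN => by
    rcases h'.normal (N := N) (h.1 ▸ le_top) (fun x _ => cj_eq_iff.2 (normalizer_eq_top N ▸ mem_top x)) with h1 | h1
    · exact .inr fun n hn => mem_center_iff.2 fun x => (h1 n hn x (h.1 ▸ mem_top x)).symm
    · exact .inl (eq_top_iff.2 (h.1 ▸ sup_le le_sup_right h1))
  refine ⟨k, fun hp => ⟨hp, ?_⟩⟩
  have nz : center X ≠ ⊤ := fun e => h'.not_comm (comm_iff.2 fun a _ b _ =>
    mem_center_iff.1 (e ▸ mem_top b) a)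
  haveI : Nontrivial (X ⧸ center X) := QuotientGroup.nontrivial_iff.2 nz
  refine ⟨fun M hM => (k _ (hM.comap (QuotientGroup.mk' _))).symm.imp (fun h1 => ?_) fun h1 => ?_⟩
  · refine eq_bot_iff.2 fun m hm => ?_
    obtain ⟨x, rfl⟩ := QuotientGroup.mk_surjective m
    exact (QuotientGroup.eq_one_iff x).2 (h1 hm)
  · set N := M.comap (QuotientGroup.mk' (center X))
    haveI : N.Normal := hM.comap _
    haveI := h'.nilpotent_left
    have hs : Function.Surjective ((QuotientGroup.mk' N).comp A.subtype) := fun y => by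
      obtain ⟨x, rfl⟩ := QuotientGroup.mk_surjective y
      obtain ⟨n, hn, a, ha, rfl⟩ := mem_sup_of_normal_left.1 (h1 ▸ mem_top x)
      exact ⟨⟨a, ha⟩, by simp [(QuotientGroup.eq_one_iff n).2 hn]⟩
    haveI := nilpotent_of_surjective _ hs
    haveI : Subsingleton (X ⧸ N) := by
      by_contra hc
      haveI := not_subsingleton_iff_nontrivial.1 hc
      exact Group.IsPerfect.not_isNilpotent (X ⧸ N) inferInstance
    refine eq_top_iff.2 fun m _ => ?_
    obtain ⟨x, rfl⟩ := QuotientGroup.mk_surjective m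
    exact (QuotientGroup.eq_one_iff (N := N) x).1 (Subsingleton.elim _ _)

end Cfsg.Agent.S5017
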