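import Cfsg.Statements.S5018
import Cfsg.Agent.RS.B

set_option autoImplicit false
open Cfsg

namespace Cfsg.Agent.S5018

open RS Cfsg Subgroup

/-- A rank one group is not nilpotent, and its second centre equals its centre. -/
theorem result {X : Type*} [Group X] {A B : Subgroup X} (h : Cfsg.IsRankOneGroup X A B) :
    Subgroup.upperCentralSeries X 2 = Subgroup.center X ∧ ¬ Group.IsNilpotent X := by
  have h' : R1 A B := h.2
  have k : Subgroup.upperCentralSeries X 2 = center X := by
    refine le_antisymm (fun x hx => ?_) (Subgroup.upperCentralSeries_one X ▸ Subgroup.upperCentralSeries_mono X one_le_two)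
    have hz : ∀ y, x * y * x⁻¹ * y⁻¹ ∈ center X := fun y => by
      simpa [commutatorElement_def] using Subgroup.mem_upperCentralSeries_succ_iff.1 hx y
    have zc : ∀ z ∈ center X, ∀ C : Subgroup X, conjBy C z = C := fun z hz C =>
      cj_of_comm fun c _ => mem_center_iff.1 hz c
    have : ∀ {A B : Subgroup X}, R1 A B → A ⊔ B = ⊤ → ∀ a ∈ A, x * a = a * x := by
      intro A B h' e a ha
      have h1 : conjBy A x = A := by
        by_contra hc
        have h2 := h'.pair (Om_cj Om_left (e ▸ mem_top x)) Om_left hc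
        obtain ⟨_, ⟨u, hu, rfl⟩, u1⟩ := exists_ne_one h2.ne_bot
        refine u1 (h2.norm ⟨u, hu, rfl⟩ ?_)
        change conjBy A (x * u * x⁻¹) = A
        rw [← inv_mul_cancel_right (x * u * x⁻¹) u, ← cj_cj, cj_self hu, zc _ (hz u)]
      rw [← commutatorElement_eq_one_iff_mul_comm]
      exact h'.norm (mul_mem (h1 ▸ cj_mem ha x) (inv_mem ha)) (zc _ (hz a) B)
    exact mem_center_iff.2 fun y => (comm_elt (this h' h.1) (this h'.symm (sup_comm A B ▸ h.1)) y
      (h.1 ▸ mem_top y)).symm
  refine ⟨k, fun hn => ?_⟩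
  have : ∀ n, Subgroup.upperCentralSeries X (n + 1) = center X := fun n => by
    induction n with
    | zero => exact Subgroup.upperCentralSeries_one X
    | succ n ih =>
      rw [← k]; ext x
      rw [Subgroup.mem_upperCentralSeries_succ_iff, Subgroup.mem_upperCentralSeries_succ_iff, ih,
        Subgroup.upperCentralSeries_one]
  obtain ⟨n, hn⟩ := hn.nilpotent
  have e : center X = ⊤ := eq_top_iff.2 (hn ▸ this n ▸ Subgroup.upperCentralSeries_mono X n.le_succ)
  exact h'.not_comm (comm_iff.2 fun a _ b _ => mem_center_iff.1 (e ▸ mem_top b) a)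

end Cfsg.Agent.S5018
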