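import Cfsg.Statements.S5020
import Cfsg.Agent.RS.Sp2
import Cfsg.Agent.S5017

set_option autoImplicit false
open Cfsg

namespace Cfsg.Agent.S5020

open RS Cfsg Subgroup
open scoped commutatorElement

/-- Let X be a special rank one group with abelian unipotent subgroups A and B, and H = N(A) ∩ N(B) its diagonal subgroup. Then either A has at most three elements and X is isomorphic to SL₂(2), SL₂(3) or PSL₂(3); or X = X' A with the commutator subgroup X' quasisimple and the commutator subgroup ⁅A, H⁆ having more than three elements. -/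
theorem result {X : Type*} [Group X] {A B : Subgroup X} (h : Cfsg.IsRankOneGroup X A B)
    (hs : Cfsg.IsSpecialRankOnePair A B) (hab : Cfsg.HasAbelianUnipotents A B) :
    (ENat.card A ≤ 3 ∧ (Nonempty (X ≃* Matrix.SpecialLinearGroup (Fin 2) (ZMod 2)) ∨
        Nonempty (X ≃* Matrix.SpecialLinearGroup (Fin 2) (ZMod 3)) ∨
        Nonempty (X ≃* Matrix.ProjectiveSpecialLinearGroup (Fin 2) (ZMod 3)))) ∨
    (commutator X ⊔ A = ⊤ ∧ Cfsg.IsQuasisimple (commutator X) ∧
      3 < ENat.card ↥(⁅A, Cfsg.rankOneDiagonal A B⁆ : Subgroup X)) := by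
  have hs' : Sp A B := hs
  have h1 : R1 A B := h.2
  by_cases hc : ENat.card A ≤ 3
  · refine .inl ⟨hc, ?_⟩
    haveI : Finite A := ENat.card_lt_top.1 (hc.trans_lt (by decide))
    rw [ENat.card_eq_coe_natCard] at hc
    have hc' : Nat.card A ≤ 3 := by exact_mod_cast hc
    have := (Subgroup.one_lt_card_iff_ne_bot A).2 h1.ne_bot
    have key : ∀ p [Fact p.Prime], Nat.card A = p → ∃ φ : Matrix.SpecialLinearGroup (Fin 2) (ZMod p) →* X,
        φ.range = ⊤ ∧ ∀ g, φ g = 1 → g = 1 ∨ g = -1 := fun p _ hp => by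
      obtain ⟨a, ha, a1⟩ := exists_ne_one h1.ne_bot
      obtain ⟨φ, h2, h3⟩ := hs'.psl (p := p) hab ha a1 (by
        simpa [hp] using congrArg Subtype.val (pow_card_eq_one' (x := (⟨a, ha⟩ : A))))
      refine ⟨φ, ?_, h3⟩
      have hA : A ≤ closure {a, bt A B a} := fun x hx => by
        obtain ⟨k, hk⟩ := mem_zpowers_of_prime_card hp (g := ⟨a, ha⟩) (g' := ⟨x, hx⟩)
          (by simpa using a1)
        rw [← show a ^ k = x from congrArg Subtype.val hk]
        exact zpow_mem (subset_closure (by simp)) k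
      rw [h2, eq_top_iff, ← h.1]
      refine sup_le hA ((hs'.cj_nn ha a1).ge.trans (cj_le hA (mul_mem (mul_mem (hA ha)
        (inv_mem (subset_closure (by simp)))) (hA ha))))
    interval_cases hp : Nat.card A
    · obtain ⟨φ, h2, h3⟩ := key 2 rfl
      exact .inl ⟨(MulEquiv.ofBijective φ ⟨(injective_iff_map_eq_one φ).2 fun g hg =>
        (h3 g hg).elim id fun e => e.trans (by decide), MonoidHom.range_eq_top.1 h2⟩).symm⟩
    · obtain ⟨φ, h2, h3⟩ := key 3 rfl
      have := iso_of_ker φ h3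
      rw [h2] at this
      exact .inr (this.imp (fun ⟨e⟩ => ⟨topEquiv.symm.trans e⟩) fun ⟨_, ⟨e⟩⟩ => ⟨topEquiv.symm.trans e⟩)
  have hc := not_le.1 hc
  haveI := hab.1
  have cA : ∀ x ∈ A, ∀ y ∈ A, x * y = y * x := fun x hx y hy =>
    congrArg Subtype.val (hab.1.is_comm.comm ⟨x, hx⟩ ⟨y, hy⟩)
  have hA : A ≤ ⁅A, rankOneDiagonal A B⁆ := fun c hc' => by
    by_cases c1 : c = 1
    · rw [c1]; exact one_mem _
    obtain ⟨s, hs⟩ : ∃ s, ∀ b ∈ A, b * b = c → b = s := by
      by_cases e : ∃ s ∈ A, s * s = c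
      · obtain ⟨s, i, rfl⟩ := e
        refine ⟨s, fun b j k => ?_⟩
        by_contra l
        have m := mul_mem j (inv_mem i)
        have l' : b * s⁻¹ ≠ 1 := fun e => l (mul_inv_eq_one.1 e)
        have e2 : (b * s⁻¹) ^ 2 = 1 := by
          rw [sq, mul_assoc, ← mul_assoc s⁻¹, cA _ (inv_mem i) b j]
          simp [← mul_assoc, k]
        rcases hs'.dich hab with ⟨p, hp, -, e3⟩ | ⟨e3, -⟩
        · haveI := Fact.mk hp
          rw [← orderOf_eq_prime (e3 _ m) l', orderOf_eq_prime e2 l'] at e3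
          exact c1 (sq s ▸ e3 s i)
        · exact e3 _ m l' (isOfFinOrder_iff_pow_eq_one.2 ⟨2, two_pos, e2⟩)
      · exact ⟨1, fun b i j => absurd ⟨b, i, j⟩ e⟩
    obtain ⟨b, hb, b1, bc, bs⟩ : ∃ b ∈ A, b ≠ 1 ∧ b ≠ c ∧ b ≠ s := by
      by_contra! k
      have : (A : Set X) ⊆ {1, c, s} := fun b hb => by
        by_cases i : b = 1
        · simp [i]
        by_cases j : b = c
        · simp [j]
        simp [k b hb i j]
      have h3 := (Set.encard_le_encard this).trans ((Set.encard_insert_le _ _).trans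
        (add_le_add_left (Set.encard_insert_le _ _) _))
      rw [Set.encard_singleton] at h3
      exact absurd (hc.trans_le h3) (by decide)
    have hx : c * b⁻¹ * b⁻¹ ∈ A := mul_mem (mul_mem hc' (inv_mem hb)) (inv_mem hb)
    have x1 : c * b⁻¹ * b⁻¹ ≠ 1 := fun e => bs (hs b hb (by
      rw [← one_mul (b * b), ← e]; group))
    have xb : c * b⁻¹ * b⁻¹ * b ≠ 1 := fun e => bc (by rw [← one_mul b, ← e]; group)
    have e := hs'.hua hab hb b1 hx x1 xb
    have m := mul_mem hx hb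
    have i1 := hs'.mu_mem hb b1 hx x1
    set x := c * b⁻¹ * b⁻¹
    have i2 : (nn A B (x * b)⁻¹)⁻¹ * nn A B b ∈ rankOneDiagonal A B :=
      ⟨⟨(A ⊔ B).mul_mem (inv_mem (hs'.nn_mem (inv_mem m) (inv_ne_one.2 xb))) (hs'.nn_mem hb b1),
        cj_eq_iff.1 (by rw [← cj_cj, hs'.cj_nn hb b1, hs'.cj_nn_inv' (inv_mem m) (inv_ne_one.2 xb)])⟩,
        cj_eq_iff.1 (by rw [← cj_cj, hs'.cj_nn' hb b1, hs'.cj_nn_inv (inv_mem m) (inv_ne_one.2 xb)])⟩
    have := commutator_mem_commutator (inv_mem i1) i2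
    rw [show ⁅(mu A B b x)⁻¹, (nn A B (x * b)⁻¹)⁻¹ * nn A B b⁆ = (mu A B b x)⁻¹ * mu A B (x * b)⁻¹ x by
      simp only [commutatorElement_def, mu]; group, e,
      show (mu A B b x)⁻¹ * (mu A B b x * b⁻¹ * (x * b)⁻¹) = c⁻¹ by
        simp only [x]; group, inv_mem_iff] at this
    exact this
  have hA' : A ≤ commutator X := hA.trans (commutator_mono le_top le_top)
  obtain ⟨w, -, e, -⟩ := h1.exists_swap
  have e' : commutator X = ⊤ := eq_top_iff.2 (h.1 ▸ sup_le hA' (e ▸ (cj_mono hA').trans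
    (cj_eq_iff.2 (normalizer_eq_top (commutator X) ▸ mem_top w)).le))
  refine .inr ⟨by simp [e'], ?_, hc.trans_le (Set.encard_le_encard hA)⟩
  obtain ⟨i, j⟩ := (Cfsg.Agent.S5017.result h).2 ⟨e'⟩
  rw [e']
  exact ⟨inferInstance, (QuotientGroup.congr _ (center X) topEquiv (by
    ext x; simp [mem_center_iff])).isSimpleGroup⟩

end Cfsg.Agent.S5020
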