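import Cfsg.Statements.S5023
import Cfsg.Agent.RS.Q

set_option autoImplicit false
open Cfsg

namespace Cfsg.Agent.S5023

open RS Cfsg Subgroup

/-- Let X be a rank one group with unipotent subgroups A and B that acts faithfully on an abelian group V (written additively) with A acting quadratically: a' • (a • v − v) = a • v − v for all a, a' in A and v in V. Then A is either torsion-free or an elementary abelian p-group for some prime p. -/
theorem result {X : Type*} [Group X] {A B : Subgroup X} (h : Cfsg.IsRankOneGroup X A B)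
    {V : Type*} [AddCommGroup V] [DistribMulAction X V] (hf : ∀ x : X, (∀ v : V, x • v = v) → x = 1)
    (hq : ∀ a ∈ A, ∀ a' ∈ A, ∀ v : V, a' • (a • v - v) = a • v - v) :
    (∀ a ∈ A, a ≠ 1 → ¬ IsOfFinOrder a) ∨ ∃ p : ℕ, p.Prime ∧ Cfsg.IsElementaryAbelian p A := by
  have Q : QM A B fun x => DistribSMul.toAddMonoidHom V x :=
    ⟨h.2, fun x _ y _ v => mul_smul x y v, one_smul X, hq⟩
  have cm : ∀ x y : X, (∀ v : V, y • (x • v - v) = x • v - v) → (∀ v : V, x • (y • v - v) = y • v - v) →
      x * y = y * x := fun x y h1 h2 => by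
    rw [← mul_inv_eq_one]
    refine hf _ fun v => ?_
    obtain ⟨v, rfl⟩ := (MulAction.toPerm (y * x)).surjective v
    change _ • (y * x) • v = (y * x) • v
    have e1 := h1 v
    have e2 := h2 v
    rw [smul_sub] at e1 e2
    rw [mul_smul, inv_smul_smul, mul_smul, mul_smul]
    linear_combination (norm := abel) e2 - e1
  have pw : ∀ a ∈ A, ∀ (n : ℕ) (v : V), a ^ n • v = v + n • (a • v - v) := fun a ha n v => by
    induction n with
    | zero => simp
    | succ n ih => rw [pow_succ', mul_smul, ih, smul_add, smul_comm, hq a ha a ha, succ_nsmul]; abel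
  by_contra! hc
  obtain ⟨⟨c, hc1, c1, hc2⟩, hc3⟩ := hc
  obtain ⟨p, hp, hd⟩ := Nat.exists_prime_and_dvd (mt orderOf_eq_one_iff.1 c1)
  have ho := orderOf_pow_orderOf_div hc2.orderOf_pos.ne' hd
  set a := c ^ (orderOf c / p)
  have ha : a ∈ A := pow_mem hc1 _
  have a1 : a ≠ 1 := fun e => hp.one_lt.ne (by rw [← ho, e, orderOf_one])
  obtain ⟨b, hb, -, e⟩ := h.2.cond_left a ha a1
  refine hc3 p hp ⟨⟨⟨fun x y => Subtype.ext (cm _ _ (hq _ x.2 _ y.2) (hq _ y.2 _ x.2))⟩⟩,
    fun x hx => ?_⟩
  by_contra x1
  have k := Q.symm.triv (pow_mem hx p) x1 fun q hq' => by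
    have k1 := Q.symm.key hb ha e.symm hq' x (mem_sup_right hx)
    have k2 : p • (a • q - q) = 0 := by
      have := pw a ha p q
      rw [← ho, pow_orderOf_eq_one, one_smul, ho] at this
      simpa using this
    change x • (q - (b • (a • q - q) - (a • q - q))) = q - (b • (a • q - q) - (a • q - q)) at k1
    have k3 := congrArg (p • ·) k1
    simp only [smul_sub p q, smul_sub p (b • _), smul_comm p x, smul_comm p b, k2] at k3
    change x ^ p • q = q
    rw [pw x hx, smul_sub, smul_comm p x]
    simpa [sub_eq_zero] using k3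
  rw [sup_comm, h.1] at k
  exact R1.not_comm h.2 (comm_iff.2 fun x _ y _ => cm x y (fun v => k x trivial v y trivial)
    fun v => k y trivial v x trivial)

end Cfsg.Agent.S5023
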