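import Cfsg.Statements.S5024
import Cfsg.Agent.RS.R

set_option autoImplicit false
open Cfsg

namespace Cfsg.Agent.S5024

open RS Cfsg Subgroup

/-- Let S be a set of abstract root subgroups of G, A and C members of S, B a rank one partner of A in S and D a rank one partner of C in S. If the rank one group ⟨A, B⟩ is contained in ⟨C, D⟩ then the two coincide, and C and D are conjugates of A inside ⟨A, B⟩. -/
theorem result {G : Type*} [Group G] {S : Set (Subgroup G)} (hS : Cfsg.IsRootSubgroupSet S)
    {A B C D : Subgroup G} (hA : A ∈ S) (hC : C ∈ S) (hB : B ∈ Cfsg.rankOnePartners S A) (hD : D ∈ Cfsg.rankOnePartners S C)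
    (hle : A ⊔ B ≤ C ⊔ D) : A ⊔ B = C ⊔ D ∧ C ∈ Cfsg.unipotentSubgroups A B ∧ D ∈ Cfsg.unipotentSubgroups A B := by
  have h1 : R1 A B := hB.2
  have h2 : R1 C D := hD.2
  have i := Rt.mem_Om hS hA hC h2 (le_sup_left.trans hle) fun e =>
    h1.not_comm (comm_mono e le_rfl (le_sup_right.trans hle))
  have j := Rt.mem_Om hS hB.1 hC h2 (le_sup_right.trans hle) fun e =>
    h1.symm.not_comm (comm_mono e le_rfl (le_sup_left.trans hle))
  have := h2.pair_Om i j h1.ne
  exact ⟨h2.pair_sup i j h1.ne, this.ge Om_left, this.ge h2.Om_right⟩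

end Cfsg.Agent.S5024
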