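import Cfsg.Statements.S5026
import Cfsg.Agent.RS.R

set_option autoImplicit false
open Cfsg

namespace Cfsg.Agent.S5026

open RS Cfsg Subgroup

/-- Let S be a degenerate set of abstract root subgroups of G (a set of abstract transvection groups) and let a, b be commuting non-identity elements of members of S with a b ≠ 1. Then the members of S centralizing a b are exactly those centralizing both a and b. -/
theorem result {G : Type*} [Group G] {S : Set (Subgroup G)} (hS : Cfsg.IsRootSubgroupSet S) (hdeg : Cfsg.IsDegenerateRootSet S)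
    {a b : G} (ha : a ∈ Cfsg.rootElements S) (hb : b ∈ Cfsg.rootElements S) (hab : a * b = b * a) (hab1 : a * b ≠ 1) :
    Cfsg.centralizingMembers S (Subgroup.zpowers (a * b)) =
      Cfsg.centralizingMembers S (Subgroup.zpowers a) ∩ Cfsg.centralizingMembers S (Subgroup.zpowers b) := by
  have k : ∀ (C : Subgroup G) x, C ≤ centralizer (zpowers x : Set G) ↔ ∀ c ∈ C, c * x = x * c :=
    fun C x => by
      rw [← Subgroup.le_centralizer_iff, zpowers_le]; rfl
  have key : ∀ {a b : G}, a ∈ rootElements S → b ∈ rootElements S → a * b = b * a → a * b ≠ 1 →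
      ∀ C ∈ S, (∀ c ∈ C, c * (a * b) = a * b * c) → ∀ c ∈ C, c * a = a * c := by
    rintro a b ⟨a1, A, hA, ha⟩ ⟨b1, B, hB, hb⟩ hab hab1 C hC h
    by_contra hc
    have r : ∀ {a A}, A ∈ S → a ∈ A → ¬ (∀ c ∈ C, c * a = a * c) → R1 A C := fun hA ha hc =>
      ((hS.pair _ hA C hC).resolve_left fun e => hc fun c i => (cen_of e ha i).symm).resolve_right
        (hdeg _ hA C hC)
    have h1 := r hA ha hc
    have h2 := r hB hb fun e => hc fun c i => mul_right_cancel (b := b) (by
      rw [mul_assoc, h c i, mul_assoc, ← e c i, mul_assoc])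
    have e : conjBy C b = conjBy C a⁻¹ := by
      rw [← inv_mul_cancel_left a b, ← cj_cj, cj_of_comm h]
    obtain ⟨c, hc, -, e1⟩ := h1.left (inv_mem ha) (inv_ne_one.2 a1)
    obtain ⟨c', hc', -, e2⟩ := h2.left hb b1
    have i : B ∈ Om A C := cj_swap (e1.trans (e.symm.trans e2.symm)) ▸
      Om_cj Om_left (mem_sup_right (mul_mem (inv_mem hc') hc))
    by_cases e3 : B = A
    · exact hab1 (h1.norm (mul_mem ha (e3 ▸ hb)) (cj_of_comm h))
    · have := (h1.pair i Om_left e3).cj_pair hb b1
      exact a1 (this.inf ha (by rw [mem_cj, mul_assoc, hab]; simpa))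
  ext C
  simp only [centralizingMembers, Set.mem_inter_iff, Set.mem_setOf_eq, k]
  refine ⟨fun ⟨i, j⟩ => ⟨⟨i, key ha hb hab hab1 C i j⟩, i, key hb ha hab.symm (hab ▸ hab1) C i
    (hab ▸ j)⟩, fun ⟨⟨i, j⟩, _, l⟩ => ⟨i, fun c hc => by
      rw [← mul_assoc, j c hc, mul_assoc, l c hc, mul_assoc]⟩⟩

end Cfsg.Agent.S5026
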