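import Cfsg.Statements.S5027
import Cfsg.Agent.RS.R

set_option autoImplicit false
open Cfsg

namespace Cfsg.Agent.S5027

open RS Cfsg

/-- Let S be a set of abstract root subgroups of G such that every member of S has a rank one partner in S (the graph of rank one pairs on S has no isolated vertex). Then the second centre of G equals its centre. -/
theorem result {G : Type*} [Group G] {S : Set (Subgroup G)} (hS : Cfsg.IsRootSubgroupSet S)
    (hF : ∀ A ∈ S, ¬ Cfsg.IsIsolatedIn (Cfsg.FAdj S) S A) : Subgroup.upperCentralSeries G 2 = Subgroup.center G := by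
  refine le_antisymm (fun x hx => ?_)
    (Subgroup.upperCentralSeries_one G ▸ Subgroup.upperCentralSeries_mono G one_le_two)
  have hz : ∀ y, x * y * x⁻¹ * y⁻¹ ∈ Subgroup.center G := fun y => by
    simpa [commutatorElement_def] using Subgroup.mem_upperCentralSeries_succ_iff.1 hx y
  have : (⨆ A ∈ S, A) ≤ Subgroup.centralizer {x} := iSup₂_le fun A hA a ha => by
    obtain ⟨-, B, hB, h⟩ := (ni_iff hA).1 (hF A hA)
    rw [Subgroup.mem_centralizer_singleton_iff]
    by_cases a1 : a = 1
    · simp [a1]
    have := Rt.cen hS hB h (fun y _ => (Subgroup.mem_center_iff.1 (hz a) y).symm) ha a1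
      (Rt.cj hS hA x) (by simpa using cj_mem ha x)
    exact (commutatorElement_eq_one_iff_mul_comm.1 this).symm
  rw [hS.generates] at this
  exact Subgroup.mem_center_iff.2 fun y => Subgroup.mem_centralizer_singleton_iff.1 (this trivial)

end Cfsg.Agent.S5027
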