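import Cfsg.Statements.S5029
import Cfsg.Agent.RS.R

set_option autoImplicit false
open Cfsg

namespace Cfsg.Agent.S5029

open RS Cfsg Subgroup
open scoped commutatorElement

/-- Let S be a set of abstract root subgroups of G, A ∈ S having a rank one partner in S, and B ∈ S with C = ⁅A, B⁆ ∈ S. Then the members of S contained in AC are the conjugates of A by elements of B together with C, they partition AC, the members of S inside AC partition AC so that A is a line partner of C, and for every non-identity a ∈ A the map b ↦ a⁻¹ b⁻¹ a b is an isomorphism from B onto C. -/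
theorem result {G : Type*} [Group G] {S : Set (Subgroup G)} (hS : Cfsg.IsRootSubgroupSet S)
    {A B : Subgroup G} (hA : ¬ Cfsg.IsIsolatedIn (Cfsg.FAdj S) S A) (hAS : A ∈ S) (hB : B ∈ S) (hC : ⁅A, B⁆ ∈ S) :
    Cfsg.membersIn S (A ⊔ ⁅A, B⁆) = (fun b : G => Cfsg.conjBy A b) '' (B : Set G) ∪ {⁅A, B⁆} ∧
    Cfsg.IsSubgroupPartition (A ⊔ ⁅A, B⁆) (Cfsg.membersIn S (A ⊔ ⁅A, B⁆)) ∧
    A ∈ Cfsg.linePartners S ⁅A, B⁆ ∧
    ∀ a ∈ A, a ≠ 1 → ∃ φ : ↥B ≃* ↥⁅A, B⁆, ∀ b : ↥B, (φ b : G) = a⁻¹ * (b : G)⁻¹ * a * b := by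
  have hA' := (ni_iff hAS).1 hA
  have h := Rt.t3 hS hAS hB hC
  refine ⟨Set.ext fun D => ⟨fun i => Rt.members hS hA' h i.1 i.2, ?_⟩, Rt.part hS hA' h,
    Rt.ln hS hA' h, fun a ha a1 => ?_⟩
  · rintro (⟨b, hb, rfl⟩ | rfl)
    · exact ⟨Rt.cj hS hAS b, cj_le_comm hb⟩
    · exact ⟨hC, le_sup_right⟩
  have ia := inv_mem ha
  have cB := comm_iff.1 (Rt.ab hS hB)
  let f : B →* (⁅A, B⁆ : Subgroup G) := MonoidHom.mk'
    (fun b => ⟨⁅a⁻¹, (b : G)⁻¹⁆, commutator_mem_commutator ia (inv_mem b.2)⟩) fun b c =>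
      Subtype.ext (by
        change ⁅a⁻¹, ((b : G) * c)⁻¹⁆ = _
        rw [cB _ b.2 _ c.2, mul_inv_rev, comm_mul_right h.cB ia (inv_mem b.2) (inv_mem c.2)]; rfl)
  refine ⟨MulEquiv.ofBijective f ⟨fun b c e => Subtype.ext (inv_injective (Rt.uniq hS hA' h ia
    (inv_mem b.2) (inv_mem c.2) (inv_ne_one.2 a1) (congrArg Subtype.val e))), fun c => ?_⟩,
    fun b => by simp [f, commutatorElement_def]⟩
  obtain ⟨b, hb, e⟩ := h.sA _ ia (inv_ne_one.2 a1) c c.2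
  exact ⟨⟨b⁻¹, inv_mem hb⟩, Subtype.ext (by simpa [f] using e)⟩

end Cfsg.Agent.S5029
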