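import Cfsg.Statements.S5030
import Cfsg.Agent.RS.R2

set_option autoImplicit false
open Cfsg

namespace Cfsg.Agent.S5030

open RS Cfsg
open scoped commutatorElement
theorem nil {G : Type*} [Group G] (R : Subgroup G) (l : List (Subgroup G))
    (h : (⊥ :: l).IsChain fun K L => L ≤ R ∧ ⁅L, R⁆ ≤ K) (e : R ∈ l) : Group.IsNilpotent R := by
  have : ∀ (l : List (Subgroup G)) (K : Subgroup G) n,
      (∀ x : R, x.1 ∈ K → x ∈ Subgroup.upperCentralSeries R n) →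
      (K :: l).IsChain (fun K L => L ≤ R ∧ ⁅L, R⁆ ≤ K) → R ∈ l → Group.IsNilpotent R := by
    intro l
    induction l with
    | nil => simp
    | cons L l ih =>
      intro K n h1 h2 h3
      rw [List.isChain_cons_cons] at h2
      have k : ∀ x : R, x.1 ∈ L → x ∈ Subgroup.upperCentralSeries R (n + 1) := fun x hx =>
        Subgroup.mem_upperCentralSeries_succ_iff.2 fun y =>
          h1 _ (h2.1.2 (Subgroup.commutator_mem_commutator hx y.2))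
      rcases List.mem_cons.1 h3 with rfl | h3
      · exact ⟨n + 1, eq_top_iff.2 fun x _ => k x x.2⟩
      · exact ih L _ k h2.2 h3
  exact this l ⊥ 0 (fun x hx => by simpa using hx) h e

theorem comm_le {G : Type*} [Group G] {L L' M K : Subgroup G} (h1 : ⁅L, M⁆ ≤ K) (h2 : ⁅L', M⁆ ≤ K)
    (n : ∀ x ∈ L ⊔ L', conjBy K x = K) : ⁅L ⊔ L', M⁆ ≤ K := by
  rw [Subgroup.commutator_le]
  intro x hx
  rw [Subgroup.sup_eq_closure] at hx
  have k : ∀ x ∈ (L : Set G) ∪ L', ∀ y ∈ M, ⁅x, y⁆ ∈ K := fun x hx y hy =>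
    hx.elim (fun i => h1 (Subgroup.commutator_mem_commutator i hy))
      fun i => h2 (Subgroup.commutator_mem_commutator i hy)
  induction hx using Subgroup.closure_induction'' with
  | mem x hx => exact k x hx
  | inv_mem x hx => exact k _ (hx.imp inv_mem inv_mem)
  | one => exact fun y _ => by simp
  | mul x y i j a b =>
    intro z hz
    rw [← Subgroup.sup_eq_closure] at i
    have := mul_mem ((n x i).le (cj_mem (b z hz) x)) (a z hz)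
    simpa [commutatorElement_def, mul_assoc] using this

theorem comm_le' {G : Type*} [Group G] {L L' M K : Subgroup G} (h1 : ⁅M, L⁆ ≤ K) (h2 : ⁅M, L'⁆ ≤ K)
    (n : ∀ x ∈ L ⊔ L', conjBy K x = K) : ⁅M, L ⊔ L'⁆ ≤ K := by
  rw [Subgroup.commutator_comm] at *
  exact comm_le h1 h2 n

theorem cls {G : Type*} [Group G] {S : Set (Subgroup G)} (hS : Rt S) {A B : Subgroup G} (hA : A ∈ S)
    (hB : B ∈ S) (h : ¬ R1 A B) : ⁅A ⊔ B, A ⊔ B⁆ = ⁅A, B⁆ ∧ ⁅⁅A, B⁆, A ⊔ B⁆ = ⊥ := by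
  have k : ⁅⁅A, B⁆, A ⊔ B⁆ = ⊥ := by
    rcases hS.tri hA hB with t | t | t
    · simp [t]
    · exact absurd t h
    · exact comm_sup t.cA t.cB
  have n : ∀ x ∈ A ⊔ B, conjBy ⁅A, B⁆ x = ⁅A, B⁆ := fun x hx => cj_of_comm fun c hc => cen_of k hc hx
  exact ⟨le_antisymm (comm_le (comm_le' (by simp [hS.ab hA]) le_rfl n)
    (comm_le' (Subgroup.commutator_comm _ _).le (by simp [hS.ab hB]) n) n)
    (Subgroup.commutator_mono le_sup_left le_sup_right), k⟩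

theorem notr {G : Type*} [Group G] {S : Set (Subgroup G)} (hS : Rt S) {A B C : Subgroup G} (hA : A ∈ S)
    (hC : C ∈ S) (t : T3 S A B) (e : ⁅A, C⁆ = ⊥) {b : G} (hb : b ∈ B) (b1 : b ≠ 1)
    (hB : B ∈ S) (t' : T3 S C B) : ¬ R1 A (conjBy C b) := fun h => by
  obtain ⟨c, hc, c1⟩ := hS.ex t.mem
  obtain ⟨a, ha, rfl⟩ := t.sB b hb b1 c hc
  have a1 : a ≠ 1 := by rintro rfl; simp at c1
  have := cen_of t.cA hc (inv_mem ha)
  have k := hS.cen (hS.cj hC b) h (z := b * a⁻¹ * b⁻¹) (fun y hy => cen_of (comm_sup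
    (comm_symm (hS.comm_cj hA hB (t.not_r1 hS hA) hb)) (comm_cj e b)) (cj_mem (inv_mem ha) b) hy)
    ha a1 t.mem (by
      rw [show b * a⁻¹ * b⁻¹ * a = a⁻¹ * ⁅a, b⁆ * a by simp [commutatorElement_def, mul_assoc], ← this]
      simpa using hc)
  exact a1 (by simpa using k)

theorem cle {G : Type*} [Group G] {X Y N : Subgroup G} (h : X ≤ N) (n : ∀ y ∈ Y, conjBy N y = N) :
    ⁅X, Y⁆ ≤ N := Subgroup.commutator_le.2 fun x hx y hy => by
  simpa [commutatorElement_def, mul_assoc] using mul_mem (h hx) ((n y hy).le (cj_mem (inv_mem (h hx)) y))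

theorem tri {G : Type*} [Group G] {N B X Y X' Y' L : Subgroup G} (z : ⁅⁅N, N⁆, N⁆ = ⊥) (hX : X ≤ N)
    (hY : Y ≤ N) (h1 : X' ≤ X) (h2 : Y' ≤ Y) (h3 : ⁅X, B⁆ ≤ X') (h4 : ⁅Y, B⁆ ≤ Y') (hL : L ≤ ⁅N, N⁆)
    (h5 : ⁅X', Y⁆ ≤ L) (h6 : ⁅X, Y'⁆ ≤ L) : ⁅⁅X, Y⁆, B⁆ ≤ L := by
  rw [Subgroup.commutator_comm, Subgroup.commutator_le]
  intro b hb c hc
  have cm := @Subgroup.commutator_mem_commutator G _
  rw [Subgroup.commutator_comm] at h3 h4
  have le := (Subgroup.commutator_mono hX hY).trans (cle le_rfl fun _ => cj_self)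
  induction hc using Subgroup.closure_induction with
  | mem _ h =>
    obtain ⟨x, hx, y, hy, rfl⟩ := h
    have hu := h3 (cm hb hx)
    have hv := h4 (cm hb hy)
    have e1 := comm_mul_right z (hX (mul_mem (h1 hu) hx)) (hY (h2 hv)) (hY hy)
    have e2 := comm_mul_right z (hY hy) (hX (h1 hu)) (hX hx)
    have e3 := cen_of z (inv_mem (cm (hY hy) (hX hx))) (inv_mem (le (cm (h1 hu) hy)))
    have := mul_mem (h6 (cm (mul_mem (h1 hu) hx) hv)) (h5 (cm hu hy))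
    rwa [show ⁅b, ⁅x, y⁆⁆ = ⁅⁅b, x⁆ * x, ⁅b, y⁆ * y⁆ * ⁅x, y⁆⁻¹ by
      simp only [commutatorElement_def]; group, e1, ← commutatorElement_inv y (_ * _), e2, mul_inv_rev,
      commutatorElement_inv, commutatorElement_inv, cen_of z (cm (hX hx) (hY hy)) (le (cm (h1 hu) hy)),
      ← mul_assoc, mul_inv_cancel_right]
  | one => simp
  | mul x y i j k l =>
    have := cen_of z (hL l) (le i)
    rw [show ⁅b, x * y⁆ = ⁅b, x⁆ * (x * ⁅b, y⁆) * x⁻¹ by simp only [commutatorElement_def]; group,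
      ← this, ← mul_assoc, mul_inv_cancel_right]
    exact mul_mem k l
  | inv x i k =>
    have := cen_of z (inv_mem (hL k)) (le i)
    rw [show ⁅b, x⁻¹⁆ = x⁻¹ * (⁅b, x⁆⁻¹ * x) by simp only [commutatorElement_def]; group, this,
      inv_mul_cancel_left]
    exact inv_mem k

/-- Let S be a set of abstract root subgroups of G and A, B, C ∈ S with ⁅A, B⁆ ∈ S and ⁅B, C⁆ ∈ S, where A and C are different and commute. For a non-identity b ∈ B put X = ⟨A, b⁻¹ C b⟩ and Y = ⟨b⁻¹ A b, C⟩ and R = ⟨A, B, C⟩. Then X and Y are either both abelian or both nilpotent of class exactly two; X and Y commute elementwise; XY is normal in R with R = (XY) B; and R is nilpotent. -/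
theorem result {G : Type*} [Group G] {S : Set (Subgroup G)} (hS : Cfsg.IsRootSubgroupSet S)
    {A B C : Subgroup G} (hA : A ∈ S) (hB : B ∈ S) (hC : C ∈ S) (hAB : ⁅A, B⁆ ∈ S) (hBC : ⁅B, C⁆ ∈ S)
    (hAC : C ∈ Cfsg.commutingPartners S A)
    {b : G} (hb : b ∈ B) (hb1 : b ≠ 1) :
    ((IsMulCommutative ↥(A ⊔ Cfsg.conjBy C b⁻¹) ∧ IsMulCommutative ↥(Cfsg.conjBy A b⁻¹ ⊔ C)) ∨
      ((¬ IsMulCommutative ↥(A ⊔ Cfsg.conjBy C b⁻¹) ∧
          ⁅⁅A ⊔ Cfsg.conjBy C b⁻¹, A ⊔ Cfsg.conjBy C b⁻¹⁆, A ⊔ Cfsg.conjBy C b⁻¹⁆ = ⊥) ∧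
        (¬ IsMulCommutative ↥(Cfsg.conjBy A b⁻¹ ⊔ C) ∧
          ⁅⁅Cfsg.conjBy A b⁻¹ ⊔ C, Cfsg.conjBy A b⁻¹ ⊔ C⁆, Cfsg.conjBy A b⁻¹ ⊔ C⁆ = ⊥))) ∧
    ⁅A ⊔ Cfsg.conjBy C b⁻¹, Cfsg.conjBy A b⁻¹ ⊔ C⁆ = ⊥ ∧
    (∀ r ∈ A ⊔ B ⊔ C, Cfsg.conjBy ((A ⊔ Cfsg.conjBy C b⁻¹) ⊔ (Cfsg.conjBy A b⁻¹ ⊔ C)) r =
      (A ⊔ Cfsg.conjBy C b⁻¹) ⊔ (Cfsg.conjBy A b⁻¹ ⊔ C)) ∧
    ((A ⊔ Cfsg.conjBy C b⁻¹) ⊔ (Cfsg.conjBy A b⁻¹ ⊔ C)) ⊔ B = A ⊔ B ⊔ C ∧
    Group.IsNilpotent ↥(A ⊔ B ⊔ C) := by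
  have hS' : Rt S := hS
  have t1 := hS'.t3 hA hB hAB
  have t2 := (hS'.t3 hB hC hBC).symm
  have e : ⁅A, C⁆ = ⊥ := hAC.2.2
  have ib := inv_mem hb
  have i1 := inv_ne_one.2 hb1
  obtain ⟨c1, d1⟩ := cls hS' hA (hS'.cj hC _) (notr hS' hA hC t1 e ib i1 hB t2)
  obtain ⟨c2, d2⟩ := cls hS' (hS'.cj hA _) hC fun h => notr hS' hC hA t2 (comm_symm e) ib i1 hB t1 h.symm
  have m1 := hS'.comm_cj hA hB (t1.not_r1 hS' hA) ib
  have m2 := hS'.comm_cj hC hB (t2.not_r1 hS' hC) ib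
  have cc : ⁅A ⊔ conjBy C b⁻¹, conjBy A b⁻¹ ⊔ C⁆ = ⊥ :=
    sup_comm' (comm_sup m1 e) (comm_sup (comm_symm (comm_cj e _)) (comm_symm m2))
  have s1 := t1.sup_cj ib i1
  have s2 := t2.sup_cj ib i1
  have eN : (A ⊔ conjBy C b⁻¹) ⊔ (conjBy A b⁻¹ ⊔ C) = (A ⊔ ⁅A, B⁆) ⊔ (C ⊔ ⁅C, B⁆) := by
    rw [← s1, ← s2]; ac_rfl
  have iff : ∀ {A C : Subgroup G}, T3 S C B → ⁅A, C⁆ = ⊥ → ⁅A, conjBy C b⁻¹⁆ = ⊥ →
      ⁅conjBy A b⁻¹, C⁆ = ⊥ := fun t e h => by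
    have := comm_sup e h
    rw [t.sup_cj ib i1] at this
    simpa [cj_cj] using comm_cj (comm_mono this le_rfl (cj_le_comm hb)) b⁻¹
  have mc : ∀ X : Subgroup G, IsMulCommutative X ↔ ⁅X, X⁆ = ⊥ := fun X =>
    ⟨fun h => comm_iff.2 fun x i y j => congrArg Subtype.val (h.is_comm.comm ⟨x, i⟩ ⟨y, j⟩),
      fun h => ⟨⟨fun x y => Subtype.ext (cen_of h x.2 y.2)⟩⟩⟩
  set N := (A ⊔ conjBy C b⁻¹) ⊔ (conjBy A b⁻¹ ⊔ C) with hN
  have AN : A ≤ N := le_sup_of_le_left le_sup_left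
  have CN : C ≤ N := le_sup_of_le_right le_sup_right
  have nB : ∀ x ∈ B, conjBy N x = N := fun x hx => by
    rw [eN, cj_sup, sup_comm A, sup_comm C, norm_sup t1.cB rfl x hx, norm_sup t2.cB rfl x hx]
  have eR : N ⊔ B = A ⊔ B ⊔ C := le_antisymm (sup_le (sup_le (sup_le (by order) (cj_le le_sup_right
    (Subgroup.mem_sup_left (Subgroup.mem_sup_right ib)))) (sup_le (cj_le (by order)
    (Subgroup.mem_sup_left (Subgroup.mem_sup_right ib))) le_sup_right)) (by order))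
    (sup_le (sup_le (le_sup_of_le_left AN) le_sup_right) (le_sup_of_le_left CN))
  have nN : ∀ x ∈ N ⊔ B, conjBy N x = N := cj_of_sup (fun _ => cj_self) nB
  refine ⟨?_, cc, eR ▸ nN, eR, ?_⟩
  · simp only [mc, c1, c2, d1, d2, and_true]
    by_cases h : ⁅A, conjBy C b⁻¹⁆ = ⊥
    · exact .inl ⟨h, iff t2 e h⟩
    · exact .inr ⟨h, fun h' => h (comm_symm (iff t1 (comm_symm e) (comm_symm h')))⟩
  have nN' : ∀ x ∈ N ⊔ B, conjBy ⁅N, N⁆ x = ⁅N, N⁆ := fun x hx => by rw [cj_comm, nN x hx]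
  have zN : ⁅⁅N, N⁆, N⁆ = ⊥ := by
    have k1 := comm_sup d1 (comm_mono cc (c1.ge.trans (cle le_rfl fun _ => cj_self)) le_rfl)
    have k2 := comm_sup (comm_mono (comm_symm cc) (c2.ge.trans (cle le_rfl fun _ => cj_self))
      le_rfl) d2
    have k := sup_comm' k1 k2
    have n : ∀ x ∈ N, conjBy _ x = _ := fun x hx => cj_of_comm fun y hy => cen_of k hy hx
    exact comm_mono k (comm_le (comm_le' (c1.le.trans le_sup_left) (by simp [cc])  n)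
      (comm_le' (by simp [comm_symm cc]) (c2.le.trans le_sup_right) n) n) le_rfl
  have l1 : ⁅N, N⁆ ≤ N := cle le_rfl fun _ => cj_self
  have EN : ⁅A, B⁆ ⊔ ⁅C, B⁆ ≤ N := eN ▸ sup_le_sup le_sup_right le_sup_right
  set K := ⁅N, N⁆ ⊔ (⁅A, B⁆ ⊔ ⁅C, B⁆)
  have KN : K ≤ N := sup_le l1 EN
  have nK : ∀ L, ⁅N, N⁆ ≤ L → L ≤ N → ∀ x ∈ N, conjBy L x = L := fun L i j x hx => by
    have : ∀ x ∈ N, conjBy L x ≤ L := fun x hx => (cj_le_comm hx).trans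
      (sup_le le_rfl ((Subgroup.commutator_mono j le_rfl).trans i))
    exact le_antisymm (this x hx) (by simpa [cj_cj] using cj_mono (g := x) (this _ (inv_mem hx)))
  have nK' := nK K le_sup_left KN
  have a1 : ⁅N, B⁆ ≤ K := by
    rw [eN] at nK' ⊢
    exact comm_le (comm_le (by order) (by simp [t1.cB]) fun x i => nK' x (Subgroup.mem_sup_left i))
      (comm_le (by order) (by simp [t2.cB]) fun x i => nK' x (Subgroup.mem_sup_right i)) nK'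
  have a2 : ⁅K, B⁆ ≤ ⁅N, N⁆ := comm_le (cle le_rfl fun y i => nN' y (Subgroup.mem_sup_right i))
    (by simp [sup_comm' t1.cB t2.cB]) fun x i => nN' x (Subgroup.mem_sup_left (KN i))
  have l2 : ⁅K, N⁆ ≤ ⁅N, N⁆ := Subgroup.commutator_mono KN le_rfl
  have l3 : ⁅K, K⁆ ≤ ⁅K, N⁆ := Subgroup.commutator_mono le_rfl KN
  have a3 := tri zN le_rfl le_rfl KN KN a1 a1 l2 le_rfl (Subgroup.commutator_comm _ _).le
  have a4 := tri zN KN le_rfl le_sup_left KN a2 a1 (l3.trans l2) (by simp [zN]) le_rfl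
  have a5 := tri zN KN KN le_sup_left le_sup_left a2 a2 bot_le (comm_mono zN le_rfl KN).le
    (comm_symm (comm_mono zN le_rfl KN)).le
  have nKB : ∀ x ∈ N ⊔ B, conjBy K x = K := cj_of_sup nK' fun x hx => by
    have : ∀ x ∈ B, conjBy K x ≤ K := fun x hx => (cj_le_comm hx).trans
      (sup_le le_rfl (a2.trans le_sup_left))
    exact le_antisymm (this x hx) (by simpa [cj_cj] using cj_mono (g := x) (this _ (inv_mem hx)))
  rw [← eR]
  refine nil _ [⁅K, K⁆, ⁅K, N⁆, ⁅N, N⁆, K, N, N ⊔ B] ?_ (by simp)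
  simp only [List.isChain_cons_cons, List.isChain_singleton, and_true]
  refine ⟨⟨by order, (comm_sup (comm_mono zN (l3.trans l2) le_rfl) (eq_bot_iff.2 a5)).le⟩,
    ⟨by order, comm_le' (by simp [comm_mono zN l2 le_rfl]) a4 fun x i => by rw [cj_comm, nKB x i]⟩,
    ⟨by order, comm_le' (by simp [zN]) a3 fun x i => by rw [cj_comm, nKB x i, nN x i]⟩,
    ⟨by order, comm_le' l2 a2 nN'⟩, ⟨by order, comm_le' le_sup_left a1 nKB⟩, le_rfl, ?_⟩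
  exact comm_le (cle le_rfl nN) (comm_le' ((Subgroup.commutator_comm _ _).le.trans (cle le_rfl nB))
    (by simp [hS'.ab hB]) nN) nN

end Cfsg.Agent.S5030
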