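import Cfsg.Statements.S5033
import Cfsg.Agent.RS.Sp3
import Cfsg.Agent.RS.R2

set_option autoImplicit false
open Cfsg

namespace Cfsg.Agent.S5033

open RS Cfsg Subgroup Relation
open scoped commutatorElement

/-- Quasisimplicity criterion for groups generated by abstract root subgroups. Let S be a set of abstract root subgroups of G with more than one member such that: the graph of rank one pairs on S is connected; no two different members of S have the same set of commuting members of S; if S is degenerate then every member of S has more than three elements; and every rank one pair in S is special. Then for every A ∈ S one has G = G' A with A ∩ G' ≠ 1, and the commutator subgroup G' is quasisimple. Moreover G is perfect if S is non-degenerate, or if some rank one pair A, B in S generates a perfect group. -/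
theorem result {G : Type*} [Group G] {S : Set (Subgroup G)} (hS : Cfsg.IsRootSubgroupSet S) (h2 : ∃ A ∈ S, ∃ B ∈ S, A ≠ B)
    (h1 : Cfsg.IsConnectedFamily (Cfsg.FAdj S) S)
    (h2' : ∀ A ∈ S, ∀ C ∈ S, A ≠ C → Cfsg.centralizingMembers S A ≠ Cfsg.centralizingMembers S C)
    (h3 : Cfsg.IsDegenerateRootSet S → ∀ A ∈ S, 3 < ENat.card A)
    (h4 : ∀ A ∈ S, ∀ B ∈ Cfsg.rankOnePartners S A, Cfsg.IsSpecialRankOnePair A B) :
    (∀ A ∈ S, commutator G ⊔ A = ⊤ ∧ A ⊓ commutator G ≠ ⊥) ∧ Cfsg.IsQuasisimple ↥(commutator G) ∧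
    (Cfsg.IsNondegenerateRootSet S → commutator G = ⊤) ∧
    ((∃ A ∈ S, ∃ B ∈ Cfsg.rankOnePartners S A, Group.IsPerfect ↥(A ⊔ B)) → commutator G = ⊤) := by
  have R : Rt S := hS
  obtain ⟨A₀, hA₀, B₀, hB₀, ne⟩ := h2
  have cl : Cl S := ⟨hS, ⟨A₀, hA₀⟩, fun A i B j => conj_of_path (h1 A i B j)⟩
  have ni := Cl.ni cl (by
    rcases (h1 _ hA₀ _ hB₀).cases_head with e | ⟨C, e, -⟩
    · exact absurd e ne
    · exact ⟨_, e.1, _, e.2.1, e.2.2⟩)
  have top : ∀ N : Subgroup G, N.Normal → ∀ A ∈ S, A ≤ N → N = ⊤ := fun N hN A hA le => by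
    refine eq_top_iff.2 (hS.generates ▸ iSup₂_le fun B hB => ?_)
    obtain ⟨g, rfl⟩ := cl.2.2 A hA B hB
    exact (cj_mono le).trans (cj_eq_iff.2 (normalizer_eq_top N ▸ mem_top g)).le
  have key : ∀ N : Subgroup G, N.Normal → ∀ C ∈ S, ∀ D ∈ S, R1 C D → ⁅C, D⁆ ≤ N → N = ⊤ := fun N hN C hC D hD r le => by
    let π := QuotientGroup.mk' N
    have k : ∀ K : Subgroup G, K ≤ N ↔ K.map π = ⊥ := fun K => by rw [Subgroup.map_eq_bot_iff, QuotientGroup.ker_mk']
    have m : ∀ K L : Subgroup G, ⁅K, L⁆ = ⊥ → ⁅K.map π, L.map π⁆ = ⊥ := fun K L e => by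
      rw [← map_commutator, e, Subgroup.map_bot]
    rw [k, map_commutator] at le
    by_cases hd : IsDegenerateRootSet S
    · refine top N hN C hC ((Sp.le_comm (h4 C hC D ⟨hD, r⟩) ⟨hS.1 C hC, hS.1 D hD⟩ (h3 hd C hC)).trans ?_)
      rw [k, map_commutator]
      exact comm_mono (comm_sup (m _ _ (R.ab hC)) le) le_rfl
        (Subgroup.map_sup C D π ▸ map_mono (inf_le_left.trans inf_le_left))
    · simp only [IsDegenerateRootSet, not_forall, not_not] at hd
      obtain ⟨P, hP, Q, hQ, hd⟩ := hd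
      obtain ⟨E, hE, i, -, -, l⟩ := Cl.exists_ln cl ⟨⟨P, hP, _, hd.1, R.ne_comm (t3_of hd),
        comm_symm (t3_of hd).cA⟩, ⟨C, hC, D, hD, r⟩, P, hP, Q, hQ, hd⟩ hC hD r
      refine top N hN E hE ?_
      rw [k, ← l, map_commutator, map_commutator]
      exact comm_mono (comm_sup (m _ _ i.comm) le) le_rfl (Subgroup.commutator_le_sup _ _)
  obtain ⟨-, B₁, hB₁, r₁⟩ := ni A₀ hA₀
  have e' : commutator G = ⊤ := key _ inferInstance _ hA₀ _ hB₁ r₁ (commutator_mono le_top le_top)
  have nrm : ∀ N : Subgroup G, N.Normal → N ≤ center G ∨ N = ⊤ := fun N hN => by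
    by_cases hn : ∀ A ∈ S, ∀ n ∈ N, conjBy A n = A
    · refine .inl fun n i => mem_center_iff.2 fun g => ?_
      have : g ∈ centralizer {n} := (hS.generates.ge.trans (iSup₂_le fun A hA a ha => ?_)) (mem_top g)
      · exact (this n rfl).symm
      obtain ⟨-, B, hB, r⟩ := ni A hA
      rintro _ rfl
      have := R1.norm r (mul_mem ((hn A hA _ i).le (cj_mem ha _)) (inv_mem ha)) (hn B hB _ (by
        simpa [mul_assoc] using mul_mem i (hN.conj_mem _ (inv_mem i) a)))
      rwa [mul_inv_eq_one, mul_inv_eq_iff_eq_mul] at this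
    refine .inr ?_
    push Not at hn
    obtain ⟨A, hA, n, i, ne⟩ := hn
    by_contra hN'
    have k : ∀ A ∈ S, ∀ n ∈ N, centralizingMembers S A ⊆ centralizingMembers S (conjBy A n) :=
      fun A hA n i D ⟨hD, c⟩ => by
      have le : ⁅conjBy A n, D⁆ ≤ N := by
        rw [← QuotientGroup.ker_mk' N, ← Subgroup.map_eq_bot_iff, map_commutator, map_cj,
          show QuotientGroup.mk' N n = 1 from (QuotientGroup.eq_one_iff n).2 i, cj_one, ← map_commutator,
          comm_iff.2 fun a ha d hd => c hd a ha, Subgroup.map_bot]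
      rcases R.tri (R.cj hA n) hD with t | t | t
      · exact ⟨hD, fun d hd a ha => cen_of t ha hd⟩
      · exact absurd (key N hN _ (R.cj hA n) _ hD t le) hN'
      · exact absurd (top N hN _ t.mem le) hN'
    exact h2' _ hA _ (R.cj hA n) ne.symm ((k A hA n i).antisymm (by
      simpa only [cj_inv_cj] using k _ (R.cj hA n) _ (inv_mem i)))
  refine ⟨fun A hA => ⟨by simp [e'], by simpa [e'] using hS.ne_bot A hA⟩, ?_, fun _ => e', fun _ => e'⟩
  haveI : Group.IsPerfect G := ⟨e'⟩
  haveI : Nontrivial (G ⧸ center G) := QuotientGroup.nontrivial_iff.2 fun e => R1.not_comm r₁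
    (comm_iff.2 fun a _ b _ => mem_center_iff.1 (e ▸ mem_top b) a)
  haveI : IsSimpleGroup (G ⧸ center G) := ⟨fun M hM => (nrm _ (hM.comap (QuotientGroup.mk' _))).imp
    (fun h1 => eq_bot_iff.2 fun m hm => by
      obtain ⟨x, rfl⟩ := QuotientGroup.mk_surjective m
      exact (QuotientGroup.eq_one_iff x).2 (h1 hm)) fun h1 => eq_top_iff.2 fun m _ => by
      obtain ⟨x, rfl⟩ := QuotientGroup.mk_surjective m
      exact (h1.ge (mem_top x) :)⟩
  rw [e']
  exact ⟨inferInstance, (QuotientGroup.congr _ (center G) topEquiv (by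
    ext x; simp [mem_center_iff])).isSimpleGroup⟩

end Cfsg.Agent.S5033
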