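import Cfsg.Statements.S5035
import Cfsg.Agent.RS.R2

set_option autoImplicit false
open Cfsg

namespace Cfsg.Agent.S5035

open RS Cfsg Subgroup Relation

/-- Let S be a set of abstract root subgroups of G whose graph of rank one pairs is connected, and f a homomorphism from G onto a group H. Then either the images of the members of S form a set of abstract root subgroups of H whose graph of rank one pairs is again connected, or H equals the image of a member of S. -/
theorem result {G H : Type*} [Group G] [Group H] {S : Set (Subgroup G)} (hS : Cfsg.IsRootSubgroupSet S)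
    (hc : Cfsg.IsConnectedFamily (Cfsg.FAdj S) S) (f : G →* H) (hf : Function.Surjective f) :
    (Cfsg.IsRootSubgroupSet ((fun A : Subgroup G => A.map f) '' S) ∧
      Cfsg.IsConnectedFamily (Cfsg.FAdj ((fun A : Subgroup G => A.map f) '' S)) ((fun A : Subgroup G => A.map f) '' S)) ∨
    ∃ A ∈ S, A.map f = ⊤ := by
  have mc : ∀ (A : Subgroup G) g, (conjBy A g).map f = conjBy (A.map f) (f g) := fun A g => by
    simp only [conjBy, Subgroup.map_map]; congr 1; ext; simp
  by_cases h0 : ∃ A ∈ S, A.map f = ⊥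
  · obtain ⟨A, hA, h0⟩ := h0
    refine .inr ⟨A, hA, ?_⟩
    rw [h0, ← map_top_of_surjective f hf, ← hS.generates, eq_comm, Subgroup.map_eq_bot_iff]
    refine iSup₂_le fun B hB => ?_
    obtain ⟨g, rfl⟩ := conj_of_path (hc A hA B hB)
    rw [← Subgroup.map_eq_bot_iff, mc, h0, cj_bot]
  push Not at h0
  have r : ∀ A ∈ S, ∀ B ∈ S, R1 A B → A.map f = B.map f ∨ R1 (A.map f) (B.map f) :=
    fun A hA B hB h => by
      have k : ∀ {A B : Subgroup G}, R1 A B → A.map f = B.map f ∨
          RankOneCondition (A.map f) (B.map f) := fun {A B} h => by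
        by_cases e : ∀ b ∈ B, f b = 1 → b = 1
        · refine .inr ?_
          rintro _ ⟨a, ha, rfl⟩ a1
          obtain ⟨b, hb, b1, e'⟩ := h.cond_left a ha (by rintro rfl; simp at a1)
          exact ⟨_, ⟨b, hb, rfl⟩, mt (e b hb) b1, by rw [← map_inv, ← map_inv, ← mc, ← mc, e']⟩
        · push Not at e
          obtain ⟨b, hb, e, b1⟩ := e
          obtain ⟨a, ha, -, e'⟩ := h.right hb b1
          have := congrArg (map f) e'
          rw [mc, mc, e, cj_one] at this
          exact .inl (cj_inj ((cj_self (mem_map_of_mem f ha)).trans this))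
      refine (em _).imp_right fun e => ?_
      haveI := h.nilpotent_left
      haveI := h.nilpotent_right
      exact ⟨e, nilpotent_of_surjective _ (f.subgroupMap_surjective A),
        nilpotent_of_surjective _ (f.subgroupMap_surjective B), (k h).resolve_left e,
        (k h.symm).resolve_left (Ne.symm e)⟩
  have ab : ∀ A ∈ S, ⁅A.map f, A.map f⁆ = ⊥ := fun A hA => by
    rw [← map_commutator, Rt.ab hS hA, Subgroup.map_bot]
  refine .inl ⟨⟨?_, ?_, ?_, ?_, ?_⟩, ?_⟩
  · rintro _ ⟨A, hA, rfl⟩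
    exact ⟨⟨fun x y => Subtype.ext (cen_of (ab A hA) x.2 y.2)⟩⟩
  · rintro _ ⟨A, hA, rfl⟩; exact h0 A hA
  · rw [iSup_image, ← map_top_of_surjective f hf, ← hS.generates]
    simp only [Subgroup.map_iSup]
  · rintro _ ⟨A, hA, rfl⟩ g
    obtain ⟨g, rfl⟩ := hf g
    exact ⟨_, hS.conj_mem A hA g, mc A g⟩
  · rintro _ ⟨A, hA, rfl⟩ _ ⟨B, hB, rfl⟩
    rcases Rt.tri hS hA hB with h | h | h
    · exact .inl (by rw [← map_commutator, h, Subgroup.map_bot])
    · exact (r A hA B hB h).imp (fun e => by simpa only [← e] using ab A hA) .inl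
    · refine .inr (.inr (T3.rc ⟨⟨_, h.mem, map_commutator _ _ _⟩, ?_, ?_, ?_, ?_⟩)) <;>
        simp only [← map_commutator]
      · rw [h.cA, Subgroup.map_bot]
      · rw [h.cB, Subgroup.map_bot]
      · rintro _ ⟨a, ha, rfl⟩ a1 _ ⟨c, hc, rfl⟩
        obtain ⟨b, hb, rfl⟩ := h.sA a ha (by rintro rfl; simp at a1) c hc
        exact ⟨_, ⟨b, hb, rfl⟩, (map_commutatorElement _ _ _).symm⟩
      · rintro _ ⟨a, ha, rfl⟩ a1 _ ⟨c, hc, rfl⟩
        obtain ⟨b, hb, rfl⟩ := h.sB a ha (by rintro rfl; simp at a1) c hc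
        exact ⟨_, ⟨b, hb, rfl⟩, (map_commutatorElement _ _ _).symm⟩
  · rintro _ ⟨A, hA, rfl⟩ _ ⟨B, hB, rfl⟩
    have := hc A hA B hB
    clear hB
    induction this with
    | refl => exact .refl
    | tail _ i j =>
      rcases r _ i.1 _ i.2.1 i.2.2 with e | e
      · simpa only [e] using j
      · exact j.tail ⟨⟨_, i.1, rfl⟩, ⟨_, i.2.1, rfl⟩, e⟩

end Cfsg.Agent.S5035
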