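import Cfsg.Statements.S5036
import Cfsg.Agent.RS.R2

set_option autoImplicit false
open Cfsg

namespace Cfsg.Agent.S5036

open RS Cfsg Subgroup
open scoped commutatorElement

/-- Let S be a set of abstract root subgroups of G, A, B ∈ S with C = ⁅A, B⁆ ∈ S, and D ∈ S with ⁅D, C⁆ = A. Put X = ⟨B, D⟩ and N = AC. Then B, D form a rank one pair; the conjugates of A under X are the conjugates of C under X, namely the conjugates of A by elements of B together with C, equally the conjugates of C by elements of D together with A, and they partition N; and the centralizer of N in X is central in X. -/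
theorem result {G : Type*} [Group G] {S : Set (Subgroup G)} (hS : Cfsg.IsRootSubgroupSet S)
    {A B D : Subgroup G} (hA : A ∈ S) (hB : B ∈ S) (hC : ⁅A, B⁆ ∈ S) (hD : D ∈ S) (hDC : ⁅D, ⁅A, B⁆⁆ = A) :
    Cfsg.IsRankOnePair B D ∧
    {E | ∃ x ∈ B ⊔ D, E = Cfsg.conjBy A x} = {E | ∃ x ∈ B ⊔ D, E = Cfsg.conjBy ⁅A, B⁆ x} ∧
    {E | ∃ x ∈ B ⊔ D, E = Cfsg.conjBy A x} = (fun b : G => Cfsg.conjBy A b) '' (B : Set G) ∪ {⁅A, B⁆} ∧
    {E | ∃ x ∈ B ⊔ D, E = Cfsg.conjBy A x} = (fun d : G => Cfsg.conjBy ⁅A, B⁆ d) '' (D : Set G) ∪ {A} ∧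
    Cfsg.IsSubgroupPartition (A ⊔ ⁅A, B⁆) {E | ∃ x ∈ B ⊔ D, E = Cfsg.conjBy A x} ∧
    ∀ x ∈ (B ⊔ D) ⊓ Subgroup.centralizer ((A ⊔ ⁅A, B⁆ : Subgroup G) : Set G), ∀ y ∈ B ⊔ D, x * y = y * x := by
  have hS' : Rt S := hS
  have t1 := hS'.t3 hA hB hC
  have t2 := hS'.t3 hD hC (hDC.symm ▸ hA)
  have r := hS'.opp36 hB hD t1 t2 hDC
  have AD : ⁅A, D⁆ = ⊥ := (congrArg (⁅·, D⁆) hDC).symm.trans t2.cA
  have i1 : ∀ b ∈ B, b ≠ 1 → ∀ a ∈ A, ⁅a, b⁆ = 1 → a = 1 := fun b hb b1 a ha e =>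
    hS'.inj ⟨hB, D, hD, r⟩ t1.symm hb ha b1 (by rw [← commutatorElement_inv, e, inv_one])
  have i2 : ∀ d ∈ D, d ≠ 1 → ∀ c ∈ ⁅A, B⁆, ⁅d, c⁆ = 1 → c = 1 := fun d hd d1 c hc e =>
    hS'.inj ⟨hD, B, hB, r.symm⟩ t2 hd hc d1 e
  have n1 := norm_sup t1.cB rfl
  rw [sup_comm] at n1
  have n2 := norm_sup AD ((commutator_comm _ _).trans hDC)
  have n3 := cj_of_sup n1 n2
  set C := ⁅A, B⁆ with hC'
  obtain ⟨b₀, hb₀, b1⟩ := hS'.ex hB
  obtain ⟨d₀, hd₀, d1⟩ := hS'.ex hD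
  have c1 : ∀ x ∈ A ⊔ C, x * b₀ = b₀ * x → x ∈ C := fun x hx e => by
    obtain ⟨a, ha, c, hc, rfl⟩ := (mem_sup_comm (comm_symm t1.cA)).1 hx
    rw [mul_assoc, cen_of t1.cB hc hb₀, ← mul_assoc, ← mul_assoc, mul_left_inj] at e
    simpa [i1 b₀ hb₀ b1 a ha (commutatorElement_eq_one_iff_mul_comm.2 e)]
  have c2 : ∀ x ∈ A ⊔ C, x * d₀ = d₀ * x → x ∈ A := fun x hx e => by
    obtain ⟨a, ha, c, hc, rfl⟩ := (mem_sup_comm (comm_symm t1.cA)).1 hx
    rw [← mul_assoc d₀, ← cen_of AD ha hd₀, mul_assoc, mul_assoc, mul_right_inj] at e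
    simpa [i2 d₀ hd₀ d1 c hc (commutatorElement_eq_one_iff_mul_comm.2 e.symm)]
  have key : ∀ b ∈ B, ∀ d ∈ D, conjBy B d = conjBy D b → conjBy A b = conjBy C d := fun b hb d hd e => by
    refine le_antisymm (fun x hx => mem_cj.2 (c1 _ (mem_cj.1 ((n2 d hd).ge (cj_le_comm hb hx))) ?_))
      fun x hx => mem_cj.2 (c2 _ (mem_cj.1 ((n1 b hb).ge ((cj_mono le_sup_right).trans
        (n2 d hd).le hx))) ?_)
    · have := cen_of (comm_cj AD b) hx (e.le (cj_mem hb₀ d))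
      calc _ = d⁻¹ * (x * (d * b₀ * d⁻¹)) * d := by group
        _ = _ := by rw [this]; group
    · have := cen_of (comm_cj t1.cB d) hx (e.ge (cj_mem hd₀ b))
      calc _ = b⁻¹ * (x * (b * d₀ * b⁻¹)) * b := by group
        _ = _ := by rw [this]; group
  have AD' : ∀ d ∈ D, conjBy A d = A := fun d hd => cj_of_comm fun a ha => cen_of AD ha hd
  have CB : ∀ b ∈ B, conjBy C b = C := fun d hd => cj_of_comm fun a ha => cen_of t1.cB ha hd
  have s1 : (conjBy A ·) '' (B : Set G) ∪ {C} = (conjBy C ·) '' (D : Set G) ∪ {A} := by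
    ext E
    refine ⟨?_, ?_⟩
    · rintro (⟨b, hb, rfl⟩ | rfl)
      · by_cases e : b = 1
        · exact .inr (by simp [e])
        · obtain ⟨d, hd, -, e⟩ := r.left hb e
          exact .inl ⟨d, hd, (key b hb d hd e).symm⟩
      · exact .inl ⟨1, one_mem _, cj_one⟩
    · rintro (⟨d, hd, rfl⟩ | rfl)
      · by_cases e : d = 1
        · exact .inr (by simp [e])
        · obtain ⟨b, hb, -, e⟩ := r.right hd e
          exact .inl ⟨b, hb, key b hb d hd e⟩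
      · exact .inl ⟨1, one_mem _, cj_one⟩
  have s2 : {E | ∃ x ∈ B ⊔ D, E = conjBy A x} = (conjBy A ·) '' (B : Set G) ∪ {C} := by
    refine subset_antisymm ?_ ?_
    · rintro _ ⟨x, hx, rfl⟩
      suffices ∀ E ∈ (conjBy A ·) '' (B : Set G) ∪ {C}, conjBy E x ∈ (conjBy A ·) '' (B : Set G) ∪ {C}
        from this A (.inl ⟨1, one_mem _, cj_one⟩)
      have k : ∀ x ∈ (B : Set G) ∪ D, ∀ E ∈ (conjBy A ·) '' (B : Set G) ∪ {C},
          conjBy E x ∈ (conjBy A ·) '' (B : Set G) ∪ {C} := by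
        rintro x (hx | hx)
        · rintro _ (⟨b, hb, rfl⟩ | rfl)
          · exact .inl ⟨_, mul_mem hx hb, cj_cj.symm⟩
          · exact .inr (CB x hx)
        · rw [s1]
          rintro _ (⟨b, hb, rfl⟩ | rfl)
          · exact .inl ⟨_, mul_mem hx hb, cj_cj.symm⟩
          · exact .inr (AD' x hx)
      rw [sup_eq_closure] at hx
      exact closure_induction'' k (fun x hx => k _ (hx.imp inv_mem inv_mem)) (fun C h => by simpa using h)
        (fun x y _ _ h1 h2 C hC => cj_cj (A := C) ▸ h1 _ (h2 C hC)) hx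
    · rintro _ (⟨b, hb, rfl⟩ | rfl)
      · exact ⟨b, mem_sup_left hb, rfl⟩
      · obtain ⟨b, hb, d, hd, -, -, e⟩ := r.ex
        exact ⟨d⁻¹ * b, mul_mem (mem_sup_right (inv_mem hd)) (mem_sup_left hb),
          (cj_swap (key b hb d hd e)).symm⟩
  have i3 : ∀ x ∈ A, x ∈ C → x = 1 := fun x h1 h2 =>
    i1 b₀ hb₀ b1 x h1 (commutatorElement_eq_one_iff_mul_comm.2 (cen_of t1.cB h2 hb₀))
  refine ⟨r, ?_, s2, s2.trans s1, ⟨?_, fun x hx _ => ?_, ?_⟩, fun x hx => ?_⟩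
  · obtain ⟨y, hy, e⟩ := s2.ge (Or.inr rfl : C ∈ _ ∪ {C})
    exact Set.ext fun E => ⟨fun ⟨x, hx, e'⟩ => ⟨x * y⁻¹, mul_mem hx (inv_mem hy), by
      simpa [e, cj_cj] using e'⟩, fun ⟨x, hx, e'⟩ => ⟨x * y, mul_mem hx hy, by rw [e', e, cj_cj]⟩⟩
  · rintro _ ⟨x, hx, rfl⟩
    exact (cj_mono le_sup_left).trans (n3 x hx).le
  · rw [s2]
    obtain ⟨a, ha, c, hc, rfl⟩ := (mem_sup_comm (comm_symm t1.cA)).1 hx
    by_cases a1 : a = 1
    · exact ⟨C, .inr rfl, by simpa [a1]⟩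
    · obtain ⟨b, hb, i⟩ := t1.mul_mem ha a1 hc
      exact ⟨_, .inl ⟨b, hb, rfl⟩, i⟩
  · rintro _ ⟨x, hx, rfl⟩ E hE ne
    have := s1.le (s2.le (show conjBy E x⁻¹ ∈ {E | ∃ x ∈ B ⊔ D, E = conjBy A x} from
      let ⟨y, hy, e⟩ := hE
      ⟨x⁻¹ * y, mul_mem (inv_mem hx) hy, by rw [e, cj_cj]⟩))
    rcases this with ⟨d, hd, e⟩ | e
    · refine eq_bot_iff.2 fun y hy => ?_
      have h1 := mem_cj.1 ((AD' d hd).ge (mem_cj.1 hy.1))
      have h2 := mem_cj.1 (e.ge (cj_mem' hy.2 x))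
      simpa [mul_eq_one_iff_eq_inv, inv_mul_eq_iff_eq_mul] using i3 _ h1 h2
    · exact absurd (by rw [← show conjBy E x⁻¹ = A from e, cj_cj_inv]) ne
  · rcases r.normal (N := (B ⊔ D) ⊓ centralizer ((A ⊔ C : Subgroup G) : Set G)) inf_le_left
      (fun y hy => by
        ext u
        simp only [mem_cj, mem_inf, mem_centralizer_iff, SetLike.mem_coe]
        refine and_congr ⟨fun h => by simpa [mul_assoc] using mul_mem (mul_mem hy h) (inv_mem hy),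
          fun h => mul_mem (mul_mem (inv_mem hy) h) hy⟩ ⟨fun h v hv => ?_, fun h v hv => ?_⟩
        · have := h _ (mem_cj.1 ((n3 y hy).ge hv))
          calc _ = y * (y⁻¹ * v * y * (y⁻¹ * u * y)) * y⁻¹ := by group
            _ = _ := by rw [this]; group
        · have := h _ ((n3 y hy).le (cj_mem hv y))
          calc _ = y⁻¹ * (y * v * y⁻¹ * u) * y := by group
            _ = _ := by rw [this]; group) with h | h
    · exact h x hx
    · refine absurd (comm_mono (sup_comm' ?_ (comm_symm t1.cB)) h le_rfl) (t2.ne_bot hS')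
      exact comm_iff.2 fun u hu c hc => (hu.2 c (mem_sup_right hc)).symm

end Cfsg.Agent.S5036
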