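import Cfsg.Statements.S5037
import Cfsg.Agent.RS.R2

set_option autoImplicit false
open Cfsg

namespace Cfsg.Agent.S5037

open RS Cfsg Subgroup
theorem key {G : Type*} [Group G] {A B C : Subgroup G} (r : Subgroup G → Subgroup G → Prop)
    (hr : ∀ A C g, r A C → r (conjBy A g) (conjBy C g)) (h : r A C) (h1 : R1 A B) (h2 : R1 C B)
    (hA : ⁅A, A⁆ = ⊥) (hC : ⁅C, C⁆ = ⊥) (e : ⁅A, C⁆ = ⊥) : r C A := by
  obtain ⟨a, ha, b, hb, a1, b1, e1⟩ := h1.ex
  obtain ⟨c, hc, c1, e2⟩ := h2.right hb b1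
  obtain ⟨b', hb', b1', e3⟩ := h1.left (inv_mem ha) (inv_ne_one.2 a1)
  obtain ⟨b'', hb'', -, e4⟩ := h2.left (inv_mem hc) (inv_ne_one.2 c1)
  have ac := cen_of e ha hc
  have k := comm_cj (comm_cj e b) (a⁻¹ * c⁻¹)
  rw [e1, e2, cj_cj, cj_cj, inv_mul_cancel_right, ← mul_inv_rev, ← ac, mul_inv_rev,
    inv_mul_cancel_right, ← e3, ← e4] at k
  obtain rfl : b' = b'' := by
    by_contra n
    have k' := comm_cj k b''⁻¹
    rw [cj_inv_cj, cj_cj] at k'
    have := comm_sup (comm_symm e) k'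
    rw [h1.symm.cj_sup' (mul_mem (inv_mem hb'') hb') (fun i => n (inv_mul_eq_one.1 i).symm)] at this
    exact h2.not_comm (comm_mono this le_rfl le_sup_left)
  have := hr _ _ (b⁻¹ * (a * c)) (hr _ _ b' h)
  rwa [e3, e4, cj_cj, cj_cj, show b⁻¹ * (a * c) * c⁻¹ = b⁻¹ * a by group, ac,
    show b⁻¹ * (c * a) * a⁻¹ = b⁻¹ * c by group, cj_swap e1.symm, cj_swap e2.symm] at this

/-- Let S be a class of abstract root subgroups of G that is either degenerate or non-degenerate (so either the commutator case never occurs, or all three cases occur), and A ≠ C members of S. If every member of S commuting with A commutes with C, then A and C have the same commuting members of S; and if every rank one partner of A is a rank one partner of C, then A and C commute and have the same rank one partners. -/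
theorem result {G : Type*} [Group G] {S : Set (Subgroup G)} (hS : Cfsg.IsRootSubgroupClass S)
    (hdn : Cfsg.IsDegenerateRootSet S ∨ Cfsg.IsNondegenerateRootSet S)
    {A C : Subgroup G} (hA : A ∈ S) (hC : C ∈ S) (hAC : A ≠ C) :
    (Cfsg.centralizingMembers S A ⊆ Cfsg.centralizingMembers S C →
      Cfsg.centralizingMembers S A = Cfsg.centralizingMembers S C) ∧
    (Cfsg.rankOnePartners S A ⊆ Cfsg.rankOnePartners S C →
      ⁅A, C⁆ = ⊥ ∧ Cfsg.rankOnePartners S A = Cfsg.rankOnePartners S C) := by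
  have hS' : Rt S := hS.1
  have cm : ∀ A B : Subgroup G, B ∈ centralizingMembers S A ↔ B ∈ S ∧ ⁅B, A⁆ = ⊥ := fun A B =>
    and_congr_right fun _ => commutator_eq_bot_iff_le_centralizer.symm
  by_cases hr : ∃ A ∈ S, ∃ B ∈ S, R1 A B
  swap
  · have hd := hdn.resolve_right fun h => hr h.2.1
    have k : ∀ A ∈ S, ∀ B ∈ S, ⁅A, B⁆ = ⊥ := fun A hA B hB =>
      (hS.1.pair A hA B hB).resolve_right (not_or.2 ⟨fun h => hr ⟨A, hA, B, hB, h⟩, hd A hA B hB⟩)
    exact ⟨fun h => h.antisymm fun B hB => (cm _ _).2 ⟨hB.1, k B hB.1 A hA⟩, fun h =>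
      ⟨k A hA C hC, h.antisymm fun B hB => absurd ⟨C, hC, B, hB⟩ hr⟩⟩
  have hN := Cl.ni hS hr
  refine ⟨fun h => h.antisymm ?_, fun h => ?_⟩
  · have e := ((cm _ _).1 (h ((cm _ _).2 ⟨hA, hS'.ab hA⟩))).2
    obtain ⟨-, B, hB, h2⟩ := hN C hC
    refine key (fun A C => centralizingMembers S A ⊆ centralizingMembers S C) (fun A C g i D j => ?_)
      h ?_ h2 (hS'.ab hA) (hS'.ab hC) e
    · rw [cm] at j ⊢
      have := comm_cj ((cm _ _).1 (i ((cm _ _).2 ⟨hS'.cj j.1 g⁻¹, by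
        simpa [cj_cj] using comm_cj j.2 g⁻¹⟩))).2 g
      exact ⟨j.1, by simpa [cj_cj] using this⟩
    · rcases hS'.tri hA hB with t | t | t
      · exact absurd ((cm _ _).1 (h ((cm _ _).2 ⟨hB, comm_symm t⟩))).2 h2.symm.not_comm
      · exact t
      obtain ⟨b, hb, b1⟩ := hS'.ex hB
      have := comm_cj (comm_mono (sup_comm' e ((cm _ _).1 (h ((cm _ _).2 ⟨t.mem, t.cA⟩))).2)
        (cj_le_comm hb) le_rfl) b⁻¹
      rw [cj_inv_cj] at this
      have := comm_sup e this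
      rw [h2.symm.cj_sup' (inv_mem hb) (inv_ne_one.2 b1)] at this
      exact absurd (comm_mono this le_rfl le_sup_left) (t.ne_bot hS')
  have e : ⁅A, C⁆ = ⊥ := by
    rcases hS'.tri hA hC with t | t | t
    · exact t
    · exact absurd rfl (h ⟨hC, t⟩).2.ne
    obtain ⟨P, hP, t', e⟩ := hS'.lineP hN t.symm.mem (hS'.ln (hN C hC) t.symm)
    exact absurd ((congrArg (⁅·, P⁆) e).symm.trans t'.cB) (R1.not_comm (h ⟨hP,
      hS'.opp36 hA hP t.symm t'.symm ((commutator_comm _ _).trans e)⟩).2)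
  obtain ⟨-, B, hB, h1⟩ := hN A hA
  refine ⟨e, h.antisymm (key (fun A C => rankOnePartners S A ⊆ rankOnePartners S C)
    (fun A C g i D j => ⟨j.1, ?_⟩) h h1 (h ⟨hB, h1⟩).2 (hS'.ab hA) (hS'.ab hC) e)⟩
  simpa [cj_cj] using R1.conj (i ⟨hS'.cj j.1 g⁻¹, by simpa [cj_cj] using R1.conj j.2 g⁻¹⟩).2 g

end Cfsg.Agent.S5037
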