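import Cfsg.Statements.S5038
import Cfsg.Agent.RS.R2

set_option autoImplicit false
open Cfsg

namespace Cfsg.Agent.S5038

open RS Cfsg Subgroup

/-- Let S be a set of abstract root subgroups of G in which every member has a rank one partner, A ∈ S and B a line partner of A. Then the subgroup generated by the members of S normalizing AB permutes the members of S inside AB doubly transitively by conjugation. -/
theorem result {G : Type*} [Group G] {S : Set (Subgroup G)} (hS : Cfsg.IsRootSubgroupSet S)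
    (hF : ∀ A ∈ S, ¬ Cfsg.IsIsolatedIn (Cfsg.FAdj S) S A) {A B : Subgroup G} (hA : A ∈ S) (hB : B ∈ Cfsg.linePartners S A) :
    ∀ C₁ ∈ Cfsg.membersIn S (A ⊔ B), ∀ C₂ ∈ Cfsg.membersIn S (A ⊔ B), ∀ D₁ ∈ Cfsg.membersIn S (A ⊔ B),
      ∀ D₂ ∈ Cfsg.membersIn S (A ⊔ B), C₁ ≠ C₂ → D₁ ≠ D₂ →
        ∃ x ∈ ⨆ E ∈ Cfsg.normalizingMembers S (A ⊔ B), E, Cfsg.conjBy C₁ x = D₁ ∧ Cfsg.conjBy C₂ x = D₂ := by
  have hS' : Rt S := hS
  have hN : ∀ A ∈ S, NI S A := fun A hA => (ni_iff hA).1 (hF A hA)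
  have hl : Ln S A B := hB
  set Y := ⨆ E ∈ Cfsg.normalizingMembers S (A ⊔ B), E
  have ln : ∀ C ∈ membersIn S (A ⊔ B), ∀ D ∈ membersIn S (A ⊔ B), C ≠ D → Ln S C D ∧ C ⊔ D = A ⊔ B := by
    obtain ⟨E, hE, t, e⟩ := hS'.lineP hN hA hl
    have k : ∀ C ∈ membersIn S (A ⊔ B), C ≠ B → Ln S C B ∧ C ⊔ B = A ⊔ B := fun C hC ne => by
      obtain ⟨u, hu, rfl⟩ := (hS'.members (hN A hA) t hC.1 (e.symm ▸ hC.2)).resolve_right (e ▸ ne)
      have := t.cj_sup hu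
      rw [e] at this
      exact ⟨hl.of_eq hl.mem ne.symm this (comm_mono (hl.ab hS' hA) hC.2 le_sup_right), this⟩
    intro C hC D hD ne
    by_cases h1 : D = B
    · exact h1 ▸ k C hC (h1 ▸ ne)
    by_cases h2 : C = B
    · subst h2
      exact ⟨(k D hD h1).1.symm hD.1, sup_comm C D ▸ (k D hD h1).2⟩
    obtain ⟨u, hu, rfl⟩ := (hS'.members (hN A hA) t hC.1 (e.symm ▸ hC.2)).resolve_right (e ▸ h2)
    obtain ⟨v, hv, rfl⟩ := (hS'.members (hN A hA) t hD.1 (e.symm ▸ hD.2)).resolve_right (e ▸ h1)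
    have t' := t.conj hS' hA hE u
    have e' := cj_comm (A := A) (B := E) (g := u)
    rw [cj_self hu] at t' e'
    have := t'.sup_cj (mul_mem hv (inv_mem hu)) (fun i => ne (by rw [mul_inv_eq_one.1 i]))
    rw [cj_cj, inv_mul_cancel_right, ← e', cj_of_comm fun c hc => cen_of t.cB hc hu, t.cj_sup hu,
      e] at this
    exact ⟨hl.of_eq hD.1 ne.symm this (comm_mono (hl.ab hS' hA) hC.2 hD.2), this⟩
  have fix : ∀ P ∈ membersIn S (A ⊔ B), ∀ C ∈ membersIn S (A ⊔ B), ∀ D ∈ membersIn S (A ⊔ B),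
      C ≠ P → D ≠ P → ∃ x ∈ Y, conjBy P x = P ∧ conjBy C x = D := fun P hP C hC D hD i j => by
    obtain ⟨l, e⟩ := ln C hC P hP i
    obtain ⟨E, hE, t, e'⟩ := hS'.lineP hN hC.1 l
    obtain ⟨u, hu, rfl⟩ := (hS'.members (hN C hC.1) t hD.1 (by rw [e', e]; exact hD.2)).resolve_right
      (e' ▸ j)
    have c : ⁅P, E⁆ = ⊥ := e' ▸ t.cB
    refine ⟨u, (le_iSup₂_of_le (f := fun E (_ : E ∈ normalizingMembers S (A ⊔ B)) => E) E
      ⟨hE, fun x hx => cj_eq_iff.1 ?_⟩ le_rfl) hu, cj_of_comm fun p hp => cen_of c hp hu, rfl⟩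
    rw [← e, sup_comm]
    exact norm_sup c e' x hx
  have nY : ∀ x ∈ Y, conjBy (A ⊔ B) x = A ⊔ B := fun x hx =>
    cj_eq_iff.2 ((iSup₂_le fun E hE => hE.2 : Y ≤ _) hx)
  intro C hC C' hC' D hD D' hD' ne ne'
  obtain ⟨x, hx, e⟩ : ∃ x ∈ Y, conjBy C x = D := by
    by_cases h : C = D
    · exact ⟨1, one_mem _, by simp [h]⟩
    obtain ⟨l, e⟩ := ln C hC D hD h
    obtain ⟨c, hc, c1⟩ := hS'.ex hC.1
    obtain ⟨d, hd, d1⟩ := hS'.ex hD.1
    have n : ∀ x ∈ C, x ∈ D → x = 1 := fun x i j => by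
      by_contra k; exact h (hS'.eq_of_mem (hN C hC.1) hD.1 i j k)
    obtain ⟨P, hP, i, j⟩ := l.ex (mul_mem (mem_sup_left hc) (mem_sup_right hd))
      fun e => c1 (n c hc (eq_inv_of_mul_eq_one_left e ▸ inv_mem hd))
    obtain ⟨x, hx, -, e'⟩ := fix P ⟨hP, e ▸ i⟩ C hC D hD
      (fun e => d1 (n d ((C.mul_mem_cancel_left hc).1 (e.ge j)) hd))
      (fun e => c1 (n c hc ((D.mul_mem_cancel_right hd).1 (e.ge j))))
    exact ⟨x, hx, e'⟩
  obtain ⟨y, hy, e1, e2⟩ := fix D hD _ ⟨hS'.cj hC'.1 x, (cj_mono hC'.2).trans (nY x hx).le⟩ D' hD'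
    (fun i => ne (cj_inj (e.trans i.symm))) ne'.symm
  exact ⟨y * x, mul_mem hy hx, by rw [← cj_cj, e, e1], by rw [← cj_cj, e2]⟩

end Cfsg.Agent.S5038
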