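import Cfsg.Statements.S5039
import Cfsg.Agent.RS.Tv
import Cfsg.Agent.RS.SL
import Cfsg.Agent.S5016

set_option autoImplicit false
universe u
open Cfsg

namespace Cfsg.Agent.S5039

open RS Cfsg Subgroup Relation

theorem map_cj {G H : Type*} [Group G] [Group H] (φ : G →* H) (A : Subgroup G) (g : G) :
    (conjBy A g).map φ = conjBy (A.map φ) (φ g) := by
  simp only [conjBy, Subgroup.map_map]; congr 1; ext; simp

theorem sp_symm {G : Type*} [Group G] {A B : Subgroup G} (h : Sp A B) : Sp B A :=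
  ⟨h.r1.symm, fun b hb b1 a ha a1 e => by simpa [mul_assoc] using congrArg (·⁻¹) (h.2 a ha a1 b hb b1 e.symm).symm⟩

theorem sp_map {G H : Type*} [Group G] [Group H] (φ : G →* H) {A B : Subgroup G} (h : Sp A B)
    (r : R1 (A.map φ) (B.map φ)) : Sp (A.map φ) (B.map φ) := by
  refine ⟨r, ?_⟩
  rintro _ ⟨a, ha, rfl⟩ a1 b hb - e
  have a1' : a ≠ 1 := by rintro rfl; simp at a1
  obtain ⟨b', hb', b1, e'⟩ := h.1.cond_left a ha a1'
  have := congrArg (map φ) e'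
  rw [map_cj, map_cj, map_inv, map_inv, ← e] at this
  have := inv_injective (r.symm.uniq (inv_mem (mem_map_of_mem φ hb')) (inv_mem hb) this)
  simpa [this] using congrArg φ (h.2 a ha a1' b' hb' b1 e')

/-- three elements with all subproducts non-trivial -/
def P3 {G : Type*} [Group G] (B : Subgroup G) : Prop := ∃ b₁ ∈ B, ∃ b₂ ∈ B, ∃ b₃ ∈ B,
  b₁ ≠ 1 ∧ b₂ ≠ 1 ∧ b₃ ≠ 1 ∧ b₂ * b₁ ≠ 1 ∧ b₃ * b₁ ≠ 1 ∧ b₃ * b₂ ≠ 1 ∧ b₃ * (b₂ * b₁) ≠ 1

theorem P3.cj {G : Type*} [Group G] {B : Subgroup G} (h : P3 B) (g : G) : P3 (conjBy B g) := by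
  obtain ⟨a, ha, b, hb, c, hc, h⟩ := h
  exact ⟨_, cj_mem ha g, _, cj_mem hb g, _, cj_mem hc g, by simpa only [conj_mul, ne_eq, conj_eq_one_iff] using h⟩

theorem p3_of {G : Type*} [Group G] {k : Type*} [Field k] (hk : 3 < ENat.card k) {A A₀ : Subgroup G} (le : A₀ ≤ A)
    (x : k → G) (x0 : ∀ t, x t = 1 → t = 0) (xa : ∀ t u, x t * x u = x (t + u)) (m : ∀ t, x t ∈ A₀)
    (n : ¬ P3 A) : A₀ = A := by
  by_contra e
  obtain ⟨c, hc, hc'⟩ := SetLike.exists_of_lt (lt_of_le_of_ne le e)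
  obtain ⟨r, r0, r1⟩ : ∃ r : k, r ≠ 0 ∧ r ≠ -1 := by
    by_contra! h
    have : (Set.univ : Set k) ⊆ {0, -1} := fun r _ => by by_cases i : r = 0 <;> simp [h r, i]
    have h3 := (Set.encard_le_encard this).trans (Set.encard_insert_le _ _)
    rw [Set.encard_singleton, Set.encard_univ] at h3
    exact absurd (hk.trans_le h3) (by decide)
  have k1 : ∀ y ∈ A₀, c * y ≠ 1 := fun y hy e => hc' (eq_inv_of_mul_eq_one_left e ▸ inv_mem hy)
  exact n ⟨_, le (m 1), _, le (m r), c, hc, fun e => one_ne_zero (x0 _ e), mt (x0 _) r0, by simpa using k1 1 (one_mem _),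
    fun e => r1 (eq_neg_of_add_eq_zero_left (x0 _ (xa _ _ ▸ e))), k1 _ (m _), k1 _ (m _), k1 _ (mul_mem (m _) (m _))⟩

/-- Let S be a class of abstract root subgroups of G containing two different commuting members. Suppose that, in case S is degenerate and every element of every member of S has order at most 3, the following holds: for every A ∈ S and every rank one partner B of A there are subgroups A₀ ≤ A and B₀ ≤ B generating an image of SL₂(k) with central kernel, k a field with at least four elements, A₀ and B₀ being the images of the unitriangular subgroups. Then every rank one pair A, B in S is special. -/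
theorem result {G : Type u} [Group G] {S : Set (Subgroup G)} (hS : Cfsg.IsRootSubgroupClass S)
    (hcomm : ∃ A ∈ S, ∃ C ∈ S, A ≠ C ∧ ⁅A, C⁆ = ⊥)
    (hH : Cfsg.IsDegenerateRootSet S → (∀ A ∈ S, ∀ a ∈ A, 0 < orderOf a ∧ orderOf a ≤ 3) →
      ∀ A ∈ S, ∀ B ∈ Cfsg.rankOnePartners S A, ∃ A₀ B₀ : Subgroup G, A₀ ≤ A ∧ B₀ ≤ B ∧
        ∃ (k : Type u) (_ : Field k), 3 < ENat.card k ∧ Cfsg.IsPSL2PairOver k A₀ B₀)
    {A B : Subgroup G} (hA : A ∈ S) (hB : B ∈ Cfsg.rankOnePartners S A) : Cfsg.IsSpecialRankOnePair A B := by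
  have R : Rt S := hS.1
  have r : R1 A B := hB.2
  by_cases hd : IsDegenerateRootSet S
  swap
  · simp only [IsDegenerateRootSet, not_forall, not_not] at hd
    obtain ⟨P, hP, Q, hQ, hd⟩ := hd
    obtain ⟨C, hC, i, j, k, l⟩ := Cl.exists_ln hS ⟨hcomm, ⟨A, hA, B, hB⟩, P, hP, Q, hQ, hd⟩ hA hB.1 r
    exact Rt.special R hA hB.1 hC r j k l
  have tri : ∀ C ∈ S, ∀ D ∈ S, ¬ R1 C D → ⁅C, D⁆ = ⊥ := fun C i D j n =>
    ((R.tri i j).resolve_right fun h => h.elim n fun t => hd C i D j t.rc)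
  by_cases h1 : ∃ C ∈ S, A ≠ C ∧ ⁅A, C⁆ = ⊥ ∧ R1 C B
  · obtain ⟨C, -, i, j, k⟩ := h1
    exact Tr.special ⟨R.ab hA, R.ab hB.1, j, i, r, k⟩
  obtain ⟨C, D, hD, T⟩ : ∃ C, ∃ D ∈ S, Tr A C D := by
    by_contra! h
    obtain ⟨E, hE, C, hC, ne, c⟩ := hcomm
    obtain ⟨g, rfl⟩ := hS.2.2 E hE C hC
    have := R.conn (Cl.ni hS ⟨A, hA, B, hB⟩) hE g
    generalize conjBy E g = C at *
    have k : ∀ F, ReflTransGen (FAdj S) E F → F ≠ C ∧ ⁅F, C⁆ = ⊥ := fun F p => by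
      induction p with
      | refl => exact ⟨ne, c⟩
      | @tail F F' _ q ih =>
        refine ⟨fun e => R1.not_comm (e ▸ q.2.2) ih.2, tri _ q.2.1 _ hC fun k => ?_⟩
        obtain ⟨x, rfl⟩ := hS.2.2 F q.1 A hA
        exact h _ _ (R.cj q.2.1 x) ⟨R.ab hA, R.ab (R.cj q.2.1 x), RS.comm_cj ih.2 x, fun e => ih.1 (cj_inj e),
          R1.conj q.2.2 x, k.symm.conj x⟩
    exact (k C this).1 rfl
  have n : ∀ E ∈ S, ¬ P3 E := fun E hE p => by
    obtain ⟨g, rfl⟩ := hS.2.2 E hE D hD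
    obtain ⟨a, ha, b, hb, c, hc, n1, n2, n3, n4, n5, n6, n7⟩ := p.cj g
    obtain ⟨x, hx, x1, i⟩ := T.third ha hb hc n1 n2 n3 n4 n5 n6 n7 (K := centralizer B) fun g i j y hy z hz =>
      (cen_of (tri _ (R.cj hA g) _ hB.1 fun k => h1 ⟨_, R.cj hA g, j.symm, i, k⟩) hy hz).symm
    exact x1 (r.norm hx (cj_of_comm i))
  obtain ⟨A₀, B₀, lA, lB, k, _, hk, φ, -, h2, h3, h4⟩ := hH hd (fun E hE a ha => by
    by_contra h
    have : ∀ m, 0 < m → m ≤ 3 → a ^ m ≠ 1 := fun m m0 m3 e =>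
      h ⟨(isOfFinOrder_iff_pow_eq_one.2 ⟨m, m0, e⟩).orderOf_pos, (orderOf_le_of_pow_eq_one m0 e).trans m3⟩
    have i1 := this 1 one_pos (by decide)
    have i2 := this 2 two_pos (by decide)
    have i3 := this 3 three_pos le_rfl
    rw [pow_one] at i1
    rw [sq] at i2
    rw [pow_three] at i3
    exact n E hE ⟨a, ha, a, ha, a, ha, i1, i1, i1, i2, i2, i2, i3⟩) A hA B hB
  have c0 : ∀ g : Matrix.SpecialLinearGroup (Fin 2) k, φ g = 1 → g 0 1 = 0 ∧ g 1 0 = 0 := fun g hg => by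
    obtain ⟨r, -, e⟩ := Matrix.SpecialLinearGroup.mem_center_iff.1 (h2 hg)
    constructor <;> · change g.1 _ _ = _; rw [← e]; simp
  obtain rfl := p3_of hk lA (fun t => φ (RS.up t)) (fun t e => by simpa using (c0 _ e).1)
    (fun t u => by rw [← map_mul]; exact congrArg φ ((RS.stSL k).xa t u).symm)
    (fun t => h3 ▸ mem_map_of_mem φ (subset_closure ⟨rfl, rfl, rfl⟩)) (n A hA)
  obtain rfl := p3_of hk lB (fun t => φ (RS.lo t)) (fun t e => by simpa using (c0 _ e).2)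
    (fun t u => by rw [← map_mul]; exact congrArg φ ((RS.stSL k).ya t u).symm)
    (fun t => h4 ▸ mem_map_of_mem φ (subset_closure ⟨rfl, rfl, rfl⟩)) (n B hB.1)
  subst h3 h4
  exact sp_map φ (sp_symm (Cfsg.Agent.S5016.result k).2.1) r

end Cfsg.Agent.S5039
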