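import Cfsg.Statements.S5040
import Cfsg.Agent.RS.R2

set_option autoImplicit false
open Cfsg

namespace Cfsg.Agent.S5040

open RS Cfsg Subgroup Relation

/-- Let S be a non-degenerate class of abstract root subgroups of G and Δ a weak TI-subset of S. Then the members of Δ commute with one another elementwise. -/
theorem result {G : Type*} [Group G] {S : Set (Subgroup G)} (hS : Cfsg.IsRootSubgroupClass S) (hnd : Cfsg.IsNondegenerateRootSet S)
    {Δ : Set (Subgroup G)} (hΔ : Cfsg.IsWeakTISubset S Δ) : Cfsg.IsAbelianFamily Δ := by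
  have hS' : Rt S := hS.1
  have hN := Cl.ni hS hnd.2.1
  obtain ⟨h1, -, h2, h3⟩ := hΔ
  let Y : Subgroup G :=
    { carrier := {g | (fun A => conjBy A g) '' Δ = Δ}
      one_mem' := by simp
      mul_mem' := fun {x y} i j => by
        change _ = _ at i j ⊢
        conv_rhs => rw [← i, ← j]
        simp only [Set.image_image, cj_cj]
      inv_mem' := fun {x} i => by
        change _ = _ at i ⊢
        conv_lhs => rw [← i]
        simp [Set.image_image, cj_cj] }
  have k : ∀ A ∈ Δ, ∀ C ∈ S, ⁅A, C⁆ = ⊥ → C ≤ Y := fun A hA C hC e c hc => by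
    by_cases c1 : c = 1
    · exact c1 ▸ one_mem _
    exact (h3 c ⟨c1, C, hC, hc⟩).resolve_right fun i => Set.disjoint_left.1 i
      ⟨A, hA, cj_of_comm fun a ha => cen_of e ha hc⟩ hA
  have k1 : ∀ A ∈ Δ, ∀ B ∈ Δ, ¬ R1 A B := fun A hA B hB r => h2 (h1.antisymm fun C hC => by
    obtain ⟨g, rfl⟩ := hS.2.2 A (h1 hA) C hC
    have : g ∈ Y := Cl.gen hS hnd (h1 hA) (h1 hB) r (fun C h => k A hA C h.mem h.comm)
      (k B hB B (h1 hB) (hS'.ab (h1 hB))) ▸ mem_top g
    exact (show _ = Δ from this) ▸ ⟨A, hA, rfl⟩)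
  intro A hA B hB
  refine comm_iff.1 (((hS'.tri (h1 hA) (h1 hB)).resolve_right ?_))
  rintro (r | t)
  · exact k1 A hA B hB r
  obtain ⟨P, hP, t', e⟩ := hS'.lineP hN t.mem (hS'.ln (hN A (h1 hA)) t)
  have r := hS'.opp36 (h1 hB) hP t t'.symm ((commutator_comm _ _).trans e)
  obtain ⟨p, hp, p1⟩ := hS'.ex hP
  have : p ∈ Y := k A hA P hP ((congrArg (⁅·, P⁆) e).symm.trans t'.cB) hp
  exact k1 B hB _ ((show _ = Δ from this) ▸ ⟨B, hB, rfl⟩) (r.symm.cj_pair hp p1)

end Cfsg.Agent.S5040
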