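import Cfsg.Statements.S5043
import Cfsg.Agent.H5.Root2

set_option autoImplicit false
open Matrix
open Cfsg

namespace Cfsg.Agent.S5043

open H5 Subgroup

/-- Let k be a field and n a natural number. In SL_{n+3}(k) (so in every dimension at least 3) the conjugates of the root subgroup of elementary transvections 1 + c E₁₂ (c ∈ k) — that is, the groups of transvections attached to an incident point–hyperplane pair — form a non-degenerate class of abstract k-root subgroups of SL_{n+3}(k) whose graph of rank one pairs is connected. -/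
theorem result (k : Type*) [Field k] (n : ℕ) :
    Cfsg.IsRootSubgroupClass {A : Subgroup (Matrix.SpecialLinearGroup (Fin (n + 3)) k) |
        ∃ g : Matrix.SpecialLinearGroup (Fin (n + 3)) k,
          A = Cfsg.conjBy (Subgroup.closure {t : Matrix.SpecialLinearGroup (Fin (n + 3)) k |
            ∃ c : k, (t : Matrix (Fin (n + 3)) (Fin (n + 3)) k) = Matrix.transvection 0 1 c}) g} ∧
    Cfsg.IsNondegenerateRootSet {A : Subgroup (Matrix.SpecialLinearGroup (Fin (n + 3)) k) |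
        ∃ g : Matrix.SpecialLinearGroup (Fin (n + 3)) k,
          A = Cfsg.conjBy (Subgroup.closure {t : Matrix.SpecialLinearGroup (Fin (n + 3)) k |
            ∃ c : k, (t : Matrix (Fin (n + 3)) (Fin (n + 3)) k) = Matrix.transvection 0 1 c}) g} ∧
    Cfsg.IsKRootSubgroupSet k {A : Subgroup (Matrix.SpecialLinearGroup (Fin (n + 3)) k) |
        ∃ g : Matrix.SpecialLinearGroup (Fin (n + 3)) k,
          A = Cfsg.conjBy (Subgroup.closure {t : Matrix.SpecialLinearGroup (Fin (n + 3)) k |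
            ∃ c : k, (t : Matrix (Fin (n + 3)) (Fin (n + 3)) k) = Matrix.transvection 0 1 c}) g} ∧
    Cfsg.IsConnectedFamily (Cfsg.FAdj {A : Subgroup (Matrix.SpecialLinearGroup (Fin (n + 3)) k) |
        ∃ g : Matrix.SpecialLinearGroup (Fin (n + 3)) k,
          A = Cfsg.conjBy (Subgroup.closure {t : Matrix.SpecialLinearGroup (Fin (n + 3)) k |
            ∃ c : k, (t : Matrix (Fin (n + 3)) (Fin (n + 3)) k) = Matrix.transvection 0 1 c}) g})
      {A : Subgroup (Matrix.SpecialLinearGroup (Fin (n + 3)) k) |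
        ∃ g : Matrix.SpecialLinearGroup (Fin (n + 3)) k,
          A = Cfsg.conjBy (Subgroup.closure {t : Matrix.SpecialLinearGroup (Fin (n + 3)) k |
            ∃ c : k, (t : Matrix (Fin (n + 3)) (Fin (n + 3)) k) = Matrix.transvection 0 1 c}) g} := by
  have h3 : 3 ≤ Fintype.card (Fin (n + 3)) := by simp
  have h := rootData_SL (k := k) (ι := Fin (n + 3))
  have m : ∀ {i j : Fin (n + 3)}, i ≠ j → single i j (1 : k) ∈ rk1 k _ := fun h => single_mem h one_ne_zero
  have n01 : (0 : Fin (n + 3)) ≠ 1 := by simp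
  have n12 : (1 : Fin (n + 3)) ≠ 2 := by simp [Fin.ext_iff, Nat.mod_eq_of_lt]
  have n02 : (0 : Fin (n + 3)) ≠ 2 := by simp [Fin.ext_iff, Nat.mod_eq_of_lt]
  have e0 : closure {t : SpecialLinearGroup (Fin (n + 3)) k | ∃ c : k, t.1 = transvection 0 1 c} =
      rt k SpecialLinearGroup.coeMonoidHom (single 0 1 1) := by simp [rt, transvection]
  have e : {A : Subgroup (SpecialLinearGroup (Fin (n + 3)) k) | ∃ g, A = Cfsg.conjBy
      (closure {t : SpecialLinearGroup (Fin (n + 3)) k | ∃ c : k, t.1 = transvection 0 1 c}) g} =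
      rt k SpecialLinearGroup.coeMonoidHom '' rk1 k _ := by
    ext A
    simp only [e0, conjBy_rt]
    refine ⟨fun ⟨g, e⟩ => ⟨_, h.conj _ (m n01) g, e.symm⟩, fun ⟨N, hN, e⟩ => ?_⟩
    obtain ⟨g, rfl⟩ := rk1_conj h3 n01 one_ne_zero hN
    exact ⟨g, e.symm⟩
  have c : Cfsg.IsConjClassOfSubgroups (rt k SpecialLinearGroup.coeMonoidHom '' rk1 k (Fin (n + 3))) := by
    rw [← e]
    refine ⟨⟨_, 1, rfl⟩, ?_⟩
    rintro _ ⟨a, rfl⟩ _ ⟨b, rfl⟩
    exact ⟨b * a⁻¹, by rw [Cfsg.conjBy, Cfsg.conjBy, Subgroup.map_map]; congr 1; ext1; simp [mul_assoc]⟩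
  have a : single (0 : Fin (n + 3)) (1 : Fin (n + 3)) (1 : k) * single 1 0 1 * single 0 1 1 ≠ 0 := by simp [h.ne _ (m n01)]
  rw [e]
  refine ⟨⟨h.rootSet gen_SL, c⟩, ⟨⟨_, ⟨_, m n01, rfl⟩, _, ⟨_, m n02, rfl⟩, fun H => ?_, h.comm_bot (m n01) (m n02) (by simp [n02.symm])⟩,
    ⟨_, ⟨_, m n01, rfl⟩, _, ⟨_, m n01.symm, rfl⟩, h.adj (m n01) (m n01.symm) a⟩, ⟨_, ⟨_, m n01, rfl⟩, _, ⟨_, m n12, rfl⟩,
    h.comm_case (m n01) (m n12) (by simp [n02.symm]) (by simp [n02.symm]) (by simpa [n02.symm] using m n02)⟩⟩,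
    h.kRootSet gen_SL, h.connected gen_SL c (m n01) (m n01.symm) a⟩
  obtain ⟨c, H⟩ := h.eq_smul (m n01) (h.sq _ (m n02)) H.le
  simpa [n12.symm] using congrFun (congrFun H 0) 1


end Cfsg.Agent.S5043
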