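import Cfsg.Statements.S5045
import Cfsg.Agent.RI.C

set_option autoImplicit false
open Cfsg

namespace Cfsg.Agent.S5045

open RI Subgroup Relation

/-- Let G be a finite group generated by a set D of root involutions, and W the set of members of D whose product with every other member of D has even order or is trivial (the isolated vertices of the odd-order-product graph on D). Then W is conjugation-invariant and generates a normal 2-subgroup of G meeting D in exactly W; the commutator of two members of D lying in different connected components of that graph, each with more than one member, lies in the subgroup generated by W; and for a in such a component, every member of D commuting with a, different from a and with product with a in D, lies in that component or in W. -/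
theorem result {G : Type*} [Group G] [Finite G] {D : Set G} (hD : Cfsg.IsRootInvolutionSet D) :
    (∀ w ∈ {w | Cfsg.IsIsolatedElem (Cfsg.OddAdj D) D w}, ∀ g : G, g * w * g⁻¹ ∈ {w | Cfsg.IsIsolatedElem (Cfsg.OddAdj D) D w}) ∧
    (Subgroup.closure {w | Cfsg.IsIsolatedElem (Cfsg.OddAdj D) D w}).Normal ∧
    IsPGroup 2 ↥(Subgroup.closure {w | Cfsg.IsIsolatedElem (Cfsg.OddAdj D) D w}) ∧
    (Subgroup.closure {w | Cfsg.IsIsolatedElem (Cfsg.OddAdj D) D w} : Set G) ∩ D = {w | Cfsg.IsIsolatedElem (Cfsg.OddAdj D) D w} ∧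
    (∀ a ∈ D, ∀ b ∈ D, (∃ a' ∈ Cfsg.elemComponentOf (Cfsg.OddAdj D) D a, a' ≠ a) →
      (∃ b' ∈ Cfsg.elemComponentOf (Cfsg.OddAdj D) D b, b' ≠ b) →
      Cfsg.elemComponentOf (Cfsg.OddAdj D) D a ≠ Cfsg.elemComponentOf (Cfsg.OddAdj D) D b →
        a * b * a⁻¹ * b⁻¹ ∈ Subgroup.closure {w | Cfsg.IsIsolatedElem (Cfsg.OddAdj D) D w}) ∧
    (∀ a ∈ D, (∃ a' ∈ Cfsg.elemComponentOf (Cfsg.OddAdj D) D a, a' ≠ a) →
      Cfsg.productPartners D a ⊆ Cfsg.elemComponentOf (Cfsg.OddAdj D) D a ∪ {w | Cfsg.IsIsolatedElem (Cfsg.OddAdj D) D w}) := by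
  have r := rs_of hD
  set W := {w | IsIsolatedElem (OddAdj D) D w}
  have mW : ∀ w, w ∈ W ↔ w ∈ D ∧ ∀ b ∈ D, ¬ Od w b := fun w => iso_iff
  have c1 : ∀ w ∈ W, ∀ g : G, g * w * g⁻¹ ∈ W := fun w hw g => by
    rw [mW] at hw ⊢
    exact ⟨hD.conj_mem w hw.1 g, fun b hb o => hw.2 _ (hD.conj_mem b hb g⁻¹) (by simpa [mul_assoc] using o.conj g⁻¹)⟩
  have c2 : (closure W).Normal := normalizer_eq_top_iff.1 (eq_top_iff.2 fun g _ => norm_closure fun t ht => c1 t ht g)
  have c3 := r.baer (T := W) (fun w hw => hw.1) (fun a ha b hb => by simpa [r.inv ha.1] using c1 b hb a)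
    fun a ha b hb => ((mW a).1 ha).2 b hb.1
  have sy : ∀ {a b}, ReflTransGen (OddAdj D) a b → ReflTransGen (OddAdj D) b a := fun p => by
    induction p with
    | refl => exact .refl
    | tail _ i j => exact .head (odAdj_symm i) j
  have ce : ∀ {a b c}, c ∈ elemComponentOf (OddAdj D) D a → c ∈ elemComponentOf (OddAdj D) D b →
      elemComponentOf (OddAdj D) D a = elemComponentOf (OddAdj D) D b := fun i j => Set.ext fun x =>
    and_congr_right fun _ => ⟨(j.2.trans (sy i.2)).trans, (i.2.trans (sy j.2)).trans⟩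
  have c6 : ∀ a, (∃ a' ∈ elemComponentOf (OddAdj D) D a, a' ≠ a) → ∀ c, Ln D a c →
      c ∈ elemComponentOf (OddAdj D) D a ∪ W := fun a ⟨a', i, j⟩ c l => by
    obtain ⟨x, ⟨ha, hx, o⟩, -⟩ := i.2.cases_head.resolve_left j.symm
    refine (em _).symm.imp_left fun hc => ⟨l.r, ?_⟩
    rw [mW] at hc
    push Not at hc
    obtain ⟨y, hy, o'⟩ := hc l.r
    rcases r.line l hx o with i | ⟨-, i⟩
    · exact .head ⟨ha, hx, o⟩ (.single ⟨hx, l.r, i.symm⟩)
    rcases r.line l.symm hy o' with j | ⟨-, j⟩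
    · exact .head ⟨ha, hy, j⟩ (.single ⟨hy, l.r, o'.symm⟩)
    · exact .head ⟨ha, hx, o⟩ (.head ⟨hx, l.m, i.symm⟩ (.head ⟨l.m, hy, l.c ▸ j⟩ (.single ⟨hy, l.r, o'.symm⟩)))
  refine ⟨c1, c2, c3, subset_antisymm (fun d hd => (mW d).2 ⟨hd.2, fun b hb => r.not_od c3 hd.2 hb hd.1
    (by rw [normalizer_eq_top]; trivial)⟩) fun w hw => ⟨subset_closure hw, hw.1⟩, fun a ha b hb i j n => ?_,
    fun a ha i c hc => c6 a i c (Ln.symm ⟨hc.1.1, ha, hc.1.2.1, hc.2⟩)⟩
  rcases r.tri ha hb with e | e | e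
  · rw [e]; simp
  · exact absurd (ce ⟨hb, .single ⟨ha, hb, e⟩⟩ ⟨hb, .refl⟩) n
  rw [r.inv ha, r.inv hb]
  rcases c6 a i _ (r.ln_cm ha hb e) with k | k
  · exact subset_closure ((c6 b j _ (r.ln_cm' ha hb e)).resolve_left fun k' => n (ce k k'))
  · exact subset_closure k

end Cfsg.Agent.S5045
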