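import Cfsg.Statements.S5046
import Cfsg.Agent.RI.C

set_option autoImplicit false
open Cfsg

namespace Cfsg.Agent.S5046

open RI

/-- Let G be a finite group generated by a set D of root involutions whose odd-order-product graph is connected, and d ∈ D. Then the members e of D with the same commuting members as d are exactly those for which the union of the commuting members of d and the members whose product with d has order 4 equals the corresponding union for e. -/
theorem result {G : Type*} [Group G] [Finite G] {D : Set G} (hD : Cfsg.IsRootInvolutionSet D)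
    (hc : Cfsg.IsConnectedSet (Cfsg.OddAdj D) D) {d : G} (hd : d ∈ D) :
    Cfsg.sameCommutingClass D d =
      {e | e ∈ D ∧ Cfsg.commutingMembers D d ∪ Cfsg.fourPartners D d = Cfsg.commutingMembers D e ∪ Cfsg.fourPartners D e} := by
  by_cases n : ∃ e ∈ D, d ≠ e
  swap
  · push Not at n
    exact Set.ext fun e => and_congr_right fun he => by rw [← n e he]; simp
  obtain ⟨e, he, n⟩ := n
  have h := cn_of_conn hD hc hd he n
  have k : ∀ d ∈ D, ∀ x, x ∈ commutingMembers D d ∪ fourPartners D d ↔ x ∈ D ∧ ¬ Od d x := fun d hd x =>
    ⟨fun i => i.elim (fun i => ⟨i.1, fun o => h.rs.od_nc hd i.1 o i.2.symm⟩) fun i =>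
      ⟨i.1, fun o => h.rs.od_nf hd o i.2⟩, fun ⟨hx, o⟩ => (h.rs.tri hd hx).imp (fun i => ⟨hx, i.symm⟩)
        fun i => ⟨hx, i.resolve_left o⟩⟩
  ext e
  rw [h.same_iff hd]
  refine and_congr_right fun he => ⟨fun v => Set.ext fun x => ?_, fun i x hx => ?_⟩
  · rw [k d hd, k e he]
    exact and_congr_right fun hx => not_congr (v x hx)
  · have := Set.ext_iff.1 i x
    rw [k d hd, k e he] at this
    tauto

end Cfsg.Agent.S5046
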