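import Cfsg.Statements.S5048
import Cfsg.Agent.RI.C

set_option autoImplicit false
open Cfsg

namespace Cfsg.Agent.S5048

open RI Subgroup Relation
open scoped commutatorElement

/-- Let G be a finite group generated by a set D of root involutions whose odd-order-product graph is connected, with some product of two different commuting members of D again in D. Then the largest solvable normal subgroup of G is the preimage of the centre of G/O₂(G), and the quotient of G by it is a simple group. -/
theorem result {G : Type*} [Group G] [Finite G] {D : Set G} (hD : Cfsg.IsRootInvolutionSet D)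
    (hc : Cfsg.IsConnectedSet (Cfsg.OddAdj D) D) (hDD : (D ∩ Cfsg.commutingProducts D).Nonempty) :
    Cfsg.solvableRadical G = Cfsg.twoZCore G ∧ IsSimpleGroup (G ⧸ Cfsg.twoZCore G) := by
  haveI : Fact (Nat.Prime 2) := ⟨Nat.prime_two⟩
  obtain ⟨_, hm, a, ha, b, hb, ab, -, rfl⟩ := hDD
  have r := rs_of hD
  have l : Ln D a b := ⟨ha, hb, ab, hm⟩
  have h := cn_of_conn hD hc ha hb fun e => r.ne _ hm (by rw [← e, r.sq a ha])
  have hO := H9.pCore_p (G := G) 2
  have top : ∀ N : Subgroup G, N.Normal → ∀ d ∈ D, d ∈ N → N = ⊤ := fun N hN d hd i => by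
    rw [eq_top_iff, ← hD.generates, closure_le]
    intro e he
    obtain ⟨g, rfl⟩ := h.cl d hd e he
    exact hN.conj_mem d i g
  have key : ∀ N : Subgroup G, N.Normal → N ≠ ⊤ → N ≤ twoZCore G := fun N hN nt => by
    have nd : ∀ d ∈ D, d ∉ N := fun d hd i => nt (top N hN d hd i)
    have mk := @QuotientGroup.eq_one_iff G _ N hN
    have c : ∀ d ∈ D, ∀ n ∈ N, d * (n * d * n⁻¹) = n * d * n⁻¹ * d := fun d hd n hn => by
      obtain ⟨b, l⟩ : ∃ b, Ln D d b := by
        obtain ⟨g, rfl⟩ := h.cl a ha d hd
        exact ⟨g * b * g⁻¹, hd, hD.conj_mem b hb g, by simp [mul_assoc, ← mul_assoc a, ab], by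
          simpa [mul_assoc] using hD.conj_mem _ hm g⟩
      have hx := hD.conj_mem d hd n
      have e : ((n * d * n⁻¹ : G) : G ⧸ N) = d := by simp [(mk n).2 hn]
      generalize n * d * n⁻¹ = x at hx e
      have k : ∀ c ∈ D, c * d = d * c → cm c x ∈ N := fun c hc i => by
        rw [← mk]
        simp only [cm, QuotientGroup.mk_mul, e]
        simp only [← QuotientGroup.mk_mul]
        rw [i, mul_assoc d, r.sq c hc, mul_one, r.sq d hd, QuotientGroup.mk_one]
      rcases r.tri hd hx with i | i | i
      · exact i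
      · rcases r.line l hx i with j | ⟨j, -⟩
        · refine absurd ((mk _).1 ?_) (nd _ l.symm.m)
          rw [QuotientGroup.mk_mul, ← e]
          exact (mk _).2 (mem_of_sq j.2 (by simpa [cm, mul_assoc] using k b l.r l.c.symm))
        · exact absurd (k b l.r l.c.symm) (nd _ (r.cm_mem l.r hx j))
      · exact absurd (k d hd rfl) (nd _ (r.cm_mem hd hx i))
    intro n hn
    have : (centralizer {(n : G ⧸ pCore 2 G)}).comap (QuotientGroup.mk' _) = ⊤ := by
      rw [eq_top_iff, ← hD.generates, closure_le]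
      intro d hd
      set T := {t | ∃ n ∈ N, t = n * d * n⁻¹}
      have c1 : ∀ g ∈ N, ∀ t ∈ T, g * t * g⁻¹ ∈ T := by
        rintro g hg _ ⟨n, hn, rfl⟩
        exact ⟨g * n, mul_mem hg hn, by group⟩
      have c2 : ∀ s ∈ T, ∀ t ∈ T, s * t = t * s := by
        rintro _ ⟨m, hm, rfl⟩ _ ⟨n, hn, rfl⟩
        have := c d hd _ (mul_mem (inv_mem hm) hn)
        calc _ = m * (d * (m⁻¹ * n * d * (m⁻¹ * n)⁻¹)) * m⁻¹ := by group
          _ = _ := by rw [this]; group
      have c3 : T ⊆ D := by rintro _ ⟨n, -, rfl⟩; exact hD.conj_mem d hd n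
      have p := r.baer c3 (fun s hs t ht => by rwa [c2 s hs t ht, mul_assoc, r.sq s (c3 hs), mul_one])
        fun s hs t ht o => r.od_nc (c3 hs) (c3 ht) o (c2 s hs t ht)
      haveI : (H9.Op 2 N).Normal := normalizer_eq_top_iff.1 (eq_top_iff.2
        (H9.normalizer_Op (by rw [normalizer_eq_top])))
      have m := H9.le_pCore (H9.Op_p 2 N) (H9.le_Op inf_le_right (H9.normalizer_inf
        (fun g hg => norm_closure (c1 g hg)) le_normalizer) (p.to_inf_left (K := N))
        (show d * (n * d * n⁻¹) ∈ _ from ⟨mul_mem (subset_closure ⟨1, one_mem _, by simp⟩)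
          (subset_closure ⟨n, hn, rfl⟩), by
            simpa [r.inv hd, mul_assoc] using mul_mem (hN.conj_mem n hn d) (inv_mem hn)⟩))
      rw [SetLike.mem_coe, mem_comap, mem_centralizer_singleton_iff, ← commutatorElement_eq_one_iff_mul_comm,
        QuotientGroup.mk'_apply, commutatorElement_def]
      simp only [← QuotientGroup.mk_inv, ← QuotientGroup.mk_mul]
      rw [QuotientGroup.eq_one_iff, r.inv hd]
      simpa only [mul_assoc] using m
    refine mem_center_iff.2 fun g => ?_
    obtain ⟨g, rfl⟩ := QuotientGroup.mk_surjective g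
    exact mem_centralizer_singleton_iff.1 (this.ge (mem_top g))
  have nt : twoZCore G ≠ ⊤ := fun e => by
    obtain ⟨x, hx, o⟩ := h.ni a ha
    have := mem_center_iff.1 (e.ge (mem_top a)) (x : G ⧸ pCore 2 G)
    rw [QuotientGroup.mk'_apply, ← QuotientGroup.mk_mul, ← QuotientGroup.mk_mul, QuotientGroup.eq,
      mul_inv_rev, r.inv ha, r.inv hx] at this
    exact r.od_ne_one ha o (eq_one_of_mem hO o.2 (mem_of_sq o.2 this))
  have pf : commutator G = ⊤ := top _ inferInstance b hb (by
    obtain ⟨g, e⟩ := h.cl a ha _ hm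
    have : b = ⁅a⁻¹, g⁆ := by rw [commutatorElement_def, inv_inv, mul_assoc, mul_assoc, ← mul_assoc g, ← e]; simp
    exact this ▸ commutator_mem_commutator (mem_top _) (mem_top _))
  refine ⟨le_antisymm (sSup_le fun N hN => key N hN.1 fun e => ?_) (le_sSup ⟨inferInstance, ?_⟩), ?_⟩
  · subst e
    haveI := hN.2
    haveI := Group.isSolvable_of_surjective (f := (⊤ : Subgroup G).subtype) fun x => ⟨⟨x, trivial⟩, rfl⟩
    haveI : Nontrivial G := ⟨⟨a, 1, r.ne a ha⟩⟩
    exact (Group.IsSolvable.commutator_lt_top_of_nontrivial G).ne pf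
  · haveI := hO.isNilpotent
    haveI : Group.IsSolvable ((pCore 2 G).subgroupOf (twoZCore G)) :=
      haveI : Group.IsNilpotent ((pCore 2 G).subgroupOf (twoZCore G)) :=
        (hO.comap_subtype (K := twoZCore G)).isNilpotent
      inferInstance
    haveI : Group.IsSolvable (center (G ⧸ pCore 2 G)) := Group.isSolvable_of_comm fun x y =>
      Subtype.ext (mem_center_iff.1 y.2 x)
    refine Group.isSolvable_of_ker_le_range ((pCore 2 G).subgroupOf (twoZCore G)).subtype
      ((QuotientGroup.mk' _).subgroupComap (center (G ⧸ pCore 2 G))) fun x hx => ?_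
    rw [range_subtype]
    exact (QuotientGroup.eq_one_iff (x : G)).1 (congrArg Subtype.val hx)
  · haveI : Nontrivial (G ⧸ twoZCore G) := QuotientGroup.nontrivial_iff.2 nt
    refine ⟨fun N hN => ?_⟩
    by_cases e : N.comap (QuotientGroup.mk' _) = ⊤
    · exact .inr (comap_injective (QuotientGroup.mk'_surjective _) (by rw [e, comap_top]))
    · refine .inl (eq_bot_iff.2 fun x hx => ?_)
      obtain ⟨x, rfl⟩ := QuotientGroup.mk_surjective x
      exact (QuotientGroup.eq_one_iff x).2 (key _ inferInstance e hx)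

end Cfsg.Agent.S5048
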