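import Cfsg.Statements.S5049
import Cfsg.Agent.RI.C

set_option autoImplicit false
open Cfsg

namespace Cfsg.Agent.S5049

open RI Subgroup
open scoped commutatorElement

/-- Let G be a finite group generated by a set D of odd transpositions (root involutions with no product of order 4), Q = O₂(G), and for a ∈ D let Q_a be the commutator subgroup of Q with a. Then every member of D commuting with a centralizes Q_a; and for b ∈ D with ab of odd order greater than 1, the centralizer of ab in Q is the intersection of the centralizers of a and b in Q. -/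
theorem result {G : Type*} [Group G] [Finite G] {D : Set G} (hD : Cfsg.IsOddTranspositionSet D) {a : G} (ha : a ∈ D) :
    (∀ e ∈ Cfsg.commutingMembers D a, ∀ q ∈ ⁅Cfsg.pCore 2 G, Subgroup.zpowers a⁆, e * q = q * e) ∧
    (∀ b ∈ Cfsg.oddPartners D a,
      Cfsg.pCore 2 G ⊓ Subgroup.centralizer {a * b} = Cfsg.pCore 2 G ⊓ Subgroup.centralizer {a} ⊓ Subgroup.centralizer {b}) := by
  have r := rs_of hD.1
  have hO := H9.pCore_p (G := G) 2
  have hN : (pCore 2 G).Normal := inferInstance
  refine ⟨fun e he q hq => ?_, fun b hb => le_antisymm (fun q hq => ?_) fun q hq => ⟨hq.1.1, ?_⟩⟩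
  · refine (mem_centralizer_singleton_iff.1 ((commutator_le (H₃ := centralizer {e})).2 (fun u hu v hv => ?_) hq)).symm
    have ea : a ∈ centralizer {e} := mem_centralizer_singleton_iff.2 he.2.symm
    have : u * a * u⁻¹ ∈ centralizer {e} := by
      rw [mem_centralizer_singleton_iff]
      rcases r.tri (hD.1.conj_mem a ha u) he.1 with i | i | i
      · exact i
      · refine absurd (eq_one_of_mem (IsPGroup.to_sup_of_normal_right (IsPGroup.to_sup_of_normal_right'
          (r.zp ha) (r.zp he.1) (zpowers_le.2 (centralizer_le_normalizer _ (by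
            rwa [zpowers_eq_closure, centralizer_closure])))) hO) i.2 ?_) (r.od_ne_one (hD.1.conj_mem a ha u) i)
        rw [show u * a * u⁻¹ * e = u * (a * u⁻¹ * a⁻¹) * (a * e) by group]
        exact mul_mem (mem_sup_right (mul_mem hu (hN.conj_mem _ (inv_mem hu) a)))
          (mem_sup_left (mul_mem (mem_sup_left (mem_zpowers a)) (mem_sup_right (mem_zpowers e))))
      · exact absurd i (hD.2 _ (hD.1.conj_mem a ha u) e he.1)
    obtain ⟨n, rfl⟩ := hv
    rw [commutatorElement_def, ← conj_zpow]
    exact mul_mem (zpow_mem this n) (inv_mem (zpow_mem ea n))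
  · have o : Od a b := ⟨hb.2.1.symm, hb.2.2⟩
    have e := mem_centralizer_singleton_iff.1 hq.2
    have e' : q⁻¹ * (a * b) = a * b * q⁻¹ := (Commute.inv_left e).eq
    have e2 : a * q * a * (a * b) = a * b * (a * q * a) := by
      have := (Commute.inv_right e).eq
      rw [mul_inv_rev, r.inv ha, r.inv hb.1] at this
      calc _ = a * (q * (b * a)) * a := by simp [mul_assoc, r.cc ha, r.sq a ha]
        _ = _ := by rw [this]; simp only [mul_assoc]
    have m : q⁻¹ * (a * q * a) ∈ pCore 2 G := mul_mem (inv_mem hq.1) (by simpa [r.inv ha] using hN.conj_mem q hq.1 a)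
    have c : q⁻¹ * (a * q * a) * (a * b) = a * b * (q⁻¹ * (a * q * a)) := (Commute.mul_left e' e2).eq
    have ha' := hD.1.conj_mem a ha q⁻¹
    have e3 : q⁻¹ * a * q⁻¹⁻¹ * b = q⁻¹ * (a * q * a) * (a * b) := by simp [mul_assoc, r.cc ha]
    have k : q⁻¹ * (a * q * a) = 1 := by
      obtain ⟨k, hk⟩ := hO ⟨_, m⟩
      replace hk : (q⁻¹ * (a * q * a)) ^ 2 ^ k = 1 := congrArg Subtype.val hk
      rcases r.tri ha' hb.1 with i | i | i
      · refine absurd (eq_one_of_pow (k := k + 1) o.2 ?_) (r.od_ne_one ha o)
        have : (q⁻¹ * a * q⁻¹⁻¹ * b) ^ 2 = 1 := by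
          rw [Commute.mul_pow i, pow_two, pow_two, r.sq _ ha', r.sq b hb.1, one_mul]
        have := congrArg (· ^ 2 ^ k) this
        simp only [← pow_mul, one_pow] at this
        rwa [e3, Commute.mul_pow c, mul_comm 2, pow_mul, hk, one_pow, one_mul, ← pow_succ] at this
      · obtain ⟨n, hn, e1⟩ := oe_iff.1 o.2
        obtain ⟨m, hm, e2⟩ := oe_iff.1 i.2
        refine eq_one_of_pow (oe_iff.2 ⟨n * m, hn.mul hm, ?_⟩) hk
        have := congrArg (· ^ n) e2
        simp only [← pow_mul, one_pow] at this
        rwa [e3, Commute.mul_pow c, mul_comm m, pow_mul (a * b), e1, one_pow, mul_one] at this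
      · exact absurd i (hD.2 _ ha' b hb.1)
    have k1 : q * a = a * q := by
      rw [inv_mul_eq_one] at k
      conv_lhs => rw [k]
      rw [mul_assoc, r.sq a ha, mul_one]
    refine ⟨⟨hq.1, mem_centralizer_singleton_iff.2 k1⟩, mem_centralizer_singleton_iff.2 ?_⟩
    rw [← mul_assoc, k1, mul_assoc, mul_assoc] at e
    exact mul_left_cancel e
  · exact mem_centralizer_singleton_iff.2 (Commute.mul_right (mem_centralizer_singleton_iff.1 hq.1.2)
      (mem_centralizer_singleton_iff.1 hq.2)).eq

end Cfsg.Agent.S5049
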