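import Cfsg.Statements.S5057


set_option autoImplicit false
open Cfsg

namespace Cfsg.Agent.S5057

open scoped Pointwise
abbrev P6 := Equiv.Perm (Fin 6)
def d0 : P6 := Equiv.swap 0 1 * Equiv.swap 2 3

theorem ct (g : P6) (h : orderOf g = 2) (hs : Equiv.Perm.sign g = 1) : g.cycleType = Multiset.replicate 2 2 := by
  obtain ⟨m, hm⟩ := Equiv.Perm.cycleType_prime_order (σ := g) (h ▸ Nat.prime_two)
  rw [h] at hm
  have h1 := g.sum_cycleType_le
  have h2 := g.sign_of_cycleType
  rw [hm, Multiset.sum_replicate, smul_eq_mul, Fintype.card_fin] at h1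
  rw [hs, hm, Multiset.sum_replicate, smul_eq_mul, Multiset.card_replicate] at h2
  have : m ≤ 2 := by omega
  interval_cases m
  · exact absurd h2 (by decide)
  · exact hm
  · exact absurd h2 (by decide)

theorem od0 : orderOf d0 = 2 := orderOf_eq_prime (by decide) (by decide)
theorem sd0 : Equiv.Perm.sign d0 = 1 := by simp [d0]

theorem cj (g : P6) (h : orderOf g = 2) (hs : Equiv.Perm.sign g = 1) :
    ∃ σ : P6, Equiv.Perm.sign σ = 1 ∧ g = σ * d0 * σ⁻¹ := by
  have : IsConj d0 g := Equiv.Perm.isConj_iff_cycleType_eq.2 ((ct _ od0 sd0).trans (ct g h hs).symm)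
  obtain ⟨σ, hσ⟩ := isConj_iff.1 this
  rcases Int.units_eq_one_or (Equiv.Perm.sign σ) with h1 | h1
  · exact ⟨σ, h1, hσ.symm⟩
  · refine ⟨σ * Equiv.swap 0 1, by simp [h1], ?_⟩
    have : Equiv.swap (0 : Fin 6) 1 * d0 * (Equiv.swap (0 : Fin 6) 1)⁻¹ = d0 := by decide
    rw [← hσ, mul_inv_rev]
    conv_lhs => rw [← this]
    group

theorem tab : ∀ a b c d : Fin 6, a ≠ b → c ≠ d → (d0 * (Equiv.swap a b * Equiv.swap c d)) ^ 3 = 1 ∨
    (d0 * (Equiv.swap a b * Equiv.swap c d)) ^ 4 = 1 ∨ (d0 * (Equiv.swap a b * Equiv.swap c d)) ^ 5 = 1 := by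
  decide +kernel

theorem pw (d e : alternatingGroup (Fin 6)) (hd : orderOf d = 2) (he : orderOf e = 2) :
    (d * e) ^ 3 = 1 ∨ (d * e) ^ 4 = 1 ∨ (d * e) ^ 5 = 1 := by
  obtain ⟨σ, -, h1⟩ := cj d (by rw [Subgroup.orderOf_coe, hd]) d.2
  obtain ⟨τ, -, h2⟩ := cj e (by rw [Subgroup.orderOf_coe, he]) e.2
  set ρ := σ⁻¹ * τ
  have h3 : ((d * e : alternatingGroup (Fin 6)) : P6) =
      σ * (d0 * (Equiv.swap (ρ 0) (ρ 1) * Equiv.swap (ρ 2) (ρ 3))) * σ⁻¹ := by
    rw [Equiv.swap_apply_apply, Equiv.swap_apply_apply, Subgroup.coe_mul, h1, h2]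
    simp only [ρ, d0]
    group
  have := tab (ρ 0) (ρ 1) (ρ 2) (ρ 3) (ρ.injective.ne (by decide)) (ρ.injective.ne (by decide))
  simp only [Subtype.ext_iff, Subgroup.coe_pow, h3, conj_pow, Subgroup.coe_one]
  rcases this with h | h | h <;> simp [h]

/-- The involutions of the alternating group of degree 6 form a class of root involutions (a single conjugacy class of involutions generating the group, any two of which commute, have product of odd order, or have product of order 4 whose square is again an involution of the class), and the product of any two of them has order at most 5. -/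
theorem result :
    Cfsg.IsRootInvolutionClass {g : ↥(alternatingGroup (Fin 6)) | orderOf g = 2} ∧
    ∀ d ∈ {g : ↥(alternatingGroup (Fin 6)) | orderOf g = 2}, ∀ e ∈ {g : ↥(alternatingGroup (Fin 6)) | orderOf g = 2},
      orderOf (d * e) ≤ 5 := by
  constructor
  · refine ⟨⟨fun d hd => hd, ?_, ?_, ?_⟩, ⟨⟨d0, sd0⟩, by simp only [Set.mem_setOf_eq]; rw [← Subgroup.orderOf_coe]; exact od0⟩, ?_⟩
    · haveI : IsSimpleGroup (alternatingGroup (Fin 6)) := alternatingGroup.isSimpleGroup (by simp)
      have hN : (Subgroup.closure {g : ↥(alternatingGroup (Fin 6)) | orderOf g = 2}).Normal := by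
        constructor
        intro n hn g
        induction hn using Subgroup.closure_induction with
        | mem x hx =>
          apply Subgroup.subset_closure
          simp only [Set.mem_setOf_eq] at hx ⊢
          rw [← hx]
          exact (MulAut.conj g).orderOf_eq x
        | one => simp
        | mul x y _ _ h1 h2 =>
          have : g * (x * y) * g⁻¹ = g * x * g⁻¹ * (g * y * g⁻¹) := by group
          rw [this]; exact mul_mem h1 h2
        | inv x _ h1 =>
          have : g * x⁻¹ * g⁻¹ = (g * x * g⁻¹)⁻¹ := by group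
          rw [this]; exact inv_mem h1
      refine (hN.eq_bot_or_eq_top).resolve_left fun h => ?_
      have : (⟨d0, sd0⟩ : alternatingGroup (Fin 6)) ∈ Subgroup.closure {g : ↥(alternatingGroup (Fin 6)) | orderOf g = 2} :=
        Subgroup.subset_closure (by simp only [Set.mem_setOf_eq]; rw [← Subgroup.orderOf_coe]; exact od0)
      rw [h, Subgroup.mem_bot, Subtype.ext_iff] at this
      exact absurd this (by decide)
    · intro d hd g
      simp only [Set.mem_setOf_eq] at hd ⊢
      rw [← hd]
      exact (MulAut.conj g).orderOf_eq d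
    · intro a ha b hb
      simp only [Set.mem_setOf_eq] at ha hb ⊢
      rcases pw a b ha hb with h | h | h
      · exact Or.inr (Or.inl ((by decide : Odd 3).of_dvd_nat (orderOf_dvd_of_pow_eq_one h)))
      · by_cases h2 : (a * b) ^ 2 = 1
        · left
          have a2 : a * a = 1 := by rw [← pow_two, ← ha, pow_orderOf_eq_one]
          have b2 : b * b = 1 := by rw [← pow_two, ← hb, pow_orderOf_eq_one]
          calc a * b = (a * b)⁻¹ := (inv_eq_of_mul_eq_one_left (by rw [← pow_two, h2])).symm
            _ = b * a := by rw [mul_inv_rev, inv_eq_of_mul_eq_one_left a2, inv_eq_of_mul_eq_one_left b2]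
        · refine Or.inr (Or.inr ⟨?_, orderOf_eq_prime (by rw [← pow_mul, h]) h2⟩)
          exact orderOf_eq_prime_pow (p := 2) (n := 1) (by simpa using h2) (by simpa using h)
      · exact Or.inr (Or.inl ((by decide : Odd 5).of_dvd_nat (orderOf_dvd_of_pow_eq_one h)))
    · intro a ha b hb
      obtain ⟨σ, s1, h1⟩ := cj a (by rw [Subgroup.orderOf_coe]; exact ha) a.2
      obtain ⟨τ, s2, h2⟩ := cj b (by rw [Subgroup.orderOf_coe]; exact hb) b.2
      refine ⟨⟨τ * σ⁻¹, by simp [Equiv.Perm.mem_alternatingGroup, s1, s2]⟩, Subtype.ext ?_⟩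
      simp only [Subgroup.coe_mul, Subgroup.coe_inv, h1, h2]
      group
  · intro d hd e he
    rcases pw d e hd he with h | h | h <;>
      exact (Nat.le_of_dvd (by norm_num) (orderOf_dvd_of_pow_eq_one h)).trans (by norm_num)

end Cfsg.Agent.S5057
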