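import Cfsg.Statements.S5058
import Cfsg.Agent.H5.Root2

set_option autoImplicit false
open Matrix
open Cfsg

namespace Cfsg.Agent.S5058

open H5 Subgroup

theorem odd_ord {F : Type*} [Field F] [Finite F] [CharP F 2] {g : SL2 F} (h : g.1.trace ≠ 0) : Odd (orderOf g) := by
  by_contra c
  obtain ⟨m, hm⟩ := Nat.not_odd_iff_even.1 c
  have p := orderOf_pos g
  have h1 : g ^ m ≠ 1 := pow_ne_one_of_lt_orderOf (by omega) (by omega)
  have h2 : g ^ m * g ^ m = 1 := by rw [← pow_add, ← hm, pow_orderOf_eq_one]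
  have h3 : g ^ m * g = g * g ^ m := by rw [← pow_succ, pow_succ']
  generalize g ^ m = x at h1 h2 h3
  obtain ⟨a, b, c, d, e, rfl⟩ := exists_sl2 g
  obtain ⟨a', b', c', d', e', rfl⟩ := exists_sl2 x
  have t : (2 : F) = 0 := CharTwo.two_eq_zero
  simp only [ne_eq, one_eq_sl2, sl2_mul, sl2_eq_iff] at h1 h2 h3
  simp [sl2, trace_fin_two] at h
  grind

/-- Let F be a finite field of characteristic 2 and n a natural number. Then the transvections of SL_{n+3}(F) (so in every dimension at least 3) (the conjugates of the elementary matrices 1 + c E₁₂, c ≠ 0) form a class of root involutions of SL_{n+3}(F); when F has two elements they form a class of {3,4}⁺-transpositions (every product of odd order has order 1 or 3). -/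
theorem result (F : Type*) [Field F] [Fintype F] [CharP F 2] (n : ℕ) :
    Cfsg.IsRootInvolutionClass {t : Matrix.SpecialLinearGroup (Fin (n + 3)) F | ∃ c : F, c ≠ 0 ∧
        ∃ g : Matrix.SpecialLinearGroup (Fin (n + 3)) F, ((g⁻¹ * t * g : Matrix.SpecialLinearGroup (Fin (n + 3)) F) :
          Matrix (Fin (n + 3)) (Fin (n + 3)) F) = Matrix.transvection 0 1 c} ∧
    (Fintype.card F = 2 → Cfsg.IsThreeFourPlusTranspositionSet {t : Matrix.SpecialLinearGroup (Fin (n + 3)) F | ∃ c : F, c ≠ 0 ∧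
        ∃ g : Matrix.SpecialLinearGroup (Fin (n + 3)) F, ((g⁻¹ * t * g : Matrix.SpecialLinearGroup (Fin (n + 3)) F) :
          Matrix (Fin (n + 3)) (Fin (n + 3)) F) = Matrix.transvection 0 1 c}) := by
  have h3 : 3 ≤ Fintype.card (Fin (n + 3)) := by simp
  have h := rootData_SL (k := F) (ι := Fin (n + 3))
  have n01 : (0 : Fin (n + 3)) ≠ 1 := by simp
  have t2 : (2 : F) = 0 := CharTwo.two_eq_zero
  have i1 : ∀ g : SpecialLinearGroup (Fin (n + 3)) F, g.1 * (g⁻¹).1 = 1 := fun g => congrArg Subtype.val (mul_inv_cancel g)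
  have cj : ∀ (g t : SpecialLinearGroup (Fin (n + 3)) F) N, t.1 = 1 + N → (g * t * g⁻¹).1 = 1 + g.1 * N * (g⁻¹).1 := fun g t N e => by
    change g.1 * t.1 * (g⁻¹).1 = _
    rw [e, mul_add, add_mul, mul_one, i1]
  generalize hD : {t : SpecialLinearGroup (Fin (n + 3)) F | ∃ c : F, c ≠ 0 ∧ ∃ g : SpecialLinearGroup (Fin (n + 3)) F,
    (g⁻¹ * t * g).1 = transvection 0 1 c} = D
  have e : ∀ t, t ∈ D ↔ ∃ N ∈ rk1 F _, t.1 = 1 + N := fun t => by
    rw [← hD]
    refine ⟨fun ⟨c, hc, g, e⟩ => ⟨_, h.conj _ (single_mem n01 hc) g, by simpa [mul_assoc] using cj g _ _ e⟩, fun ⟨N, hN, e⟩ => ?_⟩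
    obtain ⟨g, rfl⟩ := rk1_conj h3 n01 one_ne_zero hN
    obtain ⟨s, hs⟩ := h.mem _ (single_mem n01 one_ne_zero)
    obtain rfl : t = g * s * g⁻¹ := Subtype.ext (e.trans (cj g s _ hs).symm)
    exact ⟨1, one_ne_zero, g, by simpa [mul_assoc, transvection] using hs⟩
  have sq : ∀ t ∈ D, t * t = 1 := fun t ht => by
    obtain ⟨N, hN, e⟩ := (e t).1 ht
    refine Subtype.ext ?_
    change t.1 * t.1 = 1
    rw [e, mul_add, add_mul, add_mul, h.sq N hN]
    simp [add_assoc, ← two_smul F N, t2]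
  have o2 : ∀ t ∈ D, orderOf t = 2 := fun t ht => by
    obtain ⟨N, hN, e⟩ := (e t).1 ht
    exact orderOf_eq_prime (by rw [_root_.sq, sq t ht]) (by rintro rfl; simpa [h.ne N hN] using e)
  have P : ∀ a ∈ D, ∀ b ∈ D, a * b = b * a ∨ (Odd (orderOf (a * b)) ∧ (Fintype.card F = 2 → orderOf (a * b) = 3)) ∨
      (orderOf (a * b) = 4 ∧ (a * b) ^ 2 ∈ D) := fun a ha b hb => by
    obtain ⟨N, hN, e1⟩ := (e a).1 ha
    obtain ⟨M, hM, e2⟩ := (e b).1 hb
    obtain ⟨δ, h1, h2, h3⟩ := h.ext N hN M hM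
    by_cases d : δ = 0
    · rw [d, zero_smul] at h1 h2
      refine (h3 d).imp (fun c => Subtype.ext (by simp [e1, e2, mul_add, add_mul, c]; abel)) fun c => .inr ?_
      have : (a * b) ^ 2 ∈ D := (e _).2 ⟨_, c, by
        have := comm_eq (ρ := SpecialLinearGroup.coeMonoidHom) (s := (1 : F)) (t := 1) (h.sq N hN) (h.sq M hM) h1 h2
          (a := a) (b := b) (by simpa using e1) (by simpa using e2)
        rw [inv_eq_of_mul_eq_one_right (sq a ha), inv_eq_of_mul_eq_one_right (sq b hb), mul_assoc (a * b), ← _root_.sq] at this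
        simpa using this⟩
      refine ⟨orderOf_eq_prime_pow (p := 2) (n := 1) (fun H => ?_) (by rw [pow_succ 2, pow_mul, _root_.sq, sq _ (by simpa)]), this⟩
      simpa [show (a * b) ^ 2 = 1 from H] using o2 _ this
    obtain ⟨φ, i, -, -, hφ⟩ := h.sl2_hom hN (h.smul M hM _ (inv_ne_zero d)) (by simp [h1, d]) (by simp [h2, d])
    have : a * b = φ (up 1 * sl2 1 0 δ 1 (by simp)) := by
      rw [map_mul]; congr 1 <;> refine Subtype.ext (Eq.trans ?_ (hφ _).symm) <;> simp [e1, e2, sl2, d]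
    rw [this, orderOf_injective φ i]
    refine .inr (.inl ⟨odd_ord (by rw [sl2_mul]; simp [sl2, trace_fin_two]; grind), fun c => ?_⟩)
    obtain rfl : δ = 1 := by simpa [c] using FiniteField.pow_card_sub_one_eq_one δ d
    refine orderOf_eq_prime ?_ ?_ <;> simp only [ne_eq, pow_succ, pow_zero, one_eq_sl2, sl2_mul, sl2_eq_iff] <;> grind
  have R : Cfsg.IsRootInvolutionSet D := ⟨o2, eq_top_of_transvection_mem _ fun i j hij c => by
      by_cases hc : c = 0
      · simp [hc]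
      · exact subset_closure ((e _).2 ⟨_, single_mem hij hc, rfl⟩), fun t ht g => by
      obtain ⟨N, hN, H⟩ := (e t).1 ht
      exact (e _).2 ⟨_, h.conj N hN g, cj g t N H⟩, fun a ha b hb => (P a ha b hb).imp_right (.imp_left And.left)⟩
  obtain ⟨s, hs⟩ := h.mem _ (single_mem n01 one_ne_zero)
  have C : ∀ a ∈ D, ∃ g, a = g * s * g⁻¹ := fun a ha => by
    obtain ⟨N, hN, H⟩ := (e a).1 ha
    obtain ⟨g, rfl⟩ := rk1_conj h3 n01 one_ne_zero hN
    exact ⟨g, Subtype.ext (H.trans (cj g s _ hs).symm)⟩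
  refine ⟨⟨R, ⟨s, (e s).2 ⟨_, single_mem n01 one_ne_zero, hs⟩⟩, fun a ha b hb => ?_⟩, fun c => ⟨R, fun a ha b hb o => ?_⟩⟩
  · obtain ⟨x, rfl⟩ := C a ha
    obtain ⟨y, rfl⟩ := C b hb
    exact ⟨y * x⁻¹, by group⟩
  · rcases P a ha b hb with H | H | H
    · have : orderOf (a * b) ∣ 2 := orderOf_dvd_of_pow_eq_one (by rw [(Commute.mul_pow H), _root_.sq, _root_.sq, sq a ha, sq b hb, mul_one])
      exact .inl (((Nat.dvd_prime Nat.prime_two).1 this).resolve_right fun e => by simp [e] at o; contradiction)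
    · exact .inr (H.2 c)
    · rw [H.1] at o; contradiction


end Cfsg.Agent.S5058
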