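import Cfsg.Statements.S5059
import Cfsg.Agent.QP.G

set_option autoImplicit false
universe u
open Cfsg

namespace Cfsg.Agent.S5059

open RS QP

/-- Let k be a field of characteristic not 2 with k not of order 3, M a finite-dimensional k-vector space and G ≤ GL(M) such that (G, M) is a quadratic pair (M irreducible for G, and G generated by its quadratically acting elements σ whose scalar family 1 + c(σ − 1), c ∈ k, lies in G). Write 𝒬_d for the quadratic elements of G of minimal commutator rank, E(σ) for the subgroup generated by the members of 𝒬_d with the same fixed space and commutator space as σ, and Σ for the set of these subgroups. Then for σ ∈ 𝒬_d the subgroup E(σ) consists exactly of those members together with the identity, it is abelian, and if k has prime characteristic p every element of E(σ) has order dividing p. -/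
theorem result {k : Type u} [Field k] (hk2 : ringChar k ≠ 2) (hk3 : Nat.card k ≠ 3)
    {M : Type u} [AddCommGroup M] [Module k M] [FiniteDimensional k M]
    {G : Subgroup (LinearMap.GeneralLinearGroup k M)} (hG : Cfsg.IsQuadraticPair G)
    {σ : LinearMap.GeneralLinearGroup k M} (hσ : σ ∈ Cfsg.minimalQuadraticElements G) :
    (Cfsg.sameActionSubgroup G σ : Set (LinearMap.GeneralLinearGroup k M)) = Cfsg.sameActionClass G σ ∪ {1} ∧
    IsMulCommutative ↥(Cfsg.sameActionSubgroup G σ) ∧
    (∀ p : ℕ, p.Prime → ringChar k = p → ∀ x ∈ Cfsg.sameActionSubgroup G σ, x ^ p = 1) := by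
  have h := qs hk2 hk3 hG
  rw [sub_eq h hσ]
  refine ⟨(class_eq h hσ).symm, ⟨⟨fun a b => Subtype.ext (cen_of h.EG_ab a.2 b.2)⟩⟩, fun p _ e x i => ?_⟩
  obtain ⟨y, j, rfl⟩ := h.ex i
  have : ∀ n : ℕ, (1 + y) ^ n = 1 + (n : k) • y := fun n => by
    induction n with
    | zero => simp
    | succ n ih => simp [pow_succ, ih, mul_add, add_mul, h.mul0 j j, add_smul, add_assoc]
  exact Units.ext (by simp [this, ← e])

end Cfsg.Agent.S5059
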