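import Cfsg.Statements.S5060
import Cfsg.Agent.H5.RootGen

set_option autoImplicit false
open Cfsg

namespace Cfsg.Agent.S5060

open H5

/-- Let k ⊆ K be fields with the characteristic of k not 2 and k not of order 3, and let α ∈ K be a non-zero element algebraic over k. Then the subgroup of SL₂(K) generated by the upper unitriangular matrices with entry c and the lower unitriangular matrices with entry cα, c ranging over k, is exactly the group of matrices of SL₂(K) with all entries in k(α). -/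
theorem result {k K : Type*} [Field k] [Field K] [Algebra k K] (hk2 : ringChar k ≠ 2) (hk3 : Nat.card k ≠ 3)
    (α : K) (hα : IsAlgebraic k α) (hα0 : α ≠ 0) :
    (Subgroup.closure ({g : Matrix.SpecialLinearGroup (Fin 2) K | ∃ c : k, (g : Matrix (Fin 2) (Fin 2) K) = !![1, algebraMap k K c; 0, 1]} ∪
        {g : Matrix.SpecialLinearGroup (Fin 2) K | ∃ c : k, (g : Matrix (Fin 2) (Fin 2) K) = !![1, 0; algebraMap k K c * α, 1]}) :
      Set (Matrix.SpecialLinearGroup (Fin 2) K)) =
    {g : Matrix.SpecialLinearGroup (Fin 2) K | ∀ i j : Fin 2, (g : Matrix (Fin 2) (Fin 2) K) i j ∈ IntermediateField.adjoin k ({α} : Set K)} := by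
  let L := IntermediateField.adjoin k ({α} : Set K)
  let ι : L →+* K := algebraMap L K
  generalize hS : (_ ∪ _ : Set (Matrix.SpecialLinearGroup (Fin 2) K)) = S
  have ha : α ∈ L := IntermediateField.mem_adjoin_simple_self k α
  have e1 : ∀ c, ((Matrix.SpecialLinearGroup.map ι (sl2 1 (algebraMap k L c) 0 1 (by simp)) : SL2 K) : Matrix _ _ K) =
    !![1, algebraMap k K c; 0, 1] := fun c => by rw [slmap_sl2]; simp; rfl
  have e2 : ∀ c, ((Matrix.SpecialLinearGroup.map ι (sl2 1 0 (algebraMap k L c * ⟨α, ha⟩) 1 (by simp)) : SL2 K) : Matrix _ _ K) =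
    !![1, 0; algebraMap k K c * α, 1] := fun c => by rw [slmap_sl2]; simp; rfl
  apply Set.Subset.antisymm
  · refine Set.Subset.trans (show _ ≤ (Matrix.SpecialLinearGroup.map (n := Fin 2) ι).range from (Subgroup.closure_le _).2 ?_) ?_
    · subst hS
      rintro g (⟨c, h⟩ | ⟨c, h⟩)
      exacts [⟨_, Subtype.ext ((e1 c).trans h.symm)⟩, ⟨_, Subtype.ext ((e2 c).trans h.symm)⟩]
    · rintro _ ⟨g, rfl⟩ i j
      exact (g.1 i j).2
  · intro g hg
    obtain ⟨a, b, c, d, h, rfl⟩ := exists_sl2 g
    have := rootgen_top (k := k) (α := (⟨α, ha⟩ : L))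
      (G := (Subgroup.closure S).comap (Matrix.SpecialLinearGroup.map (n := Fin 2) ι))
      (fun c => Subgroup.subset_closure (hS ▸ Or.inl ⟨c, e1 c⟩))
      (fun c => Subgroup.subset_closure (hS ▸ Or.inr ⟨c, e2 c⟩)) hk2 hk3
      ((isAlgebraic_algebraMap_iff (A := K) ι.injective).1 hα) (fun e => hα0 (congrArg Subtype.val e))
      fun x => (IntermediateField.adjoin.powerBasis hα.isIntegral).exists_eq_aeval' x |>.imp fun _ h => h.symm
    have := this.ge (Subgroup.mem_top (sl2 (⟨a, hg 0 0⟩ : L) ⟨b, hg 0 1⟩ ⟨c, hg 1 0⟩ ⟨d, hg 1 1⟩ (Subtype.ext h)))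
    rw [Subgroup.mem_comap, slmap_sl2] at this
    exact this


end Cfsg.Agent.S5060
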