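import Cfsg.Statements.S5061
import Cfsg.Agent.QP.U

set_option autoImplicit false
open Cfsg

namespace Cfsg.Agent.S5061

open RS QP

/-- Let M be a finite-dimensional vector space over a field k, G ≤ GL(M), and 𝒲 a set of subgroups of G, invariant under conjugation by G, such that any two members of 𝒲 generate a subgroup acting unipotently on M (for some n all products of n endomorphisms g − 1 from it vanish). Then the subgroup generated by all members of 𝒲 acts unipotently on M and is normal in G. -/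
theorem result {k : Type*} [Field k] {M : Type*} [AddCommGroup M] [Module k M] [FiniteDimensional k M]
    {G : Subgroup (LinearMap.GeneralLinearGroup k M)} {W : Set (Subgroup (LinearMap.GeneralLinearGroup k M))} (hWG : ∀ A ∈ W, A ≤ G)
    (hWW : ∀ A ∈ W, ∀ B ∈ W, Cfsg.IsUnipotentOn (A ⊔ B)) (hWconj : ∀ A ∈ W, ∀ g ∈ G, Cfsg.conjBy A g ∈ W) :
    Cfsg.IsUnipotentOn (⨆ A ∈ W, A) ∧ ∀ g ∈ G, Cfsg.conjBy (⨆ A ∈ W, A) g = ⨆ A ∈ W, A := by
  refine ⟨uni_iff.2 (baer (fun A i B j a ha => hWconj B j a (hWG A i ha)) fun A i B j => uni_iff.1 (hWW A i B j)),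
    fun g hg => le_antisymm ?_ (iSup₂_le fun A i => cj_cj_inv.ge.trans
      (cj_mono (le_iSup₂_of_le _ (hWconj A i _ (inv_mem hg)) le_rfl)))⟩
  simp only [conjBy, Subgroup.map_iSup]
  exact iSup₂_le fun A i => le_iSup₂_of_le _ (hWconj A i g hg) le_rfl

end Cfsg.Agent.S5061
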