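import Cfsg.Statements.S5063
import Cfsg.Agent.QP.D

set_option autoImplicit false
universe u
open Cfsg

namespace Cfsg.Agent.S5063

open RS QP Module LinearMap

variable {k M : Type*} [Field k] [AddCommGroup M] [Module k M] [FiniteDimensional k M] {G : Subgroup (End k M)ˣ}

theorem fam (n : ℕ) : ∀ {Q : Set (End k M)}, QS G Q → (∀ s ∈ Q, s ≠ 0 → finrank k M < rk s + n) →
    ∃ F : Set (Subgroup (End k M)ˣ), F.Finite ∧ (∀ H ∈ F, H ≤ Subgroup.closure {g | g ∈ H ∧ g.1 - 1 ∈ Q}) ∧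
      (∀ H ∈ F, ∀ K ∈ F, H ≠ K → ⁅H, K⁆ = ⊥) ∧ (∀ H ∈ F, G ≤ H ⊔ Subgroup.centralizer H → IsQuasisimple H) ∧
      ∀ s ∈ Q, s ≠ 0 → ∃ H ∈ F, ∃ x ∈ Q, x ≠ 0 ∧ (∀ g : (End k M)ˣ, g.1 = 1 + x → g ∈ H) ∧ s - x ∈ Q ∧
        rk (s - x) < rk s ∧ (s - x) * x = 0 := by
  induction n with
  | zero => exact fun _ l => ⟨∅, by simp, by simp, by simp, by simp, fun s i j =>
      absurd (l s i j) (not_lt.2 (Submodule.finrank_le _))⟩
  | succ n ih =>
  intro Q h l
  obtain ⟨F, f1, f2, f3, f4, f5⟩ := ih (Q := {s | s ∈ Q ∧ ∀ t ∈ Mn Q, s * t = t * s})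
    ⟨h.irr, h.h2, h.h3, ⟨h.zero, by simp⟩, fun s i => h.sq s i.1,
      fun s i β => ⟨h.smul s i.1 β, fun t j => by simp [i.2 t j]⟩,
      fun s i t j a b => ⟨h.add s i.1 t j.1 a b, fun u m => by rw [add_mul, mul_add, i.2 u m, j.2 u m]⟩,
      fun s i => h.mem s i.1, fun g i s j => ⟨h.conj g i s j.1, fun t m => by
        simpa [mul_assoc] using congrArg (g.1 * · * (g⁻¹).1) (j.2 _ (h.conjm (inv_mem i) m))⟩⟩ fun s i s0 => by
      have : s ∉ Mn Q := fun j => by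
        obtain ⟨u, hu, e, -⟩ := h.exists_opp j
        exact s0 (by rw [← e, ← i.2 u hu, ← mul_assoc, h.sq s j.1, zero_mul])
      simp only [Mn, Set.mem_setOf_eq, i.1, ne_eq, s0, not_false_eq_true, true_and, not_forall, not_le] at this
      obtain ⟨t, a, b, c⟩ := this
      have := l t a b
      omega
  have c : ∀ H ∈ F, ∀ A, ⁅H, ⨆ B ∈ Cp h.Sg A, B⁆ = ⊥ := fun H i A =>
    Subgroup.commutator_eq_bot_iff_le_centralizer.2 ((f2 H i).trans ((Subgroup.closure_le _).2 fun g j =>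
      Subgroup.centralizer_le (iSup₂_le (f := fun B (_ : B ∈ Cp h.Sg A) => B) fun B l => le_iSup₂_of_le B l.1 le_rfl)
        (h.cent_mem j.2.2 (by simp))))
  refine ⟨F ∪ (fun P => ⨆ B ∈ P, B) '' (Cp h.Sg '' h.Sg), f1.union (h.fin.image _), ?_, ?_, ?_, fun s i s0 => ?_⟩
  · rintro H (i | ⟨_, ⟨A, -, rfl⟩, rfl⟩)
    · exact (f2 H i).trans (Subgroup.closure_mono fun g j => ⟨j.1, j.2.1⟩)
    · refine iSup₂_le fun B i g j => Subgroup.subset_closure ⟨le_iSup₂_of_le (f := fun B (_ : B ∈ Cp h.Sg A) => B) B i le_rfl j, ?_⟩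
      obtain ⟨t, -, rfl⟩ := i.1
      exact j.1
  · rintro H (i | ⟨_, ⟨A, -, rfl⟩, rfl⟩) K (j | ⟨_, ⟨B, -, rfl⟩, rfl⟩) n
    exacts [f3 H i K j n, c H i B, comm_symm (c K j A), h.ri.comm h.ni fun e => n (by rw [e])]
  · rintro H (i | ⟨_, ⟨A, i, rfl⟩, rfl⟩)
    exacts [f4 H i, h.qsimple i]
  · rcases h.decomp i with e | ⟨x, a, b⟩
    · obtain ⟨H, a, x, b, c, d, e, f⟩ := f5 s ⟨i, e⟩ s0
      exact ⟨H, .inl a, x, b.1, c, d, e.1, f⟩
    · exact ⟨_, .inr ⟨_, ⟨_, ⟨x, a, rfl⟩, rfl⟩, rfl⟩, x, a.1, a.2.1, fun g e => le_iSup₂_of_le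
        (f := fun B (_ : B ∈ Cp h.Sg (h.EG x)) => B) (h.EG x) ⟨⟨x, a, rfl⟩, .refl⟩ le_rfl
          (by simpa [h.mem_EG, e] using h.self a.1), b⟩

omit [FiniteDimensional k M] in
theorem kill (hG : IsIrreducibleFor G) {H : Subgroup (End k M)ˣ} (l : G ≤ H ⊔ Subgroup.centralizer H) {a b : (End k M)ˣ}
    (ha : a ∈ H) (hb : ∀ g ∈ H, b * g = g * b) (e : (b.1 - 1) * (a.1 - 1) = 0) (a1 : a.1 - 1 ≠ 0) : b.1 - 1 = 0 := by
  let W := ⨆ g ∈ H, range (g.1 * (a.1 - 1))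
  have m : ∀ g ∈ H, ∀ m, (g.1 * (a.1 - 1)) m ∈ W := fun g i m =>
    le_iSup₂_of_le (f := fun g (_ : g ∈ H) => range (g.1 * (a.1 - 1))) g i le_rfl ⟨m, rfl⟩
  let U : Subgroup (End k M)ˣ :=
    { carrier := {g | W ≤ W.comap g.1 ∧ W ≤ W.comap (g⁻¹).1}
      one_mem' := ⟨fun _ i => i, fun _ i => i⟩
      mul_mem' := fun i j => ⟨fun _ w => i.1 (j.1 w), fun _ w => j.2 (i.2 w)⟩
      inv_mem' := fun i => ⟨i.2, i.1⟩ }
  have u : ∀ K : Subgroup (End k M)ˣ, (∀ x ∈ K, W ≤ W.comap x.1) → K ≤ U := fun K i x j => ⟨i x j, i _ (inv_mem j)⟩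
  rcases hG.2 W fun g i => (sup_le (u H fun x i => iSup₂_le fun g j => by
      rintro _ ⟨w, rfl⟩; exact m _ (mul_mem i j) w) (u _ fun x i => iSup₂_le fun g j => by
      rintro _ ⟨w, rfl⟩
      have c1 := congrArg Units.val (i g j)
      have c2 := congrArg Units.val (i a ha)
      simp only [Units.val_mul] at c1 c2
      rw [Submodule.mem_comap, ← End.mul_apply, ← mul_assoc, ← c1, mul_assoc, mul_sub, ← c2, mul_one, ← sub_one_mul, ← mul_assoc]
      exact m g j _) (l i)).1 with z | z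
  · exact absurd (LinearMap.ext fun v => by simpa using z.le (m 1 (one_mem _) v)) a1
  · refine ker_eq_top.1 (top_le_iff.1 (z.ge.trans (iSup₂_le fun g i => ?_)))
    rintro _ ⟨w, rfl⟩
    have c := congrArg Units.val (hb g i)
    simp only [Units.val_mul] at c
    rw [mem_ker, ← End.mul_apply, ← mul_assoc, sub_one_mul, c, ← mul_sub_one, mul_assoc, e]; simp

/-- Let k be a field of characteristic not 2 with k not of order 3, M a finite-dimensional k-vector space and G ≤ GL(M) such that (G, M) is a quadratic pair (M irreducible for G, and G generated by its quadratically acting elements σ whose scalar family 1 + c(σ − 1), c ∈ k, lies in G). Write 𝒬_d for the quadratic elements of G of minimal commutator rank, E(σ) for the subgroup generated by the members of 𝒬_d with the same fixed space and commutator space as σ, and Σ for the set of these subgroups. Then G is a central product of finitely many quasisimple normal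 subgroups G₁, …, G_s (pairwise commuting and together generating G), each generated by the quadratic elements of G it contains, and every quadratic element of G lies in one of them. -/
theorem result {k : Type u} [Field k] (hk2 : ringChar k ≠ 2) (hk3 : Nat.card k ≠ 3)
    {M : Type u} [AddCommGroup M] [Module k M] [FiniteDimensional k M]
    {G : Subgroup (LinearMap.GeneralLinearGroup k M)} (hG : Cfsg.IsQuadraticPair G) :
    ∃ (s : ℕ) (Gi : Fin s → Subgroup (LinearMap.GeneralLinearGroup k M)),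
      (∀ i, Gi i ≤ G ∧ ∀ g ∈ G, Cfsg.conjBy (Gi i) g = Gi i) ∧ (∀ i j, i ≠ j → ⁅Gi i, Gi j⁆ = ⊥) ∧ (⨆ i, Gi i) = G ∧
      (∀ i, Cfsg.IsQuasisimple ↥(Gi i) ∧ Subgroup.closure (Cfsg.quadraticElements G ∩ (Gi i : Set (LinearMap.GeneralLinearGroup k M))) = Gi i) ∧
      Cfsg.quadraticElements G ⊆ ⋃ i, (Gi i : Set (LinearMap.GeneralLinearGroup k M)) := by
  have h := qs hk2 hk3 hG
  obtain ⟨F, f1, f2, f3, f4, f5⟩ := fam _ h fun s _ _ => (Nat.lt_succ_self _).trans_le (Nat.le_add_left _ _)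
  have lG : ∀ H ∈ F, H ≤ G := fun H i => (f2 H i).trans ((Subgroup.closure_le _).2 fun g j => h.mem _ j.2 g (by simp))
  have sp : ∀ {s x : End k M} {g : (End k M)ˣ} (i : s - x ∈ Q0 G) (j : x ∈ Q0 G), (s - x) * x = 0 → g.1 = 1 + s →
      g = un _ i.1 * un _ j.1 := fun i j e l => Units.ext (by simp [l, mul_add, add_mul, e, add_assoc])
  have top : G ≤ ⨆ H ∈ F, H := hG.2.ge.trans ((Subgroup.closure_le _).2 fun g i => by
    have : ∀ n, ∀ s ∈ Q0 G, rk s = n → ∀ g : (End k M)ˣ, g.1 = 1 + s → g ∈ ⨆ H ∈ F, H := fun n => by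
      induction n using Nat.strong_induction_on with
      | _ n ih =>
      rintro s i rfl g e
      by_cases s0 : s = 0
      · rw [show g = 1 from Units.ext (by simp [e, s0])]; exact one_mem _
      obtain ⟨H, a, x, b, -, d, c, l, z⟩ := f5 s i s0
      rw [sp c b z e]
      exact mul_mem (ih _ l _ c rfl _ rfl) (le_iSup₂_of_le (f := fun H (_ : H ∈ F) => H) H a le_rfl (d _ rfl))
    exact this _ _ (mem_quad.1 i).1 rfl g (by simp))
  have cen : ∀ H ∈ F, G ≤ H ⊔ Subgroup.centralizer H := fun H i => top.trans (iSup₂_le fun K j => (em (K = H)).elim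
    (fun e => le_sup_of_le_left e.le) fun n => le_sup_of_le_right
      (Subgroup.commutator_eq_bot_iff_le_centralizer.1 (f3 K j H i n)))
  have key : ∀ n, ∀ s ∈ Q0 G, s ≠ 0 → rk s = n → ∀ g : (End k M)ˣ, g.1 = 1 + s → ∃ H ∈ F, g ∈ H := fun n => by
    induction n using Nat.strong_induction_on with
    | _ n ih =>
    rintro s i s0 rfl g e
    obtain ⟨H, a, x, b, x0, d, c, l, z⟩ := f5 s i s0
    refine ⟨H, a, ?_⟩
    by_cases y0 : s - x = 0
    · exact d g (sub_eq_zero.1 y0 ▸ e)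
    obtain ⟨K, j, m⟩ := ih _ l _ c y0 rfl (un _ c.1) rfl
    by_cases n : K = H
    · exact sp c b z e ▸ mul_mem (n ▸ m) (d _ rfl)
    · exact absurd (by simpa only [un_val, add_sub_cancel_left] using kill hG.1 (cen H a) (d (un x b.1) rfl) (fun g i => cen_of (f3 K j H a n) m i) (by simpa using z) (by simpa using x0)) y0
  obtain ⟨r, f, hf, rfl⟩ := f1.fin_param
  refine ⟨r, f, fun i => ⟨lG _ ⟨i, rfl⟩, fun g j => cj_of_sup (fun _ => cj_self) (fun g l => cj_of_comm fun a m =>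
    Subgroup.mem_centralizer_iff.1 l a m) g (cen _ ⟨i, rfl⟩ j)⟩, fun i j n => f3 _ ⟨i, rfl⟩ _ ⟨j, rfl⟩ (hf.ne n),
    le_antisymm (iSup_le fun i => lG _ ⟨i, rfl⟩) (top.trans_eq iSup_range), fun i => ⟨f4 _ ⟨i, rfl⟩ (cen _ ⟨i, rfl⟩),
    le_antisymm ((Subgroup.closure_le _).2 Set.inter_subset_right) ((f2 _ ⟨i, rfl⟩).trans ((Subgroup.closure_le _).2
      fun g j => ?_))⟩, fun g i => ?_⟩
  · by_cases e : g.1 - 1 = 0
    · rw [show g = 1 from Units.ext (sub_eq_zero.1 e)]; exact one_mem _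
    · exact Subgroup.subset_closure ⟨mem_quad.2 ⟨j.2, e⟩, j.1⟩
  · obtain ⟨_, ⟨j, rfl⟩, l⟩ := key _ _ (mem_quad.1 i).1 (mem_quad.1 i).2 rfl g (by simp)
    exact Set.mem_iUnion.2 ⟨j, l⟩

end Cfsg.Agent.S5063
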