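import Cfsg.Statements.S5064
import Cfsg.Agent.QP.S

set_option autoImplicit false
universe u
open Cfsg

namespace Cfsg.Agent.S5064

open RS QP Polynomial Module H5

/-- Let k be a field of characteristic not 2 with k not of order 3, M a finite-dimensional k-vector space and G ≤ GL(M) such that (G, M) is a quadratic pair (M irreducible for G, and G generated by its quadratically acting elements σ whose scalar family 1 + c(σ − 1), c ∈ k, lies in G). Write 𝒬_d for the quadratic elements of G of minimal commutator rank, E(σ) for the subgroup generated by the members of 𝒬_d with the same fixed space and commutator space as σ, and Σ for the set of these subgroups. If σ, τ ∈ 𝒬_d and the subgroup H generated by their two scalar families does not act unipotently on M, then H is isomorphic to SL₂ over a simple algebraic extension k(λ) of k. -/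
theorem result {k : Type u} [Field k] (hk2 : ringChar k ≠ 2) (hk3 : Nat.card k ≠ 3)
    {M : Type u} [AddCommGroup M] [Module k M] [FiniteDimensional k M]
    {G : Subgroup (LinearMap.GeneralLinearGroup k M)} (hG : Cfsg.IsQuadraticPair G)
    {σ τ : LinearMap.GeneralLinearGroup k M} (hσ : σ ∈ Cfsg.minimalQuadraticElements G) (hτ : τ ∈ Cfsg.minimalQuadraticElements G)
    (hH : ¬ Cfsg.IsUnipotentOn (Subgroup.closure (Cfsg.scalarFamily σ ∪ Cfsg.scalarFamily τ))) :
    ∃ (K : Type u) (_ : Field K) (_ : Algebra k K) (lam : K), IsAlgebraic k lam ∧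
      IntermediateField.adjoin k ({lam} : Set K) = ⊤ ∧
      Nonempty (↥(Subgroup.closure (Cfsg.scalarFamily σ ∪ Cfsg.scalarFamily τ)) ≃* Matrix.SpecialLinearGroup (Fin 2) K) := by
  have h := qs hk2 hk3 hG
  rw [mem_min] at hσ hτ
  have n : (σ.1 - 1) * ((τ.1 - 1) * (σ.1 - 1)) ≠ 0 := fun e => hH (uni_iff.2 ((h.uni hσ hτ e).mono
    ((Subgroup.closure_le _).2 (by
      rintro g (⟨c, i⟩ | ⟨c, i⟩)
      · exact Subgroup.mem_sup_left (by simpa [h.mem_EG, i] using Submodule.smul_mem _ c (h.self hσ.1))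
      · exact Subgroup.mem_sup_right (by simpa [h.mem_EG, i] using Submodule.smul_mem _ c (h.self hτ.1))))))
  obtain ⟨s, es⟩ : ∃ s, σ.1 - 1 = s := ⟨_, rfl⟩
  obtain ⟨t, et⟩ : ∃ t, τ.1 - 1 = t := ⟨_, rfl⟩
  rw [show scalarFamily σ = {g | ∃ c : k, g.1 = 1 + c • s} from es ▸ rfl,
    show scalarFamily τ = {g | ∃ c : k, g.1 = 1 + c • t} from et ▸ rfl]
  rw [es] at hσ n
  rw [et] at hτ n
  clear es et
  have hc := (h.pair' hσ hτ.1).resolve_left n
  have hc' := (h.pair' hτ hσ.1).resolve_left (mt (h.swap hτ.1 hσ) n)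
  obtain ⟨s', t', e1, e2, T⟩ := exists_two (h.sq _ hσ.1) (h.sq _ hτ.1)
  rw [add_comm] at hc'
  generalize s * t + t * s = c at *
  subst e1 e2
  obtain ⟨π, hπ, hX, ps, -, -⟩ := h.field T hσ hτ.1 hc
  haveI := Fact.mk hπ
  obtain ⟨w, v, e⟩ := hπ.coprime_iff_not_dvd.2 hX
  have pt : π • t' = 0 := Inj.canc (q := X) (by simpa) (by
    simpa [mul_assoc, T.ts', T.tt, smul_smul, mul_comm] using congrArg (t' * · * t') ps)
  have st : s' * (t' * s') = (X : k[X]) • s' := by simp [T.ts, mul_sub, T.ss']
  have ts : t' * (s' * t') = (X : k[X]) • t' := by simp [T.ts', T.tt]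
  obtain ⟨F, f, f1, f2⟩ := exists_rep (s := s') (u := v • t') T.ss (by simp [T.tt])
    (by rw [smul_mul_assoc, mul_smul_comm, st]; linear_combination (norm := module) e • s' - w • ps)
    (by rw [smul_mul_assoc, mul_smul_comm, mul_smul_comm, ts]
        linear_combination (norm := module) v • e • t' - (v * w) • pt)
    (AdjoinRoot.mk π) AdjoinRoot.mk_surjective fun z => by
      rw [AdjoinRoot.mk_eq_zero]
      refine ⟨fun ⟨y, i⟩ => by rw [i, mul_comm, mul_smul, ps, smul_zero], fun i => by_contra fun j => hσ.2.1 ?_⟩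
      rw [cop (hπ.coprime_iff_not_dvd.2 j) ps i]; rfl
  let F' := (Units.map (Cz c).val.toMonoidHom).comp F
  have g1 : ∀ β : k, (F' (sl2 1 (algebraMap k _ β) 0 1 (by simp))).1 = 1 + β • s'.1 := fun β => by
    simpa [QP.coe_C, F'] using congrArg Subtype.val (f1 (C β))
  have g2 : ∀ β : k, (F' (sl2 1 0 (algebraMap k _ β * AdjoinRoot.root π) 1 (by simp))).1 = 1 + β • t'.1 := fun β => by
    have := f2 (C β * X)
    rw [show (C β * X) • v • t' = C β • t' by linear_combination (norm := module) C β • e • t' - (C β * w) • pt] at this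
    simpa [QP.coe_C, F'] using congrArg Subtype.val this
  have alg : IsAlgebraic k (AdjoinRoot.root π) := ⟨π, hπ.ne_zero, by simp⟩
  refine ⟨AdjoinRoot π, inferInstance, inferInstance, _, alg, IntermediateField.adjoin_root_eq_top π,
    ⟨(MulEquiv.subgroupCongr ?_).trans (MonoidHom.ofInjective (f := F')
      ((Units.map_injective Subtype.val_injective).comp f)).symm⟩⟩
  refine le_antisymm ((Subgroup.closure_le _).2 ?_) ?_
  · rintro g (⟨β, i⟩ | ⟨β, i⟩)
    exacts [⟨_, Units.ext ((g1 β).trans i.symm)⟩, ⟨_, Units.ext ((g2 β).trans i.symm)⟩]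
  · rw [MonoidHom.range_eq_map, Subgroup.map_le_iff_le_comap]
    refine (rootgen_top (k := k) (α := AdjoinRoot.root π) (fun β => ?_) (fun β => ?_) hk2 hk3 alg
      (by rwa [← AdjoinRoot.mk_X, ne_eq, AdjoinRoot.mk_eq_zero]) (fun x => by simpa using AdjoinRoot.mk_surjective x)).ge
    exacts [Subgroup.subset_closure (Or.inl ⟨β, g1 β⟩), Subgroup.subset_closure (Or.inr ⟨β, g2 β⟩)]

end Cfsg.Agent.S5064
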