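import Cfsg.Statements.S5065
import Cfsg.Agent.QP.C

set_option autoImplicit false
universe u
open Cfsg

namespace Cfsg.Agent.S5065

open RS QP QP.QS LinearMap

/-- Let k be a field of characteristic not 2 with k not of order 3, M a finite-dimensional k-vector space and G ≤ GL(M) such that (G, M) is a quadratic pair (M irreducible for G, and G generated by its quadratically acting elements σ whose scalar family 1 + c(σ − 1), c ∈ k, lies in G). Write 𝒬_d for the quadratic elements of G of minimal commutator rank, E(σ) for the subgroup generated by the members of 𝒬_d with the same fixed space and commutator space as σ, and Σ for the set of these subgroups. For σ, τ ∈ 𝒬_d put A = E(σ), B = E(τ) and X = ⟨A, B⟩. Then either X acts unipotently on M, or A and B are the unipotent subgroups of a special rank one group X; in the latter case X contains exactly one central involution acting as −1 on the commutator space [M, X] and trivially on the fixed space C_M(X), and M is the direct sum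 of C_M(X) and [M, X]. -/
theorem result {k : Type u} [Field k] (hk2 : ringChar k ≠ 2) (hk3 : Nat.card k ≠ 3)
    {M : Type u} [AddCommGroup M] [Module k M] [FiniteDimensional k M]
    {G : Subgroup (LinearMap.GeneralLinearGroup k M)} (hG : Cfsg.IsQuadraticPair G)
    {σ τ : LinearMap.GeneralLinearGroup k M} (hσ : σ ∈ Cfsg.minimalQuadraticElements G) (hτ : τ ∈ Cfsg.minimalQuadraticElements G) :
    Cfsg.IsUnipotentOn (Cfsg.sameActionSubgroup G σ ⊔ Cfsg.sameActionSubgroup G τ) ∨
    (Cfsg.IsSpecialRankOnePair (Cfsg.sameActionSubgroup G σ) (Cfsg.sameActionSubgroup G τ) ∧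
      (∃! i : LinearMap.GeneralLinearGroup k M, i ∈ Cfsg.sameActionSubgroup G σ ⊔ Cfsg.sameActionSubgroup G τ ∧ i ≠ 1 ∧ i * i = 1 ∧
        (∀ x ∈ Cfsg.sameActionSubgroup G σ ⊔ Cfsg.sameActionSubgroup G τ, i * x = x * i) ∧
        (∀ m ∈ Cfsg.commutatorSubmodule (Cfsg.sameActionSubgroup G σ ⊔ Cfsg.sameActionSubgroup G τ), (i : M →ₗ[k] M) m = -m) ∧
        (∀ m ∈ Cfsg.fixedSubmodule (Cfsg.sameActionSubgroup G σ ⊔ Cfsg.sameActionSubgroup G τ), (i : M →ₗ[k] M) m = m)) ∧
      IsCompl (Cfsg.fixedSubmodule (Cfsg.sameActionSubgroup G σ ⊔ Cfsg.sameActionSubgroup G τ))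
        (Cfsg.commutatorSubmodule (Cfsg.sameActionSubgroup G σ ⊔ Cfsg.sameActionSubgroup G τ))) := by
  have h := qs hk2 hk3 hG
  rw [sub_eq h hσ, sub_eq h hτ]
  rw [mem_min] at hσ hτ
  generalize σ.1 - 1 = s, τ.1 - 1 = t at *
  by_cases n : s * (t * s) = 0
  · exact .inl (uni_iff.2 (h.uni hσ hτ n))
  refine .inr ⟨h.special hσ hτ n, ?_⟩
  obtain ⟨u, j, u0, e1, e2⟩ := h.opp hσ hτ n
  rw [← h.EG_eq hτ j u0]
  have le := h.sup_Ce hσ.1 j.1 e1 e2
  obtain ⟨i, a, b⟩ := h.exists_inv hσ.1 j.1 e1 e2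
  have ms := Subgroup.mem_sup_left (T := h.EG u) (h.un_mem (h.self hσ.1))
  have mu := Subgroup.mem_sup_right (S := h.EG s) (h.un_mem (h.self j.1))
  have es : (s * u + u * s) * s = s := by simp [add_mul, mul_assoc, h.sq s hσ.1, e1]
  have id : IsIdempotentElem (s * u + u * s) := by
    have := (le ms).1
    simp [IsIdempotentElem, mul_add, ← mul_assoc, es]
    simp [add_mul, mul_assoc, h.sq u j.1, e2, ← mul_assoc u u]
  have f1 : fixedSubmodule (h.EG s ⊔ h.EG u) = ker (s * u + u * s) := le_antisymm (fun m l => by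
      have i1 : s m = 0 := by simpa using (iInf₂_le (f := fun g (_ : g ∈ h.EG s ⊔ h.EG u) => ker (g.1 - 1)) _ ms) l
      have i2 : u m = 0 := by simpa using (iInf₂_le (f := fun g (_ : g ∈ h.EG s ⊔ h.EG u) => ker (g.1 - 1)) _ mu) l
      simp [i1, i2])
    (le_iInf₂ fun g l m (z : _ = _) => by
      simpa [-Module.End.mul_apply, -LinearMap.add_apply, z, sub_eq_zero, Module.End.mul_apply g.1] using LinearMap.congr_fun (le l).2 m)
  have f2 : commutatorSubmodule (h.EG s ⊔ h.EG u) = range (s * u + u * s) := le_antisymm (iSup₂_le fun g l => by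
      rintro _ ⟨m, rfl⟩
      exact ⟨(g.1 - 1) m, LinearMap.congr_fun (show (s * u + u * s) * (g.1 - 1) = g.1 - 1 by
        linear_combination (norm := noncomm_ring) -(le l).1) m⟩)
    (by
      rintro _ ⟨m, rfl⟩
      exact add_mem (le_iSup₂_of_le (f := fun g (_ : g ∈ h.EG s ⊔ h.EG u) => range (g.1 - 1)) _ ms le_rfl ⟨u m, by simp⟩)
        (le_iSup₂_of_le (f := fun g (_ : g ∈ h.EG s ⊔ h.EG u) => range (g.1 - 1)) _ mu le_rfl ⟨s m, by simp⟩))
  rw [f1, f2]
  generalize s * u + u * s = e at *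
  have ee : ∀ m, e (e m) = e m := LinearMap.congr_fun id.eq
  refine ⟨⟨i, ⟨a, fun z => hσ.2.1 ?_, Units.ext ?_, fun x l => Units.ext ?_, ?_, fun m (z : _ = _) => by simp [b, z]⟩,
    fun i' ⟨_, _, _, _, c1, c2⟩ => Units.ext (LinearMap.ext fun m => ?_)⟩, id.isCompl.symm⟩
  · simpa [z, h.two, es, sub_mul] using congrArg (· * s) b.symm
  · simp [b, mul_sub, sub_mul, id.eq]; module
  · have c1 := (le l).1
    have c2 := (le l).2
    simp only [Units.val_mul, b, two_smul]
    linear_combination (norm := noncomm_ring) c1 + c1 - c2 - c2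
  · rintro _ ⟨m, rfl⟩
    simp [b, ee]; module
  · rw [← add_sub_cancel (e m) m, map_add, c1 _ ⟨m, rfl⟩, c2 _ (by simp [ee]), b]
    simp [ee]; module

end Cfsg.Agent.S5065
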