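import Cfsg.Statements.S5067
import Cfsg.Agent.RS.R

set_option autoImplicit false
open Cfsg

namespace Cfsg.Agent.S5067

open RS Subgroup
open scoped commutatorElement

/-- Let P be a non-abelian nilpotent p-group (every element of p-power order; P possibly infinite) generated by two abelian subgroups E and F. Then the normal closure of E in P, and likewise that of F, has nilpotency class strictly smaller than that of P. -/
theorem result {P : Type*} [Group P] {p : ℕ} [Fact p.Prime] (hP : IsPGroup p P) [Group.IsNilpotent P]
    (hna : ¬ IsMulCommutative P) {E F : Subgroup P} (hE : IsMulCommutative ↥E) (hF : IsMulCommutative ↥F) (hgen : E ⊔ F = ⊤) :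
    Group.nilpotencyClass ↥(Subgroup.normalClosure (E : Set P)) < Group.nilpotencyClass P ∧
    Group.nilpotencyClass ↥(Subgroup.normalClosure (F : Set P)) < Group.nilpotencyClass P := by
  have key : ∀ E : Subgroup P, IsMulCommutative E →
      Group.nilpotencyClass ↥(normalClosure (E : Set P)) < Group.nilpotencyClass P := fun E hE => by
    let K := (⊤ : Subgroup P).lowerCentralSeries 2
    let π := QuotientGroup.mk' K
    have c : ⁅E.map π, E.map π⁆ = ⊥ := by
      rw [← map_commutator, comm_iff.2 fun a i b j => congrArg Subtype.val (hE.is_comm.comm ⟨a, i⟩ ⟨b, j⟩), Subgroup.map_bot]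
    have z : ∀ X, ⁅X, center (P ⧸ K)⁆ = ⊥ := fun X => comm_iff.2 fun a _ b j => mem_center_iff.1 j a
    have l : (normalClosure (E : Set P)).map π ≤ E.map π ⊔ center _ := map_le_iff_le_comap.2 ((closure_le _).2 fun x i => by
      obtain ⟨e, he, i⟩ := Group.mem_conjugatesOfSet_iff.1 i
      obtain ⟨g, rfl⟩ := isConj_iff.1 i
      rw [show g * e * g⁻¹ = ⁅g, e⁆ * e by simp [commutatorElement_def], SetLike.mem_coe, mem_comap, map_mul]
      refine mul_mem (mem_sup_right (mem_center_iff.2 fun y => ?_)) (mem_sup_left (mem_map_of_mem π he))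
      obtain ⟨y, rfl⟩ := QuotientGroup.mk'_surjective K y
      rw [eq_comm, ← commutatorElement_eq_one_iff_mul_comm, ← map_commutatorElement]
      exact (QuotientGroup.eq_one_iff _).2 (commutator_mem_commutator (commutator_mem_commutator trivial trivial) trivial))
    have : ∀ n, (normalClosure (E : Set P)).lowerCentralSeries (n + 1) ≤ (⊤ : Subgroup P).lowerCentralSeries (n + 2) := fun n => by
      induction n with
      | zero =>
        change _ ≤ K
        rw [← show π.ker = _ from QuotientGroup.ker_mk' K, ← Subgroup.map_eq_bot_iff]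
        exact (map_commutator _ _ π).trans (comm_mono (comm_sup (sup_comm' c (comm_symm (z _))) (z _)) l l)
      | succ n ih => exact commutator_mono ih le_top
    obtain ⟨n, e⟩ := Nat.exists_eq_add_of_le' (not_le.1 (mt Group.IsNilpotent.nilpotencyClass_le_one_iff.1 hna))
    rw [e, Nat.lt_succ_iff, ← Subgroup.lowerCentralSeries_eq_bot_iff_nilpotencyClass_le,
      ← map_eq_bot_iff_of_injective _ (subtype_injective _), top_subtype_lowerCentralSeries, eq_bot_iff]
    exact (this n).trans (Subgroup.lowerCentralSeries_eq_bot_iff_nilpotencyClass_le.2 e.le).le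
  exact ⟨key E hE, key F hF⟩

end Cfsg.Agent.S5067
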