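import Cfsg.Statements.S5069
import Cfsg.Agent.QP.D
import Cfsg.Agent.S5074

set_option autoImplicit false
universe u
open Cfsg

namespace Cfsg.Agent.S5069

open RS QP

/-- Let k be a field of characteristic not 2 with k not of order 3, M a finite-dimensional k-vector space and G ≤ GL(M) such that (G, M) is a quadratic pair (M irreducible for G, and G generated by its quadratically acting elements σ whose scalar family 1 + c(σ − 1), c ∈ k, lies in G). Write 𝒬_d for the quadratic elements of G of minimal commutator rank, E(σ) for the subgroup generated by the members of 𝒬_d with the same fixed space and commutator space as σ, and Σ for the set of these subgroups. Then Σ is a disjoint union of finitely many parts Σ₁, …, Σ_r such that the subgroups G_i generated by the Σ_i commute pairwise, each G_i is quasisimple, and inside G_i the members of Σ_i form a class of abstract root subgroups in which every rank one pair A, B contains subgroups A₀ ≤ A, B₀ ≤ B generating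 an image of SL₂(k₁) with central kernel on unitriangular subgroups for some field k₁ with at least four elements. -/
theorem result {k : Type u} [Field k] (hk2 : ringChar k ≠ 2) (hk3 : Nat.card k ≠ 3)
    {M : Type u} [AddCommGroup M] [Module k M] [FiniteDimensional k M]
    {G : Subgroup (LinearMap.GeneralLinearGroup k M)} (hG : Cfsg.IsQuadraticPair G) :
    ∃ (r : ℕ) (part : Fin r → Set (Subgroup (LinearMap.GeneralLinearGroup k M))),
      (⋃ i, part i) = Cfsg.quadraticRootSubgroups G ∧ (∀ i j, i ≠ j → Disjoint (part i) (part j)) ∧ (∀ i, (part i).Nonempty) ∧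
      (∀ i j, i ≠ j → ⁅(⨆ A ∈ part i, A), (⨆ A ∈ part j, A)⁆ = ⊥) ∧
      (∀ i, Cfsg.IsQuasisimple ↥(⨆ A ∈ part i, A) ∧
        Cfsg.IsRootSubgroupClass ((fun A : Subgroup (LinearMap.GeneralLinearGroup k M) => A.subgroupOf (⨆ B ∈ part i, B)) '' (part i)) ∧
        ∀ A ∈ part i, ∀ B ∈ Cfsg.rankOnePartners (part i) A, ∃ A₀ B₀ : Subgroup (LinearMap.GeneralLinearGroup k M), A₀ ≤ A ∧ B₀ ≤ B ∧
          ∃ (k₁ : Type u) (_ : Field k₁), 3 < ENat.card k₁ ∧ Cfsg.IsPSL2PairOver k₁ A₀ B₀) := by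
  have h := qs hk2 hk3 hG
  have e0 := S5074.result hk2 hk3 hG
  rw [roots_eq h] at *
  obtain ⟨r, f, hf, e⟩ := h.fin.fin_param
  have m : ∀ i, ∃ A ∈ h.Sg, Cp h.Sg A = f i := fun i => e.le ⟨i, rfl⟩
  refine ⟨r, f, le_antisymm (Set.iUnion_subset fun i => ?_) fun A j => ?_, fun i j n => ?_, fun i => ?_,
    fun i j n => ?_, fun i => ?_⟩
  · obtain ⟨A, -, e⟩ := m i
    exact e ▸ fun B j => j.1
  · obtain ⟨i, e⟩ := e.ge ⟨A, j, rfl⟩
    exact Set.mem_iUnion.2 ⟨i, e ▸ ⟨j, .refl⟩⟩
  · obtain ⟨A, -, e⟩ := m i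
    obtain ⟨B, -, e'⟩ := m j
    exact Set.disjoint_left.2 fun C a b => n (hf (by rw [← e, ← e', ← Cp_eq (e.ge a), Cp_eq (e'.ge b)]))
  · obtain ⟨A, j, e⟩ := m i
    exact ⟨A, e.le ⟨j, .refl⟩⟩
  · obtain ⟨A, -, e⟩ := m i
    obtain ⟨B, -, e'⟩ := m j
    rw [← e, ← e']
    exact h.ri.comm h.ni fun l => n (hf (by rw [← e, ← e', l]))
  obtain ⟨A, j, e⟩ := m i
  rw [← e, image_eq]
  refine ⟨h.qsimple j (e0.ge.trans (sup_le (iSup₂_le fun B l => ?_) (le_sup_of_le_right (inf_le_right.trans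
    (Subgroup.centralizer_le (iSup₂_le (f := fun B (_ : B ∈ Cp h.Sg A) => B) fun B l => le_iSup₂_of_le B l.1 le_rfl)))))),
    h.ri.cl h.ni j, fun B a C b => ?_⟩
  · by_cases n : Cp h.Sg B = Cp h.Sg A
    · exact le_sup_of_le_left (le_iSup₂_of_le B (n.le ⟨l, .refl⟩) le_rfl)
    · exact le_sup_of_le_right ((le_iSup₂_of_le B ⟨l, .refl⟩ le_rfl).trans
        (Subgroup.commutator_eq_bot_iff_le_centralizer.1 (h.ri.comm h.ni n)))
  · obtain ⟨A₀, B₀, a, b, c⟩ := h.psl a.1 b.1.1 b.2
    exact ⟨A₀, B₀, a, b, k, _, h.card_k, c⟩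

end Cfsg.Agent.S5069
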