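import Cfsg.Statements.S5070
import Cfsg.Agent.H5.Root2

set_option autoImplicit false
open Matrix
open Cfsg

namespace Cfsg.Agent.S5070

open H5 H5.Form Subgroup

/-- Let F be a field, m a natural number and V = F^{2(m+1)} with the standard non-degenerate alternating form f(u, v) = uᵀ J v. For a non-zero vector p let T(p) be the group of symplectic transvections v ↦ v + c f(v, p) p, c ∈ F. Then the subgroups T(p), p ≠ 0, generate the symplectic group Sp_{2(m+1)}(F) and form a degenerate class of abstract F-root subgroups of it (any two of them either commute elementwise or are the unipotent subgroups of a rank one group that is an image of SL₂(F) with central kernel, never the commutator case), and their graph of rank one pairs is connected. -/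
theorem result (F : Type*) [Field F] (m : ℕ) :
    Cfsg.IsRootSubgroupClass {A : Subgroup ↥(Matrix.symplecticGroup (Fin (m + 1)) F) | ∃ p : Fin (m + 1) ⊕ Fin (m + 1) → F, p ≠ 0 ∧
        A = Subgroup.closure {g : ↥(Matrix.symplecticGroup (Fin (m + 1)) F) | ∃ c : F, ∀ v : Fin (m + 1) ⊕ Fin (m + 1) → F,
          (g : Matrix (Fin (m + 1) ⊕ Fin (m + 1)) (Fin (m + 1) ⊕ Fin (m + 1)) F) *ᵥ v =
            v + (c * (v ⬝ᵥ (Matrix.J (Fin (m + 1)) F *ᵥ p))) • p}} ∧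
    Cfsg.IsDegenerateRootSet {A : Subgroup ↥(Matrix.symplecticGroup (Fin (m + 1)) F) | ∃ p : Fin (m + 1) ⊕ Fin (m + 1) → F, p ≠ 0 ∧
        A = Subgroup.closure {g : ↥(Matrix.symplecticGroup (Fin (m + 1)) F) | ∃ c : F, ∀ v : Fin (m + 1) ⊕ Fin (m + 1) → F,
          (g : Matrix (Fin (m + 1) ⊕ Fin (m + 1)) (Fin (m + 1) ⊕ Fin (m + 1)) F) *ᵥ v =
            v + (c * (v ⬝ᵥ (Matrix.J (Fin (m + 1)) F *ᵥ p))) • p}} ∧
    Cfsg.IsKRootSubgroupSet F {A : Subgroup ↥(Matrix.symplecticGroup (Fin (m + 1)) F) | ∃ p : Fin (m + 1) ⊕ Fin (m + 1) → F, p ≠ 0 ∧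
        A = Subgroup.closure {g : ↥(Matrix.symplecticGroup (Fin (m + 1)) F) | ∃ c : F, ∀ v : Fin (m + 1) ⊕ Fin (m + 1) → F,
          (g : Matrix (Fin (m + 1) ⊕ Fin (m + 1)) (Fin (m + 1) ⊕ Fin (m + 1)) F) *ᵥ v =
            v + (c * (v ⬝ᵥ (Matrix.J (Fin (m + 1)) F *ᵥ p))) • p}} ∧
    Cfsg.IsConnectedFamily (Cfsg.FAdj {A : Subgroup ↥(Matrix.symplecticGroup (Fin (m + 1)) F) | ∃ p : Fin (m + 1) ⊕ Fin (m + 1) → F, p ≠ 0 ∧
        A = Subgroup.closure {g : ↥(Matrix.symplecticGroup (Fin (m + 1)) F) | ∃ c : F, ∀ v : Fin (m + 1) ⊕ Fin (m + 1) → F,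
          (g : Matrix (Fin (m + 1) ⊕ Fin (m + 1)) (Fin (m + 1) ⊕ Fin (m + 1)) F) *ᵥ v =
            v + (c * (v ⬝ᵥ (Matrix.J (Fin (m + 1)) F *ᵥ p))) • p}})
      {A : Subgroup ↥(Matrix.symplecticGroup (Fin (m + 1)) F) | ∃ p : Fin (m + 1) ⊕ Fin (m + 1) → F, p ≠ 0 ∧
        A = Subgroup.closure {g : ↥(Matrix.symplecticGroup (Fin (m + 1)) F) | ∃ c : F, ∀ v : Fin (m + 1) ⊕ Fin (m + 1) → F,
          (g : Matrix (Fin (m + 1) ⊕ Fin (m + 1)) (Fin (m + 1) ⊕ Fin (m + 1)) F) *ᵥ v =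
            v + (c * (v ⬝ᵥ (Matrix.J (Fin (m + 1)) F *ᵥ p))) • p}} := by
  have h := sympF_nondeg (F := F) (m + 1)
  let φ := (sympF F (m + 1)).isom.subtype.comp (spEquiv (m + 1)).toMonoidHom
  have H : RootData F (toEnd φ) (sympF F (m + 1)).tvS := h.rootData_tv (Subtype.val_injective.comp (spEquiv _).injective)
    (fun g => (spEquiv _ g).2) (fun u a hu hv ha => ⟨(spEquiv _).symm ⟨_, eich_mem _ hu hv ha⟩, by simp [φ]⟩) (by simp) (by simp)
    fun _ _ _ _ _ => ⟨_, rfl⟩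
  have e0 : ∀ p, closure {g : symplecticGroup (Fin (m + 1)) F | ∃ c : F, ∀ v, g.1 *ᵥ v = v + (c * (v ⬝ᵥ (J (Fin (m + 1)) F *ᵥ p))) • p} =
      rt F (toEnd φ) ((sympF F (m + 1)).tvN p 1) := fun p => by
    rw [rt]; congr 1; ext g
    refine exists_congr fun c => ?_
    rw [LinearMap.ext_iff]; simp [smul_smul, φ, Cfsg.sympForm]
  have e : {A : Subgroup (symplecticGroup (Fin (m + 1)) F) | ∃ p, p ≠ 0 ∧
      A = closure {g : symplecticGroup (Fin (m + 1)) F | ∃ c : F, ∀ v, g.1 *ᵥ v = v + (c * (v ⬝ᵥ (J (Fin (m + 1)) F *ᵥ p))) • p}} =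
      rt F (toEnd φ) '' (sympF F (m + 1)).tvS := by
    ext A
    simp only [e0]
    refine ⟨fun ⟨p, hp, e⟩ => ⟨_, ⟨p, 1, hp, symp_Q _ _, one_ne_zero, rfl, rfl⟩, e.symm⟩, ?_⟩
    rintro ⟨_, ⟨p, a, hp, -, ha, -, rfl⟩, rfl⟩
    exact ⟨p, hp, by rw [← rt_smul ha (N := (sympF F (m + 1)).tvN p 1), tvN_smul, smul_eq_mul, mul_one]⟩
  have g : ⨆ A ∈ rt F (toEnd φ) '' (sympF F (m + 1)).tvS, A = ⊤ := by
    rw [← closure_eq (⨆ A ∈ _, A)]
    refine closure_eq_top_of_equiv (spEquiv _) h.symp_TG.ge ?_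
    rintro _ ⟨u, a, hu, ha, rfl⟩
    by_cases c : u = 0
    · exact ⟨1, one_mem _, LinearEquiv.ext fun z => by simp [eich_apply, c, -sympF_B]⟩
    refine ⟨(spEquiv _).symm ⟨_, eich_mem _ hu (by simp [-sympF_B]) ha⟩,
      subset_closure (H.rt_le ⟨u, 1, c, hu, one_ne_zero, rfl, rfl⟩ (subset_closure ⟨a, ?_⟩)), by simp⟩
    refine LinearMap.ext fun _ => ?_; simp [φ, eich_apply, -sympF_B, -spEquiv_apply, smul_smul]
  obtain ⟨x, y, hxy⟩ := h.symp_hyp (by simp)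
  rw [e]
  exact ⟨tv_class h H g hxy symp_ker, H.degenerate (tv_degenerate h), H.kRootSet g, tv_connected h H⟩


end Cfsg.Agent.S5070
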