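import Cfsg.Statements.S5071
import Cfsg.Agent.H5.Root2
import Cfsg.Agent.H5.SubF

set_option autoImplicit false
open Matrix
open Cfsg

namespace Cfsg.Agent.S5071

open H5 H5.Form Subgroup

/-- Let F be a finite field with q² elements, n a natural number, and h the Hermitian form Σ uᵢ vᵢ^q on F^{n+2}. For a non-zero isotropic vector p let T(p) be the group of unitary transvections with centre ⟨p⟩: the elements of SU_{n+2}(q) moving every vector by a multiple of p and fixing every vector perpendicular to p. Let Σ be the set of these T(p) and G₀ the subgroup they generate. Then, viewed inside G₀, the members of Σ form a degenerate class of abstract k-root subgroups of G₀ for some field k with q elements (any two commute or are the unipotent subgroups of a rank one group that is an image of SL₂(k) with central kernel, never the commutator case), and their graph of rank one pairs is connected. -/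
theorem result (F : Type*) [Field F] [Fintype F] (q n : ℕ) (hF : Fintype.card F = q ^ 2) :
    Cfsg.IsRootSubgroupClass ((fun A : Subgroup ↥(Cfsg.SU (n + 2) F q) => A.subgroupOf (⨆ B ∈ {A : Subgroup ↥(Cfsg.SU (n + 2) F q) | ∃ p : Fin (n + 2) → F, p ≠ 0 ∧ Cfsg.hermForm (n + 2) F q p p = 0 ∧
          A = Subgroup.closure {g : ↥(Cfsg.SU (n + 2) F q) |
            (∀ v : Fin (n + 2) → F, ∃ c : F, ((g : Matrix.SpecialLinearGroup (Fin (n + 2)) F) : Matrix (Fin (n + 2)) (Fin (n + 2)) F) *ᵥ v = v + c • p) ∧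
            ∀ v : Fin (n + 2) → F, Cfsg.hermForm (n + 2) F q v p = 0 →
              ((g : Matrix.SpecialLinearGroup (Fin (n + 2)) F) : Matrix (Fin (n + 2)) (Fin (n + 2)) F) *ᵥ v = v}}, B)) ''
      {A : Subgroup ↥(Cfsg.SU (n + 2) F q) | ∃ p : Fin (n + 2) → F, p ≠ 0 ∧ Cfsg.hermForm (n + 2) F q p p = 0 ∧
          A = Subgroup.closure {g : ↥(Cfsg.SU (n + 2) F q) |
            (∀ v : Fin (n + 2) → F, ∃ c : F, ((g : Matrix.SpecialLinearGroup (Fin (n + 2)) F) : Matrix (Fin (n + 2)) (Fin (n + 2)) F) *ᵥ v = v + c • p) ∧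
            ∀ v : Fin (n + 2) → F, Cfsg.hermForm (n + 2) F q v p = 0 →
              ((g : Matrix.SpecialLinearGroup (Fin (n + 2)) F) : Matrix (Fin (n + 2)) (Fin (n + 2)) F) *ᵥ v = v}}) ∧
    Cfsg.IsDegenerateRootSet ((fun A : Subgroup ↥(Cfsg.SU (n + 2) F q) => A.subgroupOf (⨆ B ∈ {A : Subgroup ↥(Cfsg.SU (n + 2) F q) | ∃ p : Fin (n + 2) → F, p ≠ 0 ∧ Cfsg.hermForm (n + 2) F q p p = 0 ∧
          A = Subgroup.closure {g : ↥(Cfsg.SU (n + 2) F q) |
            (∀ v : Fin (n + 2) → F, ∃ c : F, ((g : Matrix.SpecialLinearGroup (Fin (n + 2)) F) : Matrix (Fin (n + 2)) (Fin (n + 2)) F) *ᵥ v = v + c • p) ∧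
            ∀ v : Fin (n + 2) → F, Cfsg.hermForm (n + 2) F q v p = 0 →
              ((g : Matrix.SpecialLinearGroup (Fin (n + 2)) F) : Matrix (Fin (n + 2)) (Fin (n + 2)) F) *ᵥ v = v}}, B)) ''
      {A : Subgroup ↥(Cfsg.SU (n + 2) F q) | ∃ p : Fin (n + 2) → F, p ≠ 0 ∧ Cfsg.hermForm (n + 2) F q p p = 0 ∧
          A = Subgroup.closure {g : ↥(Cfsg.SU (n + 2) F q) |
            (∀ v : Fin (n + 2) → F, ∃ c : F, ((g : Matrix.SpecialLinearGroup (Fin (n + 2)) F) : Matrix (Fin (n + 2)) (Fin (n + 2)) F) *ᵥ v = v + c • p) ∧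
            ∀ v : Fin (n + 2) → F, Cfsg.hermForm (n + 2) F q v p = 0 →
              ((g : Matrix.SpecialLinearGroup (Fin (n + 2)) F) : Matrix (Fin (n + 2)) (Fin (n + 2)) F) *ᵥ v = v}}) ∧
    (∃ (L : Type) (_ : Field L) (_ : Fintype L), Fintype.card L = q ∧ Cfsg.IsKRootSubgroupSet L ((fun A : Subgroup ↥(Cfsg.SU (n + 2) F q) => A.subgroupOf (⨆ B ∈ {A : Subgroup ↥(Cfsg.SU (n + 2) F q) | ∃ p : Fin (n + 2) → F, p ≠ 0 ∧ Cfsg.hermForm (n + 2) F q p p = 0 ∧
          A = Subgroup.closure {g : ↥(Cfsg.SU (n + 2) F q) |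
            (∀ v : Fin (n + 2) → F, ∃ c : F, ((g : Matrix.SpecialLinearGroup (Fin (n + 2)) F) : Matrix (Fin (n + 2)) (Fin (n + 2)) F) *ᵥ v = v + c • p) ∧
            ∀ v : Fin (n + 2) → F, Cfsg.hermForm (n + 2) F q v p = 0 →
              ((g : Matrix.SpecialLinearGroup (Fin (n + 2)) F) : Matrix (Fin (n + 2)) (Fin (n + 2)) F) *ᵥ v = v}}, B)) ''
      {A : Subgroup ↥(Cfsg.SU (n + 2) F q) | ∃ p : Fin (n + 2) → F, p ≠ 0 ∧ Cfsg.hermForm (n + 2) F q p p = 0 ∧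
          A = Subgroup.closure {g : ↥(Cfsg.SU (n + 2) F q) |
            (∀ v : Fin (n + 2) → F, ∃ c : F, ((g : Matrix.SpecialLinearGroup (Fin (n + 2)) F) : Matrix (Fin (n + 2)) (Fin (n + 2)) F) *ᵥ v = v + c • p) ∧
            ∀ v : Fin (n + 2) → F, Cfsg.hermForm (n + 2) F q v p = 0 →
              ((g : Matrix.SpecialLinearGroup (Fin (n + 2)) F) : Matrix (Fin (n + 2)) (Fin (n + 2)) F) *ᵥ v = v}})) ∧
    Cfsg.IsConnectedFamily (Cfsg.FAdj ((fun A : Subgroup ↥(Cfsg.SU (n + 2) F q) => A.subgroupOf (⨆ B ∈ {A : Subgroup ↥(Cfsg.SU (n + 2) F q) | ∃ p : Fin (n + 2) → F, p ≠ 0 ∧ Cfsg.hermForm (n + 2) F q p p = 0 ∧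
          A = Subgroup.closure {g : ↥(Cfsg.SU (n + 2) F q) |
            (∀ v : Fin (n + 2) → F, ∃ c : F, ((g : Matrix.SpecialLinearGroup (Fin (n + 2)) F) : Matrix (Fin (n + 2)) (Fin (n + 2)) F) *ᵥ v = v + c • p) ∧
            ∀ v : Fin (n + 2) → F, Cfsg.hermForm (n + 2) F q v p = 0 →
              ((g : Matrix.SpecialLinearGroup (Fin (n + 2)) F) : Matrix (Fin (n + 2)) (Fin (n + 2)) F) *ᵥ v = v}}, B)) ''
      {A : Subgroup ↥(Cfsg.SU (n + 2) F q) | ∃ p : Fin (n + 2) → F, p ≠ 0 ∧ Cfsg.hermForm (n + 2) F q p p = 0 ∧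
          A = Subgroup.closure {g : ↥(Cfsg.SU (n + 2) F q) |
            (∀ v : Fin (n + 2) → F, ∃ c : F, ((g : Matrix.SpecialLinearGroup (Fin (n + 2)) F) : Matrix (Fin (n + 2)) (Fin (n + 2)) F) *ᵥ v = v + c • p) ∧
            ∀ v : Fin (n + 2) → F, Cfsg.hermForm (n + 2) F q v p = 0 →
              ((g : Matrix.SpecialLinearGroup (Fin (n + 2)) F) : Matrix (Fin (n + 2)) (Fin (n + 2)) F) *ᵥ v = v}})) ((fun A : Subgroup ↥(Cfsg.SU (n + 2) F q) => A.subgroupOf (⨆ B ∈ {A : Subgroup ↥(Cfsg.SU (n + 2) F q) | ∃ p : Fin (n + 2) → F, p ≠ 0 ∧ Cfsg.hermForm (n + 2) F q p p = 0 ∧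
          A = Subgroup.closure {g : ↥(Cfsg.SU (n + 2) F q) |
            (∀ v : Fin (n + 2) → F, ∃ c : F, ((g : Matrix.SpecialLinearGroup (Fin (n + 2)) F) : Matrix (Fin (n + 2)) (Fin (n + 2)) F) *ᵥ v = v + c • p) ∧
            ∀ v : Fin (n + 2) → F, Cfsg.hermForm (n + 2) F q v p = 0 →
              ((g : Matrix.SpecialLinearGroup (Fin (n + 2)) F) : Matrix (Fin (n + 2)) (Fin (n + 2)) F) *ᵥ v = v}}, B)) ''
      {A : Subgroup ↥(Cfsg.SU (n + 2) F q) | ∃ p : Fin (n + 2) → F, p ≠ 0 ∧ Cfsg.hermForm (n + 2) F q p p = 0 ∧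
          A = Subgroup.closure {g : ↥(Cfsg.SU (n + 2) F q) |
            (∀ v : Fin (n + 2) → F, ∃ c : F, ((g : Matrix.SpecialLinearGroup (Fin (n + 2)) F) : Matrix (Fin (n + 2)) (Fin (n + 2)) F) *ᵥ v = v + c • p) ∧
            ∀ v : Fin (n + 2) → F, Cfsg.hermForm (n + 2) F q v p = 0 →
              ((g : Matrix.SpecialLinearGroup (Fin (n + 2)) F) : Matrix (Fin (n + 2)) (Fin (n + 2)) F) *ᵥ v = v}}) := by
  classical
  have h := hermF_nondeg (n + 2) hF
  obtain ⟨k0, hk0⟩ := exists_subfield hF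
  obtain ⟨L, _, _, hL⟩ := exists_type0 k0
  rw [hk0] at hL
  obtain ⟨ι, hι⟩ := exists_emb hF hL
  let _ := ι.toAlgebra
  have fx : ∀ c : L, conj hF (ι c) = ι c := fun c => (hι _).2 ⟨c, rfl⟩
  let φ := (hermF (n + 2) hF).sisom.subtype.comp (suEquiv (n + 2) hF).toMonoidHom
  have H : RootData L (toEnd φ) (hermF (n + 2) hF).tvS := h.rootData_tv (Subtype.val_injective.comp (suEquiv _ hF).injective)
    (fun g => (suEquiv _ hF g).2.1) (fun u a hu hv ha => ⟨(suEquiv _ hF).symm ⟨_, eich_mem_sisom hu hv ha⟩, by simp [φ]⟩) (by simp)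
    (fun c a ha => by
      simp only [Kind.unit_π, Algebra.smul_def, map_mul] at ha ⊢
      rw [show conj hF (algebraMap L F c) = _ from fx c]; linear_combination ι c * ha)
    fun a b x ha hb => (hι _).1 (by
      simp only [Kind.unit_π] at ha hb
      simp [conj_conj, eq_neg_of_add_eq_zero_right ha, eq_neg_of_add_eq_zero_right hb, mul_comm x])
  have e0 : ∀ p a, p ≠ 0 → (hermF (n + 2) hF).Q p = 0 → a ≠ 0 → (unitK hF).π a = 0 → closure {g : Cfsg.SU (n + 2) F q |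
      (∀ v, ∃ c : F, g.1.1 *ᵥ v = v + c • p) ∧ ∀ v, Cfsg.hermForm (n + 2) F q v p = 0 → g.1.1 *ᵥ v = v} =
      rt L (toEnd φ) ((hermF (n + 2) hF).tvN p a) := fun p a p0 hp a0 ha => by
    rw [rt]; congr 1; ext g
    refine ⟨fun ⟨h1, h2⟩ => ?_, fun ⟨c, e⟩ => ?_⟩
    · obtain ⟨x, hx, -⟩ := h.exists_sep (H := ⊥) p0 1
      rw [unit_symm, map_eq_one_iff _ (conj hF).injective] at hx
      obtain ⟨c, hc⟩ := h1 x
      have := (suEquiv _ hF g).2.1.2 x
      rw [suEquiv_apply, hc, Q_add, Q_smul_zero _ hp, B_smul_right, hx] at this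
      simp only [Kind.unit_π] at ha
      obtain ⟨l, hl⟩ := (hι (c / a)).1 (by
        simp [conj_conj, -hermF_Q] at this
        rw [map_div₀, eq_neg_of_add_eq_zero_right ha, eq_neg_of_add_eq_zero_left this, neg_div_neg_eq])
      refine ⟨l, LinearMap.ext fun v => ?_⟩
      have := h2 (v - (hermF _ hF).B v p • x) (by rw [← hermF_B _ hF]; simp [hx, -hermF_B])
      rw [mulVec_sub, mulVec_smul, hc, sub_eq_iff_eq_add] at this
      rw [tvN_smul, Algebra.smul_def, show algebraMap L F l = _ from hl, div_mul_cancel₀ _ a0]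
      refine this.trans ?_
      simp only [LinearMap.add_apply, tvN_apply, Module.End.one_apply]; module
    · have e : ∀ v, g.1.1 *ᵥ v = v + ((c • a) * (hermF (n + 2) hF).B v p) • p := fun v => by
        rw [tvN_smul] at e; exact LinearMap.congr_fun e v
      exact ⟨fun v => ⟨_, e v⟩, fun v hv => by simp [e, hv]⟩
  obtain ⟨θ, θ0, hθ⟩ := unit_ker (hF := hF)
  have e : {A : Subgroup (Cfsg.SU (n + 2) F q) | ∃ p, p ≠ 0 ∧ Cfsg.hermForm (n + 2) F q p p = 0 ∧ A = closure {g : Cfsg.SU (n + 2) F q |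
      (∀ v, ∃ c : F, g.1.1 *ᵥ v = v + c • p) ∧ ∀ v, Cfsg.hermForm (n + 2) F q v p = 0 → g.1.1 *ᵥ v = v}} =
      rt L (toEnd φ) '' (hermF (n + 2) hF).tvS := by
    ext A
    refine ⟨fun ⟨p, hp, h1, e⟩ => ⟨_, ⟨p, θ, hp, by simpa, θ0, hθ, rfl⟩, (e.trans (e0 p θ hp (by simpa) θ0 hθ)).symm⟩, ?_⟩
    rintro ⟨_, ⟨p, a, hp, h1, ha, h2, rfl⟩, rfl⟩
    exact ⟨p, hp, by simpa using h1, (e0 p a hp h1 ha h2).symm⟩
  obtain ⟨x, y, hxy⟩ := h.unit_hyp (by simp)
  rw [e, H.image_sub]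
  have H' := H.sub fun N => H.rt_le
  have g := H.gen_sub rfl
  exact ⟨tv_class h H' g hxy unit_ker, H'.degenerate (tv_degenerate h), ⟨L, _, _, hL, H'.kRootSet g⟩, tv_connected h H'⟩


end Cfsg.Agent.S5071
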