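import Cfsg.Statements.S5072
import Cfsg.Agent.H5.Root2

set_option autoImplicit false
open Matrix
open Cfsg

namespace Cfsg.Agent.S5072

open H5 H5.Form Subgroup

/-- Let F be a field, m a natural number and V = F^{2(m+3)} with the hyperbolic quadratic form q(x, y) = Σ xᵢ yᵢ (non-degenerate, Witt index m + 3 ≥ 3). For a singular line ℓ (a 2-dimensional subspace on which q vanishes) let T(ℓ) be the group of isometries of q fixing every vector of ℓ^⊥ (the Siegel transvection group of ℓ), let Σ be the set of these groups and G₀ the subgroup they generate. Then, viewed inside G₀, the members of Σ form a set of abstract F-root subgroups of G₀ (any two commute, or are the unipotent subgroups of a rank one group that is an image of SL₂(F) with central kernel, or satisfy the commutator case), and their graph of rank one pairs is connected. -/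
theorem result (F : Type*) [Field F] (m : ℕ) :
    Cfsg.IsKRootSubgroupSet F ((fun A : Subgroup ↥(Cfsg.isometryGroup F (Cfsg.quadFormPlus (m + 3) F)) => A.subgroupOf (⨆ B ∈ {A : Subgroup ↥(Cfsg.isometryGroup F (Cfsg.quadFormPlus (m + 3) F)) | ∃ p r : Fin (m + 3) ⊕ Fin (m + 3) → F, LinearIndependent F ![p, r] ∧
          Cfsg.quadFormPlus (m + 3) F p = 0 ∧ Cfsg.quadFormPlus (m + 3) F r = 0 ∧
          Cfsg.quadFormPlus (m + 3) F (p + r) = 0 ∧
          A = Subgroup.closure {σ : ↥(Cfsg.isometryGroup F (Cfsg.quadFormPlus (m + 3) F)) | ∀ v : Fin (m + 3) ⊕ Fin (m + 3) → F,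
            Cfsg.quadFormPlus (m + 3) F (v + p) - Cfsg.quadFormPlus (m + 3) F v - Cfsg.quadFormPlus (m + 3) F p = 0 →
            Cfsg.quadFormPlus (m + 3) F (v + r) - Cfsg.quadFormPlus (m + 3) F v - Cfsg.quadFormPlus (m + 3) F r = 0 →
              ((σ : Matrix.GeneralLinearGroup (Fin (m + 3) ⊕ Fin (m + 3)) F) : Matrix (Fin (m + 3) ⊕ Fin (m + 3)) (Fin (m + 3) ⊕ Fin (m + 3)) F) *ᵥ v = v}}, B)) ''
      {A : Subgroup ↥(Cfsg.isometryGroup F (Cfsg.quadFormPlus (m + 3) F)) | ∃ p r : Fin (m + 3) ⊕ Fin (m + 3) → F, LinearIndependent F ![p, r] ∧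
          Cfsg.quadFormPlus (m + 3) F p = 0 ∧ Cfsg.quadFormPlus (m + 3) F r = 0 ∧
          Cfsg.quadFormPlus (m + 3) F (p + r) = 0 ∧
          A = Subgroup.closure {σ : ↥(Cfsg.isometryGroup F (Cfsg.quadFormPlus (m + 3) F)) | ∀ v : Fin (m + 3) ⊕ Fin (m + 3) → F,
            Cfsg.quadFormPlus (m + 3) F (v + p) - Cfsg.quadFormPlus (m + 3) F v - Cfsg.quadFormPlus (m + 3) F p = 0 →
            Cfsg.quadFormPlus (m + 3) F (v + r) - Cfsg.quadFormPlus (m + 3) F v - Cfsg.quadFormPlus (m + 3) F r = 0 →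
              ((σ : Matrix.GeneralLinearGroup (Fin (m + 3) ⊕ Fin (m + 3)) F) : Matrix (Fin (m + 3) ⊕ Fin (m + 3)) (Fin (m + 3) ⊕ Fin (m + 3)) F) *ᵥ v = v}}) ∧
    Cfsg.IsConnectedFamily (Cfsg.FAdj {A : Subgroup ↥(Cfsg.isometryGroup F (Cfsg.quadFormPlus (m + 3) F)) | ∃ p r : Fin (m + 3) ⊕ Fin (m + 3) → F, LinearIndependent F ![p, r] ∧
          Cfsg.quadFormPlus (m + 3) F p = 0 ∧ Cfsg.quadFormPlus (m + 3) F r = 0 ∧
          Cfsg.quadFormPlus (m + 3) F (p + r) = 0 ∧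
          A = Subgroup.closure {σ : ↥(Cfsg.isometryGroup F (Cfsg.quadFormPlus (m + 3) F)) | ∀ v : Fin (m + 3) ⊕ Fin (m + 3) → F,
            Cfsg.quadFormPlus (m + 3) F (v + p) - Cfsg.quadFormPlus (m + 3) F v - Cfsg.quadFormPlus (m + 3) F p = 0 →
            Cfsg.quadFormPlus (m + 3) F (v + r) - Cfsg.quadFormPlus (m + 3) F v - Cfsg.quadFormPlus (m + 3) F r = 0 →
              ((σ : Matrix.GeneralLinearGroup (Fin (m + 3) ⊕ Fin (m + 3)) F) : Matrix (Fin (m + 3) ⊕ Fin (m + 3)) (Fin (m + 3) ⊕ Fin (m + 3)) F) *ᵥ v = v}})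
      {A : Subgroup ↥(Cfsg.isometryGroup F (Cfsg.quadFormPlus (m + 3) F)) | ∃ p r : Fin (m + 3) ⊕ Fin (m + 3) → F, LinearIndependent F ![p, r] ∧
          Cfsg.quadFormPlus (m + 3) F p = 0 ∧ Cfsg.quadFormPlus (m + 3) F r = 0 ∧
          Cfsg.quadFormPlus (m + 3) F (p + r) = 0 ∧
          A = Subgroup.closure {σ : ↥(Cfsg.isometryGroup F (Cfsg.quadFormPlus (m + 3) F)) | ∀ v : Fin (m + 3) ⊕ Fin (m + 3) → F,
            Cfsg.quadFormPlus (m + 3) F (v + p) - Cfsg.quadFormPlus (m + 3) F v - Cfsg.quadFormPlus (m + 3) F p = 0 →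
            Cfsg.quadFormPlus (m + 3) F (v + r) - Cfsg.quadFormPlus (m + 3) F v - Cfsg.quadFormPlus (m + 3) F r = 0 →
              ((σ : Matrix.GeneralLinearGroup (Fin (m + 3) ⊕ Fin (m + 3)) F) : Matrix (Fin (m + 3) ⊕ Fin (m + 3)) (Fin (m + 3) ⊕ Fin (m + 3)) F) *ᵥ v = v}} := by
  have h := plusF_nondeg (F := F) (m + 3)
  have h3 := (plusF_hasTS (F := F) (m + 3)).mono (l := 3) (by omega)
  rw [← plusF_Q]
  generalize plusF F (m + 3) = Φ at h h3 ⊢
  let φ := Φ.isom.subtype.comp (oEquiv Φ).toMonoidHom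
  have H : RootData F (toEnd φ) Φ.sgS := rootData_sg (Subtype.val_injective.comp (oEquiv _).injective)
    (fun g => (oEquiv _ g).2) fun t ht => ⟨(oEquiv _).symm ⟨t, ht⟩, by simp [φ]⟩
  have e0 : ∀ p r, LinearIndependent F ![p, r] → Φ.Q p = 0 → Φ.Q r = 0 → Φ.B r p = 0 → closure {σ : Cfsg.isometryGroup F Φ.Q | ∀ v,
      Φ.Q (v + p) - Φ.Q v - Φ.Q p = 0 → Φ.Q (v + r) - Φ.Q v - Φ.Q r = 0 → σ.1.1 *ᵥ v = v} = rt F (toEnd φ) (Φ.sgN p r) :=
    fun p r hi hp hr b => by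
      rw [rt]; congr 1; ext g
      simp only [orth_add, add_sub_cancel_left, add_assoc, Set.mem_ofPred_eq, ← oEquiv_apply]
      refine ⟨fun h1 => ?_, fun ⟨c, e⟩ v h1 h2 => (LinearMap.congr_fun e v).trans (by simp [h1, h2])⟩
      have hg := (oEquiv Φ g).2
      change ∃ c : F, (oEquiv Φ g).1.toLinearMap = _
      generalize (oEquiv Φ g).1 = g at *
      have R : ∀ x, ∃ a b : F, g x = x + (a • p + b • r) := fun x => by
        have : LinearMap.range (g.toLinearMap - LinearMap.id) ≤ Submodule.span F {p, r} := by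
          rw [← h.perp_perp (Submodule.span F {p, r}), le_perp_comm, h.perp_range_sub hg]
          exact fun v hv => mem_fixSp.2 (h1 v (Φ.mem_perp_pair.1 hv).1 (Φ.mem_perp_pair.1 hv).2)
        obtain ⟨a, b, e⟩ := Submodule.mem_span_pair.1 (this ⟨x, rfl⟩)
        exact ⟨a, b, by simp [e]⟩
      have S : ∀ {p r : Fin (m + 3) ⊕ Fin (m + 3) → F}, LinearIndependent F ![p, r] → ∃ x, Φ.B x p = 1 ∧ Φ.B x r = 0 := fun {p r} hi => by
        obtain ⟨x, e1, e2⟩ := h.exists_sep (H := F ∙ r) (x := p) (by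
          simpa [Submodule.mem_span_singleton] using (linearIndependent_fin2.1 hi).2) 1
        exact ⟨x, Φ.orth_symm x p ▸ e1, Φ.B_zero_symm (e2 r (Submodule.mem_span_singleton_self r))⟩
      obtain ⟨x, x1, x2⟩ := S hi
      obtain ⟨y, y1, y2⟩ := S (LinearIndependent.pair_symm_iff.1 hi)
      obtain ⟨a, c, hx⟩ := R x
      obtain ⟨c', d, hy⟩ := R y
      have q1 := hg.2 x
      have q2 := hg.2 y
      have q3 := hg.1 x y
      simp [hx, hy, orth_add, orth_smul, B_smul_right, hp, hr, b, Φ.B_zero_symm b, x1, x2, y1, y2, Φ.B_self_of_Q hp, Φ.B_self_of_Q hr,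
        Φ.orth_symm y r, Φ.orth_symm y p, add_assoc] at q1 q2 q3
      refine ⟨c, LinearMap.ext fun v => ?_⟩
      have := h1 (v - Φ.B v p • x - Φ.B v r • y) (by simp [x1, y2]) (by simp [x2, y1])
      rw [map_sub, map_sub, map_smul, map_smul, hx, hy, q1, q2, eq_neg_of_add_eq_zero_left q3, sub_sub, sub_eq_iff_eq_add] at this
      refine this.trans ?_
      simp only [LinearMap.add_apply, LinearMap.smul_apply, sgN_apply, Module.End.one_apply]; module
  have li : ∀ p r, LinearIndependent F ![p, r] ↔ Φ.sgN p r ≠ 0 := fun p r => by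
    simp [h.sgN_ne, LinearIndependent.pair_symm_iff (x := p), linearIndependent_fin2, Submodule.mem_span_singleton]
  have e : {A : Subgroup (Cfsg.isometryGroup F Φ.Q) | ∃ p r, LinearIndependent F ![p, r] ∧ Φ.Q p = 0 ∧ Φ.Q r = 0 ∧ Φ.Q (p + r) = 0 ∧
      A = closure {σ : Cfsg.isometryGroup F Φ.Q | ∀ v,
      Φ.Q (v + p) - Φ.Q v - Φ.Q p = 0 → Φ.Q (v + r) - Φ.Q v - Φ.Q r = 0 → σ.1.1 *ᵥ v = v}} = rt F (toEnd φ) '' Φ.sgS := by
    ext A
    refine ⟨fun ⟨p, r, hi, hp, hr, b, e⟩ => ?_, ?_⟩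
    · have b : Φ.B r p = 0 := by simpa [orth_add, hp, hr, Φ.orth_symm p r] using b
      exact ⟨_, ⟨(li p r).1 hi, p, r, hp, hr, b, rfl⟩, (e.trans (e0 p r hi hp hr b)).symm⟩
    rintro ⟨_, ⟨h0, p, r, hp, hr, b, rfl⟩, rfl⟩
    exact ⟨p, r, (li p r).2 h0, hp, hr, by simp [orth_add, hp, hr, Φ.B_zero_symm b], (e0 p r ((li p r).2 h0) hp hr b).symm⟩
  rw [e, H.image_sub]
  exact ⟨(H.sub fun N => H.rt_le).kRootSet (H.gen_sub rfl), sg_connected h h3 H⟩


end Cfsg.Agent.S5072
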