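import Cfsg.Statements.S5073
import Cfsg.Agent.QP.C

set_option autoImplicit false
universe u
open Cfsg

namespace Cfsg.Agent.S5073

open RS QP

/-- Let k be a field of characteristic not 2 with k not of order 3, M a finite-dimensional k-vector space and G ≤ GL(M) such that (G, M) is a quadratic pair (M irreducible for G, and G generated by its quadratically acting elements σ whose scalar family 1 + c(σ − 1), c ∈ k, lies in G). Write 𝒬_d for the quadratic elements of G of minimal commutator rank, E(σ) for the subgroup generated by the members of 𝒬_d with the same fixed space and commutator space as σ, and Σ for the set of these subgroups. Let E, F ∈ Σ. If some non-identity element of E commutes with some non-identity element of F, or some non-identity element of E normalizes F, then E and F commute elementwise. -/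
theorem result {k : Type u} [Field k] (hk2 : ringChar k ≠ 2) (hk3 : Nat.card k ≠ 3)
    {M : Type u} [AddCommGroup M] [Module k M] [FiniteDimensional k M]
    {G : Subgroup (LinearMap.GeneralLinearGroup k M)} (hG : Cfsg.IsQuadraticPair G)
    {E F : Subgroup (LinearMap.GeneralLinearGroup k M)} (hE : E ∈ Cfsg.quadraticRootSubgroups G) (hF : F ∈ Cfsg.quadraticRootSubgroups G)
    (h : (∃ e ∈ E, e ≠ 1 ∧ ∃ f ∈ F, f ≠ 1 ∧ e * f = f * e) ∨ E ⊓ Subgroup.normalizer (F : Set (LinearMap.GeneralLinearGroup k M)) ≠ ⊥) :
    ⁅E, F⁆ = ⊥ := by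
  have H := qs hk2 hk3 hG
  rw [roots_eq H] at *
  rcases h with ⟨e, i, e1, f, j, f1, c⟩ | h
  · obtain ⟨s, hs, rfl⟩ := hE
    obtain ⟨t, ht, rfl⟩ := hF
    obtain ⟨x, i', rfl⟩ := H.ex i
    obtain ⟨y, j', rfl⟩ := H.ex j
    rw [ne_eq, un_eq_one] at e1 f1
    rw [← H.EG_eq hs i' e1, ← H.EG_eq ht j' f1]
    refine H.commute (H.mn hs i' e1).1 (H.mn ht j' f1).1 ?_
    have := congrArg Units.val c
    simp only [Units.val_mul, un_val] at this
    linear_combination (norm := noncomm_ring) this
  obtain ⟨a, ⟨i, j⟩, a1⟩ := exists_ne_one h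
  rcases H.ri.tri E hE F hF with t | t | t
  · exact t
  · exact absurd (t.norm i (cj_eq_iff.2 j)) a1
  · have := t.symm.sup_cj i a1
    rw [cj_eq_iff.2 j, sup_idem] at this
    obtain ⟨c, l, c1⟩ := exists_ne_one (H.ri.ne _ t.symm.mem)
    exact comm_symm (H.eq_of_mem t.symm.mem hF l (this.ge (Subgroup.mem_sup_right l)) c1 ▸ t.symm.cB)

end Cfsg.Agent.S5073
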