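import Cfsg.Statements.S5077
import Cfsg.Agent.H2.Fus6

set_option autoImplicit false
open Cfsg

namespace Cfsg.Agent.S5077

/-- A fusion system over a finite p-group S is saturated if and only if (Sylow axiom) every fully normalized subgroup is fully centralized and fully automized, and (extension axiom) every fully centralized subgroup is receptive. -/
theorem result {Ω : Type*} [Group Ω] {S : Subgroup Ω} [Finite S] (p : ℕ) [Fact p.Prime] (hS : IsPGroup p S) (F : Cfsg.FusionSystem S) : F.IsSaturated p ↔ ((∀ P : Subgroup Ω, F.IsFullyNormalized P → F.IsFullyCentralized P ∧ F.IsFullyAutomized p P) ∧ (∀ P : Subgroup Ω, F.IsFullyCentralized P → F.IsReceptive P)) := by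
  refine ⟨fun h => ⟨fun P => (H2.Sat.fn_iff ⟨hS, h⟩).1, fun P => H2.Sat.rec_of_fc ⟨hS, h⟩⟩, fun h => ?_⟩
  exact (H2.sat_of_axioms hS fun P hP => ⟨(h.1 P hP).2, h.2 P (h.1 P hP).1⟩).sat

end Cfsg.Agent.S5077
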