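import Cfsg.Statements.S5081
import Cfsg.Agent.H2.Fus6

set_option autoImplicit false
open Cfsg

namespace Cfsg.Agent.S5081

open H2 Subgroup in

/-- Let F be a saturated fusion system over a finite p-group S, P a proper subgroup of S that is fully normalized, and H the subgroup of Aut_F(P) generated by the automorphisms that extend to maps of the system defined on strictly larger subgroups of S. Then either P is not essential and H is all of Aut_F(P), or P is essential and the image of H in Out_F(P) = Aut_F(P)/Inn(P) is strongly p-embedded there. -/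
theorem result {Ω : Type*} [Group Ω] {S : Subgroup Ω} [Finite S] (p : ℕ) [Fact p.Prime] (hS : IsPGroup p S) (F : Cfsg.FusionSystem S) (hF : F.IsSaturated p) (P : Subgroup Ω) (hPS : P < S) (hPn : F.IsFullyNormalized P) (H : Subgroup (MulAut P)) (hH : H = Subgroup.closure {α : MulAut P | ∃ (Q : Subgroup Ω) (hPQ : P < Q) (φ : Q →* Ω), φ ∈ F.Hom Q ∧ ∀ x : P, φ (Subgroup.inclusion hPQ.le x) = α x}) : (¬ F.IsEssential p P ∧ H = F.autGroup P) ∨ (F.IsEssential p P ∧ ∃ _ : ((Cfsg.Inn P).subgroupOf (F.autGroup P)).Normal, Cfsg.IsStronglyPEmbedded p ((H.subgroupOf (F.autGroup P)).map (QuotientGroup.mk' ((Cfsg.Inn P).subgroupOf (F.autGroup P))))) := by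
  have hF' : H2.Sat p F := ⟨hS, hF⟩
  have key : ∀ α : MulAut P, (∃ (Q : Subgroup Ω) (hPQ : P < Q) (φ : Q →* Ω), φ ∈ F.Hom Q ∧
      ∀ x : P, φ (Subgroup.inclusion hPQ.le x) = α x) ↔
      ∃ (Q : Subgroup Ω) (τ : Equiv.Perm Ω), P < Q ∧ Mor F Q τ ∧ ∀ x ∈ P, τ x = ext P α x := by
    intro α
    constructor
    · rintro ⟨Q, h1, φ, h2, h3⟩
      obtain ⟨τ, h4, h5⟩ := exists_mor h2
      exact ⟨Q, τ, h1, h4, fun x hx => by rw [ext_apply α hx, ← h3, h5]; rfl⟩
    · rintro ⟨Q, τ, h1, h2, h3⟩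
      exact ⟨Q, h1, _, h2.toHom_mem, fun x => by rw [← ext_apply_coe, ← h3 x x.2]; rfl⟩
  simp only [key] at hH
  have hle : H ≤ F.autGroup P := by
    rw [hH, closure_le]
    rintro α ⟨Q, τ, h1, h2, h3⟩
    exact (mem_autGroup hPS.le).2 ((h2.mono h1.le).congr h3)
  have hin : ∀ α ∈ Aut F P, ∀ Q (τ : Equiv.Perm Ω), P < Q → Mor F Q τ → (∀ x ∈ P, τ x = α x) →
      α ∈ H.map (ext P) := by
    rintro _ ⟨α, -, rfl⟩ Q τ h1 h2 h3
    exact mem_map_of_mem _ (hH ▸ subset_closure ⟨Q, τ, h1, h2, h3⟩)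
  have hG : Gam (Aut F P) (AutS P P) (AutS S P) ≤ H.map (ext P) :=
    hF'.Gam_le (hF'.fc_of_fn hPn) fun α hα Q τ h1 _ h2 h3 => hin α hα Q τ h1 h2 h3
  by_cases he : F.IsEssential p P
  · refine Or.inr ⟨he, inn_subgroupOf_normal, ?_⟩
    obtain ⟨hc, -, -, h3⟩ := hF'.essential_iff.1 he
    obtain ⟨h1, h2, h4, h5⟩ := aut_transfer hS (hF'.fa_of_fn hPn)
    have hG' : H.map (ext P) ≤ Gam (Aut F P) (AutS P P) (AutS S P) := by
      rw [hH, MonoidHom.map_closure, closure_le]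
      rintro _ ⟨α, ⟨Q, τ, k1, k2, k3⟩, rfl⟩
      exact hF'.mem_Gam_of_extends hPn hc ((mem_Aut hPS.le).2 ⟨(k2.mono k1.le).congr k3, ext_mem_Sym α⟩) k1 k2 k3
    have hj : Function.Injective ((ext P).comp (F.autGroup P).subtype) :=
      (ext_injective P).comp (F.autGroup P).subtype_injective
    have e : H.subgroupOf (F.autGroup P) = Gam ⊤ ((Cfsg.Inn P).subgroupOf (F.autGroup P))
        ((Cfsg.autInducedBy S P).subgroupOf (F.autGroup P)) := by
      rw [← (map_injective hj).eq_iff, h5, ← map_map, map_subgroupOf_eq_of_le hle]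
      exact le_antisymm hG' hG
    have hlt := h4.2 (Inn_lt_AutS hS (centric_self hc) hPS le_rfl)
    have h6 : (Cfsg.Inn P).subgroupOf (F.autGroup P) ≤ H.subgroupOf (F.autGroup P) := fun a ha =>
      e ▸ mem_Gam (mem_top _) hlt le_rfl (le_normalizer (h2 ha))
    have h7 := comap_map_eq_self (f := QuotientGroup.mk' ((Cfsg.Inn P).subgroupOf (F.autGroup P)))
      (H := H.subgroupOf (F.autGroup P)) (by rwa [QuotientGroup.ker_mk'])
    refine (spe_iff h1 h2 _).2 ⟨hlt, fun e' => h3 (le_antisymm (Gam_le _ _ _) (le_trans ?_ hG')), 1, ?_⟩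
    · rw [e', comap_top, eq_comm, subgroupOf_eq_top] at h7
      exact map_mono h7
    · rw [cj_one, h7, e]
  · refine Or.inl ⟨he, le_antisymm hle (map_ext_le_map_ext.1 ?_)⟩
    by_cases hc : S ⊓ centralizer (P : Set Ω) ≤ P
    · refine le_trans (le_of_eq ?_) hG
      by_contra e
      exact he (hF'.essential_iff.2 ⟨centric_of_fc (hF'.fc_of_fn hPn) hc, hPn, hPS.ne, fun e' => e e'.symm⟩)
    · intro σ hσ
      obtain ⟨τ, h1, h2⟩ := hF'.extend_centralizer (Aut.mor hPS.le hσ) ((Aut.img_eq hσ).symm ▸ hF'.fc_of_fn hPn)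
      exact hin σ hσ _ τ (lt_of_le_not_ge le_sup_left fun e => hc (le_sup_right.trans e)) h1 h2

end Cfsg.Agent.S5081
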