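import Cfsg.Statements.S5085
import Cfsg.Agent.H2.Fus6

set_option autoImplicit false
open Cfsg

namespace Cfsg.Agent.S5085

open H2 Subgroup in

/-- In any fusion system, a characteristic subgroup of a subgroup that is normal in the system is itself normal in the system. -/
theorem result {Ω : Type*} [Group Ω] {S : Subgroup Ω} (F : Cfsg.FusionSystem S) (Q U : Subgroup Ω) (hQ : F.IsNormal Q) (hUQ : U ≤ Q) (hU : (U.subgroupOf Q).Characteristic) : F.IsNormal U := by
  refine ⟨hUQ.trans hQ.1, fun P φ hφ => ?_⟩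
  obtain ⟨ψ, h1, h2, h3⟩ := hQ.2 P φ hφ
  have hm := mor_fn.2 h1
  have hle : P ⊔ U ≤ P ⊔ Q := sup_le_sup_left hUQ _
  refine ⟨_, (hm.mono hle).toHom_mem, fun x => ?_, ?_⟩
  · rw [← h2, fn_coe ψ]; rfl
  · rw [map_subgroupOf_eq_img ψ (fn_coe ψ) le_sup_right] at h3
    rw [map_subgroupOf_eq_img (f := fn ψ) _ (fun _ => rfl) le_sup_right]
    have hQ' := hm.mono (le_sup_right : Q ≤ P ⊔ Q)
    let α : Q →* Q := hQ'.homOn.toHom.codRestrict Q fun x => h3.le (mem_img_of_mem x.2)
    have hα : Function.Bijective α := ⟨fun x y e => Subtype.ext (hQ'.injOn x.2 y.2 (congrArg Subtype.val e)),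
      fun y => by
        obtain ⟨x, hx, e⟩ := hQ'.homOn.mem_img.1 (h3.ge y.2)
        exact ⟨⟨x, hx⟩, Subtype.ext e⟩⟩
    have := characteristic_iff_map_eq.1 hU (MulEquiv.ofBijective α hα)
    have h4 := congrArg (Subgroup.map Q.subtype) this
    rw [map_map, map_subgroupOf_eq_of_le hUQ, map_subgroupOf_eq_img (f := fn ψ) _ (fun _ => rfl) hUQ] at h4
    exact h4

end Cfsg.Agent.S5085
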