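import Cfsg.Statements.S5087
import Cfsg.Agent.H2.Fus6

set_option autoImplicit false
open Cfsg

namespace Cfsg.Agent.S5087

open H2 Subgroup in

/-- In a saturated fusion system over a finite p-group S, a subgroup Q is normal in the system if and only if every subgroup P that equals S or is essential contains Q and every element of Aut_F(P) maps Q onto itself. -/
theorem result {Ω : Type*} [Group Ω] {S : Subgroup Ω} [Finite S] (p : ℕ) [Fact p.Prime] (hS : IsPGroup p S) (F : Cfsg.FusionSystem S) (hF : F.IsSaturated p) (Q : Subgroup Ω) : F.IsNormal Q ↔ ∀ P : Subgroup Ω, (P = S ∨ F.IsEssential p P) → (Q ≤ P ∧ ∀ α ∈ F.autGroup P, (Q.subgroupOf P).map α.toMonoidHom = Q.subgroupOf P) := by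
  have hF' : H2.Sat p F := ⟨hS, hF⟩
  constructor
  · intro h P hP
    obtain ⟨h1, h2, h3⟩ := hF'.fcr_of hP
    have hle := normal_le_cr hS h h2 h3
    refine ⟨hle, fun α hα => ?_⟩
    have := sc_Stab (normal_sc h) ((mem_autGroup h1.1).1 hα) hle
    ext x
    rw [mem_map_equiv, mem_subgroupOf, mem_subgroupOf, ← this, ext_apply_coe]; simp
  · intro h
    refine hF'.normal_of_essential fun P hP => ⟨(h P hP).1, ?_⟩
    rintro _ ⟨α, hα, rfl⟩ x hx
    have : α ⟨x, (h P hP).1 hx⟩ ∈ Q.subgroupOf P :=
      ((h P hP).2 α hα).le (mem_map_of_mem α.toMonoidHom hx)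
    rw [ext_apply α ((h P hP).1 hx)]; exact this

end Cfsg.Agent.S5087
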