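import Cfsg.Statements.S5088
import Cfsg.Agent.H2.Fus10

set_option autoImplicit false
open Cfsg

namespace Cfsg.Agent.S5088

open H2 Subgroup in

/-- In a saturated fusion system over a finite p-group, a subgroup Q is normal in the system if and only if there is a chain of subgroups 1 = Q₀ ≤ Q₁ ≤ ⋯ ≤ Qₙ = Q such that each Qᵢ with i ≥ 1 is strongly closed in the system and [Q, Qᵢ] ≤ Qᵢ₋₁. -/
theorem result {Ω : Type*} [Group Ω] {S : Subgroup Ω} [Finite S] (p : ℕ) [Fact p.Prime] (hS : IsPGroup p S) (F : Cfsg.FusionSystem S) (hF : F.IsSaturated p) (Q : Subgroup Ω) : F.IsNormal Q ↔ ∃ (n : ℕ) (Qs : Fin (n + 1) → Subgroup Ω), Qs 0 = ⊥ ∧ Qs (Fin.last n) = Q ∧ Monotone Qs ∧ ∀ i : Fin n, F.StronglyClosed (Qs i.succ) ∧ ⁅Q, Qs i.succ⁆ ≤ Qs (Fin.castSucc i) := by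
  have hF' : Sat p F := ⟨hS, hF⟩
  constructor
  · intro h
    have := finite_of_le h.1
    obtain ⟨n, hn⟩ := exists_Zs_eq (hS.to_le h.1)
    exact ⟨n, fun i => Zs Q i, Zs_zero Q, hn, fun i j hij => Zs_mono Q hij,
      fun i => ⟨normal_sc (normal_Zs h _), commutator_Zs_le Q i⟩⟩
  · rintro ⟨n, Qs, h0, h1, -, h3⟩
    have hsc : ∀ i, F.StronglyClosed (Qs i) := fun i => by
      refine Fin.cases ?_ (fun j => (h3 j).1) i
      rw [h0]; exact sc_bot F
    refine hF'.normal_of_chain' (h1 ▸ hsc _) (fun i => if h : i < n + 1 then Qs ⟨i, h⟩ else ⊥) n ?_ (fun i hi => ?_) ?_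
      fun i hi => ?_
    · rw [dif_pos n.lt_succ_self]; exact h1.ge
    · rw [dif_pos (by omega)]; exact hsc _
    · rw [dif_pos n.succ_pos]; exact h0
    · rw [dif_pos (by omega), dif_pos (by omega)]; exact (h3 ⟨i, hi⟩).2

end Cfsg.Agent.S5088
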