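import Cfsg.Statements.S5089
import Cfsg.Agent.H2.Fus6

set_option autoImplicit false
open Cfsg

namespace Cfsg.Agent.S5089

open H2 Subgroup in

/-- A saturated fusion system over a finite p-group has a nontrivial subgroup that is normal in the system (O_p(F) ≠ 1) if and only if some nontrivial abelian subgroup is strongly closed in the system. -/
theorem result {Ω : Type*} [Group Ω] {S : Subgroup Ω} [Finite S] (p : ℕ) [Fact p.Prime] (hS : IsPGroup p S) (F : Cfsg.FusionSystem S) (hF : F.IsSaturated p) : F.core ≠ ⊥ ↔ ∃ Q : Subgroup Ω, Q ≠ ⊥ ∧ IsMulCommutative Q ∧ F.StronglyClosed Q := by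
  have hF' : H2.Sat p F := ⟨hS, hF⟩
  constructor
  · intro h
    have hn := core_normal F
    have := finite_of_le hn.1
    have hZ : F.IsNormal (F.core ⊓ centralizer (F.core : Set Ω)) :=
      normal_of_invariant hn inf_le_left fun α hα x hx => ⟨Aut.mem hα hx.1, by
        have := (Aut.homOn hα).img_centralizer_le le_rfl hx.1 hx.2
        rwa [Aut.img_eq hα] at this⟩
    refine ⟨F.core ⊓ centralizer (F.core : Set Ω), fun e => ?_, ⟨⟨fun a b => Subtype.ext ((mem_inf.1 b.2).2 a (mem_inf.1 a.2).1)⟩⟩, normal_sc hZ⟩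
    have : Nontrivial F.core := (nontrivial_iff_ne_bot _).2 h
    obtain ⟨z, hz⟩ := (nontrivial_iff_exists_ne_one _).1 (hS.to_le hn.1).center_nontrivial
    refine hz.2 (Subtype.ext ?_)
    have : (z : Ω) ∈ F.core ⊓ centralizer (F.core : Set Ω) :=
      ⟨z.2, fun y hy => congrArg Subtype.val (mem_center_iff.1 hz.1 ⟨y, hy⟩)⟩
    rwa [e, mem_bot] at this
  · rintro ⟨Q, h1, h2, h3⟩ e
    refine h1 (eq_bot_iff.2 (e ▸ le_core (hF'.normal_of_abelian h3 ?_)))
    rw [commutator_eq_bot_iff_le_centralizer]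
    exact le_centralizer_iff_isMulCommutative.2 h2

end Cfsg.Agent.S5089
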