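import Cfsg.Statements.S5094
import Cfsg.Agent.H2.Fus27
import Cfsg.Agent.H1.ZS

set_option autoImplicit false
open Cfsg

namespace Cfsg.Agent.S5094

open H2 Subgroup in

/-- Glauberman's Z*-Theorem in fusion language: for a finite group G with Sylow 2-subgroup S, the centre of the fusion system of G on S is the set of elements of S whose image in G/O(G) is central, O(G) being the largest normal subgroup of odd order. -/
theorem result {G : Type*} [Group G] [Finite G] (S : Sylow 2 G) : (Cfsg.groupFusionSystem (S : Subgroup G)).center = (S : Subgroup G) ⊓ (Subgroup.center (G ⧸ Cfsg.oddCore G)).comap (QuotientGroup.mk' (Cfsg.oddCore G)) := by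
  haveI := Fact.mk Nat.prime_two
  have hF := sat_group S
  ext z
  rw [mem_center_iff_fix hF, mem_inf, mem_comap, mem_center_iff]
  refine and_congr_right fun hz => ⟨fun h q => ?_, fun h P σ hσ hP => ?_⟩
  · obtain ⟨g, rfl⟩ := QuotientGroup.mk'_surjective _ q
    have := H1.zstar_fix G S _ (center_le _) (fun c hc g hg => by
      have := ((mem_center_iff_fix hF).1 hc).2 (zpowers c) (MulAut.conj g).toEquiv (mor_group_iff.2
        ⟨zpowers_le.2 (center_le _ hc), fun x hx => by
          obtain ⟨k, rfl⟩ := hx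
          show g * c ^ k * g⁻¹ ∈ _
          rw [← conj_zpow]; exact zpow_mem hg k, g, fun _ _ => rfl⟩) (mem_zpowers c)
      exact this) z ((mem_center_iff_fix hF).2 ⟨hz, h⟩) g
    rw [← mul_inv_eq_one, ← map_mul, ← map_mul, ← map_inv, ← map_mul]
    exact (QuotientGroup.eq_one_iff _).2 (by simpa [mul_assoc] using this)
  · obtain ⟨-, h1, g, h2⟩ := mor_group_iff.1 hσ
    have h3 : g * z * g⁻¹ * z⁻¹ ∈ oddCore G := by
      rw [← QuotientGroup.eq_one_iff, ← QuotientGroup.mk'_apply, map_mul, map_mul, map_mul, h, map_inv, map_inv]; simp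
    rw [h2 z hP]
    exact mul_inv_eq_one.1 (mem_bot.1 ((H9.inf_eq_bot_of_p_p' S.2 (Nat.coprime_two_right.2 H4.odd_card_core)).le
      ⟨Subgroup.mul_mem _ (h2 z hP ▸ h1 z hP) (Subgroup.inv_mem _ hz), h3⟩))

end Cfsg.Agent.S5094
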