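import Cfsg.Statements.S5096
import Cfsg.Agent.H2.Fus6

set_option autoImplicit false
open Cfsg

namespace Cfsg.Agent.S5096

open H2 Subgroup Cfsg.FusionSystem in

/-- For any fusion system over a subgroup S and any Q ≤ S, the maps of the normalizer system N_F(Q) — those maps between subgroups of N_S(Q) that extend to the subgroup generated with Q carrying Q onto Q — form a fusion system over N_S(Q). -/
theorem result {Ω : Type*} [Group Ω] {S : Subgroup Ω} (F : Cfsg.FusionSystem S) (Q : Subgroup Ω) (hQ : Q ≤ S) : ∃ E : Cfsg.FusionSystem (Cfsg.FusionSystem.normalizerIn S Q), F.IsNormalizerSystem Q E := by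
  have key : ∀ (P : Subgroup Ω) (φ : P →* Ω), φ ∈ F.normalizerHom Q P ↔ P ≤ normalizerIn S Q ∧
      (∀ x : P, φ x ∈ normalizerIn S Q) ∧ ∃ f, Mor F (P ⊔ Q) f ∧ (∀ x : P, f x = φ x) ∧ img f Q = Q := by
    intro P φ
    constructor
    · rintro ⟨h1, h2, h3, ψ, h4, h5, h6⟩
      exact ⟨h2, h3, fn ψ, mor_fn.2 h4, fun x => by rw [← h5, fn_coe ψ]; rfl,
        (map_subgroupOf_eq_img ψ (fn_coe ψ) le_sup_right).symm.trans h6⟩
    · rintro ⟨h2, h3, f, h4, h5, h6⟩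
      exact ⟨(mor_iff_of φ fun x => (h5 x).symm).1 (h4.mono le_sup_left), h2, h3, _, h4.toHom_mem, h5,
        (map_subgroupOf_eq_img (f := f) _ (fun _ => rfl) le_sup_right).trans h6⟩
  refine ⟨⟨fun P => F.normalizerHom Q P, fun h => ⟨h.2.1, h.2.2.1⟩, fun h => F.injective_of_mem h.1, ?_, ?_, ?_⟩,
    fun _ => rfl⟩
  · intro P g hP hg
    refine (key _ _).2 ⟨hP, fun x => mul_mem (mul_mem hg (hP x.2)) (Subgroup.inv_mem _ hg), cg g,
      mor_cg F (sup_le (hP.trans inf_le_left) hQ) hg.1, fun _ => rfl, ?_⟩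
    rw [img_cg, cj_eq_iff]; exact hg.2
  · intro P R φ ψ hφ hψ h
    obtain ⟨h1, h2, f, h3, h4, h5⟩ := (key _ _).1 hφ
    obtain ⟨k1, k2, g, k3, k4, k5⟩ := (key _ _).1 hψ
    refine (key _ _).2 ⟨h1, fun x => k2 _, fun x => g (f x), h3.comp k3 (img_le_iff.1 ?_), fun x => ?_, ?_⟩
    · rw [h3.homOn.img_sup, h5]
      exact sup_le_sup_right (img_le_iff.2 fun x hx => h4 ⟨x, hx⟩ ▸ h ⟨x, hx⟩) _
    · simp only [h4]; exact k4 ⟨φ x, h x⟩
    · rw [← (h3.homOn.mono le_sup_right).img_img, h5, k5]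
  · intro P φ hφ
    obtain ⟨h1, h2, f, h3, h4, h5⟩ := (key _ _).1 hφ
    obtain ⟨k, k1, k2⟩ := h3.exists_inv
    rw [h3.homOn.img_sup, h5, ← range_eq_img φ fun x => (h4 x).symm] at k1
    refine ⟨(k1.mono le_sup_left).homOn.toHom, (key _ _).2 ⟨?_, ?_, k, k1, fun _ => rfl, ?_⟩, fun x => ?_⟩
    · rintro _ ⟨x, rfl⟩; exact h2 x
    · rintro ⟨_, x, rfl⟩
      show k (φ x) ∈ _
      rw [← h4, k2 _ (mem_sup_left x.2)]; exact h1 x.2
    · conv_lhs => rw [← h5]
      rw [(h3.homOn.mono le_sup_right).img_img, img_eq_of_fix fun x hx => k2 x (mem_sup_right hx)]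
    · show k (φ x) = _
      rw [← h4, k2 _ (mem_sup_left x.2)]

end Cfsg.Agent.S5096
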