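import Cfsg.Statements.S5105
import Cfsg.Agent.H2.Fus14

set_option autoImplicit false
open Cfsg

namespace Cfsg.Agent.S5105

open H2 Subgroup in

/-- Model Theorem, rigidity: if G is a model of a constrained fusion system over a finite p-group S (through ι : S → G), then every automorphism of G fixing ι(S) elementwise is conjugation by ι(z) for some z in the centre of S. -/
theorem result {Ω : Type*} [Group Ω] {S : Subgroup Ω} [Finite S] (p : ℕ) [Fact p.Prime] (hS : IsPGroup p S) (F : Cfsg.FusionSystem S) (hF : F.IsConstrained p) {G : Type*} [Group G] (ι : S →* G) (hG : F.IsModel p G ι) (ψ : G ≃* G) (hψ : ∀ x : S, ψ (ι x) = ι x) : ∃ z : S, z ∈ Subgroup.center S ∧ ∀ g : G, ψ g = ι z * g * (ι z)⁻¹ := by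
  have h := model_iff.1 hG
  have := h.fin
  have hc := (core_normal F).1
  have hn := (h.normal_iff hc).2 (core_normal F)
  obtain ⟨z, hz, e⟩ := exists_conj_of_fix (p := p) (by simpa using h.syl.not_dvd) (h.iso.img_le hc)
    (h.Oc_eq ▸ isPGroup_Oc p ⊤) h.centralizer_le ψ.toMonoidHom (by rintro _ ⟨x, rfl⟩; exact hψ x)
  obtain ⟨w, rfl⟩ := h.iso.img_le hc (h.centralizer_le hz)
  refine ⟨w, mem_center_iff.2 fun x => h.iso.inj ?_, e⟩
  rw [map_mul, map_mul]
  exact (mul_inv_eq_iff_eq_mul.1 ((e (ι x)).symm.trans (hψ x))).symm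

end Cfsg.Agent.S5105
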