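import Cfsg.Statements.S5107
import Cfsg.Agent.H2.Fus10

set_option autoImplicit false
open Cfsg

namespace Cfsg.Agent.S5107

open H2 Subgroup in

/-- If a Sylow p-subgroup S of a finite group G has nilpotency class at most two and its centre is strongly closed in S with respect to G, then every map of the fusion system of G on S is conjugation by an element of N_G(S), and S is the largest subgroup normal in that fusion system. -/
theorem result {G : Type*} [Group G] [Finite G] (p : ℕ) [Fact p.Prime] (S : Sylow p G) (hcl : ⁅(S : Subgroup G), (S : Subgroup G)⁆ ≤ (S : Subgroup G) ⊓ Subgroup.centralizer ((S : Subgroup G) : Set G)) (hZ : Cfsg.IsStronglyClosed ((S : Subgroup G) ⊓ Subgroup.centralizer ((S : Subgroup G) : Set G)) (S : Subgroup G)) : (∀ (P : Subgroup G) (φ : P →* G), φ ∈ (Cfsg.groupFusionSystem (S : Subgroup G)).Hom P → ∃ g ∈ Subgroup.normalizer ((S : Subgroup G) : Set G), ∀ x : P, φ x = g * (x : G) * g⁻¹) ∧ (Cfsg.groupFusionSystem (S : Subgroup G)).core = S := by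
  have hF := sat_group S
  have hZ' : (Cfsg.groupFusionSystem (S : Subgroup G)).StronglyClosed (S ⊓ centralizer ((S : Subgroup G) : Set G)) := by
    rw [group_eq_sub]; exact sc_sub_iff.2 ⟨hZ.1, fun x hx a _ h => hZ.2 x hx a h⟩
  have hn : (Cfsg.groupFusionSystem (S : Subgroup G)).IsNormal S := by
    refine hF.normal_of_chain' (sc_top _) (fun i => if i = 0 then ⊥ else if i = 1 then
      S ⊓ centralizer ((S : Subgroup G) : Set G) else S) 2 (by simp) (fun i _ => ?_) (by simp) fun i hi => ?_
    · split_ifs
      exacts [sc_bot _, hZ', sc_top _]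
    · interval_cases i
      · simpa using commutator_center (S : Subgroup G) le_rfl
      · simpa using hcl
  refine ⟨fun P φ hφ => ?_, le_antisymm (core_normal _).1 (le_core hn)⟩
  obtain ⟨σ, h1, h2⟩ := exists_mor hφ
  obtain ⟨α, hα, e⟩ := normal_autExt hn h1 h1.le
  rw [Aut_group le_rfl] at hα
  obtain ⟨g, -, hg, rfl⟩ := mem_AutS.1 hα
  exact ⟨g, hg, fun x => by rw [h2, ← e x x.2, cP_apply hg (h1.le x.2)]⟩

end Cfsg.Agent.S5107
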