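import Cfsg.Statements.S5110
import Cfsg.Agent.H2.Fus15

set_option autoImplicit false
open Cfsg

namespace Cfsg.Agent.S5110

open H2 Subgroup in

/-- Saturation criterion: let F be a fusion system over a finite p-group S and H a family of subgroups of S closed under conjugacy in F, such that every conjugacy class inside H contains a fully automized receptive member, F is the smallest fusion system over S containing all its maps with source in H, and every centric subgroup outside H is conjugate in F to some P for which Aut_S(P) ∩ O_p(Aut_F(P)) is not contained in Inn(P). Then F is saturated. -/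
theorem result {Ω : Type*} [Group Ω] {S : Subgroup Ω} [Finite S] (p : ℕ) [Fact p.Prime] (hS : IsPGroup p S) (F : Cfsg.FusionSystem S) (ℋ : Set (Subgroup Ω)) (hℋS : ∀ P ∈ ℋ, P ≤ S) (hℋconj : ∀ P ∈ ℋ, ∀ Q, F.IsConj P Q → Q ∈ ℋ) (hsat : ∀ P ∈ ℋ, ∃ Q, F.IsConj P Q ∧ F.IsFullyAutomized p Q ∧ F.IsReceptive Q) (hgen : ∀ E : Cfsg.FusionSystem S, (∀ P ∈ ℋ, F.Hom P ⊆ E.Hom P) → F ≤ E) (hstar : ∀ P : Subgroup Ω, F.IsCentric P → P ∉ ℋ → ∃ Q, F.IsConj P Q ∧ ¬ (Cfsg.autInducedBy S Q ⊓ (Cfsg.pCore p ↥(F.autGroup Q)).map (F.autGroup Q).subtype ≤ Cfsg.Inn Q)) : F.IsSaturated p := by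
  refine (sat_of_gen hS (· ∈ ℋ) (fun Q σ h1 h2 => hℋconj Q h1 _ h2.isConj) (fun P _ h => ?_)
    (fun E h => hgen E fun P hP φ hφ => ?_) fun P h1 h2 => ?_).sat
  · obtain ⟨Q, h1, h2⟩ := hsat P h
    obtain ⟨σ, h3, rfl⟩ := isConj_iff.1 h1
    exact ⟨σ, h3, h2⟩
  · obtain ⟨σ, h1, h2⟩ := exists_mor hφ
    exact (mor_iff_of φ h2).1 (h P σ hP h1)
  · obtain ⟨Q, h3, h4⟩ := hstar P h1 h2
    refine ⟨Q, h3, fun h5 => h4 ?_⟩
    rwa [← map_ext_le_map_ext, map_inf _ _ _ (ext_injective Q), map_autInducedBy, map_pCore_aut, map_Inn]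

end Cfsg.Agent.S5110
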