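import Cfsg.Statements.S5112
import Cfsg.Agent.H9.ES7

set_option autoImplicit false
open Cfsg

namespace Cfsg.Agent.S5112

/-- If S is a dihedral or generalized quaternion 2-group of order at least 16, then in every saturated fusion system over S (at the prime 2) the automorphism group Aut_F(S) consists of the inner automorphisms of S. -/
theorem result {Ω : Type*} [Group Ω] {S : Subgroup Ω} [Finite S] (n : ℕ) (hn : 4 ≤ n) (hshape : Nonempty (S ≃* DihedralGroup (2 ^ (n - 1))) ∨ Nonempty (S ≃* QuaternionGroup (2 ^ (n - 2)))) (F : Cfsg.FusionSystem S) (hF : F.IsSaturated 2) : F.autGroup S = Cfsg.Inn S := by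
  open H9 Subgroup in open scoped commutatorElement in
  have hS : IsPGroup 2 S := IsPGroup.of_card (n := n) (by
    obtain ⟨m, rfl⟩ : ∃ m, n = m + 2 := ⟨n - 2, by omega⟩
    rcases hshape with ⟨⟨e⟩⟩ | ⟨⟨e⟩⟩
    · rw [Nat.card_congr e.toEquiv, DihedralGroup.nat_card]; simp [pow_succ']
    · rw [Nat.card_congr e.toEquiv, Nat.card_eq_fintype_card, QuaternionGroup.card]; simp [pow_succ', ← mul_assoc])
  have h := FG.top_inner (p := 2) ⟨hS, hF⟩ fun M _ _ Q _ e g hg => by_contra fun hn' => by
    have hQ := hS.of_equiv e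
    obtain ⟨k, a, b, m, hk⟩ : ∃ k a b, H1.MC Q k a b ∧ 2 ≤ k := by
      rcases hshape with ⟨⟨f⟩⟩ | ⟨⟨f⟩⟩
      · obtain ⟨k, a, b, m, c, -⟩ := H1.mc_of_dihedral hQ
          ((by norm_num : 3 ≤ 2 ^ 2).trans (Nat.pow_le_pow_right two_pos (by omega))) (e.symm.trans f)
        exact ⟨k, a, b, m, by have := Nat.pow_right_injective le_rfl c; omega⟩
      · obtain ⟨k, a, b, m, c, -⟩ := H1.mc_of_quaternion hQ
          ((by norm_num : 2 ≤ 2 ^ 2).trans (Nat.pow_le_pow_right two_pos (by omega))) (e.symm.trans f)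
        exact ⟨k, a, b, m, by have := Nat.pow_right_injective le_rfl c; omega⟩
    have c := (Nat.pow_le_pow_right two_pos (by omega : 4 ≤ k + 2)).trans_eq m.card.symm
    rcases m.od_cases le_rfl ⟨g, top_le_normalizer Q (mem_top g), hg, hn'⟩ with d | d
    · have := d.card_four; omega
    · have := d.card; omega
  refine map_injective (H2.ext_injective S) ((le_antisymm (fun α hα => (H2.mem_AutS' ((H2.mem_Aut le_rfl).1 hα).2).2 (h α hα))
    (H2.AutS_le_Aut F le_rfl le_rfl)).trans (H2.map_Inn S).symm)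

end Cfsg.Agent.S5112
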