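import Cfsg.Statements.S5121
import Cfsg.Agent.H2.Fus14

set_option autoImplicit false
open Cfsg

namespace Cfsg.Agent.S5121

open H2 Subgroup in

/-- Let G be a finite group with Sylow p-subgroup S and C_G(O_p(G)) ≤ O_p(G). For every subgroup T ≤ S and every normal subsystem E over T of the fusion system of G on S there is exactly one normal subgroup H of G containing T as a Sylow p-subgroup whose fusion system on T is E. -/
theorem result {G : Type*} [Group G] [Finite G] (p : ℕ) [Fact p.Prime] (S : Sylow p G) (hG : Subgroup.centralizer ((Cfsg.pCore p G : Subgroup G) : Set G) ≤ Cfsg.pCore p G) (T : Subgroup G) (hTS : T ≤ S) (E : Cfsg.FusionSystem T) (hE : E.IsNormalIn (Cfsg.groupFusionSystem (S : Subgroup G)) p) : ∃ H : Subgroup G, (∃ hTH : T ≤ H, H.Normal ∧ (∃ R : Sylow p H, (R : Subgroup H) = T.subgroupOf H) ∧ ∀ P : Subgroup G, E.Hom P = (Cfsg.fusionSystemOfSubgroup H T hTH).Hom P) ∧ ∀ H' : Subgroup G, (∃ hTH' : T ≤ H', H'.Normal ∧ (∃ R : Sylow p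 H', (R : Subgroup H') = T.subgroupOf H') ∧ ∀ P : Subgroup G, E.Hom P = (Cfsg.fusionSystemOfSubgroup H' T hTH').Hom P) → H' = H := by
  have hS := isSylowIn_top S
  rw [group_eq_sub] at hE
  obtain ⟨N, -, h1, h2, h3, h4⟩ := ((nrm_iff S.isPGroup').1 hE).exists_normal_subgroup hS hS.Oc_le (le_normalizer_Oc p ⊤)
    (by rwa [Oc_top, top_inf_eq])
  refine ⟨N, ⟨h2.le, normalizer_eq_top_iff.1 (top_le_iff.1 h1), (isSylowIn_iff_exists h2.le).1 h2, h3⟩, ?_⟩
  rintro H' ⟨h5, h6, h7, h8⟩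
  exact h4 H' le_top le_normalizer_of_normal ((isSylowIn_iff_exists h5).2 h7) h8

end Cfsg.Agent.S5121
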