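import Cfsg.Statements.S5129
import Cfsg.Agent.H2.Fus26

set_option autoImplicit false
open Cfsg

namespace Cfsg.Agent.S5129

open H2 Subgroup in

/-- Let F be a saturated fusion system over a finite p-group S and E₁, E₂ normal subsystems over T₁, T₂. Then there is a normal subsystem of F over T₁ ∩ T₂ that is normal in E₁ and in E₂ and contains every other such subsystem. -/
theorem result {Ω : Type*} [Group Ω] {S : Subgroup Ω} [Finite S] (p : ℕ) [Fact p.Prime] (hS : IsPGroup p S) (F : Cfsg.FusionSystem S) (hF : F.IsSaturated p) {T₁ T₂ : Subgroup Ω} (E₁ : Cfsg.FusionSystem T₁) (E₂ : Cfsg.FusionSystem T₂) (h₁ : E₁.IsNormalIn F p) (h₂ : E₂.IsNormalIn F p) : ∃ D : Cfsg.FusionSystem (T₁ ⊓ T₂), (D.IsNormalIn F p ∧ D.IsNormalIn E₁ p ∧ D.IsNormalIn E₂ p) ∧ ∀ D' : Cfsg.FusionSystem (T₁ ⊓ T₂), D'.IsNormalIn F p → D'.IsNormalIn E₁ p → D'.IsNormalIn E₂ p → D'.IsSubsystemOf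 D := by
  have := nrm_finite h₁
  have := nrm_finite h₂
  have : Finite ↥(T₁ ⊓ T₂) := finite_of_le (inf_le_left : T₁ ⊓ T₂ ≤ T₁)
  rw [nrm_iff hS] at h₁ h₂
  obtain ⟨M, ⟨k1, k2, k3⟩, k4⟩ := h₁.exists_inf_max h₂ rfl
  exact ⟨M, ⟨(nrm_iff hS).2 k1, (nrm_iff h₁.satE.pg).2 k2, (nrm_iff h₂.satE.pg).2 k3⟩, fun D m1 m2 m3 =>
    k4 D ((nrm_iff hS).1 m1) ((nrm_iff h₁.satE.pg).1 m2) ((nrm_iff h₂.satE.pg).1 m3)⟩

end Cfsg.Agent.S5129
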