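import Cfsg.Statements.S5130
import Cfsg.Agent.H2.Fus28

set_option autoImplicit false
open Cfsg

namespace Cfsg.Agent.S5130

open H2 Subgroup in

/-- Let F be a saturated fusion system over a finite p-group S that is the direct product of two subgroups S₁ and S₂, each strongly closed in F. Let R be the full subsystem of F over S₁ (all maps of F between subgroups of S₁) and R′ the subsystem over S₁ of those maps that extend to the subgroup generated with S₂ fixing S₂ elementwise. Then R and R′ are saturated, R′ is normal in F and in R, and R is weakly normal in F. -/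
theorem result {Ω : Type*} [Group Ω] {S : Subgroup Ω} [Finite S] (p : ℕ) [Fact p.Prime] (hS : IsPGroup p S) (F : Cfsg.FusionSystem S) (hF : F.IsSaturated p) (S₁ S₂ : Subgroup Ω) (hprod : Cfsg.IsInternalDirectProduct S₁ S₂ S) (h₁ : F.StronglyClosed S₁) (h₂ : F.StronglyClosed S₂) (R R' : Cfsg.FusionSystem S₁) (hR : ∀ P : Subgroup Ω, P ≤ S₁ → R.Hom P = F.Hom P) (hR' : ∀ P : Subgroup Ω, P ≤ S₁ → R'.Hom P = F.centralizerHom S₂ P) : R.IsSaturated p ∧ R'.IsSaturated p ∧ R'.IsNormalIn F p ∧ R'.IsNormalIn R p ∧ R.IsWeaklyNormalIn F p := by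
  obtain ⟨k1, k2, k3, k4, k5⟩ := hprod
  have := finite_of_le k1
  have hF' : Sat p F := ⟨hS, hF⟩
  have hc : S₁ ≤ centralizer (S₂ : Set Ω) := fun a ha b hb => (k3 a ha b hb).symm
  have m1 := hF'.full (E := R) h₁ (k5.ge.trans (sup_le_sup_left (le_centralizer_symm hc) _)) fun P σ =>
    ⟨fun h => ⟨h.le, (mor_iff_of _ fun _ => rfl).2 (hR P h.le ▸ h.toHom_mem)⟩,
      fun h => (mor_iff_of _ fun _ => rfl).2 ((hR P h.1).symm ▸ h.2.toHom_mem)⟩
  have m2 := hF'.nrm_direct (E := R') h₁ h₂ hc k4 k5.ge fun P σ =>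
    ⟨fun h => ⟨h.le, ((mem_centralizerHom_iff fun _ => rfl).1 (hR' P h.le ▸ h.toHom_mem)).2⟩,
      fun h => (mor_iff_of h.2.mor.homOn.toHom fun _ => rfl).2 ((hR' P h.1).symm ▸ (mem_centralizerHom_iff fun _ => rfl).2
        ⟨by rw [Nk_bot]; exact h.1.trans (le_inf k1 hc), h.2⟩)⟩
  have m3 : R'.IsSubsystemOf R := fun P φ hφ => by
    have := (mor_fn.2 hφ).le
    rw [hR P this]
    exact m2.inv.sub P hφ
  exact ⟨m1.satE.2, m2.satE.2, (nrm_iff hS).2 m2,
    (nrm_iff m1.satE.pg).2 ((m2.toWN.of_sub m1.satE m3 m1.inv.sub).nrm_of_centric inf_le_left), (wn_iff hS).2 m1⟩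

end Cfsg.Agent.S5130
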