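import Cfsg.Statements.S5139
import Cfsg.Agent.H2.Fus10

set_option autoImplicit false
open Cfsg

namespace Cfsg.Agent.S5139

open H2 Subgroup in

/-- Let G be a finite group with Sylow p-subgroup S and O^p(G) the subgroup generated by the elements of order prime to p. Then the p-residual subsystem of the fusion system of G on S — the saturated subsystem of p-power index over the hyperfocal subgroup — is the fusion system of O^p(G) on S ∩ O^p(G): its maps are exactly the conjugation maps by elements of O^p(G) between subgroups of S ∩ O^p(G). -/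
theorem result {G : Type*} [Group G] [Finite G] (p : ℕ) [Fact p.Prime] (S : Sylow p G) (E : Cfsg.FusionSystem ((Cfsg.groupFusionSystem (S : Subgroup G)).hyperfocalSubgroup p)) (hE : (Cfsg.groupFusionSystem (S : Subgroup G)).IsPResidual p E) : ∃ h : (S : Subgroup G) ⊓ Cfsg.pResidual p G ≤ Cfsg.pResidual p G, ∀ P : Subgroup G, E.Hom P = (Cfsg.fusionSystemOfSubgroup (Cfsg.pResidual p G) ((S : Subgroup G) ⊓ Cfsg.pResidual p G) h).Hom P := by
  refine ⟨inf_le_right, ?_⟩
  have h1 := ppi_sub (hSH := le_top) (isSylowIn_top S)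
  have h2 := sat_sub (hSH := inf_le_right) (isSylowIn_top S).inf_Op
  have h3 := hyp_sub (hSH := le_top) (isSylowIn_top S)
  rw [← group_eq_sub] at h1 h3
  have h4 := ppi_iff.1 hE.2
  have h5 : Sat p E := ⟨S.2.to_le (hyp_le _), hE.1⟩
  have h6 := h1.sub_of h5 h4.sub h3.le
  have h7 := h4.sub_of h2 h1.sub h3.ge
  intro P
  rw [(h6 P).antisymm (h7 P)]
  ext φ
  simp only [Cfsg.fusionSystemOfSubgroup, Op_top]

end Cfsg.Agent.S5139
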