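import Cfsg.Statements.S5147
import Cfsg.Agent.H2.Fus26

set_option autoImplicit false
open Cfsg

namespace Cfsg.Agent.S5147

open H2 Subgroup in

/-- Let G be a finite group with Sylow 2-subgroup S whose 2-fusion system on S is constrained, and L a component of G (a subnormal quasisimple subgroup). Then the 2-fusion system of L/Z(L) on the image of S ∩ L is constrained. -/
theorem result {G : Type*} [Group G] [Finite G] (S : Sylow 2 G) (hF : (Cfsg.groupFusionSystem (S : Subgroup G)).IsConstrained 2) (L : Subgroup G) (hL : Cfsg.IsComponent L) : (Cfsg.groupFusionSystem (((S : Subgroup G).subgroupOf L).map (QuotientGroup.mk' (Subgroup.center L)))).IsConstrained 2 := by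
  have k := Con.subnormal (isSylowIn_top S) hL.1 ((con_iff S.isPGroup').1 hF)
  have h1 : IsSylowIn 2 ((S : Subgroup G).subgroupOf L) ⊤ := by
    have := (sn_sub (isSylowIn_top S) hL.1).1.subgroupOf le_rfl
    rwa [inf_subgroupOf_right, subgroupOf_self] at this
  have h2 := surjM_group h1 (QuotientGroup.mk' (center L)) (QuotientGroup.mk'_surjective _)
  have k' := k.img h2 (le_center (k.1.central_of_fix (pre_le _ _) fun P σ hσ x hx hx' => by
    obtain ⟨-, -, g, hg⟩ := mor_group_iff.1 hσ
    obtain ⟨m1, m2⟩ := mem_pre.1 hx'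
    rw [fn_apply _ m1, mem_bot] at m2
    rw [hg x hx, mem_center_iff.1 ((QuotientGroup.eq_one_iff x).1 m2) g, mul_inv_cancel_right]))
  exact (con_iff k'.1.pg).2 k'

end Cfsg.Agent.S5147
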