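import Cfsg.Statements.S5156
import Cfsg.Agent.H2.Fus29

set_option autoImplicit false
universe u
open Cfsg

namespace Cfsg.Agent.S5156

open H2 Subgroup in

/-- A saturated fusion system over a finite p-group has a terminating alternating chain of p'-residual and p-residual subsystems (the chain reaches the trivial system — the notion of solvability adapted to fusion systems of p-solvable groups) if and only if it is constrained and its models are p-solvable (a model is a finite group realizing the system on a Sylow p-subgroup with self-centralizing largest normal p-subgroup; it exists and is unique up to isomorphism for constrained systems). -/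
theorem result {Ω : Type u} [Group Ω] {S : Subgroup Ω} [Finite S] (p : ℕ) [Fact p.Prime] (hS : IsPGroup p S) (F : Cfsg.FusionSystem S) (hF : F.IsSaturated p) : F.HasTerminatingResidualSeries p ↔ (F.IsConstrained p ∧ ∀ (G : Type u) [Group G] (ι : S →* G), F.IsModel p G ι → Cfsg.IsPSolvable p G) := by
  have hF' : Sat p F := ⟨hS, hF⟩
  refine ⟨fun h => ⟨(con_iff hS).2 ((noSt_of_term h hF').con hF'), fun G _ ι hι => ?_⟩, fun ⟨h1, h2⟩ => ?_⟩
  · have k := model_iff.1 hι
    have := k.fin
    obtain ⟨θ, k1⟩ := k.iso.exists_symm
    exact ((noSt_of_term h hF').of_iso (k.iso.sat hF') k1.1).psv k.syl k.cons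
  · obtain ⟨G, _, ι, k⟩ := exists_model hS h1
    have := k.fin
    exact ((noSt_group k.syl (h2 G ι (model_iff.2 k))).of_iso hF' k.iso).term hF'

end Cfsg.Agent.S5156
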