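import Cfsg.Statements.S5160
import Cfsg.Agent.H2.Fus17

set_option autoImplicit false
open Cfsg

namespace Cfsg.Agent.S5160

open H2 Subgroup in

/-- Let G be a finite group with nontrivial Sylow p-subgroup S and F its fusion system on S. Suppose (a) no nontrivial proper subgroup of S is strongly closed in F, and (b) the automorphisms of S induced by G are generated by those induced, for R running over the fully normalized radical centric subgroups of F, by the subgroup of N_G(R) generated by its elements of p-power order. Then F is simple. -/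
theorem result {G : Type*} [Group G] [Finite G] (p : ℕ) [Fact p.Prime] (S : Sylow p G) (hS1 : (S : Subgroup G) ≠ ⊥) (ha : ∀ T : Subgroup G, (Cfsg.groupFusionSystem (S : Subgroup G)).StronglyClosed T → T = ⊥ ∨ T = (S : Subgroup G)) (hb : Cfsg.autInducedBy ⊤ (S : Subgroup G) = ⨆ (R : Subgroup G) (_ : (Cfsg.groupFusionSystem (S : Subgroup G)).IsFullyNormalized R ∧ (Cfsg.groupFusionSystem (S : Subgroup G)).IsRadical p R ∧ (Cfsg.groupFusionSystem (S : Subgroup G)).IsCentric R), Cfsg.autInducedBy (Subgroup.closure {g : G | g ∈ Subgroup.normalizer (R : Set G) ∧ ∃ k : ℕ, orderOf g = p ^ k}) (S : Subgroup G)) : (Cfsg.groupFusionSystem (S : Subgroup G)).IsSimple p := by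
  have hF := sat_group (p := p) S
  refine hF.simple_of hS1 ha fun E hE => ?_
  rw [Aut_group le_rfl, ← map_autInducedBy, hb, map_le_iff_le_comap]
  refine iSup₂_le fun R ⟨_, _, h3⟩ => map_le_iff_le_comap.1 ?_
  rw [map_autInducedBy]
  refine AutS_le_iff.2 fun g hg hn => ?_
  have hπ := hE.inv.pi hF
  have h4 : cP S g ∈ Aut _ (S : Subgroup G) := (Aut_group le_rfl).ge (cP_mem_AutS (mem_top g) hn)
  have h5 : ∀ g ∈ Oq p (normalizer (R : Set G)), g ∈ normalizer (R : Set G) ⊓
      ((Aut E R).comap (cPHom R)).map (normalizer (R : Set G)).subtype := fun g hg => Oq_le_iff.2 (fun x hx ⟨k, hk⟩ =>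
    ⟨hx, ⟨x, hx⟩, hπ.le R h3.1 (by
      obtain ⟨j, -, hj⟩ := (Nat.dvd_prime_pow Fact.out).1 (hk ▸ orderOf_coe (⟨x, hx⟩ : normalizer (R : Set G)) ▸
        orderOf_map_dvd (cPHom R) ⟨x, hx⟩)
      exact mem_Oq (by rw [Aut_group h3.1, cPHom_apply]; exact cP_mem_AutS (mem_top _) hx) ⟨j, hj⟩), rfl⟩) hg
  obtain ⟨h6, g', h7, rfl⟩ := h5 g hg
  refine hE.mem_of_centric le_rfl (fun β hβ k hk => ?_) ((hπ.centric_iff hF).2 h3) h4
    ((Aut.mor h3.1 h7).congr fun x hx => ?_)
  · obtain ⟨m, h8, h9⟩ := hF.syl_top.exists_pow_mem (Aut_le_normalizer_Inn _ _) hβ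
    exact mem_of_pow_pow h8 (AutS_le_Aut E le_rfl le_rfl h9) hk
  · rw [cPHom_apply, cP_apply g'.2 hx, cP_apply hn (h3.1 hx)]; rfl

end Cfsg.Agent.S5160
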