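import Cfsg.Statements.S5164
import Cfsg.Agent.H9.Syl
import Cfsg.Agent.PM.E
import Cfsg.Agent.H1.Misc3

set_option autoImplicit false
open Cfsg

namespace Cfsg.Agent.S5164

open Subgroup Equiv MulAction

/-- Heisenberg-type maps -/
def hz (p : ℕ) (a b c : ZMod p) : Perm (ZMod p × ZMod p) where
  toFun x := (x.1 + a, x.2 + b * x.1 + c)
  invFun x := (x.1 - a, x.2 - b * (x.1 - a) - c)
  left_inv x := by ext <;> simp; ring
  right_inv x := by ext <;> simp; ring

/-- the group of these -/
def HZ (p : ℕ) : Subgroup (Perm (ZMod p × ZMod p)) where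
  carrier := Set.range fun t : ZMod p × ZMod p × ZMod p => hz p t.1 t.2.1 t.2.2
  one_mem' := ⟨(0, 0, 0), by ext <;> simp [hz]⟩
  mul_mem' := by
    rintro _ _ ⟨⟨a, b, c⟩, rfl⟩ ⟨⟨a', b', c'⟩, rfl⟩
    exact ⟨(a + a', b + b', c + c' + b * a'), by ext <;> simp [hz] <;> ring⟩
  inv_mem' := by
    rintro _ ⟨⟨a, b, c⟩, rfl⟩
    exact ⟨(-a, -b, b * a - c), by
      rw [eq_inv_iff_mul_eq_one]; ext <;> simp [hz]; ring⟩

theorem HZ_p (p : ℕ) [hp : Fact p.Prime] : IsPGroup p (HZ p) := by
  refine IsPGroup.of_card (n := 3) ?_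
  have : Function.Injective fun t : ZMod p × ZMod p × ZMod p => hz p t.1 t.2.1 t.2.2 := by
    rintro ⟨a, b, c⟩ ⟨a', b', c'⟩ h
    have h0 := congrArg (fun σ : Perm (ZMod p × ZMod p) => σ (0, 0)) h
    have h1 := congrArg (fun σ : Perm (ZMod p × ZMod p) => σ (1, 0)) h
    simp [hz] at h0 h1
    obtain ⟨rfl, rfl⟩ := h0
    simp at h1
    rw [h1]
  show Nat.card (Set.range _) = _
  rw [Nat.card_range_of_injective this]
  simp [Nat.card_prod]; ring

theorem nonab {n p : ℕ} [Fact p.Prime] (S : Sylow p (alternatingGroup (Fin n))) {α : Type} [Fintype α] [DecidableEq α]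
    (hα : Fintype.card α ≤ n) (K : Subgroup (Perm α)) (hK : IsPGroup p K) (hs : K ≤ alternatingGroup α)
    (h : IsMulCommutative S) (x y : Perm α) (hx : x ∈ K) (hy : y ∈ K) : x * y = y * x := by
  classical
  obtain ⟨f⟩ : Nonempty (α ↪ Fin n) := Function.Embedding.nonempty_of_card_le (by simpa using hα)
  let φ : Perm α →* Perm (Fin n) := Perm.extendDomainHom f.toEquivRange
  have hφ : Function.Injective φ := Perm.extendDomainHom_injective _
  let ψ : K →* alternatingGroup (Fin n) := (φ.comp K.subtype).codRestrict _ fun k => by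
    have := Perm.mem_alternatingGroup.1 (hs k.2)
    rw [Perm.mem_alternatingGroup, ← this]
    exact Perm.sign_extendDomain _ _
  obtain ⟨g, -, hg⟩ := (H9.syl_top_of_sylow S).exists_cj_le (Q := ψ.range)
    (hK.of_surjective _ ψ.rangeRestrict_surjective) le_top
  have := congrArg Subtype.val (h.is_comm.comm ⟨_, hg (H9.conj_mem_cj ⟨⟨x, hx⟩, rfl⟩)⟩
    ⟨_, hg (H9.conj_mem_cj ⟨⟨y, hy⟩, rfl⟩)⟩)
  simp only [MulMemClass.coe_mul, conj_mul, mul_left_inj, mul_right_inj, ← map_mul] at this
  exact hφ (congrArg Subtype.val this)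

/-- a dihedral subgroup of `A₆` -/
def D8 : Finset (Perm (Fin 6)) :=
  {1, c[0, 1, 2, 3] * swap 4 5, swap 0 2 * swap 1 3, c[0, 3, 2, 1] * swap 4 5, swap 0 2 * swap 4 5,
    swap 1 3 * swap 4 5, swap 0 1 * swap 2 3, swap 0 3 * swap 1 2}

/-- the subgroup -/
def K8 : Subgroup (Perm (Fin 6)) where
  carrier := D8
  one_mem' := by simp [D8]
  mul_mem' := fun {a b} ha hb => (by decide +kernel : ∀ a ∈ D8, ∀ b ∈ D8, a * b ∈ D8) a ha b hb
  inv_mem' := fun {a} ha => (by decide +kernel : ∀ a ∈ D8, a⁻¹ ∈ D8) a ha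

/-- For n ≥ 6 and a prime p, a nontrivial Sylow p-subgroup of the alternating group of degree n is abelian if and only if n < p². -/
theorem result (n p : ℕ) (hn : 6 ≤ n) [Fact p.Prime] (S : Sylow p (alternatingGroup (Fin n))) (hS : (S : Subgroup (alternatingGroup (Fin n))) ≠ ⊥) : IsMulCommutative S ↔ n < p ^ 2 := by
  have hp : p.Prime := Fact.out
  refine ⟨fun h => ?_, fun h => ⟨⟨fun x y => ?_⟩⟩⟩
  · by_contra hlt
    rcases hp.eq_two_or_odd' with rfl | hodd
    · have := nonab S (α := Fin 6) (by simpa using hn) K8 (fun x => ⟨2, Subtype.ext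
        ((by decide +kernel : ∀ a ∈ D8, a ^ 2 ^ 2 = 1) x x.2)⟩)
        (fun x hx => Perm.mem_alternatingGroup.2 ((by decide +kernel : ∀ a ∈ D8, Perm.sign a = 1) x hx)) h
        (swap 0 2 * swap 4 5) (swap 0 1 * swap 2 3) (by simp [K8, D8]) (by simp [K8, D8])
      revert this; decide
    · have := nonab S (α := ZMod p × ZMod p) (by simp; nlinarith) (HZ p) (HZ_p p) (fun x hx => by
        obtain ⟨k, hk⟩ := HZ_p p ⟨x, hx⟩
        have h1 : x ^ p ^ k = 1 := congrArg Subtype.val hk
        have := congrArg Perm.sign h1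
        rw [map_pow, map_one, Int.units_pow_eq_pow_mod_two, Nat.odd_iff.1 hodd.pow, pow_one] at this
        exact Perm.mem_alternatingGroup.2 this) h (hz p 1 0 0) (hz p 0 1 0) ⟨(1, 0, 0), rfl⟩ ⟨(0, 1, 0), rfl⟩
      have := congrArg (fun σ : Perm (ZMod p × ZMod p) => (σ (0, 0)).2) this
      simp [hz] at this
  · rw [← commutatorElement_eq_one_iff_mul_comm]
    apply Subtype.ext; apply Subtype.ext
    ext a
    congr 1
    have h1 : (stabilizer S a).index ≤ n := by
      rw [index_stabilizer]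
      simpa using Set.ncard_le_ncard (Set.subset_univ (orbit S a)) |>.trans (by simp [Set.ncard_univ])
    obtain ⟨k, hk⟩ := S.isPGroup'.index (stabilizer S a)
    have hk2 : k < 2 := (Nat.pow_lt_pow_iff_right hp.one_lt).1 (by omega)
    have hN : (stabilizer S a).Normal := by
      haveI := S.isPGroup'.isNilpotent
      interval_cases k
      · rw [pow_zero, index_eq_one] at hk; rw [hk]; infer_instance
      · exact NormalizerCondition.normal_of_coatom _ Group.normalizerCondition_of_isNilpotent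
          (H1.isCoatom_of_index_prime (by rw [hk, pow_one]; exact hp))
    have : commutator S ≤ stabilizer S a := by
      haveI : IsCyclic (S ⧸ stabilizer S a) := by
        interval_cases k
        · exact isCyclic_of_card_dvd_prime (p := p) (by rw [← index_eq_card, hk]; simp)
        · exact isCyclic_of_card_dvd_prime (p := p) (by rw [← index_eq_card, hk]; simp)
      rw [_root_.commutator_def, commutator_le]
      intro u _ v _
      rw [← QuotientGroup.eq_one_iff]
      show QuotientGroup.mk' _ _ = 1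
      rw [map_commutatorElement, commutatorElement_eq_one_iff_mul_comm]
      exact IsCyclic.commGroup.mul_comm _ _
    exact this (commutator_mem_commutator (mem_top x) (mem_top y))

end Cfsg.Agent.S5164
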