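import Cfsg.Statements.S5165
import Cfsg.Agent.H9.SF6

set_option autoImplicit false
open Cfsg

namespace Cfsg.Agent.S5165

/-- For n ≥ 6, a prime p with p² ≤ n, and n congruent to 0 or 1 modulo p, the p-fusion system of the alternating group of degree n on a Sylow p-subgroup is simple. -/
theorem result (n p : ℕ) (hn : 6 ≤ n) [Fact p.Prime] (hnp : p ^ 2 ≤ n) (hb : n % p ≤ 1) (S : Sylow p (alternatingGroup (Fin n))) : (Cfsg.groupFusionSystem (S : Subgroup (alternatingGroup (Fin n)))).IsSimple p := by
  open H9 Subgroup in open scoped commutatorElement in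
  have hp := (Fact.out : p.Prime).two_le
  have h1 : p ≤ n / p := (Nat.le_div_iff_mul_le (by omega)).2 (by rwa [← sq])
  have h2 : Fintype.card (ZMod p ⊕ Fin (n / p - p)) = n / p := by simp; omega
  refine H9.SF.simple_alt (κ := Fin (n / p - p)) ?_ (by simpa using h2) (by simpa using hb) S
  rw [h2]
  rcases hp.eq_or_lt with rfl | h
  · omega
  · omega

end Cfsg.Agent.S5165
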