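import Cfsg.Statements.S5311
import Cfsg.Agent.H2.Fus26

set_option autoImplicit false
open Cfsg

namespace Cfsg.Agent.S5311

open H2 Subgroup in

/-- The layer of a saturated fusion system F over a finite p-group S is characteristic in F: for every automorphism α of S that is an automorphism of F (α and its inverse are morphisms from F to F) and every layer E of F over T, α carries T onto T and, for every map φ of E with source P, the map induced by α on α(P) (that is, α ∘ φ ∘ α⁻¹) is a map of E. -/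
theorem result {Ω : Type*} [Group Ω] {S : Subgroup Ω} [Finite S] (p : ℕ) [Fact p.Prime] (hS : IsPGroup p S) (F : Cfsg.FusionSystem S) (hF : F.IsSaturated p)
    (α : ↥S ≃* ↥S) (hα : F.IsMorphism F (S.subtype.comp α.toMonoidHom))
    (hα' : F.IsMorphism F (S.subtype.comp α.symm.toMonoidHom))
    {T : Subgroup Ω} (E : Cfsg.FusionSystem T) (hE : E.IsLayerOf F p) :
    Cfsg.FusionSystem.imageAlong (S.subtype.comp α.toMonoidHom) T = T ∧
      ∀ (P : Subgroup Ω) (φ : ↥P →* Ω), φ ∈ E.Hom P →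
        ∀ φ' : ↥(Cfsg.FusionSystem.imageAlong (S.subtype.comp α.toMonoidHom) P) →* Ω,
          Cfsg.FusionSystem.InducedAlong (S.subtype.comp α.toMonoidHom) φ φ' →
            φ' ∈ E.Hom (Cfsg.FusionSystem.imageAlong (S.subtype.comp α.toMonoidHom) P) := by
  have := lay_finite hE
  rw [lay_iff hS] at hE
  have e : ∀ x ∈ S, fn (S.subtype.comp α.toMonoidHom) x = ext S α x := fun x hx => by
    rw [fn_apply _ hx, ext_apply _ hx]; rfl
  have h1 : ext S α ∈ FAut F := mem_FAut.2 ⟨ext_mem_Sym α, homOn_ext α, fun P σ hσ => by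
    obtain ⟨σ', k1, k2⟩ := (isMorphism_iff.1 hα).2 P σ hσ
    rw [img_congr fun x hx => e x (hσ.le hx)] at k1
    refine k1.congr fun y hy => ?_
    obtain ⟨x, hx, rfl⟩ := ((homOn_ext α).mono hσ.le).mem_img.1 hy
    rw [← e x (hσ.le hx), k2 x hx, e _ (hσ.mem hx), e x (hσ.le hx)]
    simp⟩
  obtain ⟨h2, h3⟩ := hE.fAut h1
  have hT := hE.nrm.inv.le
  refine ⟨by rw [imageAlong_eq _ hT, img_congr fun x hx => e x (hT hx), ((homOn_ext α).mono hT).mem_Stab_iff.1 h2],
    fun P φ hφ φ' h4 => ?_⟩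
  obtain ⟨σ, k1, k2⟩ := exists_mor hφ
  have k3 := k1.le.trans hT
  rw [inducedAlong_iff k2 (fn_coe φ') (k1.sub hE.nrm.inv.sub) (imageAlong_eq _ k3).ge] at h4
  have k4 := h3 P σ k1
  rw [← img_congr fun x hx => e x (k3 hx), ← imageAlong_eq _ k3] at k4
  refine mor_fn.1 (k4.congr fun y hy => ?_)
  rw [imageAlong_eq _ k3] at hy
  obtain ⟨x, hx, rfl⟩ := (mem_img_fn k3).1 hy
  rw [h4 x hx, e x (k3 hx), e _ (hT (k1.mem hx))]
  simp

end Cfsg.Agent.S5311
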