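import Cfsg.Statements.S5345
import Cfsg.Agent.H2.Tt3
import Cfsg.Agent.H9.Syl

set_option autoImplicit false
open Cfsg

namespace Cfsg.Agent.S5345

open Subgroup in

/-- Let D be a conjugation-invariant generating set of 3-transpositions of a finite group G and T a Sylow 2-subgroup of G. Then the members of D lying in T generate an abelian subgroup, and their number is the width of D (the largest number of pairwise commuting members of D). -/
theorem result {G : Type*} [Group G] [Finite G] {D : Set G} (hD : Cfsg.IsThreeTranspositionGroup D) (T : Sylow 2 G) : IsMulCommutative (Subgroup.closure {d : G | d ∈ D ∧ d ∈ T}) ∧ {d : G | d ∈ D ∧ d ∈ T}.ncard = Cfsg.commutingWidth D := by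
  have hc : ∀ a ∈ D, ∀ b ∈ D, a ∈ T → b ∈ T → Commute a b := by
    intro a ha b hb h1 h2
    rcases hD.1.2 a ha b hb with h | h
    · exact H7.comm_of_sq (H7.tset_sq hD.1 ha) (H7.tset_sq hD.1 hb) h
    · obtain ⟨k, hk⟩ := T.2 ⟨a * b, T.1.mul_mem h1 h2⟩
      have hk' : (a * b) ^ 2 ^ k = 1 := congrArg Subtype.val hk
      have h3 : a * b = 1 := by
        rw [← orderOf_eq_one_iff]
        exact Nat.eq_one_of_dvd_coprimes (Nat.Coprime.pow_left k (by norm_num : Nat.Coprime 2 3))
          (orderOf_dvd_of_pow_eq_one hk') (orderOf_dvd_of_pow_eq_one h)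
      rw [eq_inv_of_mul_eq_one_left h3]; exact (Commute.refl b).inv_left
  refine ⟨isMulCommutative_closure fun a ha b hb => hc a ha.1 b hb.1 ha.2 hb.2, ?_⟩
  symm
  refine IsGreatest.csSup_eq ⟨⟨_, fun x hx => hx.1, Set.toFinite _, fun a ha b hb => hc a ha.1 b hb.1 ha.2 hb.2, rfl⟩, ?_⟩
  rintro _ ⟨E, h1, -, h2, rfl⟩
  have hcomm : IsMulCommutative (closure E) := isMulCommutative_closure fun a ha b hb => h2 a ha b hb
  have hp : IsPGroup 2 (closure E) := by
    rintro ⟨g, hg⟩
    refine ⟨1, Subtype.ext ?_⟩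
    show g ^ 2 ^ 1 = 1
    induction hg using closure_induction with
    | mem x hx => simpa [pow_two] using H7.tset_sq hD.1 (h1 hx)
    | one => simp
    | mul a b ha hb h3 h4 =>
      have : Commute a b := congrArg Subtype.val (hcomm.is_comm.comm ⟨a, ha⟩ ⟨b, hb⟩)
      rw [this.mul_pow, h3, h4, mul_one]
    | inv a _ h3 => rw [inv_pow, h3, inv_one]
  obtain ⟨g, -, hg⟩ := (H9.syl_top_of_sylow T).exists_cj_le hp le_top
  refine Set.ncard_le_ncard_of_injOn (fun x => g * x * g⁻¹) (fun x hx => ⟨hD.2.1 g x (h1 hx), ?_⟩)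
    (fun x _ y _ h => by simpa using h) (Set.toFinite _)
  exact hg (mem_map_of_mem _ (subset_closure hx))

end Cfsg.Agent.S5345
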