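import Cfsg.Statements.S5346
import Cfsg.Agent.H2.F3a

set_option autoImplicit false
open Cfsg

namespace Cfsg.Agent.S5346

/-- Let D be a conjugation-invariant generating set of 3-transpositions of a finite group G and d a member of D. Then D has width 1 (no two different members of D commute) if and only if G is the product of the subgroup generated by d with the largest normal 3-subgroup of G. -/
theorem result {G : Type*} [Group G] [Finite G] {D : Set G} (hD : Cfsg.IsThreeTranspositionGroup D) {d : G} (hd : d ∈ D) : Cfsg.commutingWidth D = 1 ↔ Subgroup.zpowers d ⊔ Cfsg.pCore 3 G = ⊤ := by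
  have t := H7.T3.of_group hD
  rw [H2F.width_one_iff hd]
  constructor
  · exact fun w => H2F.sup_top t hD.2.2 hd fun b hb => H2F.w1_abs t hD.2.2 w hd hb
  · intro h
    have k : ∀ a ∈ D, d * a ∈ pCore 3 G := fun a ha => (H2F.mem_of_sup t hd (h ▸ Subgroup.mem_top a)).resolve_left fun m =>
      t.ne a ha (H2F.one_of_p (H9.pCore_p 3) m (q := 2) (by rw [pow_two, t.sq a ha]) (by norm_num))
    intro a ha b hb c
    have m : a * b ∈ pCore 3 G := by simpa [t.inv ha] using mul_mem (inv_mem (k a ha)) (k b hb)
    exact (H2F.eq_of_mul t ha (H2F.one_of_p (H9.pCore_p 3) m (H2F.sq_c t ha hb c) (by norm_num))).symm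

end Cfsg.Agent.S5346
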