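import Cfsg.Statements.S5347
import Cfsg.Agent.H2.Tt3

set_option autoImplicit false
open Cfsg

namespace Cfsg.Agent.S5347

/-- Let D be a conjugation-invariant generating set of 3-transpositions of a finite group G, p a prime bigger than 3, and P a p-subgroup of G. If a member d of D normalizes P then d centralizes P. -/
theorem result {G : Type*} [Group G] [Finite G] {D : Set G} (hD : Cfsg.IsThreeTranspositionGroup D) {p : ℕ} (hp : p.Prime) (hp3 : 3 < p) (P : Subgroup G) (hP : IsPGroup p P) {d : G} (hd : d ∈ D) (hnorm : d ∈ Subgroup.normalizer (P : Set G)) : ∀ x ∈ P, Commute d x := by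
  intro x hx
  have h1 := H7.tset_sq hD.1 hd
  have h2 : d * (x * d * x⁻¹) ∈ P := by
    have := P.mul_mem ((Subgroup.mem_normalizer_iff.1 hnorm x).1 hx) (P.inv_mem hx)
    rw [inv_eq_of_mul_eq_one_left h1] at this
    simpa [mul_assoc] using this
  obtain ⟨k, hk⟩ := hP ⟨_, h2⟩
  have hk' : (d * (x * d * x⁻¹)) ^ p ^ k = 1 := congrArg Subtype.val hk
  have h3 : d * (x * d * x⁻¹) = 1 := by
    rw [← orderOf_eq_one_iff]
    rcases hD.1.2 d hd _ (hD.2.1 x d hd) with h | h
    · exact Nat.eq_one_of_dvd_coprimes (Nat.Coprime.pow_left k ((Nat.coprime_primes hp Nat.prime_two).2 (by omega)))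
        (orderOf_dvd_of_pow_eq_one hk') (orderOf_dvd_of_pow_eq_one h)
    · exact Nat.eq_one_of_dvd_coprimes (Nat.Coprime.pow_left k ((Nat.coprime_primes hp Nat.prime_three).2 (by omega)))
        (orderOf_dvd_of_pow_eq_one hk') (orderOf_dvd_of_pow_eq_one h)
  have h4 : x * d * x⁻¹ = d := mul_left_cancel (h3.trans h1.symm)
  exact (H7.conj_eq_self.1 h4).symm

end Cfsg.Agent.S5347
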