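import Cfsg.Statements.S5348


set_option autoImplicit false
open Cfsg

namespace Cfsg.Agent.S5348

/-- Let D be a conjugation-invariant generating set of 3-transpositions of a finite group G and d a member of D. Let V be the set of members of D commuting with exactly the same members of D as d, and W the set of members w of D such that the members of D other than w commuting with w are precisely the members of D other than d commuting with d. Then V = {d} or W = {d}. -/
theorem result {G : Type*} [Group G] [Finite G] {D : Set G} (hD : Cfsg.IsThreeTranspositionGroup D) {d : G} (hd : d ∈ D) : {v : G | v ∈ D ∧ ∀ e ∈ D, Commute v e ↔ Commute d e} = {d} ∨ {w : G | w ∈ D ∧ {y : G | y ∈ D ∧ y ≠ d ∧ Commute d y} = {y : G | y ∈ D ∧ y ≠ w ∧ Commute w y}} = {d} := by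
  by_contra h
  push Not at h
  obtain ⟨v, hv, hvd⟩ : ∃ v, (v ∈ D ∧ ∀ e ∈ D, Commute v e ↔ Commute d e) ∧ v ≠ d := by
    by_contra h1; push Not at h1
    exact h.1 (Set.eq_singleton_iff_unique_mem.2 ⟨⟨hd, fun _ _ => Iff.rfl⟩, fun v hv => h1 v hv⟩)
  obtain ⟨w, hw, hwd⟩ : ∃ w, (w ∈ D ∧ {y : G | y ∈ D ∧ y ≠ d ∧ Commute d y} = {y : G | y ∈ D ∧ y ≠ w ∧ Commute w y}) ∧ w ≠ d := by
    by_contra h1; push Not at h1
    exact h.2 (Set.eq_singleton_iff_unique_mem.2 ⟨⟨hd, rfl⟩, fun v hv => h1 v hv⟩)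
  have h1 : v ∈ {y : G | y ∈ D ∧ y ≠ d ∧ Commute d y} := ⟨hv.1, hvd, ((hv.2 d hd).2 (Commute.refl d)).symm⟩
  rw [hw.2] at h1
  have h2 : w ∈ {y : G | y ∈ D ∧ y ≠ d ∧ Commute d y} := ⟨hw.1, hwd, (hv.2 w hw.1).1 h1.2.2.symm⟩
  rw [hw.2] at h2
  exact h2.2.1 rfl

end Cfsg.Agent.S5348
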