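import Cfsg.Statements.S5349
import Cfsg.Agent.H2.F3a

set_option autoImplicit false
open Cfsg

namespace Cfsg.Agent.S5349

/-- Let D be a conjugacy class of 3-transpositions generating the finite group G, with at least two members, and d a member of D. Then the set of members of D commuting with exactly the same members of D as d coincides with the set of members of D lying in the coset of d modulo the largest normal 2-subgroup of G, and also with the orbit of d under conjugation by that normal 2-subgroup. -/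
theorem result {G : Type*} [Group G] [Finite G] {D : Set G} (hD : Cfsg.IsThreeTranspositionClass D) (hD2 : ∃ a ∈ D, ∃ b ∈ D, a ≠ b) {d : G} (hd : d ∈ D) : {v : G | v ∈ D ∧ ∀ e ∈ D, Commute v e ↔ Commute d e} = {v : G | v ∈ D ∧ d⁻¹ * v ∈ Cfsg.pCore 2 G} ∧ {v : G | v ∈ D ∧ ∀ e ∈ D, Commute v e ↔ Commute d e} = {v : G | ∃ g ∈ Cfsg.pCore 2 G, v = g * d * g⁻¹} := by
  have h := H2F.TC.of_class hD hD2
  refine ⟨Set.ext fun v => ⟨fun k => ⟨k.1, ?_⟩, fun k => ?_⟩, Set.ext fun v => ⟨fun k => h.V_orb ⟨hd, k⟩, ?_⟩⟩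
  · rw [h.t.inv hd]; exact h.V_core ⟨hd, k⟩
  · exact (h.V_of (H9.pCore_p 2) hd k.1 (h.t.inv hd ▸ k.2)).2
  · rintro ⟨g, hg, rfl⟩
    exact (h.V_of (H9.pCore_p 2) hd (h.cm g d hd) (H2F.TC.mul_cj_mem h.t hd hg)).2

end Cfsg.Agent.S5349
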