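import Cfsg.Statements.S5354
import Cfsg.Agent.H2.F3c

set_option autoImplicit false
open Cfsg

namespace Cfsg.Agent.S5354

/-- Let D be a conjugation-invariant generating set of 3-transpositions of the finite group G on which G acts primitively by conjugation, and suppose two different members of D commute (width at least 2). Then G has a quasisimple normal subgroup L of index at most 2 with the generalized Fitting subgroup of G equal to L times the centre, the commuting graph of D is connected, and for d in D the subgroup generated by the members of D commuting with d is a maximal D-subgroup: it is proper, and every subgroup generated by members of D that contains it is either it or G. -/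
theorem result {G : Type*} [Group G] [Finite G] {D : Set G} (hD : Cfsg.IsThreeTranspositionGroup D) (hprim : Cfsg.IsPrimitiveUnderConj D) (hw : ∃ a ∈ D, ∃ b ∈ D, a ≠ b ∧ Commute a b) : (∃ L : Subgroup G, L.Normal ∧ Cfsg.IsQuasisimple L ∧ L.index ≤ 2 ∧ Cfsg.generalizedFittingSubgroup G = L ⊔ Subgroup.center G) ∧ (Cfsg.commutingGraph D).Connected ∧ ∀ d ∈ D, Subgroup.closure {y : G | y ∈ D ∧ Commute d y} ≠ ⊤ ∧ ∀ H : Subgroup G, Cfsg.IsDSubgroup D H → Subgroup.closure {y : G | y ∈ D ∧ Commute d y} ≤ H → H = Subgroup.closure {y : G | y ∈ D ∧ Commute d y} ∨ H = ⊤ := by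
  have h : H2F.PC D := ⟨H2F.TC.of_prim hD hprim, H2F.prim_of hprim, hw⟩
  obtain ⟨d, hd⟩ := h.ne
  obtain ⟨L, hL, q, e⟩ := h.exists_L h.core2 h.core3
  refine ⟨⟨L, hL, H9.qs_iff.1 q, h.index_le (h.all_mem h.core2 h.core3 q hd (h.conn hd)), e⟩, H2T.conn_of_cp hd (h.conn hd),
    fun d hd => ⟨fun e => ?_, fun H hH l => ?_⟩⟩
  · obtain ⟨b, -, n⟩ := h.nc d hd
    exact n (H7.comm_Cm (D := D) (e ▸ Subgroup.mem_top b))
  · by_cases k : ∃ x ∈ D, x ∈ H ∧ ¬ Commute d x
    · obtain ⟨x, hx, m, n⟩ := k
      exact Or.inr (h.dmax hd hx n (fun y hy => l (Subgroup.subset_closure hy)) m)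
    · push Not at k
      refine Or.inl (le_antisymm ?_ l)
      rw [← hH]
      exact Subgroup.closure_mono fun y hy => ⟨hy.1, k y hy.1 hy.2⟩

end Cfsg.Agent.S5354
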