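import Cfsg.Statements.S5357
import Cfsg.Agent.H5.T3

set_option autoImplicit false
open scoped MatrixGroups
open Cfsg

namespace Cfsg.Agent.S5357

open H5 H5.Form Module Matrix Subgroup

/-- Let Q be a non-degenerate quadratic form on the n-dimensional coordinate space over the field with three elements, n ≥ 5, and c a non-zero scalar. In the subgroup of the isometry group of Q generated by the reflections in vectors v with Q(v) = c, these reflections form a single conjugacy class of 3-transpositions generating that subgroup. -/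
theorem result (n : ℕ) (hn : 5 ≤ n) (Q : QuadraticForm (ZMod 3) (Fin n → ZMod 3)) (hQ : (QuadraticMap.polarBilin Q).Nondegenerate) (c : ZMod 3) (hc : c ≠ 0) : Cfsg.IsThreeTranspositionClass {g : ↥(Cfsg.reflectionSubgroup (⇑Q) c) | (g : ↥(Cfsg.isometryGroup (ZMod 3) (⇑Q))) ∈ Cfsg.reflectionsOfNorm (⇑Q) c} := by
  have h := ofQuad_nondeg hQ
  have h2 : (2 : ZMod 3) ≠ 0 := by decide
  have h5 : 5 ≤ finrank (ZMod 3) (Fin n → ZMod 3) := by simpa
  let e := rnEquiv (ofQuad Q) c
  have p0 : ∀ p, (ofQuad Q).Q p = c → p ≠ 0 := by rintro _ hp rfl; exact hc (by simpa using hp.symm)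
  refine h.t3 (((ofQuad Q).Rn c).subtype.comp e.toMonoidHom) (Subtype.val_injective.comp e.injective)
    (fun g => Rn_le c (e g).2) ((ofQuad Q).Q · = c) (inv_ne_zero hc) (fun g => ?_)
    (fun p hp => ⟨p0 p hp, by rw [orth_self, hp]; field_simp⟩) (fun p q _ _ => ?_)
    (fun g p hp => ((Rn_le c (e g).2).2 p).trans hp) (fun p q hp hq => ?_) ?_ ?_
  · refine (mem_reflectionsOfNorm (ofQuad Q) c g.1).trans (exists_congr fun v => and_congr_right fun hv => ?_)
    rw [LinearEquiv.ext_iff]; simp only [r_apply, hv]; rfl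
  · rw [orth_symm _ q p]; generalize (ofQuad Q).B q p = a
    exact (by decide : ∀ a c : ZMod 3, c ≠ 0 → a = 0 ∨ c * a * (c * a) = 1) a _ (inv_ne_zero hc)
  · obtain ⟨g, hg, -, H⟩ := h.Rn_trans h2 h5 hc (v := 0) (hp ▸ hc) (by simp [p0 p hp]) (by simp [p0 q hq]) (hp.trans hq.symm) (by simp)
    exact ⟨e.symm ⟨g, hg⟩, 1, by simp, by change (e (e.symm _)).1 p = _; rw [e.apply_symm_apply, one_smul]; exact H⟩
  · obtain ⟨v, hv⟩ := h.orth_universal (by omega) c
    exact ⟨e.symm ⟨_, r_mem_Rn hv⟩, (mem_reflectionsOfNorm (ofQuad Q) c _).2 ⟨v, hv, congrArg Subtype.val (e.apply_symm_apply _)⟩⟩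
  · exact closure_closure_coe_preimage


end Cfsg.Agent.S5357
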