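import Cfsg.Statements.S5358
import Cfsg.Agent.H2.Half

set_option autoImplicit false
open scoped MatrixGroups
open Cfsg

namespace Cfsg.Agent.S5358

open Matrix in

/-- Let Q be a non-degenerate quadratic form on the n-dimensional coordinate space over the field with three elements and u, v vectors of the same non-zero norm Q(u) = Q(v) spanning different lines (v ≠ u and v ≠ −u). Then the reflection matrices of u and v commute if and only if u and v are orthogonal for the polar form of Q. -/
theorem result (n : ℕ) (Q : QuadraticForm (ZMod 3) (Fin n → ZMod 3)) (hQ : (QuadraticMap.polarBilin Q).Nondegenerate) (u v : Fin n → ZMod 3) (hu : Q u ≠ 0) (huv : Q u = Q v) (h1 : v ≠ u) (h2 : v ≠ -u) : Commute (Cfsg.reflectionMatrix (⇑Q) u) (Cfsg.reflectionMatrix (⇑Q) v) ↔ QuadraticMap.polar (⇑Q) u v = 0 := by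
  have dot : ∀ w x : Fin n → ZMod 3, Cfsg.polarVec (⇑Q) w ⬝ᵥ x = Q.polarBilin w x := by
    intro w x
    conv_rhs => rw [← Finset.univ_sum_single x, map_sum]
    refine Finset.sum_congr rfl fun j _ => ?_
    rw [show (Pi.single j (x j) : Fin n → ZMod 3) = x j • Pi.single j 1 by ext i; by_cases h : i = j <;> simp [h],
      map_smul, smul_eq_mul, mul_comm]
    rfl
  have mv : ∀ w x : Fin n → ZMod 3, Cfsg.reflectionMatrix (⇑Q) w *ᵥ x = x - ((Q w)⁻¹ * Q.polarBilin w x) • w := by
    intro w x
    unfold Cfsg.reflectionMatrix
    rw [sub_mulVec, one_mulVec, smul_mulVec, vecMulVec_mulVec, dot]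
    simp [mul_smul]
  have sym : Q.polarBilin v u = Q.polarBilin u v := QuadraticMap.polar_comm _ _ _
  show _ ↔ Q.polarBilin u v = 0
  constructor
  · intro h
    by_contra hb
    have := congrArg (· *ᵥ u) h.eq
    simp only [← mulVec_mulVec, mv, map_sub, map_smul, smul_eq_mul, sym, ← huv] at this
    have e : Q.polarBilin u u = 2 * Q u := by
      show QuadraticMap.polar Q u u = _
      rw [QuadraticMap.polar_self, two_nsmul, two_mul]
    rw [e] at this
    generalize Q.polarBilin u v = b at this hb
    generalize Q u = c at this hu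
    have hc : c⁻¹ = c := inv_eq_of_mul_eq_one_left (by clear this hb; revert hu; revert c; decide)
    rw [hc] at this
    have h3 : ∀ x y : ZMod 3, x - (c * b) * y - (c * (2 * c - c * b * b)) * x =
        x - (c * (2 * c)) * x - (c * (b - c * (2 * c) * b)) * y → y = (b * c * 2) * x := by
      clear this hc; revert hb hu; revert b c; decide
    have h4 : v = (b * c * 2) • u := funext fun i => h3 _ _ (congrFun this i)
    have h5 : b * c * 2 = 1 ∨ b * c * 2 = -1 := by clear this h3 h4 hc; revert hb hu; revert b c; decide
    rcases h5 with h5 | h5 <;> rw [h5] at h4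
    · exact h1 (by simpa using h4)
    · exact h2 (by simpa using h4)
  · intro h
    refine ext_of_mulVec_single fun i => ?_
    simp only [← mulVec_mulVec, mv, map_sub, map_smul, smul_eq_mul, sym, h]
    simp [sub_sub, add_comm]

end Cfsg.Agent.S5358
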