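import Cfsg.Statements.S5359
import Cfsg.Agent.H5.T3

set_option autoImplicit false
open scoped MatrixGroups
open Cfsg

namespace Cfsg.Agent.S5359

open H5 H5.Form Module Matrix Subgroup

/-- Let Q be a non-degenerate quadratic form on the n-dimensional coordinate space over the field with three elements, n odd and at least 5, and c a non-zero scalar. Then the subgroup of the isometry group of Q generated by the reflections in vectors of norm c has index 2 in the isometry group. -/
theorem result (n : ℕ) (hn : 5 ≤ n) (hodd : Odd n) (Q : QuadraticForm (ZMod 3) (Fin n → ZMod 3)) (hQ : (QuadraticMap.polarBilin Q).Nondegenerate) (c : ZMod 3) (hc : c ≠ 0) : (Cfsg.reflectionSubgroup (⇑Q) c).index = 2 := by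
  have h := ofQuad_nondeg hQ
  have h2 : (2 : ZMod 3) ≠ 0 := by decide
  have h5 : 5 ≤ finrank (ZMod 3) (Fin n → ZMod 3) := by simpa
  obtain ⟨d, d0, hd⟩ := exists_sgn h2 (-sgn c)
  obtain ⟨x, rfl⟩ := h.orth_universal (by omega) d
  let e := oEquiv (ofQuad Q)
  change (Cfsg.reflectionSubgroup (ofQuad Q).Q c).index = 2
  refine index_eq_two_iff.2 ⟨e.symm ⟨_, r_mem _ x⟩, fun g => ?_⟩
  rw [mem_reflectionSubgroup (ofQuad Q), mem_reflectionSubgroup (ofQuad Q), map_mul, MulEquiv.apply_symm_apply, coe_mul,
    h.mem_Rn h2 h5 hc (e g).2, h.mem_Rn h2 h5 hc (mul_mem (e g).2 (r_mem _ x)), (h.good h2).ab_mul (e g).2 (r_mem _ x), h.ab_r d0, hd]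
  generalize (ofQuad Q).ab _ = a
  generalize sgn c = s
  revert a s; decide


end Cfsg.Agent.S5359
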