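import Cfsg.Statements.S5360
import Cfsg.Agent.H5.T3

set_option autoImplicit false
open scoped MatrixGroups
open Cfsg

namespace Cfsg.Agent.S5360

open H5 H5.Form Module Matrix Subgroup

theorem fstar {G : Type*} [Group G] (h : Cfsg.IsQuasisimple (commutator G))
    (hc : centralizer (commutator G : Set G) ≤ center G) : Cfsg.generalizedFittingSubgroup G = center G ⊔ commutator G := by
  have := h.1
  have := h.2
  rw [Cfsg.generalizedFittingSubgroup, sup_comm]
  congr 1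
  · refine le_antisymm (sSup_le fun N ⟨h1, h2⟩ => le_trans ?_ hc) (le_sSup ⟨inferInstance, let _ := IsMulCommutative.instCommGroup (G := center G); CommGroup.isNilpotent⟩)
    have A : N.subgroupOf (commutator G) ≤ center _ := by
      rcases (Normal.map (h1.subgroupOf _) _ (QuotientGroup.mk'_surjective (center (commutator G)))).eq_bot_or_eq_top with e | e
      · simpa [Subgroup.map_eq_bot_iff] using e
      · have : Group.IsNilpotent (N.subgroupOf (commutator G)) :=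
          Group.nilpotent_of_mulEquiv (G := (N ⊓ commutator G).subgroupOf N) (by
            rw [← inf_subgroupOf_right N]
            exact (subgroupOfEquivOfLe inf_le_left).trans (subgroupOfEquivOfLe inf_le_right).symm)
        have := Group.nilpotent_of_surjective ((QuotientGroup.mk' (center (commutator G))).comp (N.subgroupOf (commutator G)).subtype)
          fun y => by obtain ⟨x, hx, rfl⟩ : y ∈ _ := e ▸ mem_top y; exact ⟨⟨x, hx⟩, rfl⟩
        exact (Group.IsPerfect.not_isNilpotent _ this).elim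
    have B : ⁅⁅N, commutator G⁆, commutator G⁆ = ⊥ := commutator_eq_bot_iff_le_centralizer.2 fun x hx y hy =>
      congrArg Subtype.val (mem_center_iff.1 (A (x := ⟨x, commutator_le_right _ _ hx⟩) (commutator_le_left N _ hx)) ⟨y, hy⟩)
    have := commutator_commutator_eq_bot_of_rotate (H₁ := commutator G) (H₂ := commutator G) (H₃ := N)
      (by rwa [commutator_comm (commutator G) N]) B
    rwa [commutator_eq_self, commutator_comm, commutator_eq_bot_iff_le_centralizer] at this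
  · exact le_antisymm (sSup_le fun K hK => (isPerfect_iff.1 hK.2.1).ge.trans (commutator_mono le_top le_top))
      (le_sSup ⟨Normal.isSubnormal inferInstance, h⟩)

/-- Let Q be a non-degenerate quadratic form on the n-dimensional coordinate space over the field with three elements, n ≥ 5, c a non-zero scalar, and R the subgroup of the isometry group generated by the reflections of norm c. Then the commutator subgroup of R is quasisimple of index at most 2, the generalized Fitting subgroup of R is the product of the centre and the commutator subgroup, and R acts primitively by conjugation on its reflections of norm c. -/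
theorem result (n : ℕ) (hn : 5 ≤ n) (Q : QuadraticForm (ZMod 3) (Fin n → ZMod 3)) (hQ : (QuadraticMap.polarBilin Q).Nondegenerate) (c : ZMod 3) (hc : c ≠ 0) : Cfsg.IsQuasisimple (commutator ↥(Cfsg.reflectionSubgroup (⇑Q) c)) ∧ (commutator ↥(Cfsg.reflectionSubgroup (⇑Q) c)).index ≤ 2 ∧ Cfsg.generalizedFittingSubgroup ↥(Cfsg.reflectionSubgroup (⇑Q) c) = Subgroup.center ↥(Cfsg.reflectionSubgroup (⇑Q) c) ⊔ commutator ↥(Cfsg.reflectionSubgroup (⇑Q) c) ∧ Cfsg.IsPrimitiveUnderConj {g : ↥(Cfsg.reflectionSubgroup (⇑Q) c) | (g : ↥(Cfsg.isometryGroup (ZMod 3) (⇑Q))) ∈ Cfsg.reflectionsOfNorm (⇑Q) c} := by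
  have h := ofQuad_nondeg hQ
  have h2 : (2 : ZMod 3) ≠ 0 := by decide
  have h5 : 5 ≤ finrank (ZMod 3) (Fin n → ZMod 3) := by simpa
  change Cfsg.IsQuasisimple (commutator (Cfsg.reflectionSubgroup (ofQuad Q).Q c)) ∧
    (commutator (Cfsg.reflectionSubgroup (ofQuad Q).Q c)).index ≤ 2 ∧
    Cfsg.generalizedFittingSubgroup (Cfsg.reflectionSubgroup (ofQuad Q).Q c) = center _ ⊔ commutator _ ∧
    Cfsg.IsPrimitiveUnderConj {g : Cfsg.reflectionSubgroup (ofQuad Q).Q c | g.1 ∈ Cfsg.reflectionsOfNorm (ofQuad Q).Q c}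
  generalize ofQuad Q = Φ at h ⊢
  let e := rnEquiv Φ c
  have E := h.Om_eq_EG (by omega) (.inr (by omega))
  have le := h.Om_le_Rn h2 h5 hc
  have P : Φ.Om ≤ ⁅Φ.Om, Φ.Om⁆ := by rw [E]; exact (commutator_eq_top_iff _).1 (h.EG_perfect h5)
  have hL : ∀ g, g ∈ commutator _ ↔ e g ∈ Φ.Om.subgroupOf (Φ.Rn c) := fun g => by
    rw [mem_commutator_congr e, mem_subgroupOf, le_antisymm (P.trans (commutator_mono le le)) (commutator_mono (Rn_le c) (Rn_le c)),
      ← map_subtype_commutator]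
    exact (mem_map_iff_mem (subtype_injective _)).symm
  let eL := (subEquiv e _ _ hL).trans (subgroupOfEquivOfLe le)
  have := h.Om_simple h5
  have : Group.IsPerfect Φ.Om := ⟨(commutator_eq_top_iff _).2 P⟩
  have q : Cfsg.IsQuasisimple (commutator (Cfsg.reflectionSubgroup Φ.Q c)) :=
    ⟨.ofSurjective (f := eL.symm.toMonoidHom) eL.symm.surjective, (quotCenterCongr eL).isSimpleGroup⟩
  obtain ⟨v, hv⟩ := h.orth_universal (by omega) c
  let ρ := fun v (hv : Φ.Q v = c) => e.symm ⟨_, r_mem_Rn hv⟩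
  have hρ : ∀ v hv, (e (ρ v hv)).1 = Φ.r v := fun v hv => congrArg Subtype.val (e.apply_symm_apply _)
  have hD : ∀ g : Cfsg.reflectionSubgroup Φ.Q c, g.1 ∈ Cfsg.reflectionsOfNorm Φ.Q c ↔ ∃ v hv, g = ρ v hv := fun g =>
    (mem_reflectionsOfNorm ..).trans (exists_congr fun v => ⟨fun ⟨hv, H⟩ => ⟨hv, e.eq_symm_apply.2 (Subtype.ext H)⟩,
      fun ⟨hv, H⟩ => ⟨hv, H ▸ hρ v hv⟩⟩)
  have cj : ∀ (g : Φ.Rn c) v hv w hw, g.1 v = w → e.symm g * ρ v hv * (e.symm g)⁻¹ = ρ w hw := fun g v hv w hw H =>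
    e.injective (Subtype.ext (by simp [hρ, ← H, conj_r (Rn_le c g.2)]))
  have p0 : ∀ p, Φ.Q p = c → p ≠ 0 := by rintro _ hp rfl; exact hc (by simpa using hp.symm)
  have ne : ∀ v hv w hw, Φ.B v w = 0 → ρ v hv ≠ ρ w hw := fun v hv w hw b H => by
    have := LinearEquiv.congr_fun ((hρ v hv).symm.trans (H ▸ hρ w hw)) v
    rw [r_self (hv ▸ hc), r_of_perp b, neg_eq_iff_add_eq_zero, ← two_smul (ZMod 3)] at this
    simp [h2, p0 v hv] at this
  have ns : ∀ v w, Φ.Q v = c → Φ.Q w = c → Φ.B v w = 0 → w ∉ ZMod 3 ∙ v := fun v w hv hw b H => by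
    obtain ⟨a, rfl⟩ := Submodule.mem_span_singleton.1 H
    simp [orth_self, h2, hv, hc] at b
    exact p0 _ hw (by simp [b])
  refine ⟨q, (index_eq_two_iff.2 ⟨ρ v hv, fun g => ?_⟩).le, fstar q fun g hg => ?_, ?_, ?_, fun B hB hb => ?_⟩
  · have G := h.good h2
    rw [hL, hL, mem_subgroupOf, mem_subgroupOf, G.mem_Om (Rn_le c (e _).2), G.mem_Om (Rn_le c (e _).2), map_mul, coe_mul, hρ v hv,
      G.ab_mul (Rn_le c (e _).2) (r_mem _ _), h.ab_r (v := v) (hv ▸ hc), hv]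
    rcases (h.mem_Rn h2 h5 hc (Rn_le c (e g).2)).1 (e g).2 with H | H <;> simp [H, Prod.ext_iff]
  · obtain ⟨a, ha⟩ := h.scalar_of_comm_EG h5 (Rn_le c (e g).2) fun t ht => by
      have := congrArg (fun x => (e x).1) (hg (e.symm ⟨t, le (E ▸ ht)⟩) ((hL _).2 (by simpa [mem_subgroupOf] using E ▸ ht)))
      simpa using this.symm
    exact mem_center_iff.2 fun x => e.injective (Subtype.ext (by simp [ha, scal_comm]))
  · intro a ha b hb
    obtain ⟨p, hp, rfl⟩ := (hD a).1 ha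
    obtain ⟨q, hq, rfl⟩ := (hD b).1 hb
    obtain ⟨g, hg, -, H⟩ := h.Rn_trans h2 h5 hc (v := 0) (hp ▸ hc) (by simp [p0 p hp]) (by simp [p0 q hq]) (hp.trans hq.symm) (by simp)
    exact ⟨_, cj ⟨g, hg⟩ _ hp _ hq H⟩
  · obtain ⟨w, b, -, hw⟩ := h.exists_perp_Q₂ h2 h5 (hv ▸ hc) 0 c
    exact ⟨_, (hD _).2 ⟨w, hw, rfl⟩, _, (hD _).2 ⟨v, hv, rfl⟩, ne _ hw _ hv b⟩
  have S : ∀ v hv w hw w' hw', ρ v hv ∈ B → ρ w hw ∈ B → w ∉ ZMod 3 ∙ v → w' ∉ ZMod 3 ∙ v → Φ.B v w = Φ.B v w' → ρ w' hw' ∈ B :=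
    fun v hv w hw w' hw' h1 h3 n1 n2 b => by
      obtain ⟨g, hg, e1, e2⟩ := h.Rn_trans h2 h5 hc (hw ▸ hc) n1 n2 (hw.trans hw'.symm) b
      rcases hb (e.symm ⟨g, hg⟩) with H | H
      · exact H ▸ ⟨_, h3, cj ⟨g, hg⟩ _ hw _ hw' e2⟩
      · exact (Set.disjoint_left.1 H ⟨_, h1, cj ⟨g, hg⟩ _ hv _ hv e1⟩ h1).elim
  have T : ∀ v hv w hw, ρ v hv ∈ B → ρ w hw ∈ B → Φ.B v w = 0 → B = _ := fun v hv w hw h1 h3 b =>
    hB.antisymm fun x hx => by
      obtain ⟨u, hu, rfl⟩ := (hD x).1 hx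
      obtain ⟨y, b1, b2, hy⟩ := h.exists_perp_Q₂ h2 h5 (hv ▸ hc) u c
      have b3 := Φ.B_zero_symm b1
      exact S y hy v hv u hu (S v hv w hw y hy h1 h3 (ns _ _ hv hw b) (ns _ _ hv hy b3) (b.trans b3.symm)) h1
        (ns _ _ hy hv b1) (ns _ _ hy hu b2) (b1.trans b2.symm)
  rw [or_iff_not_imp_left, Set.not_subsingleton_iff]
  rintro ⟨a, ha, b, hb', ab⟩
  obtain ⟨v, hv, rfl⟩ := (hD a).1 (hB ha)
  obtain ⟨w, hw, rfl⟩ := (hD b).1 (hB hb')
  by_cases b : Φ.B v w = 0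
  · exact T v hv w hw ha hb' b
  have n1 : w ∉ ZMod 3 ∙ v := fun H => by
    obtain ⟨a, rfl⟩ := Submodule.mem_span_singleton.1 H
    refine ab (e.injective (Subtype.ext ?_))
    rw [hρ _ hv, hρ _ hw, r_smul (by rintro rfl; simp at b)]
  obtain ⟨x, y, H⟩ := (h.perp_nondeg (res_line_nondeg (v := v) (by simp [orth_self, h2, hv, hc]))).orth_hyp
    (by have := h.finrank_perp_singleton (p0 v hv); omega)
  have hx := Φ.mem_perp_singleton.1 x.2
  have hy := Φ.mem_perp_singleton.1 y.2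
  obtain ⟨s, s1, hs⟩ : ∃ s : ZMod 3, s * s = 1 ∧ Φ.B v w = s * (2 * c) :=
    (by decide : ∀ b c : ZMod 3, b ≠ 0 → c ≠ 0 → ∃ s : ZMod 3, s * s = 1 ∧ b = s * (2 * c)) _ _ b hc
  have U : ∀ x, Φ.B x v = 0 → Φ.Q x = 0 → x ≠ 0 → ∃ hx : Φ.Q (s • v + x) = c, ρ _ hx ∈ B := fun x h1 h3 x0 =>
    have hx : Φ.Q (s • v + x) = c := by simp [orth_add, orth_smul, s1, hv, h3, Φ.B_zero_symm h1]
    ⟨hx, S v hv w hw _ hx ha hb' n1 (fun H => by
      obtain ⟨a, rfl⟩ := Submodule.mem_span_singleton.1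
        ((Submodule.add_mem_iff_right _ (Submodule.smul_mem _ s (Submodule.mem_span_singleton_self v))).1 H)
      simp [orth_self, h2, hv, hc] at h1
      simp [h1] at x0) (by simp [hs, orth_self, hv, Φ.B_zero_symm h1])⟩
  obtain ⟨h1, h3⟩ := U x hx H.1 (by simpa using H.e_ne)
  obtain ⟨h4, h6⟩ := U (c • y.1) (by simp [hy]) (Φ.Q_smul_zero H.2 c) (by simpa [hc] using H.f_ne)
  refine T _ h1 _ h4 h3 h6 ?_
  have : Φ.B x y = 1 := H.3
  simp [orth_self, hv, hx, Φ.B_zero_symm hy, this]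
  have t : (3 : ZMod 3) = 0 := rfl
  linear_combination 2 * c * s1 + c * t


end Cfsg.Agent.S5360
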