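import Cfsg.Statements.S5361
import Cfsg.Agent.H2.F3d

set_option autoImplicit false
open Cfsg

namespace Cfsg.Agent.S5361

/-- Let D be a conjugacy class of 3-transpositions generating the finite group G, and suppose the centre of G is trivial and some two different members of D commute. Then the following are equivalent: (1) the commutator subgroup of G is simple (possibly of prime order); (2) G acts primitively on D by conjugation; (3) the largest normal 2-subgroup and the largest normal 3-subgroup of G are trivial and the commuting graph of D is connected. -/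
theorem result {G : Type*} [Group G] [Finite G] {D : Set G} (hD : Cfsg.IsThreeTranspositionClass D) (hZ : Subgroup.center G = ⊥) (hw : ∃ a ∈ D, ∃ b ∈ D, a ≠ b ∧ Commute a b) : (IsSimpleGroup (commutator G) ↔ Cfsg.IsPrimitiveUnderConj D) ∧ (Cfsg.IsPrimitiveUnderConj D ↔ (Cfsg.pCore 2 G = ⊥ ∧ Cfsg.pCore 3 G = ⊥ ∧ (Cfsg.commutingGraph D).Connected)) := by
  have h := H2F.TC.of_class hD (by obtain ⟨a, ha, b, hb, n, -⟩ := hw; exact ⟨a, ha, b, hb, n⟩)
  obtain ⟨d, hd⟩ := h.ne
  refine ⟨⟨fun s => h.of_prim' (h.prim_of_simple s), fun p => ?_⟩, fun p => ?_, fun ⟨h2, h3, c⟩ => ?_⟩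
  · have h : H2F.PC D := ⟨h, H2F.prim_of p, hw⟩
    obtain ⟨L, hL, q, -⟩ := h.exists_L h.core2 h.core3
    have e : commutator G = L := le_antisymm (h.comm_le' (h.all_mem h.core2 h.core3 q hd (h.conn hd)))
      (q.perfect ▸ Subgroup.commutator_mono le_top le_top)
    rw [e]
    haveI := (Subgroup.nontrivial_iff_ne_bot _).2 q.ne_bot
    refine ⟨fun N hN => ?_⟩
    rcases q.normal _ (Subgroup.map_subtype_le N) (H9.map_subtype_le_normalizer N) with a | a
    · right
      exact Subgroup.map_injective L.subtype_injective (a.trans (H9.map_top_subtype L).symm)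
    · left
      have z : L ⊓ Subgroup.centralizer (L : Set G) ≤ Subgroup.center G :=
        (h.lemD h.core2 h.core3 (Subgroup.commutator_eq_bot_iff_le_centralizer.2 inf_le_right)).resolve_right (H2F.TC.qs_nc q)
      have := (le_inf (Subgroup.map_subtype_le N) a).trans z
      rwa [hZ, le_bot_iff, Subgroup.map_eq_bot_iff_of_injective _ L.subtype_injective] at this
  · have h : H2F.PC D := ⟨h, H2F.prim_of p, hw⟩
    exact ⟨le_bot_iff.1 (hZ ▸ h.core2), le_bot_iff.1 (hZ ▸ h.core3), H2T.conn_of_cp hd (h.conn hd)⟩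
  · have h2' : pCore 2 G ≤ Subgroup.center G := h2 ▸ bot_le
    have h3' : pCore 3 G ≤ Subgroup.center G := h3 ▸ bot_le
    obtain ⟨L, hL, q, -⟩ := h.exists_L h2' h3'
    exact h.of_prim' (h.prim_of_index h2' h3' q (h.index_le (h.all_mem h2' h3' q hd (H2T.cp_of_conn c hd))))

end Cfsg.Agent.S5361
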