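import Cfsg.Statements.S5363
import Cfsg.Agent.H2.Odd

set_option autoImplicit false
open Cfsg

namespace Cfsg.Agent.S5363

/-- Let D be a conjugation-invariant set of involutions of a finite group G. Then every product of two members of D has odd order or order 2 if and only if, for every a in D and every b in D different from a and commuting with a, the members of D commuting with a b are exactly those commuting with both a and b. -/
theorem result {G : Type*} [Group G] [Finite G] {D : Set G} (hinv : ∀ d ∈ D, orderOf d = 2) (hconj : ∀ g : G, ∀ d ∈ D, g * d * g⁻¹ ∈ D) : (∀ a ∈ D, ∀ b ∈ D, Odd (orderOf (a * b)) ∨ orderOf (a * b) = 2) ↔ ∀ a ∈ D, ∀ b ∈ D, b ≠ a → Commute a b → {y : G | y ∈ D ∧ Commute (a * b) y} = {y : G | y ∈ D ∧ Commute a y} ∩ {y : G | y ∈ D ∧ Commute b y} := by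
  have sq : ∀ d ∈ D, d * d = 1 := fun d hd => by rw [← pow_two, ← hinv d hd, pow_orderOf_eq_one]
  have iv : ∀ d ∈ D, d⁻¹ = d := fun d hd => inv_eq_of_mul_eq_one_left (sq d hd)
  have cm : ∀ a ∈ D, ∀ b ∈ D, orderOf (a * b) = 2 → Commute a b := fun a ha b hb h =>
    H7.comm_of_sq (sq a ha) (sq b hb) (h ▸ pow_orderOf_eq_one _)
  constructor
  · intro h a ha b hb hab hc
    ext y
    refine ⟨fun ⟨hy, h1⟩ => ?_, fun ⟨h1, h2⟩ => ⟨h1.1, h1.2.mul_left h2.2⟩⟩
    have h2 : a * y * a = b * y * b := by
      calc a * y * a = a * (y * (a * b)) * b := by simp [mul_assoc, sq b hb]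
        _ = b * y * b := by rw [← h1.eq]; simp [← mul_assoc, sq a ha]
    have h3 : Commute a y := by
      by_contra hn
      have hn' : ¬ Commute b y := fun hc' => hn (by
        rw [← H7.conj_eq_self, iv a ha, h2, hc'.eq, mul_assoc, sq b hb, mul_one])
      have o1 := (h a ha y hy).resolve_right fun e => hn (cm a ha y hy e)
      have o2 := (h b hb y hy).resolve_right fun e => hn' (cm b hb y hy e)
      refine hab (mul_right_cancel (H2O.eq_of_sq o2 o1 ?_))
      simp only [← mul_assoc, h2]
    exact ⟨⟨hy, h3⟩, hy, by simpa [← mul_assoc, sq a ha] using h3.mul_left h1⟩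
  · intro h a ha b hb
    by_contra hn
    push Not at hn
    obtain ⟨m, hm⟩ := Nat.not_odd_iff_even.1 hn.1
    have hpos := orderOf_pos (a * b)
    have h1 : (a * b) ^ (2 * m) = 1 := by rw [two_mul, ← hm, pow_orderOf_eq_one]
    have hz : (a * b) ^ m ≠ 1 := pow_ne_one_of_lt_orderOf (by omega) (by omega)
    have ca := H2O.ev (sq a ha) (sq b hb) m h1
    have cb : Commute ((a * b) ^ m) b := by
      simpa [← mul_assoc, sq a ha] using ca.mul_right (Commute.self_pow (a * b) m).symm
    have hD : a * (a * b) ^ m ∈ D := by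
      rcases Nat.even_or_odd' m with ⟨k, rfl | rfl⟩
      · have := hconj ((a * b) ^ k)⁻¹ a ha
        rw [inv_inv, ← (H2O.inv_pow' (sq a ha) (sq b hb) k).1] at this
        rw [two_mul, pow_add]
        simpa [mul_assoc, sq a ha, ← mul_assoc a a] using this
      · have := hconj ((a * b) ^ k)⁻¹ b hb
        rw [inv_inv, ← (H2O.inv_pow' (sq a ha) (sq b hb) k).2] at this
        rw [pow_succ', two_mul, pow_add]
        simpa [mul_assoc, sq a ha, sq b hb, ← mul_assoc a a, ← mul_assoc b b] using this
    have h2 := h a ha _ hD (by simpa using hz) ((Commute.refl a).mul_right ca.symm)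
    have h3 : b ∈ {y : G | y ∈ D ∧ Commute (a * (a * (a * b) ^ m)) y} :=
      ⟨hb, by rw [← mul_assoc, sq a ha, one_mul]; exact cb⟩
    rw [h2] at h3
    have h4 : orderOf (a * b) ∣ 2 := orderOf_dvd_of_pow_eq_one (H7.sq_of_comm (sq a ha) (sq b hb) h3.1.2)
    have := Nat.le_of_dvd (by norm_num) h4
    omega

end Cfsg.Agent.S5363
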