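import Cfsg.Statements.S5364
import Cfsg.Agent.H2.Odd

set_option autoImplicit false
open Cfsg

namespace Cfsg.Agent.S5364

/-- Let D be a conjugation-invariant set of involutions of a finite group G and t an involution in the centre of G such that d t does not lie in D for any d in D. If the images of the members of D in G modulo the subgroup generated by t satisfy the 3-transposition order conditions (each has order 2 and any two have product of order at most 3), then so do the members of D. -/
theorem result {G : Type*} [Group G] [Finite G] {D : Set G} (hinv : ∀ d ∈ D, orderOf d = 2) (hconj : ∀ g : G, ∀ d ∈ D, g * d * g⁻¹ ∈ D) (t : G) (ht : orderOf t = 2) (htZ : t ∈ Subgroup.center G) (hDt : ∀ d ∈ D, d * t ∉ D) [(Subgroup.zpowers t).Normal] (himg : Cfsg.IsThreeTranspositionSet ((QuotientGroup.mk : G → G ⧸ Subgroup.zpowers t) '' D)) : Cfsg.IsThreeTranspositionSet D := by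
  have sq : ∀ d ∈ D, d * d = 1 := fun d hd => by rw [← pow_two, ← hinv d hd, pow_orderOf_eq_one]
  have iv : ∀ d ∈ D, d⁻¹ = d := fun d hd => inv_eq_of_mul_eq_one_left (sq d hd)
  have ht' : ∀ x ∈ Subgroup.zpowers t, x = 1 ∨ x = t := by
    classical
    intro x hx
    obtain ⟨j, hj, rfl⟩ := Finset.mem_image.1 (mem_zpowers_iff_mem_range_orderOf.1 hx)
    rw [ht, Finset.mem_range] at hj
    interval_cases j <;> simp
  have hc : ∀ x, x * t = t * x := Subgroup.mem_center_iff.1 htZ
  refine ⟨hinv, fun d hd e he => ?_⟩
  rcases himg.2 _ ⟨d, hd, rfl⟩ _ ⟨e, he, rfl⟩ with h | h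
  · rw [← QuotientGroup.mk_mul, ← QuotientGroup.mk_pow, QuotientGroup.eq_one_iff] at h
    refine Or.inl ((ht' _ h).resolve_right fun h1 => hDt e he ?_)
    have := hconj d e he
    rw [hc, ← h1, iv d hd] at *
    simpa [pow_two, mul_assoc, sq e he] using this
  · rw [← QuotientGroup.mk_mul, ← QuotientGroup.mk_pow, QuotientGroup.eq_one_iff] at h
    refine Or.inr ((ht' _ h).resolve_right fun h1 => hDt e he ?_)
    have := hconj (d * e) d hd
    rw [hc, ← h1]
    simpa [pow_succ, mul_assoc, sq e he, iv d hd, iv e he] using this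

end Cfsg.Agent.S5364
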