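import Cfsg.Statements.S5365
import Cfsg.Agent.H2.F3d
import Cfsg.Agent.H1.Amb
import Cfsg.Agent.H1.Cores

set_option autoImplicit false
open Cfsg

namespace Cfsg.Agent.S5365

open Subgroup H7 H2F Equiv

theorem w_of {G : Type*} [Group G] {D : Set G} (t : T3 D) {N : Subgroup G} [N.Normal]
    (hN : ∀ x ∈ N, x ^ 2 = 1 → x = 1) {d v : G} (hd : d ∈ D) (hv : v ∈ D) (m : d * v ∈ N) :
    Dp D d ⊆ Dp D v := by
  intro e he
  have k0 : d * e ∉ N := fun k => he.2.1 (eq_of_mul t hd (hN _ k (sq_c t hd he.1 he.2.2)))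
  refine ⟨he.1, ?_, ?_⟩
  · rintro rfl; exact k0 m
  by_contra n
  have h1 := mem_of_sq t hv he.1 n (sq_mem t hd he.1 m he.2.2)
  have := N.mul_mem m h1
  rw [mul_assoc, t.cancel hv] at this
  exact k0 this

theorem w_core {G : Type*} [Group G] [Finite G] {D : Set G} (t : T3 D)
    (cm : ∀ g : G, ∀ d ∈ D, g * d * g⁻¹ ∈ D) {d v : G} (k : rW D d v) : d * v ∈ Cfsg.pCore 3 G := by
  have s := bsW cm
  haveI := s.normal
  exact in_core (H9.Op_p 3 _) (H9.normalizer_Op (s.ker_norm d))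
    (w1_rel (s.t3 t d) (fun a ha b hb => (s.tr (s.sy ha) hb).eq) (s.rf d k.1) k) (s.mul_mem t k)

set_option synthInstance.maxSize 2000 in
theorem loc3 {G : Type*} [Group G] {D : Set G} (t : T3 D) {S : Set G} (hS : S ⊆ D)
    (ψ : closure S ≃* Perm (Fin 3)) :
    (∀ p ∈ S, ∀ q ∈ S, Commute p q → p = q) ∧
    (∀ p ∈ S, ∀ q ∈ S, p ≠ q → ∀ r ∈ S, r = p ∨ r = q ∨ r = p * q * p) ∧
    (∀ p, ∃ q ∈ S, q ≠ p) ∧ (∀ z ∈ closure S, (∀ p ∈ S, Commute z p) → z = 1) := by
  have inv : ∀ p (hp : p ∈ S), ψ ⟨p, subset_closure hp⟩ * ψ ⟨p, subset_closure hp⟩ = 1 ∧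
      ψ ⟨p, subset_closure hp⟩ ≠ 1 := fun p hp =>
    ⟨by rw [← map_mul, ← map_one ψ]; congr 1; exact Subtype.ext (t.sq p (hS hp)),
      fun e => t.ne p (hS hp) (congrArg Subtype.val (ψ.injective (e.trans (map_one ψ).symm)))⟩
  have f1 : ∀ a b : Perm (Fin 3), a * a = 1 → a ≠ 1 → b * b = 1 → b ≠ 1 → a * b = b * a → a = b := by
    decide +kernel
  have f2 : ∀ a b c : Perm (Fin 3), a * a = 1 → a ≠ 1 → b * b = 1 → b ≠ 1 → c * c = 1 → c ≠ 1 → a ≠ b →
      c = a ∨ c = b ∨ c = a * b * a := by decide +kernel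
  have f3 : ∀ z : Perm (Fin 3), (∀ a, a * z = z * a) → z = 1 := by decide +kernel
  refine ⟨fun p hp q hq c => ?_, fun p hp q hq n r hr => ?_, fun p => ?_, fun z hz c => ?_⟩
  · have := f1 _ _ (inv p hp).1 (inv p hp).2 (inv q hq).1 (inv q hq).2 (by
      rw [← map_mul, ← map_mul]; congr 1; exact Subtype.ext c)
    exact congrArg Subtype.val (ψ.injective this)
  · have := f2 _ _ _ (inv p hp).1 (inv p hp).2 (inv q hq).1 (inv q hq).2 (inv r hr).1 (inv r hr).2
      (fun e => n (congrArg Subtype.val (ψ.injective e)))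
    rw [← map_mul, ← map_mul] at this
    exact this.imp (fun e => congrArg Subtype.val (ψ.injective e)) (Or.imp
      (fun e => congrArg Subtype.val (ψ.injective e)) (fun e => congrArg Subtype.val (ψ.injective e)))
  · by_contra k
    push Not at k
    have hc : IsMulCommutative (closure S) := isMulCommutative_closure fun x hx y hy => by
      rw [k x hx, k y hy]
    have : ∀ a b : Perm (Fin 3), a * b = b * a := fun a b => by
      have := congrArg ψ (hc.is_comm.comm (ψ.symm a) (ψ.symm b))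
      simpa using this
    revert this
    decide +kernel
  · have hz' : closure S ≤ centralizer {z} := by
      rw [closure_le]
      intro p hp
      exact mem_centralizer_singleton_iff.2 (c p hp).symm
    have := f3 (ψ ⟨z, hz⟩) fun a => by
      rw [← ψ.apply_symm_apply a, ← map_mul, ← map_mul]
      congr 1
      exact Subtype.ext (mem_centralizer_singleton_iff.1 (hz' (ψ.symm a).2))
    exact congrArg Subtype.val (ψ.injective (this.trans (map_one ψ).symm))

/-- Let D be a non-empty conjugation-invariant set of involutions of a finite group G satisfying the 3-transposition order conditions, and suppose that for every d in D the members of D other than d commuting with d generate a subgroup isomorphic to the symmetric group of degree 3, and the largest normal 3-subgroup of the centralizer of d has order 3. Then the subgroup generated by D is isomorphic to the symmetric group of degree 5 or to the direct product of two symmetric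 groups of degree 3. -/
theorem result {G : Type*} [Group G] [Finite G] {D : Set G} (hD : Cfsg.IsThreeTranspositionSet D) (hconj : ∀ g : G, ∀ d ∈ D, g * d * g⁻¹ ∈ D) (hne : D.Nonempty) (hloc : ∀ d ∈ D, Nonempty (↥(Subgroup.closure {y : G | y ∈ D ∧ y ≠ d ∧ Commute d y}) ≃* Equiv.Perm (Fin 3)) ∧ Nat.card (Cfsg.pCore 3 ↥(Subgroup.centralizer ({d} : Set G))) = 3) : Nonempty (↥(Subgroup.closure D) ≃* Equiv.Perm (Fin 5)) ∨ Nonempty (↥(Subgroup.closure D) ≃* Equiv.Perm (Fin 3) × Equiv.Perm (Fin 3)) := by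
  have t : T3 D := T3.of_set hD hconj
  have L := fun d (hd : d ∈ D) => loc3 t (S := Dp D d) (fun _ h => h.1) (hloc d hd).1.some
  have l0 : L0 D := fun y hy => (L y hy).1
  have sy : ∀ {a b}, a ∈ D → b ∈ Dp D a → a ∈ Dp D b := fun ha hb => ⟨ha, hb.2.1.symm, hb.2.2.symm⟩
  by_cases hA : ∃ d ∈ D, ∃ e1 ∈ Dp D d, ∃ e2 ∈ Dp D d, ∃ d2 ∈ Dp D e1, ¬ Commute e2 d2
  · left
    obtain ⟨d, hd, e1, h1, e2, h2, d2, h3, n⟩ := hA
    have n1 : ¬ Commute e1 e2 := fun c => n (l0 d hd _ h1 _ h2 c ▸ h3.2.2)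
    have n2 : ¬ Commute d2 d := fun c => n (l0 e1 h1.1 _ h3 _ (sy hd h1) c ▸ h2.2.2.symm)
    obtain ⟨φ, s, -⟩ := exists_S5 t h1.1 h2.1 h3.1 hd n1 n n2 h3.2.2 h1.2.2.symm h2.2.2.symm
    refine s.range_eq (fun y hy => ?_) s.mem
    have key : ∀ i j : Fin 5, i ≠ j → Commute y (φ (swap i j)) → y ∈ φ.range := by
      intro i j ij c
      have : ∀ i j : Fin 5, i ≠ j → ∃ k l m : Fin 5, k ≠ l ∧ k ≠ m ∧ swap k l ≠ swap i j ∧
          swap k m ≠ swap i j ∧ swap k l ≠ swap k m ∧ swap i j * swap k l = swap k l * swap i j ∧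
          swap i j * swap k m = swap k m * swap i j := by decide +kernel
      obtain ⟨k, l, m, a1, a2, a3, a4, a5, a6, a7⟩ := this i j ij
      by_cases e : y = φ (swap i j)
      · exact ⟨_, e.symm⟩
      rcases (L _ (s.mem i j ij)).2.1 _ ⟨s.mem _ _ a1, mt s.eq.1 a3, s.cm.2 a6⟩ _
        ⟨s.mem _ _ a2, mt s.eq.1 a4, s.cm.2 a7⟩ (mt s.eq.1 a5) y ⟨hy, e, c.symm⟩ with e | e | e
      · exact ⟨_, e.symm⟩
      · exact ⟨_, e.symm⟩
      · exact ⟨swap k l * swap k m * swap k l, by rw [map_mul, map_mul]; exact e.symm⟩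
    rcases s.six t l0 hy 0 1 2 3 (by decide) with c | c | c | c | c | c <;> exact key _ _ (by decide) c
  right
  push Not at hA
  have same : ∀ d ∈ D, ∀ e1 ∈ Dp D d, ∀ e2 ∈ Dp D d, Dp D e1 = Dp D e2 := by
    have : ∀ d ∈ D, ∀ e1 ∈ Dp D d, ∀ e2 ∈ Dp D d, Dp D e1 ⊆ Dp D e2 := by
      intro d hd e1 h1 e2 h2 d2 h3
      refine ⟨h3.1, ?_, hA d hd e1 h1 e2 h2 d2 h3⟩
      rintro rfl
      exact h3.2.1 (l0 d hd _ h1 _ h2 h3.2.2).symm
    exact fun d hd e1 h1 e2 h2 => (this d hd e1 h1 e2 h2).antisymm (this d hd e2 h2 e1 h1)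
  obtain ⟨d, hd⟩ := hne
  obtain ⟨e1, h1, -⟩ := (L d hd).2.2.1 1
  by_cases hB : D ⊆ Dp D d ∪ Dp D e1
  · have e : closure D = closure (Dp D d) ⊔ closure (Dp D e1) := by
      rw [← Subgroup.closure_union]
      exact congrArg Subgroup.closure (hB.antisymm (Set.union_subset (fun _ h => h.1) (fun _ h => h.1)))
    have cc : closure (Dp D d) ≤ centralizer (closure (Dp D e1) : Set G) := by
      rw [closure_le]
      intro p hp
      have : closure (Dp D e1) ≤ centralizer {p} := by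
        rw [closure_le]
        intro q hq
        exact mem_centralizer_singleton_iff.2 (hA d hd e1 h1 p hp q hq).symm
      exact fun q hq => mem_centralizer_singleton_iff.1 (this hq)
    have dj : closure (Dp D d) ⊓ closure (Dp D e1) = ⊥ := by
      rw [eq_bot_iff]
      intro z hz
      exact (L d hd).2.2.2 z hz.1 fun p hp => cc (subset_closure hp) z hz.2
    obtain ⟨ψ⟩ := H1.sup_equiv_prod cc dj
    exact ⟨(MulEquiv.subgroupCongr e).trans (ψ.trans
      (MulEquiv.prodCongr (hloc d hd).1.some (hloc e1 h1.1).1.some))⟩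
  exfalso
  obtain ⟨x, hx, nx⟩ := Set.not_subset.1 hB
  have n1 : ¬ Commute x d := fun c => by
    by_cases e : x = d
    · exact nx (Or.inr (e ▸ sy hd h1))
    · exact nx (Or.inl ⟨hx, e, c.symm⟩)
  have n2 : ¬ Commute x e1 := fun c => by
    by_cases e : x = e1
    · exact nx (Or.inl (e ▸ h1))
    · exact nx (Or.inr ⟨hx, e, c.symm⟩)
  have hW : ∀ a ∈ D, ∀ p ∈ Dp D a, ∀ q ∈ Dp D a, p * q ∈ Cfsg.pCore 3 G := fun a ha p hp q hq =>
    w_core t hconj ⟨hp.1, hq.1, same a ha p hp q hq⟩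
  have hN : (Cfsg.pCore 3 G).Normal := inferInstance
  have claim : ∀ a ∈ D, ∀ b ∈ Dp D a, ∀ w ∈ Cfsg.pCore 3 G, a * b * w * (a * b)⁻¹ = w⁻¹ := by
    intro a ha b hb w hw
    obtain ⟨a2, ha2, na⟩ := (L b hb.1).2.2.1 a
    obtain ⟨b2, hb2, nb⟩ := (L a ha).2.2.1 b
    have hab := sy ha hb
    have hu := hW b hb.1 a hab a2 ha2
    have hv := hW a ha b hb b2 hb2
    have cv : b * b2 ∈ centralizer ({a} : Set G) :=
      mem_centralizer_singleton_iff.2 (hb.2.2.mul_right hb2.2.2).symm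
    have v1 : b * b2 ≠ 1 := fun e => nb (eq_of_mul t hb.1 e)
    have cen : ∀ c ∈ Cfsg.pCore 3 G, c * a = a * c → ∃ m : ℤ, c = (b * b2) ^ m := by
      intro c hc ca
      haveI : Fact (Nat.Prime 3) := ⟨by norm_num⟩
      have hc' := mem_centralizer_singleton_iff.2 ca
      obtain ⟨m, hm⟩ := mem_zpowers_of_prime_card (hloc a ha).2
        (g := ⟨⟨_, cv⟩, H1.pCore_subgroupOf_le _ hv⟩) (g' := ⟨⟨_, hc'⟩, H1.pCore_subgroupOf_le _ hc⟩)
        (fun e => v1 (congrArg (fun z => z.1.1) e))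
      exact ⟨m, (congrArg (fun z => z.1.1) hm).symm⟩
    have m1 : w * a * w⁻¹ ∈ Dp D b := by
      refine sy (hconj w a ha) (w_of t (TC.odd3 H1.pCore_isPGroup) ha (hconj w a ha) ?_ hb)
      have := (Cfsg.pCore 3 G).mul_mem (hN.conj_mem w hw a) ((Cfsg.pCore 3 G).inv_mem hw)
      rw [t.inv ha] at this
      simpa [mul_assoc] using this
    have br := t.braid ha ha2.1 (fun c => na (l0 b hb.1 _ hab _ ha2 c).symm)
    have : ∃ k : ℤ, w * a * w⁻¹ = (a * a2) ^ k * a * ((a * a2) ^ k)⁻¹ := by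
      rcases (L b hb.1).2.1 a hab a2 ha2 na.symm _ m1 with e | e | e
      · exact ⟨0, by simpa using e⟩
      · refine ⟨1, ?_⟩
        rw [e, zpow_one, mul_inv_rev, t.inv ha, t.inv ha2.1]
        calc a2 = a * (a * a2 * a) * a := by rw [mul_assoc a a2, t.cancel ha, mul_assoc, t.sq a ha, mul_one]
          _ = a * (a2 * a * a2) * a := by rw [br]
          _ = _ := by simp only [mul_assoc]
      · refine ⟨-1, ?_⟩
        rw [e, br, zpow_neg, zpow_one, inv_inv, mul_inv_rev, t.inv ha, t.inv ha2.1]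
        simp only [mul_assoc, t.cancel ha]
    obtain ⟨k, hk⟩ := this
    obtain ⟨m, hm⟩ := cen (((a * a2) ^ k)⁻¹ * w) (mul_mem (inv_mem (zpow_mem hu k)) hw) (by
      calc ((a * a2) ^ k)⁻¹ * w * a = ((a * a2) ^ k)⁻¹ * (w * a * w⁻¹) * w := by group
        _ = _ := by rw [hk]; group)
    have ew : w = (a * a2) ^ k * (b * b2) ^ m := by rw [← hm]; group
    have c2 : Commute a2 b2 := (hA a ha b hb b2 hb2 a2 ha2).symm
    have cuv : Commute (a * a2) (b * b2) :=
      (hb.2.2.mul_right hb2.2.2).mul_left (ha2.2.2.symm.mul_right c2)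
    have iu : a * b * (a * a2) * (a * b)⁻¹ = (a * a2)⁻¹ := by
      have : Commute b (a * a2) := hab.2.2.mul_right ha2.2.2
      calc a * b * (a * a2) * (a * b)⁻¹ = a * (b * (a * a2)) * b⁻¹ * a⁻¹ := by group
        _ = a * (a * a2) * a⁻¹ := by rw [this.eq]; group
        _ = _ := by rw [t.cancel ha, mul_inv_rev, t.inv ha2.1]
    have iv : a * b * (b * b2) * (a * b)⁻¹ = (b * b2)⁻¹ := by
      have : Commute a (b2 * b) := hb2.2.2.mul_right hb.2.2
      calc a * b * (b * b2) * (a * b)⁻¹ = a * (b * (b * b2) * b⁻¹) * a⁻¹ := by group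
        _ = a * (b2 * b) * a⁻¹ := by rw [t.cancel hb.1, t.inv hb.1]
        _ = _ := by rw [this.eq, mul_inv_rev, t.inv hb.1, t.inv hb2.1]; group
    calc a * b * w * (a * b)⁻¹ = (a * b * (a * a2) * (a * b)⁻¹) ^ k * (a * b * (b * b2) * (a * b)⁻¹) ^ m := by
          rw [ew, conj_zpow, conj_zpow]; group
      _ = w⁻¹ := by
          rw [iu, iv, ew, inv_zpow, inv_zpow, mul_inv_rev ((a * a2) ^ k), ((cuv.zpow_zpow k m).inv_inv).eq]
  have hx' := vp t hd h1.1 hx h1.2.1.symm h1.2.2 n1 n2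
  obtain ⟨e2, h2, ne⟩ := (L d hd).2.2.1 e1
  have hw := hW d hd e1 h1 e2 h2
  obtain ⟨w, ew⟩ : ∃ w, w = e1 * e2 := ⟨_, rfl⟩
  rw [← ew] at hw
  have a1 := claim d hd e1 h1
  have a2 := claim x hx _ hx' _ ((Cfsg.pCore 3 G).inv_mem hw)
  have a3 := a1 _ (hN.conj_mem w hw x⁻¹)
  have : w = w⁻¹ := by
    calc w = x * (d * e1 * x * (d * e1)⁻¹) * w⁻¹ * (x * (d * e1 * x * (d * e1)⁻¹))⁻¹ := by rw [a2, inv_inv]
      _ = x * (d * e1 * (x * w * x⁻¹) * (d * e1)⁻¹) * x⁻¹ := by rw [← a1 w hw]; group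
      _ = x * (d * e1 * (x⁻¹ * w * x⁻¹⁻¹) * (d * e1)⁻¹) * x⁻¹ := by rw [inv_inv, t.inv hx]
      _ = _ := by rw [a3]; group
  refine ne (l0 d hd _ h1 _ h2 ?_).symm
  rw [ew, mul_inv_rev, t.inv h1.1, t.inv h2.1] at this
  exact this

end Cfsg.Agent.S5365
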