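import Cfsg.Statements.S5366
import Cfsg.Agent.H2.Fischer

set_option autoImplicit false
open Cfsg

namespace Cfsg.Agent.S5366

open H2.Fi

/-- Let L be a nondegenerate Fischer space on the point type X (every point on a line). Then for every point x the map t(x) — sending a point collinear with x to the third point of their common line and fixing every other point — is a permutation of X of order 2 and an automorphism of the line system; and the set of all t(x) satisfies the 3-transposition order conditions in the permutation group of X (any two have product of order at most 3). -/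
theorem result {X : Type*} (L : Set (Set X)) (hL : Cfsg.IsFischerSpace L) (hnd : Cfsg.LineSystem.IsNondegenerate L) : (∀ x : X, ∃ σ : Equiv.Perm X, ⇑σ = Cfsg.LineSystem.lineMap L x ∧ orderOf σ = 2 ∧ Cfsg.LineSystem.IsIso L L σ) ∧ Cfsg.IsThreeTranspositionSet {σ : Equiv.Perm X | ∃ x : X, ⇑σ = Cfsg.LineSystem.lineMap L x} := by
  have h := pres_lineMap hL.1 hL.2.1
  obtain ⟨T, hT⟩ : ∃ T, T = Cfsg.LineSystem.lineMap L := ⟨_, rfl⟩
  rw [← hT] at h ⊢
  have d := dist_fischer hL h
  let σ : X → Equiv.Perm X := fun x => ⟨T x, T x, h.q2 x, h.q2 x⟩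
  have hσ : ∀ x y, σ x y = T x y := fun _ _ => rfl
  have sq : ∀ x, σ x * σ x = 1 := fun x => Equiv.ext fun y => h.q2 x y
  have o2 : ∀ x, orderOf (σ x) = 2 := by
    intro x
    refine orderOf_eq_prime (by rw [pow_two, sq]) fun e => ?_
    obtain ⟨l, hl, hx⟩ := hnd x
    obtain ⟨y, hy, n⟩ := Set.exists_ne_of_one_lt_ncard (s := l) (by rw [h.card3 hl]; norm_num) x
    exact (h.any hl hy hx n).1 (by rw [← hσ, e]; rfl)
  have im : ∀ x l, l ∈ L → σ x '' l ∈ L := by
    intro x l hl
    obtain ⟨u, v, n, rfl⟩ := (h.ln l).1 hl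
    simp only [Set.image_insert_eq, Set.image_singleton, hσ]
    rw [d]
    exact h.mem (by rw [← d]; exact fun e => n ((σ x).injective e))
  have cj : ∀ x y, σ x * σ y * σ x = σ (T x y) := fun x y => Equiv.ext fun z => by
    show T x (T y (T x z)) = T (T x y) z
    rw [d, h.q2]
  refine ⟨fun x => ⟨σ x, rfl, o2 x, fun l => ⟨im x l, fun hl => ?_⟩⟩, ?_, ?_⟩
  · have := im x _ hl
    rw [Set.image_image] at this
    simpa [hσ, h.q2] using this
  · rintro s ⟨x, hx⟩
    rw [show s = σ x from Equiv.ext fun y => congrFun hx y]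
    exact o2 x
  · rintro s ⟨x, hx⟩ t ⟨y, hy⟩
    rw [show s = σ x from Equiv.ext fun y => congrFun hx y, show t = σ y from Equiv.ext fun z => congrFun hy z]
    by_cases n : T x y = y
    · left
      calc (σ x * σ y) ^ 2 = σ x * σ y * σ x * σ y := by simp only [pow_two, mul_assoc]
        _ = 1 := by rw [cj, n, sq]
    · right
      calc (σ x * σ y) ^ 3 = (σ x * σ y * σ x) * (σ y * σ x * σ y) := by simp only [pow_succ, pow_zero, one_mul, mul_assoc]
        _ = 1 := by rw [cj, cj, h.q3 y x n, sq]

end Cfsg.Agent.S5366
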