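import Cfsg.Statements.S5367
import Cfsg.Agent.H2.Fischer
import Cfsg.Agent.H2.Tt3

set_option autoImplicit false
open Cfsg

namespace Cfsg.Agent.S5367

open H2.Fi

/-- Let D be a conjugation-invariant generating set of 3-transpositions of a finite group G. Then the line system on D whose lines are the triples {x, y, y x y⁻¹} for non-commuting members x, y of D is a Fischer space: two points lie on at most one line, lines have three points, and two different meeting lines generate a subspace isomorphic to the dual affine plane of order two or to the affine plane of order three. -/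
theorem result {G : Type*} [Group G] [Finite G] {D : Set G} (hD : Cfsg.IsThreeTranspositionGroup D) : Cfsg.IsFischerSpace (Cfsg.threeTranspositionLines D) := by
  have t := H7.T3.of_group hD
  have inv : ∀ d ∈ D, d⁻¹ = d := fun d hd => inv_eq_of_mul_eq_one_right (t.sq d hd)
  let T : D → D → D := fun x y => ⟨x * y * (x : G)⁻¹, hD.2.1 _ _ y.2⟩
  have hT : ∀ x y : D, (T x y : G) = x * y * (x : G)⁻¹ := fun _ _ => rfl
  have cm : ∀ x y : D, T y x = x ↔ Commute (x : G) y := fun x y => by
    rw [Subtype.ext_iff, hT, H7.conj_eq_self]; exact ⟨Commute.symm, Commute.symm⟩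
  have br : ∀ x y : D, ¬ Commute (x : G) y → (x : G) * y * x = y * x * y := fun x y n =>
    (t.br _ x.2 _ y.2).resolve_left n
  have h : Pres (Cfsg.threeTranspositionLines D) T := by
    refine ⟨fun x => Subtype.ext (by simp [hT]), fun x y => Subtype.ext ?_, fun x y n => Subtype.ext ?_,
      fun l => ⟨?_, ?_⟩⟩
    · rw [hT, hT, inv _ x.2]
      calc (x : G) * (x * y * x) * x = (x * x) * y * (x * x) := by simp only [mul_assoc]
        _ = y := by rw [t.sq _ x.2]; simp
    · rw [hT, hT, inv _ x.2, inv _ y.2]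
      exact (br x y (fun c => n ((cm x y).2 c))).symm
    · rintro ⟨x, y, n, rfl⟩
      refine ⟨x, y, fun e => n ((cm x y).1 e), ?_⟩
      ext z
      simp only [Set.mem_setOf_eq, Set.mem_insert_iff, Set.mem_singleton_iff, Subtype.ext_iff, hT]
    · rintro ⟨x, y, n, rfl⟩
      refine ⟨x, y, fun c => n ((cm x y).2 c), ?_⟩
      ext z
      simp only [Set.mem_setOf_eq, Set.mem_insert_iff, Set.mem_singleton_iff, Subtype.ext_iff, hT]
  refine ⟨h.partialLinear, fun l hl => h.card3 hl, ?_⟩
  rintro l hl m hm hne ⟨a, hal, ham⟩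
  by_cases hc : ∃ b ∈ l, ∃ c ∈ m, b ≠ a ∧ c ≠ a ∧ Commute (b : G) c
  · left
    obtain ⟨b, hb, c, hc, ba, ca, bc⟩ := hc
    obtain ⟨nb, el⟩ := h.any hl hal hb ba.symm
    obtain ⟨nc, em⟩ := h.any hm ham hc ca.symm
    have hbc : (b : G) ≠ c := fun e => hne (by rw [el, em, Subtype.ext e])
    obtain ⟨φ, e1, e2, e3⟩ := Cfsg.Agent.H2T.hom4 (t.sq _ b.2) (t.sq _ a.2) (t.sq _ c.2)
      (br a b (fun k => nb ((cm a b).2 k))).symm (br a c (fun k => nc ((cm a c).2 k))) bc
    have inj := Cfsg.Agent.H2T.inj4 φ (by rw [e1, e3]; exact hbc)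
    let f : Cfsg.DualAffinePoint → D := fun s => ⟨φ (sw s), by
      obtain ⟨g, hg⟩ := sw_conj s
      rw [hg, map_mul, map_mul, map_inv, e1]
      exact hD.2.1 _ _ b.2⟩
    have f0 : f d12 = a := Subtype.ext e2
    have f1 : f d01 = b := Subtype.ext e1
    have f2 : f d23 = c := Subtype.ext e3
    have := plane_iso h presD f (fun p q e => sw_inj (inj (congrArg Subtype.val e)))
      (fun p q => Subtype.ext (by
        show φ (sw (TD p q)) = φ (sw p) * φ (sw q) * (φ (sw p))⁻¹
        rw [sw_T, map_mul, map_mul, map_inv])) d12 d01 d23 genD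
    rwa [f0, f1, f2, ← el, ← em] at this
  · right
    push Not at hc
    obtain ⟨b, hb, ba⟩ := Set.exists_ne_of_one_lt_ncard (s := l) (by rw [h.card3 hl]; norm_num) a
    obtain ⟨c, hc', ca⟩ := Set.exists_ne_of_one_lt_ncard (s := m) (by rw [h.card3 hm]; norm_num) a
    obtain ⟨nb, el⟩ := h.any hl hal hb ba.symm
    obtain ⟨nc, em⟩ := h.any hm ham hc' ca.symm
    have bc := hc b hb c hc' ba ca
    have bc' := hc b hb (T c a) (by rw [em]; simp) ba nc
    rw [h.q3 _ _ nc] at bc'
    have ab : ¬ Commute (a : G) b := fun k => nb ((cm a b).2 k)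
    have ac : ¬ Commute (a : G) c := fun k => nc ((cm a c).2 k)
    have cube : ∀ u v : D, ¬ Commute (u : G) v → (u : G) * v * (u * v) * (u * v) = 1 := fun u v n => by
      have := H7.cube_of_braid (t.sq _ u.2) (t.sq _ v.2) (br u v n)
      simpa only [pow_succ, pow_zero, one_mul] using this
    have aa := t.sq _ a.2
    have aa' : ∀ w : G, a * (a * w) = w := fun w => by rw [← mul_assoc, aa, one_mul]
    have sw3 : ∀ u : D, ¬ Commute (a : G) u → (a : G) * (a * u) = a * u * (a * u) * a := fun u n => by
      rw [aa']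
      calc (u : G) = a * (u * u) * (a * u) := by rw [t.sq _ u.2, mul_one, aa']
        _ = a * u * (u * a * u) := by simp only [mul_assoc]
        _ = _ := by rw [← br a u n]; simp only [mul_assoc]
    have hF := FA_T (x := (a : G) * b) (y := (a : G) * c) aa (cube a b ab) (cube a c ac) (sw3 b ab) (sw3 c ac)
      (by
        have := cube b (T a c) bc'
        rw [hT, inv _ a.2] at this
        calc (a : G) * b * (a * c) * (a * b * (a * c)) * (a * b * (a * c)) =
            a * (b * (a * c * a) * (b * (a * c * a)) * (b * (a * c * a))) * (a : G)⁻¹ := by group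
          _ = 1 := by rw [this]; group)
      (by
        have := cube b c bc
        have e : ((a : G) * b)⁻¹ * (a * c) = b * c := by rw [mul_inv_rev, inv _ b.2]; group
        rw [e, this])
    have cj : ∀ v, ∃ g : G, FA (a : G) (a * b) (a * c) v = g * a * g⁻¹ := by
      intro v
      refine ⟨((a : G) * b) ^ (v 0).val * ((a : G) * c) ^ (v 1).val, ?_⟩
      have k : ∀ (w : G) (n : ℕ), w * w * w = 1 → w ^ (2 * n) = (w ^ n)⁻¹ := fun w n hw => by
        rw [eq_inv_iff_mul_eq_one, ← pow_add, show 2 * n + n = 3 * n by ring, pow_mul,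
          show w ^ 3 = w * w * w by simp only [pow_succ, pow_zero, one_mul], hw, one_pow]
      rw [FA, k _ _ (cube a b ab), k _ _ (cube a c ac), mul_inv_rev]
    let f : (Fin 2 → ZMod 3) → D := fun v => ⟨FA (a : G) (a * b) (a * c) v, by
      obtain ⟨g, hg⟩ := cj v
      rw [hg]
      exact hD.2.1 _ _ a.2⟩
    have fin : ∀ u : D, ¬ Commute (a : G) u → (a : G) * u * a * (a * u * (a * u)) = u := fun u n => by
      calc (a : G) * u * a * (a * u * (a * u)) = a * u * (a * a) * u * (a * u) := by simp only [mul_assoc]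
        _ = a * (u * u) * (a * u) := by rw [aa]; simp only [mul_assoc, one_mul]
        _ = u := by rw [t.sq _ u.2, mul_one, aa']
    have f0 : f ![0, 0] = a := Subtype.ext (by
      show ((a : G) * b) ^ 0 * ((a : G) * c) ^ 0 * a * (((a : G) * c) ^ 0 * ((a : G) * b) ^ 0) = a
      simp)
    have f1 : f ![1, 0] = b := Subtype.ext (by
      show ((a : G) * b) ^ 1 * ((a : G) * c) ^ 0 * a * (((a : G) * c) ^ 0 * ((a : G) * b) ^ 2) = b
      simpa [pow_two] using fin b ab)
    have f2 : f ![0, 1] = c := Subtype.ext (by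
      show ((a : G) * b) ^ 0 * ((a : G) * c) ^ 1 * a * (((a : G) * c) ^ 2 * ((a : G) * b) ^ 0) = c
      simpa [pow_two] using fin c ac)
    have fT : ∀ p q, f (TA p q) = T (f p) (f q) := fun p q => Subtype.ext (by
      rw [hT, inv _ (f p).2]
      exact hF p q)
    have inj : Function.Injective f := by
      refine injA f fT ?_ ?_ ?_ ?_
      · rw [f0, f1]; exact ba.symm
      · rw [f0, f2]; exact ca.symm
      · rw [f1, f2]; rintro rfl; exact bc (Commute.refl _)
      · rw [fT, f0, f1, f2]; intro e; exact bc' (e ▸ Commute.refl _)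
    have := plane_iso h presA f inj fT _ _ _ genA
    rwa [f0, f1, f2, ← el, ← em] at this

end Cfsg.Agent.S5367
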