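import Cfsg.Statements.S5387
import Cfsg.Agent.H8.Stem
import Cfsg.Agent.S2088
-- import your own Cfsg.Agent.* helpers here

set_option autoImplicit false
set_option maxRecDepth 200000
open Cfsg

namespace Cfsg.Agent.S5387

/-- Up to isomorphism there is at most one quasisimple group whose centre is elementary abelian of order 4 and whose central quotient is isomorphic to the projective special linear group of dimension 3 over the field with four elements: any two such groups are isomorphic. -/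
theorem result {L₁ L₂ : Type*} [Group L₁] [Finite L₁] [Group L₂] [Finite L₂] (F : Type) [Field F] [Fintype F] (hF : Fintype.card F = 4) (h₁ : Cfsg.IsQuasisimple L₁) (h₂ : Cfsg.IsQuasisimple L₂) (hc₁ : Nat.card (Subgroup.center L₁) = 4) (hc₂ : Nat.card (Subgroup.center L₂) = 4) (he₁ : ∀ x ∈ Subgroup.center L₁, x * x = 1) (he₂ : ∀ x ∈ Subgroup.center L₂, x * x = 1) (e₁ : L₁ ⧸ Subgroup.center L₁ ≃* Matrix.ProjectiveSpecialLinearGroup (Fin 3) F) (e₂ : L₂ ⧸ Subgroup.center L₂ ≃* Matrix.ProjectiveSpecialLinearGroup (Fin 3) F) : Nonempty (L₁ ≃* L₂) := by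
  refine H8.stem_unique (e := 2) h₁.1 h₂.1 e₁ e₂ hc₁ hc₂ (fun x h => (pow_two x).trans (he₁ x h)) (fun x h => (pow_two x).trans (he₂ x h)) fun Γ _ _ σ hσ h => ?_
  obtain ⟨π, hπ⟩ := (Cfsg.Agent.S2088.result hF).2 Γ σ hσ
  refine (Nat.card_le_card_of_surjective (fun q : Fin 2 × Fin 2 => π (Multiplicative.ofAdd (0, (q.1.1 : ZMod 4), (q.2.1 : ZMod 4)))) fun y => ?_).trans (by simp)
  obtain ⟨a, rfl⟩ := hπ y
  obtain ⟨q, b, e⟩ := (by decide : ∀ a : Multiplicative (ZMod 3 × ZMod 4 × ZMod 4), ∃ q : Fin 2 × Fin 2, ∃ b,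
    a = Multiplicative.ofAdd (0, (q.1.1 : ZMod 4), (q.2.1 : ZMod 4)) * b ^ 2) a
  exact ⟨q, by rw [e, map_mul, map_pow, h, mul_one]⟩

end Cfsg.Agent.S5387
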