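import Cfsg.Statements.S5393
import Cfsg.Agent.H8.GP
-- import your own Cfsg.Agent.* helpers here

set_option autoImplicit false
set_option maxRecDepth 200000
open Cfsg

namespace Cfsg.Agent.S5393

/-- The length-24 code built from the squares modulo 23 contains the all-ones word, and the code modulo the all-ones word is an irreducible module over the field with two elements for the code's automorphism group: a subspace of the code that contains the all-ones word and is invariant under every coordinate permutation preserving the code is either the span of the all-ones word or the whole code. -/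
theorem result : (fun _ : Cfsg.GolayPt => (1 : ZMod 2)) ∈ Cfsg.golayCode ∧ ∀ W : Submodule (ZMod 2) (Cfsg.GolayPt → ZMod 2), (fun _ => (1 : ZMod 2)) ∈ W → W ≤ Cfsg.golayCode → (∀ σ ∈ Cfsg.M24, ∀ w ∈ W, (fun p => w (σ.symm p)) ∈ W) → W = Submodule.span (ZMod 2) {fun _ => (1 : ZMod 2)} ∨ W = Cfsg.golayCode := by
  have h : (fun _ : GolayPt => (1 : ZMod 2)) ∈ golayCode := Submodule.subset_span (.inr rfl)
  have k : H8.ind {none, some 0} ∉ golayCode := fun e => by
    have := H7.weights (H8.ind_mem.1 e)
    revert this; decide
  refine ⟨h, fun W h1 h2 h3 => ?_⟩
  rcases H8.GP.five h3 with rfl | e | e | e | rfl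
  · exact absurd (congrFun h1 none) (by decide)
  · exact .inl e
  · exact .inr e
  · exact (k (h2 (e.ge (show ∑ p, H8.ind _ p = 0 by decide +kernel)))).elim
  · exact (k (h2 trivial)).elim

end Cfsg.Agent.S5393
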