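import Cfsg.Statements.S5394
import Cfsg.Agent.H8.GD
-- import your own Cfsg.Agent.* helpers here

set_option autoImplicit false
set_option maxRecDepth 200000
open Cfsg

namespace Cfsg.Agent.S5394

/-- The automorphism group of the length-24 code built from the squares modulo 23 has exactly two conjugacy classes of involutions: an involution either fixes exactly the eight points of an octad or has no fixed points, both kinds occur, and any two involutions of the same kind are conjugate in the group. -/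
theorem result : (∀ g ∈ Cfsg.M24, orderOf g = 2 → (Finset.univ.filter fun p => g p = p) ∈ Cfsg.octads ∨ ∀ p, g p ≠ p) ∧ (∃ g ∈ Cfsg.M24, orderOf g = 2 ∧ (Finset.univ.filter fun p => g p = p) ∈ Cfsg.octads) ∧ (∃ g ∈ Cfsg.M24, orderOf g = 2 ∧ ∀ p, g p ≠ p) ∧ ∀ g ∈ Cfsg.M24, ∀ h ∈ Cfsg.M24, orderOf g = 2 → orderOf h = 2 → ((∀ p, g p ≠ p) ↔ (∀ p, h p ≠ p)) → ∃ k ∈ Cfsg.M24, k * g * k⁻¹ = h := by
  have hC := H8.GC.std
  refine ⟨fun g hg h => or_iff_not_imp_right.2 fun e => ?_, ?_, ?_, fun g hg h hh h1 h2 e => ?_⟩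
  · obtain ⟨C, hC, r⟩ := H8.cls2a (x := ⟨g, hg⟩) (by rwa [Subgroup.orderOf_mk]) e
    rw [H8.fix_filter hC.n r (fun p => g p = p) fun _ => Iff.rfl, hC.oct' (H8.fxP_lt _ _)]
    decide +kernel
  · obtain ⟨x, r⟩ := hC.ex (f := H8.z2a) (by decide +kernel)
    refine ⟨x, x.2, (Subgroup.orderOf_coe x).trans (hC.ord r (by decide +kernel)), ?_⟩
    rw [H8.fix_filter hC.n r (fun p => (x : Equiv.Perm GolayPt) p = p) fun _ => Iff.rfl, hC.oct' (H8.fxP_lt _ _)]
    decide +kernel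
  · obtain ⟨x, r⟩ := hC.ex (f := H8.z2b) (by decide +kernel)
    exact ⟨x, x.2, (Subgroup.orderOf_coe x).trans (hC.ord r (by decide +kernel)), (H8.nofix hC.n r).2 (by decide +kernel)⟩
  have h1 : orderOf (⟨g, hg⟩ : M24) = 2 := by rwa [Subgroup.orderOf_mk]
  have h2 : orderOf (⟨h, hh⟩ : M24) = 2 := by rwa [Subgroup.orderOf_mk]
  by_cases e' : ∀ p, g p ≠ p
  · obtain ⟨C, hC, r⟩ := H8.cls2b h1 e'
    obtain ⟨C', hC', r'⟩ := H8.cls2b h2 (e.1 e')
    obtain ⟨k, hk⟩ := hC.conj hC' r r'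
    exact ⟨k, k.2, congrArg Subtype.val hk⟩
  · obtain ⟨C, hC, r⟩ := H8.cls2a h1 e'
    obtain ⟨C', hC', r'⟩ := H8.cls2a h2 (mt e.2 e')
    obtain ⟨k, hk⟩ := hC.conj hC' r r'
    exact ⟨k, k.2, congrArg Subtype.val hk⟩

end Cfsg.Agent.S5394
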