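import Cfsg.Statements.S5396
import Cfsg.Agent.H1.ES2
import Cfsg.Agent.L.PG2

set_option autoImplicit false
open Cfsg

namespace Cfsg.Agent.S5396

open Subgroup H1 Matrix
open scoped commutatorElement

@[ext] structure EG (m : ℕ) (ε : ZMod 2) where
  a : Fin (m + 1) → ZMod 2
  b : Fin (m + 1) → ZMod 2
  c : ZMod 2

variable {m : ℕ} {ε : ZMod 2}

instance : Mul (EG m ε) :=
  ⟨fun x y => ⟨x.a + y.a, x.b + y.b, x.c + y.c + x.a ⬝ᵥ y.b + ε * (x.a 0 * y.a 0 + x.b 0 * y.b 0)⟩⟩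
instance : One (EG m ε) := ⟨⟨0, 0, 0⟩⟩
instance : Inv (EG m ε) :=
  ⟨fun x => ⟨-x.a, -x.b, -x.c + x.a ⬝ᵥ x.b + ε * (x.a 0 * x.a 0 + x.b 0 * x.b 0)⟩⟩

@[simp] theorem mul_a (x y : EG m ε) : (x * y).a = x.a + y.a := rfl
@[simp] theorem mul_b (x y : EG m ε) : (x * y).b = x.b + y.b := rfl
@[simp] theorem mul_c (x y : EG m ε) :
    (x * y).c = x.c + y.c + x.a ⬝ᵥ y.b + ε * (x.a 0 * y.a 0 + x.b 0 * y.b 0) := rfl
@[simp] theorem one_a : (1 : EG m ε).a = 0 := rfl
@[simp] theorem one_b : (1 : EG m ε).b = 0 := rfl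
@[simp] theorem one_c : (1 : EG m ε).c = 0 := rfl
@[simp] theorem inv_a (x : EG m ε) : x⁻¹.a = -x.a := rfl
@[simp] theorem inv_b (x : EG m ε) : x⁻¹.b = -x.b := rfl
@[simp] theorem inv_c (x : EG m ε) :
    x⁻¹.c = -x.c + x.a ⬝ᵥ x.b + ε * (x.a 0 * x.a 0 + x.b 0 * x.b 0) := rfl

instance : Group (EG m ε) := Group.ofLeftAxioms
  (fun x y z => by
    refine EG.ext (add_assoc _ _ _) (add_assoc _ _ _) ?_
    simp only [mul_a, mul_b, mul_c, add_dotProduct, dotProduct_add, Pi.add_apply]; ring)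
  (fun x => by refine EG.ext (zero_add _) (zero_add _) ?_; simp)
  (fun x => by
    refine EG.ext (neg_add_cancel _) (neg_add_cancel _) ?_
    simp only [mul_c, inv_a, inv_b, inv_c, neg_dotProduct, Pi.neg_apply, one_c]; ring)

def eqv (m : ℕ) (ε : ZMod 2) : EG m ε ≃ (Fin (m + 1) → ZMod 2) × (Fin (m + 1) → ZMod 2) × ZMod 2 :=
  ⟨fun x => (x.a, x.b, x.c), fun y => ⟨y.1, y.2.1, y.2.2⟩, fun _ => rfl, fun _ => rfl⟩

instance : Finite (EG m ε) := Finite.of_equiv _ (eqv m ε).symm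

def zz (m : ℕ) (ε : ZMod 2) : EG m ε := ⟨0, 0, 1⟩

theorem zz_sq : zz m ε ^ 2 = 1 := by
  rw [pow_two]
  refine EG.ext (by simp [zz]) (by simp [zz]) ?_
  simp only [zz, mul_c, one_c, zero_dotProduct, Pi.zero_apply, mul_zero, add_zero]
  rfl

theorem mem_zz {x : EG m ε} (h1 : x.a = 0) (h2 : x.b = 0) : x ∈ zpowers (zz m ε) := by
  rw [zp2 zz_sq]
  have : ∀ c : ZMod 2, c = 0 ∨ c = 1 := by decide
  exact (this x.c).imp (fun e => EG.ext h1 h2 e) (fun e => EG.ext h1 h2 e)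

theorem comm_iff {x y : EG m ε} : Commute x y ↔ x.a ⬝ᵥ y.b = y.a ⬝ᵥ x.b := by
  constructor
  · intro h
    have := congrArg EG.c h.eq
    simp only [mul_c] at this
    linear_combination this
  · intro h
    refine EG.ext (add_comm _ _) (add_comm _ _) ?_
    simp only [mul_c]
    linear_combination h

theorem xp (m : ℕ) (ε : ZMod 2) : XP 2 (m + 1) ⊤ (zz m ε) where
  mem := trivial
  ord := orderOf_eq_prime zz_sq (fun e => absurd (congrArg EG.c e) (by simp [zz]))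
  cen := fun x _ => comm_iff.2 (by simp [zz])
  comm := fun x _ y _ => mem_zz (by simp [commutatorElement_def]) (by simp [commutatorElement_def])
  nd := by
    intro x _ h
    refine mem_zz (funext fun i => ?_) (funext fun i => ?_)
    · simpa using comm_iff.1 (h ⟨0, Pi.single i 1, 0⟩ trivial)
    · simpa using (comm_iff.1 (h ⟨Pi.single i 1, 0, 0⟩ trivial)).symm
  cd := by
    rw [card_top, Nat.card_congr (eqv m ε)]
    simp only [Nat.card_prod, Nat.card_fun, Nat.card_zmod, Nat.card_fin]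
    ring

def AA (m : ℕ) (ε : ZMod 2) : Subgroup (EG m ε) where
  carrier := {x | x.a = 0 ∧ ε * x.b 0 = 0}
  mul_mem' := fun {x y} hx hy => ⟨by simp [hx.1, hy.1], by simp [mul_add, hx.2, hy.2]⟩
  one_mem' := ⟨rfl, by simp⟩
  inv_mem' := fun {x} hx => ⟨by simp [hx.1], by simpa using hx.2⟩

theorem AA_elem : Cfsg.IsElementaryAbelian 2 (AA m ε) := by
  refine ⟨⟨⟨fun x y => Subtype.ext (comm_iff.2 (by rw [x.2.1, y.2.1]; simp))⟩⟩, fun x hx => ?_⟩
  have two : ∀ t : ZMod 2, t + t = 0 := by decide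
  rw [pow_two]
  refine EG.ext (by simp [hx.1]) (funext fun i => two _) ?_
  simp only [mul_c, hx.1, zero_dotProduct, Pi.zero_apply, mul_zero, add_zero, zero_add, one_c, two]
  rw [← mul_assoc, hx.2, zero_mul]

theorem card_AA0 : Nat.card (AA m 0) = 2 ^ (m + 1 + 1) := by
  let e : AA m 0 ≃ (Fin (m + 1) → ZMod 2) × ZMod 2 :=
    ⟨fun x => (x.1.b, x.1.c), fun y => ⟨⟨0, y.1, y.2⟩, rfl, zero_mul _⟩,
      fun x => Subtype.ext (EG.ext x.2.1.symm rfl rfl), fun _ => rfl⟩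
  rw [Nat.card_congr e]
  simp only [Nat.card_prod, Nat.card_fun, Nat.card_zmod, Nat.card_fin]
  ring

theorem card_AA1 : Nat.card (AA m 1) = 2 ^ (m + 1) := by
  let e : AA m 1 ≃ (Fin m → ZMod 2) × ZMod 2 :=
    ⟨fun x => (Fin.tail x.1.b, x.1.c), fun y => ⟨⟨0, Fin.cons 0 y.1, y.2⟩, rfl, by simp⟩,
      fun x => Subtype.ext (EG.ext x.2.1.symm (by
        have : x.1.b 0 = 0 := by simpa using x.2.2
        show Fin.cons 0 (Fin.tail x.1.b) = x.1.b
        rw [← this, Fin.cons_self_tail]) rfl), fun _ => by simp⟩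
  rw [Nat.card_congr e]
  simp only [Nat.card_prod, Nat.card_fun, Nat.card_zmod, Nat.card_fin]
  ring

theorem minus (A : Subgroup (EG m 1)) (hA : Cfsg.IsElementaryAbelian 2 A) : Nat.card A ≤ 2 ^ (m + 1) := by
  have h := xp m 1
  let x : EG m 1 := ⟨Pi.single 0 1, 0, 0⟩
  let y : EG m 1 := ⟨0, Pi.single 0 1, 0⟩
  have e : ⁅x, y⁆ = zz m 1 := by
    rcases (zp2 zz_sq).1 (h.comm x trivial y trivial) with e | e
    · exact absurd (comm_iff.1 (cm_iff.1 e)) (by simp [x, y])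
    · exact e
  have hx : x ^ 2 ≠ 1 := fun e => absurd (congrArg EG.c e) (by simp [x, pow_two])
  have hy : y ^ 2 ≠ 1 := fun e => absurd (congrArg EG.c e) (by simp [y, pow_two])
  have s := h.toWS.SS_step (fun x hx => h.toWS.pow h.nd hx) (x := x) (y := y) trivial trivial e
  have s2 := ((h.CC trivial trivial e).elem_le (A := AA m 1) (fun g hg => mem_CC.2 ⟨trivial,
    comm_iff.2 (by have := hg.2; simp [x, hg.1] at this ⊢; exact this.symm),
    comm_iff.2 (by simp [y, hg.1])⟩) AA_elem).2 card_AA1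
  refine h.rank.2 ?_ A le_top hA
  rw [s, s2, sg_neg hx, sg_neg hy]
  ring

/-- For every n ≥ 1 there exist finite extraspecial 2-groups of order 2^(2n+1) whose 2-rank (the largest rank of an elementary abelian subgroup) is n, and ones whose 2-rank is n + 1 (so for each such order there are two non-isomorphic extraspecial 2-groups, told apart by their 2-rank). -/
theorem result (n : ℕ) (hn : 1 ≤ n) : ∀ r ∈ ({n, n + 1} : Set ℕ), ∃ (E : Type) (_ : Group E) (_ : Finite E), Cfsg.IsExtraspecial 2 E ∧ Nat.card E = 2 ^ (2 * n + 1) ∧ sSup {k : ℕ | ∃ A : Subgroup E, Cfsg.IsElementaryAbelian 2 A ∧ Nat.card A = 2 ^ k} = r := by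
  obtain ⟨m, rfl⟩ := Nat.exists_eq_add_of_le' hn
  have ex : ∀ ε, Cfsg.IsExtraspecial 2 (EG m ε) ∧ Nat.card (EG m ε) = 2 ^ (2 * (m + 1) + 1) := fun ε =>
    ⟨L.isExtraspecial_top_iff.1 ((xp m ε).toWS.extra (xp m ε).nd (xp m ε).ne_zp), (xp m ε).cd'⟩
  rintro r (rfl | rfl)
  · refine ⟨EG m 1, inferInstance, inferInstance, (ex 1).1, (ex 1).2, IsGreatest.csSup_eq
      ⟨⟨AA m 1, AA_elem, card_AA1⟩, ?_⟩⟩
    rintro k ⟨A, hA, e⟩
    have := minus A hA
    rwa [e, Nat.pow_le_pow_iff_right one_lt_two] at this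
  · refine ⟨EG m 0, inferInstance, inferInstance, (ex 0).1, (ex 0).2, IsGreatest.csSup_eq
      ⟨⟨AA m 0, AA_elem, card_AA0⟩, ?_⟩⟩
    rintro k ⟨A, hA, e⟩
    have := ((xp m 0).elem_le le_top hA).1
    rwa [e, Nat.pow_le_pow_iff_right one_lt_two] at this

end Cfsg.Agent.S5396
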