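import Cfsg.Statements.S5401
import Cfsg.Agent.H7.T.B8_3

set_option autoImplicit false
open Cfsg

namespace Cfsg.Agent.S5401

open H7 H7.T
universe u
theorem typ22 {G : Type u} [Group G] (F : FM P22 G) : Cfsg.IsOfTypeM22 G F.D := by
  obtain ⟨K, _, _, h, ⟨e⟩⟩ := psuU FU
  have hd := F.e_mem (q := (0, [])) (by decide +kernel)
  have hc := (F.S_ncm (q := (0, [])) (by decide +kernel) _).le (F.inq_spec (m := P22.ncm P22.all (0, [])) (qs := [(1, [])])
    (by decide +kernel) _ List.mem_cons_self).2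
  rw [F.S_all] at hc
  obtain ⟨τ, c⟩ := (loc22 F FU _ hd).cc
  exact ⟨F.center_eq, _, hd, _, hc.1, hc.2, ⟨K, _, _, h, ⟨(c.quot FU.closure_D FU.center_eq).choose.trans e⟩⟩, 1, by decide,
    proj_congr (kq22 F hd hc.1 hc.2).some.symm (proj6 F)⟩

theorem typ23 {G : Type u} [Group G] (F : FM P23 G) : Cfsg.IsOfTypeM23 G F.D := by
  have hd := F.e_mem (q := (0, [])) (by decide +kernel)
  have hc := (F.S_ncm (q := (0, [])) (by decide +kernel) _).le (F.inq_spec (m := P23.ncm P23.all (0, [])) (qs := [(1, [])])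
    (by decide +kernel) _ List.mem_cons_self).2
  rw [F.S_all] at hc
  obtain ⟨U, hU⟩ := F22.of_loc (loc23 F F22 _ hd).cc
  exact ⟨F.center_eq, _, hd, _, hc.1, hc.2, (hU ▸ typ22 U : Cfsg.IsOfTypeM22 _ (Im _)), 1, by decide,
    proj_congr (kq23 F hd hc.1 hc.2).some.symm (proj7 (sub_7 F).choose)⟩

theorem typ24 {G : Type u} [Group G] (F : FM P24 G) : Cfsg.IsOfTypeM24 G F.D := by
  have hd := F.e_mem (q := (0, [])) (by decide +kernel)
  have hc := (F.S_ncm (q := (0, [])) (by decide +kernel) _).le (F.inq_spec (m := P24.ncm P24.all (0, [])) (qs := [(1, [])])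
    (by decide +kernel) _ List.mem_cons_self).2
  rw [F.S_all] at hc
  obtain ⟨U, hU⟩ := F23.of_loc (loc24 F F23 _ hd).cc
  obtain ⟨φ, h1, h2, -⟩ := o8 (sub_8 F).choose
  exact ⟨F.center_eq, _, hd, _, hc.1, hc.2, (hU ▸ typ23 U : Cfsg.IsOfTypeM23 _ (Im _)),
    quot_transfer (kq24 F hd hc.1 hc.2).some.symm h2 ⟨QuotientGroup.quotientKerEquivOfSurjective φ h1⟩⟩

theorem prim {G : Type u} [Group G] {P : FD} (F : FM P G) (tr : Tr2 (F.S P.all)) (s : Sep (F.S P.all)) (h : 1 < P.n) :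
    Cfsg.IsPrimitiveUnderConj F.D :=
  prim_of F.t3 (F.S_all ▸ tr) (F.S_all ▸ s) ⟨_, F.el_mem (zero_lt_one.trans h), _, F.el_mem h, fun e =>
    zero_ne_one (F.inj _ _ (zero_lt_one.trans h) h e)⟩

/-- Existence of the Fischer 3-transposition groups: there exist finite groups generated by a conjugacy class of 3-transpositions on which they act primitively that are of type M(22), of type M(23), and of type M(24) respectively. -/
theorem result : (∃ (X : Type) (_ : Group X) (_ : Finite X) (E : Set X), Cfsg.IsThreeTranspositionClass E ∧ Cfsg.IsPrimitiveUnderConj E ∧ Cfsg.IsOfTypeM22 X E) ∧ (∃ (X : Type) (_ : Group X) (_ : Finite X) (E : Set X), Cfsg.IsThreeTranspositionClass E ∧ Cfsg.IsPrimitiveUnderConj E ∧ Cfsg.IsOfTypeM23 X E) ∧ (∃ (X : Type) (_ : Group X) (_ : Finite X) (E : Set X), Cfsg.IsThreeTranspositionClass E ∧ Cfsg.IsPrimitiveUnderConj E ∧ Cfsg.IsOfTypeM24 X E) := by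
  exact ⟨⟨_, _, F22.fin, _, F22.isCls (trD22 _) (by decide), prim F22 (trD22 _) (sepD22 _) (by decide), typ22 _⟩,
    ⟨_, _, F23.fin, _, F23.isCls (trD23 _) (by decide), prim F23 (trD23 _) (sepD23 _) (by decide), typ23 _⟩,
    _, _, F24.fin, _, F24.isCls (trD24 _) (by decide), prim F24 (trD24 _) (sepD24 _) (by decide), typ24 _⟩

end Cfsg.Agent.S5401
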