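import Cfsg.Statements.S5408
import Cfsg.Agent.H2.Mon2

set_option autoImplicit false
open Cfsg

namespace Cfsg.Agent.S5408

/-- Let G be a finite group of Monster type at the involution z with Q the extraspecial normal subgroup of order 2^25 of C = C_G(z) (so C/Q is identified with the first Conway group with Q modulo its centre the Leech lattice modulo 2, and z is not weakly closed in Q). Then Q is of plus type: it contains an elementary abelian subgroup of order 2^13. -/
theorem result {G : Type*} [Group G] [Finite G] (z : G) (Q : Subgroup (Subgroup.centralizer ({z} : Set G))) [Q.Normal] (hM : Cfsg.IsOfMonsterType z Q) : ∃ E : Subgroup Q, Cfsg.IsElementaryAbelian 2 E ∧ Nat.card E = 2 ^ 13 := by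
  obtain ⟨hS, e, ψ, hψ⟩ := hM
  have M := H2.mon_of hS hψ
  obtain ⟨g, h1, h2⟩ := M.ex
  obtain ⟨R, π, M', a⟩ := M.norm h1 h2
  have c := (M'.main a).2.2
  obtain ⟨e1, e2⟩ := M.elem h2
  let f : Q →* G := (Subgroup.centralizer ({z} : Set G)).subtype.comp Q.subtype
  have hf : Function.Injective f := fun a b h => Subtype.ext (Subtype.ext h)
  refine ⟨(Q.map (Subgroup.subtype _) ⊓ H9.cj g (Q.map (Subgroup.subtype _))).comap f, ⟨⟨⟨fun a b => Subtype.ext (hf ?_)⟩⟩, fun a ha => hf ?_⟩, ?_⟩
  · have := congrArg Subtype.val (e1.is_comm.comm ⟨_, a.2⟩ ⟨_, b.2⟩)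
    exact this
  · rw [map_pow, e2 _ ha, map_one]
  · rw [← Subgroup.card_map_of_injective hf, Subgroup.map_comap_eq_self, c]
    rintro _ ⟨⟨y, hy, rfl⟩, -⟩
    exact ⟨⟨y, hy⟩, rfl⟩

end Cfsg.Agent.S5408
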