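import Cfsg.Statements.S5420
import Cfsg.Agent.H2.XS2

set_option autoImplicit false
open Cfsg

namespace Cfsg.Agent.S5420

open H2 H9 Subgroup in

/-- Let Q be an extraspecial 2-subgroup of the finite group G whose centralizer in G is its centre Z and which is normal in the centralizer of Z. If Z lies in the largest normal 2-subgroup of G, then Q is a large extraspecial 2-subgroup of G: it normalizes no non-trivial subgroup of G of odd order. -/
theorem result {G : Type*} [Group G] [Finite G] (Q : Subgroup G) (hL1 : Cfsg.IsExtraspecial 2 ↥Q) (hL2 : Subgroup.centralizer (Q : Set G) = ((Subgroup.center ↥Q).map Q.subtype)) (hL3 : Subgroup.centralizer (((Subgroup.center ↥Q).map Q.subtype) : Set G) ≤ Subgroup.normalizer (Q : Set G)) (hZ : ((Subgroup.center ↥Q).map Q.subtype) ≤ Cfsg.pCore 2 G) : Cfsg.IsLargeExtraspecial Q := by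
  haveI := Fact.mk Nat.prime_two
  obtain ⟨z, h⟩ := lx_of' hL1 hL2 hL3
  rw [h.center', zpowers_le] at hZ
  refine h.large fun K hK hn => eq_bot_iff.2 fun k hk => (h.odd_cent hK hn).le ⟨hk, mem_centralizer_singleton_iff.2 ?_⟩
  refine mul_inv_eq_iff_eq_mul.1 (mul_inv_eq_one.1 (mem_bot.1 ((inf_eq_bot_of_p_p' (pCore_p 2)
    (Nat.coprime_two_right.2 hK)).le ⟨Subgroup.mul_mem _ (conj_mem_of_le_normalizer
      (Op_top (G := G) 2 ▸ le_normalizer_Op 2 ⊤) (mem_top k) hZ) (Subgroup.inv_mem _ hZ), ?_⟩)))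
  rw [mul_assoc, mul_assoc, ← mul_assoc z]
  exact K.mul_mem hk (conj_mem_of_le_normalizer hn h.zQ (K.inv_mem hk))

end Cfsg.Agent.S5420
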