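import Cfsg.Statements.S5423
import Cfsg.Agent.H2.Parab
import Cfsg.Agent.S5420

set_option autoImplicit false
open Cfsg

namespace Cfsg.Agent.S5423

open Subgroup Matrix H2.Parab

theorem coord {U : Type*} [Group U] [Finite U] (hU : IsMulCommutative U) (h2 : ∀ u : U, u ^ 2 = 1) {n : ℕ}
    (hc : Nat.card U = 2 ^ (n + 1)) {z : U} (hz : z ≠ 1) :
    ∃ e : Multiplicative (ZMod 2 × (Fin n → ZMod 2)) ≃* U, e (Multiplicative.ofAdd (1, 0)) = z := by
  haveI := Fact.mk Nat.prime_two
  letI : CommGroup U := { (inferInstance : Group U) with mul_comm := hU.is_comm.comm }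
  letI : Module (ZMod 2) (Additive U) := AddCommGroup.zmodModule (n := 2) fun x => h2 x.toMul
  have hr : Module.finrank (ZMod 2) (Additive U) = n + 1 := by
    have := Module.natCard_eq_pow_finrank (K := ZMod 2) (V := Additive U)
    rw [Nat.card_congr Additive.toMul, hc, Nat.card_zmod] at this
    exact (Nat.pow_right_injective le_rfl this).symm
  have z0 : Additive.ofMul z ≠ 0 := hz
  obtain ⟨W, hW⟩ := Submodule.exists_isCompl ((ZMod 2) ∙ Additive.ofMul z)
  have hW' : Module.finrank (ZMod 2) W = n := by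
    have := Submodule.finrank_add_eq_of_isCompl hW
    rw [finrank_span_singleton z0, hr] at this
    omega
  let f : (ZMod 2 × (Fin n → ZMod 2)) ≃ₗ[ZMod 2] Additive U :=
    ((LinearEquiv.toSpanNonzeroSingleton (ZMod 2) _ _ z0).prodCongr
      (LinearEquiv.ofFinrankEq _ _ (by simp [hW']))).trans (Submodule.prodEquivOfIsCompl _ _ hW)
  refine ⟨AddEquiv.toMultiplicativeLeft f.toAddEquiv, ?_⟩
  show Additive.toMul (f (1, 0)) = z
  simp [f]

def aff {n : ℕ} (a : Fin n → ZMod 2) (M : GL (Fin n) (ZMod 2)) :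
    (ZMod 2 × (Fin n → ZMod 2)) ≃+ (ZMod 2 × (Fin n → ZMod 2)) where
  toFun v := (v.1 + a ⬝ᵥ v.2, M.1 *ᵥ v.2)
  invFun v := (v.1 - a ⬝ᵥ ((M⁻¹).1 *ᵥ v.2), (M⁻¹).1 *ᵥ v.2)
  left_inv v := by simp only [mulVec_mulVec, ← Units.val_mul]; simp
  right_inv v := by simp only [mulVec_mulVec, ← Units.val_mul]; simp
  map_add' v w := Prod.ext (by simp [add_add_add_comm]) (by simp [mulVec_add])

/-- Let G be a finite group that is the split extension of an elementary abelian normal subgroup U of order 2^(n+1), n ≥ 1, by its full automorphism group: U has a complement M in G whose conjugation action on U is faithful and realizes every automorphism of U. Let Z be a subgroup of U of order 2 and Q the largest normal 2-subgroup of the centralizer C of Z. Then Q is extraspecial of order 2^(2n+1) with an elementary abelian subgroup of order 2^(n+1) (plus type), Q is a large extraspecial 2-subgroup of G, and C is the split extension of Q by the general linear group of degree n over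 the field with two elements. -/
theorem result {G : Type*} [Group G] [Finite G] (n : ℕ) (hn : 1 ≤ n) (U M : Subgroup G) [U.Normal] (hU : Cfsg.IsElementaryAbelian 2 U) (hUcard : Nat.card ↥U = 2 ^ (n + 1)) (hUM : U ⊓ M = ⊥) (hUM' : U ⊔ M = ⊤) (hfaith : ∀ m ∈ M, (∀ u ∈ U, m * u * m⁻¹ = u) → m = 1) (hfull : ∀ φ : ↥U ≃* ↥U, ∃ m ∈ M, ∀ u : ↥U, ((φ u : ↥U) : G) = m * u * m⁻¹) (Z : Subgroup G) (hZU : Z ≤ U) (hZ : Nat.card ↥Z = 2) (Q : Subgroup G) (hQ : Q = (Cfsg.pCore 2 ↥(Subgroup.centralizer (Z : Set G))).map (Subgroup.centralizer (Z : Set G)).subtype) : Cfsg.IsExtraspecial 2 ↥Q ∧ Nat.card ↥Q = 2 ^ (2 * n + 1) ∧ (∃ E : Subgroup G, E ≤ Q ∧ Cfsg.IsElementaryAbelian 2 E ∧ Nat.card ↥E = 2 ^ (n + 1)) ∧ Cfsg.IsLargeExtraspecial Q ∧ ∃ K : Subgroup G, K ≤ Subgroup.centralizer (Z : Set G) ∧ Q ⊓ K = ⊥ ∧ Q ⊔ K = Subgroup.centralizer (Z : Set G) ∧ Nonempty (↥K ≃* Matrix.GeneralLinearGroup (Fin n) (ZMod 2)) := by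
  haveI := Fact.mk Nat.prime_two
  obtain ⟨z, hz1, rfl⟩ : ∃ z : G, z ≠ 1 ∧ Z = zpowers z := by
    haveI := isCyclic_of_prime_card hZ
    obtain ⟨z, hz⟩ := (Subgroup.isCyclic_iff_exists_zpowers_eq_top Z).1 inferInstance
    refine ⟨z, ?_, hz.symm⟩
    rintro rfl
    simp [← hz] at hZ
  have zU : z ∈ U := hZU (mem_zpowers z)
  obtain ⟨e, he⟩ := coord hU.1 (fun u => Subtype.ext (hU.2 u u.2)) hUcard (z := ⟨z, zU⟩)
    fun k => hz1 (congrArg Subtype.val k)
  obtain ⟨u, hu⟩ : ∃ u : ZMod 2 × (Fin n → ZMod 2) → G, ∀ v, u v = e (Multiplicative.ofAdd v) := ⟨_, fun _ => rfl⟩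
  have uU : ∀ v, u v ∈ U := fun v => hu v ▸ (e _).2
  have ua : ∀ v w, u (v + w) = u v * u w := fun v w => by rw [hu, hu, hu, ofAdd_add, map_mul]; rfl
  have ui : Function.Injective u := fun v w k => by
    rw [hu, hu] at k
    exact e.injective (Subtype.ext k)
  have us : ∀ x ∈ U, ∃ v, x = u v := fun x hx => ⟨(e.symm ⟨x, hx⟩).toAdd, by simp [hu]⟩
  have uz : u (1, 0) = z := by rw [hu, he]
  have u0 : u 0 = 1 := by simp [hu]
  have uq : ∀ m ∈ M, ∀ m' ∈ M, (∀ v, m * u v * m⁻¹ = m' * u v * m'⁻¹) → m = m' := fun m hm m' hm' k => by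
    have := hfaith _ (M.mul_mem (M.inv_mem hm') hm) fun x hx => by
      obtain ⟨v, rfl⟩ := us x hx
      calc m'⁻¹ * m * u v * (m'⁻¹ * m)⁻¹ = m'⁻¹ * (m * u v * m⁻¹) * m' := by group
        _ = _ := by rw [k]; group
    exact (inv_mul_eq_one.1 this).symm
  have : ∀ a N, ∃ m ∈ M, ∀ v, m * u v * m⁻¹ = u (aff a N v) := fun a N => by
    obtain ⟨m, hm, k⟩ := hfull (e.symm.trans ((AddEquiv.toMultiplicative (aff a N)).trans e))
    refine ⟨m, hm, fun v => ?_⟩
    rw [hu, hu, ← k]
    simp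
  choose mm hM hm using this
  have mul : ∀ a N a' N', mm a N * mm a' N' = mm (a' + a ᵥ* N'.1) (N * N') := fun a N a' N' =>
    uq _ (M.mul_mem (hM _ _) (hM _ _)) _ (hM _ _) fun v => by
      calc _ = mm a N * (mm a' N' * u v * (mm a' N')⁻¹) * (mm a N)⁻¹ := by group
        _ = _ := by
          rw [hm, hm, hm]
          congr 1
          exact Prod.ext (by simp [aff, dotProduct_mulVec, add_assoc]) (by simp [aff])
  have m1 : mm 0 1 = 1 := uq _ (hM _ _) _ M.one_mem fun v => by rw [hm]; simp [aff]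
  obtain ⟨h, h1, h2, -, h3⟩ := parab hn (fun a b c N => u (c, b) * mm a N)
    (fun a b c N a' b' c' N' => by
      calc _ = u (c, b) * (mm a N * u (c', b') * (mm a N)⁻¹) * (mm a N * mm a' N') := by group
        _ = _ := by rw [hm, ← ua, mul]; simp [aff, add_assoc])
    (fun a b c N a' b' c' N' k => by
      have k1 : (u (c', b'))⁻¹ * u (c, b) = mm a' N' * (mm a N)⁻¹ := by
        calc _ = (u (c', b'))⁻¹ * (u (c, b) * mm a N) * (mm a N)⁻¹ := by group
          _ = _ := by rw [show u (c, b) * mm a N = u (c', b') * mm a' N' from k]; group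
      have k2 : (u (c', b'))⁻¹ * u (c, b) = 1 := mem_bot.1 (hUM.le
        ⟨U.mul_mem (U.inv_mem (uU _)) (uU _), k1 ▸ M.mul_mem (hM _ _) (M.inv_mem (hM _ _))⟩)
      have k3 := ui (inv_mul_eq_one.1 k2)
      have k4 : ∀ v, aff a' N' v = aff a N v := fun v => ui (by
        rw [← hm, ← hm, mul_inv_eq_one.1 (k1.symm.trans k2)])
      refine ⟨funext fun i => ?_, (congrArg Prod.snd k3).symm, (congrArg Prod.fst k3).symm,
        Units.ext (Matrix.ext_of_mulVec_single fun i => (congrArg Prod.snd (k4 (0, Pi.single i 1))).symm)⟩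
      simpa [aff] using (congrArg Prod.fst (k4 (0, Pi.single i 1))).symm)
    (z := z) (by simp [uz, m1])
    (fun g hg => by
      obtain ⟨x, hx, m, hm', rfl⟩ := (mem_sup_of_normal_left).1 (hUM'.ge (mem_top g))
      obtain ⟨⟨c, b⟩, rfl⟩ := us x hx
      have mz : m * z * m⁻¹ = z := by
        have : z * u (c, b) = u (c, b) * z := by rw [← uz, ← ua, ← ua, add_comm]
        rw [← mul_assoc, this, mul_assoc, mul_assoc] at hg
        rw [mul_left_cancel hg]; group
      choose ψ hψ using fun v => us _ ((inferInstance : U.Normal).conj_mem _ (uU v) m)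
      let f : ZMod 2 × (Fin n → ZMod 2) →+ ZMod 2 × (Fin n → ZMod 2) := AddMonoidHom.mk' ψ fun v w => ui (by
        rw [ua, ← hψ, ← hψ, ← hψ, ua]; group)
      let F := f.toZModLinearMap 2
      have F1 : F (1, 0) = (1, 0) := ui ((hψ _).symm.trans (by rw [uz, mz]))
      have Fi : Function.Injective F := fun v w k => ui (by
        have : m * u v * m⁻¹ = m * u w * m⁻¹ := by rw [hψ, hψ]; exact congrArg u k
        simpa using this)
      let A := LinearMap.toMatrix' (LinearMap.snd _ _ _ ∘ₗ F ∘ₗ LinearMap.inr _ _ _)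
      have hA : ∀ b, A *ᵥ b = (F (0, b)).2 := fun b => LinearMap.toMatrix'_mulVec _ _
      have Fc : ∀ c : ZMod 2, F (c, 0) = (c, 0) := fun c => by
        have := F.map_smul c (1, 0)
        simpa [F1] using this
      have Au : IsUnit A := Matrix.mulVec_injective_iff_isUnit.1 (by
        refine (injective_iff_map_eq_zero (Matrix.mulVecLin A)).2 fun b hb => ?_
        have : F (0, b) = F ((F (0, b)).1, 0) := by
          rw [Fc]; exact Prod.ext rfl ((hA b).symm.trans hb)
        exact congrArg Prod.snd (Fi this))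
      refine ⟨fun i => (F (0, Pi.single i 1)).1, b, c, Au.unit, congrArg _ (uq _ hm' _ (hM _ _) fun v => ?_)⟩
      rw [hψ, hm]
      congr 1
      have : F v = F (v.1, 0) + F (0, v.2) := by rw [← map_add]; simp
      show F v = _
      rw [this, Fc]
      refine Prod.ext ?_ (by simp [aff, hA])
      have k := (LinearMap.fst _ _ _ ∘ₗ F ∘ₗ LinearMap.inr _ _ _).pi_apply_eq_sum_univ v.2
      simp only [LinearMap.comp_apply, LinearMap.inr_apply, LinearMap.fst_apply, smul_eq_mul] at k
      simp only [aff, AddEquiv.coe_mk, Equiv.coe_fn_mk, Prod.fst_add, k, dotProduct]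
      congr 1
      refine Finset.sum_congr rfl fun i _ => ?_
      rw [mul_comm]
      congr 4
      ext j
      simp [Pi.single_apply, eq_comm])
    (H9.centralizer_zpowers z) hQ
  have L := h.large
  refine ⟨h.toXS.isExtra, h1, h2, Cfsg.Agent.S5420.result Q h.toXS.isExtra
    (h.centralizer_eq.trans h.center'.symm) ?_ ?_, h3⟩
  · rw [h.center', H9.centralizer_zpowers, h.normalizer_eq]
  · rw [h.center']
    exact hZU.trans (H1.le_pCore (IsPGroup.of_card hUcard))

end Cfsg.Agent.S5423
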