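import Cfsg.Statements.S5424
import Cfsg.Agent.H2.Parab

set_option autoImplicit false
open Cfsg

namespace Cfsg.Agent.S5424

open Subgroup Matrix H2.Parab

def mk {n : ℕ} (a b : Fin n → ZMod 2) (c : ZMod 2) (M : Matrix (Fin n) (Fin n) (ZMod 2)) :
    Matrix (Fin (n + 2)) (Fin (n + 2)) (ZMod 2) :=
  Matrix.of (Fin.cons (Fin.cons 1 (Fin.cons c a)) (Fin.cons (Fin.cons 0 (Fin.cons 1 0))
    fun i => Fin.cons 0 (Fin.cons (b i) (M i))))

theorem ext3 {n : ℕ} {P : Fin (n + 2) → Prop} (h0 : P 0) (h1 : P (Fin.succ 0))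
    (h2 : ∀ i : Fin n, P i.succ.succ) : ∀ i, P i :=
  Fin.cases h0 (Fin.cases h1 h2)

theorem mk_mul {n : ℕ} (a b : Fin n → ZMod 2) (c : ZMod 2) (M) (a' b' : Fin n → ZMod 2) (c' : ZMod 2) (M') :
    mk a b c M * mk a' b' c' M' = mk (a' + a ᵥ* M') (b + M *ᵥ b') (c + c' + a ⬝ᵥ b') (M * M') := by
  ext i j
  induction i using ext3 <;> induction j using ext3 <;>
    simp only [mk, mul_apply, Fin.sum_univ_succ, of_apply, Fin.cons_zero, Fin.cons_succ, Pi.zero_apply,
      Pi.add_apply, vecMul, mulVec, dotProduct] <;> simp [add_comm, add_left_comm, add_assoc]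

theorem mk_one {n : ℕ} : mk (0 : Fin n → ZMod 2) 0 0 1 = 1 := by
  ext i j
  induction i using ext3 <;> induction j using ext3 <;>
    simp only [mk, of_apply, Fin.cons_zero, Fin.cons_succ, Pi.zero_apply, one_apply, Fin.succ_inj] <;>
    simp [(Fin.succ_ne_zero _).symm]

theorem mk_z {n : ℕ} (a : Fin n → ZMod 2) :
    mk a 0 1 1 = 1 + single 0 (Fin.succ 0) 1 + ∑ k, single 0 k.succ.succ (a k) := by
  ext i j
  induction i using ext3 <;> induction j using ext3 <;>
    simp only [mk, of_apply, Fin.cons_zero, Fin.cons_succ, Pi.zero_apply, one_apply, Fin.succ_inj, Matrix.add_apply,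
      Matrix.sum_apply, single_apply, (Fin.succ_ne_zero _).symm, Fin.succ_ne_zero] <;> simp

theorem mk_unit {n : ℕ} (a b : Fin n → ZMod 2) (c : ZMod 2) (M : GL (Fin n) (ZMod 2)) : IsUnit (mk a b c M.1) := by
  refine IsUnit.of_mul_eq_one (mk (-(a ᵥ* (M⁻¹).1)) (-((M⁻¹).1 *ᵥ b)) (-c + a ⬝ᵥ ((M⁻¹).1 *ᵥ b)) (M⁻¹).1) ?_
  rw [mk_mul, mulVec_neg, mulVec_mulVec, ← Units.val_mul, ← mk_one, dotProduct_neg]
  congr 1
  · simp
  · simp
  · ring
  · simp

/-- Let G be the special linear group of degree n + 2 over the field with two elements, n ≥ 2, let z be a transvection, and let Q be the largest normal 2-subgroup of the centralizer C of z. Then Q is extraspecial of order 2^(2n+1) with an elementary abelian subgroup of order 2^(n+1) (plus type), Q is a large extraspecial 2-subgroup of G, and C is the split extension of Q by the special linear group of degree n over the field with two elements. -/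
theorem result (n : ℕ) (hn : 2 ≤ n) (z : Matrix.SpecialLinearGroup (Fin (n + 2)) (ZMod 2)) (hz : (z : Matrix (Fin (n + 2)) (Fin (n + 2)) (ZMod 2)) = Matrix.transvection 0 1 1) (Q : Subgroup (Matrix.SpecialLinearGroup (Fin (n + 2)) (ZMod 2))) (hQ : Q = (Cfsg.pCore 2 ↥(Subgroup.centralizer ({z} : Set (Matrix.SpecialLinearGroup (Fin (n + 2)) (ZMod 2))))).map (Subgroup.centralizer ({z} : Set (Matrix.SpecialLinearGroup (Fin (n + 2)) (ZMod 2)))).subtype) : Cfsg.IsExtraspecial 2 ↥Q ∧ Nat.card ↥Q = 2 ^ (2 * n + 1) ∧ (∃ E : Subgroup (Matrix.SpecialLinearGroup (Fin (n + 2)) (ZMod 2)), E ≤ Q ∧ Cfsg.IsElementaryAbelian 2 E ∧ Nat.card ↥E = 2 ^ (n + 1)) ∧ Cfsg.IsLargeExtraspecial Q ∧ ∃ K : Subgroup (Matrix.SpecialLinearGroup (Fin (n + 2)) (ZMod 2)), K ≤ Subgroup.centralizer ({z} : Set (Matrix.SpecialLinearGroup (Fin (n + 2)) (ZMod 2))) ∧ Q ⊓ K = ⊥ ∧ Q ⊔ K = Subgroup.centralizer ({z} : Set (Matrix.SpecialLinearGroup (Fin (n + 2)) (ZMod 2))) ∧ Nonempty (↥K ≃* Matrix.SpecialLinearGroup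 (Fin n) (ZMod 2)) := by
  have zz : (z : Matrix (Fin (n + 2)) (Fin (n + 2)) (ZMod 2)) = 1 + single 0 (Fin.succ 0) 1 := hz
  have form : ∀ g : SpecialLinearGroup (Fin (n + 2)) (ZMod 2), g * z = z * g → ∃ a b c M, g.1 = mk a b c M := by
    intro g h
    have h' : g.1 * single 0 (Fin.succ 0) 1 = single 0 (Fin.succ 0) (1 : ZMod 2) * g.1 := by
      have : g.1 * z.1 = z.1 * g.1 := congrArg Subtype.val h
      rw [zz, mul_add, add_mul, mul_one, one_mul] at this
      exact add_left_cancel this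
    have c0 : ∀ i, i ≠ 0 → g.1 i 0 = 0 := fun i hi => by
      have := congrFun (congrFun h' i) (Fin.succ 0)
      rwa [mul_single_apply_same, single_mul_apply_of_ne _ _ _ _ _ hi, mul_one] at this
    have r1 : ∀ j, j ≠ Fin.succ 0 → g.1 (Fin.succ 0) j = 0 := fun j hj => by
      have := congrFun (congrFun h' 0) j
      rw [single_mul_apply_same, mul_single_apply_of_ne _ _ _ _ _ hj, one_mul] at this
      exact this.symm
    have d : g.1 0 0 = g.1 (Fin.succ 0) (Fin.succ 0) := by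
      have := congrFun (congrFun h' 0) (Fin.succ 0)
      rwa [mul_single_apply_same, single_mul_apply_same, mul_one, one_mul] at this
    have d0 : g.1 0 0 = 1 := one2 _ fun e => by
      have := det_eq_zero_of_column_eq_zero (A := g.1) 0 fun i => by
        by_cases k : i = 0
        · rw [k, e]
        · exact c0 i k
      exact zero_ne_one (this.symm.trans g.2)
    refine ⟨fun j => g.1 0 j.succ.succ, fun i => g.1 i.succ.succ (Fin.succ 0), g.1 0 (Fin.succ 0),
      of fun i j => g.1 i.succ.succ j.succ.succ, ?_⟩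
    ext i j
    induction i using ext3 <;> induction j using ext3 <;>
      simp only [mk, of_apply, Fin.cons_zero, Fin.cons_succ, Pi.zero_apply]
    · exact d0
    · exact c0 _ (Fin.succ_ne_zero _)
    · exact d.symm.trans d0
    · exact r1 _ fun e => Fin.succ_ne_zero _ (Fin.succ_inj.1 e)
    · exact c0 _ (Fin.succ_ne_zero _)
  have inj : ∀ (a b : Fin n → ZMod 2) c M a' b' c' M', mk a b c M = mk a' b' c' M' →
      a = a' ∧ b = b' ∧ c = c' ∧ M = M' := fun a b c M a' b' c' M' e =>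
    ⟨funext fun j => congrFun (congrFun e 0) j.succ.succ,
      funext fun i => congrFun (congrFun e i.succ.succ) (Fin.succ 0), congrFun (congrFun e 0) (Fin.succ 0),
      Matrix.ext fun i j => congrFun (congrFun e i.succ.succ) j.succ.succ⟩
  obtain ⟨h, h1, h2, h3, K, k1, k2, k3, ⟨k4⟩⟩ := parab (G := SpecialLinearGroup (Fin (n + 2)) (ZMod 2)) (by omega)
    (fun a b c M => (⟨mk a b c M.1, det_one (mk_unit a b c M)⟩ : SpecialLinearGroup (Fin (n + 2)) (ZMod 2)))
    (fun a b c M a' b' c' M' => Subtype.ext (mk_mul ..))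
    (fun a b c M a' b' c' M' e => by
      have := inj _ _ _ _ _ _ _ _ (congrArg Subtype.val e)
      exact ⟨this.1, this.2.1, this.2.2.1, Units.ext this.2.2.2⟩)
    (z := z) (Subtype.ext (by rw [zz]; simp [mk_z]))
    (fun g hg => by
      obtain ⟨a, b, c, M, e⟩ := form g hg
      obtain ⟨a', b', c', M', e'⟩ := form g⁻¹ (H2.comm_inv_iff.2 hg)
      have : mk a b c M * mk a' b' c' M' = mk 0 0 0 1 := by
        rw [← e, ← e', mk_one]; exact congrArg Subtype.val (mul_inv_cancel g)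
      rw [mk_mul] at this
      have := (inj _ _ _ _ _ _ _ _ this).2.2.2
      exact ⟨a, b, c, ⟨M, M', this, mul_eq_one_comm.1 this⟩, Subtype.ext e⟩) rfl hQ
  refine ⟨h.toXS.isExtra, h1, h2, ?_, K, k1, k2, k3, ⟨k4.trans (gl_sl n).some⟩⟩
  obtain ⟨m, rfl⟩ : ∃ m, n = m + 1 := ⟨n - 1, by omega⟩
  have ne : (Fin.succ 0 : Fin (m + 1 + 2)) ≠ (0 : Fin (m + 1)).succ.succ :=
    fun e => (Fin.succ_ne_zero _).symm (Fin.succ_inj.1 e)
  let t : SpecialLinearGroup (Fin (m + 1 + 2)) (ZMod 2) :=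
    ⟨transvection (Fin.succ 0) (0 : Fin (m + 1)).succ.succ 1, det_transvection_of_ne _ _ ne _⟩
  have y := h3 (Pi.single 0 1) 0 1
  have e : t⁻¹ * z * t⁻¹⁻¹ = ⟨mk (Pi.single 0 1) 0 1 (1 : GL (Fin (m + 1)) (ZMod 2)).1, det_one (mk_unit _ _ _ _)⟩ := by
    rw [inv_inv, mul_assoc]
    refine inv_mul_eq_iff_eq_mul.2 (Subtype.ext ?_)
    show z.1 * transvection _ _ _ = transvection _ _ _ * mk _ _ _ 1
    rw [zz, mk_z, Finset.sum_eq_single 0 (fun k _ hk => by simp [hk]) (by simp), Pi.single_eq_same, transvection]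
    simp only [mul_add, add_mul, mul_one, one_mul, single_mul_single_same,
      single_mul_single_of_ne _ _ _ _ (Fin.succ_ne_zero _)]
    abel
  refine h.large_of_conj (g := t⁻¹) (e ▸ y) ?_
  rw [e]
  intro k
  have := congrFun (congrFun ((congrArg Subtype.val k).trans zz) 0) (0 : Fin (m + 1)).succ.succ
  simp only [mk, of_apply, Fin.cons_zero, Fin.cons_succ, Matrix.add_apply, single_apply, one_apply, ne,
    (Fin.succ_ne_zero _).symm] at this
  simp at this

end Cfsg.Agent.S5424
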