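import Cfsg.Statements.S5425
import Cfsg.Agent.H8.GH
import Cfsg.Agent.S0249
import Cfsg.Agent.S0243
-- import your own Cfsg.Agent.* helpers here

set_option autoImplicit false
set_option maxRecDepth 200000
open Cfsg

namespace Cfsg.Agent.S5425

/-- In the Mathieu group of degree 24 (the automorphism group of the length-24 binary Golay code, acting on the 24 coordinates), let z be an involution whose fixed points form an octad (the support of a code word of weight 8), and let Q be the largest normal 2-subgroup of the centralizer C of z. Then Q is extraspecial of order 2^7 with an elementary abelian subgroup of order 16 (plus type), Q is a large extraspecial 2-subgroup, and C is the split extension of Q by the special linear group of degree 3 over the field with two elements. -/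
theorem result (z : ↥Cfsg.M24) (hz : orderOf z = 2) (hfix : (Finset.univ.filter fun p : Cfsg.GolayPt => (z : Equiv.Perm Cfsg.GolayPt) p = p) ∈ Cfsg.octads) (Q : Subgroup ↥Cfsg.M24) (hQ : Q = (Cfsg.pCore 2 ↥(Subgroup.centralizer ({z} : Set ↥Cfsg.M24))).map (Subgroup.centralizer ({z} : Set ↥Cfsg.M24)).subtype) : Cfsg.IsExtraspecial 2 ↥Q ∧ Nat.card ↥Q = 2 ^ 7 ∧ (∃ E : Subgroup ↥Cfsg.M24, E ≤ Q ∧ Cfsg.IsElementaryAbelian 2 E ∧ Nat.card ↥E = 2 ^ 4) ∧ Cfsg.IsLargeExtraspecial Q ∧ ∃ K : Subgroup ↥Cfsg.M24, K ≤ Subgroup.centralizer ({z} : Set ↥Cfsg.M24) ∧ Q ⊓ K = ⊥ ∧ Q ⊔ K = Subgroup.centralizer ({z} : Set ↥Cfsg.M24) ∧ Nonempty (↥K ≃* Matrix.SpecialLinearGroup (Fin 3) (ZMod 2)) := by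
  obtain ⟨C, hC, r⟩ := H8.cls2a hz (H8.hasfix hfix.2)
  obtain ⟨φ, h1, X, h2, ⟨E, h3, h4⟩, ⟨g, h5, h6⟩, H, h7, ⟨e⟩⟩ := H8.GH.caa hC r
  have c := (H8.MG.sl32ch (H8.exm2 (ZMod.card 2)) (ZMod.card 2)).card.trans (show _ = 168 by decide +kernel)
  have c' := S0243.result (ZMod.card 2) 3 (by norm_num)
  simp only [Fin.prod_univ_succ, Fin.prod_univ_zero] at c'
  have := S0249.result (F := ZMod 2) 3 le_rfl
  have := (H8.iso_of_quot ⟨MulEquiv.refl (Matrix.ProjectiveSpecialLinearGroup (Fin 3) (ZMod 2))⟩ (by rw [c]; norm_num [-Nat.card_eq_fintype_card] at c'; exact c'.ge)).some.isSimpleGroup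
  rw [H8.pCore_eq_ker h1 (.of_card h2) (H8.simple_no_p (q := 3) Nat.prime_two (by norm_num) (by norm_num) (by rw [c]; norm_num))] at hQ
  subst hQ
  have i := (Subgroup.centralizer {z}).subtype_injective
  have k := H8.compl_map h7
  refine ⟨X.isExtra, (Subgroup.card_map_of_injective i).trans h2, ⟨(E.map φ.ker.subtype).map (Subgroup.centralizer {z}).subtype,
    Subgroup.map_mono (Subgroup.map_subtype_le _), H8.elemAb_two ?_, by
      rw [Subgroup.card_map_of_injective i, Subgroup.card_map_of_injective φ.ker.subtype_injective, h3]⟩,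
    X.large_of_conj h5 h6, _, k.1, k.2.1, k.2.2, ⟨(H.equivMapOfInjective _ i).symm.trans e⟩⟩
  rintro ⟨_, _, ⟨y, hy, rfl⟩, rfl⟩
  exact Subtype.ext (congrArg (·.1.1.1) (h4 ⟨y, hy⟩))

end Cfsg.Agent.S5425
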