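import Cfsg.Statements.S5426
import Cfsg.Agent.H2.XS3
import Cfsg.Agent.H9.LE1
import Cfsg.Agent.H9.LB2
import Cfsg.Agent.H1.KPi
import Cfsg.Agent.H1.Frattini

set_option autoImplicit false
open Cfsg

namespace Cfsg.Agent.S5426

open H9 Subgroup
open H2 (LX XS lx_of' mem_zp2 conj_eq_iff_comm)
open scoped commutatorElement

theorem uniq {G : Type*} [Group G] {L : Subgroup G} (hL : L ⊓ centralizer (L : Set G) = ⊥) {a a' b b' : G}
    (ha : a ∈ L) (ha' : a' ∈ L) (hb : b ∈ centralizer (L : Set G)) (hb' : b' ∈ centralizer (L : Set G))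
    (e : a * b = a' * b') : a = a' := by
  have e2 : a'⁻¹ * a = b' * b⁻¹ := by
    calc a'⁻¹ * a = a'⁻¹ * (a * b) * b⁻¹ := by group
      _ = _ := by rw [e]; group
  have : a'⁻¹ * a ∈ L ⊓ centralizer (L : Set G) :=
    ⟨L.mul_mem (L.inv_mem ha') ha, e2 ▸ Subgroup.mul_mem _ hb' (Subgroup.inv_mem _ hb)⟩
  rw [hL, mem_bot, inv_mul_eq_one] at this
  exact this.symm

theorem not_small {L : Type*} [Group L] [Finite L] [IsSimpleGroup L] (hL : ¬ IsMulCommutative L)
    (R : Sylow 2 L) {w : L} (hw : w ∈ (R : Subgroup L)) (w1 : w ≠ 1) (h : ∀ r ∈ (R : Subgroup L), r = 1 ∨ r = w) :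
    False := by
  haveI := Fact.mk Nat.prime_two
  obtain ⟨P, N, hN, hc⟩ := H1.hasNPC_of_norm_le R (fun g hg r hr => by
    rcases h r hr with rfl | rfl
    · simp
    · rcases h _ ((mem_normalizer_iff.1 hg r).1 hr) with e | e
      · exact (w1 (by simpa using e)).elim
      · exact (mul_inv_eq_iff_eq_mul.1 e).symm)
  rcases hN.eq_bot_or_eq_top with rfl | rfl
  · have : (P : Subgroup L) = ⊤ := isComplement'_bot_left.1 hc
    have hp : IsPGroup 2 L := P.isPGroup'.of_equiv ((MulEquiv.subgroupCongr this).trans topEquiv)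
    haveI := hp.isNilpotent
    exact hL ⟨⟨IsSimpleGroup.comm_iff_isSolvable.2 inferInstance⟩⟩
  · have : (P : Subgroup L) = ⊥ := isComplement'_top_left.1 hc
    have := (P.is_maximal' R.isPGroup' (this ▸ bot_le)).trans this
    exact w1 (mem_bot.1 (this ▸ hw))

/-- Let Q be a large extraspecial 2-subgroup of the finite group G (extraspecial; centralizer equal to its centre; normal in the centralizer of its centre; normalizing no non-trivial subgroup of odd order) with centre generated by z, and let M be the normal closure of z in G. Then one of the following holds: Q is normal in G; or M is abelian and the generalized Fitting subgroup of G is its largest normal 2-subgroup; or M is the generalized Fitting subgroup of G and is a non-abelian simple group; or M is the generalized Fitting subgroup of G and is the direct product of a non-abelian simple subgroup L and its conjugate u L u⁻¹ by some u in Q (the two meet trivially and commute elementwise),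 with z = z₁ (u z₁ u⁻¹) for some z₁ in L whose centralizer in L is a Sylow 2-subgroup of L with Frattini subgroup inside the subgroup generated by z₁, and Q is not the largest normal 2-subgroup of the centralizer of z. -/
theorem result {G : Type*} [Group G] [Finite G] (Q : Subgroup G) (hQ : Cfsg.IsLargeExtraspecial Q) (z : G) (hz : ((Subgroup.center ↥Q).map Q.subtype) = Subgroup.zpowers z) (M : Subgroup G) (hM : M = Subgroup.normalClosure ({z} : Set G)) : Q.Normal ∨ (IsMulCommutative ↥M ∧ Cfsg.generalizedFittingSubgroup G = Cfsg.pCore 2 G) ∨ (M = Cfsg.generalizedFittingSubgroup G ∧ IsSimpleGroup ↥M ∧ ¬ IsMulCommutative ↥M) ∨ (M = Cfsg.generalizedFittingSubgroup G ∧ ∃ (L : Subgroup G) (u : G), u ∈ Q ∧ IsSimpleGroup ↥L ∧ ¬ IsMulCommutative ↥L ∧ L ⊓ (L).map (MulAut.conj u).toMonoidHom = ⊥ ∧ (∀ x ∈ L, ∀ y ∈ (L).map (MulAut.conj u).toMonoidHom, x * y = y * x) ∧ L ⊔ (L).map (MulAut.conj u).toMonoidHom = M ∧ ∃ z₁ ∈ L, z = z₁ * (u * z₁ * u⁻¹) ∧ (∃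 R : Sylow 2 ↥L, (R : Subgroup ↥L) = (Subgroup.centralizer ({z₁} : Set G)).subgroupOf L ∧ (frattini ↥(R : Subgroup ↥L)).map ((L.subtype).comp (R : Subgroup ↥L).subtype) ≤ Subgroup.zpowers z₁) ∧ Q ≠ (Cfsg.pCore 2 ↥(Subgroup.centralizer ({z} : Set G))).map (Subgroup.centralizer ({z} : Set G)).subtype) := by
  haveI := Fact.mk Nat.prime_two
  obtain ⟨z', h⟩ := lx_of' hQ.1 hQ.2.1 hQ.2.2.1
  obtain rfl : z = z' := by
    rw [h.center'] at hz
    rcases (mem_zp2 h.z2).1 (hz ▸ mem_zpowers z) with e | e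
    · rw [e, zpowers_one_eq_bot, zpowers_eq_bot] at hz
      exact (h.z1 hz).elim
    · exact e
  right
  have hMn : M.Normal := hM ▸ inferInstance
  have zM : z ∈ M := hM ▸ subset_normalClosure rfl
  have Mle : ∀ N : Subgroup G, N.Normal → z ∈ N → M ≤ N := fun N hN hz => by
    rw [hM]; exact normalClosure_le_normal (Set.singleton_subset_iff.2 hz)
  have inv : ∀ K : Subgroup G, Q ≤ normalizer (K : Set G) → K ≠ ⊥ → z ∈ K := fun K hn ne =>
    h.mem_of_even hn fun k => ne (hQ.2.2.2 K k hn)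
  have nc : ∀ L, Comp L ⊤ → ¬ L ≤ centralizer {z} := fun L hL k => by
    haveI := h.p.isNilpotent
    have := hL.comm_solvable (U := Q) le_top inferInstance (h.normalizer_eq ▸ k)
    exact hL.qs.not_le_solvable inferInstance
      (((commutator_eq_bot_iff_le_centralizer.1 this).trans h.centralizer_eq.le).trans (zpowers_le.2 h.zQ))
  have o' : Op' 2 (⊤ : Subgroup G) = ⊥ :=
    hQ.2.2.2 _ (Nat.coprime_two_right.1 (Op'_cop 2 ⊤)) (le_top.trans (le_normalizer_Op' 2 ⊤))
  by_cases o2 : Op 2 (⊤ : Subgroup G) ≠ ⊥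
  · left
    have n1 : (⊤ : Subgroup G) ≤ normalizer ((Op 2 ⊤ ⊓ centralizer (Op 2 (⊤ : Subgroup G) : Set G) : Subgroup G) : Set G) :=
      normalizer_inf (le_normalizer_Op 2 ⊤) (normalizer_centralizer (le_normalizer_Op 2 ⊤))
    have hz := inv _ (le_top.trans n1) (inf_centralizer_ne_bot_of_p (Op_p 2 ⊤) (Op_p 2 ⊤) le_normalizer o2)
    have hM' := Mle _ (normalizer_eq_top_iff.1 (top_le_iff.1 n1)) hz
    refine ⟨⟨⟨fun a b => Subtype.ext ((hM' b.2).2 a (hM' a.2).1)⟩⟩, ?_⟩
    rw [← Fst_top, ← Op_top, Fst_eq_Op_iff']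
    refine ⟨Lay_eq_bot_iff'.2 fun L hL => nc L hL fun x hx => ?_, o'⟩
    exact mem_centralizer_singleton_iff.2 (Lay_le_centralizer_Op 2 ⊤ (hL.le_Lay hx) z hz.1).symm
  right
  push Not at o2
  have f0 : Fit (⊤ : Subgroup G) = ⊥ := (Fit_eq_Op_of_Op'_eq_bot o').trans o2
  have fl : Cfsg.generalizedFittingSubgroup G = Lay ⊤ := by rw [← Fst_top, Fst, f0, sup_bot_eq]
  have lne : Lay (⊤ : Subgroup G) ≠ ⊥ := by
    rw [← fl, ← Fst_top]
    exact Fst_ne_bot fun e => h.z1 (mem_bot.1 (e ▸ mem_top z))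
  have zL := inv _ (le_top.trans (le_normalizer_Lay ⊤)) lne
  have ML : M = Lay ⊤ := by
    refine le_antisymm (Mle _ (normalizer_eq_top_iff.1 (top_le_iff.1 (le_normalizer_Lay ⊤))) zL)
      (Lay_le_iff.2 fun L hL => ?_)
    refine (hL.le_or_comm_of_normalizes le_top (by rw [normalizer_eq_top_iff.2 hMn]; exact le_top)).resolve_right
      fun e => nc L hL fun x hx => ?_
    exact mem_centralizer_singleton_iff.2 (commutator_eq_bot_iff_le_centralizer.1 e hx z zM).symm
  obtain ⟨L, hL⟩ : ∃ L, Comp L (⊤ : Subgroup G) := by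
    by_contra k
    exact lne (Lay_eq_bot_iff'.2 fun L hL => k ⟨L, hL⟩)
  have cc : ∀ (g : G) {K}, Comp K ⊤ → Comp (H9.cj g K) ⊤ := fun g K hK => hK.cj_of_mem (le_normalizer (mem_top g))
  have cm : ∀ {K K' : Subgroup G}, Comp K ⊤ → Comp K' ⊤ → K ≠ K' → K ≤ centralizer (K' : Set G) :=
    fun hK hK' n => commutator_eq_bot_iff_le_centralizer.1 ((hK.eq_or_comm hK').resolve_left n)
  have z0 : ∀ {K : Subgroup G}, Comp K ⊤ → K ⊓ centralizer (K : Set G) = ⊥ := fun {K} hK => by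
    haveI := (hK.simple f0).1
    rcases (inferInstance : (center K).Normal).eq_bot_or_eq_top with e | e
    · rw [eq_bot_iff]
      intro x hx
      have : (⟨x, hx.1⟩ : K) ∈ center K := mem_center_iff.2 fun y => Subtype.ext (hx.2 y y.2)
      rw [e] at this
      exact congrArg Subtype.val (mem_bot.1 this)
    · exact ((hK.simple f0).2 ⟨⟨fun a b => (mem_center_iff.1 (e ▸ mem_top b) a)⟩⟩).elim
  have tr : ∀ K, Comp K ⊤ → ∃ v ∈ Q, K = H9.cj v L := by
    intro K hK
    by_contra k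
    push Not at k
    have : z ∈ ⨆ v : Q, H9.cj (v : G) L := by
      refine inv _ (le_normalizer_of_cj_le fun q hq => ?_) fun e => hL.qs.ne_bot ?_
      · rw [H9.cj, Subgroup.map_iSup]
        refine iSup_le fun v => ?_
        have := le_iSup (fun v : Q => H9.cj (v : G) L) ⟨q * v, Q.mul_mem hq v.2⟩
        rwa [H9.cj_mul] at this
      · have := le_iSup (fun v : Q => H9.cj (v : G) L) 1
        rw [e] at this
        simpa [H9.cj_one] using this
    have h2 : (⨆ v : Q, H9.cj (v : G) L) ≤ centralizer (K : Set G) :=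
      iSup_le fun v => cm (cc _ hL) hK (k v v.2).symm
    exact nc K hK fun x hx => mem_centralizer_singleton_iff.2 (h2 this x hx)
  by_cases hu : ∀ u ∈ Q, H9.cj u L = L
  · left
    have : Lay ⊤ = L := le_antisymm (Lay_le_iff.2 fun K hK => by
      obtain ⟨v, hv, rfl⟩ := tr K hK
      exact (hu v hv).le) hL.le_Lay
    rw [fl, ML, this]
    exact ⟨rfl, hL.simple f0⟩
  right
  push Not at hu
  obtain ⟨u, hu, nu⟩ := hu
  have c1 := cm (cc u hL) hL nu
  obtain ⟨z1, hz1, b, hb, e1⟩ := (H9.mem_sup_of_le_normalizer' (centralizer_le_normalizer _)).1 (hL.Lay_le_sup zL)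
  have zc : ∀ a ∈ L, a * z = z * a ↔ a * z1 = z1 * a := fun a ha => by
    rw [← e1, ← mul_assoc, mul_assoc z1, ← hb a ha, ← mul_assoc, mul_left_inj]
  have z12 : z1 * z1 = 1 := uniq (z0 hL) (L.mul_mem hz1 hz1) L.one_mem (Subgroup.mul_mem _ hb hb)
    (Subgroup.one_mem _) (by
      calc z1 * z1 * (b * b) = z1 * (z1 * b) * b := by simp only [mul_assoc]
        _ = z1 * b * (z1 * b) := by rw [hb z1 hz1, ← mul_assoc, mul_assoc _ z1, hb z1 hz1]
        _ = _ := by rw [e1, h.z2, mul_one])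
  have z11 : z1 ≠ 1 := fun e => nc L hL fun a ha =>
    mem_centralizer_singleton_iff.2 ((zc a ha).2 (by simp [e]))
  have pr : ∀ a ∈ L, ∀ a' ∈ L, ∀ c ∈ centralizer (L : Set G), ∀ c' ∈ centralizer (L : Set G),
      (a * c = a' * c' ∨ a * c = a' * c' * z) → a = a' ∨ a = a' * z1 := fun a ha a' ha' c hc c' hc' e =>
    e.imp (uniq (z0 hL) ha ha' hc hc') fun e => uniq (z0 hL) ha (L.mul_mem ha' hz1) hc
      (Subgroup.mul_mem _ hc' hb) (by rw [e, ← e1, mul_assoc, ← mul_assoc c', ← hc' z1 hz1]; simp only [mul_assoc])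
  have xq : ∀ r ∈ L, r * z = z * r → r * (u * r⁻¹ * u⁻¹) ∈ Q ∧ u * r⁻¹ * u⁻¹ ∈ H9.cj u L := fun r hr k =>
    ⟨by simpa [mul_assoc] using Q.mul_mem (h.nQ r k u hu) (Q.inv_mem hu), ⟨_, L.inv_mem hr, rfl⟩⟩
  have sq : ∀ r ∈ L, r * z = z * r → r * r = 1 ∨ r * r = z1 := fun r hr k => by
    obtain ⟨k1, k2⟩ := xq r hr k
    have := pr _ (L.mul_mem hr hr) 1 L.one_mem _ (Subgroup.mul_mem _ (c1 k2) (c1 k2)) 1 (Subgroup.one_mem _) (by
      have := h.sq _ k1
      rw [mul_assoc r, ← mul_assoc _ r, ← c1 k2 r hr, mul_assoc r, ← mul_assoc r r] at this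
      simpa using this)
    simpa using this
  have p4 : ∀ r ∈ L, r * z = z * r → r ^ 4 = 1 := fun r hr k => by
    rw [show r ^ 4 = r * r * (r * r) by simp only [pow_succ, pow_zero, one_mul, mul_assoc]]
    rcases sq r hr k with e | e <;> simp [e, z12]
  obtain ⟨T, hT, QT⟩ := exists_syl_ge h.p (le_top : Q ≤ ⊤)
  have Tz : T ≤ centralizer {z} := by
    obtain ⟨⟨w, hw⟩, h2⟩ := ne_bot_iff_exists_ne_one.1 (inf_centralizer_ne_bot_of_p hT.isP hT.isP le_normalizer
      fun e => h.z1 (mem_bot.1 (e ▸ QT h.zQ)))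
    obtain rfl := ((mem_zp2 h.z2).1 (h.centralizer_eq ▸ centralizer_anti QT hw.2)).resolve_left
      fun e => h2 (Subtype.ext e)
    exact fun t ht => mem_centralizer_singleton_iff.2 (hw.2 t ht)
  have Rp : IsPGroup 2 (L ⊓ centralizer {z} : Subgroup G) := fun r =>
    ⟨2, Subtype.ext (p4 r r.2.1 (mem_centralizer_singleton_iff.1 r.2.2))⟩
  have Rs : Syl 2 (L ⊓ centralizer {z}) L := by
    have s := hT.inf_sn hL.sn
    rwa [← s.maximal Rp inf_le_left (le_inf inf_le_right (inf_le_left.trans Tz))] at s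
  obtain ⟨R, hR⟩ := Rs.exists_sylow'
  have mR : ∀ r : L, r ∈ (R : Subgroup L) ↔ (r : G) * z = z * r := fun r => by
    rw [hR, mem_subgroupOf, ← mem_centralizer_singleton_iff]
    exact ⟨fun k => k.2, fun k => ⟨r.2, k⟩⟩
  have small : ¬ ∀ r ∈ L, r * z = z * r → (1 = r ∨ 1 = r * z1) := fun k => by
    haveI := (hL.simple f0).1
    refine not_small (hL.simple f0).2 R (w := ⟨z1, hz1⟩) ((mR _).2 ((zc z1 hz1).2 rfl))
      (fun e => z11 (congrArg Subtype.val e)) fun r hr => (k r r.2 ((mR r).1 hr)).imp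
        (fun e => Subtype.ext e.symm) fun e => Subtype.ext ?_
    exact mul_right_cancel (e.symm.trans z12.symm)
  have two : Lay ⊤ = L ⊔ H9.cj u L := by
    refine le_antisymm (Lay_le_iff.2 fun K hK => ?_) (sup_le hL.le_Lay (cc u hL).le_Lay)
    obtain ⟨v, hv, rfl⟩ := tr K hK
    by_contra k
    have n1 : H9.cj v⁻¹ L ≠ L := fun e => k (by
      rw [← e, H9.cj_cj_inv, e]; exact le_sup_left)
    have n2 : H9.cj v⁻¹ (H9.cj u L) ≠ L := fun e => k (by
      conv_lhs => rw [← e, H9.cj_cj_inv]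
      exact le_sup_right)
    refine small fun r hr k => ?_
    obtain ⟨k1, k2⟩ := xq r hr k
    refine pr 1 L.one_mem r hr _ (Subgroup.mul_mem _ (cm (cc _ hL) hL n1 ⟨r, hr, rfl⟩)
      (cm (cc _ (cc u hL)) hL n2 ⟨_, k2, rfl⟩)) _ (c1 k2) ?_
    simpa [mul_assoc] using h.com _ (Q.inv_mem hv) _ k1
  have dec : ∀ m ∈ Lay (⊤ : Subgroup G), ∃ a ∈ L, ∃ a' ∈ H9.cj u L, a * a' = m := fun m hm =>
    (H9.mem_sup_of_le_normalizer' (c1.trans (centralizer_le_normalizer _))).1 (two ▸ hm)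
  refine ⟨ML.trans fl.symm, L, u, hu, (hL.simple f0).1, (hL.simple f0).2,
    eq_bot_iff.2 ((inf_le_inf_left L c1).trans (z0 hL).le), fun x hx y hy => c1 hy x hx, two.symm.trans ML.symm,
    z1, hz1, ?_, ⟨R, ?_, ?_⟩, ?_⟩
  · obtain ⟨a, ha, a', ha', e⟩ := dec z zL
    obtain rfl : a = z1 := uniq (z0 hL) ha hz1 (c1 ha') hb (e.trans e1.symm)
    have n : H9.cj u (H9.cj u L) ≠ H9.cj u L := fun e => nu (H9.cj_inj.1 e)
    have := uniq (z0 (cc u hL)) ha' ⟨a, ha, rfl⟩ (cm hL (cc u hL) nu.symm ha)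
      (cm (cc u (cc u hL)) (cc u hL) n ⟨a', ha', rfl⟩) (by
        show a' * a = u * a * u⁻¹ * (u * a' * u⁻¹)
        rw [← c1 ha' a ha, e, ← (conj_eq_iff_comm.2 (h.zc u hu)), ← e]; group)
    rw [← e, this]; rfl
  · ext r
    rw [mR, mem_subgroupOf, mem_centralizer_singleton_iff, zc r r.2]
  · have s2 : ∀ r : (R : Subgroup L), ((r : L) : G) * r ∈ zpowers z1 := fun r =>
      (mem_zp2 z12).2 (sq _ (r : L).2 ((mR r).1 r.2))
    rw [Subgroup.map_le_iff_le_comap]
    refine H1.frattini_le_of_elementary Nat.prime_two ?_ fun r => by rw [pow_two]; exact s2 r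
    rw [_root_.commutator, Subgroup.commutator_le]
    intro r _ s _
    rw [show ⁅r, s⁆ = r * r * (r⁻¹ * s * (r⁻¹ * s)) * (s * s)⁻¹ by rw [commutatorElement_def]; group]
    exact mul_mem (mul_mem (s2 r) (s2 _)) (inv_mem (s2 s))
  · rw [Op_eq]
    intro e
    have D : Lay ⊤ ⊓ centralizer {z} ≤ Q := by
      rw [e]
      refine le_Op inf_le_right (normalizer_inf (le_top.trans (le_normalizer_Lay ⊤)) le_normalizer) fun m => ⟨2, ?_⟩
      obtain ⟨a, ha, a', ha', e⟩ := dec m m.2.1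
      have mz := mem_centralizer_singleton_iff.1 m.2.2
      have az : a * z = z * a := (zc a ha).2 (uniq (z0 hL) (L.mul_mem ha hz1) (L.mul_mem hz1 ha)
        (Subgroup.mul_mem _ (c1 ha') hb) (Subgroup.mul_mem _ hb (c1 ha')) (by
          rw [← e, ← e1] at mz
          rw [mul_assoc a, ← mul_assoc z1, c1 ha' z1 hz1, mul_assoc z1, ← mul_assoc a b, hb a ha]
          simpa only [mul_assoc] using mz))
      obtain ⟨r, hr, rfl⟩ := ha'
      have rz : r * z = z * r := by
        have k : u * r * u⁻¹ * z = z * (u * r * u⁻¹) := by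
          rw [← e] at mz
          refine mul_left_cancel (a := a) ?_
          rw [← mul_assoc, ← mul_assoc a z, az]
          exact mz.trans (mul_assoc _ _ _).symm
        calc r * z = u⁻¹ * (u * r * u⁻¹ * (u * z * u⁻¹)) * u := by group
          _ = u⁻¹ * ((u * z * u⁻¹) * (u * r * u⁻¹)) * u := by rw [conj_eq_iff_comm.2 (h.zc u hu), k]
          _ = z * r := by group
      refine Subtype.ext ?_
      show (m : G) ^ 4 = 1
      rw [← e, Commute.mul_pow (c1 ⟨r, hr, rfl⟩ a ha), p4 a ha az, ← map_pow, p4 r hr rz, map_one, one_mul]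
    refine small fun r hr k => pr 1 L.one_mem r hr _ (c1 ⟨r, hr, rfl⟩) 1 (Subgroup.one_mem _) ?_
    simpa using h.com u hu r (D ⟨hL.le_Lay hr, mem_centralizer_singleton_iff.2 k⟩)

end Cfsg.Agent.S5426
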