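import Cfsg.Statements.S5427
import Cfsg.Agent.H2.XS3

set_option autoImplicit false
open Cfsg

namespace Cfsg.Agent.S5427

open H2 H9 Subgroup

/-- Let z be an involution of the finite group G whose centralizer C has generalized Fitting subgroup Q, an extraspecial 2-group of width at least 2 (order 2^(2w+1), w ≥ 2). Let K be a subgroup of G such that the subgroup U generated by the K-conjugates of z is abelian and C is generated by the C-conjugates of U. Suppose that either some K-conjugate of z other than z lies in Q, or some element u of U ∩ Q outside the subgroup generated by z has z in the largest normal 2-subgroup of its centralizer. Then G is simple and Q is a large extraspecial 2-subgroup of G. -/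
theorem result {G : Type*} [Group G] [Finite G] (z : G) (hz : orderOf z = 2) (Q : Subgroup G) (hQC : Q ≤ Subgroup.centralizer ({z} : Set G)) (hF : (Cfsg.generalizedFittingSubgroup ↥(Subgroup.centralizer ({z} : Set G))).map (Subgroup.centralizer ({z} : Set G)).subtype = Q) (hQ : Cfsg.IsExtraspecial 2 ↥Q) (w : ℕ) (hw : 2 ≤ w) (hcard : Nat.card ↥Q = 2 ^ (2 * w + 1)) (K U : Subgroup G) (hU : U = Subgroup.closure {x : G | ∃ k ∈ K, x = k * z * k⁻¹}) (hUab : IsMulCommutative ↥U) (hgen : Subgroup.closure {x : G | ∃ c ∈ Subgroup.centralizer ({z} : Set G), ∃ u ∈ U, x = c * u * c⁻¹} = Subgroup.centralizer ({z} : Set G)) (h3 : (∃ k ∈ K, k * z * k⁻¹ ∈ Q ∧ k * z * k⁻¹ ≠ z) ∨ ∃ u ∈ U ⊓ Q, u ∉ Subgroup.zpowers z ∧ (∃ hz' : z ∈ Subgroup.centralizer ({u} : Set G), (⟨z, hz'⟩ : ↥(Subgroup.centralizer ({u} : Set G))) ∈ Cfsg.pCore 2 ↥(Subgroup.centralizer ({u} : Set G)))) : IsSimpleGroup G ∧ Cfsg.IsLargeExtraspecial Q := by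
  rw [Fst_eq] at hF
  have h := (lx_of_Fst hz hF hQ).1
  have hl : Cfsg.IsLargeExtraspecial Q := by
    rcases h3 with ⟨k, -, h1, h2⟩ | ⟨u, hu, h1, hz', h2⟩
    · exact h.large_of_conj h1 h2
    · have h4 : U ≤ centralizer (U : Set G) := le_centralizer_iff_isMulCommutative.2 hUab
      have u2 : ∀ u ∈ U, u * u = 1 := by
        intro u hu
        have hu' := hu
        rw [hU] at hu'
        induction hu' using closure_induction with
        | mem x hx =>
          obtain ⟨k, -, rfl⟩ := hx
          calc k * z * k⁻¹ * (k * z * k⁻¹) = k * (z * z) * k⁻¹ := by group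
            _ = 1 := by rw [h.z2]; group
        | one => simp
        | mul x y hx hy a b =>
          rw [← hU] at hx hy
          rw [mul_assoc, ← mul_assoc y, h4 hx y hy, mul_assoc, b hy, mul_one, a hx]
        | inv x hx a =>
          rw [← hU] at hx
          rw [← mul_inv_rev, a hx, inv_one]
      refine h.large_of hu.2 (fun e => h1 (e ▸ one_mem _)) (fun e => h1 (e ▸ mem_zpowers _)) (u2 u hu.1) ?_
      rw [← Op_eq]
      exact ⟨_, h2, rfl⟩
  haveI : Nontrivial G := ⟨⟨z, 1, h.z1⟩⟩
  refine ⟨⟨fun N hN => ?_⟩, hl⟩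
  refine (em (N = ⊥)).imp id fun ne => h.top_of hl ?_
  have zN := h.mem_normal hl ne
  have UN : U ≤ N := by
    rw [hU, closure_le]
    rintro _ ⟨k, -, rfl⟩
    exact hN.conj_mem z zN k
  rw [← hgen, closure_le]
  rintro _ ⟨c, -, u, hu, rfl⟩
  exact hN.conj_mem u (UN hu) c

end Cfsg.Agent.S5427
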