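import Cfsg.Statements.S5428
import Cfsg.Agent.H2.XS2
import Cfsg.Agent.H1.FC
import Cfsg.Agent.H1.Schmidt

set_option autoImplicit false
open Cfsg

namespace Cfsg.Agent.S5428

open H2 H9 Subgroup

theorem two_odd {H : Type*} [Group H] [Finite H] {z : H} (hz : orderOf z = 2) (hc : z ∈ center H)
    (h4 : ¬ 4 ∣ Nat.card H) (c : H) : c ∈ Cfsg.pPrimeCore 2 H ∨ c * z ∈ Cfsg.pPrimeCore 2 H := by
  haveI := Fact.mk Nat.prime_two
  have k : ∀ k, 2 ^ k ∣ Nat.card H → k = 0 ∨ k = 1 := fun k hk => by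
    by_contra n
    exact h4 ((pow_dvd_pow 2 (show 2 ≤ k by omega)).trans hk)
  obtain ⟨P⟩ : Nonempty (Sylow 2 H) := inferInstance
  have hP : IsCyclic (P : Subgroup H) := by
    obtain ⟨n, hn⟩ := IsPGroup.iff_card.1 P.isPGroup'
    refine isCyclic_of_card_dvd_prime (p := 2) ?_
    rcases k n (hn ▸ card_subgroup_dvd_card _) with rfl | rfl <;> simp [hn]
  obtain ⟨n, hn⟩ := H1.hasNPC_iff_index.1 (H1.hasNPC_of_cyclic_central P hP hz hc)
  have zO : z ∉ Cfsg.pPrimeCore 2 H := fun m => by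
    have := Subgroup.orderOf_dvd_natCard _ m
    rw [hz] at this
    exact absurd (Nat.eq_one_of_dvd_coprimes H1.pPrimeCore_coprime this dvd_rfl) (by norm_num)
  rcases k n (hn ▸ index_dvd_card _) with rfl | rfl
  · exact (zO (index_eq_one.1 hn ▸ mem_top z)).elim
  · rw [mul_mem_iff_of_index_two hn]
    tauto

theorem xs_cent {G : Type*} [Group G] [Finite G] {Q A : Subgroup G} {z : G} (h : XS Q z)
    (hA : A ≤ normalizer (Q : Set G)) (hAodd : Odd (Nat.card A)) {x : G} (hx : x ∈ Q ⊓ centralizer (A : Set G))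
    (k : ∀ y ∈ Q ⊓ centralizer (A : Set G), x * y = y * x) : x = 1 ∨ x = z := by
  haveI := Fact.mk Nat.prime_two
  have hc := copA_of_p' h.p (Nat.coprime_two_right.2 hAodd)
  have e1 := cop_commutator_sup hA hc
  have hz : z ∈ centralizer (A : Set G) := fun a ha => h.conj_z (hA ha)
  have e2 : ⁅⁅Q, A⁆, Q ⊓ centralizer (A : Set G)⁆ = ⊥ := commutator_commutator_eq_bot_of_rotate
    (by rw [commutator_eq_bot_iff_le_centralizer.2 (le_centralizer_iff.1 inf_le_right), commutator_bot_left])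
    (commutator_eq_bot_iff_le_centralizer.2 (((commutator_mono inf_le_left le_rfl).trans h.commutator.le).trans
      (zpowers_le.2 hz)))
  have e3 := le_centralizer_iff.1 (commutator_eq_bot_iff_le_centralizer.1 e2)
  refine h.cen x hx.1 fun y hy => ?_
  have : x ∈ centralizer (Q : Set G) := by
    rw [← e1, centralizer_sup]; exact ⟨e3 hx, fun y hy => (k y hy).symm⟩
  exact (this y hy).symm

/-- Let z be an involution of the finite group G whose centralizer C has generalized Fitting subgroup Q extraspecial (as a 2-group), let A be a subgroup of C of odd order, and let R be the centralizer of A in Q; suppose R has order at least 32, the largest normal subgroup of odd order of the centralizer of the subgroup generated by A and R lies in A, the order of that centralizer is not divisible by 4, and g is an element of G with g z g⁻¹ in R but outside the centre Z of Q. Let M be the subgroup generated by A and the centralizer of A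 (A is normal in it). Then: the centralizer in M of the subgroup generated by R and A, joined with A, equals the subgroup generated by A and Z; the image of R in M/A is a large extraspecial 2-subgroup of M/A; and g z g⁻¹ is conjugate to z inside the subgroup generated by R and the centralizer of A in g Q g⁻¹. -/
theorem result {G : Type*} [Group G] [Finite G] (z : G) (hz : orderOf z = 2) (Q : Subgroup G) (hQC : Q ≤ Subgroup.centralizer ({z} : Set G)) (hF : (Cfsg.generalizedFittingSubgroup ↥(Subgroup.centralizer ({z} : Set G))).map (Subgroup.centralizer ({z} : Set G)).subtype = Q) (hQ : Cfsg.IsExtraspecial 2 ↥Q) (A : Subgroup G) (hA : A ≤ Subgroup.centralizer ({z} : Set G)) (hAodd : Odd (Nat.card ↥A)) (R : Subgroup G) (hR : R = Q ⊓ Subgroup.centralizer (A : Set G)) (hR32 : 32 ≤ Nat.card ↥R) (hO : (Cfsg.oddCore ↥(Subgroup.centralizer ((A ⊔ R : Subgroup G) : Set G))).map (Subgroup.centralizer ((A ⊔ R : Subgroup G) : Set G)).subtype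 ≤ A) (h4 : ¬ 4 ∣ Nat.card ↥(Subgroup.centralizer ((A ⊔ R : Subgroup G) : Set G))) (g : G) (hgR : g * z * g⁻¹ ∈ R) (hgZ : g * z * g⁻¹ ∉ ((Subgroup.center ↥Q).map Q.subtype)) (M : Subgroup G) (hM : M = Subgroup.centralizer (A : Set G) ⊔ A) [hn : (A.subgroupOf M).Normal] : (M ⊓ Subgroup.centralizer ((R ⊔ A : Subgroup G) : Set G)) ⊔ A = A ⊔ ((Subgroup.center ↥Q).map Q.subtype) ∧ Cfsg.IsLargeExtraspecial ((R.subgroupOf M).map (QuotientGroup.mk' (A.subgroupOf M))) ∧ ∃ x ∈ R ⊔ ((Q).map (MulAut.conj g).toMonoidHom ⊓ Subgroup.centralizer (A : Set G)), x * (g * z * g⁻¹) * x⁻¹ = z := by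
  haveI := Fact.mk Nat.prime_two
  rw [Fst_eq] at hF
  have h := (lx_of_Fst hz hF hQ).1
  rw [h.center'] at hgZ ⊢
  obtain ⟨s, hs⟩ : ∃ s, s = g * z * g⁻¹ := ⟨_, rfl⟩
  have h' : LX (H9.cj g Q) s := hs ▸ h.cj g
  have zP : z ∈ H9.cj g Q := h.sym (hR ▸ hgR).1
  rw [← hs] at hgR hgZ ⊢
  have sz : s ≠ z := fun e => hgZ (e ▸ mem_zpowers _)
  have nA : A ≤ normalizer (Q : Set G) := h.normalizer_eq ▸ hA
  have sR : s ∈ Q ⊓ centralizer (A : Set G) := hR ▸ hgR
  have nA' : A ≤ normalizer (H9.cj g Q : Set G) := by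
    rw [h'.normalizer_eq]
    exact fun a ha => mem_centralizer_singleton_iff.2 (sR.2 a ha)
  have zA : z ∈ centralizer (A : Set G) := fun a ha => mem_centralizer_singleton_iff.1 (hA ha)
  have zR : z ∈ R := hR ▸ ⟨h.zQ, zA⟩
  obtain ⟨y, hy, ys⟩ : ∃ y ∈ Q ⊓ centralizer (A : Set G), s * y ≠ y * s := by
    by_contra k
    push Not at k
    exact (xs_cent h.toXS nA hAodd sR k).elim h'.z1 sz
  obtain ⟨d, hd, dz⟩ : ∃ d ∈ H9.cj g Q ⊓ centralizer (A : Set G), z * d ≠ d * z := by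
    by_contra k
    push Not at k
    exact (xs_cent h'.toXS nA' hAodd ⟨zP, zA⟩ k).elim h.z1 sz.symm
  obtain ⟨a1, a2⟩ := swap_elt h.z2 h'.z2 (h.zc s sR.1).symm (h.zc y hy.1) (h.toXS.conj hy.1 sR.1 ys.symm)
    (h'.zc d hd.1) (h'.toXS.conj hd.1 zP dz.symm)
  have cAR : centralizer ((A ⊔ R : Subgroup G) : Set G) ≤ A ⊔ zpowers z := by
    intro c hc
    have zC : z ∈ centralizer ((A ⊔ R : Subgroup G) : Set G) := by
      rw [centralizer_sup]
      exact ⟨zA, fun r hr => h.zc r (hR ▸ hr).1⟩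
    rcases two_odd (z := ⟨z, zC⟩) (by rw [← hz]; exact (orderOf_mk _ _)) (mem_center_iff.2 fun c =>
      Subtype.ext (c.2 z (mem_sup_right zR)).symm) h4 ⟨c, hc⟩ with k | k
    · exact mem_sup_left (hO ⟨_, k, rfl⟩)
    · have := mul_mem (mem_sup_left (hO ⟨_, k, rfl⟩) : c * z ∈ A ⊔ zpowers z)
        (mem_sup_right (inv_mem (mem_zpowers z)))
      simpa using this
  have CM : centralizer (A : Set G) ≤ M := hM ▸ le_sup_left
  have RA : R ≤ centralizer (A : Set G) := hR ▸ inf_le_right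
  refine ⟨le_antisymm (sup_le (inf_le_right.trans (sup_comm A R ▸ cAR)) le_sup_left)
    (sup_le le_sup_right (zpowers_le.2 (mem_sup_left ⟨CM zA, ?_⟩))), ?_, y * d * y,
    mul_mem (mul_mem (mem_sup_left (hR ▸ hy)) (mem_sup_right hd)) (mem_sup_left (hR ▸ hy)), a2⟩
  · rw [centralizer_sup]
    exact ⟨fun r hr => h.zc r (hR ▸ hr).1, zA⟩
  obtain ⟨f, hf⟩ : ∃ f, f = QuotientGroup.mk' (A.subgroupOf M) := ⟨_, rfl⟩
  have fe : ∀ a b, f a = f b ↔ (a : G)⁻¹ * b ∈ A := fun a b => by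
    rw [hf, QuotientGroup.mk'_apply, QuotientGroup.mk'_apply, QuotientGroup.eq, mem_subgroupOf]
    rfl
  have fs : ∀ m, ∃ c, ∃ hc : c ∈ centralizer (A : Set G), f ⟨c, CM hc⟩ = m := by
    intro m
    obtain ⟨⟨m, hm⟩, rfl⟩ := (hf ▸ QuotientGroup.mk'_surjective _ : Function.Surjective f) m
    have : m ∈ centralizer (A : Set G) ⊔ A := hM ▸ hm
    obtain ⟨c, hc, a, ha, rfl⟩ := (H9.mem_sup_of_le_normalizer (centralizer_le_normalizer _)).1 this
    exact ⟨c, hc, (fe _ _).2 (by simpa using ha)⟩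
  rw [← hf]
  have dj : ∀ x ∈ Q, x ∈ A → x = 1 := fun x h1 h2 =>
    mem_bot.1 ((inf_eq_bot_of_p_p' h.p (Nat.coprime_two_right.2 hAodd)).le ⟨h1, h2⟩)
  have XR : XS R z := h.toXS.sub (hR ▸ inf_le_left) zR
    (fun x hx k => xs_cent h.toXS nA hAodd (hR ▸ hx) (hR ▸ k)) ⟨s, hgR, y, hR ▸ hy, ys⟩
  have XM : XS (R.subgroupOf M) (⟨z, CM zA⟩ : M) :=
    ⟨XR.p.comap_of_injective _ (subtype_injective _), zR, fun e => h.z1 (congrArg Subtype.val e),
      Subtype.ext h.z2, fun x hx => Subtype.ext (XR.zc x hx),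
      fun x hx k => (XR.cen x hx fun y hy => congrArg Subtype.val (k ⟨y, CM (RA hy)⟩ hy)).imp Subtype.ext Subtype.ext,
      fun x hx => (XR.sq x hx).imp Subtype.ext Subtype.ext,
      fun x hx y hy => (XR.com x hx y hy).imp Subtype.ext Subtype.ext,
      ⟨⟨s, CM sR.2⟩, hgR, ⟨y, CM hy.2⟩, (hR ▸ hy : y ∈ R), fun e => ys (congrArg Subtype.val e)⟩⟩
  have X := XM.map f fun x hx e => by
    rw [← map_one f, eq_comm, fe] at e
    exact Subtype.ext (dj x (hR ▸ hx : (x : G) ∈ Q ⊓ _).1 (by simpa using e))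
  have cz : ∀ c (hc : c ∈ centralizer (A : Set G)), f ⟨c, CM hc⟩ * f ⟨z, CM zA⟩ = f ⟨z, CM zA⟩ * f ⟨c, CM hc⟩ →
      c * z = z * c := by
    intro c hc e
    rw [← mul_inv_eq_iff_eq_mul, ← map_mul, ← map_inv, ← map_mul, eq_comm, fe] at e
    have e' : z⁻¹ * (c * z * c⁻¹) ∈ A := e
    obtain ⟨a, ha⟩ : ∃ a, a = z⁻¹ * (c * z * c⁻¹) := ⟨_, rfl⟩
    rw [← ha] at e'
    have e1 : c * z * c⁻¹ = z * a := by rw [ha]; group
    have e2 : a * a = 1 := by
      have : z * a * (z * a) = 1 := by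
        rw [← e1]
        calc c * z * c⁻¹ * (c * z * c⁻¹) = c * (z * z) * c⁻¹ := by group
          _ = 1 := by rw [h.z2]; group
      rw [mul_assoc, ← mul_assoc a, zA a e', mul_assoc, ← mul_assoc, h.z2, one_mul] at this
      exact this
    have : a = 1 := by
      have o1 : orderOf a ∣ 2 := orderOf_dvd_of_pow_eq_one (by rw [pow_two, e2])
      exact orderOf_eq_one_iff.1 (Nat.eq_one_of_dvd_coprimes (Nat.coprime_two_right.2 hAodd)
        (Subgroup.orderOf_dvd_natCard _ e') o1)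
    rw [this, mul_one] at e1
    exact mul_inv_eq_iff_eq_mul.1 e1
  have nR : ∀ c ∈ centralizer (A : Set G), c * z = z * c → ∀ x ∈ R, c * x * c⁻¹ ∈ R := fun c hc k x hx =>
    hR ▸ ⟨h.nQ c k x (hR ▸ hx : x ∈ Q ⊓ _).1, Subgroup.mul_mem _ (Subgroup.mul_mem _ hc (RA hx)) (Subgroup.inv_mem _ hc)⟩
  have L : LX ((R.subgroupOf M).map f) (f ⟨z, CM zA⟩) := by
    refine ⟨X, fun m k => ?_, fun m k => ?_⟩
    · obtain ⟨c, hc, rfl⟩ := fs m
      have c1 := cz c hc (k _ X.zQ)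
      have c2 : c ∈ centralizer ((A ⊔ R : Subgroup G) : Set G) := by
        rw [centralizer_sup]
        refine ⟨hc, fun r hr => ?_⟩
        have := k _ ⟨⟨r, CM (RA hr)⟩, hr, rfl⟩
        rw [← mul_inv_eq_iff_eq_mul, ← map_mul, ← map_inv, ← map_mul, eq_comm, fe] at this
        have := dj _ (hR ▸ R.mul_mem (R.inv_mem hr) (nR c hc c1 r hr) : _ ∈ Q ⊓ _).1 this
        exact eq_mul_inv_iff_mul_eq.1 (inv_mul_eq_one.1 this)
      obtain ⟨w, hw, a, ha, e⟩ := (H9.mem_sup_of_le_normalizer (zpowers_le.2 (centralizer_le_normalizer _ zA))).1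
        (sup_comm A _ ▸ cAR c2)
      have wR : w ∈ R := zpowers_le.2 zR hw
      exact ⟨⟨w, CM (RA wR)⟩, wR, (fe _ _).2 (by simpa [← e] using ha)⟩
    · obtain ⟨c, hc, rfl⟩ := fs m
      rintro _ ⟨x, hx, rfl⟩
      exact ⟨⟨c, CM hc⟩ * x * ⟨c, CM hc⟩⁻¹, nR c hc (cz c hc k) x hx, by simp⟩
  have xM : y * d * y ∈ M := CM (mul_mem (mul_mem hy.2 hd.2) hy.2)
  have e : f ⟨y * d * y, xM⟩ * f ⟨z, CM zA⟩ * (f ⟨y * d * y, xM⟩)⁻¹ = f ⟨s, CM sR.2⟩ := by
    rw [← map_inv, ← map_mul, ← map_mul]; congr 1; exact Subtype.ext a1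
  refine L.large_of_conj (g := f ⟨y * d * y, xM⟩) (by rw [e]; exact ⟨_, hgR, rfl⟩) ?_
  rw [e, Ne, fe]
  exact fun k => sz (inv_mul_eq_one.1 (dj _ (Q.mul_mem (Q.inv_mem sR.1) h.zQ) k))

end Cfsg.Agent.S5428
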