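import Cfsg.Statements.S5429
import Cfsg.Agent.H2.XS2

set_option autoImplicit false
open Cfsg

namespace Cfsg.Agent.S5429

open H2 H9 Subgroup

/-- Let z be an involution of the finite group G with centralizer C whose generalized Fitting subgroup Q is extraspecial of width at least 3 (order 2^(2w+1), w ≥ 3); let g be an element of G with g z g⁻¹ in Q but outside the centre Z of Q, and t an involution lying in both Q and g Q g⁻¹ that is not conjugate to z; write P for the centralizer of t in Q and suppose that the elements of C acting trivially by conjugation on P modulo the subgroup generated by t and z are exactly the elements of Q. Then the image of P in the centralizer of t modulo the subgroup generated by t is a large extraspecial 2-subgroup there, and g z g⁻¹ is conjugate to z inside the subgroup generated by P and the centralizer of t in g Q g⁻¹. -/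
theorem result {G : Type*} [Group G] [Finite G] (z : G) (hz : orderOf z = 2) (Q : Subgroup G) (hQC : Q ≤ Subgroup.centralizer ({z} : Set G)) (hF : (Cfsg.generalizedFittingSubgroup ↥(Subgroup.centralizer ({z} : Set G))).map (Subgroup.centralizer ({z} : Set G)).subtype = Q) (hQ : Cfsg.IsExtraspecial 2 ↥Q) (w : ℕ) (hw : 3 ≤ w) (hcard : Nat.card ↥Q = 2 ^ (2 * w + 1)) (g : G) (hgQ : g * z * g⁻¹ ∈ Q) (hgZ : g * z * g⁻¹ ∉ ((Subgroup.center ↥Q).map Q.subtype)) (t : G) (ht : orderOf t = 2) (htQ : t ∈ Q ⊓ (Q).map (MulAut.conj g).toMonoidHom) (htz : ¬ IsConj z t) (P : Subgroup G) (hP : P = Q ⊓ Subgroup.centralizer ({t} : Set G)) (hCP : ∀ c ∈ Subgroup.centralizer ({z} : Set G), (∀ x ∈ P, ∃ y ∈ Subgroup.closure ({t, z} : Set G), c * x * c⁻¹ = x * y) ↔ c ∈ Q) [hn : ((Subgroup.zpowers t).subgroupOf (Subgroup.centralizer ({t} : Set G))).Normal] : Cfsg.IsLargeExtraspecial ((P.subgroupOf (Subgroup.centralizer ({t} : Set G))).map (QuotientGroup.mk' ((Subgroup.zpowers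 t).subgroupOf (Subgroup.centralizer ({t} : Set G))))) ∧ ∃ x ∈ P ⊔ ((Q).map (MulAut.conj g).toMonoidHom ⊓ Subgroup.centralizer ({t} : Set G)), x * (g * z * g⁻¹) * x⁻¹ = z := by
  rw [Fst_eq] at hF
  have h := (lx_of_Fst hz hF hQ).1
  rw [h.center'] at hgZ
  obtain ⟨s, hs⟩ : ∃ s, s = g * z * g⁻¹ := ⟨_, rfl⟩
  have h' : LX (H9.cj g Q) s := hs ▸ h.cj g
  have zP : z ∈ H9.cj g Q := h.sym hgQ
  have czs : IsConj z s := isConj_iff.2 ⟨g, hs.symm⟩
  rw [← hs] at hgQ hgZ ⊢
  have t2 : t * t = 1 := by rw [← pow_two, ← ht, pow_orderOf_eq_one]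
  have t1 := ne_one_of_ord ht
  have tz : t ≠ z := fun e => htz (e ▸ IsConj.refl _)
  have ts : t ≠ s := fun e => htz (e ▸ czs)
  have sz : s ≠ z := fun e => hgZ (e ▸ mem_zpowers _)
  have nzt : ¬ IsConj z (z * t) := fun c => by
    obtain ⟨y, -, -, e⟩ := h.toXS.exists_conj htQ.1 t1 tz
    exact htz (c.trans (isConj_iff.2 ⟨y, e.trans (h.zc t htQ.1)⟩).symm)
  have nst : ¬ IsConj z (s * t) := fun c => by
    obtain ⟨y, -, -, e⟩ := h'.toXS.exists_conj htQ.2 t1 ts
    exact htz (c.trans (isConj_iff.2 ⟨y, e.trans (h'.zc t htQ.2)⟩).symm)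
  obtain ⟨y, hy, yt, ys⟩ : ∃ y ∈ Q, y * t = t * y ∧ y * s ≠ s * y := by
    by_contra k
    push Not at k
    rcases h.toXS.dbl2 htQ.1 t2 hgQ k with e | e | e | e
    exacts [h'.z1 e, sz e, ts e.symm, nzt (e ▸ czs)]
  obtain ⟨d, hd, dt, dz⟩ : ∃ d ∈ H9.cj g Q, d * t = t * d ∧ d * z ≠ z * d := by
    by_contra k
    push Not at k
    rcases h'.toXS.dbl2 htQ.2 t2 zP k with e | e | e | e
    exacts [h.z1 e, sz e.symm, tz e.symm, nst (e ▸ IsConj.refl _)]
  obtain ⟨a1, a2⟩ := swap_elt h.z2 h'.z2 (h.zc s hgQ).symm (h.zc y hy) (h.toXS.conj hy hgQ ys) (h'.zc d hd)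
    (h'.toXS.conj hd zP dz)
  have yP : y ∈ P := hP ▸ ⟨hy, mem_centralizer_singleton_iff.2 yt⟩
  refine ⟨?_, y * d * y, mul_mem (mul_mem (mem_sup_left yP)
    (mem_sup_right ⟨hd, mem_centralizer_singleton_iff.2 dt⟩)) (mem_sup_left yP), a2⟩
  obtain ⟨f, hf⟩ : ∃ f, f = QuotientGroup.mk' ((zpowers t).subgroupOf (centralizer ({t} : Set G))) := ⟨_, rfl⟩
  have fs : Function.Surjective f := hf ▸ QuotientGroup.mk'_surjective _
  have fe : ∀ a b, f a = f b ↔ ((a : G) = b ∨ (a : G) = b * t) := fun a b => by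
    rw [hf, QuotientGroup.mk'_apply, QuotientGroup.mk'_apply, eq_comm, QuotientGroup.eq, mem_subgroupOf,
      mem_zp2 t2]
    simp only [coe_mul, coe_inv, inv_mul_eq_iff_eq_mul, mul_one]
  rw [← hf]
  have mP : ∀ x : centralizer ({t} : Set G), x ∈ P.subgroupOf (centralizer {t}) ↔ (x : G) ∈ Q := fun x => by
    rw [mem_subgroupOf, hP]; exact ⟨fun k => k.1, fun k => ⟨k, x.2⟩⟩
  have zC : z ∈ centralizer ({t} : Set G) := mem_centralizer_singleton_iff.2 (h.zc t htQ.1).symm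
  have sC : s ∈ centralizer ({t} : Set G) := mem_centralizer_singleton_iff.2 (h'.zc t htQ.2).symm
  have yC : y ∈ centralizer ({t} : Set G) := mem_centralizer_singleton_iff.2 yt
  have dC : d ∈ centralizer ({t} : Set G) := mem_centralizer_singleton_iff.2 dt
  have nc : ∀ a b : centralizer ({t} : Set G), (a : G) ∈ Q → (b : G) ∈ Q → f a * f b = f b * f a →
      (a : G) * b = b * a := by
    intro a b ha hb e
    rw [← map_mul, ← map_mul, fe] at e
    refine e.resolve_right fun e => ?_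
    simp only [coe_mul] at e
    by_cases k : (a : G) * b = b * a
    · exact t1 (mul_left_cancel (a := (b : G) * a) (by rw [← e, k, mul_one]))
    · have := h.toXS.conj ha hb k
      rw [mul_inv_eq_iff_eq_mul, e, mul_assoc, mul_assoc, ← h.zc a ha] at this
      exact tz (mul_left_cancel (mul_left_cancel this))
  have cz : ∀ c : centralizer ({t} : Set G), f c * f ⟨z, zC⟩ = f ⟨z, zC⟩ * f c → (c : G) * z = z * c := by
    intro c e
    rw [← mul_inv_eq_iff_eq_mul, ← map_mul, ← map_inv, ← map_mul, fe] at e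
    rcases e with e | e
    · exact mul_inv_eq_iff_eq_mul.1 e
    · exact (nzt (isConj_iff.2 ⟨c, e⟩)).elim
  have X : XS ((P.subgroupOf (centralizer {t})).map f) (f ⟨z, zC⟩) := by
    refine ⟨((h.p.to_le (hP ▸ inf_le_left)).comap_of_injective _ (subtype_injective _)).map _,
      ⟨_, (mP _).2 h.zQ, rfl⟩, fun e => ?_, ?_, ?_, ?_, ?_, ?_, ?_⟩
    · rw [← map_one f, fe] at e
      exact e.elim h.z1 (fun e => tz (by simpa using e.symm))
    · rw [← map_mul, ← map_one f]; congr 1; exact Subtype.ext h.z2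
    · rintro _ ⟨x, hx, rfl⟩
      rw [← map_mul, ← map_mul]; congr 1; exact Subtype.ext (h.zc _ ((mP x).1 hx))
    · rintro _ ⟨x, hx, rfl⟩ k
      rw [← map_one f, fe, fe]
      rcases h.toXS.dbl2 htQ.1 t2 ((mP x).1 hx) (fun w hw wt => (nc x ⟨w, mem_centralizer_singleton_iff.2 wt⟩
        ((mP x).1 hx) hw (k _ ⟨_, (mP _).2 hw, rfl⟩)).symm) with e | e | e | e
      · exact .inl (.inl e)
      · exact .inr (.inl e)
      · exact .inl (.inr (by simpa using e))
      · exact .inr (.inr e)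
    · rintro _ ⟨x, hx, rfl⟩
      rw [← map_mul, ← map_one f, fe, fe]
      exact (h.sq _ ((mP x).1 hx)).imp .inl .inl
    · rintro _ ⟨x, hx, rfl⟩ _ ⟨w, hw, rfl⟩
      rw [← map_inv, ← map_mul, ← map_mul, ← map_mul, fe, fe]
      exact (h.com _ ((mP x).1 hx) _ ((mP w).1 hw)).imp .inl .inl
    · exact ⟨_, ⟨⟨y, yC⟩, (mP _).2 hy, rfl⟩, _, ⟨⟨s, sC⟩, (mP _).2 hgQ, rfl⟩, fun e => ys (nc _ _ hy hgQ e)⟩
  have L : LX ((P.subgroupOf (centralizer {t})).map f) (f ⟨z, zC⟩) := by
    refine ⟨X, fun c k => ?_, fun c k => ?_⟩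
    · obtain ⟨c, rfl⟩ := fs c
      have c1 := cz c (k _ X.zQ)
      refine ⟨c, (mP c).2 ((hCP c (mem_centralizer_singleton_iff.2 c1)).1 fun x hx => ?_), rfl⟩
      rw [hP] at hx
      have := k _ ⟨⟨x, hx.2⟩, (mP _).2 hx.1, rfl⟩
      rw [← mul_inv_eq_iff_eq_mul, ← map_mul, ← map_inv, ← map_mul, fe] at this
      rcases this with e | e
      · exact ⟨1, one_mem _, by rw [mul_one]; exact e⟩
      · exact ⟨t, subset_closure (by simp), e⟩
    · obtain ⟨c, rfl⟩ := fs c
      rintro _ ⟨x, hx, rfl⟩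
      exact ⟨c * x * c⁻¹, (mP _).2 (h.nQ c (cz c k) _ ((mP x).1 hx)), by simp⟩
  have e : f ⟨y * d * y, mul_mem (mul_mem yC dC) yC⟩ * f ⟨z, zC⟩ * (f ⟨y * d * y, mul_mem (mul_mem yC dC) yC⟩)⁻¹ =
      f ⟨s, sC⟩ := by
    rw [← map_inv, ← map_mul, ← map_mul]; congr 1; exact Subtype.ext a1
  refine L.large_of_conj (g := f ⟨y * d * y, mul_mem (mul_mem yC dC) yC⟩) (by rw [e]; exact ⟨_, (mP _).2 hgQ, rfl⟩) ?_
  rw [e, Ne, fe]
  exact fun k => k.elim sz fun k => nzt (k ▸ czs)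

end Cfsg.Agent.S5429
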