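import Cfsg.Statements.S5430
import Cfsg.Agent.H2.XS2

set_option autoImplicit false
open Cfsg

namespace Cfsg.Agent.S5430

theorem s3 : ∀ σ : Equiv.Perm (Fin 3), σ ^ 3 = 1 ∨ ∃ τ : Equiv.Perm (Fin 3),
    σ * (τ * σ * τ⁻¹) ≠ 1 ∧ (σ * (τ * σ * τ⁻¹)) ^ 3 = 1 := by decide +kernel

open H2 H9 Subgroup in

/-- Let Q be a large extraspecial 2-subgroup of the finite group G (extraspecial; centralizer equal to its centre; normal in the centralizer of its centre; normalizing no non-trivial subgroup of odd order) with centre generated by z, an involution, of width w ≥ 2 (order 2^(2w+1)); let g be an element outside the centralizer H of z with g z g⁻¹ in Q; write V for the subgroup generated by z and g z g⁻¹, X for the subgroup generated by Q and g Q g⁻¹, R for the subgroup generated by the centralizer of z in g Q g⁻¹ and the centralizer of g z g⁻¹ in Q, and E for the intersection of Q and g Q g⁻¹. Then R is the centralizer of V in X and is the largest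 normal 2-subgroup of X, and X/R is isomorphic to the symmetric group of degree 3; moreover the normalizer of V is the product of X and the centralizer of V in H, X is normal in it, and modulo R it is the direct product of X/R and of the centralizer of V in H modulo R. -/
theorem result {G : Type*} [Group G] [Finite G] (Q : Subgroup G) (hQ : Cfsg.IsLargeExtraspecial Q) (z : G) (hz : ((Subgroup.center ↥Q).map Q.subtype) = Subgroup.zpowers z) (hz2 : orderOf z = 2) (w : ℕ) (hw : 2 ≤ w) (hcard : Nat.card ↥Q = 2 ^ (2 * w + 1)) (g : G) (hgH : g ∉ Subgroup.centralizer ({z} : Set G)) (hgQ : g * z * g⁻¹ ∈ Q) (V X R E : Subgroup G) (hV : V = Subgroup.closure ({z, g * z * g⁻¹} : Set G)) (hX : X = Q ⊔ (Q).map (MulAut.conj g).toMonoidHom) (hR : R = ((Q).map (MulAut.conj g).toMonoidHom ⊓ Subgroup.centralizer ({z} : Set G)) ⊔ (Q ⊓ Subgroup.centralizer ({g * z * g⁻¹} : Set G))) (hE : E = Q ⊓ (Q).map (MulAut.conj g).toMonoidHom) : R = X ⊓ Subgroup.centralizer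 (V : Set G) ∧ R = (Cfsg.pCore 2 ↥X).map X.subtype ∧ (∃ h : (R.subgroupOf X).Normal, Nonempty (↥X ⧸ R.subgroupOf X ≃* Equiv.Perm (Fin 3))) ∧ Subgroup.normalizer (V : Set G) = X ⊔ (Subgroup.centralizer ({z} : Set G) ⊓ Subgroup.centralizer (V : Set G)) ∧ (∀ y ∈ Subgroup.normalizer (V : Set G), ∀ x ∈ X, y * x * y⁻¹ ∈ X) ∧ R ≤ Subgroup.centralizer ({z} : Set G) ⊓ Subgroup.centralizer (V : Set G) ∧ (∀ x ∈ X, ∀ c ∈ Subgroup.centralizer ({z} : Set G) ⊓ Subgroup.centralizer (V : Set G), x * c * x⁻¹ * c⁻¹ ∈ R) ∧ X ⊓ (Subgroup.centralizer ({z} : Set G) ⊓ Subgroup.centralizer (V : Set G)) = R := by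
  obtain ⟨z', h⟩ := lx_of' hQ.1 hQ.2.1 hQ.2.2.1
  obtain rfl : z = z' := ((mem_zp2 h.z2).1 (h.center' ▸ hz ▸ mem_zpowers z)).resolve_left (ne_one_of_ord hz2)
  obtain ⟨y, d, hp⟩ := h.exists_pr hgQ fun e => hgH (mem_centralizer_singleton_iff.2 (conj_eq_iff_comm.1 e))
  rw [cj_def'] at hX hR
  generalize g * z * g⁻¹ = t at *
  generalize cj g Q = P at *
  have e1 : R = X ⊓ centralizer (V : Set G) := by rw [hR, hX, hV]; exact hp.cent_eq
  have e2 : centralizer ({z} : Set G) ⊓ centralizer (V : Set G) = centralizer (V : Set G) :=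
    inf_eq_right.2 fun c hc => mem_centralizer_singleton_iff.2 (mem_cV.1 (hV ▸ hc)).1
  have e3 : X ≤ normalizer (V : Set G) := by rw [hX, hV]; exact hp.XV
  have e4 : X ≤ normalizer (R : Set G) := by rw [hX, hR]; exact hp.XR
  obtain ⟨ρ, h1, h2⟩ := hp.exists_rho
  subst hV hX
  have e5 : normalizer (closure ({z, t} : Set G) : Set G) = (Q ⊔ P) ⊔ centralizer (closure ({z, t} : Set G) : Set G) := by
    refine le_antisymm (fun n hn => ?_) (sup_le e3 (centralizer_le_normalizer' _))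
    obtain ⟨x, hx, e⟩ := h2 (ρ ⟨n, hn⟩)
    rw [← mul_inv_cancel_left x n]
    exact mul_mem (mem_sup_left hx) (mem_sup_right ((h1 ((⟨x, e3 hx⟩ : normalizer _)⁻¹ * ⟨n, hn⟩)).1 (by simp [e])))
  have e6 : normalizer (closure ({z, t} : Set G) : Set G) ≤ normalizer ((Q ⊔ P : Subgroup G) : Set G) :=
    e5 ▸ sup_le le_normalizer (normalizer_sup (fun c hc => h.norm (mem_cV.1 hc).1) fun c hc => hp.p.norm (mem_cV.1 hc).2)
  let φ := ρ.comp (inclusion e3)
  have hφ : Function.Surjective φ := fun σ => by obtain ⟨x, hx, e⟩ := h2 σ; exact ⟨⟨x, hx⟩, e⟩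
  have hk : φ.ker = R.subgroupOf (Q ⊔ P) := Subgroup.ext fun x => by
    rw [e1, inf_subgroupOf_left]; exact h1 _
  rw [e2]
  haveI : (R.subgroupOf (Q ⊔ P)).Normal := hk ▸ inferInstance
  refine ⟨e1, ?_, ⟨this, ⟨(QuotientGroup.quotientMulEquivOfEq hk.symm).trans
    (QuotientGroup.quotientKerEquivOfSurjective φ hφ)⟩⟩, e5, fun n hn x hx => conj_mem_of_le_normalizer e6 hn hx,
    e1 ▸ inf_le_right, fun x hx c hc => ?_, e1.symm⟩
  · haveI := Fact.mk Nat.prime_two
    rw [Op_eq]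
    refine le_antisymm (le_Op (e1 ▸ inf_le_left) e4 (hR ▸ (hp.p.p.to_le inf_le_left).to_sup_of_normal_right'
      (h.p.to_le inf_le_left) (normalizer_inf (fun c hc => h.norm (mem_centralizer_singleton_iff.1 hc.2))
        (inf_le_left.trans (hp.p.le_cent.trans le_normalizer))))) fun o ho => ?_
    have key : ∀ (o : G) (ho : o ∈ H9.Op 2 (Q ⊔ P)), φ ⟨o, Op_le _ _ ho⟩ ^ 3 = 1 → φ ⟨o, Op_le _ _ ho⟩ = 1 := fun o ho e => by
      obtain ⟨k, hk⟩ := Op_p 2 (Q ⊔ P) ⟨o, ho⟩
      have : φ ⟨o, Op_le _ _ ho⟩ ^ 2 ^ k = 1 := by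
        rw [← map_pow, ← map_one φ]; congr 1; exact Subtype.ext (show o ^ 2 ^ k = 1 from congrArg Subtype.val hk)
      exact orderOf_eq_one_iff.1 (Nat.eq_one_of_dvd_coprimes (Nat.Coprime.pow_right k (by norm_num : Nat.Coprime 3 2))
        (orderOf_dvd_of_pow_eq_one e) (orderOf_dvd_of_pow_eq_one this))
    suffices (⟨o, Op_le _ _ ho⟩ : (Q ⊔ P : Subgroup G)) ∈ φ.ker by rwa [hk] at this
    rcases s3 (φ ⟨o, Op_le _ _ ho⟩) with a | ⟨τ, a, b⟩
    · exact key o ho a
    obtain ⟨x, rfl⟩ := hφ τ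
    rw [← map_inv, ← map_mul, ← map_mul, ← map_mul] at a b
    exact absurd (key _ (mul_mem ho (conj_mem_of_le_normalizer (le_normalizer_Op 2 _) x.2 ho)) b) a
  · rw [e1]
    refine ⟨?_, Subgroup.mul_mem _ (conj_mem_of_le_normalizer (normalizer_centralizer e3) hx hc) (Subgroup.inv_mem _ hc)⟩
    rw [mul_assoc, mul_assoc, ← mul_assoc c]
    exact Subgroup.mul_mem _ hx (conj_mem_of_le_normalizer e6 (centralizer_le_normalizer' _ hc) (Subgroup.inv_mem _ hx))

end Cfsg.Agent.S5430
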