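import Cfsg.Statements.S5431
import Cfsg.Agent.H2.XS2

set_option autoImplicit false
open Cfsg

namespace Cfsg.Agent.S5431

open H2 H9 Subgroup commutatorElement in

/-- Let Q be a large extraspecial 2-subgroup of the finite group G (extraspecial; centralizer equal to its centre; normal in the centralizer of its centre; normalizing no non-trivial subgroup of odd order) with centre generated by z, an involution, of width w ≥ 2 (order 2^(2w+1)); let g be an element outside the centralizer H of z with g z g⁻¹ in Q; write V for the subgroup generated by z and g z g⁻¹, X for the subgroup generated by Q and g Q g⁻¹, R for the subgroup generated by the centralizer of z in g Q g⁻¹ and the centralizer of g z g⁻¹ in Q, and E for the intersection of Q and g Q g⁻¹. Then V is the centre of R, E lies in the second centre of R, R is nilpotent of class at most 3, E and R/E are elementary abelian, R/E is the direct product of the images of the centralizer of g z g⁻¹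 in Q and of the centralizer of z in g Q g⁻¹ (R is their product and they meet in E), and the commutator subgroup of X and E lies in V. -/
theorem result {G : Type*} [Group G] [Finite G] (Q : Subgroup G) (hQ : Cfsg.IsLargeExtraspecial Q) (z : G) (hz : ((Subgroup.center ↥Q).map Q.subtype) = Subgroup.zpowers z) (hz2 : orderOf z = 2) (w : ℕ) (hw : 2 ≤ w) (hcard : Nat.card ↥Q = 2 ^ (2 * w + 1)) (g : G) (hgH : g ∉ Subgroup.centralizer ({z} : Set G)) (hgQ : g * z * g⁻¹ ∈ Q) (V X R E : Subgroup G) (hV : V = Subgroup.closure ({z, g * z * g⁻¹} : Set G)) (hX : X = Q ⊔ (Q).map (MulAut.conj g).toMonoidHom) (hR : R = ((Q).map (MulAut.conj g).toMonoidHom ⊓ Subgroup.centralizer ({z} : Set G)) ⊔ (Q ⊓ Subgroup.centralizer ({g * z * g⁻¹} : Set G))) (hE : E = Q ⊓ (Q).map (MulAut.conj g).toMonoidHom) : (Subgroup.center ↥R).map R.subtype = V ∧ E ≤ (Subgroup.upperCentralSeries ↥R 2).map R.subtype ∧ Subgroup.upperCentralSeries ↥R 3 = ⊤ ∧ Cfsg.IsElementaryAbelian 2 E ∧ (∀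 x ∈ R, ∀ y ∈ R, x * y * x⁻¹ * y⁻¹ ∈ E ∧ x ^ 2 ∈ E) ∧ ((Q).map (MulAut.conj g).toMonoidHom ⊓ Subgroup.centralizer ({z} : Set G)) ⊓ (Q ⊓ Subgroup.centralizer ({g * z * g⁻¹} : Set G)) = E ∧ ⁅X, E⁆ ≤ V := by
  obtain ⟨z', h⟩ := lx_of' hQ.1 hQ.2.1 hQ.2.2.1
  obtain rfl : z = z' := ((mem_zp2 h.z2).1 (h.center' ▸ hz ▸ mem_zpowers z)).resolve_left (ne_one_of_ord hz2)
  obtain ⟨y, d, hp⟩ := h.exists_pr hgQ fun e => hgH (mem_centralizer_singleton_iff.2 (conj_eq_iff_comm.1 e))
  rw [cj_def'] at hX hR hE ⊢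
  generalize g * z * g⁻¹ = t at *
  generalize cj g Q = P at *
  have hzV : zpowers z ≤ V := hV ▸ zpowers_le.2 (subset_closure (by simp))
  have htV : zpowers t ≤ V := hV ▸ zpowers_le.2 (subset_closure (by simp))
  have hVE : V ≤ E := hV ▸ hE ▸ le_inf hp.VQ (Set.pair_comm t z ▸ hp.symm.VQ)
  have hEA : E ≤ Q ⊓ centralizer {t} := hE ▸ inf_le_inf_left _ hp.p.le_cent
  have hAR : Q ⊓ centralizer {t} ≤ R := hR ▸ le_sup_right
  have hRX : R ≤ X := hR ▸ hX ▸ sup_le (inf_le_left.trans le_sup_right) (inf_le_left.trans le_sup_left)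
  have hRc : R ≤ centralizer {z} ⊓ centralizer {t} := hR ▸ hp.R_le
  have e1 : (center R).map R.subtype = V := by
    rw [map_center_subtype]
    refine le_antisymm (fun r hr => ?_) (le_inf (hVE.trans (hEA.trans hAR)) (le_centralizer_iff.1 fun r hr =>
      hV ▸ mem_cV.2 ⟨mem_centralizer_singleton_iff.1 (hRc hr).1, mem_centralizer_singleton_iff.1 (hRc hr).2⟩))
    have a : ∀ a ∈ Q, a * t = t * a → a * r = r * a := fun a ha b =>
      hr.2 a (hAR ⟨ha, mem_centralizer_singleton_iff.2 b⟩)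
    exact hV ▸ hp.memV.2 (h.dbl2 hp.tQ hp.p.z2 (h.mem_of_cent hp.tQ hp.p.z2
      (mem_centralizer_singleton_iff.1 (hRc hr.1).1) fun b hb c => (a b hb c).symm) a)
  have e2 : ⁅X, E⁆ ≤ V := by
    rw [hX]
    refine commutator_sup_le (hV ▸ hp.QV) (hV ▸ le_sup_right.trans hp.XV)
      (((commutator_mono le_rfl (hE ▸ inf_le_left)).trans h.commutator.le).trans hzV)
      (((commutator_mono le_rfl (hE ▸ inf_le_right)).trans hp.p.commutator.le).trans htV)
  have hRE : R ≤ normalizer (E : Set G) := hE ▸ normalizer_inf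
    (fun r hr => h.norm (mem_centralizer_singleton_iff.1 (hRc hr).1))
    fun r hr => hp.p.norm (mem_centralizer_singleton_iff.1 (hRc hr).2)
  have hBR : P ⊓ centralizer {z} ≤ R := hR ▸ le_sup_left
  have c1 : ⁅P ⊓ centralizer {z}, Q ⊓ centralizer {t}⁆ ≤ E := hE ▸ le_inf
    ((commutator_mono le_rfl inf_le_left).trans (commutator_le_right' (inf_le_right.trans h.normalizer_eq.ge)))
    ((commutator_mono inf_le_left le_rfl).trans (commutator_le_left' (inf_le_right.trans hp.p.normalizer_eq.ge)))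
  have e3 : ⁅R, R⁆ ≤ E := by
    have a : ∀ Y ≤ R, ⁅P ⊓ centralizer {z}, Y⁆ ≤ E → ⁅Q ⊓ centralizer {t}, Y⁆ ≤ E → ⁅R, Y⁆ ≤ E := fun Y _ a b =>
      hR ▸ commutator_sup_le (hBR.trans hRE) (hAR.trans hRE) a b
    refine a R le_rfl (commutator_comm R _ ▸ a _ hBR ?_ ((commutator_comm _ _).le.trans c1)) (commutator_comm R _ ▸ a _ hAR c1 ?_)
    · exact ((commutator_mono inf_le_left inf_le_left).trans hp.p.commutator.le).trans (htV.trans hVE)
    · exact ((commutator_mono inf_le_left inf_le_left).trans h.commutator.le).trans (hzV.trans hVE)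
  have e4 : ∀ x : R, (x : G) ∈ E → x ∈ Subgroup.upperCentralSeries R 2 := fun x hx =>
    (Subgroup.mem_upperCentralSeries_succ_iff (n := 1)).2 fun w => by
      rw [Subgroup.upperCentralSeries_one]
      have : _ ∈ V := (commutator_comm X E ▸ e2) (commutator_mem_commutator hx (hRX w.2))
      rw [← e1] at this
      obtain ⟨u, hu, e⟩ := this
      exact (show u = ⁅x, w⁆ from Subtype.ext e) ▸ hu
  have e5 : ∀ {a}, a ∈ zpowers z → a ∈ zpowers t → a = 1 := fun a b => ((mem_zp2 h.z2).1 a).resolve_right fun c =>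
    ((mem_zp2 hp.p.z2).1 (c ▸ b)).elim h.z1 hp.ne.symm
  refine ⟨e1, fun x hx => ⟨⟨x, hAR (hEA hx)⟩, e4 _ hx, rfl⟩, eq_top_iff.2 fun x _ =>
    (Subgroup.mem_upperCentralSeries_succ_iff (n := 2)).2 fun w => e4 _ (e3 (commutator_mem_commutator x.2 w.2)), ?_,
    fun x hx w hw => ⟨e3 (commutator_mem_commutator hx hw), ?_⟩, ?_, e2⟩
  · subst hE
    exact ⟨H1.isMulCommutative_of_comm fun a ha b hb => mul_inv_eq_iff_eq_mul.1 (mul_inv_eq_one.1
      (e5 (h.comm_mem ha.1 hb.1) (hp.p.comm_mem ha.2 hb.2))),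
      fun a ha => pow_two a ▸ e5 (h.sq_mem ha.1) (hp.p.sq_mem ha.2)⟩
  · obtain ⟨b, hb, a, ha, rfl⟩ := (mem_sup_of_le_normalizer (normalizer_inf (inf_le_right.trans h.normalizer_eq.ge)
      (inf_le_left.trans (hp.p.le_cent.trans le_normalizer)))).1 (hR ▸ hx)
    rw [show (b * a) ^ 2 = b * b * (b⁻¹ * a * b⁻¹⁻¹ * a⁻¹) * (a * a) by rw [pow_two]; group]
    exact mul_mem (mul_mem (hVE (htV (hp.p.sq_mem hb.1))) (c1 (commutator_mem_commutator (inv_mem hb) ha)))
      (hVE (hzV (h.sq_mem ha.1)))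
  · rw [hE]
    exact le_antisymm (fun x hx => ⟨hx.2.1, hx.1.1⟩) fun x hx => ⟨⟨hx.2, h.le_cent hx.1⟩, hx.1, hp.p.le_cent hx.2⟩

end Cfsg.Agent.S5431
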