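import Cfsg.Statements.S5432
import Cfsg.Agent.H2.EQ

set_option autoImplicit false
open Cfsg

namespace Cfsg.Agent.S5432

open Subgroup H1 H2.EQ Matrix
open scoped commutatorElement

def bP (n : ℕ) : LinearMap.BilinForm (ZMod 2) (Fin n ⊕ Fin n → ZMod 2) :=
  LinearMap.mk₂ (ZMod 2) (fun v w => ∑ i, v (.inl i) * w (.inr i))
    (fun _ _ _ => by simp [add_mul, Finset.sum_add_distrib])
    (fun _ _ _ => by simp [Finset.mul_sum, mul_assoc])
    (fun _ _ _ => by simp [mul_add, Finset.sum_add_distrib])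
    (fun _ _ _ => by simp [Finset.mul_sum, mul_left_comm])

def bM (m : ℕ) : LinearMap.BilinForm (ZMod 2) ((Fin m ⊕ Fin m) ⊕ Fin 2 → ZMod 2) :=
  LinearMap.mk₂ (ZMod 2) (fun v w => ∑ i, v (.inl (.inl i)) * w (.inl (.inr i)) +
      (v (.inr 0) * w (.inr 0) + v (.inr 0) * w (.inr 1) + v (.inr 1) * w (.inr 1)))
    (fun _ _ _ => by simp only [Pi.add_apply, add_mul, Finset.sum_add_distrib]; ring)
    (fun _ _ _ => by simp only [Pi.smul_apply, smul_eq_mul, mul_add, Finset.mul_sum, mul_assoc])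
    (fun _ _ _ => by simp only [Pi.add_apply, mul_add, Finset.sum_add_distrib]; ring)
    (fun _ _ _ => by simp only [Pi.smul_apply, smul_eq_mul, mul_add, Finset.mul_sum, mul_left_comm])

theorem ndP (n : ℕ) (v) (h : ∀ w, bP n v w = bP n w v) : v = 0 := by
  funext i
  rcases i with i | i
  · simpa [bP, Pi.single_apply] using h (Pi.single (.inr i) 1)
  · simpa [bP, Pi.single_apply] using (h (Pi.single (.inl i) 1)).symm

theorem ndM (m : ℕ) (v) (h : ∀ w, bM m v w = bM m w v) : v = 0 := by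
  funext i
  rcases i with (i | i) | i
  · simpa [bM, Pi.single_apply] using h (Pi.single (.inl (.inr i)) 1)
  · simpa [bM, Pi.single_apply] using (h (Pi.single (.inl (.inl i)) 1)).symm
  · fin_cases i
    · simpa [bM, Pi.single_apply] using h (Pi.single (.inr 1) 1)
    · simpa [bM, Pi.single_apply] using (h (Pi.single (.inr 0) 1)).symm

/-- Let E be an extraspecial 2-group of order 2^(2n+1), n ≥ 1. If E contains an elementary abelian subgroup of order 2^(n+1) (plus type), then its outer automorphism group is isomorphic to the full isometry group of the hyperbolic quadratic form in dimension 2n over the field with two elements; otherwise (minus type) it is isomorphic to the full isometry group of the elliptic quadratic form in dimension 2n over that field. -/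
theorem result {E : Type*} [Group E] [Finite E] (hE : Cfsg.IsExtraspecial 2 E) (n : ℕ) (hn : 1 ≤ n) (hcard : Nat.card E = 2 ^ (2 * n + 1)) : ((∃ A : Subgroup E, Cfsg.IsElementaryAbelian 2 A ∧ Nat.card ↥A = 2 ^ (n + 1)) → Nonempty (Cfsg.Out E ≃* Cfsg.isometryGroup (ZMod 2) (Cfsg.quadFormPlus n (ZMod 2)))) ∧ ((¬ ∃ A : Subgroup E, Cfsg.IsElementaryAbelian 2 A ∧ Nat.card ↥A = 2 ^ (n + 1)) → Nonempty (Cfsg.Out E ≃* Cfsg.isometryGroup (ZMod 2) (Cfsg.quadFormMinus (n - 1) (ZMod 2) 1 1))) := by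
  obtain ⟨z, h, -⟩ := xp_card hE hcard
  obtain ⟨m, rfl⟩ := Nat.exists_eq_add_of_le' hn
  constructor
  · rintro ⟨A, hA, hc⟩
    have c : Fintype.card (Fin (m + 1) ⊕ Fin (m + 1)) = 2 * (m + 1) := by simp; ring
    have h' := xp (ndP (m + 1)) c
    obtain ⟨B, hB, hc', -⟩ := elem (β := bP (m + 1)) (k := m + 1) (fun a => Sum.elim 0 a)
      (fun a b => by ext (i | i) <;> simp) (fun a b e => funext fun i => congrFun e (.inr i))
      (fun a b => by simp [bP])
    obtain ⟨e⟩ := h.equiv_two h' (((h.elem_le le_top hA).2 hc).trans ((h'.elem_le le_top hB).2 hc').symm)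
    obtain ⟨e'⟩ := out_iso (ndP (m + 1)) c (Cfsg.quadFormPlus (m + 1) (ZMod 2)) fun v => rfl
    exact ⟨(outCg e).trans e'⟩
  · intro hn
    have c : Fintype.card ((Fin m ⊕ Fin m) ⊕ Fin 2) = 2 * (m + 1) := by simp; ring
    have h' := xp (ndM m) c
    obtain ⟨B, hB, hc', hv⟩ := elem (β := bM m) (k := m) (fun a => Sum.elim (Sum.elim 0 a) 0)
      (fun a b => by ext ((i | i) | i) <;> simp) (fun a b e => funext fun i => congrFun e (.inl (.inr i)))
      (fun a b => by simp [bM])
    let x : EB (bM m) := ⟨Pi.single (.inr 0) 1, 0⟩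
    let y : EB (bM m) := ⟨Pi.single (.inr 1) 1, 0⟩
    have e : ⁅x, y⁆ = zz (bM m) := by
      rcases (zp2 zz_sq).1 (h'.comm x trivial y trivial) with e | e
      · exact absurd (comm_iff.1 (cm_iff.1 e)) (by simp [x, y, bM])
      · exact e
    have hx : x ^ 2 ≠ 1 := fun e => absurd (congrArg EB.c e) (by rw [sq_eq]; simp [x, bM])
    have hy : y ^ 2 ≠ 1 := fun e => absurd (congrArg EB.c e) (by rw [sq_eq]; simp [y, bM])
    have s := h'.toWS.SS_step (fun x hx => h'.toWS.pow h'.nd hx) (x := x) (y := y) trivial trivial e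
    have s2 := ((h'.CC trivial trivial e).elem_le (A := B) (fun g hg => by
      obtain ⟨a, ha⟩ := hv g hg
      exact mem_CC.2 ⟨trivial, comm_iff.2 (by simp [ha, x, bM]), comm_iff.2 (by simp [ha, y, bM])⟩) hB).2 hc'
    obtain ⟨A, -, hA, k⟩ := h.exists_elem
    obtain ⟨e⟩ := h.equiv_two h' (by
      rw [(k.resolve_left fun k => hn ⟨A, hA, k⟩).2, s, s2, sg_neg hx, sg_neg hy]; ring)
    obtain ⟨e'⟩ := out_iso (ndM m) c (Cfsg.quadFormMinus m (ZMod 2) 1 1) fun v => by
      simp only [Cfsg.quadFormMinus, bM, LinearMap.mk₂_apply]; ring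
    exact ⟨(outCg e).trans e'⟩

end Cfsg.Agent.S5432
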