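import Cfsg.Statements.S5434
import Cfsg.Agent.H2.XS2

set_option autoImplicit false
open Cfsg

namespace Cfsg.Agent.S5434

open H2 H9 Subgroup in

/-- Let Q be a large extraspecial 2-subgroup of the finite group G (extraspecial; centralizer equal to its centre; normal in the centralizer of its centre; normalizing no non-trivial subgroup of odd order), and A a non-trivial subgroup of odd order of the normalizer of Q. Then Q is the central product of the centralizer of A in Q and the commutator subgroup [Q, A] (they generate Q and commute elementwise), [Q, A] is extraspecial, and the centralizer of A in Q is either the centre of Q or extraspecial. -/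
theorem result {G : Type*} [Group G] [Finite G] (Q : Subgroup G) (hQ : Cfsg.IsLargeExtraspecial Q) (A : Subgroup G) (hA : A ≤ Subgroup.normalizer (Q : Set G)) (hAodd : Odd (Nat.card ↥A)) (hA1 : A ≠ ⊥) : (Q ⊓ Subgroup.centralizer (A : Set G)) ⊔ ⁅Q, A⁆ = Q ∧ (∀ x ∈ Q ⊓ Subgroup.centralizer (A : Set G), ∀ y ∈ ⁅Q, A⁆, x * y = y * x) ∧ Cfsg.IsExtraspecial 2 ↥⁅Q, A⁆ ∧ (Q ⊓ Subgroup.centralizer (A : Set G) = ((Subgroup.center ↥Q).map Q.subtype) ∨ Cfsg.IsExtraspecial 2 ↥(Q ⊓ Subgroup.centralizer (A : Set G))) := by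
  haveI := Fact.mk Nat.prime_two
  obtain ⟨z, h⟩ := lx_of' hQ.1 hQ.2.1 hQ.2.2.1
  have hc := copA_of_p' h.p (Nat.coprime_two_right.2 hAodd)
  have e1 := cop_commutator_sup hA hc
  have hD : ⁅Q, A⁆ ≤ Q := commutator_le_left' hA
  have hz : z ∈ centralizer (A : Set G) := fun a ha => h.conj_z (hA ha)
  have e2 : ⁅⁅Q, A⁆, Q ⊓ centralizer (A : Set G)⁆ = ⊥ := commutator_commutator_eq_bot_of_rotate
    (by rw [commutator_eq_bot_iff_le_centralizer.2 (le_centralizer_iff.1 inf_le_right), commutator_bot_left])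
    (commutator_eq_bot_iff_le_centralizer.2 (((commutator_mono inf_le_left le_rfl).trans h.commutator.le).trans
      (zpowers_le.2 hz)))
  have e3 := commutator_eq_bot_iff_le_centralizer.1 e2
  have e4 : ∀ x ∈ Q, x ∈ centralizer ((⁅Q, A⁆ : Subgroup G) : Set G) → x ∈ centralizer ((Q ⊓ centralizer (A : Set G) : Subgroup G) : Set G) →
      x = 1 ∨ x = z := fun x hx a b => h.cen x hx fun y hy => by
    have : x ∈ centralizer (Q : Set G) := by rw [← e1, centralizer_sup]; exact ⟨a, b⟩
    exact (this y hy).symm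
  have e5 : ⁅Q, A⁆ ≠ ⊥ := fun e => hA1 (eq_bot_of_p_p' (h.p.to_le ((le_centralizer_iff.1
    (commutator_eq_bot_iff_le_centralizer.1 e)).trans (h.centralizer_eq.le.trans (zpowers_le.2 h.zQ))))
    (Nat.coprime_two_right.2 hAodd))
  refine ⟨?_, fun x hx y hy => e3 hy x hx, XS.isExtra (z := z) (h.sub hD
    (h.mem_of_normal hD e5 fun y hy a ha => conj_mem_of_le_normalizer (normalizer_commutator_ge_left _ _) hy ha)
    (fun x hx a => e4 x (hD hx) (fun y hy => (a y hy).symm) (e3 hx)) ?_), ?_⟩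
  · first | exact e1 | exact e1.symm | exact (sup_comm _ _).trans e1 | exact ((sup_comm _ _).trans e1).symm
  · by_contra a
    push Not at a
    refine e5 (cop_comm_eq_bot hA hc (commutator_eq_bot_iff_le_centralizer.2 fun x hx => ?_))
    rcases e4 x (hD hx) (fun y hy => a y hy x hx) (e3 hx) with rfl | rfl
    exacts [one_mem _, hz]
  have e6 : ∀ x ∈ Q ⊓ centralizer (A : Set G), (∀ y ∈ Q ⊓ centralizer (A : Set G), x * y = y * x) → x = 1 ∨ x = z :=
    fun x hx a => e4 x hx.1 (le_centralizer_iff.1 e3 hx) fun y hy => (a y hy).symm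
  by_cases a : ∃ x ∈ Q ⊓ centralizer (A : Set G), ∃ y ∈ Q ⊓ centralizer (A : Set G), x * y ≠ y * x
  · exact Or.inr (XS.isExtra (h.sub inf_le_left ⟨h.zQ, hz⟩ e6 a))
  push Not at a
  rw [h.center']
  exact Or.inl (le_antisymm (fun x hx => (mem_zp2 h.z2).2 (e6 x hx (a x hx))) (zpowers_le.2 ⟨h.zQ, hz⟩))

end Cfsg.Agent.S5434
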