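import Cfsg.Statements.S5435
import Cfsg.Agent.H2.Fus13
import Cfsg.Agent.H2.Fus11
import Cfsg.Agent.H3.Dih
import Cfsg.Agent.H5.Dih
import Cfsg.Agent.H2.Control
import Cfsg.Agent.H2.XS
import Cfsg.Agent.H1.Frattini

set_option autoImplicit false
open Cfsg

namespace Cfsg.Agent.S5435

open Subgroup
open scoped commutatorElement

theorem extremal {G : Type*} [Group G] [Finite G] (S : Sylow 2 G) (hG : ⁅(⊤ : Subgroup G), (⊤ : Subgroup G)⁆ = ⊤)
    {M : Subgroup G} (hMS : M ≤ S) (hM : M.relIndex S = 2) {w : G} (hw : w ∈ (S : Subgroup G))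
    (o : orderOf w = 2) (c : (S : Subgroup G) ≤ centralizer {w}) :
    ∃ g ∈ normalizer ((S : Subgroup G) : Set G), g * w * g⁻¹ ∈ M := by
  haveI := Fact.mk Nat.prime_two
  have hS := H2.isSylowIn_top S
  by_contra k
  push Not at k
  refine (H2.sat_sub (hSH := le_top) hS).thompson_transfer hM hw o ?_
    (by rw [H2.focal_sub' hS, hG]; exact ⟨hw, trivial⟩)
  rintro j ⟨φ, ⟨-, -, g, -, hg⟩, rfl⟩ hj hjM
  rw [hg] at hj hjM
  have h1 := (H2.fc_sub_iff hS (zpowers_le.2 (hMS hjM))).1 hj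
  rw [H9.centralizer_zpowers, top_inf_eq] at h1
  have h2 : H2.cj g S ≤ centralizer {g * w * g⁻¹} := by
    rw [← H2.cj_centralizer_singleton]; exact H2.cj_mono g c
  have h3 : (S : Subgroup G) ≤ centralizer {g * w * g⁻¹} := by
    obtain ⟨x, -, hx⟩ := h1.exists_cj_le ((hS.cj g).pgroup) h2
    have := card_le_of_le hx
    rw [H2.card_cj, H2.card_cj] at this
    exact inf_eq_left.1 (eq_of_le_of_card_ge inf_le_left this)
  obtain ⟨x, hx, hn⟩ := H2.burnside_fusion hS le_top (mem_top g) h3 h2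
  refine k _ hn ?_
  rwa [show x * g * w * (x * g)⁻¹ = x * (g * w * g⁻¹) * x⁻¹ by group,
    mem_centralizer_singleton_iff.1 hx, mul_inv_cancel_right]

/-- Let L be a finite non-abelian simple group with an involution z whose centralizer R is a Sylow 2-subgroup of L whose Frattini subgroup is the subgroup generated by z. Then R is dihedral of order 8. -/
theorem result {L : Type*} [Group L] [Finite L] [IsSimpleGroup L] (hL : ¬ IsMulCommutative L) (z : L) (hz : orderOf z = 2) (R : Sylow 2 L) (hR : (R : Subgroup L) = Subgroup.centralizer ({z} : Set L)) (hΦ : (frattini ↥(R : Subgroup L)).map (R : Subgroup L).subtype = Subgroup.zpowers z) : Nonempty (↥(R : Subgroup L) ≃* DihedralGroup 4) := by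
  haveI := Fact.mk Nat.prime_two
  obtain ⟨f1, f2, f3⟩ := H3.simple_facts hL hz
  obtain ⟨S, hS⟩ : ∃ S, S = (R : Subgroup L) := ⟨_, rfl⟩
  have z2 : z * z = 1 := by rw [← pow_two, ← hz, pow_orderOf_eq_one]
  have z1 := (fun e => by simp [e] at hz : z ≠ 1)
  have mS : ∀ x, x ∈ S ↔ x * z = z * x := fun x => by rw [hS, hR, mem_centralizer_singleton_iff]
  have zS : z ∈ S := (mS z).2 rfl
  have sq : ∀ x ∈ S, x * x ∈ zpowers z := fun x hx => by
    rw [← hΦ, ← pow_two]; exact H1.pow_mem_map_frattini R.isPGroup' (hS ▸ hx)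
  have cm : ∀ x ∈ S, ∀ y ∈ S, x * y * x⁻¹ = y ∨ x * y * x⁻¹ = y * z := fun x hx y hy => by
    have : y⁻¹ * (x * y * x⁻¹) ∈ zpowers z := by
      rw [show y⁻¹ * (x * y * x⁻¹) = y⁻¹ * y⁻¹ * (y * x * (y * x)) * (x * x)⁻¹ by group]
      exact mul_mem (mul_mem (sq _ (S.inv_mem hy)) (sq _ (S.mul_mem hy hx))) (inv_mem (sq _ hx))
    exact ((H2.mem_zp2 z2).1 this).imp (fun e => (inv_mul_eq_one.1 e).symm) fun e => by rw [← e]; group
  have NS : normalizer (S : Set L) ≤ S := fun g hg => by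
    have := H1.map_char_le_normalizer (R : Subgroup L) (frattini _) (hS ▸ hg)
    rw [hΦ] at this
    rcases (H2.mem_zp2 z2).1 ((mem_normalizer_iff.1 this z).1 (mem_zpowers z)) with e | e
    · exact (z1 (by simpa using e)).elim
    · exact (mS g).2 (mul_inv_eq_iff_eq_mul.1 e)
  obtain ⟨g, tS, tz⟩ := H3.zstar_conj (H9.syl_top_of_sylow R) f2 hz (by rw [f3]; exact z1)
  rw [← hS] at tS
  obtain ⟨t, ht⟩ : ∃ t, t = g * z * g⁻¹ := ⟨_, rfl⟩
  rw [← ht] at tS tz
  have t2 : t * t = 1 := by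
    rw [ht]
    calc _ = g * (z * z) * g⁻¹ := by group
      _ = 1 := by rw [z2]; group
  have t1 : t ≠ 1 := fun e => z1 (by simpa [ht] using e)
  have cg : ∀ x, x * t = t * x → g⁻¹ * x * g ∈ S := fun x hx => by
    rw [mS]
    calc g⁻¹ * x * g * z = g⁻¹ * (x * t) * g := by rw [ht]; group
      _ = _ := by rw [hx, ht]; group
  have el : ∀ x ∈ S, x * t = t * x → x * x = 1 := fun x hx c => by
    refine ((H2.mem_zp2 z2).1 (sq x hx)).resolve_right fun e => ?_
    have := (H2.mem_zp2 z2).1 (sq _ (cg x c))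
    rw [show g⁻¹ * x * g * (g⁻¹ * x * g) = g⁻¹ * (x * x) * g by group, e] at this
    rcases this with k | k
    · refine z1 ?_
      calc z = g * (g⁻¹ * z * g) * g⁻¹ := by group
        _ = 1 := by rw [k]; group
    · refine tz ?_
      rw [ht]
      calc g * z * g⁻¹ = g * (g⁻¹ * z * g) * g⁻¹ := by rw [k]
        _ = z := by group
  obtain ⟨y, yS, yt⟩ : ∃ y ∈ S, y * t ≠ t * y := by
    by_contra k
    push Not at k
    have : g⁻¹ ∈ S := NS (H2.mem_normalizer_of_cj_le (by
      rintro _ ⟨x, hx, rfl⟩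
      simpa using cg x (k x hx)))
    refine tz ?_
    rw [ht, mul_inv_eq_iff_eq_mul]
    exact (mS g).1 (by simpa using S.inv_mem this)
  have perf : ⁅(⊤ : Subgroup L), (⊤ : Subgroup L)⁆ = ⊤ :=
    ((inferInstance : (_root_.commutator L).Normal).eq_bot_or_eq_top).resolve_left fun e =>
      hL ⟨⟨fun a b => (commutator_eq_bot_iff_le_centralizer.1 e (mem_top b) a (mem_top a))⟩⟩
  have cen : ∀ w ∈ S, (∀ x ∈ S, x * w = w * x) → w ∈ zpowers z := by
    intro w hw c
    by_contra n
    obtain ⟨M, h1, h2, h3, h4⟩ := H2.exists_hyp (zpowers_le.2 zS) sq hw n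
    obtain ⟨x, hx, k⟩ := extremal R perf (hS ▸ h2) (hS ▸ relIndex_eq_two_iff_exists_notMem_and.2
      ⟨w, hw, h3, fun b hb => (em (b ∈ M)).symm.imp_left fun k => h4 b hb w hw k h3⟩) (hS ▸ hw)
      (orderOf_eq_prime (by rw [pow_two]; exact el w hw (c t tS).symm) fun e => n (by rw [e]; exact one_mem _))
      (fun x hx => mem_centralizer_singleton_iff.2 (c x (hS ▸ hx)))
    rw [c x (NS (hS ▸ hx)), mul_inv_cancel_right] at k
    exact h3 k
  have nt : ∀ x ∈ S, x * t ≠ t * x → x * t * x⁻¹ = t * z := fun x hx n =>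
    (cm x hx t tS).resolve_left fun e => n (mul_inv_eq_iff_eq_mul.1 e)
  have zt : z * t = t * z := ((mS t).1 tS).symm
  obtain ⟨s, sS, st, s2⟩ : ∃ s ∈ S, s * t ≠ t * s ∧ s * s = 1 := by
    rcases (H2.mem_zp2 z2).1 (sq y yS) with e | e
    · exact ⟨y, yS, yt, e⟩
    · refine ⟨y * t, S.mul_mem yS tS, fun k => yt (by rw [← mul_assoc] at k; exact mul_right_cancel k), ?_⟩
      calc y * t * (y * t) = (y * t * y⁻¹) * (y * y) * t := by group
        _ = t * (z * z) * t := by rw [nt y yS yt, e]; group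
        _ = 1 := by rw [z2, mul_one, t2]
  have si : s⁻¹ = s := inv_eq_of_mul_eq_one_right s2
  have r2 : s * t * (s * t) = z := by
    calc s * t * (s * t) = (s * t * s⁻¹) * t := by rw [si]; group
      _ = z := by rw [nt s sS st, ← zt, mul_assoc, t2, mul_one]
  have split : ∀ x ∈ S, x * t ≠ t * x → s * x * t = t * (s * x) := fun x hx n => by
    rw [← mul_inv_eq_iff_eq_mul]
    calc s * x * t * (s * x)⁻¹ = s * (x * t * x⁻¹) * s⁻¹ := by group
      _ = (s * t * s⁻¹) * (s * z * s⁻¹) := by rw [nt x hx n]; group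
      _ = t := by rw [nt s sS st, (mS s).1 sS, mul_inv_cancel_right, mul_assoc, z2, mul_one]
  have ab : ∀ a ∈ S, ∀ b ∈ S, a * t = t * a → b * t = t * b → a * b = b * a := fun a ha b hb c d => by
    have := el _ (S.mul_mem ha hb) (by rw [mul_assoc, d, ← mul_assoc, c, mul_assoc])
    calc a * b = (a * b)⁻¹ := (inv_eq_of_mul_eq_one_right this).symm
      _ = b * a := by rw [mul_inv_rev, inv_eq_of_mul_eq_one_right (el a ha c), inv_eq_of_mul_eq_one_right (el b hb d)]
  obtain ⟨D, hD⟩ : ∃ D, D = closure ({s * t, s} : Set L) := ⟨_, rfl⟩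
  have rD : s * t ∈ D := hD ▸ subset_closure (by simp)
  have sD : s ∈ D := hD ▸ subset_closure (by simp)
  have tD : t ∈ D := (D.mul_mem_cancel_left sD).1 rD
  have zD : zpowers z ≤ D := zpowers_le.2 (r2 ▸ D.mul_mem rD rD)
  have c1 : ∀ a ∈ S, a * t = t * a → s * a = a * s → a ∈ D := fun a ha c d => zD (cen a ha fun x hx => by
    by_cases k : x * t = t * x
    · exact ab x hx a ha k c
    · have := ab _ (S.mul_mem sS hx) a ha (split x hx k) c
      rw [← mul_assoc, ← d, mul_assoc, mul_assoc] at this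
      exact mul_left_cancel this)
  have c2 : ∀ a ∈ S, a * t = t * a → a ∈ D := fun a ha c => by
    rcases cm s sS a ha with e | e
    · exact c1 a ha c (mul_inv_eq_iff_eq_mul.1 e)
    · refine (D.mul_mem_cancel_right tD).1 (c1 _ (S.mul_mem ha tS) (by rw [← mul_assoc, ← c]) ?_)
      rw [← mul_inv_eq_iff_eq_mul]
      calc s * (a * t) * s⁻¹ = (s * a * s⁻¹) * (s * t * s⁻¹) := by group
        _ = a * (z * t) * z := by rw [e, nt s sS st]; group
        _ = a * t := by rw [zt, mul_assoc, mul_assoc, z2, mul_one]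
  have e : (R : Subgroup L) = closure ({s * t, s} : Set L) := by
    rw [← hS, ← hD]
    refine le_antisymm (fun x hx => ?_) ?_
    · by_cases k : x * t = t * x
      · exact c2 x hx k
      · exact (D.mul_mem_cancel_left sD).1 (c2 _ (S.mul_mem sS hx) (split x hx k))
    · rw [hD, closure_le]
      rintro _ (rfl | rfl)
      exacts [S.mul_mem sS tS, sS]
  have o4 : orderOf (s * t) = 2 ^ 2 := orderOf_eq_prime_pow (by rw [pow_one, pow_two, r2]; exact z1)
    (by rw [show 2 ^ (1 + 1) = 2 * 2 from rfl, pow_mul, pow_two (s * t), r2, pow_two, z2])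
  obtain ⟨φ⟩ := H5.dih_equiv_closure (n := 4) (by norm_num) (s * t) s o4 s2
    (by rw [← mul_assoc, s2, one_mul, mul_inv_rev, inv_eq_of_mul_eq_one_right t2]) (fun k => st (by
      obtain ⟨n, hn⟩ := k
      have := (Commute.refl (s * t)).zpow_right n
      rw [show (s * t) ^ n = s from hn] at this
      exact mul_left_cancel (a := s) (by rw [← mul_assoc s t s, this.eq])))
  exact ⟨(MulEquiv.subgroupCongr e).trans φ⟩

end Cfsg.Agent.S5435
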