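import Cfsg.Statements.S5436
import Cfsg.Agent.H2.XS3

set_option autoImplicit false
open Cfsg

namespace Cfsg.Agent.S5436

open H2 H9 Subgroup

/-- Let z be an involution of the finite group G with centralizer H whose generalized Fitting subgroup Q is extraspecial of width at least 2 (order 2^(2w+1), w ≥ 2); suppose some conjugate of z other than z lies in Q, H/Q is a non-abelian simple group, H acts irreducibly by conjugation on Q modulo the subgroup generated by z (the only H-invariant subgroups of Q containing z are that subgroup and Q), and Q is not the subgroup generated by the conjugates of z lying in H. Then G is simple. -/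
theorem result {G : Type*} [Group G] [Finite G] (z : G) (hz : orderOf z = 2) (Q : Subgroup (Subgroup.centralizer ({z} : Set G))) [Q.Normal] (hF : Cfsg.generalizedFittingSubgroup ↥(Subgroup.centralizer ({z} : Set G)) = Q) (hQ : Cfsg.IsExtraspecial 2 ↥Q) (w : ℕ) (hw : 2 ≤ w) (hcard : Nat.card ↥Q = 2 ^ (2 * w + 1)) (hnwc : ∃ g : G, (∃ hq : g * z * g⁻¹ ∈ Subgroup.centralizer ({z} : Set G), (⟨g * z * g⁻¹, hq⟩ : Subgroup.centralizer ({z} : Set G)) ∈ Q) ∧ g * z * g⁻¹ ≠ z) (hsimp : IsSimpleGroup (↥(Subgroup.centralizer ({z} : Set G)) ⧸ Q)) (hna : ¬ IsMulCommutative (↥(Subgroup.centralizer ({z} : Set G)) ⧸ Q)) (hirr : ∀ W : Subgroup (Subgroup.centralizer ({z} : Set G)), W.Normal → W ≤ Q → (W = Q ∨ ∀ x ∈ W, (x : G) ∈ Subgroup.zpowers z)) (hwcl : Subgroup.closure {x : Subgroup.centralizer ({z} : Set G) | IsConj z (x : G)} ≠ Q) : IsSimpleGroup G := by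
  have hE : Cfsg.IsExtraspecial 2 (Q.map (centralizer ({z} : Set G)).subtype) := by
    obtain ⟨w, hw⟩ := xs_of hQ
    exact (hw.map _ fun x _ e => Subtype.ext e).isExtra
  have h := (lx_of_Fst hz (by rw [← Fst_eq, hF]) hE).1
  obtain ⟨g, ⟨hq, h1⟩, h2⟩ := hnwc
  have hl := h.large_of_conj (g := g) ⟨_, h1, rfl⟩ h2
  haveI : Nontrivial G := ⟨⟨z, 1, h.z1⟩⟩
  refine ⟨fun N hN => (em (N = ⊥)).imp id fun ne => h.top_of hl ?_⟩
  have zN := h.mem_normal hl ne
  obtain ⟨W, hW⟩ : ∃ W, W = closure {x : centralizer ({z} : Set G) | IsConj z (x : G)} := ⟨_, rfl⟩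
  rw [← hW] at hwcl
  have WN : W ≤ N.subgroupOf _ := by
    rw [hW, closure_le]
    intro x hx
    obtain ⟨c, hc⟩ := isConj_iff.1 hx
    exact (show (x : G) ∈ N from hc ▸ hN.conj_mem z zN c)
  haveI Wn : W.Normal := by
    rw [hW]
    refine ⟨fun n hn c => ?_⟩
    induction hn using closure_induction with
    | mem x hx => exact subset_closure (IsConj.trans hx (isConj_iff.2 ⟨c, rfl⟩))
    | one => simp
    | mul x y _ _ a b => simpa [mul_assoc] using mul_mem a b
    | inv x _ a => simpa [mul_assoc] using inv_mem a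
  have QW : Q ≤ W := by
    rcases hirr (W ⊓ Q) inferInstance inf_le_right with e | e
    · exact e.ge.trans inf_le_left
    · have := e ⟨_, hq⟩ ⟨hW ▸ subset_closure (isConj_iff.2 ⟨g, rfl⟩), h1⟩
      rcases (mem_zp2 h.z2).1 this with e | e
      · exact (h.z1 (by simpa using e)).elim
      · exact (h2 e).elim
  have : W = ⊤ := by
    rcases hsimp.eq_bot_or_eq_top_of_normal (W.map (QuotientGroup.mk' Q))
      (Wn.map _ (QuotientGroup.mk'_surjective Q)) with e | e
    · rw [Subgroup.map_eq_bot_iff, QuotientGroup.ker_mk'] at e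
      exact (hwcl (le_antisymm e QW)).elim
    · rw [← comap_map_eq_self (f := QuotientGroup.mk' Q) (H := W) (by rwa [QuotientGroup.ker_mk']), e, comap_top]
  intro c hc
  exact WN (this ▸ mem_top (⟨c, hc⟩ : centralizer ({z} : Set G)))

end Cfsg.Agent.S5436
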