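import Cfsg.Statements.S5437
import Cfsg.Agent.H9.Basic

set_option autoImplicit false
open Cfsg

namespace Cfsg.Agent.S5437

open Subgroup H9

/-- Let I be a set of involutions of the finite group G closed under conjugation, and H a subgroup of G. The following are equivalent: (1) for every member x of I lying in H, the conjugates of x lying in H form a single H-class and the centralizer of x lies in H; (2) for every g outside H, no member of I lies in both H and g H g⁻¹; (3) every member of I lying in H fixes exactly one coset in the action of G on the cosets of H. -/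
theorem result {G : Type*} [Group G] [Finite G] (I : Set G) (hI : ∀ x ∈ I, orderOf x = 2) (hIc : ∀ g : G, ∀ x ∈ I, g * x * g⁻¹ ∈ I) (H : Subgroup G) : ((∀ x ∈ I, x ∈ H → (∀ g : G, g * x * g⁻¹ ∈ H → ∃ h ∈ H, h * x * h⁻¹ = g * x * g⁻¹) ∧ Subgroup.centralizer ({x} : Set G) ≤ H) ↔ (∀ g : G, g ∉ H → ∀ x ∈ I, ¬ (x ∈ H ∧ x ∈ (H : Subgroup G).map (MulAut.conj g).toMonoidHom))) ∧ ((∀ g : G, g ∉ H → ∀ x ∈ I, ¬ (x ∈ H ∧ x ∈ (H : Subgroup G).map (MulAut.conj g).toMonoidHom)) ↔ ∀ x ∈ I, x ∈ H → ∃! c : G ⧸ H, x • c = c) := by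
  have A : ∀ (x g : G), x • (g : G ⧸ H) = (g : G ⧸ H) ↔ g⁻¹ * x * g ∈ H := fun x g => by
    rw [MulAction.Quotient.smul_coe, smul_eq_mul, eq_comm, QuotientGroup.eq, mul_assoc]
  refine ⟨⟨fun h g hg x hx ⟨h1, h2⟩ => ?_, fun h x hx hxH => ⟨fun g hg => ?_, fun c hc => ?_⟩⟩,
    ⟨fun h x hx hxH => ⟨((1 : G) : G ⧸ H), (A x 1).2 (by simpa using hxH), fun c hc => ?_⟩,
      fun h g hg x hx ⟨h1, h2⟩ => ?_⟩⟩
  · have h2' : g⁻¹ * x * g ∈ H := mem_cj.1 h2
    obtain ⟨k, hk, e⟩ := (h x hx h1).1 g⁻¹ (by simpa using h2')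
    have : g * k ∈ centralizer ({x} : Set G) := by
      rw [mem_centralizer_singleton_iff]
      have : g * k * x = g * (k * x * k⁻¹) * k := by group
      rw [this, e]; group
    have := (h x hx h1).2 this
    exact hg (by simpa using H.mul_mem this (H.inv_mem hk))
  · by_cases hgH : g ∈ H
    · exact ⟨g, hgH, rfl⟩
    · exact absurd ⟨hg, conj_mem_cj hxH⟩ (h g hgH _ (hIc g x hx))
  · by_contra hcH
    refine h c hcH x hx ⟨hxH, mem_cj.2 ?_⟩
    rw [mul_assoc, ← mem_centralizer_singleton_iff.1 hc, inv_mul_cancel_left]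
    exact hxH
  · obtain ⟨g, rfl⟩ := QuotientGroup.mk_surjective c
    by_contra hg
    refine h g (fun hgH => hg ?_) x hx ⟨hxH, mem_cj.2 ((A x g).1 hc)⟩
    exact QuotientGroup.eq.2 (by simpa using hgH)
  · obtain ⟨c, -, hc⟩ := h x hx h1
    have := (hc _ ((A x g).2 (mem_cj.1 h2))).trans (hc _ ((A x 1).2 (by simpa using h1))).symm
    exact hg (by simpa using QuotientGroup.eq.1 this)

end Cfsg.Agent.S5437
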