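import Cfsg.Statements.S5438
import Cfsg.Agent.H9.Syl

set_option autoImplicit false
open Cfsg

namespace Cfsg.Agent.S5438

open Subgroup H9

/-- Let z be a 2-central involution of the finite group G (an involution central in some Sylow 2-subgroup) and H a subgroup containing z such that the coset H is the only coset of H fixed by z (in the action of G on the cosets of H). Then H has odd index in G, and for every 2-element x of H the conjugates of x lying in H form a single H-class. -/
theorem result {G : Type*} [Group G] [Finite G] (z : G) (hz : Cfsg.IsTwoCentralInvolution z) (H : Subgroup G) (hzH : z ∈ H) (hfix : ∀ g : G, g⁻¹ * z * g ∈ H → g ∈ H) : Odd H.index ∧ ∀ x ∈ H, (∃ k : ℕ, orderOf x = 2 ^ k) → ∀ g : G, g * x * g⁻¹ ∈ H → ∃ h ∈ H, h * x * h⁻¹ = g * x * g⁻¹ := by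
  haveI : Fact (Nat.Prime 2) := ⟨Nat.prime_two⟩
  obtain ⟨hz2, P, hzP, hP⟩ := hz
  have hC : centralizer ({z} : Set G) ≤ H := fun c hc => hfix c (by
    rw [mul_assoc, ← mem_centralizer_singleton_iff.1 hc, inv_mul_cancel_left]; exact hzH)
  have hPC : (P : Subgroup G) ≤ centralizer {z} := fun x hx => mem_centralizer_singleton_iff.2 (hP x hx)
  have hS := syl_top_of_sylow P
  have hSH : Syl 2 (P : Subgroup G) H := hS.mono (hPC.trans hC) le_top
  refine ⟨?_, fun x hx ⟨k, hk⟩ g hg => ?_⟩
  · rw [← Nat.not_even_iff_odd, even_iff_two_dvd]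
    intro h
    exact P.not_dvd_index (h.trans (index_dvd_of_le (hPC.trans hC)))
  · have pg : ∀ y : G, orderOf y = 2 ^ k → IsPGroup 2 (zpowers y) := fun y hy =>
      IsPGroup.of_card (n := k) (by rw [Nat.card_zpowers, hy])
    obtain ⟨a, ha, h1⟩ := hSH.exists_cj_le (pg x hk) (zpowers_le.2 hx)
    obtain ⟨b, hb, h2⟩ := hSH.exists_cj_le (pg (g * x * g⁻¹) (by
      rw [← hk]; exact (MulAut.conj g).orderOf_eq x)) (zpowers_le.2 hg)
    have h1' := h1 (conj_mem_cj (mem_zpowers x))
    have h2' := h2 (conj_mem_cj (mem_zpowers _))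
    -- z and z' both centralize y = a x a⁻¹
    set y := a * x * a⁻¹ with hy
    set u := b * g * a⁻¹ with hu
    have e2 : b * (g * x * g⁻¹) * b⁻¹ = u * y * u⁻¹ := by rw [hu, hy]; group
    rw [e2] at h2'
    have hz1 : z ∈ centralizer ({y} : Set G) := mem_centralizer_singleton_iff.2 (hP y h1').symm
    have hz2' : u⁻¹ * z * u ∈ centralizer ({y} : Set G) := by
      rw [mem_centralizer_singleton_iff]
      have := hP _ h2'
      calc u⁻¹ * z * u * y = u⁻¹ * (z * (u * y * u⁻¹)) * u := by group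
        _ = _ := by rw [← this]; group
    have p2 : ∀ w : G, orderOf w = 2 → IsPGroup 2 (zpowers w) := fun w hw =>
      IsPGroup.of_card (n := 1) (by rw [Nat.card_zpowers, hw, pow_one])
    obtain ⟨T, hT, hzT⟩ := exists_syl_ge (p2 z hz2) (zpowers_le.2 hz1)
    obtain ⟨c, hc, h3⟩ := hT.exists_cj_le (p2 (u⁻¹ * z * u) (by
      rw [← hz2]; simpa using (MulAut.conj u⁻¹).orderOf_eq z)) (zpowers_le.2 hz2')
    have h3' := h3 (conj_mem_cj (mem_zpowers _))
    -- T ≤ H
    have hTH : T ≤ H := by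
      by_contra hn
      have hlt : T ⊓ H < T := lt_of_le_of_ne inf_le_left fun h => hn (h.ge.trans inf_le_right)
      haveI := hT.isP.isNilpotent
      have hnc := Group.normalizerCondition_of_isNilpotent (G := T) ((T ⊓ H).subgroupOf T) (by
        rw [lt_top_iff_ne_top, Ne, subgroupOf_eq_top]
        exact fun h => hn (h.trans inf_le_right))
      obtain ⟨t, ht, ht'⟩ := SetLike.exists_of_lt hnc
      have := (mem_normalizer_iff''.1 ht ⟨z, hzT (mem_zpowers z)⟩).1 ⟨hzT (mem_zpowers z), hzH⟩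
      exact ht' ⟨t.2, hfix t this.2⟩
    have h4 : u * c⁻¹ ∈ H := hfix _ (by simpa [mul_assoc] using hTH h3')
    refine ⟨b⁻¹ * (u * c⁻¹) * a, H.mul_mem (H.mul_mem (H.inv_mem hb) h4) ha, ?_⟩
    have hc' := mem_centralizer_singleton_iff.1 hc
    have : c⁻¹ * y * c = y := by rw [mul_assoc, ← hc', inv_mul_cancel_left]
    calc _ = b⁻¹ * u * (c⁻¹ * y * c) * u⁻¹ * b := by rw [hy]; group
      _ = _ := by rw [this, hy, hu]; group

end Cfsg.Agent.S5438
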