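import Cfsg.Statements.S5439
import Cfsg.Agent.H2.UFix

set_option autoImplicit false
open Cfsg

namespace Cfsg.Agent.S5439

open Subgroup Cfsg.Agent.H2

/-- Let I and J be two different conjugacy classes of involutions of the finite group G and H a subgroup such that every member of I ∪ J fixes exactly one coset in the action on the cosets of H, and such that for every a in I ∩ H and every b in (I ∪ J) ∩ H different from a and commuting with it, the centralizer of a b lies in H. Then H = G. -/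
theorem result {G : Type*} [Group G] [Finite G] (I J : Set G) (a₀ b₀ : G) (ha₀ : orderOf a₀ = 2) (hb₀ : orderOf b₀ = 2) (hI : I = {x | IsConj a₀ x}) (hJ : J = {x | IsConj b₀ x}) (hIJ : I ≠ J) (H : Subgroup G) (hfix : ∀ x ∈ I ∪ J, ∃! c : G ⧸ H, x • c = c) (hcent : ∀ a ∈ I, a ∈ H → ∀ b ∈ I ∪ J, b ∈ H → a ≠ b → a * b = b * a → Subgroup.centralizer ({a * b} : Set G) ≤ H) : H = ⊤ := by
  by_contra hH
  obtain ⟨g, hg⟩ : ∃ g, g ∉ H := by by_contra! h; exact hH (eq_top_iff.2 fun x _ => h x)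
  have ex : ∀ x₀ : G, x₀ ∈ I ∪ J → ∃ x, IsConj x₀ x ∧ x ∈ H := fun x₀ h => by
    obtain ⟨c, hc, -⟩ := hfix x₀ h
    obtain ⟨k, rfl⟩ := QuotientGroup.mk_surjective c
    exact ⟨_, isConj_iff.2 ⟨k⁻¹, by rw [inv_inv]⟩, smul_mk_eq.1 hc⟩
  have un : ∀ x ∈ I ∪ J, x ∈ H → ∀ k : G, k⁻¹ * x * k ∈ H → k ∈ H := fun x hx h k hk => by
    have := (hfix x hx).unique (smul_mk_eq.2 hk) (smul_mk_eq (g := 1).2 (by simpa using h))
    simpa using QuotientGroup.eq.1 this.symm
  obtain ⟨a, a1, a2⟩ := ex a₀ (Or.inl (hI ▸ IsConj.refl _))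
  obtain ⟨b, b1, b2⟩ := ex b₀ (Or.inr (hJ ▸ IsConj.refl _))
  have b3 : IsConj b₀ (g * b * g⁻¹) := b1.trans (isConj_iff.2 ⟨g, rfl⟩)
  have aI : a ∈ I := hI ▸ a1
  obtain ⟨z, z1, z2, z3, z4⟩ := H1.pair_not_isConj (x := a) (y := g * b * g⁻¹) (conj_sq a1 (sq_of_two ha₀))
    (conj_sq b3 (sq_of_two hb₀)) fun h => hIJ (by
      have e : IsConj a₀ b₀ := (a1.trans h).trans b3.symm
      rw [hI, hJ]; ext x; exact ⟨e.symm.trans, e.trans⟩)
  have a3 := conj_sq a1 (sq_of_two ha₀)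
  have h1 : a * z ∈ I ∪ J := (dih_conj a3 (conj_sq b3 (sq_of_two hb₀)) z1).imp
    (fun h => hI ▸ a1.trans h) fun h => hJ ▸ b3.trans h
  have c : Commute a (a * z) := (Commute.refl a).mul_right z3.symm
  have h2 : a * z ∈ H := un a (Or.inl aI) a2 _ (by rwa [mul_assoc, c.eq, inv_mul_cancel_left])
  have h3 := hcent a aI a2 _ h1 h2 (fun e => H1.two_ne z2 (by simpa using e)) c
  rw [← mul_assoc, a3, one_mul] at h3
  exact hg (un _ (Or.inr (hJ ▸ b3)) (h3 (mem_centralizer_singleton_iff.2 z4.symm)) g (by simpa [mul_assoc] using b2))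

end Cfsg.Agent.S5439
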