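import Cfsg.Statements.S5453
import Cfsg.Agent.H7.Dc22

set_option autoImplicit false
open Cfsg

namespace Cfsg.Agent.S5453

open H7 H7.T Subgroup

/-- Let G be a finite group with an involution d whose centralizer C is quasisimple, such that C modulo the subgroup generated by d is of type M(22) with respect to some conjugacy class of 3-transpositions generating it and also has an involution whose own centralizer is quasisimple with quotient by it isomorphic to the projective special unitary group of dimension 6 over the field with four elements and which is not weakly closed in that centralizer; and suppose some conjugate of d other than d commutes with d. Then every involution of C modulo the subgroup generated by d is the image of an involution of C, and d is not a square in G. -/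
theorem result {G : Type*} [Group G] [Finite G] (d : G) (hd : orderOf d = 2) (hq : Cfsg.IsQuasisimple ↥(Subgroup.centralizer ({d} : Set G))) [hzn : ((Subgroup.zpowers d).subgroupOf (Subgroup.centralizer ({d} : Set G))).Normal] (htype : ∃ E : Set (↥(Subgroup.centralizer ({d} : Set G)) ⧸ (Subgroup.zpowers d).subgroupOf (Subgroup.centralizer ({d} : Set G))), Cfsg.IsThreeTranspositionClass E ∧ Cfsg.IsOfTypeM22 _ E) (hinvol : ∃ d' : ↥(Subgroup.centralizer ({d} : Set G)) ⧸ (Subgroup.zpowers d).subgroupOf (Subgroup.centralizer ({d} : Set G)), orderOf d' = 2 ∧ Cfsg.IsQuasisimple ↥(Subgroup.centralizer ({d'} : Set _)) ∧ (∃ (K : Type) (_ : Field K) (_ : Fintype K), Fintype.card K = 4 ∧ ∃ _ : ((Subgroup.zpowers d').subgroupOf (Subgroup.centralizer ({d'} : Set _))).Normal, Nonempty (↥(Subgroup.centralizer ({d'} : Set _)) ⧸ (Subgroup.zpowers d').subgroupOf (Subgroup.centralizer ({d'} : Set _)) ≃* Cfsg.PSU 6 K 2)) ∧ ∃ g, g * d' * g⁻¹ ∈ Subgroup.centralizer ({d'} : Set _) ∧ g * d' * g⁻¹ ≠ d') (hnwc : ∃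 g : G, g * d * g⁻¹ ∈ Subgroup.centralizer ({d} : Set G) ∧ g * d * g⁻¹ ≠ d) : (∀ x : ↥(Subgroup.centralizer ({d} : Set G)) ⧸ (Subgroup.zpowers d).subgroupOf (Subgroup.centralizer ({d} : Set G)), orderOf x = 2 → ∃ y : ↥(Subgroup.centralizer ({d} : Set G)), orderOf y = 2 ∧ (QuotientGroup.mk y : ↥(Subgroup.centralizer ({d} : Set G)) ⧸ (Subgroup.zpowers d).subgroupOf (Subgroup.centralizer ({d} : Set G))) = x) ∧ ¬ ∃ g : G, g ^ 2 = d := by
  obtain ⟨E, ⟨t, ⟨e, -, rfl⟩, g⟩, h22⟩ := htype
  obtain ⟨F, -⟩ := rec22' ⟨t, fun g _ h => IsConj.trans h (isConj_iff.2 ⟨g, rfl⟩), g⟩ h22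
  obtain ⟨φ, -⟩ := F.equiv F22
  let f := Shrink.mulEquiv.{0} (α := centralizer ({d} : Set G))
  have o := sq_of_order hd
  have z : ∀ x : centralizer ({d} : Set G), x ∈ (zpowers d).subgroupOf _ → x ∈ center _ ∧ x * x = 1 := fun x ⟨k, h⟩ =>
    ⟨mem_center_iff.2 fun y => Subtype.ext (by
      rw [coe_mul, coe_mul, ← show d ^ k = x from h]; exact (Commute.zpow_right (mem_centralizer_singleton_iff.1 y.2) k).eq), Subtype.ext (by
      rw [coe_mul, ← show d ^ k = x from h, ← (Commute.refl d).mul_zpow, o, one_zpow, coe_one])⟩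
  have k : ∀ x, x ∈ (φ.toMonoidHom.comp ((QuotientGroup.mk' _).comp f.toMonoidHom)).ker → f x ∈ (zpowers d).subgroupOf _ := fun x h =>
    (QuotientGroup.eq_one_iff _).1 (φ.map_eq_one_iff.1 h)
  have a : ∀ x : centralizer ({d} : Set G) ⧸ (zpowers d).subgroupOf _, orderOf x = 2 → ∃ y : centralizer ({d} : Set G), orderOf y = 2 ∧ QuotientGroup.mk y = x := fun x hx => by
    obtain ⟨y, h, e⟩ := lift22 (φ.toMonoidHom.comp ((QuotientGroup.mk' _).comp f.toMonoidHom)) (φ.surjective.comp ((QuotientGroup.mk'_surjective _).comp f.surjective))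
      (fun x h => mem_center_iff.2 fun y => f.injective (by simpa using mem_center_iff.1 (z _ (k x h)).1 (f y))) (fun x h => f.injective (by simpa using (z _ (k x h)).2))
      (x := φ x) (by rw [← map_mul, sq_of_order hx, map_one])
    have e : QuotientGroup.mk (f y) = x := φ.injective e
    exact ⟨f y, orderOf_eq_prime (by rw [pow_two, ← map_mul, h, map_one]) fun n => by simp [← e, n] at hx, e⟩
  refine ⟨a, fun ⟨g, h⟩ => ?_⟩
  have m : g ∈ centralizer {d} := mem_centralizer_singleton_iff.2 (h ▸ (Commute.self_pow g 2).eq)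
  have n : (⟨g, m⟩ : centralizer ({d} : Set G)) * ⟨g, m⟩ ≠ 1 := fun e => by
    rw [← h, pow_two, show g * g = 1 from congrArg Subtype.val e] at hd; simp at hd
  obtain ⟨y, p, q⟩ := a (QuotientGroup.mk ⟨g, m⟩) (orderOf_eq_prime ((QuotientGroup.eq_one_iff (_ ^ 2)).2 (h ▸ mem_zpowers _ : g ^ 2 ∈ zpowers d))
    fun e => n (z _ ((QuotientGroup.eq_one_iff _).1 e)).2)
  obtain ⟨c, s⟩ := z _ (QuotientGroup.eq.1 q)
  exact n (by rw [← mul_inv_cancel_left y ⟨g, m⟩, Commute.mul_mul_mul_comm (mem_center_iff.1 c _).symm, s, sq_of_order p, mul_one])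

end Cfsg.Agent.S5453
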