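import Cfsg.Statements.S5455
import Cfsg.Agent.H7.Dc23
import Cfsg.Agent.S5453

set_option autoImplicit false
open Cfsg

namespace Cfsg.Agent.S5455

open H7 H7.T Subgroup

theorem core {G K : Type*} [Group G] [Finite G] [Group K] (F : FM P23 K) {d : G} (hd : orderOf d = 2) {d' : centralizer ({d} : Set G)} (e' : d' = d)
    (ι : centralizer ({d} : Set G) →* K) (j : Function.Injective ι) (r : ι.range = centralizer {F.e (10, [])}) (hι : ι d' = F.e (10, [])) (ns : ¬ ∃ g : G, g ^ 2 = d)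
    (hn : ∃ g : G, g * d * g⁻¹ ∈ centralizer ({d} : Set G) ∧ g * d * g⁻¹ ≠ d) {S : Subgroup (centralizer ({d} : Set G))} (hS : S = (NN ((F23q F).zW W_s23) 18 0).comap ι)
    {A : Subgroup G} (hA : A = (Cfsg.thompsonSubgroupOf 2 S).map (Subgroup.subtype _)) : Cfsg.IsElementaryAbelian 2 A ∧ Nat.card A = 2 ^ 11 ∧
    Set.ncard {x : G | x ∈ A ∧ IsConj d x} = 23 ∧ ∀ x ∈ A, ∀ y ∈ A, IsConj d x → IsConj d y → ∃ n ∈ normalizer (A : Set G), n * x * n⁻¹ = y := by
  have := F.fin
  have ht : F.e (10, []) ∈ F.D := F.e_mem (by decide +kernel)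
  have tc : NN ((F23q F).zW W_s23) 18 0 ≤ ι.range := r ▸ F.ev_tw (q := (10, [])) (by decide +kernel) ▸ tc23 (F23q F)
  have ea := ea_s23 (F23q F)
  have nc : (F.D ∩ NN ((F23q F).zW W_s23) 18 7).ncard = 23 := nc23 (F23q F)
  have tA : F.e (10, []) ∈ NN ((F23q F).zW W_s23) 18 7 := ba23 (F23q F) (10, []) (by simp [B23])
  have b6 : F.e (6, []) ∈ NN ((F23q F).zW W_s23) 18 7 := ba23 (F23q F) (6, []) (by simp [B23])
  have b4 : F.e (4, []) ∈ NN ((F23q F).zW W_s23) 18 7 := ba23 (F23q F) (4, []) (by simp [B23])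
  have jm := jm_s23 (F23q F)
  have c7 := (pcs_s23 (F23q F)).card (i := 7) (by decide) (by decide)
  have c0 := (pcs_s23 (F23q F)).card (i := 0) (by decide) (by decide)
  have l7 : NN ((F23q F).zW W_s23) 18 7 ≤ NN ((F23q F).zW W_s23) 18 0 := NN_mono (by decide)
  generalize NN ((F23q F).zW W_s23) 18 7 = A', NN ((F23q F).zW W_s23) 18 0 = T at *
  set t := F.e (10, []) with ett
  have cc : ∀ {B : Subgroup K}, B ≤ T → Nat.card (B.comap ι) = Nat.card B := fun h => by
    rw [← card_map_of_injective j, map_comap_eq_self (h.trans tc)]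
  have cm : ∀ a ∈ A', ∀ b ∈ A', Commute a b := fun a ha b hb => congrArg Subtype.val (ea.1.1.1 ⟨a, ha⟩ ⟨b, hb⟩)
  have e0 : Cfsg.IsElementaryAbelian 2 (A'.comap ι) := ⟨⟨⟨fun a b => Subtype.ext (j (by simpa using (cm _ a.2 _ b.2).eq))⟩⟩, fun a ha => j (by simpa using ea.2 _ ha)⟩
  have j0 : ∀ B ≤ S, Cfsg.IsElementaryAbelian 2 B → Nat.card (A'.comap ι) ≤ Nat.card B → B ≤ A'.comap ι := fun B h b n =>
    map_le_iff_le_comap.1 (jm _ (map_le_iff_le_comap.2 (hS ▸ h)) (elab_map _ b) (by rwa [card_map_of_injective j, ← cc l7]))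
  rw [thompson_eq (hS ▸ comap_mono l7) e0 j0] at hA
  have eA := hA ▸ elab_map (Subgroup.subtype _) e0
  have cA : Nat.card A = 2 ^ 11 := by rw [hA, card_map_of_injective (subtype_injective _), cc l7, c7]
  have mA : ∀ x : centralizer ({d} : Set G), (x : G) ∈ A ↔ ι x ∈ A' := fun x => hA ▸ mem_map_iff_mem (subtype_injective _)
  have lA : A ≤ centralizer {d} := hA ▸ map_subtype_le _
  have fu : ∀ x ∈ A, IsConj d x → ∃ n ∈ normalizer (A : Set G), n * x * n⁻¹ = d := fun x hx h => by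
    obtain ⟨g, rfl⟩ := isConj_iff.1 h
    have b := elab_map (MulAut.conj g⁻¹).toMonoidHom eA
    have l : A.map (MulAut.conj g⁻¹).toMonoidHom ≤ centralizer {d} := by
      rintro _ ⟨a, ha, rfl⟩
      exact mem_centralizer_singleton_iff.2 ((conj_comm g).1 (by simpa [mul_assoc] using (show Commute a _ from congrArg Subtype.val (eA.1.1.1 ⟨a, ha⟩ ⟨_, hx⟩))))
    have b' : Cfsg.IsElementaryAbelian 2 ((A.map (MulAut.conj g⁻¹).toMonoidHom).subgroupOf (centralizer {d})) := have := b.1; ⟨inferInstance, fun a ha => Subtype.ext (b.2 a ha)⟩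
    obtain ⟨c, h⟩ := exists_conj_le (E := S) Nat.prime_two (hS ▸ (cc le_rfl).trans c0) (fun h => absurd (h.trans (F.card ▸ card_dvd_of_injective ι j)) (by decide +kernel))
      (X := (A.map (MulAut.conj g⁻¹).toMonoidHom).subgroupOf _) fun y => ⟨1, Subtype.ext (b'.2 y y.2)⟩
    have h := j0 _ h (elab_map _ b') (by
      rw [card_map_of_injective (MulAut.conj c).injective, Nat.card_congr (subgroupOfEquivOfLe l).toEquiv, card_map_of_injective (MulAut.conj _).injective, cA, cc l7, c7])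
    refine ⟨c * g⁻¹, mem_normalizer_fintype fun a ha => ?_, by simpa [mul_assoc] using conj_eq_self.2 (show Commute (c : G) d from mem_centralizer_singleton_iff.1 c.2)⟩
    simpa [mul_assoc] using (mA _).2 (h ⟨⟨_, l ⟨a, ha, rfl⟩⟩, ⟨a, ha, rfl⟩, rfl⟩)
  refine ⟨eA, cA, ?_, fun x hx y hy a b => ?_⟩
  swap
  · obtain ⟨n, hn, e⟩ := fu x hx a
    obtain ⟨m, hm, f⟩ := fu y hy b
    exact ⟨m⁻¹ * n, mul_mem (inv_mem hm) hn, by rw [← conj_inj m, f, ← e]; group⟩
  have dd : d' * d' = 1 := Subtype.ext (by simpa [e'] using sq_of_order hd)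
  have ct : ∀ x, Commute t (ι x) := fun x => (mem_centralizer_singleton_iff.1 (r.le ⟨x, rfl⟩)).symm
  have su : ∀ {y}, Commute t y → ∃ x, ι x = y := fun h => r.ge (mem_centralizer_singleton_iff.2 h.symm)
  have nq : ∀ x : centralizer ({d} : Set G), IsConj d x → ¬ ∃ y, Commute t y ∧ y * y = ι x := fun x h ⟨y, k, e⟩ => by
    obtain ⟨y, rfl⟩ := su k
    obtain ⟨g, h⟩ := isConj_iff.1 h.symm
    exact ns ⟨g * y * g⁻¹, Eq.trans (by rw [← j ((map_mul ι _ _).trans e), conj_pow, pow_two, coe_mul]) h⟩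
  have ky : ∀ x : centralizer ({d} : Set G), IsConj d x → x ≠ d' → ι x ∈ Dp F.D t ∨ ι (d' * x) ∈ Dp F.D t := fun x h n => by
    obtain ⟨g, e⟩ := isConj_iff.1 h
    have s : x * x = 1 := Subtype.ext (by rw [coe_mul, ← e, conj_mul, sq_of_order hd]; simp)
    rcases cl23 F ht (x := ι x) (by rw [← map_mul, s, map_one]) (ct x) with k | k | k | k | k
    · rw [(injective_iff_map_eq_one _).1 j x k, coe_one, conj_eq_one_iff] at e
      simp [e] at hd
    exacts [absurd (j (k.trans hι.symm)) n, .inl k, .inr (by rwa [map_mul, hι]), absurd k (nq x h)]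
  have tr : ∀ ε : centralizer ({d} : Set G), ε = 1 ∨ ε = d' → ∀ x y, ι x ∈ Dp F.D t → ι y ∈ Dp F.D t → IsConj d (ε * x : centralizer ({d} : Set G)) → IsConj d (ε * y : centralizer ({d} : Set G)) :=
    fun ε hε x y hx hy h => by
    obtain ⟨g, k, e⟩ := tr23 F hx
    obtain ⟨g', k', f⟩ := tr23 F hy
    obtain ⟨g, rfl⟩ := su k
    obtain ⟨g', rfl⟩ := su k'
    have c : ∀ z, ε * z = z * ε := fun z => by
      rcases hε with rfl | rfl
      exacts [by simp, j (by rw [map_mul, map_mul, hι]; exact ct z)]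
    have : g * x * g⁻¹ = g' * y * g'⁻¹ := j (by simpa using e.trans f.symm)
    refine h.trans (isConj_iff.2 ⟨(g'⁻¹ * g : centralizer ({d} : Set G)), ?_⟩)
    rw [← coe_inv, ← coe_mul, ← coe_mul, c, c, show g'⁻¹ * g * (x * ε) * (g'⁻¹ * g)⁻¹ = g'⁻¹ * (g * x * g⁻¹) * (g * ε * g⁻¹) * g' by group, this, ← c g, mul_inv_cancel_right]
    exact congrArg _ (by rw [mul_assoc _ ε, c]; group)
  have dx : ∀ x, d' * (d' * x) = x := fun x => by rw [← mul_assoc, dd, one_mul]
  have u1 : F.e (6, []) ∈ Dp F.D t := (F.S_dpm (q := (10, [])) (by decide +kernel) _).le ((F.e_mem_S (by decide +kernel)).2 (by decide +kernel : (P23.dpm P23.all (10, [])).testBit _ = true)) |> fun h => F.S_all ▸ h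
  have u2 : F.e (4, []) ∈ Dp F.D t := (F.S_dpm (q := (10, [])) (by decide +kernel) _).le ((F.e_mem_S (by decide +kernel)).2 (by decide +kernel : (P23.dpm P23.all (10, [])).testBit _ = true)) |> fun h => F.S_all ▸ h
  have u3 : F.e (4, []) ∈ Dp F.D (F.e (6, [])) := (F.S_dpm (q := (6, [])) (by decide +kernel) _).le ((F.e_mem_S (by decide +kernel)).2 (by decide +kernel : (P23.dpm P23.all (6, [])).testBit _ = true)) |> fun h => F.S_all ▸ h
  have nb : ¬ ((∀ x, ι x ∈ Dp F.D t → IsConj d x) ∧ ∀ x, ι x ∈ Dp F.D t → IsConj d (d' * x : centralizer ({d} : Set G))) := fun ⟨p1, p2⟩ => by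
    obtain ⟨x1, f1⟩ := su u1.2.2
    obtain ⟨x2, f2⟩ := su u2.2.2
    obtain ⟨n, hn, e⟩ := fu x1 ((mA _).2 (f1 ▸ b6)) (p1 _ (f1 ▸ u1))
    have m := lA ((hn _).1 ((mA x2).2 (f2 ▸ b4)))
    have k : IsConj d (d' * ⟨_, m⟩ : centralizer ({d} : Set G)) := (ky ⟨_, m⟩ ((p1 _ (f2 ▸ u2)).trans (isConj_iff.2 ⟨n, rfl⟩)) fun h =>
      u3.2.1 (by rw [← f1, ← f2, Subtype.ext ((conj_inj n).1 ((congrArg Subtype.val h).trans (e'.trans e.symm)))])).elim (p2 _) (p1 _)
    refine nq (x1 * x2) (k.trans (isConj_iff.2 ⟨n⁻¹, ?_⟩)) (by rw [map_mul, f1, f2]; exact (sAB F ht u1 u2 u3.2.1.symm u3.2.2).1)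
    show n⁻¹ * (d' * (n * x2 * n⁻¹)) * n⁻¹⁻¹ = x1 * x2
    rw [e'.trans e.symm]; group
  obtain ⟨ε, hε, k⟩ : ∃ ε : centralizer ({d} : Set G), (ε = 1 ∨ ε = d') ∧ ∀ x, x ≠ d' → (IsConj d x ↔ ι (ε * x) ∈ Dp F.D t) := by
    obtain ⟨g, m, n⟩ := hn
    have i : IsConj d (⟨_, m⟩ : centralizer ({d} : Set G)) := isConj_iff.2 ⟨g, rfl⟩
    rcases ky ⟨_, m⟩ i fun h => n ((congrArg Subtype.val h).trans e') with h | h
    · have p1 : ∀ x, ι x ∈ Dp F.D t → IsConj d x := fun x hx => by simpa using tr 1 (.inl rfl) _ x h hx (by simpa using i)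
      refine ⟨1, .inl rfl, fun x n => ⟨fun c => ?_, fun c => p1 x (by simpa using c)⟩⟩
      rw [one_mul]
      exact (ky x c n).resolve_right fun q => nb ⟨p1, fun y hy => tr d' (.inr rfl) _ y q hy (by rwa [dx])⟩
    · have p2 : ∀ x, ι x ∈ Dp F.D t → IsConj d (d' * x : centralizer ({d} : Set G)) := fun x hx => tr d' (.inr rfl) _ x h hx (by rwa [dx])
      refine ⟨d', .inr rfl, fun x n => ⟨fun c => ?_, fun c => dx x ▸ p2 _ c⟩⟩
      exact (ky x c n).resolve_left fun q => nb ⟨fun y hy => by simpa using tr 1 (.inl rfl) _ y q hy (by simpa using c), p2⟩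
  have εx : ∀ x, ε * (ε * x) = x := fun x => by rcases hε with rfl | rfl; exacts [by simp, dx x]
  have εA : ι ε ∈ A' := by rcases hε with rfl | rfl; exacts [by simp, hι ▸ tA]
  have nd : ∀ y, ι y ∈ (F.D ∩ A') \ {t} → ε * y ≠ d' := fun y hy h => by
    rw [← εx y, h] at hy
    rcases hε with rfl | rfl
    exacts [hy.2 (by simpa using hι), F.t3.ne _ hy.1.1 (by rw [dd, map_one])]
  have ni : d ∉ (fun y : centralizer ({d} : Set G) => ((ε * y : centralizer ({d} : Set G)) : G)) '' (ι ⁻¹' ((F.D ∩ A') \ {t})) :=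
    fun ⟨y, hy, f⟩ => nd y hy (Subtype.ext (f.trans e'.symm))
  rw [show {x : G | x ∈ A ∧ IsConj d x} = insert d ((fun y : centralizer ({d} : Set G) => ((ε * y : centralizer ({d} : Set G)) : G)) '' (ι ⁻¹' ((F.D ∩ A') \ {t}))) from Set.ext fun x =>
    ⟨fun h => (eq_or_ne x d).imp_right fun n => have q := (k ⟨x, lA h.1⟩ fun f => n ((congrArg Subtype.val f).trans e')).1 h.2
      ⟨ε * ⟨x, lA h.1⟩, ⟨⟨q.1, by rw [map_mul]; exact mul_mem εA ((mA ⟨x, _⟩).1 h.1)⟩, q.2.1⟩, congrArg Subtype.val (εx _)⟩, by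
      rintro (rfl | ⟨y, hy, rfl⟩)
      exacts [⟨e' ▸ (mA d').2 (hι ▸ tA), .refl _⟩, ⟨(mA _).2 (by rw [map_mul]; exact mul_mem εA hy.1.2), (k _ (nd y hy)).2 ((εx y).symm ▸ ⟨hy.1.1, hy.2, ct y⟩)⟩]⟩,
    Set.ncard_insert_of_notMem ni,
    Set.ncard_image_of_injective _ fun _ _ h => mul_left_cancel (Subtype.ext h),
    Set.ncard_preimage_of_injective_subset_range j fun y hy => tc (l7 hy.1.2), Set.ncard_diff_singleton_add_one (show t ∈ F.D ∩ A' from ⟨ht, tA⟩), nc]

/-- Let G be a finite group with an involution d whose centralizer C is quasisimple, such that C modulo the subgroup generated by d is of type M(22) with respect to some conjugacy class of 3-transpositions generating it and also has an involution whose own centralizer is quasisimple with quotient by it isomorphic to the projective special unitary group of dimension 6 over the field with four elements and which is not weakly closed in that centralizer; and suppose some conjugate of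 d other than d commutes with d. Let S be a Sylow 2-subgroup of C and A the Thompson subgroup of S, regarded as a subgroup of G. Then A is elementary abelian of order 2^11, exactly 23 conjugates of d lie in A, and the normalizer of A permutes them transitively. -/
theorem result {G : Type*} [Group G] [Finite G] (d : G) (hd : orderOf d = 2) (hq : Cfsg.IsQuasisimple ↥(Subgroup.centralizer ({d} : Set G))) [hzn : ((Subgroup.zpowers d).subgroupOf (Subgroup.centralizer ({d} : Set G))).Normal] (htype : ∃ E : Set (↥(Subgroup.centralizer ({d} : Set G)) ⧸ (Subgroup.zpowers d).subgroupOf (Subgroup.centralizer ({d} : Set G))), Cfsg.IsThreeTranspositionClass E ∧ Cfsg.IsOfTypeM22 _ E) (hinvol : ∃ d' : ↥(Subgroup.centralizer ({d} : Set G)) ⧸ (Subgroup.zpowers d).subgroupOf (Subgroup.centralizer ({d} : Set G)), orderOf d' = 2 ∧ Cfsg.IsQuasisimple ↥(Subgroup.centralizer ({d'} : Set _)) ∧ (∃ (K : Type) (_ : Field K) (_ : Fintype K), Fintype.card K = 4 ∧ ∃ _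 : ((Subgroup.zpowers d').subgroupOf (Subgroup.centralizer ({d'} : Set _))).Normal, Nonempty (↥(Subgroup.centralizer ({d'} : Set _)) ⧸ (Subgroup.zpowers d').subgroupOf (Subgroup.centralizer ({d'} : Set _)) ≃* Cfsg.PSU 6 K 2)) ∧ ∃ g, g * d' * g⁻¹ ∈ Subgroup.centralizer ({d'} : Set _) ∧ g * d' * g⁻¹ ≠ d') (hnwc : ∃ g : G, g * d * g⁻¹ ∈ Subgroup.centralizer ({d} : Set G) ∧ g * d * g⁻¹ ≠ d) (S : Sylow 2 ↥(Subgroup.centralizer ({d} : Set G))) (A : Subgroup G) (hA : A = (Cfsg.thompsonSubgroupOf 2 (S : Subgroup ↥(Subgroup.centralizer ({d} : Set G)))).map (Subgroup.centralizer ({d} : Set G)).subtype) : Cfsg.IsElementaryAbelian 2 A ∧ Nat.card A = 2 ^ 11 ∧ Set.ncard {x : G | x ∈ A ∧ IsConj d x} = 23 ∧ ∀ x ∈ A, ∀ y ∈ A, IsConj d x → IsConj d y → ∃ n ∈ Subgroup.normalizer (A : Set G), n * x * n⁻¹ = y := by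
  have ns := (Cfsg.Agent.S5453.result d hd hq htype hinvol hnwc).2
  obtain ⟨E, ⟨t, ⟨e, -, rfl⟩, g⟩, h22⟩ := htype
  obtain ⟨F, -⟩ := rec22' ⟨t, fun g _ h => IsConj.trans h (isConj_iff.2 ⟨g, rfl⟩), g⟩ h22
  obtain ⟨φ, -⟩ := F.equiv F22
  let f := Shrink.mulEquiv.{0} (α := centralizer ({d} : Set G))
  have o := sq_of_order hd
  have z : ∀ x : centralizer ({d} : Set G), x ∈ (zpowers d).subgroupOf _ → x ∈ center _ ∧ x * x = 1 := fun x ⟨k, h⟩ =>
    ⟨mem_center_iff.2 fun y => Subtype.ext (by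
      rw [coe_mul, coe_mul, ← show d ^ k = x from h]; exact (Commute.zpow_right (mem_centralizer_singleton_iff.1 y.2) k).eq), Subtype.ext (by
      rw [coe_mul, ← show d ^ k = x from h, ← (Commute.refl d).mul_zpow, o, one_zpow, coe_one])⟩
  have k : ∀ x, x ∈ (φ.toMonoidHom.comp ((QuotientGroup.mk' _).comp f.toMonoidHom)).ker ↔ f x ∈ (zpowers d).subgroupOf _ := fun x =>
    φ.map_eq_one_iff.trans (QuotientGroup.eq_one_iff _)
  let d' : centralizer ({d} : Set G) := ⟨d, mem_centralizer_singleton_iff.2 rfl⟩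
  have md : d' ∈ (zpowers d).subgroupOf _ := mem_zpowers d
  have pf : Group.IsPerfect (Shrink.{0} (centralizer ({d} : Set G))) := have := hq.1; Group.IsPerfect.ofSurjective (f := f.symm.toMonoidHom) f.symm.surjective
  obtain ⟨ι, j, r, hι⟩ := emb0 pf (φ.toMonoidHom.comp ((QuotientGroup.mk' _).comp f.toMonoidHom)) (φ.surjective.comp ((QuotientGroup.mk'_surjective _).comp f.surjective))
    (fun x h => mem_center_iff.2 fun y => f.injective (by simpa using mem_center_iff.1 (z _ ((k x).1 h)).1 (f y))) (fun x h => f.injective (by simpa using (z _ ((k x).1 h)).2))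
    (z := f.symm d') ((k _).2 (by simpa using md)) (fun h => by simp [show d = 1 from congrArg Subtype.val (f.symm.map_eq_one_iff.1 h)] at hd) (F23.e_mem (q := (10, [])) (by decide +kernel))
  have := F23.fin
  have j1 : Function.Injective (ι.comp f.symm.toMonoidHom) := j.comp f.symm.injective
  have r1 : (ι.comp f.symm.toMonoidHom).range = centralizer {F23.e (10, [])} := by rw [← r, MonoidHom.range_comp, MonoidHom.range_eq_top.2 f.symm.surjective, MonoidHom.range_eq_map]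
  obtain ⟨c, hc⟩ := sylow_conj (E := (NN ((F23q F23).zW W_s23) 18 0).comap (ι.comp f.symm.toMonoidHom)) Nat.prime_two (by
    rw [← card_map_of_injective j1, map_comap_eq_self (r1 ▸ F23.ev_tw (q := (10, [])) (by decide +kernel) ▸ tc23 (F23q F23))]
    exact (pcs_s23 _).card le_rfl (by decide)) (fun h => absurd (h.trans (F23.card ▸ card_dvd_of_injective _ j1)) (by decide +kernel)) S
  refine core F23 hd (d' := d') rfl ((ι.comp f.symm.toMonoidHom).comp (MulAut.conj c).symm.toMonoidHom) (j1.comp (MulAut.conj c).symm.injective)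
    (by rw [← r1, MonoidHom.range_comp _ (MulAut.conj c).symm.toMonoidHom, MonoidHom.range_eq_top.2 (MulAut.conj c).symm.surjective, MonoidHom.range_eq_map]) ?_ ns hnwc
    (hc ▸ Subgroup.ext fun x => mem_map_equiv) hA
  exact (congrArg (ι.comp f.symm.toMonoidHom) (show c⁻¹ * d' * c = d' by rw [mul_assoc, ← mem_center_iff.1 (z _ md).1 c, inv_mul_cancel_left])).trans hι

end Cfsg.Agent.S5455
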