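import Cfsg.Statements.S5458
import Cfsg.Agent.H7.T.Q22_12
import Cfsg.Agent.H7.TL5
import Cfsg.Agent.H7.Br22

set_option autoImplicit false
open Cfsg

namespace Cfsg.Agent.S5458

open H7 H7.T Subgroup

theorem ex {G : Type*} [Group G] (F : FM P22q G) : closure {x | x ∈ F.D ∧ x ∈ NN (F.zW W_s22) 17 0} = Cfsg.thompsonSubgroupOf 2 (NN (F.zW W_s22) 17 0) := by
  rw [jj_s22, ← ab_s22]
  exact congrArg _ (Set.ext fun x => ⟨fun h => FM.mem_of_norm (by decide +kernel) h.1 ((bi_s22 F).le_st h.2),
    fun h => ⟨F.S_sub _ h, NN_mono (by decide) (ba_s22 F (subset_closure h))⟩⟩)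

/-- Let G be a finite group with trivial centre generated by a conjugation-invariant set D of 3-transpositions on which it acts primitively, of type M(22), and suppose G also has an involution whose centralizer is quasisimple with quotient by it the projective special unitary group of dimension 6 over the field with four elements and which is not weakly closed in that centralizer. Let T be a Sylow 2-subgroup of G. Then the subgroup generated by the members of D lying in T is the Thompson subgroup of T (generated by the elementary abelian subgroups of T of largest order). -/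
theorem result {G : Type*} [Group G] [Finite G] {D : Set G} (hD : Cfsg.IsThreeTranspositionGroup D) (hprim : Cfsg.IsPrimitiveUnderConj D) (h22 : Cfsg.IsOfTypeM22 G D) (hM : ∃ d : G, orderOf d = 2 ∧ Cfsg.IsQuasisimple ↥(Subgroup.centralizer ({d} : Set G)) ∧ (∃ (_ : ((Subgroup.zpowers d).subgroupOf (Subgroup.centralizer ({d} : Set G))).Normal) (K : Type) (_ : Field K) (_ : Fintype K), Fintype.card K = 4 ∧ Nonempty (↥(Subgroup.centralizer ({d} : Set G)) ⧸ (Subgroup.zpowers d).subgroupOf (Subgroup.centralizer ({d} : Set G)) ≃* Cfsg.PSU 6 K 2)) ∧ ∃ g : G, g * d * g⁻¹ ∈ Subgroup.centralizer ({d} : Set G) ∧ g * d * g⁻¹ ≠ d) (T : Sylow 2 G) : Subgroup.closure {x : G | x ∈ D ∧ x ∈ (T : Subgroup G)} = Cfsg.thompsonSubgroupOf 2 (T : Subgroup G) := by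
  obtain ⟨F, rfl⟩ := rec22' hD h22
  obtain ⟨g, e⟩ := (F22q F).syl Nat.prime_two (pcs_s22 _) (by decide +kernel) T
  rw [e, ← ex]
  exact congrArg (fun D => Subgroup.closure {x | x ∈ D ∧ x ∈ NN (((F22q F).cj' g).zW W_s22) 17 0}) ((F22q F).cj_D g).symm

end Cfsg.Agent.S5458
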