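import Cfsg.Statements.S5459
import Cfsg.Agent.H9.Comp
import Cfsg.Agent.H2.CGr

set_option autoImplicit false
open Cfsg

namespace Cfsg.Agent.S5459

open Subgroup H7 in

/-- Let G be a finite group with a quasisimple normal subgroup L and an involution d such that G is generated by L and d, the centre of L has odd order, and d inverts every element of the centre of L. If the commuting graph on the conjugacy class of the image of d in G modulo the centre of L is connected, then the commuting graph on the conjugacy class of d is connected. -/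
theorem result {G : Type*} [Group G] [Finite G] (L : Subgroup G) [L.Normal] (hL : Cfsg.IsQuasisimple ↥L) (d : G) (hd : orderOf d = 2) (hgen : L ⊔ Subgroup.zpowers d = ⊤) (hodd : Odd (Nat.card ↥(Subgroup.center ↥L))) (hinv : ∀ c ∈ (Subgroup.center ↥L).map L.subtype, d * c * d⁻¹ = c⁻¹) [hn : ((Subgroup.center ↥L).map L.subtype).Normal] (hconn : (Cfsg.commutingGraph (conjugatesOf (QuotientGroup.mk d : G ⧸ (Subgroup.center ↥L).map L.subtype))).Connected) : (Cfsg.commutingGraph (conjugatesOf d)).Connected := by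
  set Z := (Subgroup.center ↥L).map L.subtype with hZ
  have hd2 : d * d = 1 := by rw [← pow_two, ← hd, pow_orderOf_eq_one]
  have hc : ∀ g : G, ∀ a ∈ conjugatesOf d, g * a * g⁻¹ ∈ conjugatesOf d :=
    fun g a ha => IsConj.trans ha (isConj_iff.2 ⟨g, rfl⟩)
  have hLZ : ∀ c ∈ Z, ∀ l ∈ L, l * c = c * l := by
    rintro _ ⟨c, hc, rfl⟩ l hl
    exact congrArg Subtype.val (mem_center_iff.1 hc ⟨l, hl⟩)
  have hZL : Z ≤ L := map_subtype_le _
  have sq : ∀ a ∈ conjugatesOf d, a * a = 1 := by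
    intro a ha
    obtain ⟨g, rfl⟩ := isConj_iff.1 ha
    simp [mul_assoc, ← mul_assoc d d, hd2]
  have inv : ∀ a ∈ conjugatesOf d, ∀ c ∈ Z, a * c * a⁻¹ = c⁻¹ := by
    intro a ha c hc
    obtain ⟨g, rfl⟩ := isConj_iff.1 ha
    have := hinv _ (hn.conj_mem c hc g⁻¹)
    calc _ = g * (d * (g⁻¹ * c * g⁻¹⁻¹) * d⁻¹) * g⁻¹ := by group
      _ = _ := by rw [this]; group
  have root : ∀ c ∈ Z, ∃ r ∈ Z, r * r = c := by
    intro c hc
    have h1 : Odd (Nat.card Z) := by rwa [hZ, card_map_of_injective L.subtype_injective]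
    obtain ⟨k, hk⟩ := h1
    refine ⟨c ^ (k + 1), Z.pow_mem hc _, ?_⟩
    have : c ^ Nat.card Z = 1 := congrArg Subtype.val (pow_card_eq_one' (x := (⟨c, hc⟩ : Z)))
    rw [← pow_add, show k + 1 + (k + 1) = 2 * k + 1 + 1 by ring, ← hk, pow_succ, this, one_mul]
  have fib : ∀ a ∈ conjugatesOf d, ∀ c ∈ Z, ∃ r ∈ Z, r⁻¹ * a * r = a * c := by
    intro a ha c hc
    obtain ⟨r, hr, rfl⟩ := root c hc
    exact ⟨r, hr, by rw [← inv a ha r hr]; simp [mul_assoc]⟩
  have lift : ∀ x ∈ Cp (conjugatesOf (QuotientGroup.mk d : G ⧸ Z)) (QuotientGroup.mk d),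
      ∃ a ∈ Cp (conjugatesOf d) d, (QuotientGroup.mk a : G ⧸ Z) = x := by
    intro x hx
    induction hx with
    | refl => exact ⟨d, Cp.self _ _, rfl⟩
    | tail _ h2 ih =>
      obtain ⟨a, ha, rfl⟩ := ih
      obtain ⟨h2, h3⟩ := h2
      obtain ⟨g, rfl⟩ := isConj_iff.1 h2
      obtain ⟨g, rfl⟩ := QuotientGroup.mk_surjective g
      have haD : a ∈ conjugatesOf d := Cp.sub (D := conjugatesOf d) (IsConj.refl d) ha
      have hb := hc g d (IsConj.refl d)
      set b := g * d * g⁻¹ with hbd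
      have h4 : (a * b)⁻¹ * (b * a) ∈ Z := QuotientGroup.eq.1 h3.eq
      obtain ⟨r, hr, h5⟩ := root _ h4
      obtain ⟨t, ht, h6⟩ := fib b hb r hr
      have hb' : b * r ∈ conjugatesOf d := by simpa [h6] using hc t⁻¹ b hb
      refine ⟨b * r, Cp.step ha hb' ?_, ?_⟩
      · show a * (b * r) = b * r * a
        have e1 : b * a = a * b * (r * r) := by rw [h5]; group
        have e2 : r * a = a * r⁻¹ := by
          rw [← inv a haD r hr, inv_eq_of_mul_eq_one_left (sq a haD), ← mul_assoc, ← mul_assoc, sq a haD, one_mul]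
        rw [mul_assoc b, e2, ← mul_assoc b, e1]; group
      · rw [QuotientGroup.mk_mul, (QuotientGroup.eq_one_iff _).2 hr, mul_one]; rfl
  have hH : H2T.cpSt hc (IsConj.refl d) = ⊤ := by
    set H := H2T.cpSt hc (IsConj.refl d) with hH
    have h1 : ∀ g : G, ∃ c ∈ Z, c * g ∈ H := by
      intro g
      obtain ⟨a, ha, e⟩ := lift _ (H2T.cp_of_conn hconn (IsConj.refl _)
        (isConj_iff.2 ⟨QuotientGroup.mk g, rfl⟩))
      have h2 : (g * d * g⁻¹)⁻¹ * a ∈ Z := QuotientGroup.eq.1 e.symm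
      obtain ⟨t, ht, h3⟩ := fib _ (hc g d (IsConj.refl d)) _ h2
      refine ⟨t⁻¹, Z.inv_mem ht, ?_⟩
      show t⁻¹ * g * d * (t⁻¹ * g)⁻¹ ∈ Cp (conjugatesOf d) d
      rw [mul_inv_cancel_left] at h3
      rw [← h3] at ha
      simpa [mul_assoc] using ha
    rw [eq_top_iff, ← hgen]
    refine sup_le ?_ (zpowers_le.2 ?_)
    · rw [← (H9.qs_iff.2 hL).perfect, commutator_le]
      intro a ha b hb
      obtain ⟨c, hc1, h2⟩ := h1 a
      obtain ⟨e, he1, h3⟩ := h1 b
      have := H.mul_mem (H.mul_mem (H.mul_mem h2 h3) (H.inv_mem h2)) (H.inv_mem h3)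
      have c1 : ∀ l ∈ L, Commute c l := fun l hl => (hLZ c hc1 l hl).symm
      have c2 : ∀ l ∈ L, Commute e l := fun l hl => (hLZ e he1 l hl).symm
      convert this using 1
      have e1 : c * a * (e * b) * (c * a)⁻¹ = c * (a * (e * b) * a⁻¹) * c⁻¹ := by group
      rw [e1, (c1 _ (L.mul_mem (L.mul_mem ha (L.mul_mem (hZL he1) hb)) (L.inv_mem ha))).eq, mul_inv_cancel_right,
        ← mul_assoc a e, ← (c2 a ha).eq]
      have e2 : e * a * b * a⁻¹ * (e * b)⁻¹ = e * (a * b * a⁻¹ * b⁻¹) * e⁻¹ := by group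
      rw [e2, (c2 _ (L.mul_mem (L.mul_mem (L.mul_mem ha hb) (L.inv_mem ha)) (L.inv_mem hb))).eq, mul_inv_cancel_right]
      rfl
    · show d * d * d⁻¹ ∈ Cp (conjugatesOf d) d
      simpa using Cp.self _ d
  refine H2T.conn_of_cp (IsConj.refl d) fun a ha => ?_
  obtain ⟨g, rfl⟩ := isConj_iff.1 ha
  exact (hH ▸ mem_top g : g ∈ H2T.cpSt hc (IsConj.refl d))

end Cfsg.Agent.S5459
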