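import Cfsg.Statements.S5463
import Cfsg.Agent.H7.Fac2

set_option autoImplicit false
open Cfsg

namespace Cfsg.Agent.S5463

open H7 H7.T

/-- Let G be a finite group with trivial centre generated by a conjugation-invariant set D of 3-transpositions on which it acts primitively, such that for some d in D the subgroup generated by the members of D other than d commuting with d has central largest normal 2- and 3-subgroups, and suppose G with D is of type M(22). A product j of two distinct commuting members of D determines the pair: any two 2-element sets of commuting members of D with product j coincide. A product j of three distinct pairwise commuting members of D arises from exactly two such 3-element sets. -/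
theorem result {G : Type*} [Group G] [Finite G] {D : Set G} (hD : Cfsg.IsThreeTranspositionGroup D) (hprim : Cfsg.IsPrimitiveUnderConj D) (d₀ : G) (hd₀ : d₀ ∈ D) (h3 : Cfsg.pCore 3 ↥(Subgroup.closure {y : G | y ∈ D ∧ y ≠ d₀ ∧ Commute d₀ y}) ≤ Subgroup.center ↥(Subgroup.closure {y : G | y ∈ D ∧ y ≠ d₀ ∧ Commute d₀ y})) (h2 : Cfsg.pCore 2 ↥(Subgroup.closure {y : G | y ∈ D ∧ y ≠ d₀ ∧ Commute d₀ y}) ≤ Subgroup.center ↥(Subgroup.closure {y : G | y ∈ D ∧ y ≠ d₀ ∧ Commute d₀ y})) (h22 : Cfsg.IsOfTypeM22 G D) : (∀ (j : G) (l l' : List G), (l.Nodup ∧ l.length = 2 ∧ (∀ a ∈ l, a ∈ D) ∧ (∀ a ∈ l, ∀ b ∈ l, Commute a b) ∧ l.prod = j) → (l'.Nodup ∧ l'.length = 2 ∧ (∀ a ∈ l', a ∈ D) ∧ (∀ a ∈ l', ∀ b ∈ l', Commute a b) ∧ l'.prod = j) → (∀ x : G, x ∈ l ↔ x ∈ l')) ∧ ∀ (j : G) (l₀ : List G), (l₀.Nodup ∧ l₀.length = 3 ∧ (∀ a ∈ l₀, a ∈ D) ∧ (∀ a ∈ l₀, ∀ b ∈ l₀, Commute a b) ∧ l₀.prod = j) → ∃ l₁ l₂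 : List G, (l₁.Nodup ∧ l₁.length = 3 ∧ (∀ a ∈ l₁, a ∈ D) ∧ (∀ a ∈ l₁, ∀ b ∈ l₁, Commute a b) ∧ l₁.prod = j) ∧ (l₂.Nodup ∧ l₂.length = 3 ∧ (∀ a ∈ l₂, a ∈ D) ∧ (∀ a ∈ l₂, ∀ b ∈ l₂, Commute a b) ∧ l₂.prod = j) ∧ ¬ (∀ x : G, x ∈ l₁ ↔ x ∈ l₂) ∧ ∀ l : List G, (l.Nodup ∧ l.length = 3 ∧ (∀ a ∈ l, a ∈ D) ∧ (∀ a ∈ l, ∀ b ∈ l, Commute a b) ∧ l.prod = j) → ((∀ x : G, x ∈ l ↔ x ∈ l₁) ∨ (∀ x : G, x ∈ l ↔ x ∈ l₂)) := by
  obtain ⟨F, rfl⟩ := rec22' hD h22
  refine ⟨uq22 F le_rfl, fun j l₀ h => ?_⟩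
  obtain ⟨a, b, c, rfl⟩ := List.length_eq_three.1 h.2.1
  have n := h.1
  have k := h.2.2.2.1
  simp only [List.forall_mem_cons] at k
  simp only [List.nodup_cons, List.mem_cons, not_or] at n
  obtain ⟨F', e, rfl, rfl, rfl⟩ := t3_22 F (h.2.2.1 a (by simp)) (h.2.2.1 b (by simp)) (h.2.2.1 c (by simp)) n.1.1 k.1.2.1
    n.1.2.1 k.1.2.2.1 n.2.1.1 k.2.1.2.2.1
  rw [← e] at h ⊢
  obtain ⟨f, s⟩ := six22 F'
  rw [show F'.ev (tws [(0,[]),(2,[]),(4,[])]) = j from (F'.ev_tws (by decide +kernel)).trans h.2.2.2.2] at f s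
  have d := (F'.chL_spec ch6).2.1
  refine ⟨_, _, h, f, fun p => ?_, fun l hl => ?_⟩
  · exact (List.nodup_append.1 (List.map_append ▸ d)).2.2 _ List.mem_cons_self _ ((p _).1 List.mem_cons_self) rfl
  · obtain ⟨x, y, z, rfl⟩ := List.length_eq_three.1 hl.2.1
    have m := s _ hl x List.mem_cons_self
    rw [List.map_append] at m
    exact (List.mem_append.1 m).imp
      (fac_share F'.t3 (uq22 F' le_rfl) hl h List.mem_cons_self) (fac_share F'.t3 (uq22 F' le_rfl) hl f List.mem_cons_self)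

end Cfsg.Agent.S5463
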