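import Cfsg.Statements.S5466
import Cfsg.Agent.H7.Two24
import Cfsg.Agent.S0815

set_option autoImplicit false
open Cfsg

namespace Cfsg.Agent.S5466

open H7 H7.T Subgroup

/-- Let G be a finite group with trivial centre generated by a conjugation-invariant set D of 3-transpositions on which it acts primitively, such that for some d in D the subgroup generated by the members of D other than d commuting with d has central largest normal 2- and 3-subgroups, and suppose G with D is of type M(24), and let L be the commutator subgroup of G. Let d₁, d₂, d₃ be distinct pairwise commuting members of D, j their product, E the subgroup generated by d₁ d₂ and d₁ d₃ (a four-group lying in L), CL the centralizer of j in L and K its generalized Fitting subgroup. Then K is quasisimple with centre E, K is the centralizer of E in L, K modulo E is isomorphic to the projective special unitary group of dimension 6 over the field with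 four elements, CL/K is isomorphic to the symmetric group of degree 3, and CL modulo E is isomorphic to the full automorphism group of that unitary group. -/
theorem result {G : Type*} [Group G] [Finite G] {D : Set G} (hD : Cfsg.IsThreeTranspositionGroup D) (hprim : Cfsg.IsPrimitiveUnderConj D) (d₀ : G) (hd₀ : d₀ ∈ D) (h3 : Cfsg.pCore 3 ↥(Subgroup.closure {y : G | y ∈ D ∧ y ≠ d₀ ∧ Commute d₀ y}) ≤ Subgroup.center ↥(Subgroup.closure {y : G | y ∈ D ∧ y ≠ d₀ ∧ Commute d₀ y})) (h2 : Cfsg.pCore 2 ↥(Subgroup.closure {y : G | y ∈ D ∧ y ≠ d₀ ∧ Commute d₀ y}) ≤ Subgroup.center ↥(Subgroup.closure {y : G | y ∈ D ∧ y ≠ d₀ ∧ Commute d₀ y})) (h24 : Cfsg.IsOfTypeM24 G D) (L : Subgroup G) (hL : L = commutator G) (d₁ d₂ d₃ : G) (h₁ : d₁ ∈ D) (h₂ : d₂ ∈ D) (h₃ : d₃ ∈ D) (h12 : d₁ ≠ d₂) (h13 : d₁ ≠ d₃) (h23 : d₂ ≠ d₃) (c12 : Commute d₁ d₂) (c13 : Commute d₁ d₃) (c23 : Commute d₂ d₃) (E CL K : Subgroup G) (hE : E = Subgroup.closure ({d₁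 * d₂, d₁ * d₃} : Set G)) (hCL : CL = L ⊓ Subgroup.centralizer ({d₁ * d₂ * d₃} : Set G)) (hK : K = (Cfsg.generalizedFittingSubgroup ↥CL).map CL.subtype) : Cfsg.IsQuasisimple ↥K ∧ (Subgroup.center ↥K).map K.subtype = E ∧ K = L ⊓ Subgroup.centralizer (E : Set G) ∧ (∃ (_ : (E.subgroupOf K).Normal) (F : Type) (_ : Field F) (_ : Fintype F), Fintype.card F = 4 ∧ Nonempty (↥K ⧸ E.subgroupOf K ≃* Cfsg.PSU 6 F 2)) ∧ ∃ _ : (K.subgroupOf CL).Normal, Nonempty (↥CL ⧸ K.subgroupOf CL ≃* Equiv.Perm (Fin 3)) ∧ E ≤ CL ∧ ∃ (_ : (E.subgroupOf CL).Normal) (F : Type) (_ : Field F) (_ : Fintype F), Fintype.card F = 4 ∧ Nonempty (↥CL ⧸ E.subgroupOf CL ≃* MulAut (Cfsg.PSU 6 F 2)) := by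
  obtain ⟨F0, rfl⟩ := rec24 hD hprim h24
  obtain ⟨F, e, rfl, rfl, rfl⟩ := t3_24 F0 h₁ h₂ h₃ h12 c12 h13 c13 h23 c23
  rw [← e] at h₁ h₂ h₃
  have f := fac3 h₁ h₂ h₃ h12 h13 h23 c12 c13 c23
  have cj := fun g x (hx : x ∈ F.D) => F.conj_mem g hx
  have i : L.index = 2 := hL ▸ (comm24 F).2
  have nL := fun x (hx : x ∈ F.D) => FM.not_mem_two (trD24 F) i hx
  have ev := fun p hp q hq => (mul_mem_iff_of_index_two i).2 (iff_of_false (nL p hp) (nL q hq))
  obtain ⟨M, hM⟩ : ∃ M, M = L ⊓ centralizer {F.e (10,[]), F.e (0,[]), F.e (2,[])} := ⟨_, rfl⟩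
  have l : M ≤ CL := hM ▸ hCL ▸ inf_le_inf_left _ fun g hg => mem_centralizer_singleton_iff.2 (f.fix fun x hx => by
    rwa [conj_eq_self.2 (mem_cent.1 hg x (by simpa using hx))])
  have hK' : ∀ g, g ∈ M ↔ g ∈ L ∧ ∀ a ∈ [F.e (10,[]), F.e (0,[]), F.e (2,[])], Commute g a := fun g => by simp [hM, mem_cent]
  have j : ∃ _ : (M.subgroupOf CL).Normal, Nonempty (CL ⧸ M.subgroupOf CL ≃* Equiv.Perm (Fin 3)) := hCL ▸ fac_quot cj (uq24 F le_rfl) f
    (F.sw3 f (1,[]) (0,[1,11]) (11,[]) (by decide +kernel) (by decide +kernel) (by decide +kernel)) ev fun g hg => by simp [hK', hg]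
  have o : ∀ {x y}, x ∈ F.D → y ∈ F.D → x ≠ y → Commute x y → x * y * (x * y) = 1 ∧ x * y ≠ 1 := fun h₁ h₂ n c =>
    ⟨by rw [c.symm.mul_mul_mul_comm, F.t3.sq _ h₁, F.t3.sq _ h₂, mul_one], fun e => n (by rw [eq_inv_of_mul_eq_one_left e, F.t3.inv h₂])⟩
  have z : Nat.card E = 4 := hE ▸ (card_pair (o h₁ h₂ h12 c12).1 (o h₁ h₃ h13 c13).1 (((Commute.refl _).mul_right c13).mul_left (c12.symm.mul_right c23))
    (o h₁ h₂ h12 c12).2 (o h₁ h₃ h13 c13).2 fun e => h23 (mul_left_cancel e)).1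
  have k : Nat.card M = 4 * Nat.card H8.U62.P := by
    have := card_inf_two i (C := centralizer {F.e (10,[]), F.e (0,[]), F.e (2,[])}) (mem_cent.2 (by simp [c12, c13])) (nL _ h₁)
    rw [← hM, ← top_inf_eq (centralizer _), ← F.PS3, cd3_24] at this
    rw [FU.card]; change _ = 4 * 9196830720; omega
  obtain ⟨τ, h⟩ := loc24' F h₁ ⟨h₂, h12.symm, c12⟩ F22
  obtain ⟨σ, h⟩ := h.down (fun d hd => (loc22 F22 FU d hd).cc) (y := F.e (2,[])) ⟨⟨h₃, h13.symm, c13⟩, h23.symm, c23⟩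
  obtain ⟨a, a', b, c, -, n1, n2, ⟨q⟩, d⟩ := tw_pack FU (simpleU FU) (trU FU) (sepU FU) F.t3 cj (l := [F.e (10,[]), F.e (0,[]), F.e (2,[])])
    (fun x => by simp only [List.forall_mem_cons]; exact ⟨fun h => ⟨h.1.1.1, h.1.1.2, h.1.2, h.2, nofun⟩, fun h => ⟨⟨⟨h.1, h.2.1⟩, h.2.2.1⟩, h.2.2.2.1⟩⟩) h (oct24 F) List.mem_cons_self h₁ i nL hK'
    (Z := E) (fun W h => hE ▸ (closure_le _).2 (Set.pair_subset (h _ (by simp)) (h _ (by simp)))) (z ▸ k)
    (fun g hg => ⟨(hCL ▸ hg).1, f.inv cj (uq24 F le_rfl) (mem_centralizer_singleton_iff.1 (hCL ▸ hg).2)⟩) l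
  obtain rfl := hK.trans b
  obtain ⟨E', _, _, u, ⟨p⟩⟩ := psuU FU
  have : Fact (Nat.Prime 2) := ⟨Nat.prime_two⟩
  obtain ⟨r⟩ := d (by
    rw [← (K.subgroupOf CL).card_mul_index, index_of_quot j, Nat.card_congr (subgroupOfEquivOfLe l).toEquiv, k, z, Nat.card_congr (MulAut.congr p).toEquiv,
      Cfsg.Agent.S0815.result 2 1 le_rfl (q := 2) rfl u 6 (by decide) (by decide), ← Nat.card_congr p.toEquiv]
    simp [Nat.factorial]; omega)
  refine ⟨a, a', le_antisymm (fun g hg => mem_inf.2 ⟨((hK' g).1 hg).1, ?_⟩) ?_, ⟨n1, E', _, _, u, ⟨q.trans p⟩⟩, j.1, j.2, c.trans l, n2, E', _, _, u,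
    ⟨r.trans (MulAut.congr p)⟩⟩
  · intro x hx
    obtain ⟨x, hy, rfl⟩ := a'.ge hx
    exact congrArg Subtype.val (mem_center_iff.1 hy ⟨g, hg⟩).symm
  · refine fun g hg' => (hK' g).2 ⟨hg'.1, ?_⟩
    have c2 : Commute g (F.e (10,[]) * F.e (0,[])) := mem_cent.1 hg'.2 _ (hE.ge (subset_closure (by simp)))
    have c3 : Commute g (F.e (10,[]) * F.e (2,[])) := mem_cent.1 hg'.2 _ (hE.ge (subset_closure (by simp)))
    have m2 := (fac2 h₁ h₂ h12 c12).inv cj (uq24 F (by decide)) c2 _ List.mem_cons_self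
    have m3 := (fac2 h₁ h₃ h13 c13).inv cj (uq24 F (by decide)) c3 _ List.mem_cons_self
    simp only [List.mem_cons, List.not_mem_nil, or_false] at m2 m3
    have c1 := conj_eq_self.1 (m2.elim id fun a => m3.elim id fun b => absurd (a.symm.trans b) h23)
    simp only [List.forall_mem_cons]
    exact ⟨c1, by simpa [F.t3.cancel h₁] using c1.mul_right c2, by simpa [F.t3.cancel h₁] using c1.mul_right c3, nofun⟩

end Cfsg.Agent.S5466
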