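import Cfsg.Statements.S5467
import Cfsg.Agent.H7.T.K4_1
import Cfsg.Agent.H7.T.K4_2
import Cfsg.Agent.H7.T.K4_3
import Cfsg.Agent.H7.T.K4_4
import Cfsg.Agent.H7.LB2
import Cfsg.Agent.H7.Inv24

set_option autoImplicit false
open Cfsg

namespace Cfsg.Agent.S5467

open H7 H7.T Subgroup
open scoped Pointwise

/-- Let G be a finite group with trivial centre generated by a conjugation-invariant set D of 3-transpositions on which it acts primitively, such that for some d in D the subgroup generated by the members of D other than d commuting with d has central largest normal 2- and 3-subgroups, and suppose G with D is of type M(24), and let L be the commutator subgroup of G. Let z be the product of four distinct pairwise commuting members of D (an involution of L) and C its centralizer in L. Then the generalized Fitting subgroup Q of C is extraspecial of order 2^13, and C has normal subgroups Q ≤ N ≤ M with N/Q of order 3, M/N isomorphic to the projective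 special unitary group of dimension 4 over the field with nine elements, and M of index 2 in C. -/
theorem result {G : Type*} [Group G] [Finite G] {D : Set G} (hD : Cfsg.IsThreeTranspositionGroup D) (hprim : Cfsg.IsPrimitiveUnderConj D) (d₀ : G) (hd₀ : d₀ ∈ D) (h3 : Cfsg.pCore 3 ↥(Subgroup.closure {y : G | y ∈ D ∧ y ≠ d₀ ∧ Commute d₀ y}) ≤ Subgroup.center ↥(Subgroup.closure {y : G | y ∈ D ∧ y ≠ d₀ ∧ Commute d₀ y})) (h2 : Cfsg.pCore 2 ↥(Subgroup.closure {y : G | y ∈ D ∧ y ≠ d₀ ∧ Commute d₀ y}) ≤ Subgroup.center ↥(Subgroup.closure {y : G | y ∈ D ∧ y ≠ d₀ ∧ Commute d₀ y})) (h24 : Cfsg.IsOfTypeM24 G D) (L : Subgroup G) (hL : L = commutator G) (z : G) (l : List G) (hl : (l.Nodup ∧ l.length = 4 ∧ (∀ a ∈ l, a ∈ D) ∧ (∀ a ∈ l, ∀ b ∈ l, Commute a b) ∧ l.prod = z)) (C : Subgroup G) (hC : C = L ⊓ Subgroup.centralizer ({z} : Set G)) : ∃ (Q : Subgroup ↥C) (_ : Q.Normal), Cfsg.generalizedFittingSubgroup ↥C = Q ∧ Cfsg.IsExtraspecial 2 ↥Q ∧ Nat.card Q = 2 ^ 13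 ∧ ∃ (N M : Subgroup ↥C) (_ : N.Normal) (_ : M.Normal), Q ≤ N ∧ N ≤ M ∧ Nat.card N = 3 * Nat.card Q ∧ (∃ (K : Type) (_ : Field K) (_ : Fintype K), Fintype.card K = 9 ∧ Nonempty (↥M ⧸ N.subgroupOf M ≃* Cfsg.PSU 4 K 3)) ∧ M.index = 2 := by
  obtain ⟨F0, rfl⟩ := rec24 hD hprim h24
  obtain ⟨g, e⟩ := isConj_iff.1 ((cls24 F0 4 (by decide) le_rfl).2.1 z ⟨l, hl⟩).symm
  have i : L.index = 2 := hL ▸ (comm24 F0).2
  obtain ⟨F, rfl⟩ : ∃ F : FM P24 G, z = F.ev [10, 0, 2, 4] := ⟨F0.cj' g, e.symm.trans (F0.cj_ev g _).symm⟩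
  have ev : ∀ {w}, P24.okw w = true → (F.ev w ∈ L ↔ Even w.length) := F.even_mem (trD24 F) i
  have m : ∀ w ∈ W_k ++ (GW_k ++ [r_k]), F.ev w ∈ C := fun w hw => hC ▸ ⟨have := allL_iff.1 (by decide +kernel :
    allL (fun w => band (P24.okw w) (Nat.beq (w.length % 2) 0)) (W_k ++ (GW_k ++ [r_k])) = true) w hw
    (ev (by simpa using (Bool.and_eq_true_iff.1 ((band_eq _ _).symm.trans this)).1)).2 (Nat.even_iff.2 (Nat.eq_of_beq_eq_true (Bool.and_eq_true_iff.1 ((band_eq _ _).symm.trans this)).2)), cz_k F w hw⟩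
  simp only [List.forall_mem_append, List.forall_mem_singleton] at m
  have gq := gq_k F
  have st := st_k F
  simp only [List.forall_mem_append, List.forall_mem_singleton] at gq st
  have c := (pcs_k F).card le_rfl (by decide)
  set Q := NN (F.zW W_k) 13 0 with hQ
  set K := Q ⊔ zpowers (F.ev r_k) with hK
  have u : Nat.card C ≤ 3 * 2 ^ 13 * 6531840 := by
    have := card_half i (H := centralizer {F.ev [10, 0, 2, 4]}) (a := F.ev [10]) (FM.cwE (he_24 F) (W := [[10]]) (by decide +kernel) _ (by simp)) (mt (ev (by decide +kernel)).1 (by decide))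
    have := ub_kz F
    rw [hC]; omega
  have k1 : 3 * 2 ^ 13 ≤ Nat.card K := Nat.le_of_dvd Nat.card_pos ((by decide : Nat.Coprime 3 (2 ^ 13)).mul_dvd_of_dvd_of_dvd
    (or_k F ▸ K.orderOf_dvd_natCard (pow_mem (mem_sup_right (mem_zpowers _)) _)) (c ▸ card_dvd_of_le le_sup_left))
  have l' : K ≤ C := sup_le (FM.zW_le m.1) (zpowers_le.2 m.2.2)
  obtain ⟨e1, e2, _, ⟨e3⟩⟩ := quot8 (K := K ⊔ genW F.gs GW_k) H8.U43X.gen (in_k F) le_sup_left (sup_le l' (genW_le.2 m.2.1))
    (sup_le le_normalizer (genW_le.2 fun w hw => mem_normalizer_fintype fun x hx => (show K ≤ K.comap (MulAut.conj (F.ev w)).toMonoidHom from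
      sup_le (fun y hy => mem_sup_left ((gq.1 w hw y).1 hy)) (zpowers_le.2 (kn_k F w hw))) hx))
    (fun j hj => ⟨_, (nthW_mem GW_k j).elim (fun e => e.symm ▸ one_mem _) fun e => mem_sup_right (mem_genW e), rp_k F j hj⟩)
    (fun z hz a _ => FM.ptL_fix ((show K ≤ _ from sup_le (FM.zW_le st.1) (zpowers_le.2 st.2)) hz) rfl a)
    (u.trans (by rw [H8.U43X.card]; exact Nat.mul_le_mul_right _ k1))
  rw [H8.U43X.card] at e2
  have : Fact (Nat.Prime 3) := ⟨Nat.prime_three⟩
  have := Fintype.ofFinite (GaloisField 3 2)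
  have k : Fintype.card (GaloisField 3 2) = 9 := by rw [← Nat.card_eq_fintype_card, GaloisField.card 3 2 two_ne_zero]; rfl
  have z1 : NN (F.zW W_k) 13 12 = zpowers (F.ev [10, 0, 2, 4]) := NN_last (z := F.zW W_k) (n := 12)
  obtain ⟨A, a1, a2, a3, a4, N, M, b1, b2, b3, b4, b5, b6, b7⟩ := four_pack (z := F.ev [10, 0, 2, 4]) ⟨NN_mem (j := 12) (by decide) (by decide),
    (Nat.card_zpowers _).symm.trans (z1 ▸ (pcs_k F).card (by decide) (by decide)), fun x hx => mem_centralizer_singleton_iff.1 (hC.le (l' (mem_sup_left hx))).2,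
    fun x hx y hy => z1.le (cm_k F x hx y hy)⟩ (ubh_kc F) (fun e => absurd (c.symm.trans ((congrArg (fun X : Subgroup G => Nat.card X) (e.trans z1.symm)).trans ((pcs_k F).card (by decide) (by decide)))) (by decide))
    le_sup_left l' (e1 ▸ sup_le (sup_le le_normalizer (zpowers_le.2 gq.2)) (genW_le.2 gq.1)) c (le_antisymm (Nat.le_of_mul_le_mul_right (e2.symm.trans_le u) (by decide)) k1) e3 (H8.U43X.pk k)
    (S := H8.U43.P.subgroupOf H8.U43X.P) (Nat.eq_of_mul_eq_mul_left (by decide : 0 < 3265920) (by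
      rw [← H8.U43.card, ← Nat.card_congr (subgroupOfEquivOfLe H8.U43X.le).toEquiv, card_mul_index, H8.U43X.card, Nat.card_congr (subgroupOfEquivOfLe H8.U43X.le).toEquiv, H8.U43.card]))
    ((subgroupOfEquivOfLe H8.U43X.le).trans (H8.U43.iso k).some.symm)
  exact ⟨A, a1, a2, a3, a4, N, M, b1, b2, b3, b4, b5, ⟨_, _, _, k, b6⟩, b7⟩

end Cfsg.Agent.S5467
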