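import Cfsg.Statements.S5468
import Cfsg.Agent.H7.Fac2

set_option autoImplicit false
open Cfsg

namespace Cfsg.Agent.S5468

open H7 H7.T Subgroup

/-- Let G be a finite group with trivial centre generated by a conjugation-invariant set D of 3-transpositions on which it acts primitively, such that for some d in D the subgroup generated by the members of D other than d commuting with d has central largest normal 2- and 3-subgroups, and suppose G with D is of type M(23). Let d₁, d₂ be distinct commuting members of D, j = d₁ d₂, K the joint centralizer of d₁ and d₂ and C the centralizer of j. Then K has index 2 in C, the centre of K is the subgroup generated by d₁ and d₂, K is quasisimple with K modulo its centre isomorphic to the projective special unitary group of dimension 6 over the field with four elements, and C modulo the subgroup generated by d₁ and d₂ has trivial centre (so it is that unitary group extended by an outer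 involution). -/
theorem result {G : Type*} [Group G] [Finite G] {D : Set G} (hD : Cfsg.IsThreeTranspositionGroup D) (hprim : Cfsg.IsPrimitiveUnderConj D) (d₀ : G) (hd₀ : d₀ ∈ D) (h3 : Cfsg.pCore 3 ↥(Subgroup.closure {y : G | y ∈ D ∧ y ≠ d₀ ∧ Commute d₀ y}) ≤ Subgroup.center ↥(Subgroup.closure {y : G | y ∈ D ∧ y ≠ d₀ ∧ Commute d₀ y})) (h2 : Cfsg.pCore 2 ↥(Subgroup.closure {y : G | y ∈ D ∧ y ≠ d₀ ∧ Commute d₀ y}) ≤ Subgroup.center ↥(Subgroup.closure {y : G | y ∈ D ∧ y ≠ d₀ ∧ Commute d₀ y})) (h23 : Cfsg.IsOfTypeM23 G D) (d₁ d₂ : G) (h₁ : d₁ ∈ D) (h₂ : d₂ ∈ D) (hne : d₁ ≠ d₂) (hc : Commute d₁ d₂) (K C V : Subgroup G) (hK : K = Subgroup.centralizer ({d₁, d₂} : Set G)) (hC : C = Subgroup.centralizer ({d₁ * d₂} : Set G)) (hV : V = Subgroup.closure ({d₁, d₂} : Set G)) [hn : (V.subgroupOf C).Normal] : K ≤ C ∧ (K.subgroupOf C).index = 2 ∧ (Subgroup.center ↥K).map K.subtype = V ∧ Cfsg.IsQuasisimple ↥K ∧ (∃ (F : Type) (_ : Field F)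 (_ : Fintype F), Fintype.card F = 4 ∧ Nonempty (↥K ⧸ Subgroup.center ↥K ≃* Cfsg.PSU 6 F 2)) ∧ Subgroup.center (↥C ⧸ V.subgroupOf C) = ⊥ := by
  obtain ⟨F0, rfl⟩ := rec23' hD h23
  obtain ⟨F, e, rfl, rfl⟩ := t2_23 F0 h₁ h₂ hne hc
  rw [← e] at h₁ h₂
  have f := fac2 h₁ h₂ hne hc
  have l : K ≤ C := hK ▸ hC ▸ fun g hg => mem_centralizer_singleton_iff.2 (f.fix fun x hx => by
    rwa [conj_eq_self.2 (mem_cent.1 hg x (by simpa using hx))])
  obtain ⟨τ, h⟩ := (loc23 F F22 _ h₁).cc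
  obtain ⟨σ, h⟩ := h.down (fun d hd => (loc22 F22 FU d hd).cc) (y := F.e (6,[])) ⟨h₂, hne.symm, hc⟩
  have s := F.S_dp2 (a := (10,[])) (b := (6,[])) (by decide +kernel) (by decide +kernel)
  have m1 : F.e (10,[]) ∈ closure (Dp (Dp F.D (F.e (10,[]))) (F.e (6,[]))) := s ▸ F.plm (k := 6) (by decide +kernel)
    [(4,[]),(2,[]),(5,[12,9,6,12]),(0,[11,4,7,11,9]),(1,[11,0,7,11,3]),(4,[11,6,10,11,1])] (by decide +kernel)
  have m2 : F.e (6,[]) ∈ closure (Dp (Dp F.D (F.e (10,[]))) (F.e (6,[]))) := s ▸ F.plm (k := 6) (by decide +kernel)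
    [(4,[]),(2,[]),(3,[11,6,10,11]),(4,[11,7,10,11,1]),(4,[11,6,10,11,1]),(0,[11,1,7,11,4,3])] (by decide +kernel)
  have cv : ∀ z ∈ V, ∀ x ∈ Dp (Dp F.D (F.e (10,[]))) (F.e (6,[])), Commute z x := fun z hz x hx =>
    (comm_closure (by simp [hx.1.2.2.symm, hx.2.2.symm]) (hV ▸ hz)).symm
  obtain ⟨k1, k2⟩ := cent_gen (K := K) (V := V) h FU.closure_D FU.center_eq
    (hK ▸ (closure_le _).2 fun x hx => mem_cent.2 (by simp [hx.1.2.2.symm, hx.2.2.symm]))
    (hV ▸ (closure_le _).2 (by simp [Set.insert_subset_iff, m1, m2])) cv (by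
      rw [hK, hV, (card_pair (F.t3.sq _ h₁) (F.t3.sq _ h₂) hc (F.t3.ne _ h₁) (F.t3.ne _ h₂) hne).1, FU.card, ← top_inf_eq (centralizer _),
        ← F.PS2, cd2_23]; rfl)
  obtain ⟨q, -⟩ := h.quot FU.closure_D FU.center_eq
  obtain ⟨E, _, _, c, ⟨p⟩⟩ := psuU FU
  refine ⟨l, ?_, k1 ▸ k2, k1 ▸ h.qs FU (simpleU FU) (trU FU) (by decide : Odd 7) (s ▸ F.pr1
    [(4,[]),(2,[]),(3,[11,6,10,11]),(2,[3,4,7,3]),(0,[11,4,7,11,9]),(0,[11,2,4,11,9]),(0,[11,1,5,11,12])] (by decide +kernel)),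
    k1 ▸ ⟨E, inferInstance, inferInstance, c, ⟨q.trans p⟩⟩, eq_bot_iff.2 fun z hz => ?_⟩
  · rw [hC, ← top_inf_eq (centralizer {_ * _})]
    exact index_of_quot (fac_quot (fun g _ => F.conj_mem g) (uq23 F (by decide)) f (F.sw2 f (9,[]) (by decide +kernel))
      (fun _ _ _ _ => mem_top _) fun g _ => by simp [hK, mem_cent])
  · obtain ⟨z, rfl⟩ := QuotientGroup.mk_surjective z
    have i := f.inv (fun g _ => F.conj_mem g) (uq23 F (by decide)) (g := z.1⁻¹)
      (mem_centralizer_singleton_iff.1 (hC.le (inv_mem z.2)))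
    have a : ∀ x ∈ Dp (Dp F.D (F.e (10,[]))) (F.e (6,[])), Commute z.1 x := fun x hx => by
      have t : ∀ y ∈ [F.e (10,[]), F.e (6,[])], x ≠ y ∧ Commute y x := by simp [hx.1.2, hx.2]
      have u : ∀ y ∈ [F.e (10,[]), F.e (6,[])], z * x * z.1⁻¹ ≠ y ∧ Commute y (z * x * z.1⁻¹) := fun y hy =>
        ⟨fun k => (t _ (i y hy)).1 (by simp [← k, mul_assoc]), by simpa [mul_assoc] using (conj_comm z.1).2 (t _ (i y hy)).2⟩
      refine (Sep.map h (sepU FU)).cent hx ⟨⟨F.conj_mem _ hx.1.1, u _ (by simp)⟩, u _ (by simp)⟩ (cv _ ?_)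
      have := mem_center_iff.1 hz (QuotientGroup.mk ⟨x, l (k1 ▸ subset_closure hx)⟩)
      rw [← QuotientGroup.mk_mul, ← QuotientGroup.mk_mul, eq_comm, ← div_eq_one, ← QuotientGroup.mk_div, QuotientGroup.eq_one_iff,
        mem_subgroupOf] at this
      simpa [div_eq_mul_inv, mul_assoc] using this
    have b : z.1 ∈ K := hK ▸ mem_cent.2 (by simp [comm_closure a m1, comm_closure a m2])
    refine (QuotientGroup.eq_one_iff _).2 (mem_subgroupOf.2 (k2 ▸ ⟨⟨z, k1 ▸ b⟩, ?_, rfl⟩))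
    exact mem_center_iff.2 fun g => Subtype.ext (comm_closure a g.2).symm

end Cfsg.Agent.S5468
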