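import Cfsg.Statements.S5469
import Cfsg.Agent.H7.Two22

set_option autoImplicit false
open Cfsg

namespace Cfsg.Agent.S5469

open H7 H7.T Subgroup

/-- Let G be a finite group with trivial centre generated by a conjugation-invariant set D of 3-transpositions on which it acts primitively, such that for some d in D the subgroup generated by the members of D other than d commuting with d has central largest normal 2- and 3-subgroups, and suppose G with D is of type M(22). Let d₁, d₂ be distinct commuting members of D, j = d₁ d₂, K the joint centralizer of d₁ and d₂, C the centralizer of j and V the subgroup generated by d₁ and d₂. Then K has index 2 in C, V is the centre of K, and C has a normal subgroup E containing V with E/V elementary abelian of order 2^8 and C/E isomorphic to the full automorphism group of the projective special unitary group of dimension 4 over the field with four elements. -/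
theorem result {G : Type*} [Group G] [Finite G] {D : Set G} (hD : Cfsg.IsThreeTranspositionGroup D) (hprim : Cfsg.IsPrimitiveUnderConj D) (d₀ : G) (hd₀ : d₀ ∈ D) (h3 : Cfsg.pCore 3 ↥(Subgroup.closure {y : G | y ∈ D ∧ y ≠ d₀ ∧ Commute d₀ y}) ≤ Subgroup.center ↥(Subgroup.closure {y : G | y ∈ D ∧ y ≠ d₀ ∧ Commute d₀ y})) (h2 : Cfsg.pCore 2 ↥(Subgroup.closure {y : G | y ∈ D ∧ y ≠ d₀ ∧ Commute d₀ y}) ≤ Subgroup.center ↥(Subgroup.closure {y : G | y ∈ D ∧ y ≠ d₀ ∧ Commute d₀ y})) (h22 : Cfsg.IsOfTypeM22 G D) (d₁ d₂ : G) (h₁ : d₁ ∈ D) (h₂ : d₂ ∈ D) (hne : d₁ ≠ d₂) (hc : Commute d₁ d₂) (K C V : Subgroup G) (hK : K = Subgroup.centralizer ({d₁, d₂} : Set G)) (hC : C = Subgroup.centralizer ({d₁ * d₂} : Set G)) (hV : V = Subgroup.closure ({d₁, d₂} : Set G)) : K ≤ C ∧ (K.subgroupOf C).index = 2 ∧ (Subgroup.center ↥K).map K.subtype = V ∧ ∃ E : Subgroup G, V ≤ E ∧ E ≤ C ∧ (∀ c ∈ C, ∀ x ∈ E, c * x * c⁻¹ ∈ E) ∧ Nat.card E = 2 ^ 10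 ∧ (∀ x ∈ E, ∀ y ∈ E, x * y * x⁻¹ * y⁻¹ ∈ V ∧ x ^ 2 ∈ V) ∧ ∃ (_ : (E.subgroupOf C).Normal) (F : Type) (_ : Field F) (_ : Fintype F), Fintype.card F = 4 ∧ Nonempty (↥C ⧸ E.subgroupOf C ≃* MulAut (Cfsg.PSU 4 F 2)) := by
  obtain ⟨F0, rfl⟩ := rec22' hD h22
  obtain ⟨F, -, rfl, rfl⟩ := t2_22 F0 h₁ h₂ hne hc
  obtain ⟨l, i, u⟩ := cd_2b F
  rw [← hK, ← hC] at l i
  rw [(ev_2b F).1, (ev_2b F).2] at hK hV hc
  rw [(ev_2b F).1, (ev_2b F).2, ← show (F22q F).ev [0, 2] = _ from (F22q F).ev_app [0] [2]] at u hC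
  generalize F22q F = U at *
  subst hC hK
  obtain ⟨K', _, _, k⟩ := gf4
  obtain ⟨-, -, n, _, ⟨e⟩⟩ := qw_Q22E U u.le
  obtain ⟨f⟩ := (H8.Q22E.pk k).2
  obtain ⟨b, c, s, -⟩ := pk_2b U
  have z : zpowers (U.ev [29]) ≤ V := hV ▸ zpowers_le.2 (((zz_e22 U).trans (U.ev_app [0] [2])).symm ▸ mul_mem (subset_closure (by simp)) (subset_closure (by simp)))
  refine ⟨l, i, le_antisymm ?_ ?_, _, hV ▸ vle_2b U, nn_e22 U, fun g hg x => (n hg x).1, (pcs_e22 U).card le_rfl (by decide),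
    fun x hx y hy => ⟨z ((NN_last (z := U.zW W_e22) (n := 9)).le (cm_e22 U x hx y hy)), z (s x hx)⟩, ‹_›, K', _, _, k, ⟨e.trans f⟩⟩
  · rintro _ ⟨x, hx, rfl⟩
    exact hV ▸ c.le fun g hg => congrArg Subtype.val (mem_center_iff.1 hx ⟨g, b hg⟩)
  · have m : ∀ x ∈ ({U.ev [0], U.ev [2]} : Set G), x ∈ centralizer {U.ev [0], U.ev [2]} := by
      rintro _ (rfl | rfl) _ (rfl | rfl)
      exacts [rfl, hc.symm, hc, rfl]
    exact hV ▸ (closure_le _).2 fun x hx => ⟨⟨x, m x hx⟩, mem_center_iff.2 fun g => Subtype.ext (g.2 x hx).symm, rfl⟩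

end Cfsg.Agent.S5469
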