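import Cfsg.Statements.S5470
import Cfsg.Agent.H7.Fac2

set_option autoImplicit false
open Cfsg

namespace Cfsg.Agent.S5470

open H7 H7.T Subgroup

/-- Let G be a finite group with trivial centre generated by a conjugation-invariant set D of 3-transpositions on which it acts primitively, such that for some d in D the subgroup generated by the members of D other than d commuting with d has central largest normal 2- and 3-subgroups, and suppose G with D is of type M(22). Then the centralizer of a product of three distinct pairwise commuting members of D has order 2^16 · 3^3. -/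
theorem result {G : Type*} [Group G] [Finite G] {D : Set G} (hD : Cfsg.IsThreeTranspositionGroup D) (hprim : Cfsg.IsPrimitiveUnderConj D) (d₀ : G) (hd₀ : d₀ ∈ D) (h3 : Cfsg.pCore 3 ↥(Subgroup.closure {y : G | y ∈ D ∧ y ≠ d₀ ∧ Commute d₀ y}) ≤ Subgroup.center ↥(Subgroup.closure {y : G | y ∈ D ∧ y ≠ d₀ ∧ Commute d₀ y})) (h2 : Cfsg.pCore 2 ↥(Subgroup.closure {y : G | y ∈ D ∧ y ≠ d₀ ∧ Commute d₀ y}) ≤ Subgroup.center ↥(Subgroup.closure {y : G | y ∈ D ∧ y ≠ d₀ ∧ Commute d₀ y})) (h22 : Cfsg.IsOfTypeM22 G D) (d₁ d₂ d₃ : G) (h₁ : d₁ ∈ D) (h₂ : d₂ ∈ D) (h₃ : d₃ ∈ D) (h12 : d₁ ≠ d₂) (h13 : d₁ ≠ d₃) (h23 : d₂ ≠ d₃) (c12 : Commute d₁ d₂) (c13 : Commute d₁ d₃) (c23 : Commute d₂ d₃) : Nat.card ↥(Subgroup.centralizer ({d₁ * d₂ * d₃} : Set G)) = 2 ^ 16 * 3 ^ 3 := by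
  obtain ⟨F0, rfl⟩ := rec22' hD h22
  obtain ⟨F, e, rfl, rfl, rfl⟩ := t3_22 F0 h₁ h₂ h₃ h12 c12 h13 c13 h23 c23
  rw [← e] at h₁ h₂ h₃
  obtain ⟨f, s⟩ := six22 F
  have f1 := F.fac (qs := [(0,[]),(2,[]),(4,[])]) (m := P22.all) (by decide +kernel)
  have j : F.e (0,[]) * F.e (2,[]) * F.e (4,[]) = F.ev (tws [(0,[]),(2,[]),(4,[])]) := by rw [← f1.2.2.2.2]; simp [mul_assoc]
  have o := (F.chL_spec ch6).1
  have i1 : F.Inv (F.PS (centralizer {F.ev (tws [(0,[]),(2,[]),(4,[])])}) []) (P22.bm ([(0,[]),(2,[]),(4,[])] ++ L6)) :=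
    fun g hg x hx => by
    rw [F.mem_bm o] at hx ⊢
    have c := conj_eq_self.2 (mem_centralizer_singleton_iff.1 hg.1)
    rcases List.mem_append.1 (List.map_append ▸ hx) with h | h
    exacts [s _ (c ▸ f1.conj fun _ => F.conj_mem g) _ (List.mem_map.2 ⟨x, h, rfl⟩),
      s _ (c ▸ f.conj fun _ => F.conj_mem g) _ (List.mem_map.2 ⟨x, h, rfl⟩)]
  have i2 : F.Inv (F.PS (centralizer {F.ev (tws [(0,[]),(2,[]),(4,[])])}) [(0,[])]) (P22.bm [(2,[]),(4,[])]) :=
    fun g hg x hx => by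
    rw [F.mem_bm (by decide +kernel)] at hx ⊢
    have c : Commute g _ := mem_centralizer_singleton_iff.1 hg.1
    rw [← j, mul_assoc] at c
    exact (fac2 h₂ h₃ h23 c23).inv (fun g _ => F.conj_mem g) (uq22 F le_rfl) (by
      simpa [F.t3.cancel h₁] using ((FM.mem_PS.1 hg).2 _ List.mem_cons_self).symm.mul_right c) x hx
  have a := FM.pst i1 (c := (0,[])) (r := 2) (N := 6) (W := [[11,12,10,12,11,0,2,11,12,10,12,11,3,7,8,9,10,3,2,3,12,0,6,12],
    [12,11,9,11,12,2,8,9,8,7,8,9,12,1,12,0,4,9,3,7,12,11,1],[3,2,3,4,3,4],[1,0,2,1]]) (by decide +kernel) (F.cw (by decide +kernel))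
    (by decide +kernel)
  have b := FM.pst i2 (c := (2,[])) (r := 1) (N := 2) (W := [[3,2,3,4,3,4]]) (by decide +kernel) (F.cw (by decide +kernel))
    (by decide +kernel)
  have c : F.PS (centralizer {F.ev (tws [(0,[]),(2,[]),(4,[])])}) [(2,[]),(0,[])] = F.PS ⊤ [(4,[]),(2,[]),(0,[])] := by
    ext g
    simp only [FM.mem_PS, List.forall_mem_cons, mem_centralizer_singleton_iff, ← j, ← commute_iff_eq, mem_top]
    exact ⟨fun h => ⟨trivial, by simpa [mul_assoc, F.t3.cancel h₁, F.t3.cancel h₂] using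
      (h.2.1.symm.mul_right (h.2.2.1.symm.mul_right h.1)).symm, h.2⟩,
      fun h => ⟨(h.2.2.2.1.symm.mul_right h.2.2.1.symm).mul_right h.2.1.symm, h.2.2⟩⟩
  rw [FM.PS_nil, b, c, cd3_22] at a
  rw [j, a]; rfl

end Cfsg.Agent.S5470
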