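import Cfsg.Statements.S5471
import Cfsg.Agent.H7.Fac2

set_option autoImplicit false
open Cfsg

namespace Cfsg.Agent.S5471

open H7 H7.T Subgroup

/-- Let G be a finite group with trivial centre generated by a conjugation-invariant set D of 3-transpositions on which it acts primitively, such that for some d in D the subgroup generated by the members of D other than d commuting with d has central largest normal 2- and 3-subgroups, and suppose G with D is of type M(23). Let d₁, d₂, d₃ be distinct pairwise commuting members of D and j their product. Then the joint centralizer of d₁, d₂, d₃ is normal in the centralizer of j with quotient isomorphic to the symmetric group of degree 3. -/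
theorem result {G : Type*} [Group G] [Finite G] {D : Set G} (hD : Cfsg.IsThreeTranspositionGroup D) (hprim : Cfsg.IsPrimitiveUnderConj D) (d₀ : G) (hd₀ : d₀ ∈ D) (h3 : Cfsg.pCore 3 ↥(Subgroup.closure {y : G | y ∈ D ∧ y ≠ d₀ ∧ Commute d₀ y}) ≤ Subgroup.center ↥(Subgroup.closure {y : G | y ∈ D ∧ y ≠ d₀ ∧ Commute d₀ y})) (h2 : Cfsg.pCore 2 ↥(Subgroup.closure {y : G | y ∈ D ∧ y ≠ d₀ ∧ Commute d₀ y}) ≤ Subgroup.center ↥(Subgroup.closure {y : G | y ∈ D ∧ y ≠ d₀ ∧ Commute d₀ y})) (h23 : Cfsg.IsOfTypeM23 G D) (d₁ d₂ d₃ : G) (h₁ : d₁ ∈ D) (h₂ : d₂ ∈ D) (h₃ : d₃ ∈ D) (h12 : d₁ ≠ d₂) (h13 : d₁ ≠ d₃) (h23 : d₂ ≠ d₃) (c12 : Commute d₁ d₂) (c13 : Commute d₁ d₃) (c23 : Commute d₂ d₃) (K C : Subgroup G) (hK : K = Subgroup.centralizer ({d₁, d₂, d₃} : Set G)) (hC : C = Subgroup.centralizer ({d₁ * d₂ * d₃} : Set G)) : K ≤ C ∧ ∃ _ : (K.subgroupOf C).Normal, Nonempty (↥C ⧸ K.subgroupOf C ≃* Equiv.Perm (Fin 3)) := by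
  have n23 : d₂ ≠ d₃ := h23
  obtain ⟨F0, rfl⟩ := rec23' hD ‹_›
  obtain ⟨F, e, rfl, rfl, rfl⟩ := t3_23 F0 h₁ h₂ h₃ h12 c12 h13 c13 n23 c23
  rw [← e] at h₁ h₂ h₃
  subst hK hC
  have f := fac3 h₁ h₂ h₃ h12 h13 n23 c12 c13 c23
  refine ⟨fun g hg => mem_centralizer_singleton_iff.2 (f.fix fun x hx => by
    rwa [conj_eq_self.2 (mem_cent.1 hg x (by simpa using hx))]), ?_⟩
  rw [← top_inf_eq (centralizer {_ * _ * _})]
  exact fac_quot (fun g _ => F.conj_mem g) (uq23 F le_rfl) f (F.sw3 f (5,[]) (4,[11,12]) (9,[]) (by decide +kernel)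
    (by decide +kernel) (by decide +kernel)) (fun _ _ _ _ => mem_top _) fun g _ => by simp [mem_cent]

end Cfsg.Agent.S5471
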