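import Cfsg.Statements.S5515
import Cfsg.Agent.H8.OutX
import Cfsg.Agent.S2608
import Cfsg.Agent.S1265
import Cfsg.Agent.S0296
-- import your own Cfsg.Agent.* helpers here

set_option autoImplicit false
set_option maxRecDepth 200000
open Cfsg

namespace Cfsg.Agent.S5515

/-- Let G and G′ be finite groups whose generalized Fitting subgroups are isomorphic to PΩ⁺(8, 3) (the commutator subgroup of the isometry group of the hyperbolic quadratic form in dimension 8 over the field with three elements, modulo its centre) with quotients isomorphic to the symmetric group of degree 3. Then G and G′ are isomorphic. -/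
theorem result {G G' : Type*} [Group G] [Finite G] [Group G'] [Finite G'] (hF : Nonempty (↥(Cfsg.generalizedFittingSubgroup G) ≃* Cfsg.POmega (ZMod 3) (Cfsg.quadFormPlus 4 (ZMod 3)))) (hF' : Nonempty (↥(Cfsg.generalizedFittingSubgroup G') ≃* Cfsg.POmega (ZMod 3) (Cfsg.quadFormPlus 4 (ZMod 3)))) [hn : (Cfsg.generalizedFittingSubgroup G).Normal] [hn' : (Cfsg.generalizedFittingSubgroup G').Normal] (hq : Nonempty (G ⧸ Cfsg.generalizedFittingSubgroup G ≃* Equiv.Perm (Fin 3))) (hq' : Nonempty (G' ⧸ Cfsg.generalizedFittingSubgroup G' ≃* Equiv.Perm (Fin 3))) : Nonempty (G ≃* G') := by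
  haveI : Fact (Nat.Prime 3) := ⟨Nat.prime_three⟩
  have h := Cfsg.Agent.S2608.result (F := ZMod 3) (p := 3) (f := 1) (m := 4) le_rfl (ZMod.card 3) (by decide) le_rfl
  rw [if_pos rfl] at h
  obtain ⟨ψ, hs, hk⟩ := H8.psi_of h.some
  haveI := Cfsg.Agent.S0296.result (F := ZMod 3) 4 le_rfl
  have z := H8.cen_of_out hs
  obtain ⟨φ, i, r, -⟩ := H8.ext_s3 z hs hk Cfsg.Agent.S1265.result hF.some hq.some
  obtain ⟨φ', i', r', -⟩ := H8.ext_s3 z hs hk Cfsg.Agent.S1265.result hF'.some hq'.some
  exact ⟨((MonoidHom.ofInjective i).trans (MulEquiv.subgroupCongr (r.trans r'.symm))).trans (MonoidHom.ofInjective i').symm⟩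

end Cfsg.Agent.S5515
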