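import Cfsg.Statements.S5518
import Cfsg.Agent.H7.T.T13_1

set_option autoImplicit false
open Cfsg

namespace Cfsg.Agent.S5518

open H7 H7.T Subgroup

set_option maxRecDepth 100000 in
theorem main {G : Type*} [Group G] (F : FM P24 G) {T K B : Subgroup G} (hT : T = closure {F.e (10, []), F.e B13, F.e C13, F.e (11, [])})
    (hK : K = centralizer (T : Set G)) (hB : B = zpowers (F.ev X13)) :
    Nonempty (K ≃* Cfsg.Lie.chevG2.group (ZMod 3)) ∧ B ≤ K ∧ Nat.card B = 13 ∧ normalizer (B : Set G) ≤ normalizer (K : Set G) ∧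
      Nat.card ↥(K ⊓ normalizer (B : Set G)) = 78 ∧ K ⊓ centralizer (B : Set G) = B ∧
      (((K ⊓ normalizer (B : Set G)) ⊔ T).subgroupOf (normalizer (B : Set G))).index = 2 := by
  have := F.fin
  obtain ⟨U, e⟩ := sub_8 F
  have k := (th_A24 F).2.2.2.1
  have eb : (U.e b13 : G) = F.e B13 := FM.sub_e e (by decide +kernel)
  have ec : (U.e c13 : G) = F.e C13 := FM.sub_e e (by decide +kernel)
  have ex : (U.ev x13 : G) = F.ev X13 := (FM.sub_ev e (qs := q_8) (by decide +kernel) (by decide +kernel)).trans (congrArg _ (by decide +kernel))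
  have t6 : T = closure (F.S m6_13) := hT.trans (FM.cl_eq (qs := [(10, []), B13, C13, (11, [])]) 2 (by decide +kernel) (by simp))
  have kp : K = F.PS ⊤ [C13, B13, (11, []), (10, [])] := by
    rw [hK, t6, F.PS_cent (a := m6_13) 2 (by decide +kernel), top_inf_eq]
  have k8 : K = (U.PS ⊤ [c13, b13]).map (Subgroup.subtype _) := by
    rw [U.PS2, top_inf_eq, ← cent_sub k, eb, ec, hK, hT, centralizer_closure]
    rw [Set.pair_comm (F.e C13), Set.insert_comm (F.e B13)]
  have ox : orderOf (U.ev x13) = 13 := ord_t13 U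
  have mx : U.ev x13 ∈ U.PS ⊤ [c13, b13] := FM.mem_PS_of (W := [_]) (fun _ _ => mem_top _) (by decide +kernel) _ List.mem_cons_self
  have oX : orderOf (F.ev X13) = 13 := ex ▸ (orderOf_coe _).trans ox
  obtain ⟨h1, -, h3, h4, -⟩ := frob_pack (x := F.ev X13) (n := U.ev n13) (m := 4) (k := 6) (by norm_num) oX
    (ex ▸ congrArg Subtype.val (cj_t13 U)) (congrArg Subtype.val (nk_t13 U)) (by decide) (by decide)
  have kn : K ⊓ normalizer (B : Set G) = closure {F.ev X13, (U.ev n13 : G)} := by
    subst hB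
    refine le_antisymm ?_ (le_inf ?_ h4)
    · rw [k8, ← ex, ← cl_sub]
      rintro _ ⟨⟨g, hg, rfl⟩, n⟩
      exact mem_map_of_mem _ ((eq_t13 U).ge ⟨norm_sub n, hg.2⟩)
    · rw [k8, ← ex, ← cl_sub]
      exact map_mono ((eq_t13 U).le.trans (FM.PS_mono le_top _))
  have fe := fe13 F
  have tn : closure (F.S m6_13) ≤ normalizer (B : Set G) := (closure_le _).2 fun x hx => hB ▸ centralizer_le_normalizer _ (fe.ge hx).2
  have i6 : F.Inv (normalizer (B : Set G)) m6_13 := FM.Inv.fixE B (hB ▸ fe) le_rfl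
  refine ⟨?_, ?_, by rw [hB, Nat.card_zpowers, oX], fun g hg => ?_, by rw [kn, h1], ?_, ?_⟩
  · obtain ⟨g, e1, e2⟩ := cl8' U (b := U.e b13) (c := U.e c13) (U.e_mem (by decide +kernel)) (U.e_mem (by decide +kernel)) (U.nc (by decide +kernel))
    obtain ⟨φ⟩ := card_cent_conj (closure {U.e b13, U.e c13}) g
    rw [cl_conj, centralizer_closure, centralizer_closure, e1, ← top_inf_eq (centralizer {U.e b13, _}), ← U.PS2] at φ
    rcases e2 with e2 | e2 <;> rw [e2, cent8] at φ
    · have := Subgroup.orderOf_dvd_natCard _ mx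
      rw [← Nat.card_congr φ.toEquiv, cd_108, ox] at this
      exact absurd this (by decide)
    · exact ⟨((MulEquiv.subgroupCongr k8).trans (equivMapOfInjective _ _ (subtype_injective _)).symm).trans (φ.symm.trans (g2_8 U).some)⟩
  · rw [hB, zpowers_le, k8, ← ex]; exact mem_map_of_mem _ mx
  · rw [hK, t6, centralizer_closure]; exact norm_cent fun x => (i6.iff hg).symm
  · rw [← hB, ← kn, inf_assoc, inf_eq_right.2 (centralizer_le_normalizer _)] at h3; exact h3
  · have l : (K ⊓ normalizer (B : Set G)) ⊔ T ≤ normalizer (B : Set G) := sup_le inf_le_right (t6 ▸ tn)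
    have l' : closure (F.S m6_13) ≤ (K ⊓ normalizer (B : Set G)) ⊔ T := t6 ▸ le_sup_right
    have n6 := n6_13 F (hB ▸ tn)
    have n3 := h3_13 F l' (FM.Inv.sup ((FM.Fx.inv (a := m6_13) (fun g hg x hx => (mem_cent.1 (hK ▸ hg) x (t6 ▸ subset_closure hx))) (by decide +kernel)).mono inf_le_left)
      ((FM.Inv.gen (W := mapL tw [(10, []), B13, C13, (11, [])]) (by decide +kernel)).mono (hT ▸ (closure_le _).2 (by
        rintro _ (rfl | rfl | rfl | rfl) <;> rw [← F.ev_tw (by decide +kernel)] <;> exact mem_genW (by decide +kernel)))))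
    have le := le13 F (hB ▸ le_inf tn l') (fun g hg => mem_sup_left (mem_inf.2 ⟨kp ▸ FM.PS_mono le_top _ hg, hB ▸ hg.1⟩))
    rw [← hB] at n6 le
    rw [FM.PS_nil] at n6 n3
    rw [show F.PS _ [(10, [])] = F.PS _ [(10, [])] from le_antisymm (le_inf le inf_le_right) (FM.PS_mono l _)] at n6
    exact index_of_cards l (a := 3) n6 n3

/-- Let G be a finite group with trivial centre generated by a conjugation-invariant set D of 3-transpositions on which it acts primitively, such that for some d in D the subgroup generated by the members of D other than d commuting with d has central largest normal 2- and 3-subgroups, and suppose G with D is of type M(24). Then any two subgroups of order 13 are conjugate; and there are members a, b, c, d of D generating the direct product T of two symmetric groups of degree 3 (a, d non-commuting; b, c non-commuting; b and c commuting with a and d) whose centralizer K is isomorphic to the Chevalley group G₂(3), such that for every subgroup B of K of order 13: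 the normalizer of B lies in the normalizer of K, the normalizer F of B in K is a Frobenius group of order 78 with kernel B (order 78, centralizer of B in it equal to B), and the subgroup generated by F and T has index 2 in the normalizer of B. -/
theorem result {G : Type*} [Group G] [Finite G] {D : Set G} (hD : Cfsg.IsThreeTranspositionGroup D) (hprim : Cfsg.IsPrimitiveUnderConj D) (d₀ : G) (hd₀ : d₀ ∈ D) (h3 : Cfsg.pCore 3 ↥(Subgroup.closure {y : G | y ∈ D ∧ y ≠ d₀ ∧ Commute d₀ y}) ≤ Subgroup.center ↥(Subgroup.closure {y : G | y ∈ D ∧ y ≠ d₀ ∧ Commute d₀ y})) (h2 : Cfsg.pCore 2 ↥(Subgroup.closure {y : G | y ∈ D ∧ y ≠ d₀ ∧ Commute d₀ y}) ≤ Subgroup.center ↥(Subgroup.closure {y : G | y ∈ D ∧ y ≠ d₀ ∧ Commute d₀ y})) (h24 : Cfsg.IsOfTypeM24 G D) : (∀ X Y : Subgroup G, Nat.card X = 13 → Nat.card Y = 13 → ∃ g : G, X.map (MulAut.conj g).toMonoidHom = Y) ∧ ∃ (a b c d : G) (T K : Subgroup G), (∀ x ∈ [a, b, c, d], x ∈ D) ∧ ¬ Commute a d ∧ ¬ Commute b c ∧ Commute a b ∧ Commute a c ∧ Commute d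 b ∧ Commute d c ∧ T = Subgroup.closure ({a, b, c, d} : Set G) ∧ K = Subgroup.centralizer (T : Set G) ∧ Nonempty (↥K ≃* ↥(Cfsg.Lie.chevG2.group (ZMod 3))) ∧ ∀ B : Subgroup G, B ≤ K → Nat.card B = 13 → Subgroup.normalizer ((B : Subgroup G) : Set G) ≤ Subgroup.normalizer ((K : Subgroup G) : Set G) ∧ Nat.card ↥(K ⊓ Subgroup.normalizer ((B : Subgroup G) : Set G)) = 78 ∧ K ⊓ Subgroup.centralizer ((B : Subgroup G) : Set G) = B ∧ (((K ⊓ Subgroup.normalizer ((B : Subgroup G) : Set G)) ⊔ T).subgroupOf (Subgroup.normalizer ((B : Subgroup G) : Set G))).index = 2 := by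
  obtain ⟨F, rfl⟩ := rec24 hD hprim h24
  obtain ⟨m1, m2, m3, -⟩ := main F rfl rfl rfl
  have o : orderOf (F.ev X13) = 13 := (Nat.card_zpowers _).symm.trans m3
  refine ⟨fun X Y hX hY => ?_, F.e (10, []), F.e B13, F.e C13, F.e (11, []), _, _, fun x hx => ?_, F.nc (by decide +kernel), F.nc (by decide +kernel),
    F.cm (by decide +kernel), F.cm (by decide +kernel), F.cm (by decide +kernel), F.cm (by decide +kernel), rfl, rfl, m1, fun B hB c => ?_⟩
  · obtain ⟨g, rfl⟩ := conj_of_cyc (by norm_num) o (by rw [F.card]; decide +kernel) X hX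
    obtain ⟨h, rfl⟩ := conj_of_cyc (by norm_num) o (by rw [F.card]; decide +kernel) Y hY
    exact ⟨h * g⁻¹, by rw [map_zp]; group⟩
  · simp only [List.mem_cons, List.not_mem_nil, or_false] at hx
    rcases hx with rfl | rfl | rfl | rfl <;> exact F.e_mem (by decide +kernel)
  · obtain ⟨g, e⟩ := conj_of_cyc (p := 13) (by norm_num) (x := ⟨_, m2 (mem_zpowers _)⟩) ((orderOf_coe _).symm.trans o)
      (fun h => absurd (h.trans (card_subgroup_dvd_card _)) (by rw [F.card]; decide +kernel)) (B.subgroupOf _) ((Nat.card_congr (subgroupOfEquivOfLe hB).toEquiv).trans c)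
    have k : ∀ q, F.e q ∈ ({F.e (10, []), F.e B13, F.e C13, F.e (11, [])} : Set G) → (F.cj' g).e q = F.e q := fun q hq =>
      conj_eq_self.2 (mem_cent.1 g.2 _ (subset_closure hq))
    exact (main (F.cj' g) (by rw [k, k, k, k] <;> simp) rfl (by
      rw [← map_subgroupOf_eq_of_le hB, e, MonoidHom.map_zpowers, F.cj_ev]; rfl)).2.2.2

end Cfsg.Agent.S5518
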