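import Cfsg.Statements.S5519
import Cfsg.Agent.H7.Two22

set_option autoImplicit false
open Cfsg

namespace Cfsg.Agent.S5519

open H7 H7.T Subgroup

/-- Let G be a finite group with trivial centre generated by a conjugation-invariant set D of 3-transpositions on which it acts primitively, such that for some d in D the subgroup generated by the members of D other than d commuting with d has central largest normal 2- and 3-subgroups, and suppose G with D is of type M(22). Let d₁, d₂ be distinct commuting members of D and C the centralizer of their product. Then the generalized Fitting subgroup of C is the direct product of a group of order 2 and an extraspecial 2-group of order 2^9, and C modulo it is isomorphic to the full isometry group of the elliptic quadratic form in dimension 6 over the field with two elements. -/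
theorem result {G : Type*} [Group G] [Finite G] {D : Set G} (hD : Cfsg.IsThreeTranspositionGroup D) (hprim : Cfsg.IsPrimitiveUnderConj D) (d₀ : G) (hd₀ : d₀ ∈ D) (h3 : Cfsg.pCore 3 ↥(Subgroup.closure {y : G | y ∈ D ∧ y ≠ d₀ ∧ Commute d₀ y}) ≤ Subgroup.center ↥(Subgroup.closure {y : G | y ∈ D ∧ y ≠ d₀ ∧ Commute d₀ y})) (h2 : Cfsg.pCore 2 ↥(Subgroup.closure {y : G | y ∈ D ∧ y ≠ d₀ ∧ Commute d₀ y}) ≤ Subgroup.center ↥(Subgroup.closure {y : G | y ∈ D ∧ y ≠ d₀ ∧ Commute d₀ y})) (h22 : Cfsg.IsOfTypeM22 G D) (d₁ d₂ : G) (h₁ : d₁ ∈ D) (h₂ : d₂ ∈ D) (hne : d₁ ≠ d₂) (hc : Commute d₁ d₂) (C : Subgroup G) (hC : C = Subgroup.centralizer ({d₁ * d₂} : Set G)) [hn : (Cfsg.generalizedFittingSubgroup ↥C).Normal] : (∃ (E : Type) (_ : Group E) (_ : Finite E), Cfsg.IsExtraspecial 2 E ∧ Nat.card E = 2 ^ 9 ∧ Nonempty (↥(Cfsg.generalizedFittingSubgroup ↥C) ≃* Multiplicative (ZMod 2) × E)) ∧ Nonempty (↥C ⧸ Cfsg.generalizedFittingSubgroup ↥C ≃* Cfsg.isometryGroup (ZMod 2)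 (Cfsg.quadFormMinus 2 (ZMod 2) 1 1)) := by
  obtain ⟨F0, rfl⟩ := rec22' hD h22
  obtain ⟨F, -, rfl, rfl⟩ := t2_22 F0 h₁ h₂ hne hc
  have u := (cd_2b F).2.2.le
  rw [(ev_2b F).1, (ev_2b F).2, ← show (F22q F).ev [0, 2] = _ from (F22q F).ev_app [0] [2]] at u hC
  subst hC
  generalize F22q F = V at *
  obtain ⟨K, _, _, k⟩ := gf4
  obtain ⟨a, -, -, _, ⟨e⟩⟩ := qw_Q22E V u
  obtain ⟨-, -, -, _, ⟨e'⟩⟩ := qw_Q22O V u
  obtain ⟨f⟩ := H8.Q22O.iso
  obtain ⟨-, c, -, E, _, _, e1, e2, ⟨e3⟩⟩ := pk_2b V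
  have o := le_antisymm (Op_quot e (H8.Q22E.pk k).1) a
  have : Fact (Nat.Prime 2) := ⟨Nat.prime_two⟩
  have s : (Cfsg.generalizedFittingSubgroup (centralizer {V.ev [0, 2]})).map (Subgroup.subtype _) = NN (V.zW W_e22) 10 0 :=
    (H9.Fst_eq _).trans ((H9.Fst_eq_Op_iff_centralizer_le.2 (by rw [o, c]; exact inf_le_right.trans (vle_2b V))).trans o)
  exact ⟨⟨E, _, ‹_›, e1, e2, ⟨((equivMapOfInjective _ _ (subtype_injective _)).trans (MulEquiv.subgroupCongr s)).trans e3⟩⟩,
    ⟨(QuotientGroup.quotientMulEquivOfEq (by rw [← s]; exact (comap_map_eq_self_of_injective (subtype_injective _) _).symm)).trans (e'.trans f.symm)⟩⟩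

end Cfsg.Agent.S5519
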