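import Cfsg.Statements.S5520
import Cfsg.Agent.H8.U6f
import Cfsg.Agent.H8.Cov
import Cfsg.Agent.H8.XU62
import Cfsg.Agent.H8.XU43
import Cfsg.Agent.H8.SU43
import Cfsg.Agent.S0279
import Cfsg.Agent.S0278
-- import your own Cfsg.Agent.* helpers here

set_option autoImplicit false
set_option maxRecDepth 200000
open Cfsg

namespace Cfsg.Agent.S5520

/-- In the special unitary group of dimension 6 over the field with four elements (determinant-one matrices preserving the standard Hermitian form), the subgroups K whose centre has order 3 with K modulo its centre isomorphic to the projective special unitary group of dimension 4 over the field with nine elements fall into exactly three conjugacy classes. -/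
theorem result (F : Type) [Field F] [Fintype F] (hF : Fintype.card F = 4) (F9 : Type) [Field F9] [Fintype F9] (hF9 : Fintype.card F9 = 9) : ∃ K₁ K₂ K₃ : Subgroup ↥(Cfsg.SU 6 F 2), (∀ K ∈ [K₁, K₂, K₃], Nat.card ↥(Subgroup.center ↥K) = 3 ∧ Nonempty (↥K ⧸ Subgroup.center ↥K ≃* Cfsg.PSU 4 F9 3)) ∧ (¬ ∃ g : ↥(Cfsg.SU 6 F 2), K₁.map (MulAut.conj g).toMonoidHom = K₂) ∧ (¬ ∃ g : ↥(Cfsg.SU 6 F 2), K₁.map (MulAut.conj g).toMonoidHom = K₃) ∧ (¬ ∃ g : ↥(Cfsg.SU 6 F 2), K₂.map (MulAut.conj g).toMonoidHom = K₃) ∧ ∀ K : Subgroup ↥(Cfsg.SU 6 F 2), Nat.card ↥(Subgroup.center ↥K) = 3 → Nonempty (↥K ⧸ Subgroup.center ↥K ≃* Cfsg.PSU 4 F9 3) → ∃ g : ↥(Cfsg.SU 6 F 2), K.map (MulAut.conj g).toMonoidHom = K₁ ∨ K.map (MulAut.conj g).toMonoidHom = K₂ ∨ K.map (MulAut.conj g).toMonoidHom = K₃ := by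
  obtain ⟨e⟩ := H8.U62.iso hF
  obtain ⟨e9⟩ := H8.U43.iso hF9
  let π : SU 6 F 2 →* H8.U62.P := e.toMonoidHom.comp (QuotientGroup.mk' _)
  have hs : Function.Surjective π := e.surjective.comp (QuotientGroup.mk'_surjective _)
  have hk : π.ker = Subgroup.center _ := by ext x; simp [π]
  have cZ : Nat.card (Subgroup.center (SU 6 F 2)) = 3 := Cfsg.Agent.S0279.result (q := 2) hF 6 (by norm_num)
  obtain ⟨A, B, D, h1, h2, h3, h4, h5⟩ := H8.U6.main (H8.U62.std.ch0 (by decide +kernel))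
  have nc : ∀ {A B : Subgroup H8.U62.P}, (¬ ∃ g, A.map (MulAut.conj g).toMonoidHom = B) →
      ¬ ∃ g, (A.comap π).map (MulAut.conj g).toMonoidHom = B.comap π := fun h ⟨g, hg⟩ => h ⟨π g, by
    simpa only [H8.map_conj_map, Subgroup.map_comap_eq_self_of_surjective hs] using congrArg (Subgroup.map π) hg⟩
  have z : Subgroup.center H8.U43.P = ⊥ := (H8.U43.simple.eq_bot_or_eq_top_of_normal _ inferInstance).resolve_right fun h => by
    haveI := H8.U43.simple
    letI := Group.commGroupOfCenterEqTop h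
    exact absurd (H8.U43.card ▸ IsSimpleGroup.prime_card) (by norm_num)
  refine ⟨A.comap π, B.comap π, D.comap π, fun K hK => ?_, nc h2, nc h3, nc h4, fun K c ⟨f⟩ => ?_⟩
  · obtain ⟨M, hM, rfl⟩ := List.mem_map.1 (show K ∈ [A, B, D].map (Subgroup.comap π) from hK)
    obtain ⟨f⟩ := h1 M hM
    have hc := H8.comap_center hs hk (A := M) (Subgroup.eq_bot_of_card_eq _ ((Nat.card_congr (Subgroup.centerCongr f).toEquiv).symm.trans (by simp [z])))
    obtain ⟨g⟩ := H8.quot_iso (π := π) _ (hk ▸ hc)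
    rw [Subgroup.map_comap_eq_self_of_surjective hs] at g
    exact ⟨hc ▸ (Nat.card_congr (Subgroup.subgroupOfEquivOfLe (hk ▸ Subgroup.ker_le_comap π M)).toEquiv).trans cZ, ⟨g.trans (f.symm.trans e9.symm)⟩⟩
  have cK := (Subgroup.center K).card_eq_card_quotient_mul_card_subgroup
  rw [c, Nat.card_congr (f.trans e9).toEquiv, H8.U43.card] at cK
  have cG := (Subgroup.center (SU 6 F 2)).card_eq_card_quotient_mul_card_subgroup
  rw [cZ, Nat.card_congr e.toEquiv, H8.U62.card] at cG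
  have ci := K.index_mul_card
  rw [cK, cG] at ci
  obtain ⟨x, hx⟩ := H8.exists_conj_le Nat.prime_three K (by omega) (IsPGroup.of_card (n := 1) cZ)
  have le : Subgroup.center _ ≤ K := fun a ha => by simpa [Subgroup.mem_center_iff.1 ha x] using hx a ha
  have hc : Subgroup.center K = π.ker.subgroupOf K := by
    rw [hk]
    exact (Subgroup.eq_of_le_of_card_ge (fun x hx => Subgroup.mem_center_iff.2 fun y => Subtype.ext
      (Subgroup.mem_center_iff.1 (Subgroup.mem_subgroupOf.1 hx) y))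
      (c.trans ((Nat.card_congr (Subgroup.subgroupOfEquivOfLe le).toEquiv).trans cZ).symm).le).symm
  obtain ⟨g⟩ := H8.quot_iso K hc
  obtain ⟨y, hy⟩ := h5 _ ⟨e9.symm.trans (f.symm.trans g)⟩
  obtain ⟨y, rfl⟩ := hs y
  refine ⟨y, ?_⟩
  rw [← H8.map_conj_map] at hy
  rw [← Subgroup.comap_map_eq_self (H8.ker_le_conj (π := π) (hk ▸ le) y)]
  simp only [List.mem_cons, List.not_mem_nil, or_false] at hy
  exact hy.imp (congrArg _) (Or.imp (congrArg _) (congrArg _))

end Cfsg.Agent.S5520
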