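import Cfsg.Statements.S5541
import Cfsg.Agent.H2.Half

set_option autoImplicit false
open Cfsg

namespace Cfsg.Agent.S5541

/-- Let ρ be a representation of a group H on a finite-dimensional real vector space U whose only ρ-invariant subspaces are the zero subspace and U, and suppose U carries a non-zero ρ-invariant symmetric bilinear form. Then the following are equivalent: (1) there is a non-zero ρ-equivariant commutative bilinear product on U of which every ρ-equivariant bilinear product is a scalar multiple; (2) there is a non-zero ρ-invariant trilinear form on U that is symmetric under all permutations of its arguments and of which every ρ-invariant trilinear form is a scalar multiple. -/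
theorem result {H : Type*} [Group H] {U : Type*} [AddCommGroup U] [Module ℝ U] [FiniteDimensional ℝ U] (ρ : Representation ℝ H U) (hirr : ∀ W : Submodule ℝ U, (∀ g : H, W.map (ρ g) ≤ W) → W = ⊥ ∨ W = ⊤) (B : LinearMap.BilinForm ℝ U) (hB0 : B ≠ 0) (hBs : ∀ u v, B u v = B v u) (hBi : ∀ (g : H) (u v : U), B (ρ g u) (ρ g v) = B u v) : (∃ m : U →ₗ[ℝ] U →ₗ[ℝ] U, m ≠ 0 ∧ (∀ u v, m u v = m v u) ∧ (∀ (g : H) (u v : U), m (ρ g u) (ρ g v) = ρ g (m u v)) ∧ ∀ m' : U →ₗ[ℝ] U →ₗ[ℝ] U, (∀ (g : H) (u v : U), m' (ρ g u) (ρ g v) = ρ g (m' u v)) → ∃ c : ℝ, m' = c • m) ↔ (∃ t : U →ₗ[ℝ] U →ₗ[ℝ] U →ₗ[ℝ] ℝ, t ≠ 0 ∧ (∀ u v w, t u v w = t v u w ∧ t u v w = t u w v) ∧ (∀ (g : H) (u v w : U), t (ρ g u) (ρ g v) (ρ g w) = t u v w) ∧ ∀ t' : U →ₗ[ℝ] U →ₗ[ℝ] U →ₗ[ℝ] ℝ, (∀ (g : H) (u v w : U), t' (ρ g u) (ρ g v) (ρ g w) = t' u v w) → ∃ c : ℝ, t' = c • t) := by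
  have hnd : B.Nondegenerate := by
    have : B.SeparatingLeft := by
      rcases hirr (LinearMap.ker B) (by
        rintro g _ ⟨u, hu, rfl⟩
        rw [SetLike.mem_coe, LinearMap.mem_ker] at hu
        rw [LinearMap.mem_ker]
        ext v
        have := hBi g u (ρ g⁻¹ v)
        rw [← Module.End.mul_apply, ← map_mul, mul_inv_cancel, map_one, Module.End.one_apply, hu] at this
        exact this) with h | h
      · exact LinearMap.separatingLeft_iff_ker_eq_bot.2 h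
      · exact absurd (LinearMap.ker_eq_top.1 h) hB0
    exact ⟨this, fun v hv => this v fun u => by rw [hBs]; exact hv u⟩
  let D := B.toDual hnd
  let T : (U →ₗ[ℝ] U →ₗ[ℝ] U) → (U →ₗ[ℝ] U →ₗ[ℝ] U →ₗ[ℝ] ℝ) := fun m => m.compr₂ B
  let M : (U →ₗ[ℝ] U →ₗ[ℝ] U →ₗ[ℝ] ℝ) → (U →ₗ[ℝ] U →ₗ[ℝ] U) := fun t => t.compr₂ D.symm.toLinearMap
  have hT : ∀ m u v w, T m u v w = B (m u v) w := fun _ _ _ _ => rfl
  have hM : ∀ t u v w, B (M t u v) w = t u v w := fun t u v w => LinearMap.BilinForm.apply_toDual_symm_apply (hB := hnd) _ _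
  have ext : ∀ a b : U, (∀ w, B a w = B b w) → a = b := fun a b h =>
    sub_eq_zero.1 (hnd.1 _ fun w => by simp [h w])
  have sur : ∀ (g : H) (w : U), ρ g (ρ g⁻¹ w) = w := fun g w => by
    rw [← Module.End.mul_apply, ← map_mul, mul_inv_cancel, map_one, Module.End.one_apply]
  have iT : ∀ m : U →ₗ[ℝ] U →ₗ[ℝ] U, (∀ (g : H) (u v : U), m (ρ g u) (ρ g v) = ρ g (m u v)) →
      ∀ (g : H) (u v w : U), T m (ρ g u) (ρ g v) (ρ g w) = T m u v w := fun m h g u v w => by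
    rw [hT, hT, h, hBi]
  have iM : ∀ t : U →ₗ[ℝ] U →ₗ[ℝ] U →ₗ[ℝ] ℝ, (∀ (g : H) (u v w : U), t (ρ g u) (ρ g v) (ρ g w) = t u v w) →
      ∀ (g : H) (u v : U), M t (ρ g u) (ρ g v) = ρ g (M t u v) := fun t h g u v => ext _ _ fun w => by
    rw [← sur g w, hM, h, hBi, hM]
  constructor
  · rintro ⟨m, h0, h1, h2, h3⟩
    have u3 : ∀ t' : U →ₗ[ℝ] U →ₗ[ℝ] U →ₗ[ℝ] ℝ, (∀ (g : H) (u v w : U), t' (ρ g u) (ρ g v) (ρ g w) = t' u v w) →
        ∃ c : ℝ, t' = c • T m := by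
      intro t' h
      obtain ⟨c, hc⟩ := h3 _ (iM t' h)
      exact ⟨c, by ext u v w; rw [← hM, hc]; simp [hT]⟩
    have n0 : T m ≠ 0 := fun h => h0 (by
      ext u v; exact ext _ _ fun w => by rw [← hT, h]; simp)
    refine ⟨T m, n0, fun u v w => ⟨by rw [hT, hT, h1], ?_⟩, iT m h2, u3⟩
    obtain ⟨c, hc⟩ := u3 ((LinearMap.lflip (R := ℝ) (M := U) (N := U) (P := ℝ)).toLinearMap ∘ₗ T m)
      (fun g u v w => iT m h2 g u w v)
    have e : ∀ u v w, T m u w v = c * T m u v w := fun u v w => by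
      simpa using congrArg (fun t => t u v w) hc
    have s : ∀ u v w, T m u v w = T m v u w := fun u v w => by rw [hT, hT, h1]
    obtain ⟨a, b, d, hn⟩ : ∃ a b d, T m a b d ≠ 0 := by
      by_contra h; push Not at h; exact n0 (by ext a b d; simpa using h a b d)
    have c2 : c * c = 1 := mul_right_cancel₀ hn (by rw [mul_assoc, ← e, ← e, one_mul])
    have c3 : c * c * c = 1 := mul_right_cancel₀ hn (by
      rw [mul_assoc, mul_assoc, ← e, s, ← e, s, ← e, s, one_mul])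
    rw [c2, one_mul] at c3
    rw [e u v w, c3, one_mul]
  · rintro ⟨t, h0, h1, h2, h3⟩
    refine ⟨M t, fun h => h0 (by ext u v w; rw [← hM, h]; simp), fun u v => ext _ _ fun w => by
      rw [hM, hM, (h1 u v w).1], iM t h2, fun m' h => ?_⟩
    obtain ⟨c, hc⟩ := h3 _ (iT m' h)
    exact ⟨c, by ext u v; exact ext _ _ fun w => by rw [← hT, hc]; simp [hM]⟩

end Cfsg.Agent.S5541
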