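import Cfsg.Statements.S5543


set_option autoImplicit false
open Cfsg

namespace Cfsg.Agent.S5543

/-- Let V be a finite-dimensional real vector space with a commutative bilinear product and a positive-definite symmetric bilinear form that associates with the product and satisfies the Norton inequality (the Majorana setting of the definitions). Let X be a group of linear automorphisms of V in which every element squares to the identity, and suppose every non-identity element x of X is a Majorana involution with an axial vector a(x) of squared length 1, such that for any two distinct non-identity x, y the product a(x) ∘ a(y) equals (1/8)(a(x) + a(y) − a(xy)) (the dihedral subalgebra of type 2A whose third axis belongs to the involution xy). Then X has order at most 4. -/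
theorem result {V : Type*} [AddCommGroup V] [Module ℝ V] [FiniteDimensional ℝ V] (mul : V →ₗ[ℝ] V →ₗ[ℝ] V) (B : LinearMap.BilinForm ℝ V) (hV : Cfsg.Axial.IsMajoranaAmbient mul B) (X : Subgroup (V ≃ₗ[ℝ] V)) (hX : ∀ x ∈ X, x * x = 1) (ax : (V ≃ₗ[ℝ] V) → V) (hax : ∀ x ∈ X, x ≠ 1 → Cfsg.Axial.IsMajoranaPair mul B x (ax x)) (h1 : ∀ x ∈ X, x ≠ 1 → B (ax x) (ax x) = 1) (h2A : ∀ x ∈ X, ∀ y ∈ X, x ≠ 1 → y ≠ 1 → x ≠ y → mul (ax x) (ax y) = (1 / 8 : ℝ) • (ax x + ax y - ax (x * y))) : Nat.card ↥X ≤ 4 := by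
  by_contra hc
  push Not at hc
  haveI : Finite X := Nat.finite_of_card_ne_zero (by omega)
  have comm : ∀ x ∈ X, ∀ y ∈ X, x * y = y * x := fun x hx y hy => by
    have h := hX _ (X.mul_mem hx hy)
    rw [eq_inv_of_mul_eq_one_left h, mul_inv_rev, inv_eq_of_mul_eq_one_left (hX x hx),
      inv_eq_of_mul_eq_one_left (hX y hy)]
  have ex : ∀ s : Finset (V ≃ₗ[ℝ] V), s.card ≤ 4 → ∃ x ∈ X, x ∉ s := by
    intro s hs
    by_contra h
    push Not at h
    have := Set.ncard_le_ncard (s := (X : Set _)) (t := (s : Set _)) (fun x hx => h x hx) s.finite_toSet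
    rw [Set.ncard_coe_finset] at this
    have e : (X : Set (V ≃ₗ[ℝ] V)).ncard = Nat.card X := rfl
    omega
  classical
  obtain ⟨x, hx, hx'⟩ := ex {1} (by simp)
  obtain ⟨y, hy, hy'⟩ := ex {1, x} (Finset.card_le_two.trans (by norm_num))
  obtain ⟨z, hz, hz'⟩ := ex {1, x, y, x * y} Finset.card_le_four
  simp only [Finset.mem_insert, Finset.mem_singleton, not_or] at hx' hy' hz'
  have cx : ∀ w, x * (x * w) = w := fun w => by rw [← mul_assoc, hX x hx, one_mul]
  have cy : ∀ w, y * (y * w) = w := fun w => by rw [← mul_assoc, hX y hy, one_mul]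
  have ne1 : ∀ a ∈ X, ∀ b ∈ X, a ≠ b → a * b ≠ 1 := fun a ha b hb h e =>
    h (mul_right_cancel (e.trans (hX b hb).symm))
  have eig : ∀ w ∈ X, w ≠ 1 → w ≠ x → ax w - ax (x * w) ∈ Cfsg.Axial.eigen mul (ax x) (1 / 4) := by
    intro w hw h1' h2
    unfold Cfsg.Axial.eigen
    rw [Module.End.mem_eigenspace_iff, map_sub, h2A x hx w hw hx' h1' h2.symm,
      h2A x hx _ (X.mul_mem hx hw) hx' (ne1 x hx w hw h2.symm) (by simpa using h1'), cx]
    module
  have hxy := X.mul_mem hx hy
  have hxz := X.mul_mem hx hz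
  have hyz := X.mul_mem hy hz
  have n1 : y * z ≠ 1 := ne1 y hy z hz (Ne.symm hz'.2.2.1)
  have n2 : y * z ≠ x := fun e => hz'.2.2.2 (by rw [← cy z, e, comm y hy x hx])
  have n3 : y ≠ x * z := fun e => hz'.2.2.2 (by rw [e, cx])
  have e1 := eig y hy hy'.1 hy'.2
  have e2 := eig z hz hz'.1 hz'.2.1
  have e3 := eig _ hyz n1 n2
  have f := (hax x hx hx').2.2.1.1.2.2.2 (1 / 4) (by simp [Cfsg.Axial.majoranaSpectrum]) (1 / 4)
    (by simp [Cfsg.Axial.majoranaSpectrum]) _ e1 _ e2
  have law : Cfsg.Axial.monsterLaw (1 / 4 : ℝ) (1 / 32) (1 / 4) (1 / 4) = {1, 0} := by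
    unfold Cfsg.Axial.monsterLaw; norm_num
  have p1 : y * (x * z) = x * (y * z) := by rw [← mul_assoc, comm y hy x hx, mul_assoc]
  have p2 : x * y * (x * z) = y * z := by rw [mul_assoc, p1, cx]
  have prod : mul (ax y - ax (x * y)) (ax z - ax (x * z)) = (-1 / 4 : ℝ) • (ax (y * z) - ax (x * (y * z))) := by
    simp only [map_sub, LinearMap.sub_apply]
    rw [h2A y hy z hz hy'.1 hz'.1 (Ne.symm hz'.2.2.1),
      h2A y hy _ hxz hy'.1 (ne1 x hx z hz (Ne.symm hz'.2.1)) n3,
      h2A _ hxy z hz (ne1 x hx y hy (Ne.symm hy'.2)) hz'.1 (Ne.symm hz'.2.2.2),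
      h2A _ hxy _ hxz (ne1 x hx y hy (Ne.symm hy'.2)) (ne1 x hx z hz (Ne.symm hz'.2.1))
        (by simpa using Ne.symm hz'.2.2.1), p1, p2, mul_assoc x y z]
    module
  rw [law, prod] at f
  set v := ax (y * z) - ax (x * (y * z)) with hv
  have hz0 : ∀ u ∈ Cfsg.Axial.eigenSum mul (ax x) {1, 0}, mul (ax x) (mul (ax x) u) = mul (ax x) u := by
    intro u hu
    unfold Cfsg.Axial.eigenSum at hu
    rw [iSup_pair] at hu
    obtain ⟨a, ha, b, hb, rfl⟩ := Submodule.mem_sup.1 hu
    unfold Cfsg.Axial.eigen at ha hb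
    rw [Module.End.mem_eigenspace_iff] at ha hb
    simp [map_add, ha, hb]
  have h3 := hz0 _ f
  unfold Cfsg.Axial.eigen at e3
  rw [Module.End.mem_eigenspace_iff] at e3
  simp only [map_smul, e3, smul_smul] at h3
  have hv0 : v = 0 := by
    have : ((-1 / 4 * (1 / 4) * (1 / 4) - -1 / 4 * (1 / 4) : ℝ)) • v = 0 := by rw [sub_smul, h3, sub_self]
    exact (smul_eq_zero.1 this).resolve_left (by norm_num)
  have h4 : ax (x * (y * z)) = ax (y * z) := (sub_eq_zero.1 hv0).symm
  have h5 := h2A _ hyz _ (X.mul_mem hx hyz) n1 (ne1 x hx _ hyz n2.symm) (fun e => hx' (by simpa using e.symm))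
  have p3 : y * z * (x * (y * z)) = x := by
    rw [comm _ hyz _ (X.mul_mem hx hyz), mul_assoc, hX _ hyz, mul_one]
  rw [h4, p3, (hax _ hyz n1).2.2.1.1.2.1] at h5
  have h6 : ax x = (-6 : ℝ) • ax (y * z) := by
    have : ax x = ax x + (8 : ℝ) • ((1 / 8 : ℝ) • (ax (y * z) + ax (y * z) - ax x) - ax (y * z)) := by
      rw [← h5]; simp
    have h7 : ax x + (8 : ℝ) • ((1 / 8 : ℝ) • (ax (y * z) + ax (y * z) - ax x) - ax (y * z)) = (-6 : ℝ) • ax (y * z) := by
      module
    exact this.trans h7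
  have h8 := h1 x hx hx'
  rw [h6] at h8
  simp [h1 _ hyz n1] at h8
  norm_num at h8

end Cfsg.Agent.S5543
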