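import Cfsg.Statements.S5544
import Cfsg.Agent.MJ.A

set_option autoImplicit false
open Cfsg

namespace Cfsg.Agent.S5544

open MJ

theorem ineq {x y l1 l3 l5 m2 m4 l4 l6 : ℝ} (a1 : 0 ≤ l1 ∧ l1 ≤ 1 / 3) (a3 : 0 ≤ l3 ∧ l3 ≤ 1 / 3) (a5 : 0 ≤ l5 ∧ l5 ≤ 1 / 3)
    (a2 : 0 ≤ m2 ∧ m2 ≤ 1 / 3) (a4 : 0 ≤ m4 ∧ m4 ≤ 1 / 3) (b4 : l4 ≤ 1 / 3) (b6 : l6 ≤ 1 / 3)
    (h : 1 - l6 + x ^ 2 * (1 - l4) + y ^ 2 * (1 - m2) + 2 * x * (l1 - l5) + 2 * y * (m2 - m4) + 2 * x * y * (l1 - l3) = 0) :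
    False := by
  have p1 := mul_nonneg (show 0 ≤ 1 / 3 + (l1 - l5) by linarith) (sq_nonneg (1 + x))
  have p2 := mul_nonneg (show 0 ≤ 1 / 3 - (l1 - l5) by linarith) (sq_nonneg (1 - x))
  have p3 := mul_nonneg (show 0 ≤ 1 / 3 + (m2 - m4) by linarith) (sq_nonneg (1 + y))
  have p4 := mul_nonneg (show 0 ≤ 1 / 3 - (m2 - m4) by linarith) (sq_nonneg (1 - y))
  have p5 := mul_nonneg (show 0 ≤ 1 / 3 + (l1 - l3) by linarith) (sq_nonneg (x + y))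
  have p6 := mul_nonneg (show 0 ≤ 1 / 3 - (l1 - l3) by linarith) (sq_nonneg (x - y))
  have p7 := mul_nonneg (show 0 ≤ 1 / 3 - m2 by linarith) (sq_nonneg y)
  have p8 := mul_nonneg (show 0 ≤ 1 / 3 - l4 by linarith) (sq_nonneg x)
  have t : (1 / 3 + (l1 - l5)) * (1 + x) ^ 2 + (1 / 3 - (l1 - l5)) * (1 - x) ^ 2 + (1 / 3 + (m2 - m4)) * (1 + y) ^ 2 +
      (1 / 3 - (m2 - m4)) * (1 - y) ^ 2 + (1 / 3 + (l1 - l3)) * (x + y) ^ 2 + (1 / 3 - (l1 - l3)) * (x - y) ^ 2 +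
      2 * ((1 / 3 - m2) * y ^ 2) + 2 * ((1 / 3 - l4) * x ^ 2) + 2 * (1 / 3 - l6) = 0 := by linear_combination 2 * h
  generalize hA : (1 / 3 + (l1 - l5)) * (1 + x) ^ 2 = A at *
  generalize hB : (1 / 3 - (l1 - l5)) * (1 - x) ^ 2 = B at *
  generalize hC : (1 / 3 + (m2 - m4)) * (1 + y) ^ 2 = C at *
  generalize hD : (1 / 3 - (m2 - m4)) * (1 - y) ^ 2 = D at *
  generalize hE : (1 / 3 + (l1 - l3)) * (x + y) ^ 2 = E at *
  generalize hF : (1 / 3 - (l1 - l3)) * (x - y) ^ 2 = F at *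
  generalize hG : (1 / 3 - m2) * y ^ 2 = G at *
  generalize hH : (1 / 3 - l4) * x ^ 2 = H at *
  clear h hH
  have q1 : A = 0 := by linarith
  have q2 : B = 0 := by linarith
  have q3 : C = 0 := by linarith
  have q4 : D = 0 := by linarith
  have q5 : E = 0 := by linarith
  have q6 : F = 0 := by linarith
  have q7 : G = 0 := by linarith
  subst q1 q2 q3 q4 q5 q6 q7
  clear p1 p2 p3 p4 p5 p6 p7 p8 t b4 b6
  simp only [mul_eq_zero, pow_eq_zero_iff (two_ne_zero)] at hA hB hC hD hE hF hG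
  have hy : y = -1 := by
    rcases hC with hC | hC <;> rcases hD with hD | hD <;> rcases hG with hG | hG <;> linarith
  subst hy
  have hx : (x = -1 ∧ l1 - l5 = 1 / 3) ∨ (x = 1 ∧ l1 - l5 = -1 / 3) := by
    rcases hA with hA | hA <;> rcases hB with hB | hB
    · linarith
    · exact Or.inr ⟨by linarith, by linarith⟩
    · exact Or.inl ⟨by linarith, by linarith⟩
    · linarith
  rcases hx with ⟨rfl, hx⟩ | ⟨rfl, hx⟩ <;> rcases hE with hE | hE <;> rcases hF with hF | hF <;> linarith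

/-- Let V be a finite-dimensional real vector space with a commutative bilinear product and a positive-definite symmetric bilinear form that associates with the product and satisfies the Norton inequality (the Majorana setting of the definitions). Let μ₀ and μ₁ be Majorana involutions with axial vectors a₀ and a₁ of squared length 1, each involution having no other axial vector. Then the product μ₀μ₁ has order at most 6: some power (μ₀μ₁)^n with 1 ≤ n ≤ 6 is the identity (so the two involutions generate a dihedral group of order at most 12). This is the 6-transposition property of Majorana involutions. -/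
theorem result {V : Type*} [AddCommGroup V] [Module ℝ V] [FiniteDimensional ℝ V] (mul : V →ₗ[ℝ] V →ₗ[ℝ] V) (B : LinearMap.BilinForm ℝ V) (hV : Cfsg.Axial.IsMajoranaAmbient mul B) (μ₀ μ₁ : V ≃ₗ[ℝ] V) (a₀ a₁ : V) (h₀ : Cfsg.Axial.IsMajoranaPair mul B μ₀ a₀) (h₁ : Cfsg.Axial.IsMajoranaPair mul B μ₁ a₁) (hu₀ : ∀ a : V, Cfsg.Axial.IsMajoranaPair mul B μ₀ a → a = a₀) (hu₁ : ∀ a : V, Cfsg.Axial.IsMajoranaPair mul B μ₁ a → a = a₁) (hn₀ : B a₀ a₀ = 1) (hn₁ : B a₁ a₁ = 1) : ∃ n : ℕ, 1 ≤ n ∧ n ≤ 6 ∧ (μ₀ * μ₁) ^ n = 1 := by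
  by_contra! hc
  have k₀ := ax_of h₀ hn₀
  have k₁ := ax_of h₁ hn₁
  have i₀ : μ₀ * μ₀ = 1 := LinearEquiv.ext k₀.inv
  have i₁ : μ₁ * μ₁ = 1 := LinearEquiv.ext k₁.inv
  have e₁ : μ₁ = μ₀ * (μ₀ * μ₁) ^ (1 : ℤ) := by rw [zpow_one, ← mul_assoc, i₀, one_mul]
  have c : ∀ i : ℤ, μ₀ * (μ₀ * μ₁) ^ i = (μ₀ * μ₁) ^ (-i) * μ₀ := fun i => by
    rw [zpow_neg, ← inv_zpow, mul_inv_rev, inv_eq_of_mul_eq_one_left i₀, inv_eq_of_mul_eq_one_left i₁]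
    exact (SemiconjBy.zpow_right (by rw [SemiconjBy, ← mul_assoc, i₀, mul_assoc, i₀, one_mul, mul_one]) i).eq
  have s₀ : ∀ {i : ℤ} {x}, Ax mul B (μ₀ * (μ₀ * μ₁) ^ i) x → Ax mul B (μ₀ * (μ₀ * μ₁) ^ (-i)) (μ₀ x) := fun {i x} h => by
    have := k₀.conj h
    rwa [← mul_assoc, i₀, one_mul, ← neg_neg i, ← c] at this
  have s₁ : ∀ {i : ℤ} {x}, Ax mul B (μ₀ * (μ₀ * μ₁) ^ i) x → Ax mul B (μ₀ * (μ₀ * μ₁) ^ (2 - i)) (μ₁ x) := fun {i x} h => by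
    have := k₁.conj h
    generalize μ₀ * μ₁ = ρ at *
    rwa [e₁, mul_assoc, mul_assoc, mul_assoc, ← mul_assoc (ρ ^ i), ← neg_neg i, ← c, ← mul_assoc μ₀ (μ₀ * _),
      ← mul_assoc μ₀ μ₀, i₀, one_mul, ← zpow_add, ← zpow_add, show (1 : ℤ) + (-i + 1) = 2 - i by ring, ← e₁] at this
  have b : ∀ {i j : ℤ} {x y}, Ax mul B (μ₀ * (μ₀ * μ₁) ^ i) x → Ax mul B (μ₀ * (μ₀ * μ₁) ^ j) y → j < i → i ≤ j + 6 →
      0 ≤ B x y ∧ B x y ≤ 1 / 3 := fun {i j x y} h k a b => h.bound hV k.id k.n1 fun e => by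
    subst e
    refine hc (i - j).toNat (by omega) (by omega) ?_
    rw [← zpow_natCast, Int.toNat_of_nonneg (by omega), zpow_sub, mul_left_cancel (h.uniq k), mul_inv_cancel]
  have A0 : Ax mul B (μ₀ * (μ₀ * μ₁) ^ (0 : ℤ)) a₀ := by simpa using k₀
  have A1 : Ax mul B (μ₀ * (μ₀ * μ₁) ^ (1 : ℤ)) a₁ := e₁ ▸ k₁
  have A2 := s₁ A0
  have B1 := s₀ A1
  have B2 := s₀ A2
  have A3 := s₁ B1
  have A4 := s₁ B2
  obtain ⟨x, y, e⟩ := rel hV k₀ k₁ (fus_of h₀)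
  have E := congrArg (fun v => B v v) e
  have r1 : B (μ₁ (μ₀ (μ₁ a₀))) (μ₁ (μ₀ a₁)) = B a₁ a₀ := by rw [k₁.hb, k₀.hb, ← k₁.hb, k₁.inv, k₁.f1, hV.2.1]
  have r2 : B (μ₀ (μ₁ a₀)) (μ₀ a₁) = B a₁ a₀ := by rw [← r1, k₁.hb]
  have r3 : B (μ₀ (μ₁ a₀)) (μ₁ (μ₀ a₁)) = B (μ₁ (μ₀ (μ₁ a₀))) (μ₀ a₁) := by rw [← k₁.hb, k₁.inv]
  have r4 : B (μ₁ (μ₀ (μ₁ a₀))) (μ₁ a₀) = B (μ₁ a₀) a₀ := by rw [k₁.hb, ← k₀.hb, k₀.inv, k₀.f1]
  have r5 : B (μ₀ (μ₁ a₀)) a₀ = B (μ₁ a₀) a₀ := by rw [← r4, k₁.hb]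
  have r6 : B (μ₀ (μ₁ a₀)) (μ₁ a₀) = B (μ₁ (μ₀ (μ₁ a₀))) a₀ := by rw [← k₁.hb, k₁.inv]
  have r7 : B (μ₀ a₁) a₀ = B a₁ a₀ := by rw [← k₀.hb, k₀.inv, k₀.f1]
  have r8 : B (μ₁ (μ₀ a₁)) (μ₁ a₀) = B a₁ a₀ := by rw [k₁.hb, r7]
  have r9 : B (μ₀ a₁) (μ₁ a₀) = B (μ₁ (μ₀ a₁)) a₀ := by rw [← k₁.hb, k₁.inv]
  have u1 := b A1 A0 (by omega) (by omega)
  have u3 := b A3 A0 (by omega) (by omega)
  have u5 := b A4 B1 (by omega) (by omega)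
  have u2 := b A2 A0 (by omega) (by omega)
  have u4 := b A4 A0 (by omega) (by omega)
  have v4 := b A3 B1 (by omega) (by omega)
  have v6 := b A4 B2 (by omega) (by omega)
  have n := A0.n1
  have n1 := A2.n1
  have n2 := B1.n1
  have n3 := B2.n1
  have n4 := A3.n1
  have n5 := A4.n1
  generalize μ₁ (μ₀ (μ₁ a₀)) = c4 at *
  generalize μ₀ (μ₁ a₀) = d2 at *
  generalize μ₁ (μ₀ a₁) = c3 at *
  generalize μ₀ a₁ = d1 at *
  generalize μ₁ a₀ = c2 at *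
  simp only [map_add, map_sub, map_smul, LinearMap.add_apply, LinearMap.sub_apply, LinearMap.smul_apply, smul_eq_mul,
    map_zero, hV.2.1 d2 c4, hV.2.1 c3 c4, hV.2.1 d1 c4, hV.2.1 c2 c4, hV.2.1 a₀ c4, hV.2.1 c3 d2, hV.2.1 d1 d2,
    hV.2.1 c2 d2, hV.2.1 a₀ d2, hV.2.1 d1 c3, hV.2.1 c2 c3, hV.2.1 a₀ c3, hV.2.1 c2 d1, hV.2.1 a₀ d1, hV.2.1 a₀ c2,
    r1, r2, r3, r4, r5, r6, r7, r8, r9, n, n1, n2, n3, n4, n5] at E
  exact ineq (x := x) (y := y) u1 u3 u5 u2 u4 v4.2 v6.2 (by linear_combination E / 2)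

end Cfsg.Agent.S5544
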