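import Cfsg.Statements.S5545
import Cfsg.Agent.MJ.A

set_option autoImplicit false
open Cfsg

namespace Cfsg.Agent.S5545

open MJ Cfsg.Axial

section
variable {V : Type*} [AddCommGroup V] [Module ℝ V] {mul : V →ₗ[ℝ] V →ₗ[ℝ] V} {B : LinearMap.BilinForm ℝ V}
  {μ g : V ≃ₗ[ℝ] V} {a b : V}

theorem tr (k : Ax mul B g b) (h : IsMajoranaPair mul B μ a) (hc : g * μ = μ * g) : IsMajoranaPair mul B μ (g a) := by
  have e : ∀ c v, v ∈ eigen mul (g a) c ↔ g v ∈ eigen mul a c := fun c v => by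
    rw [mem_eigen, mem_eigen, ← g.injective.eq_iff, k.hm, k.inv, map_smul]
  have e1 : ∀ c, eigen mul (g a) c = (eigen mul a c).map (g : V →ₗ[ℝ] V) := fun c => by
    ext v
    rw [e]
    exact ⟨fun h => ⟨_, h, k.inv v⟩, by rintro ⟨w, h, rfl⟩; simpa [k.inv] using h⟩
  have e2 : ∀ S, eigenSum mul (g a) S = (eigenSum mul a S).map (g : V →ₗ[ℝ] V) := fun S => by
    simp only [eigenSum, Submodule.map_iSup, e1]
  have c : ∀ v, μ (g v) = g (μ v) := fun v => (LinearEquiv.congr_fun hc v).symm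
  obtain ⟨a1, a2, ⟨⟨a3, a4, a5, a6⟩, a7⟩, a8, a9⟩ := h
  refine ⟨a1, a2, ⟨⟨by simpa, by rw [← k.hm, a4], ?_, fun c hc d hd u hu v hv => ?_⟩, ?_⟩, fun v hv => ?_, fun v hv => ?_⟩
  · rw [e2, a5, Submodule.map_top, LinearEquiv.range]
  · rw [e2]
    exact ⟨_, a6 c hc d hd _ ((e _ _).1 hu) _ ((e _ _).1 hv), by simp [k.hm, k.inv]⟩
  · rw [e1, a7, Submodule.map_span, Set.image_singleton]; rfl
  · rw [e2] at hv
    obtain ⟨w, h, rfl⟩ := hv
    exact (c w).trans (congrArg g (a8 w h))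
  · rw [e1] at hv
    obtain ⟨w, h, rfl⟩ := hv
    exact (c w).trans ((congrArg g (a9 w h)).trans (map_neg _ _))

theorem half (hV : IsMajoranaAmbient mul B) (h : Ax mul B μ a) (e : μ b = b) :
    mul a (mul a b) = (1 / 4 : ℝ) • mul a b + (3 / 4 * B a b) • a ∧
    mul a (b + (3 * B a b) • a - (4 : ℝ) • mul a b) = 0 ∧
    mul a ((4 : ℝ) • mul a b - (4 * B a b) • a) = (1 / 4 : ℝ) • ((4 : ℝ) • mul a b - (4 * B a b) • a) := by
  obtain ⟨-, -, t1, t2, t3⟩ := h.parts hV (sub_add_cancel (mul a b) ((1 / 32 : ℝ) • (a + b))).symm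
  simp only [e, map_add, map_sub, map_smul, h.id] at t1 t2 t3 ⊢
  refine ⟨?_, ?_, ?_⟩
  · linear_combination (norm := module) t1
  · linear_combination (norm := module) (-4 : ℝ) • t1
  · linear_combination (norm := module) (4 : ℝ) • t1

theorem main (hV : IsMajoranaAmbient mul B) (h : Ax mul B μ a) (k : Ax mul B g b) (hf : Fus mul a) (e : μ b = b) (e' : g a = a) :
    (16 : ℝ) • mul (mul a b) (mul a b) = (3 * B a b) • (a + b) + (12 * B a b - 2) • mul a b ∧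
      (B a b ≠ 1 / 8 → mul a b = B a b • a) := by
  obtain ⟨t1, t2, t3⟩ := half hV h e
  obtain ⟨t4, -⟩ := half hV k e'
  rw [hV.1 b a, hV.2.1 b a] at t4
  obtain ⟨f1, f2, t, f3⟩ := hf _ _ t2 t3
  have n : B a (mul a b) = B a b := by rw [hV.2.2.2.1, h.id]
  generalize hs : mul a b = s at *
  generalize B a b = l at *
  simp only [map_add, map_sub, map_smul, LinearMap.add_apply, LinearMap.sub_apply, LinearMap.smul_apply, hV.1 s a, hV.1 s b,
    hV.1 b a, hs, t1, t4, h.id, k.id] at f1 f2 f3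
  refine ⟨by linear_combination (norm := module) (4 : ℝ) • f1 + (4 : ℝ) • f2, fun hl => ?_⟩
  have E : (4 * l - 1 / 2) • s = (t + 5 * l ^ 2 - 3 / 2 * l) • a := by linear_combination (norm := module) f3 - f1
  have E2 := congrArg (B a) E
  simp only [map_smul, n, h.n1, smul_eq_mul, mul_one] at E2
  rw [← E2, mul_smul] at E
  exact smul_right_injective V (fun e => hl (by linarith)) E
end

/-- Let V be a finite-dimensional real vector space with a commutative bilinear product and a positive-definite symmetric bilinear form that associates with the product and satisfies the Norton inequality (the Majorana setting of the definitions). Let μ₀, μ₁ be commuting Majorana involutions with distinct axial vectors a₀ ≠ a₁ of squared length 1, each involution having no other axial vector. Then either a₀ and a₁ are orthogonal with a₀ ∘ a₁ = 0 (type 2B), or their inner product is 1/8 and, with a₂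 = a₀ + a₁ − 8 a₀ ∘ a₁, the vector a₂ is an idempotent and a₀ ∘ a₂ = (1/8)(a₀ + a₂ − a₁), a₁ ∘ a₂ = (1/8)(a₁ + a₂ − a₀) (type 2A: the three idempotents span a subalgebra with aᵢ ∘ aⱼ = (1/8)(aᵢ + aⱼ − aₖ)). -/
theorem result {V : Type*} [AddCommGroup V] [Module ℝ V] [FiniteDimensional ℝ V] (mul : V →ₗ[ℝ] V →ₗ[ℝ] V) (B : LinearMap.BilinForm ℝ V) (hV : Cfsg.Axial.IsMajoranaAmbient mul B) (μ₀ μ₁ : V ≃ₗ[ℝ] V) (a₀ a₁ : V) (h₀ : Cfsg.Axial.IsMajoranaPair mul B μ₀ a₀) (h₁ : Cfsg.Axial.IsMajoranaPair mul B μ₁ a₁) (hu₀ : ∀ a : V, Cfsg.Axial.IsMajoranaPair mul B μ₀ a → a = a₀) (hu₁ : ∀ a : V, Cfsg.Axial.IsMajoranaPair mul B μ₁ a → a = a₁) (hn₀ : B a₀ a₀ = 1) (hn₁ : B a₁ a₁ = 1) (hc : μ₀ * μ₁ = μ₁ * μ₀) (hne : a₀ ≠ a₁) : (B a₀ a₁ = 0 ∧ mul a₀ a₁ = 0) ∨ (B a₀ a₁ = 1 / 8 ∧ mul (a₀ + a₁ - (8 : ℝ) • mul a₀ a₁) (a₀ + a₁ - (8 : ℝ) • mul a₀ a₁) = a₀ + a₁ - (8 : ℝ) • mul a₀ a₁ ∧ mul a₀ (a₀ + a₁ - (8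 : ℝ) • mul a₀ a₁) = (1 / 8 : ℝ) • (a₀ + (a₀ + a₁ - (8 : ℝ) • mul a₀ a₁) - a₁) ∧ mul a₁ (a₀ + a₁ - (8 : ℝ) • mul a₀ a₁) = (1 / 8 : ℝ) • (a₁ + (a₀ + a₁ - (8 : ℝ) • mul a₀ a₁) - a₀)) := by
  have k₀ := ax_of h₀ hn₀
  have k₁ := ax_of h₁ hn₁
  have e₀ := hu₁ _ (tr k₀ h₁ hc)
  have e₁ := hu₀ _ (tr k₁ h₀ hc.symm)
  obtain ⟨m1, m2⟩ := main hV k₀ k₁ (fus_of h₀) e₀ e₁
  obtain ⟨-, m3⟩ := main hV k₁ k₀ (fus_of h₁) e₁ e₀
  obtain ⟨t1, -⟩ := half hV k₀ e₀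
  obtain ⟨t2, -⟩ := half hV k₁ e₁
  rw [hV.1 a₁ a₀, hV.2.1 a₁ a₀] at m3 t2
  by_cases hl : B a₀ a₁ = 1 / 8
  · refine Or.inr ⟨hl, ?_⟩
    rw [hl] at m1 t1 t2
    generalize hs : mul a₀ a₁ = s at *
    simp only [map_add, map_sub, map_smul, LinearMap.add_apply, LinearMap.sub_apply, LinearMap.smul_apply, hV.1 s a₀,
      hV.1 s a₁, hV.1 a₁ a₀, hs, t1, t2, k₀.id, k₁.id]
    refine ⟨?_, ?_, ?_⟩
    · linear_combination (norm := module) (4 : ℝ) • m1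
    · module
    · module
  · have : B a₀ a₁ = 0 := by
      by_contra h0
      exact hne (smul_right_injective V h0 ((m2 hl).symm.trans (m3 hl)))
    exact Or.inl ⟨this, by rw [m2 hl, this, zero_smul]⟩

end Cfsg.Agent.S5545
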