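import Cfsg.Statements.S5547
import Cfsg.Agent.H8.F78
import Cfsg.Agent.H8.Mat
import Cfsg.Agent.H7.T.F22_0
-- import your own Cfsg.Agent.* helpers here

set_option autoImplicit false
set_option maxRecDepth 200000
open Cfsg

namespace Cfsg.Agent.S5547

/-- The Fischer group Fi₂₂ (the finitely presented 3-transposition group of the definitions) is isomorphic to a subgroup of the general linear group of degree 78 over the field with 13 elements: there is an injective homomorphism into it. -/
theorem result : ∃ f : Cfsg.Spor.Fi22 →* GL (Fin 78) (ZMod 13), Function.Injective f := by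
  haveI : Fact (Nat.Prime 13) := ⟨by norm_num⟩
  choose X hX using fun x => H8.DM.exists_RM (F := ZMod 13) 65535 _ (by norm_num) (H8.F78.wf x)
  have r := fun w n => H8.DM.rel_spec (K := 16) (by norm_num) (by norm_num) (by norm_num) hX w n
  choose U hU using fun x => H8.exists_GL (M := X x) (k := 2) (by norm_num) (by simpa [Spor.coxLabel, pow_two] using r _ _ (H8.F78.cox x x))
  have r' : ∀ (w : List Spor.Fi22.Gen) n, (w.map X).prod ^ n = 1 → (w.map U).prod ^ n = 1 := fun w n h => Units.ext (by
    rw [Units.val_pow_eq_pow_val, ← Units.coeHom_apply, map_list_prod, List.map_map, Units.val_one, ← h]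
    congr 3; exact funext hU)
  let f : Spor.Fi22 →* GL (Fin 78) (ZMod 13) := PresentedGroup.toGroup (f := U) (by
    rintro _ (⟨x, -, y, -, rfl⟩ | h)
    · simpa using r' _ _ (r _ _ (H8.F78.cox x y))
    · simp only [Spor.Fi22.extra, Set.mem_setOf_eq, List.mem_cons, List.not_mem_nil, or_false] at h
      rcases h with rfl | rfl | rfl
      · simpa [mul_assoc] using r' _ _ (r _ _ H8.F78.e0)
      · simpa [mul_assoc] using r' _ _ (r _ _ H8.F78.e1)
      · simpa [mul_assoc] using r' _ _ (r _ _ H8.F78.e2))
  haveI := H7.T.simple_Fi22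
  refine ⟨f, (MonoidHom.ker_eq_bot_iff f).1 (f.normal_ker.eq_bot_or_eq_top.resolve_right fun h => H8.F78.nt ?_)⟩
  have : f (PresentedGroup.of .a) = 1 := (h ▸ Subgroup.mem_top _ : _ ∈ f.ker)
  rw [PresentedGroup.toGroup.of] at this
  exact ((hX _).iff (by norm_num) (H8.DM.RM_one (by norm_num))).2 (by rw [← hU, this]; rfl)

end Cfsg.Agent.S5547
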