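import Cfsg.Statements.S5549
import Cfsg.Agent.H7.M24
import Cfsg.Agent.S0358
import Cfsg.Agent.S0362

set_option autoImplicit false
open Cfsg

namespace Cfsg.Agent.S5549

open Finset
open scoped Pointwise

theorem selfdual {s : GolayPt → ZMod 2} (h : ∀ c ∈ golayCode, ∑ i, c i * s i = 0) : s ∈ golayCode := by
  let B : LinearMap.BilinForm (ZMod 2) (GolayPt → ZMod 2) := Matrix.toBilin' 1
  have hB : ∀ x y, B x y = ∑ i, x i * y i := fun x y => by simp [B, Matrix.toBilin'_apply', dotProduct]
  have nd : B.Nondegenerate := by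
    simp [B, Matrix.nondegenerate_toBilin'_iff, Matrix.nondegenerate_iff_det_ne_zero]
  have le : golayCode ≤ B.orthogonal golayCode := fun w hw v hv => (hB v w).trans (S0362.result v w hv hw)
  have := Submodule.eq_of_le_of_finrank_eq le (by
    rw [LinearMap.BilinForm.finrank_orthogonal nd, S0358.result]; simp [GolayPt])
  rw [this]; intro c hc; exact (hB c s).trans (h c hc)

theorem six {a b c d e f : GolayPt} (h : ∀ w ∈ golayCode, w a + w b + (w c + w d) + (w e + w f) = 0) (p : GolayPt) :
    ((if p = a then 1 else 0) + (if p = b then 1 else 0) + ((if p = c then 1 else 0) + (if p = d then 1 else 0)) +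
      ((if p = e then 1 else 0) + (if p = f then 1 else 0)) : ZMod 2) = 0 := by
  have m := H7.support_mem_iff.2 (selfdual (s := fun p => (if p = a then 1 else 0) + (if p = b then 1 else 0) +
    ((if p = c then 1 else 0) + (if p = d then 1 else 0)) + ((if p = e then 1 else 0) + (if p = f then 1 else 0)))
    fun w hw => by simpa [mul_add, sum_add_distrib] using h w hw)
  have l := card_le_card (show support₂ _ ⊆ {a, b, c, d, e, f} from fun q hq => by
    have := (mem_filter.1 (show q ∈ support₂ (fun p => ((if p = a then 1 else 0) + (if p = b then 1 else 0) +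
      ((if p = c then 1 else 0) + (if p = d then 1 else 0)) + ((if p = e then 1 else 0) + (if p = f then 1 else 0)) :
        ZMod 2)) from hq)).2
    by_contra n
    simp only [mem_insert, mem_singleton, not_or] at n
    simp [n] at this)
  have l6 : ({a, b, c, d, e, f} : Finset GolayPt).card ≤ 6 := card_le_six
  have := card_eq_zero.1 (show _ = 0 by rcases H7.weights m with k | k | k | k | k <;> omega)
  by_contra n
  exact notMem_empty p (this ▸ mem_filter.2 ⟨mem_univ p, n⟩)

theorem star {ι α : Type*} [Fintype ι] [DecidableEq α] (hι : 3 < Fintype.card ι) (A : ι → Finset α)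
    (h2 : ∀ i, (A i).card = 2) (hi : Function.Injective A) (hm : ∀ i j, ∃ x ∈ A i, x ∈ A j) : ∃ t, ∀ i, t ∈ A i := by
  by_contra hh
  push Not at hh
  obtain ⟨i0⟩ : Nonempty ι := Fintype.card_pos_iff.1 (by omega)
  obtain ⟨a, b, ab, e0⟩ := card_eq_two.1 (h2 i0)
  have k : ∀ i y, y ∈ A i → ∃ w, w ≠ y ∧ A i = {y, w} := fun i y hy => by
    obtain ⟨u, v, uv, e⟩ := card_eq_two.1 (h2 i)
    rw [e, mem_insert, mem_singleton] at hy
    rcases hy with rfl | rfl
    · exact ⟨v, uv.symm, e⟩
    · exact ⟨u, uv, e.trans (pair_comm _ _)⟩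
  obtain ⟨i1, n1⟩ := hh a
  obtain ⟨i2, n2⟩ := hh b
  obtain ⟨c, cb, e1⟩ := k i1 b (by
    obtain ⟨x, h, h'⟩ := hm i0 i1
    rw [e0, mem_insert, mem_singleton] at h
    rcases h with rfl | rfl
    exacts [absurd h' n1, h'])
  obtain ⟨c', ca, e2⟩ := k i2 a (by
    obtain ⟨x, h, h'⟩ := hm i0 i2
    rw [e0, mem_insert, mem_singleton] at h
    rcases h with rfl | rfl
    exacts [h', absurd h' n2])
  obtain rfl : c' = c := by
    obtain ⟨x, h, h'⟩ := hm i1 i2
    rw [e1] at h n1
    rw [e2] at h' n2
    simp only [mem_insert, mem_singleton, not_or] at h h' n1 n2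
    rcases h with rfl | rfl <;> rcases h' with h | h <;> simp_all
  have : ∀ i, A i ∈ powersetCard 2 ({a, b, c'} : Finset α) := fun i => mem_powersetCard.2 ⟨fun y hy => by
    obtain ⟨w, -, e⟩ := k i y hy
    obtain ⟨x0, h0, g0⟩ := hm i i0
    obtain ⟨x1, h1, g1⟩ := hm i i1
    obtain ⟨x2, h2, g2⟩ := hm i i2
    rw [e] at h0 h1 h2
    rw [e0] at g0
    rw [e1] at g1
    rw [e2] at g2
    simp only [mem_insert, mem_singleton] at *
    grind, h2 i⟩
  have l := card_le_card_of_injOn (s := univ) A (fun i _ => this i) hi.injOn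
  rw [card_powersetCard, card_univ] at l
  have := Nat.choose_le_choose 2 (card_le_three : ({a, b, c'} : Finset α).card ≤ 3)
  simp at this
  omega

def ee (a : ZMod 2) : ℤ := if a = 0 then 1 else -1
theorem ee_add : ∀ a b, ee (a + b) = ee a * ee b := by decide
theorem ee_one : ∀ a, ee (a + 1) = -ee a := by decide

theorem sum_ee {C : Type*} [AddCommGroup C] [Fintype C] (f : C → ZMod 2) (hf : ∀ a b, f (a + b) = f a + f b) :
    (0 ≤ ∑ c, ee (f c)) ∧ ((∃ c, f c ≠ 0) → ∑ c, ee (f c) = 0) := by
  have k : (∃ c, f c ≠ 0) → ∑ c, ee (f c) = 0 := fun ⟨d, hd⟩ => by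
    have := Equiv.sum_comp (Equiv.addRight d) fun c => ee (f c)
    simp only [Equiv.coe_addRight, hf, (H7.zmod2_cases _).resolve_left hd, ee_one, sum_neg_distrib] at this
    omega
  refine ⟨?_, k⟩
  by_cases h : ∃ c, f c ≠ 0
  · exact (k h).ge
  · push Not at h
    simp [h, ee]

theorem duad (x : golayCode ≃ₗ[ZMod 2] golayCode)
    (hF : ∀ c : golayCode, (∑ p, ee ((x c).1 p)) ^ 2 = (∑ p, ee (c.1 p)) ^ 2) (p q : GolayPt) :
    ∃ r s, ∀ c : golayCode, (x c).1 p + (x c).1 q + (c.1 r + c.1 s) = 0 := by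
  haveI := Fintype.ofFinite golayCode
  have T : ∀ μ : golayCode → ZMod 2, ∑ c, ee (μ c) * (∑ p, ee (c.1 p)) ^ 2 =
      ∑ r, ∑ s, ∑ c : golayCode, ee (μ c + (c.1 r + c.1 s)) := fun μ => by
    rw [sum_congr rfl fun c _ => show ee (μ c) * (∑ p, ee (c.1 p)) ^ 2 = ∑ r, ∑ s, ee (μ c + (c.1 r + c.1 s)) by
      rw [sq, sum_mul_sum, mul_sum]
      exact sum_congr rfl fun r _ => by rw [mul_sum]; exact sum_congr rfl fun s _ => by rw [ee_add, ee_add], sum_comm]
    exact sum_congr rfl fun r _ => sum_comm
  by_contra hh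
  push Not at hh
  have h1 := T fun c => (x c).1 p + (x c).1 q
  rw [sum_eq_zero fun r _ => sum_eq_zero fun s _ => (sum_ee _ fun a b => by
    simp only [map_add, Submodule.coe_add, Pi.add_apply]; ring).2 (hh r s)] at h1
  have h2 : ∑ c, ee ((x c).1 p + (x c).1 q) * (∑ p, ee ((x c).1 p)) ^ 2 = _ :=
    Equiv.sum_comp x.toEquiv fun c => ee (c.1 p + c.1 q) * (∑ p, ee (c.1 p)) ^ 2
  rw [T, sum_congr rfl fun c _ => congrArg (ee ((x c).1 p + (x c).1 q) * ·) (hF c), h1, eq_comm] at h2
  have nn : ∀ r s, 0 ≤ ∑ c : golayCode, ee (c.1 p + c.1 q + (c.1 r + c.1 s)) := fun r s => (sum_ee _ fun a b => by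
    simp only [Submodule.coe_add, Pi.add_apply]; ring).1
  have := (sum_eq_zero_iff_of_nonneg fun s _ => nn p s).1
    ((sum_eq_zero_iff_of_nonneg fun r _ => sum_nonneg fun s _ => nn r s).1 h2 p (mem_univ _)) q (mem_univ _)
  simp [CharTwo.add_self_eq_zero, ee] at this

/-- Let X be a group of linear automorphisms of the length-24 binary Golay code of the definitions that fix the all-ones word, containing the coordinate-permutation action of every element of the code's automorphism group (the Mathieu group of degree 24), and such that every element of X sends each codeword into its orbit under that Mathieu group up to adding the all-ones word (X has the same orbits as the Mathieu group on the code modulo the all-ones word). Then every element of X agrees, modulo the all-ones word, with the action of a single element of the Mathieu group: X induces exactly the Mathieu group on the code modulo the all-ones word. -/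
theorem result (X : Subgroup (↥Cfsg.golayCode ≃ₗ[ZMod 2] ↥Cfsg.golayCode)) (h1 : ∀ x ∈ X, ∀ e : ↥Cfsg.golayCode, (e : (Cfsg.GolayPt → ZMod 2)) = (fun _ => (1 : ZMod 2)) → x e = e) (hM : ∀ σ ∈ Cfsg.M24, ∃ x ∈ X, ∀ c : ↥Cfsg.golayCode, ((x c : ↥Cfsg.golayCode) : (Cfsg.GolayPt → ZMod 2)) = fun p => (c : (Cfsg.GolayPt → ZMod 2)) (σ.symm p)) (horb : ∀ x ∈ X, ∀ c : ↥Cfsg.golayCode, ∃ σ ∈ Cfsg.M24, ((x c : ↥Cfsg.golayCode) : (Cfsg.GolayPt → ZMod 2)) = (fun p => (c : (Cfsg.GolayPt → ZMod 2)) (σ.symm p)) ∨ ((x c : ↥Cfsg.golayCode) : (Cfsg.GolayPt → ZMod 2)) = (fun p => (c : (Cfsg.GolayPt → ZMod 2)) (σ.symm p)) + fun _ => (1 : ZMod 2)) (x : ↥Cfsg.golayCode ≃ₗ[ZMod 2] ↥Cfsg.golayCode) (hx : x ∈ X) : ∃ σ ∈ Cfsg.M24, ∀ c : ↥Cfsg.golayCode, ((x c : ↥Cfsg.golayCode) : (Cfsg.GolayPt → ZMod 2)) = (fun p => (c : (Cfsg.GolayPt → ZMod 2)) (σ.symm p)) ∨ ((x c : ↥Cfsg.golayCode) : (Cfsg.GolayPt → ZMod 2)) = (fun p => (c : (Cfsg.GolayPt → ZMod 2)) (σ.symm p)) + fun _ => (1 : ZMod 2) := by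
  have hF : ∀ c : golayCode, (∑ p, ee ((x c).1 p)) ^ 2 = (∑ p, ee (c.1 p)) ^ 2 := fun c => by
    obtain ⟨σ, -, e | e⟩ := horb x hx c <;> rw [e]
    · rw [Equiv.sum_comp σ.symm fun p => ee (c.1 p)]
    · simp only [Pi.add_apply, ee_one, sum_neg_distrib, neg_sq]
      rw [Equiv.sum_comp σ.symm fun p => ee (c.1 p)]
  choose r s hrs using duad x hF
  have z2 : ∀ a b : ZMod 2, a + b = 0 ↔ a = b := by decide
  have sep : ∀ p q, (∀ c : golayCode, (x c).1 p = (x c).1 q) → p = q := fun p q h => by
    have := six (a := p) (b := q) (c := p) (d := p) (e := p) (f := p) (fun w hw => by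
      have := h (x.symm ⟨w, hw⟩)
      rw [x.apply_symm_apply] at this
      rw [show w p = w q from this]; simp [CharTwo.add_self_eq_zero]) p
    by_contra n
    simp [n] at this
    exact absurd this (by decide)
  have ne : ∀ p q, p ≠ q → r p q ≠ s p q := fun p q n e => n (sep p q fun c => by
    have := hrs p q c
    rwa [e, CharTwo.add_self_eq_zero, add_zero, z2] at this)
  have sm : ∀ (i : ZMod 23) (c : golayCode), ∑ y ∈ ({r none (some i), s none (some i)} : Finset GolayPt), c.1 y =
      (x c).1 none + (x c).1 (some i) := fun i c => by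
    rw [sum_pair (ne _ _ (by simp))]; exact ((z2 _ _).1 (hrs _ _ c)).symm
  have inj : Function.Injective fun i : ZMod 23 => ({r none (some i), s none (some i)} : Finset GolayPt) :=
    fun i j e => Option.some_injective _ (sep _ _ fun c => add_left_cancel ((sm i c).symm.trans
      ((congrArg (fun t => ∑ y ∈ t, c.1 y) e).trans (sm j c))))
  obtain ⟨t, ht⟩ := star (by simp) _ (fun i => card_pair (ne _ _ (by simp))) inj fun i j => by
    by_cases ij : i = j
    · exact ⟨r none (some i), by simp, by simp [ij]⟩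
    have n1 := ne none (some i) (by simp)
    have n2 := ne none (some j) (by simp)
    have n3 := ne (some i) (some j) (by simpa using ij)
    have := six (a := r none (some i)) (b := s none (some i)) (c := r none (some j)) (d := s none (some j))
      (e := r (some i) (some j)) (f := s (some i) (some j)) fun w hw => by
        rw [← (z2 _ _).1 (hrs _ _ ⟨w, hw⟩), ← (z2 _ _).1 (hrs _ _ ⟨w, hw⟩), ← (z2 _ _).1 (hrs _ _ ⟨w, hw⟩)]
        generalize (x ⟨w, hw⟩).1 = y
        generalize y none = a
        generalize y (some i) = b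
        generalize y (some j) = c
        revert a b c; decide
    generalize r none (some i) = a at *
    generalize s none (some i) = b at *
    generalize r none (some j) = c at *
    generalize s none (some j) = d at *
    generalize r (some i) (some j) = e at *
    generalize s (some i) (some j) = f at *
    by_contra hh
    simp only [mem_insert, mem_singleton, exists_eq_or_imp, exists_eq_left, not_or] at hh
    obtain ⟨⟨k1, k2⟩, k3, k4⟩ := hh
    have ha := this a
    have hb := this b
    have hc := this c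
    have z : ∀ P Q : Prop, [Decidable P] → [Decidable Q] →
        (1 + 0 + (0 + 0) + ((if P then 1 else 0) + (if Q then 1 else 0)) : ZMod 2) = 0 → P ∨ Q := fun P Q _ _ h => by
      by_contra n
      push Not at n
      rw [if_neg n.1, if_neg n.2] at h
      exact absurd h (by decide)
    rw [if_pos rfl, if_neg n1, if_neg k1, if_neg k2] at ha
    rw [if_pos rfl, if_neg n1.symm, if_neg k3, if_neg k4, add_comm 0 1] at hb
    rw [if_pos rfl, if_neg n2, if_neg (Ne.symm k1), if_neg (Ne.symm k3), add_comm (0 + 0 : ZMod 2)] at hc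
    have ha := z _ _ ha
    have hb := z _ _ hb
    have hc := z _ _ hc
    clear this z
    grind
  have ex : ∀ p : GolayPt, ∃ y, (∀ c : golayCode, (x c).1 p = c.1 y + ((x c).1 none + c.1 t)) := fun p => by
    have k : ∀ a b c d : ZMod 2, a + b + (c + d) = 0 → b = c + (a + d) ∧ b = d + (a + c) := by decide
    rcases p with _ | i
    · exact ⟨t, fun c => by rw [add_left_comm, CharTwo.add_self_eq_zero, add_zero]⟩
    · have := ht i
      simp only [mem_insert, mem_singleton] at this
      rcases this with e | e <;> rw [e]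
      · exact ⟨_, fun c => (k _ _ _ _ (hrs _ _ c)).2⟩
      · exact ⟨_, fun c => (k _ _ _ _ (hrs _ _ c)).1⟩
  choose τ hτ using ex
  have it : Function.Injective τ := fun p q e => sep p q fun c => by rw [hτ p c, hτ q c, e]
  let σ : Equiv.Perm GolayPt := (Equiv.ofBijective τ (Finite.injective_iff_bijective.1 it)).symm
  have key : ∀ c : golayCode, (x c).1 = (fun p => c.1 (σ.symm p)) ∨
      (x c).1 = (fun p => c.1 (σ.symm p)) + fun _ => (1 : ZMod 2) := fun c =>
    (H7.zmod2_cases ((x c).1 none + c.1 t)).imp (fun h => funext fun p => by rw [hτ p c, h, add_zero]; rfl)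
      fun h => funext fun p => by rw [hτ p c, h]; rfl
  refine ⟨σ, H7.mem_M24_iff.2 ?_, key⟩
  rintro _ ⟨w, hw, rfl⟩
  have e : σ • support₂ w = support₂ fun p => w (σ.symm p) := by
    ext p
    rw [← Finset.inv_smul_mem_iff]
    simp only [support₂, mem_filter, mem_univ, true_and]
    rfl
  rw [e]
  rcases key ⟨w, hw⟩ with h | h
  · exact H7.support_mem_iff.2 (h ▸ (x ⟨w, hw⟩).2)
  · have h1 : (fun _ => 1 : GolayPt → ZMod 2) ∈ golayCode := by
      have := H7.wd_mem_iff.2 (H7.fs_mem_supp_of (m := 16777215) (by decide +kernel))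
      rwa [← H7.one_eq_wd] at this
    exact H7.support_mem_iff.2 (by
      have := golayCode.sub_mem (x ⟨w, hw⟩).2 h1
      rwa [h, add_sub_cancel_right] at this)

end Cfsg.Agent.S5549
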