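import Cfsg.Statements.S5550
import Cfsg.Agent.H8.GP
-- import your own Cfsg.Agent.* helpers here

set_option autoImplicit false
set_option maxRecDepth 200000
open Cfsg
open scoped Pointwise

namespace Cfsg.Agent.S5550

/-- Let u be a word of the length-24 binary Golay code of the definitions (possibly zero or all-ones) and w any binary word of length 24 outside the code. Then some automorphism of the code (a coordinate permutation preserving it) fixes u but moves w to a word not congruent to w modulo the code: the stabilizer of a codeword fixes no non-zero element of the quotient of the space of all words by the code. -/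
theorem result (u : (Cfsg.GolayPt → ZMod 2)) (hu : u ∈ Cfsg.golayCode) (w : (Cfsg.GolayPt → ZMod 2)) (hw : w ∉ Cfsg.golayCode) : ∃ σ ∈ Cfsg.M24, (fun p => u (σ.symm p)) = u ∧ (fun p => w (σ.symm p)) - w ∉ Cfsg.golayCode := by
  rw [← H8.ind_supp u] at hu ⊢
  rw [← H8.ind_supp w] at hw ⊢
  generalize support₂ u = u, support₂ w = w at *
  rw [H8.ind_mem] at hu hw
  suffices ∃ g : M24, g • u = u ∧ symmDiff (g • w) w ∉ H7.CC by
    obtain ⟨g, h1, h2⟩ := this
    exact ⟨g, g.2, by rw [H8.GP.ind_smul, h1], by rwa [H8.GP.ind_smul, H8.ind_sub, H8.ind_mem]⟩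
  have k := H8.GP.moves H8.GC.std H8.GP.be H8.GP.bc hw
  rcases H7.weights hu with e | e | e | e | e
  · exact k.imp fun g h => ⟨by simp [Finset.card_eq_zero.1 e], h.2⟩
  · obtain ⟨C, hC, rfl⟩ := H8.wO ⟨hu, e⟩
    exact H8.GP.moves hC H8.GP.be H8.GP.bc hw
  · obtain ⟨C, hC, rfl⟩ := H8.wD ⟨hu, e⟩
    exact H8.GP.moves hC H8.GP.de H8.GP.dc hw
  · obtain ⟨C, hC, e⟩ := H8.wO (o := uᶜ) ⟨H7.compl_mem hu, by rw [Finset.card_compl, e]; rfl⟩
    exact (H8.GP.moves hC H8.GP.be H8.GP.bc hw).imp fun g h => ⟨compl_injective (by rw [← H7.smul_compl', ← e, h.1]), h.2⟩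
  · exact k.imp fun g h => ⟨by rw [Finset.eq_univ_of_card _ e, Finset.smul_finset_univ], h.2⟩

end Cfsg.Agent.S5550
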