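import Cfsg.Statements.S5553
import Cfsg.Agent.H8.Leech
-- import your own Cfsg.Agent.* helpers here

set_option autoImplicit false
open Cfsg

namespace Cfsg.Agent.S5553

/-- The Leech lattice of the definitions has an additive subgroup A containing twice the lattice, of index 2^12 in the lattice, all of whose vectors have squared length divisible by 32: the invariant quadratic form 'squared length over 16 modulo 2' on the lattice modulo twice the lattice (a 24-dimensional space over the field with two elements) vanishes on a 12-dimensional subspace, so it is of plus type. -/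
theorem result : ∃ A : AddSubgroup (Cfsg.GolayPt → ℤ), A ≤ Cfsg.leechLattice ∧ (∀ v ∈ Cfsg.leechLattice, (2 : ℤ) • v ∈ A) ∧ (A.addSubgroupOf Cfsg.leechLattice).index = 2 ^ 12 ∧ ∀ v ∈ A, (32 : ℤ) ∣ Cfsg.sqNorm v := by
  let A : AddSubgroup (GolayPt → ℤ) :=
    { carrier := {x | ∃ m : ℤ, (∀ i, x i % 4 = (2 * m) % 4) ∧ (∑ i, x i) % 8 = 0}
      zero_mem' := ⟨0, by simp, by simp⟩
      add_mem' := by
        rintro x y ⟨m, h1, h2⟩ ⟨n, h3, h4⟩
        refine ⟨m + n, fun i => ?_, ?_⟩
        · have := h1 i; have := h3 i; simp only [Pi.add_apply]; omega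
        · simp only [Pi.add_apply, Finset.sum_add_distrib]; omega
      neg_mem' := by
        rintro x ⟨m, h1, h2⟩
        refine ⟨m, fun i => ?_, ?_⟩
        · have := h1 i; simp only [Pi.neg_apply]; omega
        · simp only [Pi.neg_apply, Finset.sum_neg_distrib]; omega }
  have hA : A ≤ leechLattice := by
    rintro x ⟨m, h1, h2⟩
    exact H8.Le.mem_of_four 0 (2 * m) (by simp only [Int.ModEq]; omega) h1 h2
  let B : ℕ → GolayPt → ℤ := fun r p => if r = 0 then (if H7.gC.code p = 23 then -6 else 2)
    else if r < 23 then (if H7.gC.code p = r then 4 else if H7.gC.code p = 23 then -4 else 0)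
    else if H7.gC.code p = 23 then 8 else 0
  have hT : H8.Le.Tri B A := by
    refine ⟨fun r hr => ?_, by decide +kernel, by decide +kernel, fun x hx r hr h => ?_⟩
    · have : ∀ r < 24, (∀ i, B r i % 4 = (2 * if r = 0 then 1 else 0) % 4) ∧ (∑ i, B r i) % 8 = 0 := by
        decide +kernel
      exact ⟨_, this r hr⟩
    · have e : ∀ r < 24, B r (H7.pt r) = if r = 0 then 2 else if r < 23 then 4 else 8 := by decide +kernel
      obtain ⟨m, h1, h2⟩ := hx
      rw [e r hr]
      have a := h1 (H7.pt r)
      have b := h1 (H7.pt 0)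
      split_ifs with h0 h3
      · omega
      · rw [h 0 (by omega)] at b; omega
      · obtain rfl : r = 23 := by omega
        rw [H8.Le.sum_pt, Finset.sum_range_succ, Finset.sum_eq_zero fun i hi => h i (Finset.mem_range.1 hi)] at h2
        omega
  refine ⟨A, hA, fun v hv => ?_, ?_, ?_⟩
  · obtain ⟨m, hm, c, hc, h1, h2⟩ := H8.Le.mem_iff'.1 hv
    refine ⟨m, fun i => ?_, ?_⟩
    · have := h1 i
      simp only [Pi.smul_apply, smul_eq_mul]
      split_ifs at this <;> omega
    · simp only [Pi.smul_apply, smul_eq_mul, ← Finset.mul_sum]; omega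
  · have h := AddSubgroup.relIndex_mul_index hA
    rw [H8.Le.index_eq, hT.index, show (∏ r ∈ Finset.range 24, B r (H7.pt r)).natAbs = 2 ^ 12 * 2 ^ 36 by
      decide +kernel] at h
    exact Nat.eq_of_mul_eq_mul_right (by norm_num) h
  · rintro x ⟨m, h1, h2⟩
    have h3 : (32 : ℤ) ∣ ∑ i, (x i ^ 2 - 4 * (1 - m % 2) * x i - 4 * (m % 2)) := Finset.dvd_sum fun i _ => by
      have a := h1 i
      have e : x i = 4 * (x i / 4) + 2 * (m % 2) := by omega
      rw [e]
      generalize x i / 4 = t
      rcases (show m % 2 = 0 ∨ m % 2 = 1 by omega) with h | h <;> rw [h]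
      · obtain ⟨s, hs⟩ := Int.even_mul_pred_self t
        exact ⟨s, by linear_combination 16 * hs⟩
      · obtain ⟨s, hs⟩ := Int.even_mul_succ_self t
        exact ⟨s, by linear_combination 16 * hs⟩
    simp only [Finset.sum_sub_distrib, ← Finset.mul_sum, Finset.sum_const, H8.Le.card_pt', nsmul_eq_mul,
      Nat.cast_ofNat] at h3
    unfold sqNorm
    rcases (show m % 2 = 0 ∨ m % 2 = 1 by omega) with h | h <;> rw [h] at h3 <;> omega

end Cfsg.Agent.S5553
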