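import Cfsg.Statements.S5599
import Cfsg.Agent.H8.GE
-- import your own Cfsg.Agent.* helpers here

set_option autoImplicit false
set_option maxRecDepth 200000
open scoped Pointwise
open Cfsg

namespace Cfsg.Agent.S5599

/-- In the automorphism group of the length-24 code, the two-point Mathieu group (permutations of the code's group fixing the extra point and the residue 0) has index 2 in the setwise stabiliser of that pair of points, and an element of the code's group interchanging the two points normalises the two-point group and induces on it, by conjugation, an automorphism that is not inner. -/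
theorem result (g : Equiv.Perm Cfsg.GolayPt) (hg : g ∈ Cfsg.M24) (h₁ : g none = some 0) (h₂ : g (some 0) = none) : Cfsg.Spor.M22.relIndex (Cfsg.M24 ⊓ MulAction.stabilizer (Equiv.Perm Cfsg.GolayPt) ({none, some 0} : Finset Cfsg.GolayPt)) = 2 ∧ (∀ x ∈ Cfsg.Spor.M22, g * x * g⁻¹ ∈ Cfsg.Spor.M22) ∧ ¬ ∃ h ∈ Cfsg.Spor.M22, ∀ x ∈ Cfsg.Spor.M22, g * x * g⁻¹ = h * x * h⁻¹ := by
  have hC := H8.GC.std
  have e : H7.fs 8388609 = {none, some 0} := by decide +kernel
  have m : ∀ x, x ∈ Spor.M22 ↔ x ∈ M24 ∧ x none = none ∧ x (some 0) = some 0 := fun x => and_assoc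
  have g1 : g⁻¹ none = some 0 := by rw [← h₂]; simp
  have g2 : g⁻¹ (some 0) = none := by rw [← h₁]; simp
  refine ⟨?_, fun x hx => ?_, fun ⟨h, hh, H⟩ => ?_⟩
  · have le : Spor.M22 ≤ M24 ⊓ MulAction.stabilizer (Equiv.Perm GolayPt) ({none, some 0} : Finset GolayPt) := fun x hx =>
      ⟨hx.1.1, by
        show x • ({none, some 0} : Finset GolayPt) = _
        rw [Finset.smul_finset_insert, Finset.smul_finset_singleton]
        show ({x none, x (some 0)} : Finset GolayPt) = _
        rw [((m x).1 hx).2.1, ((m x).1 hx).2.2]⟩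
    have := (Spor.M22.subgroupOf (M24 ⊓ MulAction.stabilizer (Equiv.Perm GolayPt) ({none, some 0} : Finset GolayPt))).card_mul_index
    rw [← H8.card_up le rfl, ← Nat.card_congr H7.eM22.toEquiv, H7.card_H22, H8.card_up (S := H8.SM M24 H7.gC [] [8388609] []) inf_le_left
      (Subgroup.ext fun g => by simp [H8.mem_SM, Subgroup.mem_subgroupOf, ← e]; rfl), H8.GE.ducard hC] at this
    unfold Subgroup.relIndex; omega
  · rw [m] at hx ⊢
    exact ⟨mul_mem (mul_mem hg hx.1) (inv_mem hg), by simp only [Equiv.Perm.mul_apply, g1, hx.2.2, h₂],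
      by simp only [Equiv.Perm.mul_apply, g2, hx.2.1, h₁]⟩
  have hc : h⁻¹ * g ∈ M24 := mul_mem (inv_mem hh.1.1) hg
  have c1 : (h⁻¹ * g) none = some 0 := by rw [Equiv.Perm.mul_apply, h₁, Equiv.Perm.inv_eq_iff_eq, ((m h).1 hh).2.2]
  have c2 : (h⁻¹ * g) (some 0) = none := by rw [Equiv.Perm.mul_apply, h₂, Equiv.Perm.inv_eq_iff_eq, ((m h).1 hh).2.1]
  have cm : ∀ x ∈ Spor.M22, h⁻¹ * g * x = x * (h⁻¹ * g) := fun x hx => by
    rw [mul_assoc, eq_mul_of_mul_inv_eq (H x hx)]; group
  generalize h⁻¹ * g = c at hc c1 c2 cm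
  have := H8.eq_one_of_base (g := (⟨c, hc⟩ : M24)) hC.n (hC.ch H8.GE.m11c).base (a := 8388609 ^^^ H7.ones 24) (by decide +kernel) fun p hp => by
    rw [H8.compl_fs hC.n (a := 8388609) rfl] at hp
    change p ∉ H7.fs _ at hp
    rw [e, Finset.mem_insert, Finset.mem_singleton, not_or] at hp
    by_contra h
    have a1 : c p ≠ none := fun e => hp.2 (c.injective (e.trans c2.symm))
    have a2 : c p ≠ some 0 := fun e => hp.1 (c.injective (e.trans c1.symm))
    obtain ⟨q, -, hq⟩ := Finset.exists_mem_notMem_of_card_lt_card (s := {none, some 0, p, c p}) (t := Finset.univ)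
      (Finset.card_le_four.trans_lt (by simp))
    simp only [Finset.mem_insert, Finset.mem_singleton, not_or] at hq
    have h : c p ≠ p := h
    obtain ⟨x, hx⟩ := H7.k_trans (k := 4) (by norm_num) ![none, some 0, p, c p] ![none, some 0, p, q]
      (List.nodup_ofFn.1 (by simp [a1.symm, a2.symm, h.symm, Ne.symm hp.1, Ne.symm hp.2]))
      (List.nodup_ofFn.1 (by simp [Ne.symm hq.1, Ne.symm hq.2.1, Ne.symm hq.2.2.1, Ne.symm hp.1, Ne.symm hp.2]))
    have := congrArg (· p) (cm x ((m x).2 ⟨x.2, hx 0, hx 1⟩))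
    simp only [Equiv.Perm.mul_apply] at this
    rw [show x.1 p = p from hx 2, show x.1 (c p) = q from hx 3] at this
    exact hq.2.2.2 this.symm
  rw [show c = 1 from congrArg Subtype.val this] at c1
  cases c1

end Cfsg.Agent.S5599
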