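import Cfsg.Statements.S5601
import Cfsg.Agent.H8.GD
-- import your own Cfsg.Agent.* helpers here

set_option autoImplicit false
set_option maxRecDepth 200000
open scoped Pointwise
open Cfsg

namespace Cfsg.Agent.S5601

/-- The group of the length-24 code has exactly two conjugacy classes of subgroups of order 3: a subgroup of order 3 fixes either exactly 6 of the 24 points or none of them, both cases occur, and two subgroups of order 3 with the same number of fixed points are conjugate. -/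
theorem result : (∀ X : Subgroup ↥Cfsg.M24, Nat.card X = 3 → {p : Cfsg.GolayPt | ∀ x ∈ X, ((x : ↥Cfsg.M24) : Equiv.Perm Cfsg.GolayPt) p = p}.ncard = 6 ∨ {p : Cfsg.GolayPt | ∀ x ∈ X, ((x : ↥Cfsg.M24) : Equiv.Perm Cfsg.GolayPt) p = p}.ncard = 0) ∧ (∃ X : Subgroup ↥Cfsg.M24, Nat.card X = 3 ∧ {p : Cfsg.GolayPt | ∀ x ∈ X, ((x : ↥Cfsg.M24) : Equiv.Perm Cfsg.GolayPt) p = p}.ncard = 6) ∧ (∃ X : Subgroup ↥Cfsg.M24, Nat.card X = 3 ∧ {p : Cfsg.GolayPt | ∀ x ∈ X, ((x : ↥Cfsg.M24) : Equiv.Perm Cfsg.GolayPt) p = p}.ncard = 0) ∧ ∀ X Y : Subgroup ↥Cfsg.M24, Nat.card X = 3 → Nat.card Y = 3 → {p : Cfsg.GolayPt | ∀ x ∈ X, ((x : ↥Cfsg.M24) : Equiv.Perm Cfsg.GolayPt) p = p}.ncard = {p : Cfsg.GolayPt | ∀ x ∈ Y, ((x : ↥Cfsg.M24) : Equiv.Perm Cfsg.GolayPt) p = p}.ncard → ∃ k : ↥Cfsg.M24, MulAut.conj k • X = Y := by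
  have hC := H8.GC.std
  have key : ∀ {C x f}, H8.GC C → H8.RepF 24 C.dec f x →
      {p : GolayPt | ∀ y ∈ Subgroup.zpowers x, ((y : M24) : Equiv.Perm GolayPt) p = p}.ncard = H7.pc24 (H8.fxP 24 f) := fun hC r => by
    rw [← H8.fixncard hC.n r]; congr 1; ext p; exact H8.fix_zp _ p
  have a : H7.pc24 (H8.fxP 24 H8.z3a) = 6 := by decide +kernel
  have b : H7.pc24 (H8.fxP 24 H8.z3b) = 0 := by decide +kernel
  refine ⟨fun X hX => ?_, ?_, ?_, fun X Y hX hY e => ?_⟩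
  · obtain ⟨x, hx, rfl⟩ := H8.exists_zp (by norm_num) hX
    obtain ⟨C, hC, r | r⟩ := H8.GB.cls3 x hx
    exacts [.inl ((key hC r).trans a), .inr ((key hC r).trans b)]
  · obtain ⟨x, r⟩ := hC.ex (f := H8.z3a) (by decide +kernel)
    exact ⟨_, (Nat.card_zpowers x).trans (hC.ord r (by decide +kernel)), (key hC r).trans a⟩
  · obtain ⟨x, r⟩ := hC.ex (f := H8.z3b) (by decide +kernel)
    exact ⟨_, (Nat.card_zpowers x).trans (hC.ord r (by decide +kernel)), (key hC r).trans b⟩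
  obtain ⟨x, hx, rfl⟩ := H8.exists_zp (by norm_num) hX
  obtain ⟨y, hy, rfl⟩ := H8.exists_zp (by norm_num) hY
  obtain ⟨C, hC, r | r⟩ := H8.GB.cls3 x hx <;> obtain ⟨C', hC', r' | r'⟩ := H8.GB.cls3 y hy
  · exact (hC.conj hC' r r').imp fun _ => H8.conj_zp
  · rw [key hC r, key hC' r'] at e; exact absurd ((a.symm.trans e).trans b) (by decide)
  · rw [key hC r, key hC' r'] at e; exact absurd ((b.symm.trans e).trans a) (by decide)
  · exact (hC.conj hC' r r').imp fun _ => H8.conj_zp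

end Cfsg.Agent.S5601
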