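import Cfsg.Statements.S5604
import Cfsg.Agent.H8.GH
-- import your own Cfsg.Agent.* helpers here

set_option autoImplicit false
set_option maxRecDepth 200000
open scoped Pointwise
open Cfsg

namespace Cfsg.Agent.S5604

/-- For a subgroup S of order 7 of the group of the length-24 code (a Sylow 7-subgroup): the normaliser of S has order 126, the centraliser of S has order 42 and is non-abelian, and the whole normaliser leaves some trio invariant. (These are the orders of a Frobenius group of order 21 times a symmetric group of degree 3; the isomorphism type itself is not asserted here.) -/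
theorem result (S : Subgroup ↥Cfsg.M24) (hS : Nat.card S = 7) : Nat.card ↥(Subgroup.normalizer (S : Set ↥Cfsg.M24)) = 126 ∧ Nat.card ↥(Subgroup.centralizer (S : Set ↥Cfsg.M24)) = 42 ∧ (∃ x ∈ Subgroup.centralizer (S : Set ↥Cfsg.M24), ∃ y ∈ Subgroup.centralizer (S : Set ↥Cfsg.M24), x * y ≠ y * x) ∧ ∃ T ∈ Cfsg.trios, ∀ n ∈ Subgroup.normalizer (S : Set ↥Cfsg.M24), ((n : ↥Cfsg.M24) : Equiv.Perm Cfsg.GolayPt) • T = T := by
  obtain ⟨C, x, hC, r, h, rfl⟩ := H8.GC.sylz (f := H8.ap 5 31 H8.GH.x7) (by norm_num) (by decide +kernel) (by norm_num) hS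
  have N := H8.GH.n7ch hC r h
  have K := H8.GH.c7ch hC r
  rw [show Subgroup.centralizer (Subgroup.zpowers x : Set M24) = Subgroup.centralizer {x} by
    rw [Subgroup.zpowers_eq_closure, Subgroup.centralizer_closure]]
  refine ⟨N.card.trans (by decide +kernel), K.card.trans (by decide +kernel), ⟨_, (K.lets.e 1).2, _, (K.lets.e 0).2, fun e => ?_⟩,
    H8.fam C H8.GH.t7, hC.tr (by decide +kernel) (by decide +kernel), N.sub_le (K := MulAction.stabilizer M24 (H8.fam C H8.GH.t7)) fun y _ =>
      H8.fxF_fam hC.n (N.lets.rep y) (H8.Tr.all_get H8.GH.n7t y)⟩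
  exact H8.bnot_eq_true.1 H8.GH.c7n ((K.eqw _ _).2 (Subtype.ext (by simpa [H8.ev] using e)))

end Cfsg.Agent.S5604
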