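import Cfsg.Statements.S5605
import Cfsg.Agent.H8.GD
-- import your own Cfsg.Agent.* helpers here

set_option autoImplicit false
set_option maxRecDepth 200000
open scoped Pointwise
open Cfsg

namespace Cfsg.Agent.S5605

/-- An involution of the group of the length-24 code with exactly 8 fixed points maps to themselves exactly 71 octads, exactly 99 trios and exactly 91 sextets. -/
theorem result (g : Equiv.Perm Cfsg.GolayPt) (hg : g ∈ Cfsg.M24) (h₂ : orderOf g = 2) (h₈ : (Finset.univ.filter fun p => g p = p).card = 8) : {o : Finset Cfsg.GolayPt | o ∈ Cfsg.octads ∧ g • o = o}.ncard = 71 ∧ {T : Finset (Finset Cfsg.GolayPt) | T ∈ Cfsg.trios ∧ g • T = T}.ncard = 99 ∧ {S : Finset (Finset Cfsg.GolayPt) | S ∈ Cfsg.sextets ∧ g • S = S}.ncard = 91 := by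
  obtain ⟨C, hC, r⟩ := H8.cls2a (x := ⟨g, hg⟩) (by rwa [Subgroup.orderOf_mk]) (H8.hasfix h₈)
  have r : H8.RepF 24 C.dec H8.z2a g := r
  rw [hC.cntO r, hC.cntT r, hC.cntS r]
  exact ⟨by decide +kernel, by decide +kernel, by decide +kernel⟩

end Cfsg.Agent.S5605
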