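import Cfsg.Statements.S5607
import Cfsg.Agent.H8.GH
-- import your own Cfsg.Agent.* helpers here

set_option autoImplicit false
set_option maxRecDepth 200000
open scoped Pointwise
open Cfsg

namespace Cfsg.Agent.S5607

/-- For a fixed-point-free involution t of the group of the length-24 code: its centraliser in that group has order 7680, is transitive on the 24 points, and is contained, together with t, in the stabiliser of some sextet. -/
theorem result (t : Equiv.Perm Cfsg.GolayPt) (ht : t ∈ Cfsg.M24) (h₂ : orderOf t = 2) (h₀ : ∀ p, t p ≠ p) : Nat.card {c : Equiv.Perm Cfsg.GolayPt // c ∈ Cfsg.M24 ∧ c * t = t * c} = 7680 ∧ (∀ p q : Cfsg.GolayPt, ∃ c ∈ Cfsg.M24, c * t = t * c ∧ c p = q) ∧ ∃ S ∈ Cfsg.sextets, t • S = S ∧ ∀ c ∈ Cfsg.M24, c * t = t * c → c • S = S := by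
  obtain ⟨C, hC, r⟩ := H8.cls2b (x := ⟨t, ht⟩) (by rwa [Subgroup.orderOf_mk]) h₀
  have K := H8.GH.cbch hC r
  have e : ∀ g : M24, (g : Equiv.Perm GolayPt) * t = t * g ↔ g ∈ Subgroup.centralizer {(⟨t, ht⟩ : M24)} := fun g => by
    rw [Subgroup.mem_centralizer_singleton_iff, Subtype.ext_iff]; rfl
  have h := K.sub_le (K := MulAction.stabilizer M24 (H8.fam C H8.GH.sb)) fun y _ =>
      H8.fxF_fam hC.n (K.lets.rep y) (H8.Tr.all_get H8.GH.cbs y)
  refine ⟨(H8.card_sub1 _ _ e).trans (K.card.trans (by decide +kernel)), fun p q => ?_, H8.fam C H8.GH.sb,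
    hC.sx (by decide +kernel) (by decide +kernel), h (x := ⟨t, ht⟩) ((e _).1 rfl), fun c hc h' => h (x := ⟨c, hc⟩) ((e _).1 h')⟩
  obtain ⟨g, hg⟩ := K.lets.tup hC.n K.tch (fun g => by rw [H8.fs_ones' hC.n, Finset.smul_finset_univ]) H8.GH.cbm1 (t := 1) rfl (fun _ => p) (fun _ => q)
    (Function.injective_of_subsingleton _) (Function.injective_of_subsingleton _) (by simp [H8.fs_ones' hC.n]) (by simp [H8.fs_ones' hC.n])
  exact ⟨g.1, g.1.2, (e _).2 g.2, hg 0⟩

end Cfsg.Agent.S5607
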