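import Cfsg.Statements.S5608
import Cfsg.Agent.H8.GH
-- import your own Cfsg.Agent.* helpers here

set_option autoImplicit false
set_option maxRecDepth 200000
open scoped Pointwise
open Cfsg

namespace Cfsg.Agent.S5608

/-- If an element of order 3 and an involution of the group of the length-24 code commute, then either the element of order 3 has exactly 6 fixed points and the involution exactly 8, or both are fixed-point-free. -/
theorem result (x s : Equiv.Perm Cfsg.GolayPt) (hx : x ∈ Cfsg.M24) (hs : s ∈ Cfsg.M24) (h₃ : orderOf x = 3) (h₂ : orderOf s = 2) (hc : Commute x s) : ((Finset.univ.filter fun p => x p = p).card = 6 ∧ (Finset.univ.filter fun p => s p = p).card = 8) ∨ ((Finset.univ.filter fun p => x p = p).card = 0 ∧ (Finset.univ.filter fun p => s p = p).card = 0) := by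
  have h : (⟨s, hs⟩ : M24) ∈ Subgroup.centralizer {(⟨x, hx⟩ : M24)} := Subgroup.mem_centralizer_singleton_iff.2 (Subtype.ext hc.symm)
  have o : orderOf (⟨_, h⟩ : Subgroup.centralizer {(⟨x, hx⟩ : M24)}) = 2 := by rwa [Subgroup.orderOf_mk, Subgroup.orderOf_mk]
  by_cases e : ∀ p, x p ≠ p
  · obtain ⟨C, hC, r⟩ := H8.cls3b (x := ⟨x, hx⟩) (by rwa [Subgroup.orderOf_mk]) e
    obtain ⟨f, r', e'⟩ := H8.GH.c3ba hC r _ o
    exact .inr ⟨(H8.fixcard hC.n r _ fun _ => .rfl).trans (by decide +kernel), (H8.fixcard hC.n r' _ fun _ => .rfl).trans e'⟩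
  · obtain ⟨C, hC, r⟩ := H8.cls3a (x := ⟨x, hx⟩) (by rwa [Subgroup.orderOf_mk]) e
    obtain ⟨f, r', e'⟩ := H8.GH.c3aa hC r _ o
    exact .inl ⟨(H8.fixcard hC.n r _ fun _ => .rfl).trans (by decide +kernel), (H8.fixcard hC.n r' _ fun _ => .rfl).trans e'⟩

end Cfsg.Agent.S5608
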