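import Cfsg.Statements.S5609
import Cfsg.Agent.H8.GK
-- import your own Cfsg.Agent.* helpers here

set_option autoImplicit false
set_option maxRecDepth 200000
open scoped Pointwise
open Cfsg

namespace Cfsg.Agent.S5609

theorem adj {a b : octads} : (blockGraph octads).Adj a b ↔ Disjoint a.1 b.1 := by
  rw [blockGraph, SimpleGraph.fromRel_adj]
  refine ⟨fun h => h.2.elim id fun h => h.symm, fun h => ⟨fun e => ?_, .inl h⟩⟩
  have := a.2.2
  rw [← e, disjoint_self] at h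
  rw [h] at this; cases this

theorem k {o o' : Finset GolayPt} (ho : o ∈ octads) (ho' : o' ∈ octads) (hne : o ≠ o') :
    ((o ∩ o').card = 0 ∧ (blockGraph octads).dist ⟨o, ho⟩ ⟨o', ho'⟩ = 1) ∨ ((o ∩ o').card = 4 ∧ (blockGraph octads).dist ⟨o, ho⟩ ⟨o', ho'⟩ = 2) ∨
      ((o ∩ o').card = 2 ∧ (blockGraph octads).dist ⟨o, ho⟩ ⟨o', ho'⟩ = 3) := by
  have h1 := H7.weights (H7.symmDiff_mem ho.1 ho'.1)
  have h2 := H7.card_symmDiff_add o o'
  have h3 := mt (H7.octad_unique ho ho') hne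
  have na : (o ∩ o').card ≠ 0 → ¬ (blockGraph octads).Adj ⟨o, ho⟩ ⟨o', ho'⟩ := fun h e =>
    h (by rw [Finset.disjoint_iff_inter_eq_empty.1 (adj.1 e)]; rfl)
  have ne : (⟨o, ho⟩ : octads) ≠ ⟨o', ho'⟩ := fun e => hne (congrArg Subtype.val e)
  rw [ho.2, ho'.2] at h2
  rcases show (o ∩ o').card = 0 ∨ (o ∩ o').card = 4 ∨ (o ∩ o').card = 2 by omega with h | h | h
  · exact .inl ⟨h, SimpleGraph.dist_eq_one_iff_adj.2 (adj.2 (Finset.disjoint_iff_inter_eq_empty.2 (Finset.card_eq_zero.1 h)))⟩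
  · obtain ⟨C, hC, rfl, rfl⟩ := H8.wOO ho ho' (a := 10558) (by decide +kernel) (h.trans (by decide +kernel))
    refine .inr (.inl ⟨h, ?_⟩)
    rw [SimpleGraph.dist, SimpleGraph.edist_eq_two_iff.2 ⟨ne, na (by omega), ⟨C.fs 8077824, (hC.oct' (by norm_num)).2 (by decide +kernel)⟩,
      adj.2 ((H8.disj_fs hC.n _ (by norm_num)).2 (by decide)), adj.2 ((H8.disj_fs hC.n _ (by norm_num)).2 (by decide))⟩]; rfl
  · obtain ⟨C, hC, rfl, rfl⟩ := H8.wOO ho ho' (a := 31554) (by decide +kernel) (h.trans (by decide +kernel))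
    refine .inr (.inr ⟨h, ?_⟩)
    let w : (blockGraph octads).Walk ⟨_, ho⟩ ⟨_, ho'⟩ := .cons (v := ⟨C.fs 1009728, (hC.oct' (by norm_num)).2 (by decide +kernel)⟩)
      (adj.2 ((H8.disj_fs hC.n _ (by norm_num)).2 (by decide))) (.cons (v := ⟨C.fs 5275709, (hC.oct' (by norm_num)).2 (by decide +kernel)⟩)
      (adj.2 ((H8.disj_fs hC.n _ (by norm_num)).2 (by decide))) (.cons (adj.2 ((H8.disj_fs hC.n _ (by norm_num)).2 (by decide))) .nil))
    have a : _ ≤ 3 := SimpleGraph.dist_le w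
    have b := w.reachable.one_lt_dist_of_ne_of_not_adj ne (na (by omega))
    have c : (blockGraph octads).dist ⟨_, ho⟩ ⟨_, ho'⟩ ≠ 2 := fun e => by
      obtain ⟨⟨x, hx⟩, e1, e2⟩ := (SimpleGraph.edist_eq_two_iff.1 ((ENat.toNat_eq_iff (by norm_num)).1 e)).2.2
      obtain ⟨y, hy, rfl⟩ := hC.blk.symm ▸ hx
      have := H8.msk_lt H8.StC.om y hy
      have := H8.allL_iff.1 (show (H8.allL H8.StB.oL fun y => H8.bnot (Nat.beq (Nat.land (5279 ||| 31554) y) 0)) = true by decide +kernel) y hy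
      rw [H8.bnot_eq_true, Nat.beq_eq] at this
      exact this ((H8.disj_fs hC.n _ ‹_›).1 (C.fs_or _ _ ▸ Finset.disjoint_union_left.2 ⟨adj.1 e1, adj.1 e2⟩))
    omega

/-- In the graph on the 759 octads of the length-24 code in which two octads are adjacent when they are disjoint, the graph is connected (of diameter 3) and two distinct octads are at distance 1, 2 or 3 exactly when they meet in 0, 4 or 2 points respectively. -/
theorem result (o o' : Finset Cfsg.GolayPt) (ho : o ∈ Cfsg.octads) (ho' : o' ∈ Cfsg.octads) (hne : o ≠ o') : (Cfsg.blockGraph Cfsg.octads).Connected ∧ ((Cfsg.blockGraph Cfsg.octads).dist ⟨o, ho⟩ ⟨o', ho'⟩ = 1 ↔ (o ∩ o').card = 0) ∧ ((Cfsg.blockGraph Cfsg.octads).dist ⟨o, ho⟩ ⟨o', ho'⟩ = 2 ↔ (o ∩ o').card = 4) ∧ ((Cfsg.blockGraph Cfsg.octads).dist ⟨o, ho⟩ ⟨o', ho'⟩ = 3 ↔ (o ∩ o').card = 2) := by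
  refine ⟨@SimpleGraph.Connected.mk _ _ (fun a b => ?_) ⟨⟨o, ho⟩⟩, by have := k ho ho' hne; omega⟩
  by_cases e : a = b
  · exact e ▸ .refl _
  · have := k a.2 b.2 fun e' => e (Subtype.ext e')
    exact .of_dist_ne_zero (show (blockGraph octads).dist ⟨a, a.2⟩ ⟨b, b.2⟩ ≠ 0 by omega)

end Cfsg.Agent.S5609
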