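import Cfsg.Statements.S5613
import Cfsg.Agent.H8.GE
-- import your own Cfsg.Agent.* helpers here

set_option autoImplicit false
set_option maxRecDepth 200000
open scoped Pointwise
open Cfsg

namespace Cfsg.Agent.S5613

/-- In the group of the length-24 code, the joint stabiliser of two octads has order 10752, 1152 or 720 according as the octads meet in 0, 4 or 2 points. -/
theorem result (o o' : Finset Cfsg.GolayPt) (ho : o ∈ Cfsg.octads) (ho' : o' ∈ Cfsg.octads) : ((o ∩ o').card = 0 → Nat.card ↥(MulAction.stabilizer Cfsg.M24 o ⊓ MulAction.stabilizer Cfsg.M24 o') = 10752) ∧ ((o ∩ o').card = 4 → Nat.card ↥(MulAction.stabilizer Cfsg.M24 o ⊓ MulAction.stabilizer Cfsg.M24 o') = 1152) ∧ ((o ∩ o').card = 2 → Nat.card ↥(MulAction.stabilizer Cfsg.M24 o ⊓ MulAction.stabilizer Cfsg.M24 o') = 720) := by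
  have e : ∀ (C : H7.Coding GolayPt) a, MulAction.stabilizer M24 (C.fs 5279) ⊓ MulAction.stabilizer M24 (C.fs a) = H8.SM M24 C [] [5279, a] [] :=
    fun C a => Subgroup.ext fun g => by simp [H8.mem_SM]
  refine ⟨fun h => ?_, fun h => ?_, fun h => ?_⟩
  · obtain ⟨C, hC, rfl, rfl⟩ := H8.wOO ho ho' (a := 1009728) (by decide +kernel) (h.trans (by decide +kernel))
    rw [e, H8.GE.oo0card hC]
  · obtain ⟨C, hC, rfl, rfl⟩ := H8.wOO ho ho' (a := 10558) (by decide +kernel) (h.trans (by decide +kernel))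
    rw [e, H8.GE.oo4card hC]
  · obtain ⟨C, hC, rfl, rfl⟩ := H8.wOO ho ho' (a := 31554) (by decide +kernel) (h.trans (by decide +kernel))
    rw [e, H8.GE.oo2card hC]

end Cfsg.Agent.S5613
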