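import Cfsg.Statements.S5614
import Cfsg.Agent.H8.GE
-- import your own Cfsg.Agent.* helpers here

set_option autoImplicit false
set_option maxRecDepth 200000
open scoped Pointwise
open Cfsg

namespace Cfsg.Agent.S5614

/-- In the group of the length-24 code, the joint stabiliser of two octads meeting in exactly two points is isomorphic to the symmetric group of degree 6. -/
theorem result (o o' : Finset Cfsg.GolayPt) (ho : o ∈ Cfsg.octads) (ho' : o' ∈ Cfsg.octads) (h₂ : (o ∩ o').card = 2) : Nonempty (↥(MulAction.stabilizer Cfsg.M24 o ⊓ MulAction.stabilizer Cfsg.M24 o') ≃* Equiv.Perm (Fin 6)) := by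
  obtain ⟨C, hC, rfl, rfl⟩ := H8.wOO ho ho' (a := 31554) (by decide +kernel) (h₂.trans (by decide +kernel))
  rw [show MulAction.stabilizer M24 (C.fs 5279) ⊓ MulAction.stabilizer M24 (C.fs 31554) = H8.SM M24 C [] [5279, 31554] [] from
    Subgroup.ext fun g => by simp [H8.mem_SM]]
  exact (H8.GE.oo2i hC).map .symm

end Cfsg.Agent.S5614
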