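import Cfsg.Statements.S5615
import Cfsg.Agent.H8.GE
-- import your own Cfsg.Agent.* helpers here

set_option autoImplicit false
set_option maxRecDepth 200000
open scoped Pointwise
open Cfsg

namespace Cfsg.Agent.S5615

theorem w {o : Finset GolayPt} (ho : o ∈ octads) {T₁ T₂ : Finset (Finset GolayPt)} (h1 : T₁ ∈ trios) (h2 : T₂ ∈ trios) (h3 : o ∈ T₁)
    (h4 : o ∈ T₂) (h5 : T₁ ≠ T₂) : ∃ C, H8.GC C ∧ C.fs 5279 = o ∧ H8.fam C H8.tr0 = T₁ ∧ H8.fam C [5279, 1256224, 15515712] = T₂ := by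
  obtain ⟨C, hC, rfl⟩ := H8.wO ho
  obtain ⟨x, hx, a, rfl⟩ := (H8.GB.trL hC).ex h1
  have b := H8.allL_iff.1 H8.GE.t1c x hx
  rw [H8.bor_eq_true, H8.bnot_eq_true, H8.memL_iff, ← H8.fs_mem_fam hC.n a (by norm_num)] at b
  obtain ⟨C', ⟨hC', -, e, -⟩, -, e'⟩ := hC.wlW H8.GE.t1e (H8.GE.t1W.get x)
  have e1 := e' H8.tr0 _ (by decide +kernel) a rfl (b.resolve_left (not_not.2 h3))
  have e2 := e 5279 (by simp)
  rw [← e1] at h5 ⊢
  rw [← e2] at h4 ⊢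
  clear e e' e1 e2 b a hx hC h3 h1 ho C x
  obtain ⟨x, hx, a, rfl⟩ := (H8.GB.trL hC').ex h2
  have b := H8.allL_iff.1 H8.GE.t2c x hx
  rw [H8.bor_eq_true, H8.bor_eq_true, H8.bnot_eq_true, H8.memL_iff, ← H8.fs_mem_fam hC'.n a (by norm_num), Nat.beq_eq] at b
  obtain ⟨C, ⟨hC, -, e, e''⟩, -, e'⟩ := hC'.wlW H8.GE.t2e (H8.GE.t2W.get x)
  exact ⟨C, hC, e _ (by simp), e'' _ (by simp), e' _ _ (by decide +kernel) a rfl (b.resolve_left fun h => h.elim (· h4) fun h =>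
    h5 (congrArg _ (by rw [h]; decide +kernel)))⟩

/-- An octad of the length-24 code lies in exactly 15 trios; the stabiliser of the octad in the code's group acts doubly transitively on these 15 trios, and the kernel of this action is the pointwise stabiliser of the octad. -/
theorem result (o : Finset Cfsg.GolayPt) (ho : o ∈ Cfsg.octads) : {T : Finset (Finset Cfsg.GolayPt) | T ∈ Cfsg.trios ∧ o ∈ T}.ncard = 15 ∧ (∀ T₁ T₂ T₁' T₂' : Finset (Finset Cfsg.GolayPt), T₁ ∈ Cfsg.trios → T₂ ∈ Cfsg.trios → T₁' ∈ Cfsg.trios → T₂' ∈ Cfsg.trios → o ∈ T₁ → o ∈ T₂ → o ∈ T₁' → o ∈ T₂' → T₁ ≠ T₂ → T₁' ≠ T₂' → ∃ g ∈ Cfsg.M24, g • o = o ∧ g • T₁ = T₁' ∧ g • T₂ = T₂') ∧ ∀ g ∈ Cfsg.M24, g • o = o → ((∀ T ∈ Cfsg.trios, o ∈ T → g • T = T) ↔ ∀ p ∈ o, g p = p) := by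
  refine ⟨?_, fun T₁ T₂ T₁' T₂' a b c d e f g h i j => ?_, fun g hg h => ?_⟩
  · obtain ⟨C, hC, rfl⟩ := H8.wO ho
    exact ((H8.GB.trL hC).ncard _ (fun x => H8.memL (H8.unp 3 x) 5279) fun x _ a => by
      rw [H8.memL_iff, H8.fs_mem_fam hC.n a (by norm_num)]).trans (by decide +kernel)
  · obtain ⟨C, hC, e1, rfl, rfl⟩ := w ho a b e f i
    obtain ⟨C', hC', e2, rfl, rfl⟩ := w ho c d g h j
    obtain ⟨k, -, h1, h2⟩ := hC.rel' hC'
    exact ⟨k, k.2, by rw [← e1]; exact (h1 _).trans (e2.trans e1.symm), h2 _, h2 _⟩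
  obtain ⟨C, hC, rfl⟩ := H8.wO ho
  refine Iff.trans ⟨fun h' => ?_, fun h' T hT h'' => ?_⟩ (H8.fixS_iff (g := (⟨g, hg⟩ : M24)) hC.n (ps := [0, 1, 2, 3, 4, 7, 10, 12]) (by decide)).symm
  · refine (H8.GE.t4ch hC).sub_le (fun y _ => H8.sfx_spec hC.n ((H8.GE.t4ch hC).lets.rep y) (H8.Tr.all_get H8.GE.t4q y))
      ⟨by simp, by simpa using h, fun l hl => ?_⟩
    have := H8.allL_iff.1 (show (H8.allL H8.GE.t4l fun l => H8.band (H8.mskC 24 l) (H8.band (H8.trC l) (H8.memL l 5279))) = true by decide +kernel) l hl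
    simp only [H8.band_eq_true, H8.memL_iff] at this
    exact h' _ (hC.tr this.1 this.2.1) (H8.mem_fam.2 ⟨_, this.2.2, rfl⟩)
  · obtain ⟨x, hx, a, rfl⟩ := (H8.GB.trL hC).ex hT
    have b := H8.allL_iff.1 H8.GE.t3c x hx
    rw [H8.bor_eq_true, H8.bnot_eq_true, H8.memL_iff, ← H8.fs_mem_fam hC.n a (by norm_num)] at b
    exact (H8.GE.foch hC).sub_le (K := MulAction.stabilizer M24 (H8.fam C (H8.unp 3 x))) (fun y _ => H8.fxF_fam hC.n
      ((H8.GE.foch hC).lets.rep y) (H8.Tr.all_get (b.resolve_left (not_not.2 h'')) y)) h'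

end Cfsg.Agent.S5615
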