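import Cfsg.Statements.S5616
import Cfsg.Agent.H8.GE
-- import your own Cfsg.Agent.* helpers here

set_option autoImplicit false
set_option maxRecDepth 200000
open scoped Pointwise
open Cfsg

namespace Cfsg.Agent.S5616

/-- Let Y be a set of 3 of the 24 points. The sextets of the length-24 code whose tetrads meeting Y number 1, 2 or 3 are respectively 21, 630 and 1120 in number, and two sextets with the same number of tetrads meeting Y are conjugate under the setwise stabiliser of Y in the code's group. -/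
theorem result (Y : Finset Cfsg.GolayPt) (hY : Y.card = 3) : {S : Finset (Finset Cfsg.GolayPt) | S ∈ Cfsg.sextets ∧ (S.filter fun t => (t ∩ Y).Nonempty).card = 1}.ncard = 21 ∧ {S : Finset (Finset Cfsg.GolayPt) | S ∈ Cfsg.sextets ∧ (S.filter fun t => (t ∩ Y).Nonempty).card = 2}.ncard = 630 ∧ {S : Finset (Finset Cfsg.GolayPt) | S ∈ Cfsg.sextets ∧ (S.filter fun t => (t ∩ Y).Nonempty).card = 3}.ncard = 1120 ∧ ∀ S S' : Finset (Finset Cfsg.GolayPt), S ∈ Cfsg.sextets → S' ∈ Cfsg.sextets → (S.filter fun t => (t ∩ Y).Nonempty).card = (S'.filter fun t => (t ∩ Y).Nonempty).card → ∃ g ∈ Cfsg.M24, g • Y = Y ∧ g • S = S' := by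
  obtain ⟨C, hC, rfl⟩ := H8.wSet (s := Y) 7 (by rw [hY]; decide +kernel) (by omega)
  have c : ∀ x, H8.mskC 24 (H8.unp 6 x) = true → ((H8.fam C (H8.unp 6 x)).filter fun t => (t ∩ C.fs 7).Nonempty).card = H8.GE.y6n x :=
    fun x a => H8.card_filter_fam hC.n a _ _ fun b _ _ => by
      rw [H8.bnot_eq_true, Nat.beq_eq, Finset.nonempty_iff_ne_empty, ne_eq, ← Finset.disjoint_iff_inter_eq_empty,
        H8.disj_fs hC.n _ (by norm_num)]; rfl
  have n : ∀ i, {S | S ∈ sextets ∧ (S.filter fun t => (t ∩ C.fs 7).Nonempty).card = i}.ncard = H8.cntL H8.GB.sxP fun x => Nat.beq (H8.GE.y6n x) i :=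
    fun i => (H8.GB.sxL hC).ncard _ _ fun x _ a => by rw [c x a, Nat.beq_eq]
  refine ⟨(n 1).trans (by decide +kernel), (n 2).trans (by decide +kernel), (n 3).trans (by decide +kernel), fun S S' h1 h2 h3 => ?_⟩
  obtain ⟨x, hx, a, rfl⟩ := (H8.GB.sxL hC).ex h1
  obtain ⟨y, hy, b, rfl⟩ := (H8.GB.sxL hC).ex h2
  rw [c x a, c y b] at h3
  have u := H8.allL_iff.1 H8.GE.y6c x hx
  have v := H8.allL_iff.1 H8.GE.y6c y hy
  simp only [H8.frc_eq, H8.band_eq_true, Nat.beq_eq] at u v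
  obtain ⟨g, hg⟩ := H8.orb2 (H8.orbF hC.n (hC.sm H8.GE.y3e) u.1.1 a u.1.2 u.2) (h3 ▸ H8.orbF hC.n (hC.sm H8.GE.y3e) v.1.1 b v.1.2 v.2)
  exact ⟨g.1, g.1.2, g.2.2.1 7 (by simp), hg⟩

end Cfsg.Agent.S5616
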