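import Cfsg.Statements.S5618
import Cfsg.Agent.H8.GG
-- import your own Cfsg.Agent.* helpers here

set_option autoImplicit false
set_option maxRecDepth 200000
open scoped Pointwise
open Cfsg

namespace Cfsg.Agent.S5618

/-- For a dodecad d of the length-24 code and a hexad C on it (a 6-point intersection of d with an octad): the joint stabiliser of d and C in the code's group is isomorphic to the symmetric group of degree 6, and it acts faithfully both on the six points of C and on the six points of d outside C. -/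
theorem result (d : Finset Cfsg.GolayPt) (hd : d ∈ Cfsg.dodecads) (C : Finset Cfsg.GolayPt) (hC : C ∈ Cfsg.hexadsOn d) : Nonempty (↥(MulAction.stabilizer Cfsg.M24 d ⊓ MulAction.stabilizer Cfsg.M24 C) ≃* Equiv.Perm (Fin 6)) ∧ (∀ g ∈ MulAction.stabilizer Cfsg.M24 d ⊓ MulAction.stabilizer Cfsg.M24 C, (∀ p ∈ C, ((g : ↥Cfsg.M24) : Equiv.Perm Cfsg.GolayPt) p = p) → g = 1) ∧ ∀ g ∈ MulAction.stabilizer Cfsg.M24 d ⊓ MulAction.stabilizer Cfsg.M24 C, (∀ p ∈ d \ C, ((g : ↥Cfsg.M24) : Equiv.Perm Cfsg.GolayPt) p = p) → g = 1 := by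
  obtain ⟨D, hD, rfl, rfl⟩ := H8.wH hd hC
  clear hC
  rename' D => C, hD => hC
  rw [show MulAction.stabilizer M24 (C.fs 340831) ⊓ MulAction.stabilizer M24 (C.fs 343) =
    H8.SM M24 C [] [340831, 343] [] from Subgroup.ext fun g => by simp [H8.mem_SM], H8.sdiff_fs]
  exact ⟨(H8.GF.h1i hC).map .symm, fun g hg h => congrArg Subtype.val (H8.eq_one_of_base (g := ⟨g, hg⟩) hC.n (H8.GF.h1ch hC).base (by decide +kernel) h),
    fun g hg h => congrArg Subtype.val (H8.eq_one_of_base (g := ⟨g, hg⟩) hC.n (H8.GF.h2ch hC).base (by decide +kernel) h)⟩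

end Cfsg.Agent.S5618
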