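import Cfsg.Statements.S5619
import Cfsg.Agent.H8.GG
-- import your own Cfsg.Agent.* helpers here

set_option autoImplicit false
set_option maxRecDepth 200000
open scoped Pointwise
open Cfsg

namespace Cfsg.Agent.S5619

/-- In the group of the length-24 code, the subgroup fixing a dodecad setwise and three of its points individually (a group of order 72) has a normal Sylow 3-subgroup that is elementary abelian of order 9, and its Sylow 2-subgroups are quaternion of order 8. -/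
theorem result (d : Finset Cfsg.GolayPt) (hd : d ∈ Cfsg.dodecads) (p q r : Cfsg.GolayPt) (hp : p ∈ d) (hq : q ∈ d) (hr : r ∈ d) (hpq : p ≠ q) (hpr : p ≠ r) (hqr : q ≠ r) : (∀ Q : Sylow 3 ↥(MulAction.stabilizer Cfsg.M24 d ⊓ MulAction.stabilizer Cfsg.M24 p ⊓ MulAction.stabilizer Cfsg.M24 q ⊓ MulAction.stabilizer Cfsg.M24 r), (Q : Subgroup ↥(MulAction.stabilizer Cfsg.M24 d ⊓ MulAction.stabilizer Cfsg.M24 p ⊓ MulAction.stabilizer Cfsg.M24 q ⊓ MulAction.stabilizer Cfsg.M24 r)).Normal ∧ Nat.card ↥Q = 9 ∧ ∀ x ∈ (Q : Subgroup ↥(MulAction.stabilizer Cfsg.M24 d ⊓ MulAction.stabilizer Cfsg.M24 p ⊓ MulAction.stabilizer Cfsg.M24 q ⊓ MulAction.stabilizer Cfsg.M24 r)), x ^ 3 = 1) ∧ ∀ P : Sylow 2 ↥(MulAction.stabilizer Cfsg.M24 d ⊓ MulAction.stabilizer Cfsg.M24 p ⊓ MulAction.stabilizer Cfsg.M24 q ⊓ MulAction.stabilizer Cfsg.M24 r), Nonempty (↥P ≃* QuaternionGroup 2) := by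
  obtain ⟨C, hC, rfl, rfl, rfl, rfl⟩ := H8.wD3 hd hp hq hr hpq hpr hqr
  rw [show MulAction.stabilizer M24 (C.fs 340831) ⊓ MulAction.stabilizer M24 (C.dec 0) ⊓ MulAction.stabilizer M24 (C.dec 1) ⊓
    MulAction.stabilizer M24 (C.dec 2) = H8.SM M24 C [0, 1, 2] [340831] [] from Subgroup.ext fun g => by simp [H8.mem_SM]; tauto]
  obtain ⟨N, h1, h2, h3⟩ := H8.GF.m9a hC
  obtain ⟨K, h4, ⟨e⟩⟩ := H8.GF.m9b hC
  have : Fact (Nat.Prime 3) := ⟨by norm_num⟩
  refine ⟨fun Q => ?_, fun P => (H8.syl_iso h4 (by rw [H8.GF.m9card hC]; norm_num) P).map (·.trans e.symm)⟩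
  obtain rfl := H8.syl_eq h2 (by rw [H8.GF.m9card hC]; norm_num) h1 Q
  exact ⟨h1, h2, fun x hx => congrArg Subtype.val (h3 ⟨x, hx⟩)⟩

end Cfsg.Agent.S5619
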