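import Cfsg.Statements.S5620
import Cfsg.Agent.H8.GG
-- import your own Cfsg.Agent.* helpers here

set_option autoImplicit false
set_option maxRecDepth 200000
open scoped Pointwise
open Cfsg

namespace Cfsg.Agent.S5620

/-- Inside the stabiliser of the dodecad of squares (a Mathieu group of degree 12), the stabiliser of the residue 0 (a point of the dodecad) and the stabiliser of the extra point (a point outside the dodecad) are isomorphic but not conjugate; conjugation by a suitable element of the code's group that maps the dodecad of squares onto its complement carries the first onto the second. -/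
theorem result : Nonempty (↥(Cfsg.Spor.M12 ⊓ MulAction.stabilizer (Equiv.Perm Cfsg.GolayPt) (none : Cfsg.GolayPt)) ≃* ↥Cfsg.Spor.M11) ∧ (¬ ∃ k ∈ Cfsg.Spor.M12, MulAut.conj k • Cfsg.Spor.M11 = Cfsg.Spor.M12 ⊓ MulAction.stabilizer (Equiv.Perm Cfsg.GolayPt) (none : Cfsg.GolayPt)) ∧ ∃ g ∈ Cfsg.M24, g • Cfsg.Spor.squareDodecad = Finset.univ \ Cfsg.Spor.squareDodecad ∧ MulAut.conj g • Cfsg.Spor.M11 = Cfsg.Spor.M12 ⊓ MulAction.stabilizer (Equiv.Perm Cfsg.GolayPt) (none : Cfsg.GolayPt) := by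
  have hC := H8.GC.std
  have e : H7.gC.fs 340831 = Spor.squareDodecad := H7.squareDodecad_eq.symm
  obtain ⟨g, r⟩ := hC.ex (f := H8.ap 5 31 H8.GF.sw) (by decide +kernel)
  have h1 : g • H7.gC.fs 340831 = H7.gC.fs 16436384 := (H8.smul_fs_iff hC.n r _ (by norm_num)).2 (by decide +kernel)
  have h2 : g.1 (some 0) = none := ((r 0 (by norm_num)).2.symm.trans (by decide +kernel) : g • H7.gC.dec 0 = none)
  have h3 : MulAut.conj g.1 • Spor.M11 = Spor.M12 ⊓ MulAction.stabilizer (Equiv.Perm GolayPt) (none : GolayPt) := Subgroup.ext fun x => by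
    rw [Subgroup.mem_pointwise_smul_iff_inv_smul_mem]
    show (g.1⁻¹ * x * g.1⁻¹⁻¹ ∈ M24 ∧ (g.1⁻¹ * x * g.1⁻¹⁻¹) • Spor.squareDodecad = _) ∧ (g.1⁻¹ * x * g.1⁻¹⁻¹) • some 0 = _ ↔
      (x ∈ M24 ∧ x • Spor.squareDodecad = _) ∧ x • none = none
    rw [inv_inv, mul_mem_cancel_right g.2, mul_mem_cancel_left (inv_mem g.2), mul_smul, mul_smul, mul_smul, mul_smul, inv_smul_eq_iff,
      inv_smul_eq_iff, ← e, show g.1 • _ = _ from h1, show g.1 • _ = _ from h2, H8.fix_compl hC.n (a := 340831) (by decide)]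
  refine ⟨⟨(MulEquiv.subgroupCongr h3.symm).trans (Subgroup.equivSMul _ _).symm⟩, fun ⟨k, hk, h⟩ => ?_, g, g.2, ?_, h3⟩
  · have L := hC.sm H8.GF.abe
    have a : ∀ j, k (some 0) ∈ H7.gC.fs (H8.fxP 24 (H8.ap 5 31 (H8.GF.ab.get j))) := fun j => by
      have : (L.e j).1.1 ∈ MulAut.conj k • Spor.M11 := h ▸ ⟨⟨(L.e j).1.2, e ▸ (L.e j).2.2.1 _ (by simp)⟩, (L.e j).2.1 23 (by simp)⟩
      exact (H8.fix_iff hC.n (L.rep j) _).1 (Equiv.Perm.inv_eq_iff_eq.1 (Subgroup.mem_pointwise_smul_iff_inv_smul_mem.1 this).2)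
    have b : k (some 0) ∈ H7.gC.fs 340831 := by
      rw [e, ← show k • Spor.squareDodecad = _ from hk.2]; exact Finset.smul_mem_smul_finset (by rw [← e]; decide +kernel)
    have := Finset.mem_inter.2 ⟨Finset.mem_inter.2 ⟨a 0, a 1⟩, b⟩
    rw [← H7.Coding.fs_and, ← H7.Coding.fs_and] at this
    revert this; generalize k (some 0) = p; revert p; decide +kernel
  · rw [← e]; exact h1.trans (by decide +kernel)

end Cfsg.Agent.S5620
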