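import Cfsg.Statements.S5625
import Cfsg.Agent.H8.Stn3
-- import your own Cfsg.Agent.* helpers here

set_option autoImplicit false
set_option maxRecDepth 200000
open Cfsg

namespace Cfsg.Agent.S5625

/-- In any Steiner system S(5, 8, 24) and for any set Y of three points, the blocks meeting Y in exactly 3, 2, 1 and 0 points number 21, 168, 360 and 210 respectively (so there are 759 blocks in all). -/
theorem result (α : Type*) [Fintype α] [DecidableEq α] (hα : Fintype.card α = 24) (B : Set (Finset α)) (hB : Cfsg.IsSteinerSystem 5 8 B) (Y : Finset α) (hY : Y.card = 3) : {b : Finset α | b ∈ B ∧ (b ∩ Y).card = 3}.ncard = 21 ∧ {b : Finset α | b ∈ B ∧ (b ∩ Y).card = 2}.ncard = 168 ∧ {b : Finset α | b ∈ B ∧ (b ∩ Y).card = 1}.ncard = 360 ∧ {b : Finset α | b ∈ B ∧ (b ∩ Y).card = 0}.ncard = 210 := by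
  obtain ⟨C, hn, rfl, rfl⟩ := H8.uq24_set hα hB (b := Y) 7 (by rw [hY]; decide +kernel) (by omega)
  have key : ∀ j, {b | b ∈ H8.blk C H8.StB.oL ∧ (b ∩ C.fs 7).card = j}.ncard =
      H8.cntL H8.StB.oL fun a => Nat.beq (H7.pc24 (a &&& 7)) j := fun j =>
    H8.ncard_blkP hn H8.StC.om _ (fun _ h => h.1) fun a ha h => by
      simp [H8.card_inter' hn le_rfl a (show 7 < 2 ^ 24 by norm_num), H8.fs_mem_blk hn H8.StC.om h, ha]
  simp only [key]
  decide +kernel

end Cfsg.Agent.S5625
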