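import Cfsg.Statements.S5630
import Cfsg.Agent.H5.AsL

set_option autoImplicit false
open Cfsg

namespace Cfsg.Agent.S5630

/-- Subgroup structure of the finite linear groups in dimension at least 3. Let F be a finite field, n ≥ 3, and let H be a subgroup of SL_n(F) (the kernel of the determinant inside GL_n(F)) whose product with the scalar matrices of determinant one is not all of SL_n(F), i.e. H does not cover PSL_n(F). Then either H is contained in a member of one of the eight geometric classes of subgroups of GL_n(F) (reducible, imprimitive, extension field, tensor product, subfield, symplectic-type normaliser, tensor wreath, similarity group of a form, with the conditions built into InLinearClass), or H is in the residual class: modulo scalars it is almost simple, and the perfect preimage of its socle acts absolutely irreducibly, is realisable over no proper subfield, and fixes no non-degenerate quadratic, symplectic or unitary form. (Dimension 2, where the linear and symplectic groups coincide,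 is left to the classical list of subgroups of PSL_2.) -/
theorem result {F : Type*} [Field F] [Fintype F] (n : ℕ) (hn : 3 ≤ n) (H : Subgroup (Matrix.GeneralLinearGroup (Fin n) F)) (hH : H ≤ Cfsg.Geo.specialLinear (Fin n) F) (hproper : H ⊔ (Cfsg.Geo.scalars (Fin n) F ⊓ Cfsg.Geo.specialLinear (Fin n) F) ≠ Cfsg.Geo.specialLinear (Fin n) F) : (∃ M : Subgroup (Matrix.GeneralLinearGroup (Fin n) F), Cfsg.Geo.InLinearClass n F M ∧ H ≤ M) ∨ Cfsg.Geo.InLinearResidualClass H := by
  refine (H5.As.lin_list (by simpa using hn) H).imp_left ?_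
  rintro (⟨W, h1, h2, h⟩ | ⟨t, m, -, -, -, -, D, hD, h⟩ | ⟨r, h1, -, K, hK, h⟩ | ⟨d, k, -, h2, h4, -, e, P, h⟩ |
    ⟨F₀, r, P, h1, h2, h⟩ | ⟨r, k, -, -, S, hS, h⟩ | ⟨m, t, -, h2, h4, e, P, h⟩ | ⟨h1, Q, hQ, h⟩ | ⟨h1, f, hf, h⟩ | ⟨σ, f, hf, h⟩) <;>
    refine ⟨_, ?_, h⟩
  · exact .inl ⟨W, h1, h2, rfl⟩
  · exact .inr <| .inr <| .inr <| .inl ⟨t, m, D, hD, rfl⟩
  · exact .inr <| .inr <| .inr <| .inr <| .inl ⟨r, K, h1, hK, rfl⟩
  · exact .inr <| .inr <| .inr <| .inr <| .inr <| .inl ⟨d, k, e, P, h2, h4, rfl⟩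
  · exact .inr <| .inr <| .inr <| .inr <| .inr <| .inr <| .inl ⟨F₀, r, P, h1, h2, rfl⟩
  · exact .inr <| .inr <| .inr <| .inr <| .inr <| .inr <| .inr <| .inl ⟨r, S, hS, rfl⟩
  · exact .inr <| .inr <| .inr <| .inr <| .inr <| .inr <| .inr <| .inr <| .inl ⟨m, t, e, P, h2, h4, rfl⟩
  · exact .inr <| .inr <| .inr <| .inr <| .inr <| .inr <| .inr <| .inr <| .inr <| .inr <| .inr ⟨Q, hQ, h1, hn, rfl⟩
  · rw [Fintype.card_fin] at h1
    exact .inr <| .inr <| .inr <| .inr <| .inr <| .inr <| .inr <| .inr <| .inr <| .inl ⟨f, hf, h1, by rcases h1 with ⟨k, rfl⟩; omega, rfl⟩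
  · exact .inr <| .inr <| .inr <| .inr <| .inr <| .inr <| .inr <| .inr <| .inr <| .inr <| .inl ⟨σ, f, hf, hn, rfl⟩


end Cfsg.Agent.S5630
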