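import Cfsg.Statements.S5632
import Cfsg.Agent.H5.Mx5

set_option autoImplicit false
open Cfsg

namespace Cfsg.Agent.S5632

open H5 H5.As Module

/-- For a finite field F and subspaces 0 < W < U of F^n with dim W + dim U = n, the elements of SL_n(F) stabilising both W and U form a subgroup that is not maximal in SL_n(F): some subgroup lies strictly between it and SL_n(F). -/
theorem result {F : Type*} [Field F] [Fintype F] (n : ℕ) (W U : Submodule F (Fin n → F)) (hW0 : W ≠ ⊥) (hWU : W < U) (hdim : Module.finrank F W + Module.finrank F U = n) : ∃ K : Subgroup (Matrix.GeneralLinearGroup (Fin n) F), Cfsg.Geo.subspaceStabilizer W ⊓ Cfsg.Geo.subspaceStabilizer U ⊓ Cfsg.Geo.specialLinear (Fin n) F < K ∧ K < Cfsg.Geo.specialLinear (Fin n) F := by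
  have h1 := Submodule.finrank_lt_finrank_of_lt hWU
  have h2 := Submodule.one_le_finrank_iff.2 hW0
  refine not_max_of (M := Geo.subspaceStabilizer W) (inf_le_left.trans inf_le_left) (fun h => ?_)
    ((big_SL (by simp; omega)).stab hW0 (hWU.trans_le le_top).ne)
  obtain ⟨u, hu, nu⟩ := SetLike.exists_of_lt hWU
  obtain ⟨v, hv⟩ : ∃ v, v ∉ U := by
    by_contra! hn; rw [Submodule.eq_top_iff'.2 hn, finrank_top, finrank_fin_fun] at hdim; omega
  obtain ⟨φ, a, b⟩ := exists_dual (not_mem_exchange (fun e => hv ((sup_le hWU.le (by simpa)) e)) nu)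
  have e := b v (Submodule.mem_sup_right (Submodule.mem_span_singleton_self v))
  have := (mem_stab_up _ _).1 (h (x := glEquiv.symm (LinearEquiv.transvection e)) ⟨(mem_stab_up _ _).2 (mem_stabSub'.2 fun x hx => by
    simpa [LinearMap.transvection.apply, b x (Submodule.mem_sup_left hx)]), (mem_SL_up _).2 (by simpa using tv_mem_SLG e)⟩).2
  exact hv (by simpa [LinearMap.transvection.apply, a, U.add_mem_iff_right hu] using mem_stabSub'.1 this u hu)


end Cfsg.Agent.S5632
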