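import Cfsg.Statements.S5639
import Cfsg.Agent.H5.Sf1

set_option autoImplicit false
open Cfsg

namespace Cfsg.Agent.S5639

open H5 H5.As H5.Sf

/-- For a finite field F, a subfield F₀ with |F| = |F₀| ^ r for a prime r, and n ≥ 13, the subfield group (the conjugate by any P of the product of GL_n(F₀) with the non-zero scalars of F, intersected with SL_n(F)) is a maximal subgroup of SL_n(F). -/
theorem result {F : Type*} [Field F] [Fintype F] (n : ℕ) (hn : 13 ≤ n) (F₀ : Subfield F) (r : ℕ) (hr : r.Prime) (hcard : Fintype.card F = Nat.card F₀ ^ r) (P : Matrix.GeneralLinearGroup (Fin n) F) : Cfsg.Geo.IsMaximalIn (Cfsg.Geo.specialLinear (Fin n) F) (Cfsg.Geo.subfieldSubgroup F₀ P ⊓ Cfsg.Geo.specialLinear (Fin n) F) := by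
  refine isMax_SL (S' := (Geo.subfieldSubgroup F₀ P).comap glEquiv.symm.toMonoidHom) (fun g _ => by simp) (fun K h1 h2 => ?_)
    ((big_SL (by simp; omega)).subfield' hr hcard P)
  refine (full_or_rat (e := glEquiv P) (by simp; omega) (fun c v χ h => ?_) hr hcard).resolve_right fun h => h2 fun g hg =>
    mem_subfield_up.2 (by simpa using h g hg)
  refine tin_of h1 (by simp [h]) (mem_subfield_up.2 ⟨1, one_ne_zero, fun x => ⟨x + (χ x * c) • v, ?_⟩⟩)
  simp [LinearMap.transvection.apply, jj_smul, smul_smul, -glEquiv_apply, Subfield.smul_def]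


end Cfsg.Agent.S5639
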