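import Cfsg.Statements.S5643
import Cfsg.Agent.H5.Mx5

set_option autoImplicit false
open Cfsg

namespace Cfsg.Agent.S5643

open H5 H5.As Module

/-- For a finite field F and n ≥ 13, let σ be a field automorphism of F of order two and f a non-degenerate unitary form on F^n with respect to σ. Then the elements of SL_n(F) that are similarities of f form a maximal subgroup of SL_n(F). -/
theorem result {F : Type*} [Field F] [Fintype F] (n : ℕ) (hn : 13 ≤ n) (σ : F ≃+* F) (f : (Fin n → F) → (Fin n → F) → F) (hf : Cfsg.Geo.IsUnitaryForm σ f) : Cfsg.Geo.IsMaximalIn (Cfsg.Geo.specialLinear (Fin n) F) (Cfsg.Geo.similarityGroup f ⊓ Cfsg.Geo.specialLinear (Fin n) F) := by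
  obtain ⟨G, rfl⟩ := unit_gram hf
  obtain ⟨q, hF, e⟩ := exists_conj_eq (σ := (σ : F →+* F)) hf.involutive fun e => hf.ne_refl (RingEquiv.ext (RingHom.congr_fun e))
  have hG : Gr (σ : F →+* F) 1 G := gr_of_bf hf.involutive fun u v => by rw [one_mul]; exact hf.herm v u
  rw [e] at hG ⊢
  have := sim_max (G := G) (fU_nd hG) (isotU _) (by simp; omega) fun _ _ => rfl
  exact this


end Cfsg.Agent.S5643
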