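import Cfsg.Statements.S5647
import Cfsg.Agent.H5.Mx4

set_option autoImplicit false
open Cfsg

namespace Cfsg.Agent.S5647

open H5 H5.As

/-- For a finite field F with q elements and m ≥ 7, let D be a decomposition of F^(2m) into t ≥ 2 pairwise orthogonal subspaces of equal dimension k on each of which the standard alternating form is non-degenerate, spanning F^(2m). Unless k = 2 and q = 2, the elements of Sp_2m(F) permuting the members of D form a maximal subgroup of Sp_2m(F). -/
theorem result {F : Type*} [Field F] [Fintype F] (m : ℕ) (hm : 7 ≤ m) {t : ℕ} (k : ℕ) (D : Fin t → Submodule F (Fin m ⊕ Fin m → F)) (hD : Cfsg.Geo.IsNondegenerateMDecomposition (Cfsg.sympForm m F) k D) (hex : ¬ (k = 2 ∧ Fintype.card F = 2)) : Cfsg.Geo.IsMaximalIn (Cfsg.spGL m F) (Cfsg.Geo.decompositionStabilizer D ⊓ Cfsg.spGL m F) := by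
  have c := cg_sp (F := F) (show 3 ≤ m by omega)
  have hD' : (sympF F m).ODec D := odec (m := k) (by simpa using hD) fun i j l _ _ _ =>
    Form.symp_iso (nondegOn.1 (by simpa using hD.2 j)) (nondegOn.1 (by simpa using hD.2 l))
      (by rw [hD.1.finrank_eq, hD.1.finrank_eq])
  have i0 : Fin t := ⟨0, by have := hD.1.two_le; omega⟩
  obtain ⟨l, hl, -⟩ := (hD'.nd i0).symp_hasTS
  have r := hD.1.finrank_eq
  have := hD.1.pos
  refine c.dec' hD.1 ?_
  by_cases h2 : k = 2
  · obtain ⟨a, h0, h1⟩ : ∃ a : F, a ≠ 0 ∧ a ≠ 1 := by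
      by_contra! hn
      refine hex ⟨h2, le_antisymm ?_ Fintype.one_lt_card⟩
      classical
      have : (Finset.univ : Finset F) ⊆ {0, 1} := fun a _ => by by_cases e : a = 0 <;> simp [e, hn a]
      exact (Finset.card_le_card this).trans Finset.card_le_two
    exact c.std.maxIn_dec_tr hD' h0 one_ne_zero h1 rfl rfl (fun i => c.hyp (hD'.nd i) (by rw [r]; omega))
      (.inr c.nd.symp_EG.ge)
  · exact c.std.maxIn_dec hD' (fun i => Form.irrOn_ker Form.symp_ker (hD'.nd i)) fun i =>
      c.lar1 Form.symp_ker (hD'.nd i) (by rw [r] at *; omega)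


end Cfsg.Agent.S5647
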