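import Cfsg.Statements.S5650
import Cfsg.Agent.H5.Sf3

set_option autoImplicit false
open Cfsg

namespace Cfsg.Agent.S5650

open H5 H5.As H5.Sf

/-- For a finite field F, a subfield F₀ with |F| = |F₀| ^ r for a prime r, and m ≥ 7, let P be an invertible matrix and ζ a non-zero scalar such that ζ times the standard alternating form takes values in F₀ on the F₀-span of the columns of P. Then the elements of Sp_2m(F) lying in the subfield group of P (the conjugate by P of the product of GL_2m(F₀) with the scalars) form a maximal subgroup of Sp_2m(F). -/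
theorem result {F : Type*} [Field F] [Fintype F] (m : ℕ) (hm : 7 ≤ m) (F₀ : Subfield F) (r : ℕ) (hr : r.Prime) (hcard : Fintype.card F = Nat.card F₀ ^ r) (P : Matrix.GeneralLinearGroup (Fin m ⊕ Fin m) F) (ζ : F) (hζ : ζ ≠ 0) (hP : Cfsg.Geo.IsFormRationalStructure (Cfsg.sympForm m F) F₀ ζ P) : Cfsg.Geo.IsMaximalIn (Cfsg.spGL m F) (Cfsg.Geo.subfieldSubgroup F₀ P ⊓ Cfsg.spGL m F) := by
  have c := cg_sp (F := F) (show 3 ≤ m by omega)
  obtain ⟨Ψ, h⟩ := rs_symp (F₀ := F₀) (e := glEquiv P) hζ c.nd (by simp; omega) (fun _ => rfl)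
    (fun x y => by rw [sympF_B]; exact hP _ _ (fun i => (x i).2) fun i => (y i).2) fun _ => Form.symp_Q _ _
  refine c.subfield h hr hcard ?_ (.inl ⟨ζ, hζ, rfl, by simp [hζ]⟩)
  by_cases h2 : (2 : F) = 0
  · refine .inr ⟨ζ, rfl, by simp [hζ], fun a _ => ?_⟩
    obtain ⟨μ, hμ⟩ := FiniteField.isSquare_of_char_two (F := F) (by
      have : CharP F 2 := CharTwo.of_one_ne_zero_of_two_eq_zero one_ne_zero h2
      exact ringChar.eq F 2) (a / ζ)
    exact ⟨μ, by simp [← hμ, hζ]⟩
  · exact .inl fun a _ => ⟨a / 2, by simp; field_simp; ring⟩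


end Cfsg.Agent.S5650
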