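import Cfsg.Statements.S5652
import Cfsg.Agent.H5.Mx5

set_option autoImplicit false
open Cfsg

namespace Cfsg.Agent.S5652

open H5 H5.As Module

/-- For a finite field F of characteristic two and m ≥ 7, let Q be a non-degenerate quadratic form on F^(2m) whose polar form is the standard alternating form. Then the elements of Sp_2m(F) that are similarities of Q (they are exactly the isometries of Q) form a maximal subgroup of Sp_2m(F). -/
theorem result {F : Type*} [Field F] [Fintype F] (m : ℕ) (hm : 7 ≤ m) (heven : ¬ Odd (Fintype.card F)) (Q : (Fin m ⊕ Fin m → F) → F) (hQ : Cfsg.Geo.IsNondegenerateQuadraticForm Q) (hpol : ∀ u v, QuadraticMap.polar Q u v = Cfsg.sympForm m F u v) : Cfsg.Geo.IsMaximalIn (Cfsg.spGL m F) (Cfsg.Geo.quadSimilarityGroup Q ⊓ Cfsg.spGL m F) := by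
  obtain ⟨Φ, G, rfl, h⟩ := exists_OF hQ
  have h2 : (2 : F) = 0 := by
    have := (FiniteField.even_card_iff_char_two (F := F)).2 (by rw [Nat.odd_iff] at heven; omega)
    exact_mod_cast (ringChar.spec F 2).2 (by rw [this])
  have e : ∀ x y, (sympF F m).B x y = Φ.B x y := fun x y => by rw [sympF_B, ← hpol, Φ.orth_polar]
  obtain ⟨u, v, huv⟩ := h.nd.orth_hyp (by simp; omega)
  have key : ∀ g ∈ spGL m F, g ∈ Geo.quadSimilarityGroup Φ.Q ↔ glEquiv g ∈ Φ.isom := fun g hg => ⟨fun ⟨c, hc⟩ => by
    have := ((mem_spGL_iff m g).1 hg).1 u v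
    rw [e, e, ← Φ.orth_polar, ← Φ.orth_polar, QuadraticMap.polar, ← map_add] at this
    simp only [glEquiv_apply, hc, huv.Qe, huv.Qf, Φ.orth_add, Φ.orth_polar, huv.3] at this
    exact Φ.mem_isom_orth.2 fun x => by simpa [show (c : F) = 1 by simpa using this] using hc x,
    fun h => ⟨1, fun x => by simpa using h.2 x⟩⟩
  refine isMax_of (mem_spGL_iff m) key (Form.maxIn_orth_symp h2 h.nd e (isotO _) (by simp; omega)) fun k => ?_
  have i : _ ∈ (sympF F m).isom := Form.eich_mem _ (u := u) (v := 0) (a := 1) (Form.symp_Q _ _) (by simp) (by simp [Form.symp_Q])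
  obtain ⟨g, hg⟩ := glEquiv.surjective (Form.eich _ u 0 1 (Form.symp_Q (sympF F m) _) (by simp) (by simp [Form.symp_Q]))
  have j := (mem_spGL_iff m g).2 (hg ▸ i)
  have := ((key g j).1 (k j)).2 v
  rw [hg] at this; erw [Form.eich_apply] at this
  simp [e, huv.Bfe, Φ.orth_add, huv.Qe, huv.Qf, -sympF_B] at this


end Cfsg.Agent.S5652
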