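import Cfsg.Statements.S5658
import Cfsg.Agent.H5.Sf3

set_option autoImplicit false
open Cfsg

namespace Cfsg.Agent.S5658

open H5 H5.As H5.Sf

/-- Let F be the field with q² elements, n ≥ 13, and F₀ a subfield with |F| = |F₀| ^ r for an odd prime r. Let P be an invertible matrix such that the standard unitary form takes values in F₀ on the F₀-span of the columns of P. Then the elements of SU_n(q) lying in the subfield group of P (the conjugate by P of the product of GL_n(F₀) with the scalars) form a maximal subgroup of SU_n(q). -/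
theorem result {F : Type*} [Field F] [Fintype F] (n q : ℕ) (hF : Fintype.card F = q ^ 2) (hn : 13 ≤ n) (F₀ : Subfield F) (r : ℕ) (hr : r.Prime) (hro : Odd r) (hcard : Fintype.card F = Nat.card F₀ ^ r) (P : Matrix.GeneralLinearGroup (Fin n) F) (hP : Cfsg.Geo.IsFormRationalStructure (Cfsg.hermForm n F q) F₀ 1 P) : Cfsg.Geo.IsMaximalIn (Cfsg.GU n F q ⊓ Cfsg.Geo.specialLinear (Fin n) F) (Cfsg.Geo.subfieldSubgroup F₀ P ⊓ (Cfsg.GU n F q ⊓ Cfsg.Geo.specialLinear (Fin n) F)) := by
  have c := cg_su hF (show 5 ≤ n by omega)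
  obtain ⟨b, hb, n⟩ : ∃ b ∈ F₀, conj hF b ≠ b := by
    by_contra! k
    obtain ⟨F₁, h1⟩ := exists_subfield hF
    obtain ⟨m, -, h2⟩ := card_eq_pow_of_le (k0 := F₀) (k1 := F₁) fun b hb => mem_subfield_iff.2 (h1 ▸ k b hb)
    rw [hF, ← h1, h2, ← pow_mul] at hcard
    have := Nat.pow_right_injective (one_lt_card_subfield F₀) hcard
    obtain ⟨l, hl⟩ := hro; omega
  obtain ⟨κ₀, Ψ, h⟩ := rs_unit (e := glEquiv P) (by simp; omega) c.nd hb n fun x y => hP _ _ (fun i => (x i).2) fun i => (y i).2
  exact c.subfield h hr hcard (.inl (hz_unit hF)) (.inl ⟨b - conj hF b, sub_ne_zero.2 n.symm, by simp [conj_conj],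
    by simpa using sub_mem hb (map_mem_sub (conj hF) hb)⟩)


end Cfsg.Agent.S5658
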