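import Cfsg.Statements.S5659
import Cfsg.Agent.H5.Sf3

set_option autoImplicit false
open Cfsg

namespace Cfsg.Agent.S5659

open H5 H5.As H5.Sf

/-- Let F be the field with q² elements, q odd, n ≥ 13, and F₀ the subfield with q elements. Let P be an invertible matrix such that the standard unitary form takes values in F₀ on the F₀-span of the columns of P (so it restricts to a non-degenerate symmetric bilinear form there). Then the elements of SU_n(q) lying in the subfield group of P form a maximal subgroup of SU_n(q). -/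
theorem result {F : Type*} [Field F] [Fintype F] (n q : ℕ) (hF : Fintype.card F = q ^ 2) (hn : 13 ≤ n) (hodd : Odd q) (F₀ : Subfield F) (hcard : Fintype.card F = Nat.card F₀ ^ 2) (P : Matrix.GeneralLinearGroup (Fin n) F) (hP : Cfsg.Geo.IsFormRationalStructure (Cfsg.hermForm n F q) F₀ 1 P) : Cfsg.Geo.IsMaximalIn (Cfsg.GU n F q ⊓ Cfsg.Geo.specialLinear (Fin n) F) (Cfsg.Geo.subfieldSubgroup F₀ P ⊓ (Cfsg.GU n F q ⊓ Cfsg.Geo.specialLinear (Fin n) F)) := by
  have c := cg_su hF (show 5 ≤ n by omega)
  have e : Nat.card F₀ = q := Nat.pow_left_injective two_ne_zero (hcard.symm.trans hF)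
  have s : ∀ a ∈ F₀, conj hF a = a := fun a ha => by rw [conj_apply, ← e]; exact mem_subfield_iff.1 ha
  have k : ∀ x y, (hermF n hF).B (jj F₀ (glEquiv P) x) (jj F₀ (glEquiv P) y) ∈ F₀ := fun x y =>
    by have := hP _ _ (fun i => (x i).2) fun i => (y i).2; rwa [one_mul] at this
  obtain ⟨Ψ, h⟩ := rs_orth (F₀ := F₀) (e := glEquiv P) (ζ := 2) (two_ne_zero_of_odd (hF ▸ hodd.pow)) c.nd (by simp; omega)
    (fun a => s a a.2) one_ne_zero (fun x => by rw [one_mul, Form.unit_Q]; exact k x x) fun x y => by
      rw [one_mul, Kind.unit_π, s _ (k x y), two_mul]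
  exact c.subfield h Nat.prime_two hcard (.inl (hz_unit hF)) (.inr (.inl rfl))


end Cfsg.Agent.S5659
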