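import Cfsg.Statements.S5662
import Cfsg.Agent.H5.AsS

set_option autoImplicit false
open Cfsg

namespace Cfsg.Agent.S5662

/-- Subgroup structure of the finite symplectic groups. Let F be a finite field and m ≥ 2 with (m, |F|) ≠ (2, 2), and let Sp_2m(F) be the group of invertible matrices preserving the standard alternating form on F^(2m). Let H be a subgroup of Sp_2m(F) whose product with the scalar matrices ±1 is not all of Sp_2m(F) (H does not cover PSp_2m(F)). Then either H is contained in a member of one of the eight geometric classes of subgroups of Sp_2m(F) (with the conditions built into InSymplecticClass), or H is in the residual class: modulo scalars it is almost simple, and the perfect preimage of its socle acts absolutely irreducibly, is realisable over no proper subfield, and fixes no non-degenerate quadratic form and no non-degenerate unitary form on F^(2m). -/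
theorem result {F : Type*} [Field F] [Fintype F] (m : ℕ) (hm : 2 ≤ m) (hex : ¬ (m = 2 ∧ Fintype.card F = 2)) (H : Subgroup (Matrix.GeneralLinearGroup (Fin m ⊕ Fin m) F)) (hH : H ≤ Cfsg.spGL m F) (hproper : H ⊔ (Cfsg.Geo.scalars (Fin m ⊕ Fin m) F ⊓ Cfsg.spGL m F) ≠ Cfsg.spGL m F) : (∃ M : Subgroup (Matrix.GeneralLinearGroup (Fin m ⊕ Fin m) F), Cfsg.Geo.InSymplecticClass m F M ∧ H ≤ M) ∨ Cfsg.Geo.InSymplecticResidualClass H := by
  obtain ⟨G, e1, e2, hA⟩ := H5.As.sp_gram F m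
  refine (H5.As.symp_list hA (by simp; omega) (by simp; omega) (e2 ▸ hH)).imp_left ?_
  unfold Cfsg.Geo.InSymplecticClass Cfsg.Geo.InSymplecticPartialClass
  simp only [e1]
  rintro (⟨W, h1, h2, h⟩ | ⟨W, h1, h2, h3, h⟩ | ⟨t, k, -, -, -, -, D, hD, h⟩ | ⟨k, h1, h2, D, hD, h3, h⟩ | ⟨r, h1, -, K, hK, h3, h5, h⟩ |
    ⟨h1, K, hK, h3, h5, h⟩ | ⟨d, k, -, -, -, h5, -, h7, e, P, f₁, f₂, h8, h9, -, h11, h⟩ | ⟨F₀, r, P, ζ, h1, h2, h3, h5, h⟩ |
    ⟨k, -, p, S, h2, h3, h5, h6, h7, h8, h9, h10, h11, h⟩ | ⟨k, t, -, -, h3, h5, h6, h7, e, P, f, h8, h9, h⟩ | ⟨h1, Q, hQ, h2, h⟩) <;>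
    refine ⟨_, ?_, le_inf h hH⟩
  · exact .inl <| .inl ⟨W, h1, h2, rfl⟩
  · exact .inl <| .inr <| .inl ⟨W, h1, h2, by simp at h3; omega, rfl⟩
  · exact .inl <| .inr <| .inr <| .inl ⟨t, k, D, hD, rfl⟩
  · obtain rfl : k = m := by simp at h1; omega
    exact .inl <| .inr <| .inr <| .inr <| .inl ⟨D, h2, hD, h3, rfl⟩
  · exact .inr <| .inl ⟨r, K, h1, hK, h3, h5, rfl⟩
  · exact .inr <| .inr <| .inl ⟨K, h1, hK, h3, h5, rfl⟩
  · exact .inr <| .inr <| .inr <| .inl ⟨d, k, e, P, f₁, f₂, h7, h5, h8, h9, h11, rfl⟩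
  · exact .inl <| .inr <| .inr <| .inr <| .inr <| .inl ⟨F₀, r, P, ζ, h1, h2, h3, h5, rfl⟩
  · exact .inl <| .inr <| .inr <| .inr <| .inr <| .inr <| .inl ⟨S, p, k, h6, h7, h8.trans (H5.As.iso_le_sim G), h2, h3, h5, h9, h10, h11, rfl⟩
  · exact .inr <| .inr <| .inr <| .inr <| ⟨k, t, e, P, f, h7, h3, h5, h6, h8, h9, rfl⟩
  · exact .inl <| .inr <| .inr <| .inr <| .inr <| .inr <| .inr <| ⟨Q, h1, hQ, h2, rfl⟩


end Cfsg.Agent.S5662
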