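import Cfsg.Statements.S5663
import Cfsg.Agent.H5.AsU

set_option autoImplicit false
open Cfsg

namespace Cfsg.Agent.S5663

/-- Subgroup structure of the finite unitary groups. Let F be the field with q² elements and n ≥ 3 with (n, q) ≠ (3, 2), and let SU_n(q) be the group of matrices of determinant one preserving the standard unitary form Σ u_i v_i^q on F^n. Let H be a subgroup of SU_n(q) whose product with the scalar matrices in SU_n(q) is not all of SU_n(q) (H does not cover PSU_n(q)). Then either H is contained in a member of one of the geometric classes of subgroups of the unitary group GU_n(q) (with the conditions built into InUnitaryClass), or H is in the residual class: modulo scalars it is almost simple, and the perfect preimage of its socle acts absolutely irreducibly, is realisable over no proper subfield of F, and fixes no non-degenerate quadratic form and no non-degenerate symplectic form on F^n. -/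
theorem result {F : Type*} [Field F] [Fintype F] (n q : ℕ) (hF : Fintype.card F = q ^ 2) (hn : 3 ≤ n) (hex : ¬ (n = 3 ∧ q = 2)) (H : Subgroup (Matrix.GeneralLinearGroup (Fin n) F)) (hH : H ≤ (Cfsg.GU n F q ⊓ Cfsg.Geo.specialLinear (Fin n) F)) (hproper : H ⊔ (Cfsg.Geo.scalars (Fin n) F ⊓ (Cfsg.GU n F q ⊓ Cfsg.Geo.specialLinear (Fin n) F)) ≠ (Cfsg.GU n F q ⊓ Cfsg.Geo.specialLinear (Fin n) F)) : (∃ M : Subgroup (Matrix.GeneralLinearGroup (Fin n) F), Cfsg.Geo.InUnitaryClass n F q M ∧ H ≤ M) ∨ Cfsg.Geo.InUnitaryResidualClass H := by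
  obtain ⟨e1, e2, hG⟩ := H5.As.gu_gram n hF
  have hI := hH.trans inf_le_left
  refine (H5.As.unit_list hG (by simpa) (e2 ▸ hI)).imp_left ?_
  unfold Cfsg.Geo.InUnitaryClass Cfsg.Geo.InUnitaryPartialClass
  simp only [e1]
  rintro (⟨W, h1, h2, h⟩ | ⟨W, h1, h2, h4, h⟩ | ⟨t, m, -, -, -, D, hD, h⟩ | ⟨m, h1, D, hD, h4, h⟩ | ⟨r, h1, h2, -, K, hK, h5, h⟩ |
    ⟨d, k, -, h2, h4, -, e, P, f₁, f₂, h8, h9, h10, h⟩ | ⟨F₀, r, P, h1, h2, h4, h5, h⟩ | ⟨h0, F₀, P, ζ, h1, h2, h4, h5, h6, h⟩ |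
    ⟨h0, F₀, P, h1, h2, h⟩ | ⟨r, S, p, e, k, -, h2, h4, h5, h6, h7, h8, h9, h⟩ | ⟨m, t, -, h2, h4, h5, e, P, f, h8, h9, h⟩) <;>
    refine ⟨_, ?_, le_inf h hI⟩
  · exact .inl <| .inl ⟨W, h1, h2, rfl⟩
  · exact .inl <| .inr <| .inl ⟨W, h1, h2, by simpa using h4, rfl⟩
  · exact .inl <| .inr <| .inr <| .inl ⟨t, m, D, hD, rfl⟩
  · exact .inl <| .inr <| .inr <| .inr <| .inl ⟨m, D, by simpa using h1, hD, h4, rfl⟩
  · exact .inr <| .inl ⟨r, K, h1, h2, hK, h5, rfl⟩
  · exact .inr <| .inr <| .inl ⟨d, k, e, P, f₁, f₂, h2, h4, h8, h9, h10, rfl⟩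
  · exact .inl <| .inr <| .inr <| .inr <| .inr <| .inl ⟨F₀, r, P, h1, h2, h4, h5, rfl⟩
  · exact .inl <| .inr <| .inr <| .inr <| .inr <| .inr <| .inr <| .inl ⟨F₀, P, ζ, by simpa using h0, h1, h2, h4, h5, h6, rfl⟩
  · exact .inl <| .inr <| .inr <| .inr <| .inr <| .inr <| .inl ⟨F₀, P, h0, h1, h2, rfl⟩
  · exact .inl <| .inr <| .inr <| .inr <| .inr <| .inr <| .inr <| .inr <| ⟨r, S, p, e, k, h4, h5, h6, h7, h8, h9.imp_left fun k => ⟨k.1, k.2.1, h2, k.2.2.1⟩, rfl⟩
  · exact .inr <| .inr <| .inr <| ⟨m, t, e, P, f, h2, h4, h5, h8, h9, rfl⟩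


end Cfsg.Agent.S5663
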