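import Cfsg.Statements.S5667
import Cfsg.Agent.H5.Tm

set_option autoImplicit false
open Cfsg

namespace Cfsg.Agent.S5667

open H5 H5.As H5.Form Module Matrix

/-- Over the field with 3 elements and for m ≥ 7, suppose the standard alternating form on F^(2m) is similar, through P and e, to the tensor product of a non-degenerate symplectic form f₁ on F^(n₁) and a non-degenerate symmetric bilinear form f₂ on F^3. Then the elements of Sp_2m(3) in the stabiliser of this tensor decomposition form a subgroup that is not maximal: some subgroup lies strictly between it and Sp_2m(3). -/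
theorem result {F : Type*} [Field F] [Fintype F] (m : ℕ) (hm : 7 ≤ m) (hq : Fintype.card F = 3) (n₁ : ℕ) (e : (Fin m ⊕ Fin m) ≃ Fin n₁ × Fin 3) (P : Matrix.GeneralLinearGroup (Fin m ⊕ Fin m) F) (f₁ : (Fin n₁ → F) → (Fin n₁ → F) → F) (f₂ : (Fin 3 → F) → (Fin 3 → F) → F) (hf₁ : Cfsg.Geo.IsSymplecticForm f₁) (hf₂ : Cfsg.Geo.IsSymmetricForm f₂) (hT : Cfsg.Geo.IsTensorFormStructure id (Cfsg.sympForm m F) f₁ f₂ e P) : ∃ K : Subgroup (Matrix.GeneralLinearGroup (Fin m ⊕ Fin m) F), Cfsg.Geo.tensorProductSubgroup n₁ 3 e P ⊓ Cfsg.spGL m F < K ∧ K < Cfsg.spGL m F := by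
  obtain ⟨T, hH, -, c, c0, hT⟩ := tens_form (σ := .id F) (LinearMap.mk₂ F f₁ hf₁.1.1 hf₁.1.2 hf₁.1.3 hf₁.1.4) (LinearMap.mk₂ F f₂ hf₂.1.1 hf₂.1.2 hf₂.1.3 hf₂.1.4) hT
  obtain ⟨b, b0, b1, hA⟩ := frame_three hq hf₂
  have d := Fintype.card_congr e
  simp at d
  have s : ∀ A B, tc T A B = tc ((TensorProduct.comm F _ _).trans T) B A := fun A B => tc_ext T fun u w => (tc_apply ..).trans (tc_apply ((TensorProduct.comm F _ _).trans T) w u).symm
  exact (cg_sp (by omega)).nm_tens (T := (TensorProduct.comm F _ _).trans T) (by omega) (fun g => (hH g).trans (by simp only [s]; exact exists_comm)) (β := f₂) (γ := f₁) c0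
    (fun _ _ _ _ => (sympF_B ..).trans ((hT ..).trans (congrArg _ (mul_comm _ _)))) (ex_ne (by omega) hf₁.4) (by simp; omega) (by simp; omega) le_rfl b b0 b1 hA


end Cfsg.Agent.S5667
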