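import Cfsg.Statements.S5671
import Cfsg.Agent.H5.Tm

set_option autoImplicit false
open Cfsg

namespace Cfsg.Agent.S5671

open H5 H5.As H5.Form Module Matrix

/-- Let F be the field with 4 elements (q = 2) and n = 2 n₂ ≥ 13. Suppose the standard unitary form Σ u_i v_i² on F^n is similar, through P and e, to the tensor product of non-degenerate unitary forms f₁ on F^2 and f₂ on F^(n₂). Then the elements of SU_n(2) in the stabiliser of this tensor decomposition form a subgroup that is not maximal: some subgroup lies strictly between it and SU_n(2). -/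
theorem result {F : Type*} [Field F] [Fintype F] (n : ℕ) (hF : Fintype.card F = 4) (hn : 13 ≤ n) (n₂ : ℕ) (e : Fin n ≃ Fin 2 × Fin n₂) (P : Matrix.GeneralLinearGroup (Fin n) F) (f₁ : (Fin 2 → F) → (Fin 2 → F) → F) (f₂ : (Fin n₂ → F) → (Fin n₂ → F) → F) (hf₁ : Cfsg.Geo.IsUnitaryFormPow 2 f₁) (hf₂ : Cfsg.Geo.IsUnitaryFormPow 2 f₂) (hT : Cfsg.Geo.IsTensorFormStructure (fun x : F => x ^ 2) (Cfsg.hermForm n F 2) f₁ f₂ e P) : ∃ K : Subgroup (Matrix.GeneralLinearGroup (Fin n) F), Cfsg.Geo.tensorProductSubgroup 2 n₂ e P ⊓ (Cfsg.GU n F 2 ⊓ Cfsg.Geo.specialLinear (Fin n) F) < K ∧ K < (Cfsg.GU n F 2 ⊓ Cfsg.Geo.specialLinear (Fin n) F) := by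
  replace hF : Fintype.card F = 2 ^ 2 := hF
  have k : ∀ {n : ℕ} {f : (Fin n → F) → (Fin n → F) → F}, Cfsg.Geo.IsUnitaryFormPow 2 f → ∃ Ψ : Form (unitK hF) (Fin n → F), Ψ.Nondeg ∧ f = fun u v => Ψ.B u v := fun {n f} hf =>
    ⟨ofHerm (conj_conj hF) (conj_ne_id hF) (LinearMap.mk₂'ₛₗ (.id F) (conj hF) f hf.1 hf.2 (fun v x y => by rw [hf.3, hf.1, hf.3 v, hf.3 v]; exact map_add (conj hF) _ _)
      fun c v x => by rw [hf.3, hf.2, hf.3 v, mul_pow]; rfl) fun x y => hf.3 y x, fun y hy => by_contra fun h => (hf.4 y h).1.elim fun x k => k (hy x), rfl⟩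
  obtain ⟨Ψ₁, n₁, rfl⟩ := k hf₁
  obtain ⟨Ψ₂, -, rfl⟩ := k hf₂
  obtain ⟨T, hH, -, c, c0, hT⟩ := tens_form (σ := conj hF) Ψ₁.B Ψ₂.B hT
  obtain ⟨b, b0, b1, hA⟩ := frame_two hF n₁
  have d := Fintype.card_congr e
  simp at d
  exact (cg_su (q := 2) hF (by omega)).nm_tens (by omega) hH c0 hT (ex_ne (by omega) hf₂.4) (by simp; omega) (by simp; omega) zero_le_one b b0 b1 hA


end Cfsg.Agent.S5671
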