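import Cfsg.Statements.S5673
import Cfsg.Agent.H5.AsO3

set_option autoImplicit false
open Cfsg

namespace Cfsg.Agent.S5673

/-- Subgroup structure of the odd-dimensional orthogonal groups. Let F be a finite field of odd order and m ≥ 3, let Q be the standard quadratic form x₀² + Σ x_i y_i on F^(2m+1), and let Ω be the commutator subgroup of its isometry group, viewed inside GL_(2m+1)(F). Let H be a subgroup of Ω whose product with the scalar matrices in Ω is not all of Ω. Then either H is contained in a member of one of the geometric classes of subgroups of the isometry group (with the conditions built into InOrthogonalOddClass), or H is in the residual class: modulo scalars it is almost simple, and the perfect preimage of its socle acts absolutely irreducibly, is realisable over no proper subfield, and fixes no non-degenerate unitary form. -/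
theorem result {F : Type*} [Field F] [Fintype F] (hodd : Odd (Fintype.card F)) (m : ℕ) (hm : 3 ≤ m) (H : Subgroup (Matrix.GeneralLinearGroup (Unit ⊕ (Fin m ⊕ Fin m)) F)) (hH : H ≤ Cfsg.Geo.omegaGL (Cfsg.quadFormOdd m F)) (hproper : H ⊔ (Cfsg.Geo.scalars (Unit ⊕ (Fin m ⊕ Fin m)) F ⊓ Cfsg.Geo.omegaGL (Cfsg.quadFormOdd m F)) ≠ Cfsg.Geo.omegaGL (Cfsg.quadFormOdd m F)) : (∃ M : Subgroup (Matrix.GeneralLinearGroup (Unit ⊕ (Fin m ⊕ Fin m)) F), Cfsg.Geo.InOrthogonalOddClass m F M ∧ H ≤ M) ∨ Cfsg.Geo.InOrthogonalResidualClass H := by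
  obtain ⟨G, hΦ, hd⟩ := H5.As.odd_OF hodd m
  have hc : Fintype.card (Unit ⊕ (Fin m ⊕ Fin m)) = 2 * m + 1 := by simp; omega
  have hI : H ≤ isometryGroup F (quadFormOdd m F) := hH.trans (Subgroup.map_subtype_le _)
  refine (H5.As.orth_list hΦ (by omega) (fun _ => hd) hH).imp_left ?_
  unfold Cfsg.Geo.InOrthogonalOddClass H5.As.OC
  simp only [hc, H5.oddF_Q]
  rintro (⟨W, h1, h2, h3, h⟩ | ⟨W, h1, h2, h3, h4, h5, h6, h8, h9, h⟩ | h | ⟨t, k, h1, h2, h3, h4, h5, D, hD, h6, h8, h⟩ |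
    ⟨k, h1, h2, h3, h4, h⟩ | ⟨k, h1, h2, h3, h⟩ | ⟨r, h1, h2, h3, h4, h5, K, hK, h6, h⟩ | ⟨m', h1, h2, K, hK, h⟩ |
    ⟨d, k, h1, h2, h3, h4, h5, h6, e, P, f₁, f₂, h8, h9, h10, h11, h⟩ | ⟨k, h1, h2, h3, h⟩ |
    ⟨F₀, r, P, ζ, h1, h2, h3, h4, h5, h6, h⟩ | ⟨k, t, h1, h2, h3, h4, h5, h⟩ | ⟨h1, h⟩)
  · exact ⟨_, .inl ⟨W, h1, h2, rfl⟩, le_inf h hI⟩
  · exact ⟨_, .inr <| .inl ⟨W, h1, h2, h3, rfl⟩, le_inf h hI⟩
  · exact absurd hodd h.1
  · rcases (Nat.one_le_iff_ne_zero.2 (show k ≠ 0 by rintro rfl; omega)).eq_or_lt with rfl | h9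
    · exact ⟨_, .inr <| .inr <| .inr <| .inl ⟨t, D, h3 rfl, hD, rfl⟩, le_inf h hI⟩
    · exact ⟨_, .inr <| .inr <| .inl ⟨t, k, D, h9, hD, rfl⟩, le_inf h hI⟩
  · omega
  · omega
  · exact ⟨_, .inr <| .inr <| .inr <| .inr <| .inl ⟨r, K, h1, h3.symm, hK, h6, rfl⟩, le_inf h hI⟩
  · omega
  · exact ⟨_, .inr <| .inr <| .inr <| .inr <| .inr <| .inl ⟨d, k, e, P, f₁, f₂, h2, h3, h8, h9, h11, rfl⟩, le_inf h hI⟩
  · omega
  · exact ⟨_, .inr <| .inr <| .inr <| .inr <| .inr <| .inr <| .inl ⟨F₀, r, P, h1, h3, by simpa [h5 ⟨m, rfl⟩] using h6, rfl⟩, le_inf h hI⟩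
  · obtain ⟨e, P, f, h6, h7, h⟩ := h
    exact ⟨_, .inr <| .inr <| .inr <| .inr <| .inr <| .inr <| .inr <| ⟨k, t, e, P, f, h2, h3, h4, h6, h7, rfl⟩, le_inf h hI⟩
  · exact absurd h1 (by simp)


end Cfsg.Agent.S5673
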