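import Cfsg.Statements.S5790
import Cfsg.Agent.H5.AsS

set_option autoImplicit false
open Cfsg

namespace Cfsg.Agent.S5790

/-- Every maximal subgroup of Sp_4(q), q ≥ 4 even, is of one of the listed geometric types or lies in the residual class. Let F be a finite field of even order q ≥ 4, f the standard alternating form on F^4 (coordinates Fin 2 ⊕ Fin 2), and H a maximal subgroup of Sp_4(F) (inside GL_4(F)). Then H is the intersection with Sp_4(F) of one of: the stabiliser of a non-zero totally isotropic subspace; the stabiliser of a decomposition into two orthogonal non-degenerate 2-spaces; the normaliser of a degree-2 subfield K of the matrix algebra, self-adjoint with f(k v, v) = 0; a subfield group whose F₀-structure carries a non-zero multiple of f, |F| = |F₀|^r with r prime; the similarity group of a non-degenerate quadratic form whose polar form is f — or else H lies in the residual class of the symplectic case. -/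
theorem result {F : Type*} [Field F] [Fintype F] (heven : ¬ Odd (Fintype.card F)) (h4 : 4 ≤ Fintype.card F) (H : Subgroup (Matrix.GeneralLinearGroup (Fin 2 ⊕ Fin 2) F)) (hH : Cfsg.Geo.IsMaximalIn (Cfsg.spGL 2 F) H) :
    (∃ W : Submodule F (Fin 2 ⊕ Fin 2 → F), W ≠ ⊥ ∧ Cfsg.Geo.IsTotallySingularFor (Cfsg.sympForm 2 F) W ∧ H = Cfsg.Geo.subspaceStabilizer W ⊓ Cfsg.spGL 2 F) ∨
    (∃ D : Fin 2 → Submodule F (Fin 2 ⊕ Fin 2 → F), Cfsg.Geo.IsNondegenerateMDecomposition (Cfsg.sympForm 2 F) 2 D ∧ H = Cfsg.Geo.decompositionStabilizer D ⊓ Cfsg.spGL 2 F) ∨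
    (∃ K : Subalgebra F (Matrix (Fin 2 ⊕ Fin 2) (Fin 2 ⊕ Fin 2) F), Cfsg.Geo.IsFieldSubalgebra 2 K ∧ Cfsg.Geo.IsSelfAdjointFor (Cfsg.sympForm 2 F) K ∧ (∀ k ∈ K, ∀ v : (Fin 2 ⊕ Fin 2 → F), (Cfsg.sympForm 2 F) (Matrix.mulVec k v) v = 0) ∧ H = Cfsg.Geo.subalgebraNormalizer K ⊓ Cfsg.spGL 2 F) ∨
    (∃ (F₀ : Subfield F) (r : ℕ) (P : Matrix.GeneralLinearGroup (Fin 2 ⊕ Fin 2) F) (ζ : F), r.Prime ∧ Fintype.card F = Nat.card F₀ ^ r ∧ ζ ≠ 0 ∧ Cfsg.Geo.IsFormRationalStructure (Cfsg.sympForm 2 F) F₀ ζ P ∧ H = Cfsg.Geo.subfieldSubgroup F₀ P ⊓ Cfsg.spGL 2 F) ∨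
    (∃ Q : (Fin 2 ⊕ Fin 2 → F) → F, Cfsg.Geo.IsNondegenerateQuadraticForm Q ∧ (∀ u v : (Fin 2 ⊕ Fin 2 → F), QuadraticMap.polar Q u v = (Cfsg.sympForm 2 F) u v) ∧ H = Cfsg.Geo.quadSimilarityGroup Q ⊓ Cfsg.spGL 2 F) ∨
    Cfsg.Geo.InSymplecticResidualClass H := by
  obtain ⟨G, e1, e2, hA⟩ := H5.As.sp_gram F 2
  rw [e2] at hH
  simp only [e1, e2]
  have hc : Fintype.card (Fin 2 ⊕ Fin 2) = 4 := by simp
  rcases H5.As.symp_max hA (by omega) (by omega) hH with (h | ⟨W, h1, h2, h3, h⟩ | ⟨t, k, h1, h2, h3, h5, h⟩ | ⟨k, h1, h⟩ | ⟨r, h1, h2, h⟩ | h |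
    ⟨d, k, h1, h2, h3, h5, h6, h7, e, P, f₁, f₂, h8, h9, h10, h11, h⟩ | h | ⟨k, h1, p, S, h2, h3, h5, h6, h7, h8, h9, h10, h11, h⟩ |
    ⟨k, t, h1, h2, h3, h5, h6, h7, h⟩ | h) | h
  · repeat first | exact .inl h | exact h | right
  · have := H5.As.nondeg_even hA h2
    have := Submodule.one_le_finrank_iff.2 h1
    rw [Nat.even_iff] at *
    omega
  · rw [hc] at h1
    rw [Nat.even_iff] at h3
    have := Nat.le_of_dvd (by norm_num) (Dvd.intro _ h1)
    interval_cases t <;> first | omega | skip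
    · obtain rfl : k = 2 := by omega
      repeat first | exact .inl h | exact h | right
  · exact absurd h.1 heven
  · rw [hc] at h2
    have := Nat.le_of_dvd (by norm_num) h2
    have : r ≤ 2 := by omega
    interval_cases r <;> first | omega | (exfalso; revert h1; decide) | repeat first | exact .inl h | exact h | right
  · exact absurd h.1 heven
  · exact absurd h7 heven
  · repeat first | exact .inl h | exact h | right
  · exact absurd (h5 ▸ h3) heven
  · exact absurd h7 heven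
  · replace h := h.2
    repeat first | exact .inl h | exact h | right
  · repeat first | exact .inl h | exact h | right


end Cfsg.Agent.S5790
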