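import Cfsg.Statements.S5805
import Cfsg.Agent.H5.AsS

set_option autoImplicit false
open Cfsg

namespace Cfsg.Agent.S5805

/-- Every maximal subgroup of Sp_6(q) is of one of the listed geometric types or lies in the residual class. Let F be a finite field with q elements, f the standard alternating form on F^6 (coordinates Fin 3 ⊕ Fin 3), and H a maximal subgroup of Sp_6(F) (inside GL_6(F)). Then H is the intersection with Sp_6(F) of one of: the stabiliser of a non-zero totally isotropic subspace; the stabiliser of a non-degenerate 2-space; for q ≥ 3, the stabiliser of a decomposition into three mutually orthogonal non-degenerate 2-spaces; for q odd, of a decomposition into two totally isotropic 3-spaces; the normaliser of a degree-3 subfield K of the matrix algebra, self-adjoint with f(k v, v) = 0; for q odd, the normaliser of a degree-2 subfield closed under adjoints but not self-adjoint; for q odd, q ≥ 5, the stabiliser of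 a tensor decomposition of f into an alternating form on F^2 and a symmetric form on F^3; a subfield group (|F| = |F₀|^r, r prime) whose F₀-structure carries a non-zero multiple of f; for q even, the similarity group of a non-degenerate quadratic form polarising to f — or else H lies in the residual class of the symplectic case. -/
theorem result {F : Type*} [Field F] [Fintype F] (H : Subgroup (Matrix.GeneralLinearGroup (Fin 3 ⊕ Fin 3) F)) (hH : Cfsg.Geo.IsMaximalIn (Cfsg.spGL 3 F) H) :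
    (∃ W : Submodule F (Fin 3 ⊕ Fin 3 → F), W ≠ ⊥ ∧ Cfsg.Geo.IsTotallySingularFor (Cfsg.sympForm 3 F) W ∧ H = Cfsg.Geo.subspaceStabilizer W ⊓ Cfsg.spGL 3 F) ∨
    (∃ W : Submodule F (Fin 3 ⊕ Fin 3 → F), W ≠ ⊥ ∧ Cfsg.Geo.IsNondegenerateOn (Cfsg.sympForm 3 F) W ∧ Module.finrank F W < 3 ∧ H = Cfsg.Geo.subspaceStabilizer W ⊓ Cfsg.spGL 3 F) ∨
    (3 ≤ Fintype.card F ∧ ∃ D : Fin 3 → Submodule F (Fin 3 ⊕ Fin 3 → F), Cfsg.Geo.IsNondegenerateMDecomposition (Cfsg.sympForm 3 F) 2 D ∧ H = Cfsg.Geo.decompositionStabilizer D ⊓ Cfsg.spGL 3 F) ∨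
    (Odd (Fintype.card F) ∧ ∃ D : Fin 2 → Submodule F (Fin 3 ⊕ Fin 3 → F), Cfsg.Geo.IsMDecomposition 3 D ∧ (∀ i, Cfsg.Geo.IsTotallySingularFor (Cfsg.sympForm 3 F) (D i)) ∧ H = Cfsg.Geo.decompositionStabilizer D ⊓ Cfsg.spGL 3 F) ∨
    (∃ K : Subalgebra F (Matrix (Fin 3 ⊕ Fin 3) (Fin 3 ⊕ Fin 3) F), Cfsg.Geo.IsFieldSubalgebra 3 K ∧ Cfsg.Geo.IsSelfAdjointFor (Cfsg.sympForm 3 F) K ∧ (∀ k ∈ K, ∀ v : (Fin 3 ⊕ Fin 3 → F), (Cfsg.sympForm 3 F) (Matrix.mulVec k v) v = 0) ∧ H = Cfsg.Geo.subalgebraNormalizer K ⊓ Cfsg.spGL 3 F) ∨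
    (Odd (Fintype.card F) ∧ ∃ K : Subalgebra F (Matrix (Fin 3 ⊕ Fin 3) (Fin 3 ⊕ Fin 3) F), Cfsg.Geo.IsFieldSubalgebra 2 K ∧ Cfsg.Geo.IsAdjointClosedFor (Cfsg.sympForm 3 F) K ∧ ¬ Cfsg.Geo.IsSelfAdjointFor (Cfsg.sympForm 3 F) K ∧ H = Cfsg.Geo.subalgebraNormalizer K ⊓ Cfsg.spGL 3 F) ∨
    (Odd (Fintype.card F) ∧ 5 ≤ Fintype.card F ∧ ∃ (e : (Fin 3 ⊕ Fin 3) ≃ Fin 2 × Fin 3) (P : Matrix.GeneralLinearGroup (Fin 3 ⊕ Fin 3) F) (f₁ : (Fin 2 → F) → (Fin 2 → F) → F) (f₂ : (Fin 3 → F) → (Fin 3 → F) → F), Cfsg.Geo.IsSymplecticForm f₁ ∧ Cfsg.Geo.IsSymmetricForm f₂ ∧ Cfsg.Geo.IsTensorFormStructure id (Cfsg.sympForm 3 F) f₁ f₂ e P ∧ H = Cfsg.Geo.tensorProductSubgroup 2 3 e P ⊓ Cfsg.spGL 3 F) ∨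
    (∃ (F₀ : Subfield F) (r : ℕ) (P : Matrix.GeneralLinearGroup (Fin 3 ⊕ Fin 3) F) (ζ : F), r.Prime ∧ Fintype.card F = Nat.card F₀ ^ r ∧ ζ ≠ 0 ∧ Cfsg.Geo.IsFormRationalStructure (Cfsg.sympForm 3 F) F₀ ζ P ∧ H = Cfsg.Geo.subfieldSubgroup F₀ P ⊓ Cfsg.spGL 3 F) ∨
    (¬ Odd (Fintype.card F) ∧ ∃ Q : (Fin 3 ⊕ Fin 3 → F) → F, Cfsg.Geo.IsNondegenerateQuadraticForm Q ∧ (∀ u v : (Fin 3 ⊕ Fin 3 → F), QuadraticMap.polar Q u v = (Cfsg.sympForm 3 F) u v) ∧ H = Cfsg.Geo.quadSimilarityGroup Q ⊓ Cfsg.spGL 3 F) ∨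
    Cfsg.Geo.InSymplecticResidualClass H := by
  obtain ⟨G, e1, e2, hA⟩ := H5.As.sp_gram F 3
  rw [e2] at hH
  simp only [e1, e2]
  have hc : Fintype.card (Fin 3 ⊕ Fin 3) = 6 := by simp
  rcases H5.As.symp_max hA (by omega) (by omega) hH with (h | ⟨W, h1, h2, h3, h⟩ | ⟨t, k, h1, h2, h3, h5, h⟩ | ⟨k, h1, h⟩ | ⟨r, h1, h2, h⟩ | h |
    ⟨d, k, h1, h2, h3, h5, h6, h7, e, P, f₁, f₂, h8, h9, h10, h11, h⟩ | h | ⟨k, h1, p, S, h2, h3, h5, h6, h7, h8, h9, h10, h11, h⟩ |
    ⟨k, t, h1, h2, h3, h5, h6, h7, h⟩ | h) | h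
  · repeat first | exact .inl h | exact h | right
  · exact .inr (.inl ⟨W, h1, h2, by omega, h⟩)
  · rw [hc] at h1
    rw [Nat.even_iff] at h3
    have := Nat.le_of_dvd (by norm_num) (Dvd.intro _ h1)
    interval_cases t <;> first | omega | skip
    · obtain rfl : k = 2 := by omega
      replace h := And.intro (h5 rfl) h
      repeat first | exact .inl h | exact h | right
  · obtain rfl : k = 3 := by omega
    repeat first | exact .inl h | exact h | right
  · rw [hc] at h2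
    have := Nat.le_of_dvd (by norm_num) h2
    have : r ≤ 3 := by omega
    interval_cases r <;> first | omega | (exfalso; revert h1; decide) | repeat first | exact .inl h | exact h | right
  · repeat first | exact .inl h | exact h | right
  · rw [hc] at h1
    rw [Nat.even_iff] at h2
    have : d < 5 := by nlinarith
    interval_cases d <;> first | omega | skip
    · obtain rfl : k = 3 := by omega
      repeat first | exact .inl ⟨h7, h6 rfl, e, P, f₁, f₂, h8, h9, h11, h⟩ | right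
  · repeat first | exact .inl h | exact h | right
  · exact absurd (H5.As.eq_of_pow Nat.prime_two h1 (by norm_num : Nat.Prime 3) (by rw [hc]; norm_num)) (by norm_num)
  · have := H5.As.ineq_wreath' h2 h5
    rw [← h1, hc] at this
    have : k < 4 := by nlinarith
    have : t < 6 := by nlinarith
    rw [hc] at h1
    interval_cases k <;> interval_cases t <;> omega
  · repeat first | exact .inl h | exact h | right
  · repeat first | exact .inl h | exact h | right


end Cfsg.Agent.S5805
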