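import Cfsg.Statements.S5811
import Cfsg.Agent.H5.AsU

set_option autoImplicit false
open Cfsg

namespace Cfsg.Agent.S5811

/-- Every maximal subgroup of SU_7(q) is of one of the listed geometric types or lies in the residual class. Let F be the field with q² elements (characteristic p), f the standard unitary form Σ u_i v_i^q on F^7, and H a maximal subgroup of SU_7(q) (inside GL_7(F)). Then H is the intersection with SU_7(q) of one of: the stabiliser of a non-zero totally isotropic subspace; the stabiliser of a non-degenerate 1-, 2- or 3-space; the stabiliser of a decomposition into seven mutually orthogonal non-degenerate 1-spaces; the normaliser of an adjoint-closed degree-7 subfield of the matrix algebra; a subfield group of odd prime index whose F₀-structure carries f; for q odd, a subfield group of index 2 whose F₀-structure carries f; for q = p prime with p ≡ 6 mod 7, or q = p³ with p ≡ 3 or 5 mod 7, the normaliser of an absolutely irreducible 7-group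 R of exponent 7, order 343 and centre of order 7, all of whose characteristic abelian subgroups are cyclic, contained in the similarity group of f — or else H lies in the residual class of the unitary case (modulo scalars H is almost simple, with absolutely irreducible perfect socle preimage realisable over no proper subfield and fixing no non-degenerate quadratic or symplectic form). -/
theorem result {F : Type*} [Field F] [Fintype F] (q : ℕ) (hF : Fintype.card F = q ^ 2) (H : Subgroup (Matrix.GeneralLinearGroup (Fin 7) F)) (hH : Cfsg.Geo.IsMaximalIn (Cfsg.GU 7 F q ⊓ Cfsg.Geo.specialLinear (Fin 7) F) H) :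
    (∃ W : Submodule F (Fin 7 → F), W ≠ ⊥ ∧ Cfsg.Geo.IsTotallySingularFor (Cfsg.hermForm 7 F q) W ∧ H = Cfsg.Geo.subspaceStabilizer W ⊓ (Cfsg.GU 7 F q ⊓ Cfsg.Geo.specialLinear (Fin 7) F)) ∨
    (∃ W : Submodule F (Fin 7 → F), W ≠ ⊥ ∧ Cfsg.Geo.IsNondegenerateOn (Cfsg.hermForm 7 F q) W ∧ 2 * Module.finrank F W < 7 ∧ H = Cfsg.Geo.subspaceStabilizer W ⊓ (Cfsg.GU 7 F q ⊓ Cfsg.Geo.specialLinear (Fin 7) F)) ∨
    (∃ D : Fin 7 → Submodule F (Fin 7 → F), Cfsg.Geo.IsNondegenerateMDecomposition (Cfsg.hermForm 7 F q) 1 D ∧ H = Cfsg.Geo.decompositionStabilizer D ⊓ (Cfsg.GU 7 F q ⊓ Cfsg.Geo.specialLinear (Fin 7) F)) ∨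
    (∃ K : Subalgebra F (Matrix (Fin 7) (Fin 7) F), Cfsg.Geo.IsFieldSubalgebra 7 K ∧ Cfsg.Geo.IsAdjointClosedFor (Cfsg.hermForm 7 F q) K ∧ H = Cfsg.Geo.subalgebraNormalizer K ⊓ (Cfsg.GU 7 F q ⊓ Cfsg.Geo.specialLinear (Fin 7) F)) ∨
    (∃ (F₀ : Subfield F) (r : ℕ) (P : Matrix.GeneralLinearGroup (Fin 7) F), r.Prime ∧ Odd r ∧ Fintype.card F = Nat.card F₀ ^ r ∧ Cfsg.Geo.IsFormRationalStructure (Cfsg.hermForm 7 F q) F₀ 1 P ∧ H = Cfsg.Geo.subfieldSubgroup F₀ P ⊓ (Cfsg.GU 7 F q ⊓ Cfsg.Geo.specialLinear (Fin 7) F)) ∨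
    (Odd q ∧ ∃ (F₀ : Subfield F) (P : Matrix.GeneralLinearGroup (Fin 7) F), Fintype.card F = Nat.card F₀ ^ 2 ∧ Cfsg.Geo.IsFormRationalStructure (Cfsg.hermForm 7 F q) F₀ 1 P ∧ H = Cfsg.Geo.subfieldSubgroup F₀ P ⊓ (Cfsg.GU 7 F q ⊓ Cfsg.Geo.specialLinear (Fin 7) F)) ∨
    (∃ (p : ℕ) (R : Subgroup (Matrix.GeneralLinearGroup (Fin 7) F)), p.Prime ∧ CharP F p ∧ ((q = p ∧ p % 7 = 6) ∨ (q = p ^ 3 ∧ (p % 7 = 3 ∨ p % 7 = 5))) ∧ Cfsg.Geo.IsSymplecticTypeGroup 7 R ∧ Cfsg.Geo.ActsAbsolutelyIrreducibly (Cfsg.Geo.matrixSet R) ∧ R ≤ Cfsg.Geo.similarityGroup (Cfsg.hermForm 7 F q) ∧ Nat.card R = 343 ∧ Nat.card (Subgroup.center R) = 7 ∧ H = Cfsg.Geo.subgroupNormalizer R ⊓ (Cfsg.GU 7 F q ⊓ Cfsg.Geo.specialLinear (Fin 7) F)) ∨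
    Cfsg.Geo.InUnitaryResidualClass H := by
  obtain ⟨e1, e2, hG⟩ := H5.As.gu_gram 7 hF
  rw [e2] at hH
  simp only [e1, e2]
  have hc : Fintype.card (Fin 7) = 7 := by simp
  rcases H5.As.unit_max hG (by omega) (by omega) hH with (h | ⟨W, h1, h2, h3, h⟩ | ⟨t, k, h1, h2, h3, h⟩ | ⟨k, h1, h⟩ | ⟨r, h1, h2, h3, h⟩ |
    ⟨d, k, h1, h2, h3, h5, h⟩ | h | ⟨h0, h⟩ | h | ⟨r, S, p, e, k, h1, h2, h4, h5, h6, h7, h8, h9, h⟩ | ⟨k, t, h1, h2, h3, h5, h⟩) | h
  · repeat first | exact .inl h | exact h | right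
  · exact .inr (.inl ⟨W, h1, h2, by omega, h⟩)
  · rw [hc] at h1
    have := Nat.le_of_dvd (by norm_num) (Dvd.intro _ h1)
    interval_cases t <;> first | omega | skip
    · obtain rfl : k = 1 := by omega
      repeat first | exact .inl h | exact h | right
  · omega
  · rw [hc] at h3
    have := Nat.le_of_dvd (by norm_num) h3
    rw [Nat.odd_iff] at h2
    interval_cases r <;> first | omega | (exfalso; revert h1; decide) | repeat first | exact .inl h | exact h | right
  · rw [hc] at h1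
    have : d < 4 := by nlinarith
    interval_cases d <;> first | omega | skip
  · repeat first | exact .inl h | exact h | right
  · exact absurd h0 (by rw [hc]; decide)
  · repeat first | exact .inl h | exact h | right
  · obtain rfl := H5.As.eq_of_pow h4.prime h1 (by norm_num : Nat.Prime 7) (by rw [hc])
    obtain rfl : k = 1 := Nat.pow_right_injective (by norm_num : 2 ≤ 7) (h1.symm.trans hc)
    obtain ⟨-, h10, h11, h12⟩ := h9.resolve_right fun k => absurd k.1 (by decide)
    obtain ⟨s, h13, h14, h15, h16, h17, h18⟩ := H5.As.c6u_odd hF h4.prime (h10 ▸ h8)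
    have h19 : (q = p ∧ p % 7 = 6) ∨ (q = p ^ 3 ∧ (p % 7 = 3 ∨ p % 7 = 5)) := by
      have : s < 7 := by omega
      generalize p % 7 = a at *
      interval_cases s <;> interval_cases a <;> first | omega | (exfalso; revert h18; decide) | simp [h13]
    repeat first | exact .inl ⟨p, S, h8.1, h8.2.1, h19, h4, h5, h6, h11, h10, h⟩ | right
  · obtain ⟨rfl, rfl⟩ := H5.As.wr_small h2 h3 (by omega)
    omega
  · repeat first | exact .inl h | exact h | right


end Cfsg.Agent.S5811
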