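import Cfsg.Statements.S5814
import Cfsg.Agent.H5.AsO3

set_option autoImplicit false
open Cfsg

namespace Cfsg.Agent.S5814

/-- Every maximal subgroup of Ω_7(q), q odd, is of one of the listed geometric types or lies in the residual class. Let F be a finite field of odd order q, Q the standard quadratic form x₀² + Σ x_i y_i on F^7 (coordinates Unit ⊕ (Fin 3 ⊕ Fin 3)), Ω the commutator subgroup of its isometry group, and H a maximal subgroup of Ω (inside GL_7(F)). Then H is the intersection with Ω of one of: the stabiliser of a non-zero totally singular subspace; the stabiliser of a non-zero non-degenerate subspace of even dimension (not a plus-type plane when q = 3); for q prime, the stabiliser of a decomposition into seven pairwise orthogonal, pairwise isometric non-degenerate 1-spaces; a subfield group (|F| = |F₀|^r, r prime) whose F₀-structure carries Q — or else H lies in the residual class of the orthogonal case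 (modulo scalars H is almost simple, with absolutely irreducible perfect socle preimage realisable over no proper subfield and fixing no non-degenerate unitary form). -/
theorem result {F : Type*} [Field F] [Fintype F] (hodd : Odd (Fintype.card F)) (H : Subgroup (Matrix.GeneralLinearGroup (Unit ⊕ (Fin 3 ⊕ Fin 3)) F)) (hH : Cfsg.Geo.IsMaximalIn (Cfsg.Geo.omegaGL (Cfsg.quadFormOdd 3 F)) H) :
    (∃ W : Submodule F (Unit ⊕ (Fin 3 ⊕ Fin 3) → F), W ≠ ⊥ ∧ Cfsg.Geo.IsTotallySingularQuad (Cfsg.quadFormOdd 3 F) W ∧ H = Cfsg.Geo.subspaceStabilizer W ⊓ Cfsg.Geo.omegaGL (Cfsg.quadFormOdd 3 F)) ∨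
    (∃ W : Submodule F (Unit ⊕ (Fin 3 ⊕ Fin 3) → F), W ≠ ⊥ ∧ Even (Module.finrank F W) ∧ Cfsg.Geo.IsNondegenerateOn (QuadraticMap.polar (Cfsg.quadFormOdd 3 F)) W ∧ ¬ (Fintype.card F = 3 ∧ Module.finrank F W = 2 ∧ Cfsg.Geo.IsPlusTypeOn (Cfsg.quadFormOdd 3 F) W) ∧ H = Cfsg.Geo.subspaceStabilizer W ⊓ Cfsg.Geo.omegaGL (Cfsg.quadFormOdd 3 F)) ∨
    ((Fintype.card F).Prime ∧ ∃ D : Fin 7 → Submodule F (Unit ⊕ (Fin 3 ⊕ Fin 3) → F), Cfsg.Geo.IsOrthogonalMDecomposition (Cfsg.quadFormOdd 3 F) 1 D ∧ H = Cfsg.Geo.decompositionStabilizer D ⊓ Cfsg.Geo.omegaGL (Cfsg.quadFormOdd 3 F)) ∨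
    (∃ (F₀ : Subfield F) (r : ℕ) (P : Matrix.GeneralLinearGroup (Unit ⊕ (Fin 3 ⊕ Fin 3)) F), r.Prime ∧ Fintype.card F = Nat.card F₀ ^ r ∧ Cfsg.Geo.IsQuadFormRationalStructure (Cfsg.quadFormOdd 3 F) F₀ P ∧ H = Cfsg.Geo.subfieldSubgroup F₀ P ⊓ Cfsg.Geo.omegaGL (Cfsg.quadFormOdd 3 F)) ∨
    Cfsg.Geo.InOrthogonalResidualClass H := by
  obtain ⟨G, hΦ, hd⟩ := H5.As.odd_OF hodd 3
  have hc : Fintype.card (Unit ⊕ (Fin 3 ⊕ Fin 3)) = 7 := by simp
  have ho := Nat.odd_iff.1 hodd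
  have hq : 2 ≤ Fintype.card F := Fintype.one_lt_card
  have k := H5.As.orth_max hΦ (by omega) (fun _ => hd) hH
  unfold H5.As.OC at k
  simp only [hc, H5.oddF_Q] at k
  rcases k with (⟨W, h1, h2, h3, h⟩ | ⟨W, h1, h2, h3, h4, h5, h6, h8, h9, h⟩ | h | ⟨t, k, h1, h2, h3, h4, h5, D, hD, h6, h8, h⟩ |
    ⟨k, h1, h2, h3, h4, h⟩ | ⟨k, h1, h2, h3, h⟩ | ⟨r, h1, h2, h3, h4, h5, K, hK, h6, h⟩ | ⟨m', h1, h2, K, hK, h⟩ |
    ⟨d, k, h1, h2, h3, h4, h5, h6, e, P, f₁, f₂, h8, h9, h10, h11, h⟩ | ⟨k, h1, h2, h3, h⟩ |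
    ⟨F₀, r, P, ζ, h1, h2, h3, h4, h5, h6, h⟩ | ⟨k, t, h1, h2, h3, h4, h5, h⟩ | ⟨h1, h⟩) | h
  · exact .inl ⟨W, h1, h2, h⟩
  · exact .inr <| .inl ⟨W, h1, h4 (by decide), h3, fun ⟨a, b, c⟩ => by have := h8 b c; omega, h⟩
  · exact absurd hodd h.1
  · have := Nat.le_of_dvd (by norm_num) (Dvd.intro _ h1)
    interval_cases t <;> first | omega | skip
    · obtain rfl : k = 1 := by omega
      repeat first | exact .inl ⟨h3 rfl, D, hD, h⟩ | exact ⟨h3 rfl, D, hD, h⟩ | right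
  · omega
  · omega
  · have := Nat.le_of_dvd (by norm_num) h2
    interval_cases r <;> first | omega | (exfalso; revert h1; decide) | repeat first | exact .inl ⟨K, hK, h6, h⟩ | exact ⟨K, hK, h6, h⟩ | right
  · omega
  · nlinarith
  · omega
  · repeat first | exact .inl ⟨F₀, r, P, h1, h3, by simpa [h5 (by decide)] using h6, h⟩ | exact ⟨F₀, r, P, h1, h3, by simpa [h5 (by decide)] using h6, h⟩ | right
  · obtain ⟨rfl, rfl⟩ := H5.As.wr_small h2 h3 (by omega)
    omega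
  · exact absurd h1 (by decide)
  · repeat first | exact .inl h | exact h | right


end Cfsg.Agent.S5814
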