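import Cfsg.Statements.S5826
import Cfsg.Agent.H5.AsO3

set_option autoImplicit false
open Cfsg

namespace Cfsg.Agent.S5826

/-- Every maximal subgroup of Ω_8^-(q) is of one of the listed geometric types or lies in the residual class. Let F be a finite field with q elements, Q a non-degenerate quadratic form on F^8 of minus type (no totally singular 4-space), Ω the commutator subgroup of its isometry group, and H a maximal subgroup of Ω (inside GL_8(F)). Then H is the intersection with Ω of one of: the stabiliser of a non-zero totally singular subspace; for q odd, the stabiliser of a non-degenerate subspace of odd dimension; the stabiliser of a non-degenerate 2-space of minus type; for q ≥ 4, the stabiliser of a non-degenerate 2-space of plus type; the stabiliser of a non-degenerate 4-space; for q even, the stabiliser of the span of a non-singular vector; the normaliser of a degree-2 subfield of the matrix algebra; a subfield group of odd prime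 index whose F₀-structure carries a non-zero multiple of Q — or else H lies in the residual class of the orthogonal case (modulo scalars H is almost simple, with absolutely irreducible perfect socle preimage realisable over no proper subfield and fixing no non-degenerate unitary form). -/
theorem result {F : Type*} [Field F] [Fintype F] (Q : (Fin 8 → F) → F) (hQ : Cfsg.Geo.IsNondegenerateQuadraticForm Q) (hminus : ¬ Cfsg.Geo.IsPlusTypeOn Q ⊤) (H : Subgroup (Matrix.GeneralLinearGroup (Fin 8) F)) (hH : Cfsg.Geo.IsMaximalIn (Cfsg.Geo.omegaGL Q) H) :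
    (∃ W : Submodule F (Fin 8 → F), W ≠ ⊥ ∧ Cfsg.Geo.IsTotallySingularQuad Q W ∧ H = Cfsg.Geo.subspaceStabilizer W ⊓ Cfsg.Geo.omegaGL Q) ∨
    (Odd (Fintype.card F) ∧ ∃ W : Submodule F (Fin 8 → F), W ≠ ⊥ ∧ W ≠ ⊤ ∧ Odd (Module.finrank F W) ∧ Cfsg.Geo.IsNondegenerateOn (QuadraticMap.polar Q) W ∧ H = Cfsg.Geo.subspaceStabilizer W ⊓ Cfsg.Geo.omegaGL Q) ∨
    (∃ W : Submodule F (Fin 8 → F), Module.finrank F W = 2 ∧ Cfsg.Geo.IsNondegenerateOn (QuadraticMap.polar Q) W ∧ ¬ Cfsg.Geo.IsPlusTypeOn Q W ∧ H = Cfsg.Geo.subspaceStabilizer W ⊓ Cfsg.Geo.omegaGL Q) ∨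
    (4 ≤ Fintype.card F ∧ ∃ W : Submodule F (Fin 8 → F), Module.finrank F W = 2 ∧ Cfsg.Geo.IsNondegenerateOn (QuadraticMap.polar Q) W ∧ Cfsg.Geo.IsPlusTypeOn Q W ∧ H = Cfsg.Geo.subspaceStabilizer W ⊓ Cfsg.Geo.omegaGL Q) ∨
    (∃ W : Submodule F (Fin 8 → F), Module.finrank F W = 4 ∧ Cfsg.Geo.IsNondegenerateOn (QuadraticMap.polar Q) W ∧ H = Cfsg.Geo.subspaceStabilizer W ⊓ Cfsg.Geo.omegaGL Q) ∨
    (¬ Odd (Fintype.card F) ∧ ∃ v : (Fin 8 → F), Q v ≠ 0 ∧ H = Cfsg.Geo.subspaceStabilizer (Submodule.span F {v}) ⊓ Cfsg.Geo.omegaGL Q) ∨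
    (∃ K : Subalgebra F (Matrix (Fin 8) (Fin 8) F), Cfsg.Geo.IsFieldSubalgebra 2 K ∧ H = Cfsg.Geo.subalgebraNormalizer K ⊓ Cfsg.Geo.omegaGL Q) ∨
    (∃ (F₀ : Subfield F) (r : ℕ) (P : Matrix.GeneralLinearGroup (Fin 8) F) (ζ : F), r.Prime ∧ Odd r ∧ Fintype.card F = Nat.card F₀ ^ r ∧ ζ ≠ 0 ∧ Cfsg.Geo.IsQuadFormRationalStructure (fun v : Fin 8 → F => ζ * Q v) F₀ P ∧ H = Cfsg.Geo.subfieldSubgroup F₀ P ⊓ Cfsg.Geo.omegaGL Q) ∨
    Cfsg.Geo.InOrthogonalResidualClass H := by
  obtain ⟨Φ, G, rfl, hΦ⟩ := H5.As.exists_OF hQ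
  have hc : Fintype.card (Fin 8) = 8 := by simp
  have hq : 2 ≤ Fintype.card F := Fintype.one_lt_card
  have k := H5.As.orth_max hΦ (by omega) (fun h => absurd h (by rw [hc]; decide)) hH
  unfold H5.As.OC at k
  simp only [hc] at k
  rcases k with (⟨W, h1, h2, h3, h⟩ | ⟨W, h1, h2, h3, h4, h5, h6, h8, h9, h⟩ | h | ⟨t, k, h1, h2, h3, h4, h5, D, hD, h6, h8, h⟩ |
    ⟨k, h1, h2, h3, h4, h⟩ | ⟨k, h1, h2, h3, h⟩ | ⟨r, h1, h2, h3, h4, h5, K, hK, h6, h⟩ | ⟨m', h1, h2, K, hK, h⟩ |
    ⟨d, k, h1, h2, h3, h4, h5, h6, e, P, f₁, f₂, h8, h9, h10, h11, h⟩ | ⟨k, h1, h2, h3, h⟩ |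
    ⟨F₀, r, P, ζ, h1, h2, h3, h4, h5, h6, h⟩ | ⟨k, t, h1, h2, h3, h4, h5, h⟩ | ⟨h1, h⟩) | h
  · exact .inl ⟨W, h1, h2, h⟩
  · replace h5 := h5 (by decide)
    have h10 := Submodule.one_le_finrank_iff.2 h1
    rcases Nat.even_or_odd (Module.finrank F W) with e | e; swap
    · exact .inr <| .inl ⟨h9 e, W, h1, h2, e, h3, h⟩
    rw [Nat.even_iff] at e
    by_cases e2 : Module.finrank F W = 2
    · by_cases e3 : Cfsg.Geo.IsPlusTypeOn Φ.Q W
      exacts [.inr <| .inr <| .inr <| .inl ⟨h8 e2 e3, W, e2, h3, e3, h⟩, .inr <| .inr <| .inl ⟨W, e2, h3, e3, h⟩]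
    exact .inr <| .inr <| .inr <| .inr <| .inl ⟨W, by omega, h3, h⟩
  · repeat first | exact .inl h | exact h | right
  · have := Nat.le_of_dvd (by norm_num) (Dvd.intro _ h1)
    interval_cases t <;> first | omega | skip
    · obtain rfl : k = 4 := by omega
      exact (hminus ((h8 (by decide) 0).2 (.inl (by decide)))).elim
    · obtain rfl : k = 2 := by omega
      exact (hminus ((h8 (by decide) 0).2 (.inl (by decide)))).elim
    · obtain rfl : k = 1 := by omega
      obtain ⟨h9, h10⟩ := h5 (by decide)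
      have h11 := h10 4 rfl
      have ho := Nat.odd_iff.1 h9
      have h12 : Fintype.card F % 4 = 1 ∨ Fintype.card F % 4 = 3 := by omega
      exact (hminus (h11.2 (by rcases h12 with e | e <;> simp [Nat.pow_mod, e]))).elim
  · obtain rfl : k = 4 := by omega
    exact absurd h2 (by decide)
  · exact absurd h3 hminus
  · have := Nat.le_of_dvd (by norm_num) h2
    interval_cases r <;> first | omega | (exfalso; revert h1; decide) | repeat first | exact .inl ⟨K, hK, h⟩ | exact ⟨K, hK, h⟩ | right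
  · obtain rfl : m' = 4 := by omega
    repeat first | exact .inl ⟨K, hK, h.2.2.2⟩ | exact ⟨K, hK, h.2.2.2⟩ | right
  · nlinarith
  · exact absurd h3 hminus
  · repeat first | exact .inl ⟨F₀, r, P, ζ, h1, h2 (by decide) hminus, h3, h4, h6, h⟩ | exact ⟨F₀, r, P, ζ, h1, h2 (by decide) hminus, h3, h4, h6, h⟩ | right
  · obtain ⟨rfl, rfl⟩ := H5.As.wr_small h2 h3 (by omega)
    omega
  · exact (hminus (h.resolve_left (by omega)).2).elim
  · repeat first | exact .inl h | exact h | right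


end Cfsg.Agent.S5826
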