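import Cfsg.Statements.S5829
import Cfsg.Agent.H5.AsL

set_option autoImplicit false
open Cfsg

namespace Cfsg.Agent.S5829

set_option synthInstance.maxSize 4000

/-- Every maximal subgroup of SL_9(q) is of one of the listed geometric types or lies in the residual class. Let F be a finite field with q elements (p its characteristic) and H a maximal subgroup of SL_9(F) (inside GL_9(F)). Then H is the intersection with SL_9(F) of one of: the stabiliser of a proper non-zero subspace; for q ≥ 5, the stabiliser of a decomposition into 9 independent 1-spaces; the stabiliser of a decomposition into 3 independent 3-spaces; the normaliser of a degree-3 subfield of the matrix algebra; a subfield group for a subfield F₀ with |F| = |F₀|^r, r prime; for q = p prime with p ≡ 1 mod 3, the normaliser of an absolutely irreducible 3-subgroup R of exponent 3 and order 3^(1+2m) with centre of order 3, all of whose characteristic abelian subgroups are cyclic, F being the smallest field of characteristic p containing the cube roots of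 unity (here R is extraspecial of order 3^5); the stabiliser of a tensor decomposition into 2 factors of dimension 3; for q odd, the similarity group of a non-degenerate quadratic form; the similarity group of a non-degenerate unitary form — or else H lies in the residual class of the linear case (modulo scalars H is almost simple, with absolutely irreducible perfect socle preimage realisable over no proper subfield and fixing no non-degenerate quadratic, symplectic or unitary form). -/
theorem result {F : Type*} [Field F] [Fintype F] (H : Subgroup (Matrix.GeneralLinearGroup (Fin 9) F)) (hH : Cfsg.Geo.IsMaximalIn (Cfsg.Geo.specialLinear (Fin 9) F) H) :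
    (∃ W : Submodule F (Fin 9 → F), W ≠ ⊥ ∧ W ≠ ⊤ ∧ H = Cfsg.Geo.subspaceStabilizer W ⊓ Cfsg.Geo.specialLinear (Fin 9) F) ∨
    (5 ≤ Fintype.card F ∧ ∃ D : Fin 9 → Submodule F (Fin 9 → F), Cfsg.Geo.IsMDecomposition 1 D ∧ H = Cfsg.Geo.decompositionStabilizer D ⊓ Cfsg.Geo.specialLinear (Fin 9) F) ∨
    (∃ D : Fin 3 → Submodule F (Fin 9 → F), Cfsg.Geo.IsMDecomposition 3 D ∧ H = Cfsg.Geo.decompositionStabilizer D ⊓ Cfsg.Geo.specialLinear (Fin 9) F) ∨
    (∃ K : Subalgebra F (Matrix (Fin 9) (Fin 9) F), Cfsg.Geo.IsFieldSubalgebra 3 K ∧ H = Cfsg.Geo.subalgebraNormalizer K ⊓ Cfsg.Geo.specialLinear (Fin 9) F) ∨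
    (∃ (F₀ : Subfield F) (r : ℕ) (P : Matrix.GeneralLinearGroup (Fin 9) F), r.Prime ∧ Fintype.card F = Nat.card F₀ ^ r ∧ H = Cfsg.Geo.subfieldSubgroup F₀ P ⊓ Cfsg.Geo.specialLinear (Fin 9) F) ∨
    ((∃ p : ℕ, p.Prime ∧ Fintype.card F = p ∧ (p % 3 = 1)) ∧ ∃ R : Subgroup (Matrix.GeneralLinearGroup (Fin 9) F), Cfsg.Geo.IsLinearSymplecticTypeData 3 R ∧ H = Cfsg.Geo.subgroupNormalizer R ⊓ Cfsg.Geo.specialLinear (Fin 9) F) ∨
    (∃ (e : Fin 9 ≃ (Fin 2 → Fin 3)) (P : Matrix.GeneralLinearGroup (Fin 9) F), H = Cfsg.Geo.tensorWreathSubgroup 3 2 e P ⊓ Cfsg.Geo.specialLinear (Fin 9) F) ∨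
    (Odd (Fintype.card F) ∧ ∃ Q : (Fin 9 → F) → F, Cfsg.Geo.IsNondegenerateQuadraticForm Q ∧ H = Cfsg.Geo.quadSimilarityGroup Q ⊓ Cfsg.Geo.specialLinear (Fin 9) F) ∨
    (∃ (σ : F ≃+* F) (f : (Fin 9 → F) → (Fin 9 → F) → F), Cfsg.Geo.IsUnitaryForm σ f ∧ H = Cfsg.Geo.similarityGroup f ⊓ Cfsg.Geo.specialLinear (Fin 9) F) ∨
    Cfsg.Geo.InLinearResidualClass H := by
  rcases H5.As.lin_max (by simp) hH with (h | ⟨t, m, h1, h2, h4, h5, h⟩ | ⟨r, h1, h2, h⟩ | ⟨d, k, h1, h2, h4, h5, h⟩ | h |
    ⟨r, k, h1, h2, S, hS, h⟩ | ⟨m, t, h1, h2, h4, h⟩ | h | ⟨h1, h⟩ | h) | h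
  · repeat first | exact .inl h | exact h | right
  · rw [Fintype.card_fin] at h1
    have := Nat.le_of_dvd (by norm_num) (Dvd.intro _ h1)
    interval_cases t <;> first | omega | skip
    · obtain rfl : m = 3 := by omega
      repeat first | exact .inl h | exact h | right
    · obtain rfl : m = 1 := by omega
      replace h := And.intro (h4 rfl) h
      repeat first | exact .inl h | exact h | right
  · rw [Fintype.card_fin] at h2
    have := Nat.le_of_dvd (by norm_num) h2
    interval_cases r <;> first | omega | (exfalso; revert h1; decide) | repeat first | exact .inl h | exact h | right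
  · rw [Fintype.card_fin] at h1
    have : d < 4 := by nlinarith
    interval_cases d <;> first | omega | skip
  · repeat first | exact .inl h | exact h | right
  · rw [Fintype.card_fin] at h2
    obtain rfl := H5.As.eq_of_pow h1 h2 (by norm_num : Nat.Prime 3) (by norm_num)
    obtain ⟨p, e, hp, hc, hF, h6⟩ := H5.As.c6_field hS (by simp)
    replace h6 := h6.resolve_left (by omega)
    obtain ⟨rfl, h7⟩ := (by decide : ∀ a < (3 : ℕ), ∀ e < (3 : ℕ), e % 2 = 1 ∧ a ^ e % 3 = 1 ∧ (∀ d < e, 0 < d → a ^ d % 3 ≠ 1) → e = 1 ∧ a = 1)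
      _ h6.2.2.1 _ h6.2.2.2.1 ⟨h6.2.1, h6.2.2.2.2⟩
    replace h := And.intro (Exists.intro (p := fun p => p.Prime ∧ Fintype.card F = p ∧ p % 3 = 1) p ⟨hp, by simpa using hF, h7⟩) (Exists.intro (p := fun S => _ ∧ H = Cfsg.Geo.subgroupNormalizer S ⊓ _) S ⟨hS, h⟩)
    repeat first | exact .inl h | exact h | right
  · rw [Fintype.card_fin] at h1
    obtain ⟨rfl, rfl⟩ := H5.As.wr_small h2 h4 (by omega)
    repeat first | exact .inl h | exact h | right
  · repeat first | exact .inl h | exact h | right
  · exact absurd h1 (by decide)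
  · repeat first | exact .inl h | exact h | right
  · repeat first | exact .inl h | exact h | right


end Cfsg.Agent.S5829
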