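import Cfsg.Statements.S5943
import Cfsg.Agent.H5.PSL2Max

set_option autoImplicit false
open Cfsg

namespace Cfsg.Agent.S5943

open H5

/-- Let K and F be finite fields of characteristic 2 with #K = q > 2 and #F = q^r for a prime r. Then PSL_2(F) has a maximal subgroup isomorphic to PSL_2(K) (which equals PGL_2(K) in characteristic 2). -/
theorem result {F K : Type*} [Field F] [Fintype F] [Field K] [Fintype K] (q r : ℕ) (hK : Fintype.card K = q) (hF : Fintype.card F = q ^ r) (hq : Even q) (hq2 : q ≠ 2) (hr : r.Prime) : ∃ H : Subgroup (Matrix.ProjectiveSpecialLinearGroup (Fin 2) F), IsCoatom H ∧ Nonempty (H ≃* Matrix.ProjectiveSpecialLinearGroup (Fin 2) K) := by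
  subst hK
  obtain ⟨k0, hk⟩ := exists_subfield_of_field hF
  have := Fintype.one_lt_card (α := K)
  have he : Even (Fintype.card F) := hF ▸ hq.pow_of_ne_zero hr.ne_zero
  exact exists_psl_coatom (subPGL_covBy (by omega) hr (hk ▸ hF) (PS_eq_top he ▸ le_top))
    (subPSL_eq_subPGL (k0 := k0) he ▸ subPSL_equiv k0 hk.symm)


end Cfsg.Agent.S5943
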