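import Cfsg.Statements.S5944
import Cfsg.Agent.H5.Sym

set_option autoImplicit false
open Cfsg

namespace Cfsg.Agent.S5944

open H5 Equiv Equiv.Perm Subgroup

/-- For n ≠ 4, every proper subgroup of the symmetric group S_n other than the alternating group A_n has index at least n. -/
theorem result (n : ℕ) (hn : n ≠ 4) (H : Subgroup (Equiv.Perm (Fin n))) (hH : H ≠ ⊤) (hA : H ≠ alternatingGroup (Fin n)) : n ≤ H.index := by
  by_contra hlt
  have h0 : H.index ≠ 0 := Subgroup.index_ne_zero_of_finite
  have h1 : H.index ≠ 1 := by rwa [Ne, Subgroup.index_eq_one]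
  have h2 : H.index ≠ 2 := fun h => hA (eq_alternatingGroup_of_index_eq_two h)
  have h5 : 5 ≤ n := by omega
  have h : H.normalCore.index ∣ H.index.factorial := by
    rw [normalCore_eq_ker, index_ker, index_eq_card, ← Nat.card_perm]
    exact card_subgroup_dvd_card (MulAction.toPermHom _ (_ ⧸ H)).range
  rcases H.normalCore.bot_or_nontrivial with e | e
  · rw [e, index_bot, Nat.card_perm, Nat.card_eq_fintype_card, Fintype.card_fin] at h
    exact absurd (Nat.le_of_dvd (Nat.factorial_pos _) h) (not_le.2 ((Nat.factorial_lt (by omega)).2 (by omega)))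
  · have := index_dvd_of_le ((alternatingGroup_le_of_normal (by simpa) e).trans H.normalCore_le)
    have : Nontrivial (Fin n) := Fin.nontrivial_iff_two_le.2 (by omega)
    rw [alternatingGroup.index_eq_two] at *
    have := Nat.le_of_dvd two_pos ‹_›
    omega


end Cfsg.Agent.S5944
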