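import Cfsg.Statements.S5945
import Cfsg.Agent.H8.Cl7
-- import your own Cfsg.Agent.* helpers here

set_option autoImplicit false
set_option maxRecDepth 200000
open Cfsg

namespace Cfsg.Agent.S5945

/-- The symmetric group S_6 has exactly 12 subgroups of index 6; each of them is isomorphic to S_5, and at least one of them is not the stabilizer of any point. -/
theorem result : Nat.card {H : Subgroup (Equiv.Perm (Fin 6)) // H.index = 6} = 12 ∧ (∀ H : Subgroup (Equiv.Perm (Fin 6)), H.index = 6 → Nonempty (H ≃* Equiv.Perm (Fin 5))) ∧ ∃ H : Subgroup (Equiv.Perm (Fin 6)), H.index = 6 ∧ ∀ a : Fin 6, H ≠ MulAction.stabilizer (Equiv.Perm (Fin 6)) a := by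
  open H8.Cl7 MulAction in
  obtain ⟨τ, h1, h2⟩ := main
  refine ⟨?_, fun H hH => ?_, _, (h2 _).2 ⟨0, Or.inr rfl⟩, h1 0⟩
  · let f : Fin 6 ⊕ Fin 6 → {H : Subgroup S6 // H.index = 6} := Sum.elim (fun a => ⟨_, (h2 _).2 ⟨a, Or.inl rfl⟩⟩) fun a => ⟨_, (h2 _).2 ⟨a, Or.inr rfl⟩⟩
    have : Function.Bijective f := by
      refine ⟨?_, fun ⟨H, hH⟩ => ?_⟩
      · rintro (a | a) (b | b) e <;> replace e := congrArg Subtype.val e
        · exact congrArg _ (stab_inj e)
        · exact (h1 _ _ e.symm).elim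
        · exact (h1 _ _ e).elim
        · exact congrArg _ (stab_inj (Subgroup.comap_injective τ.surjective e))
      · obtain ⟨a, rfl | rfl⟩ := (h2 H).1 hH
        exacts [⟨.inl a, rfl⟩, ⟨.inr a, rfl⟩]
    rw [← Nat.card_eq_of_bijective f this]; simp
  · obtain ⟨a, rfl | rfl⟩ := (h2 H).1 hH
    · exact stab_iso a
    · exact ⟨((τ.subgroupMap _).trans (MulEquiv.subgroupCongr (Subgroup.map_comap_eq_self_of_surjective τ.surjective _))).trans (stab_iso a).some⟩

end Cfsg.Agent.S5945
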