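import Cfsg.Statements.S5949
import Cfsg.Agent.H5.Li2

set_option autoImplicit false
open scoped MatrixGroups
open Cfsg

namespace Cfsg.Agent.S5949

open H5 Module Matrix Pointwise

/-- Elements of prime order of PSL_n(q) with no fixed `m`-space. Here `T = PSL_n(F)` for a field `F` with `q = p^f` elements (`n ≥ 2`, `(n, q) ≠ (2, 2), (2, 3)`); an element of `T` of prime order `r` is represented by a matrix `x` of determinant 1 with `x^r` scalar and `x` not scalar; `i` denotes the multiplicative order of `q` modulo `r` (when `r ≠ p`), and `(a)_r` the `r`-part of `a`. Let `1 ≤ m ≤ n/2` and let `r` be a prime dividing the number of `m`-dimensional subspaces of `F^n`. Then every element of `T` of order `r` fixes some `m`-dimensional subspace (the action on `m`-spaces is `r`-elusive) if and only if `r ≠ p` and either (i) `i = 1` and (`r ∣ m`, or `(q−1)_r ≥ (n)_r` where in addition `q ≡ 1 (mod 4)` is required when `r = 2` and `n` is even), or (ii) `2 ≤ i ≤ m`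 and `n mod i ≥ m mod i`. -/
theorem result {F : Type*} [Field F] [Fintype F] {p : ℕ} [Fact p.Prime] [CharP F p] {q : ℕ} (hq : Fintype.card F = q)
    (n m : ℕ) (hn : 2 ≤ n) (hT : (n, q) ≠ (2, 2) ∧ (n, q) ≠ (2, 3)) (hm : 1 ≤ m) (hmn : 2 * m ≤ n)
    (r : ℕ) [Fact r.Prime] (hrΩ : r ∣ Nat.card {W : Submodule F (Fin n → F) // Module.finrank F ↥W = m}) :
    (∀ x : Matrix.SpecialLinearGroup (Fin n) F,
      (∃ c : F, ((x ^ r : Matrix.SpecialLinearGroup (Fin n) F) : Matrix (Fin n) (Fin n) F) = c • (1 : Matrix (Fin n) (Fin n) F)) →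
      (∀ c : F, (x : Matrix (Fin n) (Fin n) F) ≠ c • (1 : Matrix (Fin n) (Fin n) F)) →
      ∃ W : Submodule F (Fin n → F), Module.finrank F ↥W = m ∧ W.map (Matrix.toLin' (x : Matrix (Fin n) (Fin n) F)) ≤ W) ↔
    (r ≠ p ∧
      ((orderOf (q : ZMod r) = 1 ∧ (r ∣ m ∨ (padicValNat r n ≤ padicValNat r (q - 1) ∧ (r = 2 → Even n → q % 4 = 1)))) ∨
       (2 ≤ orderOf (q : ZMod r) ∧ orderOf (q : ZMod r) ≤ m ∧ m % orderOf (q : ZMod r) ≤ n % orderOf (q : ZMod r)))) := by
  subst hq
  haveI : NeZero n := ⟨by omega⟩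
  by_cases rp : r = p
  · subst rp
    refine (not_dvd_flags (F := F) r (n := n) (a := m) le_rfl (by omega) (hrΩ.trans (Nat.card_congr ⟨fun W => ⟨(W.1, W.1), le_rfl, W.2, W.2⟩, fun P => ⟨P.1.1, P.2.2.1⟩,
      fun _ => rfl, fun P => Subtype.ext (Prod.ext rfl (Submodule.eq_of_le_of_finrank_eq P.2.1 (P.2.2.1.trans P.2.2.2.symm)))⟩).dvd)).elim
  have r0 := cast_ne (F := F) p Fact.out rp
  refine (forall_congr' fun x => imp_congr_right fun _ => imp_congr_right fun _ => (?_ : _ ↔ Fl (glEquiv (SpecialLinearGroup.toGL x)) m m)).trans ?_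
  · exact ⟨fun ⟨W, a, b⟩ => ⟨W, W, le_rfl, a, a, map_le_iff.1 b, map_le_iff.1 b⟩, fun ⟨W, _, _, a, _, b, _⟩ => ⟨W, a, map_le_iff.2 b⟩⟩
  refine (elg_sl (P := fun g : (Fin n → F) ≃ₗ[F] _ => Fl g m m)).trans ((elg_fl r0 rfl le_rfl (by simp; omega)).trans ?_)
  obtain ⟨W, -, w⟩ := exists_le_finrank_eq (⊤ : Submodule F (Fin n → F)) (show m ≤ _ by simp; omega)
  obtain ⟨C, c⟩ := W.exists_isCompl
  have := Submodule.finrank_add_eq_of_isCompl c
  have k := exists_mult_ord r0 W _ (fun Y => ⟨fun h => (exists_flag_map le_rfl le_rfl (w.trans h.symm) (w.trans h.symm)).imp fun _ h => h.1,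
    by rintro ⟨g, rfl⟩; exact (LinearEquiv.finrank_map_eq ..).trans w⟩) c.symm (fun t => smul_eq_iff.2 fun v hv => (sumAut_right c.symm (t, 1) ⟨v, hv⟩).symm ▸ hv) hrΩ
  have i0 := ord_pos Fact.out r0
  simp only [finrank_fintype_fun_eq_card, Fintype.card_fin] at *
  generalize orderOf (Fintype.card F : ZMod r) = i at *
  split_ifs with h
  · simp [h, rp]
  obtain ⟨h1, h2, h3, h4, h5⟩ := div_split i0 (show m ≤ n by omega)
  simp only [h, rp, false_and, false_or, ne_eq, not_false_iff, true_and, h4, Nat.sub_self, Nat.zero_div, show finrank F C = n - m by omega] at k ⊢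
  generalize n / i = A, m / i = B, (n - m) / i = C, n % i = x, m % i = y, (n - m) % i = z at *
  omega


end Cfsg.Agent.S5949
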