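import Cfsg.Statements.S5950
import Cfsg.Agent.H5.Li2

set_option autoImplicit false
open scoped MatrixGroups
open Cfsg

namespace Cfsg.Agent.S5950

open H5 Module Matrix Pointwise

/-- Elements of prime order of PSL_n(q) fixing no decomposition `F^n = U ⊕ W` with `dim U = m`. Here `T = PSL_n(F)` for a field `F` with `q = p^f` elements (`n ≥ 2`, `(n, q) ≠ (2, 2), (2, 3)`); an element of `T` of prime order `r` is represented by a matrix `x` of determinant 1 with `x^r` scalar and `x` not scalar; `i` denotes the multiplicative order of `q` modulo `r` (when `r ≠ p`), and `(a)_r` the `r`-part of `a`. Let `n ≥ 3`, `1 ≤ m < n/2`, and let `r` be a prime dividing the number of such decompositions (unordered pairs `{U, W}` of complementary subspaces with `dim U = m`; since `m ≠ n − m` these are the ordered pairs with `dim U = m`). Then every element of `T` of order `r` fixes such a pair (fixes both `U` and `W` for some complementary `U, W` with `dim U = m`) if and only if one of: (i) `r = p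 > 2` and every partition of `n` into parts of size at most `p` contains, as a sub-multiset, a partition of `m`; (ii) `r = p = 2` and `n` is odd or `m` is even; (iii) `r ≠ p`, `i = 1`, and `r ∣ m` or `(q−1)_r ≥ (n)_r` (with `q ≡ 1 (mod 4)` required when `r = 2` and `n` is even); (iv) `r ≠ p`, `2 ≤ i ≤ m` and `n mod i ≥ m mod i`. -/
theorem result {F : Type*} [Field F] [Fintype F] {p : ℕ} [Fact p.Prime] [CharP F p] {q : ℕ} (hq : Fintype.card F = q)
    (n m : ℕ) (hn : 3 ≤ n) (hm : 1 ≤ m) (hmn : 2 * m < n)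
    (r : ℕ) [Fact r.Prime]
    (hrΩ : r ∣ Nat.card {P : Submodule F (Fin n → F) × Submodule F (Fin n → F) // IsCompl P.1 P.2 ∧ Module.finrank F ↥P.1 = m}) :
    (∀ x : Matrix.SpecialLinearGroup (Fin n) F,
      (∃ c : F, ((x ^ r : Matrix.SpecialLinearGroup (Fin n) F) : Matrix (Fin n) (Fin n) F) = c • (1 : Matrix (Fin n) (Fin n) F)) →
      (∀ c : F, (x : Matrix (Fin n) (Fin n) F) ≠ c • (1 : Matrix (Fin n) (Fin n) F)) →
      ∃ U W : Submodule F (Fin n → F), IsCompl U W ∧ Module.finrank F ↥U = m ∧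
        U.map (Matrix.toLin' (x : Matrix (Fin n) (Fin n) F)) ≤ U ∧ W.map (Matrix.toLin' (x : Matrix (Fin n) (Fin n) F)) ≤ W) ↔
    ((r = p ∧ 2 < p ∧ (∀ μ : Multiset ℕ, (∀ a ∈ μ, 0 < a ∧ a ≤ p) → μ.sum = n → ∃ ν : Multiset ℕ, ν ≤ μ ∧ ν.sum = m)) ∨
     (r = p ∧ p = 2 ∧ (Odd n ∨ Even m)) ∨
     (r ≠ p ∧
      ((orderOf (q : ZMod r) = 1 ∧ (r ∣ m ∨ (padicValNat r n ≤ padicValNat r (q - 1) ∧ (r = 2 → Even n → q % 4 = 1)))) ∨
       (2 ≤ orderOf (q : ZMod r) ∧ orderOf (q : ZMod r) ≤ m ∧ m % orderOf (q : ZMod r) ≤ n % orderOf (q : ZMod r))))) := by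
  subst hq
  haveI : NeZero n := ⟨by omega⟩
  have p2 := (Fact.out : p.Prime).two_le
  refine (forall_congr' fun x => imp_congr_right fun _ => imp_congr_right fun _ => (?_ : _ ↔ Sp (glEquiv (SpecialLinearGroup.toGL x)) m)).trans ?_
  · simp only [Sp, ← map_le_iff]; rfl
  refine (elg_sl (P := fun g : (Fin n → F) ≃ₗ[F] _ => Sp g m)).trans ?_
  by_cases rp : r = p
  · subst rp
    rw [elg_sp r (by simp; omega)]
    simp only [true_and, ne_eq, not_true, false_and, or_false, finrank_fintype_fun_eq_card, Fintype.card_fin]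
    by_cases r2 : r = 2
    · subst r2
      simpa using part_two hmn
    · simp [r2, show 2 < r by omega]
  have r0 := cast_ne (F := F) p Fact.out rp
  refine (forall₂_congr fun g _ => imp_congr_right fun ⟨z, hz⟩ => imp_congr_right fun _ => sp_iff r0 hz).trans ((elg_fl r0 rfl le_rfl (by simp; omega)).trans ?_)
  obtain ⟨W, -, w⟩ := exists_le_finrank_eq (⊤ : Submodule F (Fin n → F)) (show m ≤ _ by simp; omega)
  obtain ⟨C, c⟩ := W.exists_isCompl
  have := Submodule.finrank_add_eq_of_isCompl c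
  have k := exists_mult_ord r0 (W, C) _ (fun Y => ⟨fun h => (exists_compl_map c h.1 (w.trans h.2.symm)).imp fun _ h => Prod.ext h.1 h.2,
    by rintro ⟨g, rfl⟩; exact ⟨(Submodule.orderIsoMapComap g).isCompl c, (LinearEquiv.finrank_map_eq ..).trans w⟩⟩) c.symm (fun t => Prod.ext
      (smul_eq_iff.2 fun v hv => (sumAut_right c.symm (t, 1) ⟨v, hv⟩).symm ▸ hv) (smul_eq_iff.2 fun v hv => (sumAut_left c.symm (t, 1) ⟨v, hv⟩).symm ▸ (t _).2)) hrΩ
  have i0 := ord_pos Fact.out r0
  simp only [finrank_fintype_fun_eq_card, Fintype.card_fin] at *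
  generalize orderOf (Fintype.card F : ZMod r) = i at *
  split_ifs with h
  · simp [h, rp]
  obtain ⟨h1, h2, h3, h4, h5⟩ := div_split i0 (show m ≤ n by omega)
  simp only [h, rp, false_and, false_or, ne_eq, not_false_iff, true_and, h4, Nat.sub_self, Nat.zero_div, show finrank F C = n - m by omega] at k ⊢
  generalize n / i = A, m / i = B, (n - m) / i = C, n % i = x, m % i = y, (n - m) % i = z at *
  omega


end Cfsg.Agent.S5950
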