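import Cfsg.Statements.S5951
import Cfsg.Agent.H5.Li2

set_option autoImplicit false
open scoped MatrixGroups
open Cfsg

namespace Cfsg.Agent.S5951

open H5 Module Matrix Pointwise

/-- Elements of prime order of PSL_n(q) fixing no pair of subspaces `U < W` with `dim U = m`, `dim W = n − m`. Here `T = PSL_n(F)` for a field `F` with `q = p^f` elements (`n ≥ 2`, `(n, q) ≠ (2, 2), (2, 3)`); an element of `T` of prime order `r` is represented by a matrix `x` of determinant 1 with `x^r` scalar and `x` not scalar; `i` denotes the multiplicative order of `q` modulo `r` (when `r ≠ p`), and `(a)_r` the `r`-part of `a`. Let `1 ≤ m < n/2` and let `r` be a prime dividing the number of such pairs. Then every element of `T` of order `r` fixes such a pair (both `U` and `W`) if and only if `r ≠ p` and either (i) `i = 1` and (`r ∣ m`, or `(q−1)_r ≥ (n)_r` with `q ≡ 1 (mod 4)` required when `r = 2` and `n` is even), or (ii) `2 ≤ i ≤ m` and `n mod i ≥ 2 (m mod i)`. -/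
theorem result {F : Type*} [Field F] [Fintype F] {p : ℕ} [Fact p.Prime] [CharP F p] {q : ℕ} (hq : Fintype.card F = q)
    (n m : ℕ) (hn : 2 ≤ n) (hT : (n, q) ≠ (2, 2) ∧ (n, q) ≠ (2, 3)) (hm : 1 ≤ m) (hmn : 2 * m < n)
    (r : ℕ) [Fact r.Prime]
    (hrΩ : r ∣ Nat.card {P : Submodule F (Fin n → F) × Submodule F (Fin n → F) //
        P.1 ≤ P.2 ∧ Module.finrank F ↥P.1 = m ∧ Module.finrank F ↥P.2 = n - m}) :
    (∀ x : Matrix.SpecialLinearGroup (Fin n) F,
      (∃ c : F, ((x ^ r : Matrix.SpecialLinearGroup (Fin n) F) : Matrix (Fin n) (Fin n) F) = c • (1 : Matrix (Fin n) (Fin n) F)) →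
      (∀ c : F, (x : Matrix (Fin n) (Fin n) F) ≠ c • (1 : Matrix (Fin n) (Fin n) F)) →
      ∃ U W : Submodule F (Fin n → F), U ≤ W ∧ Module.finrank F ↥U = m ∧ Module.finrank F ↥W = n - m ∧
        U.map (Matrix.toLin' (x : Matrix (Fin n) (Fin n) F)) ≤ U ∧ W.map (Matrix.toLin' (x : Matrix (Fin n) (Fin n) F)) ≤ W) ↔
    (r ≠ p ∧
      ((orderOf (q : ZMod r) = 1 ∧ (r ∣ m ∨ (padicValNat r n ≤ padicValNat r (q - 1) ∧ (r = 2 → Even n → q % 4 = 1)))) ∨
       (2 ≤ orderOf (q : ZMod r) ∧ orderOf (q : ZMod r) ≤ m ∧ 2 * (m % orderOf (q : ZMod r)) ≤ n % orderOf (q : ZMod r)))) := by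
  subst hq
  haveI : NeZero n := ⟨by omega⟩
  by_cases rp : r = p
  · subst rp
    exact (not_dvd_flags (F := F) r (by omega) (by omega) hrΩ).elim
  have r0 := cast_ne (F := F) p Fact.out rp
  refine (forall_congr' fun x => imp_congr_right fun _ => imp_congr_right fun _ => (?_ : _ ↔ Fl (glEquiv (SpecialLinearGroup.toGL x)) m (n - m))).trans ?_
  · simp only [Fl, ← map_le_iff]; rfl
  refine (elg_sl (P := fun g : (Fin n → F) ≃ₗ[F] _ => Fl g m (n - m))).trans ((elg_fl r0 rfl (by omega) (by simp)).trans ?_)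
  obtain ⟨C, -, w⟩ := exists_le_finrank_eq (⊤ : Submodule F (Fin n → F)) (show n - m - m ≤ _ by simp; omega)
  obtain ⟨D, c⟩ := C.exists_isCompl
  have := Submodule.finrank_add_eq_of_isCompl c
  simp only [finrank_fintype_fun_eq_card, Fintype.card_fin] at *
  obtain ⟨U, ud, u⟩ := exists_le_finrank_eq D (show m ≤ _ by omega)
  have e : finrank F ↥(C ⊔ U) = n - m := by rw [finrank_sup_disj (c.disjoint.mono_right ud)]; omega
  have k := exists_mult_ord r0 (U, C ⊔ U) _ (fun Y => ⟨fun h => (exists_flag_map le_sup_right h.1 (u.trans h.2.1.symm) (e.trans h.2.2.symm)).imp fun _ h => Prod.ext h.1 h.2,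
    by rintro ⟨g, rfl⟩; exact ⟨Submodule.map_mono le_sup_right, (LinearEquiv.finrank_map_eq ..).trans u, (LinearEquiv.finrank_map_eq ..).trans e⟩⟩) c (fun t => by
      have a : sumAut c (t, 1) • U = U := smul_eq_iff.2 fun v hv => (sumAut_right c (t, 1) ⟨v, ud hv⟩).symm ▸ hv
      have b : sumAut c (t, 1) • C = C := smul_eq_iff.2 fun v hv => (sumAut_left c (t, 1) ⟨v, hv⟩).symm ▸ (t _).2
      exact Prod.ext a ((Submodule.map_sup ..).trans (congrArg₂ _ b a))) hrΩ
  have i0 := ord_pos Fact.out r0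
  simp only [finrank_fintype_fun_eq_card, Fintype.card_fin] at k
  generalize orderOf (Fintype.card F : ZMod r) = i at *
  split_ifs with h
  · simp only [h, rp, ne_eq, not_false_iff, true_and, Nat.reduceLeDiff, false_and, or_false]
    refine ⟨Or.imp_left And.left, fun H => H.elim (fun a => ?_) .inr⟩
    by_cases b : r ∣ n
    · exact .inl ⟨a, Nat.dvd_sub b a⟩
    · exact .inr ⟨by simp [padicValNat.eq_zero_of_not_dvd b], by rintro rfl e; exact absurd e.two_dvd b⟩
  obtain ⟨h1, h2, h3, h4, h5⟩ := div_split i0 (show m ≤ n by omega)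
  obtain ⟨-, -, h6, -, h7⟩ := div_split i0 (show m ≤ n - m by omega)
  simp only [h, rp, false_and, false_or, ne_eq, not_false_iff, true_and, h4, w, show n - (n - m) = m by omega] at k ⊢
  generalize n / i = A, m / i = B, (n - m) / i = C, n % i = x, m % i = y, (n - m) % i = z, (n - m - m) / i = D, (n - m - m) % i = t at *
  omega


end Cfsg.Agent.S5951
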