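import Cfsg.Statements.S5952
import Cfsg.Agent.H2.Half
import Cfsg.Agent.H5.Count

set_option autoImplicit false
open Cfsg

namespace Cfsg.Agent.S5952

open Module Submodule in

/-- Which dimensions of invariant subspaces a semisimple linear map has. Let `V` be a finite-dimensional vector space over a field `F` and `f` an invertible semisimple linear map of `V`. Suppose `V` is the internal direct sum of the fixed space `C_V(f)` (the eigenspace for 1) and subspaces `U_1, …, U_s`, each `f`-invariant of dimension `a ≥ 1` on which `f` acts irreducibly (no `f`-invariant subspaces other than 0 and `U_j`). Let `0 < m < dim V` and `ℓ = m mod a`. Then `f` leaves some `m`-dimensional subspace invariant if and only if `dim C_V(f) ≥ m`, or `a ≤ m` and `dim C_V(f) ≥ ℓ`. -/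
theorem result {F V : Type*} [Field F] [AddCommGroup V] [Module F V]
    [FiniteDimensional F V] (f : V →ₗ[F] V) (hf : Function.Bijective f) (hss : Module.End.IsSemisimple f)
    {s a : ℕ} (ha : 1 ≤ a) (U : Fin s → Submodule F V)
    (hUinv : ∀ j, (U j).map f ≤ U j) (hUdim : ∀ j, Module.finrank F ↥(U j) = a)
    (hUirr : ∀ j, ∀ W : Submodule F V, W ≤ U j → W.map f ≤ W → W = ⊥ ∨ W = U j)
    (hdec : DirectSum.IsInternal (fun o : Option (Fin s) => o.elim (Module.End.eigenspace f 1) U))
    (m : ℕ) (hm : 0 < m) (hmV : m < Module.finrank F V) :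
    (∃ W : Submodule F V, Module.finrank F ↥W = m ∧ W.map f ≤ W) ↔
    (m ≤ Module.finrank F ↥(Module.End.eigenspace f 1) ∨
      (a ≤ m ∧ m % a ≤ Module.finrank F ↥(Module.End.eigenspace f 1))) := by
  classical
  set C := Module.End.eigenspace f 1 with hC
  have hCinv : C.map f ≤ C := by
    rintro _ ⟨x, hx, rfl⟩
    have := Module.End.mem_eigenspace_iff.1 hx
    rw [this, one_smul]; exact hx
  have hind := hdec.submodule_iSupIndep
  let Z : Finset (Fin s) → Submodule F V := fun S => C ⊔ S.sup U
  have hdis : ∀ (S : Finset (Fin s)) j, j ∉ S → Disjoint (Z S) (U j) := by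
    intro S j hj
    refine ((hind (some j)).mono_right (sup_le ?_ (Finset.sup_le fun i hi => ?_))).symm
    · exact le_iSup₂_of_le none (by simp) le_rfl
    · exact le_iSup₂_of_le (some i) (by rintro h; cases h; exact hj hi) le_rfl
  have hZins : ∀ (S : Finset (Fin s)) j, Z (insert j S) = Z S ⊔ U j := fun S j => by
    simp only [Z, Finset.sup_insert]; rw [sup_comm (U j), sup_assoc]
  have hUs : ∀ S : Finset (Fin s), (S.sup U).map f ≤ S.sup U := by
    intro S
    induction S using Finset.induction_on with
    | empty => simp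
    | insert j S _ ih => rw [Finset.sup_insert, Submodule.map_sup]; exact sup_le_sup (hUinv j) ih
  have hZinv : ∀ S, (Z S).map f ≤ Z S := fun S => by
    rw [Submodule.map_sup]; exact sup_le_sup hCinv (hUs S)
  have hZtop : Z Finset.univ = ⊤ := by
    rw [eq_top_iff, ← hdec.submodule_iSup_eq_top, iSup_le_iff]
    rintro (_ | j)
    · exact le_sup_left
    · exact le_sup_of_le_right (Finset.le_sup (f := U) (Finset.mem_univ j))
  have hdim : ∀ (C' : Submodule F V), C' ≤ C → ∀ S : Finset (Fin s),
      finrank F ↥(C' ⊔ S.sup U) = finrank F C' + S.card * a := by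
    intro C' hC' S
    induction S using Finset.induction_on with
    | empty => rw [Finset.sup_empty, sup_bot_eq]; simp
    | insert j S hj ih =>
      have := finrank_sup_add_finrank_inf_eq (C' ⊔ S.sup U) (U j)
      rw [((hdis S j hj).mono_left (sup_le_sup_right hC' _)).eq_bot, finrank_bot, ih, hUdim] at this
      rw [Finset.sup_insert, sup_comm (U j), ← sup_assoc, Finset.card_insert_of_notMem hj]
      nlinarith
  constructor
  · rintro ⟨W, rfl, hW⟩
    have key : ∀ S : Finset (Fin s), ∃ c t, c ≤ finrank F C ∧ finrank F ↥(W ⊓ Z S) = c + t * a := by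
      intro S
      induction S using Finset.induction_on with
      | empty => exact ⟨_, 0, finrank_mono (show W ⊓ Z ∅ ≤ C by simp [Z]), by simp⟩
      | insert j S hj ih =>
        obtain ⟨c, t, h1, h2⟩ := ih
        set X := (W ⊓ Z (insert j S)) ⊔ Z S with hX
        have hXinv : X.map f ≤ X := by
          rw [hX, Submodule.map_sup]
          exact sup_le_sup ((map_inf_le _).trans (inf_le_inf hW (hZinv _))) (hZinv S)
        have e1 : X = Z S ⊔ (U j ⊓ X) := by
          rw [← sup_inf_assoc_of_le _ (le_sup_right : Z S ≤ X), ← hZins]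
          exact (inf_eq_right.2 (sup_le inf_le_right (hZins S j ▸ le_sup_left))).symm
        have e2 := finrank_sup_add_finrank_inf_eq (W ⊓ Z (insert j S)) (Z S)
        rw [← hX, inf_assoc, inf_eq_right.2 (hZins S j ▸ le_sup_left : Z S ≤ Z (insert j S)), h2] at e2
        have e3 := finrank_sup_add_finrank_inf_eq (Z S) (U j ⊓ X)
        rw [← e1, ((hdis S j hj).mono_right inf_le_left).eq_bot, finrank_bot] at e3
        rcases hUirr j (U j ⊓ X) inf_le_left ((map_inf_le _).trans (inf_le_inf (hUinv j) hXinv)) with h | h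
        · rw [h, finrank_bot] at e3
          exact ⟨c, t, h1, by omega⟩
        · rw [h, hUdim] at e3
          exact ⟨c, t + 1, h1, by rw [add_mul]; omega⟩
    obtain ⟨c, t, h1, h2⟩ := key Finset.univ
    rw [hZtop, inf_top_eq] at h2
    rcases Nat.eq_zero_or_pos t with rfl | ht
    · left; omega
    · right
      rw [h2, Nat.add_mul_mod_self_right]
      exact ⟨by nlinarith, (Nat.mod_le _ _).trans h1⟩
  · intro h
    have htot := hdim C le_rfl Finset.univ
    rw [show C ⊔ Finset.univ.sup U = ⊤ from hZtop, finrank_top, Finset.card_univ, Fintype.card_fin] at htot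
    obtain ⟨c, t, h1, h2, h3⟩ : ∃ c t, c ≤ finrank F C ∧ t ≤ s ∧ m = c + t * a := by
      rcases h with h | ⟨-, h⟩
      · exact ⟨m, 0, h, Nat.zero_le _, by simp⟩
      by_cases h' : m / a ≤ s
      · exact ⟨m % a, m / a, h, h', (Nat.mod_add_div' m a).symm⟩
      · have : s * a ≤ m := (Nat.le_div_iff_mul_le ha).1 (by omega)
        exact ⟨m - s * a, s, by omega, le_rfl, by omega⟩
    obtain ⟨C', hC', hc⟩ := H5.exists_le_finrank_eq C h1
    obtain ⟨S, -, hS⟩ := Finset.exists_subset_card_eq (s := (Finset.univ : Finset (Fin s))) (n := t) (by simpa using h2)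
    refine ⟨C' ⊔ S.sup U, by rw [hdim C' hC' S, hc, hS, h3], ?_⟩
    rw [Submodule.map_sup]
    refine sup_le_sup ?_ (hUs S)
    rintro _ ⟨x, hx, rfl⟩
    have := Module.End.mem_eigenspace_iff.1 (hC' hx)
    rw [this, one_smul]; exact hx

end Cfsg.Agent.S5952
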