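import Cfsg.Statements.S5953
import Cfsg.Agent.H5.Un2

set_option autoImplicit false
open scoped MatrixGroups
open Cfsg

namespace Cfsg.Agent.S5953

open H5 H5.Form Module Matrix Pointwise

/-- Elements of prime order of PSU_n(q) with no fixed totally isotropic `m`-space. Here `T = PSU_n(q)` (`n ≥ 3`, `(n, q) ≠ (3, 2)`), realised through the matrices of determinant 1 over the field `F` with `q²` elements preserving the Hermitian form `h(u, v) = Σ u_i v_i^q`; an element of `T` of prime order `r` is such a matrix `x` with `x^r` scalar and `x` not scalar. For `r ≠ p` let `i` be the multiplicative order of `q` modulo `r`, `b = i/2` for `i` even and `b = i` for `i` odd, `c = i, i/2, 2i` according as `i ≡ 0, 2 (mod 4)` or `i` odd, and write `k = n mod c`, `ℓ = m mod b`, `ℓ' = m mod c`, `n' = ⌊n/b⌋`, `m' = ⌊m/b⌋`, `s = (r−1)/b`; `(a)_r` is the `r`-part of `a`. Let `1 ≤ m ≤ n/2` and let `r` be a prime dividing the number of totally isotropic `m`-spaces. Then every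 element of `T` of order `r` fixes a totally isotropic `m`-space if and only if either (i) `r = 2`, `p ≠ 2`, and (`m < n/2` or `(q+1)_2 ≤ (n)_2`); or (ii) `r ≠ p`, `r > 2`, `b ≤ m`, `k ≥ 2ℓ`, and either `i ≢ 2 (mod 4)`, or `i ≡ 2 (mod 4)`, `n' − 2m' ≥ s` and (`i > 2`, or `i = 2` and (`r ∣ m` or `(q+1)_r ≥ (n)_r`)). -/
theorem result {F : Type*} [Field F] [Fintype F] {p : ℕ} [Fact p.Prime] [CharP F p] {q : ℕ} (hq : Fintype.card F = q ^ 2)
    (n m : ℕ) (hn : 3 ≤ n) (hT : (n, q) ≠ (3, 2)) (hm : 1 ≤ m) (hmn : 2 * m ≤ n)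
    (r : ℕ) [Fact r.Prime]
    (hrΩ : r ∣ Nat.card {W : Submodule F (Fin n → F) // Module.finrank F ↥W = m ∧ (∀ u ∈ W, ∀ v ∈ W, Cfsg.hermForm n F q u v = 0)})
    (i b c : ℕ) (hi : i = orderOf (q : ZMod r)) (hb : b = if Even i then i / 2 else i)
    (hc : c = if i % 4 = 0 then i else if i % 4 = 2 then i / 2 else 2 * i) :
    (∀ x : Matrix.SpecialLinearGroup (Fin n) F, x ∈ Cfsg.SU n F q →
      (∃ z : F, ((x ^ r : Matrix.SpecialLinearGroup (Fin n) F) : Matrix (Fin n) (Fin n) F) = z • (1 : Matrix (Fin n) (Fin n) F)) →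
      (∀ z : F, (x : Matrix (Fin n) (Fin n) F) ≠ z • (1 : Matrix (Fin n) (Fin n) F)) →
      ∃ W : Submodule F (Fin n → F), Module.finrank F ↥W = m ∧ (∀ u ∈ W, ∀ v ∈ W, Cfsg.hermForm n F q u v = 0) ∧
        W.map (Matrix.toLin' (x : Matrix (Fin n) (Fin n) F)) ≤ W) ↔
    ((r = 2 ∧ p ≠ 2 ∧ (2 * m < n ∨ padicValNat 2 (q + 1) ≤ padicValNat 2 n)) ∨
     (r ≠ p ∧ 2 < r ∧ b ≤ m ∧ 2 * (m % b) ≤ n % c ∧
       (i % 4 ≠ 2 ∨ (i % 4 = 2 ∧ (r - 1) / b + 2 * (m / b) ≤ n / b ∧
         (2 < i ∨ (i = 2 ∧ (r ∣ m ∨ padicValNat r n ≤ padicValNat r (q + 1)))))))) := by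
  haveI : Nontrivial (Fin n → F) := nontrivial_of_finrank_pos (R := F) (by simp; omega)
  have N := hermF_nondeg n hq
  have e : finrank F (Fin n → F) = n := by simp
  simp only [← hermF_B n hq, ← unit_ts, ← and_assoc] at hrΩ ⊢
  refine (el_su (hF := hq) (P := fun W => finrank F W = m ∧ (hermF n hq).TS W)).trans ?_
  obtain ⟨W₀, w⟩ := N.unit_hasTS (m := m) (by omega)
  have r1 := (Fact.out : r.Prime).two_le
  by_cases rp : r = p
  · exact (not_dvd_ts p (card_ts_mod 2 numSing_u m N (by omega)) (rp ▸ hrΩ)).elim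
  have r0 := cast_ne (F := F) p Fact.out rp
  by_cases r2 : r = 2
  · subst r2
    have := odd_of_two_ne (F := F) (by simpa using r0)
    rw [hq, ← Nat.odd_iff, Nat.odd_pow_iff two_ne_zero] at this
    rw [elu_iff N w, N.np_part this.add_one.two_dvd fun z np g g1 g2 => np.ts r0 N g1 g2 (by omega), N.ts_inv this.add_one.two_dvd hm (by omega), e]
    simp [Ne.symm rp]
  have B := blk_unit (hF := hq) r2 r0 hi hc
  obtain ⟨T, hc'⟩ := tsk_unit (hF := hq) r2 r0 hi hb hc
  have hb' := ord_sq (hF := hq) hi hb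
  have key := B.ts_fin hb' uniq_unit T N (δ := fun _ => 0) (N := n) (B.hasB_iff N.unit_em)
      (fun k hk => by simpa [mul_comm, e] using (Nat.le_div_iff_mul_le B.pos).1 hk) (fun X x1 _ k hk f => by
        rw [(N.perp_nondeg x1).hasTS_unit, Nat.eq_sub_of_add_eq' (N.finrank_perp X), e, hk, Nat.sub_zero]) hrΩ
  have i0 := hb' ▸ ord_pos Fact.out r0
  have t0 := Nat.div_pos (Nat.le_of_dvd (by omega) (hb' ▸ ord_dvd_pred r0)) i0
  have l := Nat.mod_lt m i0
  have x := Nat.mod_lt n B.pos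
  replace key := key.trans (show _ ↔ b ≤ m ∧ 2 * (m % b) ≤ n % c ∧ (i % 4 ≠ 2 ∨ (r - 1) / b + 2 * (m / b) ≤ n / b) by
    rw [e, ← Nat.one_le_div_iff i0]
    refine and_congr_right fun m0 => ?_
    clear hb hc hb'
    split_ifs at hc' ⊢ with h <;> subst hc' <;> simp only [h, not_true, false_or, not_false_iff, true_or, and_true, ne_eq]
    · refine (forall₂_congr fun k _ => ar_sd (by omega) x).trans ?_
      generalize n / c = A, n % c = y, m / c = B, m % c = z, (r - 1) / c = t at *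
      exact ⟨fun H => by have := H A; have := H (A - 1); omega, fun H k hk => by omega⟩
    · have := (ar_hyp (D := m / b) (u := n / (2 * b)) l.le x).1 (by rw [Nat.div_add_mod, Nat.div_add_mod]; omega)
      refine (forall₂_congr fun k _ => ar_hyp (by omega) x).trans ?_
      generalize n / (2 * b) = A, n % (2 * b) = y, m / b = B, m % b = z at *
      exact ⟨fun H => by have := H A; omega, fun H k hk => by omega⟩)
  simp only [r2, rp, show 2 < r by omega, false_and, false_or, ne_eq, not_false_iff, true_and, and_assoc]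
  by_cases d : r ∣ q + 1
  · have i2 := (two_iff_dvd (hF := hq) r2 r0 hi).2 d
    obtain rfl : b = 1 := by simp [hb, i2]
    obtain rfl : c = 1 := by simp [hc, i2]
    rw [elu_iff N w, N.np_part d fun z np g g1 g2 => np.ts r0 N g1 g2 (by omega), e]
    simp only [i2, Nat.mod_one, Nat.div_one, r2, hm, ne_eq, not_true, false_or, true_and, le_refl, lt_irrefl, false_imp_iff, and_true] at key ⊢
    refine and_congr_left fun _ => ⟨fun H => ?_, fun H g g1 g2 _ => key.2 H g g1 g2⟩
    by_cases k : r ∣ n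
    · obtain ⟨g, g1, g2, g3, g4⟩ := N.exists_diag ((Fact.out : r.Prime).odd_of_ne_two r2) d ((Nat.le_of_dvd (by omega) k).trans e.ge)
      obtain ⟨W, w1, w2⟩ := H g g1 g2 ⟨1, by simp, by simp [g3]⟩
      have := g4 W w1.2 w2
      omega
    · exact key.1 fun g g1 g2 => H g g1 g2 (by simpa using N.det_fix (r := r) (by simpa) g1 g2)
  have i2 := mt (two_iff_dvd (hF := hq) r2 r0 hi).1 d
  rw [elu_cop N w d, key]
  simp only [i2, false_and, or_false]
  refine and_congr_right fun _ => and_congr_right fun _ => ?_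
  omega


end Cfsg.Agent.S5953
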