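import Cfsg.Statements.S5954
import Cfsg.Agent.H5.Un2

set_option autoImplicit false
open scoped MatrixGroups
open Cfsg

namespace Cfsg.Agent.S5954

open H5 H5.Form Module Matrix Pointwise

/-- Elements of prime order of PSU_n(q) with no fixed nondegenerate `m`-space. Here `T = PSU_n(q)` (`n ≥ 3`, `(n, q) ≠ (3, 2)`), realised through the matrices of determinant 1 over the field `F` with `q²` elements preserving the Hermitian form `h(u, v) = Σ u_i v_i^q`; an element of `T` of prime order `r` is such a matrix `x` with `x^r` scalar and `x` not scalar. For `r ≠ p` let `i` be the multiplicative order of `q` modulo `r`, `b = i/2` for `i` even and `b = i` for `i` odd, `c = i, i/2, 2i` according as `i ≡ 0, 2 (mod 4)` or `i` odd, and write `k = n mod c`, `ℓ = m mod b`, `ℓ' = m mod c`, `n' = ⌊n/b⌋`, `m' = ⌊m/b⌋`, `s = (r−1)/b`; `(a)_r` is the `r`-part of `a`. Let `1 ≤ m < n/2` and let `r` be a prime dividing the number of nondegenerate `m`-spaces. Then every element of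 `T` of order `r` fixes a nondegenerate `m`-space if and only if one of: (i) `r = p > 2` and every partition of `n` into parts of size at most `p` contains (as a sub-multiset) a partition of `m`; (ii) `r = p = 2` and (`n` is odd or `m` is even); (iii) `r = 2 ≠ p` and (`n` is odd, or `m` is even, or `(q+1)_2 ≥ (n)_2` and `q ≡ 3 (mod 4)`); (iv) `r ≠ p`, `r > 2`, and either `i ≠ 2`, `c ≤ m` and `k ≥ ℓ'`, or `i = 2` and (`r ∣ m` or `(q+1)_r ≥ (n)_r`). -/
theorem result {F : Type*} [Field F] [Fintype F] {p : ℕ} [Fact p.Prime] [CharP F p] {q : ℕ} (hq : Fintype.card F = q ^ 2)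
    (n m : ℕ) (hn : 3 ≤ n) (hT : (n, q) ≠ (3, 2)) (hm : 1 ≤ m) (hmn : 2 * m < n)
    (r : ℕ) [Fact r.Prime]
    (hrΩ : r ∣ Nat.card {W : Submodule F (Fin n → F) // Module.finrank F ↥W = m ∧ (∀ u ∈ W, u ≠ 0 → ∃ v ∈ W, Cfsg.hermForm n F q u v ≠ 0)})
    (i b c : ℕ) (hi : i = orderOf (q : ZMod r)) (hb : b = if Even i then i / 2 else i)
    (hc : c = if i % 4 = 0 then i else if i % 4 = 2 then i / 2 else 2 * i) :
    (∀ x : Matrix.SpecialLinearGroup (Fin n) F, x ∈ Cfsg.SU n F q →
      (∃ z : F, ((x ^ r : Matrix.SpecialLinearGroup (Fin n) F) : Matrix (Fin n) (Fin n) F) = z • (1 : Matrix (Fin n) (Fin n) F)) →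
      (∀ z : F, (x : Matrix (Fin n) (Fin n) F) ≠ z • (1 : Matrix (Fin n) (Fin n) F)) →
      ∃ W : Submodule F (Fin n → F), Module.finrank F ↥W = m ∧ (∀ u ∈ W, u ≠ 0 → ∃ v ∈ W, Cfsg.hermForm n F q u v ≠ 0) ∧
        W.map (Matrix.toLin' (x : Matrix (Fin n) (Fin n) F)) ≤ W) ↔
    ((r = p ∧ 2 < p ∧ (∀ μ : Multiset ℕ, (∀ a ∈ μ, 0 < a ∧ a ≤ p) → μ.sum = n → ∃ ν : Multiset ℕ, ν ≤ μ ∧ ν.sum = m)) ∨
     (r = p ∧ p = 2 ∧ (Odd n ∨ Even m)) ∨
     (r = 2 ∧ p ≠ 2 ∧ (Odd n ∨ Even m ∨ (padicValNat 2 n ≤ padicValNat 2 (q + 1) ∧ q % 4 = 3))) ∨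
     (r ≠ p ∧ 2 < r ∧ ((i ≠ 2 ∧ c ≤ m ∧ m % c ≤ n % c) ∨ (i = 2 ∧ (r ∣ m ∨ padicValNat r n ≤ padicValNat r (q + 1)))))) := by
  haveI : Nontrivial (Fin n → F) := nontrivial_of_finrank_pos (R := F) (by simp; omega)
  have N := hermF_nondeg n hq
  have e : finrank F (Fin n → F) = n := by simp
  simp only [← hermF_B n hq, nd_iff, ← and_assoc] at hrΩ ⊢
  refine (el_su (hF := hq) (P := fun W => finrank F W = m ∧ ((hermF n hq).res W).Nondeg)).trans ?_
  obtain ⟨W₀, w⟩ := N.unit_nd (m := m) (by omega)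
  have p2 := (Fact.out : p.Prime).two_le
  have r1 := (Fact.out : r.Prime).two_le
  by_cases rp : r = p
  · subst rp
    rw [elu_cop N w fun h => ne_of_dvd (hF := hq) h (CharP.cast_eq_zero F r), N.unip_unit r, e]
    rcases p2.eq_or_lt with rfl | h
    · rw [part_two hmn]; simp
    · simp [h, h.ne']
  have r0 := cast_ne (F := F) p Fact.out rp
  have key : r ≠ 2 → _ := fun r2 => let b := blk_unit (hF := hq) r2 r0 hi hc
    b.el_iff' uniq_unit N w.2 (by simpa only [cl_unit w.2 w.1] using hrΩ) (b.hasB_iff N.unit_em) (b.hasB_iff w.2.unit_em) (b.hasB_iff (N.perp_nondeg w.2).unit_em)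
  have := N.finrank_perp W₀
  simp only [cl_unit w.2 w.1, e, w.1, show finrank F ((hermF n hq).perp W₀) = n - m by omega] at key
  by_cases d : r ∣ q + 1
  · rw [elu_iff N w, N.np_part d fun z np g g1 g2 => np.nd r0 N g1 g2 (by omega), e]
    by_cases r2 : r = 2
    · subst r2
      rw [and_iff_right fun g g1 g2 _ => N.nd_two (by simpa using r0) g1 g2 (by omega)]
      have : Odd n → padicValNat 2 n ≤ padicValNat 2 (q + 1) := fun h => by simp [padicValNat.eq_zero_of_not_dvd h.not_two_dvd_nat]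
      simp only [rp, Ne.symm rp, ← even_iff_two_dvd, ← Nat.not_even_iff_odd, false_and, false_or, and_false, or_false, lt_irrefl, ne_eq, not_false_iff, true_and,
        true_imp_iff] at this ⊢
      clear * - this
      tauto
    have i2 := (two_iff_dvd (hF := hq) r2 r0 hi).2 d
    obtain rfl : c = 1 := by simp [hc, i2]
    rw [and_iff_right fun g g1 g2 _ => (key r2).1.2 (by omega) g g1 g2]
    simp [r2, rp, i2, show 2 < r by omega]
  have r2 : r ≠ 2 := by
    rintro rfl
    have := odd_of_two_ne (F := F) (by simpa using r0)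
    rw [hq, ← Nat.odd_iff, Nat.odd_pow_iff two_ne_zero] at this
    exact d this.add_one.two_dvd
  have i2 := mt (two_iff_dvd (hF := hq) r2 r0 hi).1 d
  obtain ⟨h7, h0⟩ := key r2
  rw [elu_cop N w d, h7]
  obtain ⟨h1, h2, h3, h4, h5⟩ := div_split (blk_unit (hF := hq) r2 r0 hi hc).pos (show m ≤ n by omega)
  simp only [r2, rp, i2, show 2 < r by omega, false_and, false_or, or_false, ne_eq, not_false_iff, true_and, h4]
  clear * - h0 h1 h2 h3 h5
  generalize n / c = A at *; generalize m / c = B at *; generalize (n - m) / c = C at *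
  generalize n % c = x at *; generalize m % c = y at *; generalize (n - m) % c = z at *
  omega


end Cfsg.Agent.S5954
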