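import Cfsg.Statements.S5955
import Cfsg.Agent.H5.Ts2

set_option autoImplicit false
open scoped MatrixGroups
open Cfsg

namespace Cfsg.Agent.S5955

open H5 H5.Form Module Matrix Pointwise

/-- Elements of prime order of PSp_n(q) with no fixed totally isotropic `m`-space. Here `T = PSp_n(q)` with `n = 2d ≥ 4`, `(n, q) ≠ (4, 2)`, realised through the symplectic matrices over the field `F` with `q` elements (preserving the standard alternating form); an element of `T` of prime order `r` is such a matrix `x` with `x^r` scalar and `x` not scalar. For `r ≠ p` let `i` be the multiplicative order of `q` modulo `r`, `c = i` for `i` even and `c = 2i` for `i` odd, and write `k = n mod c`, `ℓ = m mod i`, `ℓ' = m mod c`, `n' = ⌊n/i⌋`, `m' = ⌊m/i⌋`, `t = (r−1)/i`. Let `1 ≤ m ≤ n/2` and let `r` be a prime dividing the number of totally isotropic `m`-spaces. Then every element of `T` of order `r` fixes a totally isotropic `m`-space if and only if either (i)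 `r = 2 ≠ p` and (`m` is even or `q ≡ 1 (mod 4)`); or (ii) `r ≠ p`, `r > 2`, `i ≤ m`, `k ≥ 2ℓ`, and (`i` is odd or `n' − 2m' ≥ t`). -/
theorem result {F : Type*} [Field F] [Fintype F] {p : ℕ} [Fact p.Prime] [CharP F p] {q : ℕ} (hq : Fintype.card F = q)
    (d m : ℕ) (hd : 2 ≤ d) (hT : (d, q) ≠ (2, 2)) (hm : 1 ≤ m) (hmd : m ≤ d)
    (r : ℕ) [Fact r.Prime]
    (hrΩ : r ∣ Nat.card {W : Submodule F (Fin d ⊕ Fin d → F) // Module.finrank F ↥W = m ∧ (∀ u ∈ W, ∀ v ∈ W, Cfsg.sympForm d F u v = 0)})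
    (i c : ℕ) (hi : i = orderOf (q : ZMod r)) (hc : c = if Even i then i else 2 * i) :
    (∀ x : ↥(Matrix.symplecticGroup (Fin d) F),
      (∃ z : F, ((x ^ r : ↥(Matrix.symplecticGroup (Fin d) F)) : Matrix (Fin d ⊕ Fin d) (Fin d ⊕ Fin d) F) = z • (1 : Matrix (Fin d ⊕ Fin d) (Fin d ⊕ Fin d) F)) →
      (∀ z : F, (x : Matrix (Fin d ⊕ Fin d) (Fin d ⊕ Fin d) F) ≠ z • (1 : Matrix (Fin d ⊕ Fin d) (Fin d ⊕ Fin d) F)) →
      ∃ W : Submodule F (Fin d ⊕ Fin d → F), Module.finrank F ↥W = m ∧ (∀ u ∈ W, ∀ v ∈ W, Cfsg.sympForm d F u v = 0) ∧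
        W.map (Matrix.toLin' (x : Matrix (Fin d ⊕ Fin d) (Fin d ⊕ Fin d) F)) ≤ W) ↔
    ((r = 2 ∧ p ≠ 2 ∧ (Even m ∨ q % 4 = 1)) ∨
     (r ≠ p ∧ 2 < r ∧ i ≤ m ∧ 2 * (m % i) ≤ (2 * d) % c ∧ (Odd i ∨ (r - 1) / i + 2 * (m / i) ≤ (2 * d) / i))) := by
  subst hq
  haveI : NeZero d := ⟨by omega⟩
  have n := sympF_nondeg (F := F) d
  have e : finrank F (Fin d ⊕ Fin d → F) = 2 * d := by simp [two_mul]
  simp only [← sympF_B, ← symp_ts, ← and_assoc] at hrΩ ⊢
  refine (el_sp (P := fun W => finrank F W = m ∧ (sympF F d).TS W)).trans ?_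
  by_cases rp : r = p
  · exact (not_dvd_ts p (card_ts_mod 2 numSing_symp m n (by omega)) (rp ▸ hrΩ)).elim
  by_cases r2 : r = 2
  · subst r2
    rw [symp_ts_two (mt (two_iff p).1 (Ne.symm rp)) hmd]; simp [Ne.symm rp]
  have r3 : 2 < r := by have := (Fact.out : r.Prime).two_le; omega
  have b := (blk_so (F := F) r2 p rp hi hc).1
  obtain ⟨W₀, w⟩ := (n.hasTS_symp m).2 (by omega)
  rw [el_odd n (fun _ => rfl) le_rfl w ((Fact.out : r.Prime).odd_of_ne_two r2) fun _ h _ => h,
    b.ts_fin hi uniq_symp (tsk_so (fun _ => rfl) b r2 p hi hc) n (δ := fun _ => 0) (N := 2 * d) (b.hasB_iff n.symp_em)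
      (fun k hk => by simpa [mul_comm, e] using (Nat.le_div_iff_mul_le b.pos).1 hk) (fun X x1 _ k hk f => by
        rw [(n.perp_nondeg x1).hasTS_symp, Nat.eq_sub_of_add_eq' (n.finrank_perp X), e, hk, Nat.sub_zero]) hrΩ, e]
  have i0 := hi ▸ ord_pos Fact.out b.ne
  have t0 := Nat.div_pos (Nat.le_of_dvd (by omega) (hi ▸ ord_dvd_pred b.ne)) i0
  have l := Nat.mod_lt m i0
  have x := Nat.mod_lt (2 * d) b.pos
  simp only [r2, rp, r3, ← Nat.one_le_div_iff i0, ne_eq, not_false_iff, false_and, false_or, true_and, and_assoc, ← Nat.not_even_iff_odd]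
  refine and_congr_right fun m0 => ?_
  split_ifs at hc ⊢ with h <;> subst hc <;> simp only [h, not_true, false_or, not_false_iff, true_or, and_true]
  · have : 2 * d % c % 2 = 0 := by rw [Nat.mod_mod_of_dvd _ h.two_dvd]; omega
    have := Nat.even_iff.1 h
    refine (forall₂_congr fun k _ => ar_sd (by omega) x).trans ?_
    generalize 2 * d / c = A, 2 * d % c = y, m / c = B, m % c = z, (r - 1) / c = t at *
    exact ⟨fun H => by have := H A; have := H (A - 1); omega, fun H k hk => by omega⟩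
  · have := (ar_hyp (D := m / i) (u := 2 * d / (2 * i)) l.le x).1 (by rw [Nat.div_add_mod, Nat.div_add_mod]; omega)
    refine (forall₂_congr fun k _ => ar_hyp (by omega) x).trans ?_
    generalize 2 * d / (2 * i) = A, 2 * d % (2 * i) = y, m / i = B, m % i = z at *
    exact ⟨fun H => by have := H A; omega, fun H k hk => by omega⟩


end Cfsg.Agent.S5955
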