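import Cfsg.Statements.S5956
import Cfsg.Agent.H5.Nd6

set_option autoImplicit false
open scoped MatrixGroups
open Cfsg

namespace Cfsg.Agent.S5956

open H5 H5.Form Module Matrix

/-- Elements of prime order of PSp_n(q) with no fixed nondegenerate `m`-space. Here `T = PSp_n(q)` with `n = 2d ≥ 4`, `(n, q) ≠ (4, 2)`, realised through the symplectic matrices over the field `F` with `q` elements (preserving the standard alternating form); an element of `T` of prime order `r` is such a matrix `x` with `x^r` scalar and `x` not scalar. For `r ≠ p` let `i` be the multiplicative order of `q` modulo `r`, `c = i` for `i` even and `c = 2i` for `i` odd, and write `k = n mod c`, `ℓ = m mod i`, `ℓ' = m mod c`, `n' = ⌊n/i⌋`, `m' = ⌊m/i⌋`, `t = (r−1)/i`. Let `m` be even with `2 ≤ m < n/2` and let `r` be a prime dividing the number of nondegenerate `m`-spaces. Then every element of `T` of order `r` fixes a nondegenerate `m`-space if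 and only if one of: (i) `r = p > 2` and every partition of `n` into parts of size at most `p` in which every odd part has even multiplicity contains (as a sub-multiset) a partition of `m` in which every odd part has even multiplicity; (ii) `r = p = 2` and (`n ≡ 2 (mod 4)` or `m ≡ 0 (mod 4)`); (iii) `r = 2 ≠ p`; (iv) `r ≠ p`, `r > 2`, `c ≤ m` and `k ≥ ℓ'`. -/
theorem result {F : Type*} [Field F] [Fintype F] {p : ℕ} [Fact p.Prime] [CharP F p] {q : ℕ} (hq : Fintype.card F = q)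
    (d m : ℕ) (hd : 2 ≤ d) (hT : (d, q) ≠ (2, 2)) (hm : 2 ≤ m) (hme : Even m) (hmd : m < d)
    (r : ℕ) [Fact r.Prime]
    (hrΩ : r ∣ Nat.card {W : Submodule F (Fin d ⊕ Fin d → F) // Module.finrank F ↥W = m ∧ (∀ u ∈ W, u ≠ 0 → ∃ v ∈ W, Cfsg.sympForm d F u v ≠ 0)})
    (i c : ℕ) (hi : i = orderOf (q : ZMod r)) (hc : c = if Even i then i else 2 * i) :
    (∀ x : ↥(Matrix.symplecticGroup (Fin d) F),
      (∃ z : F, ((x ^ r : ↥(Matrix.symplecticGroup (Fin d) F)) : Matrix (Fin d ⊕ Fin d) (Fin d ⊕ Fin d) F) = z • (1 : Matrix (Fin d ⊕ Fin d) (Fin d ⊕ Fin d) F)) →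
      (∀ z : F, (x : Matrix (Fin d ⊕ Fin d) (Fin d ⊕ Fin d) F) ≠ z • (1 : Matrix (Fin d ⊕ Fin d) (Fin d ⊕ Fin d) F)) →
      ∃ W : Submodule F (Fin d ⊕ Fin d → F), Module.finrank F ↥W = m ∧ (∀ u ∈ W, u ≠ 0 → ∃ v ∈ W, Cfsg.sympForm d F u v ≠ 0) ∧
        W.map (Matrix.toLin' (x : Matrix (Fin d ⊕ Fin d) (Fin d ⊕ Fin d) F)) ≤ W) ↔
    ((r = p ∧ 2 < p ∧ (∀ μ : Multiset ℕ, (∀ a ∈ μ, 0 < a ∧ a ≤ p) → (∀ a : ℕ, Odd a → Even (μ.count a)) → μ.sum = 2 * d →
        ∃ ν : Multiset ℕ, ν ≤ μ ∧ ν.sum = m ∧ ∀ a : ℕ, Odd a → Even (ν.count a))) ∨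
     (r = p ∧ p = 2 ∧ ((2 * d) % 4 = 2 ∨ m % 4 = 0)) ∨
     (r = 2 ∧ p ≠ 2) ∨
     (r ≠ p ∧ 2 < r ∧ c ≤ m ∧ m % c ≤ (2 * d) % c)) := by
  subst hq
  obtain ⟨a, rfl⟩ := hme.two_dvd
  haveI : Nonempty (Fin d) := ⟨⟨0, by omega⟩⟩
  have n := sympF_nondeg (F := F) d
  have e : finrank F (Fin d ⊕ Fin d → F) = 2 * d := by simp [two_mul]
  obtain ⟨W₀, n₀, -, e₀⟩ := n.chain (g := 1) (fun _ _ => True) trivial (fun k W h1 _ h4 _ => by
    obtain ⟨x, hx, x0⟩ := Submodule.exists_mem_ne_zero_of_ne_bot h4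
    obtain ⟨y, hy⟩ := (n.perp_nondeg h1).exists_ne (y := ⟨x, hx⟩) (by simpa)
    replace hy : (sympF F d).B y x ≠ 0 := hy
    exact ⟨_, Submodule.span_le.2 (Set.pair_subset y.2 hx), (symp_plane hy).1, fun _ h => h, (symp_plane hy).2, trivial⟩) a (by omega)
  replace e₀ := e₀.1
  have cl' : ∀ W, (sympF F d).Cl W₀ W ↔ finrank F W = 2 * a ∧ ((sympF F d).res W).Nondeg := fun W =>
    ⟨fun h => ⟨h.finrank.trans e₀, h.nd n₀⟩, fun h => symp_iso n₀ h.2 (e₀.trans h.1.symm)⟩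
  have cl : ∀ W : Submodule F (Fin d ⊕ Fin d → F), (finrank F W = 2 * a ∧ ∀ u ∈ W, u ≠ 0 → ∃ v ∈ W, sympForm d F u v ≠ 0) ↔ (sympF F d).Cl W₀ W := fun W => by simp [cl', ← nd_iff]
  simp only [← and_assoc, cl] at hrΩ ⊢
  rw [el_sp]
  have := n.finrank_perp W₀
  have np := n.perp_nondeg n₀
  have p2 := (Fact.out : p.Prime).two_le
  by_cases r2 : r = 2
  · subst r2
    by_cases h2 : (2 : F) = 0
    · obtain rfl := (two_iff p).1 h2
      rw [el_two n (fun _ => rfl) le_rfl Cl.refl h2, (c2_symp h2).el_iff n n₀ le_rfl (fun _ h _ => h) (fun X nX k hk => by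
        obtain ⟨j, hj, -⟩ := nX.symp_hasTS
        exact nX.symp_nalt h2 hj k (by omega)) n.hasTS_symp n₀.hasTS_symp np.hasTS_symp]
      simp; omega
    refine iff_of_true ((el_iff n (fun _ => rfl) le_rfl Cl.refl).2 fun g g1 g2 => ?_) (by simp [mt (two_iff p).2 h2])
    obtain ⟨W, w1, w2, w3⟩ := n.symp_inv h2 g1 (g2.imp (fun h => LinearEquiv.congr_fun (sq g ▸ h)) fun h => by simpa [sq] using h) (k := a) (by omega)
    exact ⟨W, (cl' W).2 ⟨w3, w1⟩, w2⟩
  have o := (Fact.out : r.Prime).odd_of_ne_two r2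
  rw [el_odd n (fun _ => rfl) le_rfl Cl.refl o fun _ h _ => h]
  have r3 : 2 < r := by have := (Fact.out : r.Prime).two_le; omega
  by_cases rp : r = p
  · subst rp
    have h2 := mt (two_iff (F := F) r).1 r2
    simp only [r2, r3, true_and, false_and, and_false, or_false, ne_eq, not_true, and_assoc]
    refine ⟨fun H μ l h s => ?_, fun H g g1 g2 => ?_⟩
    · obtain ⟨U, _, _, _, Ψ, t, t1, t2, t3, t4⟩ := realU_of (κ := .symp F) (μ := μ) (fun _ => rfl) (by simp) (P := Even)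
        (fun a h => let ⟨k, hk⟩ := h.two_dvd; hk ▸ realU_symp k) fun j hj => h j (Nat.not_even_iff_odd.1 hj)
      obtain ⟨_, i⟩ := symp_iso t1 n (by omega)
      obtain ⟨g, g1, j⟩ := i.exists_je t2 t3
      obtain ⟨W, w1, w2⟩ := H g g1 (j.pow_char r (by omega) fun a h => (l a h).2)
      obtain ⟨ν, a1, a2, a3⟩ := j.split (fun a h => (l a h).1) (by omega) (n.isCompl_perp (w1.nd n₀)) (fun x hx => sub_mem (w2 x hx) hx)
        fun x hx => sub_mem (isom_perp_mem g1 w2 _ hx) hx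
      exact ⟨ν, a1, a2.trans (w1.finrank.trans e₀), fun _ => (w1.nd n₀).even_count_alt (fun _ => rfl) (symp_self _) ((sympF F d).resAut_mem g1 w2) a3⟩
    obtain ⟨μ, l, s, j⟩ := exists_je_of_pow r g2
    obtain ⟨ν, a1, a2, a3⟩ := H μ l (fun _ => n.even_count_alt (fun _ => rfl) (symp_self _) g1 j) (by omega)
    obtain ⟨ν', rfl⟩ := Multiset.le_iff_exists_add.1 a1
    obtain ⟨W, w1, w2, w3⟩ := n.unip_split h2 g1 j s.symm a3
    exact ⟨W, (cl' W).2 ⟨w2.trans a2, w1⟩, w3⟩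
  obtain ⟨c0, c2⟩ := c_pos p rp hi hc
  have b := (blk_so (F := F) r2 p rp hi hc).1
  obtain ⟨h7, h0⟩ := b.el_iff' uniq_symp n n₀ hrΩ (b.hasB_iff n.symp_em) (b.hasB_iff n₀.symp_em) (b.hasB_iff np.symp_em)
  rw [h7]
  rw [e, e₀, show finrank F ((sympF F d).perp W₀) = 2 * d - 2 * a by omega] at h0 ⊢
  obtain ⟨h1, h2, h3, h4, h5⟩ := div_split c0 (show 2 * a ≤ 2 * d by omega)
  simp only [r2, rp, r3, false_and, false_or, ne_eq, not_false_iff, true_and, h4]
  clear * - h0 h1 h2 h3 h5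
  generalize 2 * d / c = A at *; generalize 2 * a / c = B at *; generalize (2 * d - 2 * a) / c = C at *
  generalize 2 * d % c = x at *; generalize 2 * a % c = y at *; generalize (2 * d - 2 * a) % c = z at *
  omega


end Cfsg.Agent.S5956
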