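import Cfsg.Statements.S5958
import Cfsg.Agent.H5.Dc3

set_option autoImplicit false
open scoped MatrixGroups
open Cfsg

namespace Cfsg.Agent.S5958

open H5 H5.Form Module Matrix Pointwise

/-- Elements of odd prime order of PSL_n(q) and imprimitive subgroups. Here `T = PSL_n(F)` for a field `F` with `q = p^f` elements (`n ≥ 2`, `(n, q) ≠ (2, 2), (2, 3)`), `n = a·t` with `t ≥ 2`, and Ω is the set of direct-sum decompositions of `F^n` into `t` subspaces of dimension `a` (unordered; their number is the number of ordered ones divided by `t!`), whose stabilizers are the imprimitive subgroups of type GL_a(q) ≀ S_t (maximal except in some small cases; maximality is not assumed); an element of `T` of prime order `r` (a matrix `x` of determinant 1 with `x^r` scalar, `x` not scalar) fixes a point of Ω when it permutes the summands of some such decomposition. Let `r ≠ p` be an odd prime dividing the number of such decompositions, let `c` be the multiplicative order of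 `q` modulo `r`, and write `k = n mod c`, `ℓ = a mod c`. Then every element of `T` of order `r` stabilizes such a decomposition if and only if either `a = 1`, `c = r − 1 > 1` and `n ≤ k·r`, or `c ≤ a` and `k = t·ℓ`. -/
theorem result {F : Type*} [Field F] [Fintype F] {p : ℕ} [Fact p.Prime] [CharP F p] {q : ℕ} (hq : Fintype.card F = q)
    (n a t : ℕ) (hn : 2 ≤ n) (hT : (n, q) ≠ (2, 2) ∧ (n, q) ≠ (2, 3)) (hat : n = a * t) (ha : 1 ≤ a) (ht : 2 ≤ t)
    (r : ℕ) [Fact r.Prime] (hr2 : r ≠ 2) (hrp : r ≠ p) (hΩ : r ∣ Nat.card {D : Fin t → Submodule F (Fin n → F) // Cfsg.Geo.IsMDecomposition a D} / Nat.factorial t)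
    (c : ℕ) (hc : c = orderOf (q : ZMod r)) :
    (∀ x : Matrix.SpecialLinearGroup (Fin n) F,
      (∃ z : F, ((x ^ r : Matrix.SpecialLinearGroup (Fin n) F) : Matrix (Fin n) (Fin n) F) = z • (1 : Matrix (Fin n) (Fin n) F)) →
      (∀ z : F, (x : Matrix (Fin n) (Fin n) F) ≠ z • (1 : Matrix (Fin n) (Fin n) F)) →
      ∃ D : Fin t → Submodule F (Fin n → F), Cfsg.Geo.IsMDecomposition a D ∧
        ∃ σ : Equiv.Perm (Fin t), ∀ j, (D j).map (Matrix.toLin' (x : Matrix (Fin n) (Fin n) F)) = D (σ j)) ↔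
    ((a = 1 ∧ 1 < c ∧ c = r - 1 ∧ n ≤ (n % c) * r) ∨ (c ≤ a ∧ n % c = t * (a % c))) := by
  subst hq
  haveI : NeZero n := ⟨by omega⟩
  have r0 := cast_ne (F := F) p Fact.out hrp
  have c0 := hc ▸ ord_pos Fact.out r0
  have e : finrank F (Fin n → F) = n := by simp
  refine (elg_sl (r := r) (P := fun g : (Fin n → F) ≃ₗ[F] _ => ∃ D : Fin t → Submodule F (Fin n → F), Cfsg.Geo.IsMDecomposition a D ∧
    ∃ σ : Equiv.Perm (Fin t), ∀ j, g • D j = D (σ j))).trans ⟨fun H => ?_, fun H g _ ⟨z, k⟩ _ => ?_⟩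
  · by_cases c1 : c = 1
    · exact .inr ⟨c1 ▸ ha, by simp [c1, Nat.mod_one]⟩
    have cop : (Nat.card Fˣ).Coprime r := by rw [Nat.card_units, Nat.card_eq_fintype_card]; exact (cop_of_ord Fintype.card_pos Fact.out (hc ▸ c1)).symm
    have one : ∀ c : Fˣ, c ^ r = 1 → c = 1 := fun c h => (powCoprime cop).injective (h.trans (one_pow r).symm)
    obtain ⟨D, hD, -⟩ := (dec_two (g := 1) (z := 1) (by simp) ha (e.trans hat)).final (by simpa) ha ht
    have := exists_mult_ord r0 D _ (fun E => ⟨fun h => (exists_dec_map hD.4 hD.5 h.4 h.5 fun j => .ofFinrankEq _ _ ((hD.3 j).trans (h.3 j).symm)).imp fun g k =>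
      funext fun j => smul_eq_of_le (fun v hv => (k j ⟨v, hv⟩).symm ▸ Subtype.mem _) ((hD.3 j).trans (h.3 j).symm), by rintro ⟨g, rfl⟩; exact mdec_smul g hD⟩)
      isCompl_bot_top (fun t => by rw [Subsingleton.elim t 1, ← Prod.one_eq_mk, map_one, one_smul])
      (hΩ.trans (fact_dvd _ (fun _ => mdec_comp) fun _ => mdec_inj))
    rw [← hc, e] at this
    refine dec_nec r0 ha c0 (Nat.le_of_dvd (by have := (Fact.out : r.Prime).two_le; omega) (hc ▸ ord_dvd_pred r0)) e hat
      ((Nat.div_pos_iff.1 (this.trans_le' (Nat.zero_le _))).2) fun k k0 hk => ?_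
    obtain ⟨g, g1, g2⟩ := exists_mv r0 hc (V := Fin n → F) (e.symm ▸ hk)
    obtain ⟨D, hD, σ, m⟩ := H g (one _ (by rw [← map_pow, g1, map_one])) ⟨1, by simpa⟩ fun c e => by
      rw [e, one c (scal_injective (V := Fin n → F) (by rw [map_pow, ← e, g1, map_one])), map_one, mv_one, finrank_bot] at g2
      exact (Nat.mul_pos c0 k0).ne g2
    exact ⟨g, D, σ, g1, g2, hD.4, hD.3, m, fun j h => hc ▸ hD.3 j ▸ ord_dvd_fix r0 g1 fun v hv => h ▸ m j ▸ ⟨v, hv, rfl⟩⟩
  refine (Dec.final (Φ := zF F _) ?_ (by simpa) ha ht).imp fun _ h => ⟨h.1, h.2.2⟩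
  by_cases np : ∀ b : F, b ^ r ≠ z
  · exact dec_npow np r0 k ha (e.trans hat)
  push Not at np
  obtain ⟨b, hb⟩ := np
  obtain ⟨b, rfl⟩ : ∃ c : Fˣ, c = b := ⟨.mk0 b (by rintro rfl; simp [(Fact.out : r.Prime).ne_zero] at hb; exact z.ne_zero hb.symm), rfl⟩
  have k' : (g * scal _ b⁻¹) ^ r = 1 := by rw [Commute.mul_pow (scal_comm _ _), k, ← map_pow, ← map_mul, show z = b ^ r from Units.ext hb.symm]; simp
  rw [show g = g * scal _ b⁻¹ * scal _ b by simp [mul_assoc]]
  refine .scal ?_ b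
  obtain ⟨rfl, -, h1, h2⟩ | ⟨-, h⟩ := H
  · obtain ⟨l, hl⟩ := ord_dvd_mv r0 hc k'
    have := finrank_mv_add (g * scal _ b⁻¹)
    rw [show t = finrank F (Fin n → F) by omega]
    refine dec_one r0 hc k' h1 (e.trans_le (h2.trans (Nat.mul_le_mul_right _ ?_)))
    exact (congrArg (· % c) (e.symm.trans this.symm)).trans_le (by rw [hl, Nat.mul_add_mod]; exact Nat.mod_le ..)
  · exact dec_ss r0 hc k' (e.trans hat) ((Nat.div_le_div_right ((Submodule.finrank_le _).trans e.le)).trans (div_of_mod c0 hat h).le)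


end Cfsg.Agent.S5958
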