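import Cfsg.Statements.S5959
import Cfsg.Agent.H5.Dc3

set_option autoImplicit false
open scoped MatrixGroups
open Cfsg

namespace Cfsg.Agent.S5959

open H5 H5.Form Module Matrix Pointwise

/-- Elements of order `p` of PSL_n(q) and imprimitive subgroups: a necessary condition. Here `T = PSL_n(F)` for a field `F` with `q = p^f` elements (`n ≥ 2`, `(n, q) ≠ (2, 2), (2, 3)`), `n = a·t` with `t ≥ 2`, and Ω is the set of direct-sum decompositions of `F^n` into `t` subspaces of dimension `a` (unordered; their number is the number of ordered ones divided by `t!`), whose stabilizers are the imprimitive subgroups of type GL_a(q) ≀ S_t (maximal except in some small cases; maximality is not assumed); an element of `T` of prime order `r` (a matrix `x` of determinant 1 with `x^r` scalar, `x` not scalar) fixes a point of Ω when it permutes the summands of some such decomposition. Suppose `p > 2` divides the number of such decompositions. If every element of `T` of order `p` stabilizes such a decomposition,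 then every partition of `n` into parts of size at most `p` in which the part `p` occurs fewer than `a` times contains (as a sub-multiset) a partition of `a`. -/
theorem result {F : Type*} [Field F] [Fintype F] {p : ℕ} [Fact p.Prime] [CharP F p] {q : ℕ} (hq : Fintype.card F = q)
    (n a t : ℕ) (hn : 2 ≤ n) (hT : (n, q) ≠ (2, 2) ∧ (n, q) ≠ (2, 3)) (hat : n = a * t) (ha : 1 ≤ a) (ht : 2 ≤ t)
    (hp : 2 < p) (hΩ : p ∣ Nat.card {D : Fin t → Submodule F (Fin n → F) // Cfsg.Geo.IsMDecomposition a D} / Nat.factorial t)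
    (h : ∀ x : Matrix.SpecialLinearGroup (Fin n) F,
      (∃ z : F, ((x ^ p : Matrix.SpecialLinearGroup (Fin n) F) : Matrix (Fin n) (Fin n) F) = z • (1 : Matrix (Fin n) (Fin n) F)) →
      (∀ z : F, (x : Matrix (Fin n) (Fin n) F) ≠ z • (1 : Matrix (Fin n) (Fin n) F)) →
      ∃ D : Fin t → Submodule F (Fin n → F), Cfsg.Geo.IsMDecomposition a D ∧
        ∃ σ : Equiv.Perm (Fin t), ∀ j, (D j).map (Matrix.toLin' (x : Matrix (Fin n) (Fin n) F)) = D (σ j)) :
    (∀ μ : Multiset ℕ, (∀ b ∈ μ, 0 < b ∧ b ≤ p) → μ.sum = n → μ.count p < a → ∃ ν : Multiset ℕ, ν ≤ μ ∧ ν.sum = a) := by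
  haveI : NeZero n := ⟨by omega⟩
  replace h := (elg_sl (r := p) (P := fun g : (Fin n → F) ≃ₗ[F] _ => ∃ D : Fin t → Submodule F (Fin n → F), Cfsg.Geo.IsMDecomposition a D ∧
    ∃ σ : Equiv.Perm (Fin t), ∀ j, g • D j = D (σ j))).1 h
  intro μ l s c
  by_cases o : ∀ a ∈ μ, a ≤ 1
  · exact ⟨_, sub_ones (fun a h => (l a h).1) o (show a ≤ _ by rw [s, hat]; exact Nat.le_mul_of_pos_right _ (by omega)), by simp⟩
  replace s : μ.sum = finrank F (Fin n → F) := by simpa
  obtain ⟨g, je, g1, g2, g3⟩ := exists_je_aut p (fun a h => (l a h).2) s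
  obtain ⟨D, hD, σ, m⟩ := h g g2 ⟨1, by simpa⟩ fun c k => o (g3 c k)
  let j : Fin t := ⟨0, by omega⟩
  by_cases k : σ j = j
  · have i : ∀ i, ∀ v ∈ D i, g v ∈ D (σ i) := fun i v hv => m i ▸ ⟨v, hv, rfl⟩
    refine (je.split (fun a h => (l a h).1) s (U := D j) ⟨hD.4 j, codisjoint_iff.2 ((iSup_split_single D j).symm.trans hD.5)⟩ (fun x hx => sub_mem (k ▸ i j x hx) hx)
      fun x hx => sub_mem ?_ hx).imp fun _ h => ⟨h.1, h.2.1.trans (hD.3 j)⟩
    exact (show (⨆ i ≠ j, D i) ≤ (⨆ i ≠ j, D i).comap (g : (Fin n → F) →ₗ[F] _) from iSup₂_le fun i' n v hv => Submodule.mem_comap.2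
      (Submodule.mem_iSup_of_mem (σ i') (Submodule.mem_iSup_of_mem (fun h : σ i' = j => n (σ.injective (h.trans k.symm))) (i i' v hv)))) hx
  have a1 := finrank_nrm hD.4 hD.3 ha m g1 k
  obtain ⟨u, rfl⟩ := Nat.exists_eq_add_one.2 (show 0 < p by omega)
  have e : (∑ k ∈ Finset.range (u + 1), .X ^ k : Polynomial F) = (.X - 1) ^ u :=
    mul_left_cancel₀ (Polynomial.X_sub_C_ne_zero 1) (by rw [Polynomial.C_1, mul_geom_sum, ← pow_succ', sub_pow_char, one_pow])
  have e' : nrm g (u + 1) = nl g ^ u := by simpa [nrm, map_sum] using congrArg (Polynomial.aeval (g : End F (Fin n → F))) e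
  have c1 := je.count u
  have z := (je.pow_eq_zero s).2 fun a h => (l a h).2
  rw [pow_succ _ (u + 1), z, zero_mul, LinearMap.ker_zero, finrank_top] at c1
  have := (nl g ^ u).finrank_range_add_finrank_ker
  have := Submodule.finrank_mono (LinearMap.map_le_range (f := nl g ^ u) (p := D j))
  rw [e'] at a1; omega


end Cfsg.Agent.S5959
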