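import Cfsg.Statements.S5961
import Cfsg.Agent.H5.Dc3

set_option autoImplicit false
open scoped MatrixGroups
open Cfsg

namespace Cfsg.Agent.S5961

open H5 H5.Form Module Matrix Pointwise

/-- Elements of odd prime order of PSp_n(q) and imprimitive subgroups. Here `T = PSp_n(q)`, `n = 2d ≥ 4`, `(n, q) ≠ (4, 2)`, realised through the symplectic matrices over the field `F` with `q` elements and the standard alternating form; `n = a·t` with `a` even and `t ≥ 2`, and Ω is the (nonempty) set of orthogonal decompositions of `F^n` into `t` nondegenerate subspaces of dimension `a` (unordered; counted as ordered ones divided by `t!`), whose stabilizers are the imprimitive subgroups of type Sp_a(q) ≀ S_t (maximality is not assumed); an element of `T` of prime order `r` (a symplectic matrix `x` with `x^r` scalar, `x` not scalar) fixes a point of Ω when it permutes the summands of some such decomposition. Let `r ≠ p` be an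 odd prime dividing the number of such decompositions, let `i` be the multiplicative order of `q` modulo `r`, `c = i` if `i` is even and `c = 2i` if `i` is odd, and write `k = n mod c`, `ℓ = a mod c`. Then every element of `T` of order `r` stabilizes such a decomposition if and only if `c ≤ a` and `k = t·ℓ`. -/
theorem result {F : Type*} [Field F] [Fintype F] {p : ℕ} [Fact p.Prime] [CharP F p] {q : ℕ} (hq : Fintype.card F = q)
    (d : ℕ) (hd : 2 ≤ d) (hT : (d, q) ≠ (2, 2))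
    (a t : ℕ) (hat : 2 * d = a * t) (ha : 2 ≤ a) (hae : Even a) (ht : 2 ≤ t)
    (r : ℕ) [Fact r.Prime] (hr2 : r ≠ 2) (hrp : r ≠ p) (hΩ : r ∣ Nat.card {D : Fin t → Submodule F (Fin d ⊕ Fin d → F) // (Cfsg.Geo.IsMDecomposition a D ∧ (∀ j, ∀ u ∈ D j, u ≠ 0 → ∃ v ∈ D j, Cfsg.sympForm d F u v ≠ 0) ∧
          (∀ j j', j ≠ j' → ∀ u ∈ D j, ∀ v ∈ D j', Cfsg.sympForm d F u v = 0))} / Nat.factorial t)
    (i c : ℕ) (hi : i = orderOf (q : ZMod r)) (hc : c = if Even i then i else 2 * i) :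
    (∀ x : ↥(Matrix.symplecticGroup (Fin d) F),
      (∃ z : F, ((x ^ r : ↥(Matrix.symplecticGroup (Fin d) F)) : Matrix (Fin d ⊕ Fin d) (Fin d ⊕ Fin d) F) = z • (1 : Matrix (Fin d ⊕ Fin d) (Fin d ⊕ Fin d) F)) →
      (∀ z : F, (x : Matrix (Fin d ⊕ Fin d) (Fin d ⊕ Fin d) F) ≠ z • (1 : Matrix (Fin d ⊕ Fin d) (Fin d ⊕ Fin d) F)) →
      ∃ D : Fin t → Submodule F (Fin d ⊕ Fin d → F), (Cfsg.Geo.IsMDecomposition a D ∧ (∀ j, ∀ u ∈ D j, u ≠ 0 → ∃ v ∈ D j, Cfsg.sympForm d F u v ≠ 0) ∧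
          (∀ j j', j ≠ j' → ∀ u ∈ D j, ∀ v ∈ D j', Cfsg.sympForm d F u v = 0)) ∧
        ∃ σ : Equiv.Perm (Fin t), ∀ j, (D j).map (Matrix.toLin' (x : Matrix (Fin d ⊕ Fin d) (Fin d ⊕ Fin d) F)) = D (σ j)) ↔
    (c ≤ a ∧ (2 * d) % c = t * (a % c)) := by
  subst hq
  haveI : NeZero d := ⟨by omega⟩
  have n := sympF_nondeg (F := F) d
  have e : finrank F (Fin d ⊕ Fin d → F) = 2 * d := by simp [two_mul]
  obtain ⟨c0, c2⟩ := c_pos p hrp hi hc
  have b := (blk_so (F := F) hr2 p hrp hi hc).1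
  have o := (Fact.out : r.Prime).odd_of_ne_two hr2
  refine (elg_symp (r := r) (P := fun g : (Fin d ⊕ Fin d → F) ≃ₗ[F] _ => ∃ D : Fin t → Submodule F (Fin d ⊕ Fin d → F), (Cfsg.Geo.IsMDecomposition a D ∧
    (∀ j, ∀ u ∈ D j, u ≠ 0 → ∃ v ∈ D j, Cfsg.sympForm d F u v ≠ 0) ∧ (∀ j j', j ≠ j' → ∀ u ∈ D j, ∀ v ∈ D j', Cfsg.sympForm d F u v = 0)) ∧
    ∃ σ : Equiv.Perm (Fin t), ∀ j, g • D j = D (σ j))).trans ⟨fun H => ?_, fun H g g1 ⟨z, k⟩ _ => ?_⟩
  · have nd : ∀ {W : Submodule F (Fin d ⊕ Fin d → F)}, (∀ u ∈ W, u ≠ 0 → ∃ v ∈ W, Cfsg.sympForm d F u v ≠ 0) → ((sympF F d).res W).Nondeg := fun h =>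
      nd_iff.1 (by simpa using h)
    obtain ⟨a, rfl⟩ := hae.two_dvd
    obtain ⟨D, hD, -⟩ := (dec_inv (by omega) t n (one_mem _) (.inl fun _ => rfl) (e.trans hat)).final_sp hat (by omega) ht
    replace hΩ := hΩ.trans (fact_dvd _ (fun _ σ h => ⟨mdec_comp σ h.1, fun _ => h.2.1 _, fun _ _ k => h.2.2 _ _ (σ.injective.ne k)⟩) fun _ h => mdec_inj h.1)
    replace hΩ := hΩ.trans (Dvd.intro _ (card_eq_orbit_mul (sympF F d).isom D _ fun E => ⟨fun h => ?_, ?_⟩).symm)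
    rotate_left
    · choose f hf using fun j => symp_iso (nd (hD.2.1 j)) (nd (h.2.1 j)) ((hD.1.3 j).trans (h.1.3 j).symm)
      obtain ⟨g, k⟩ := exists_dec_map hD.1.4 hD.1.5 h.1.4 h.1.5 f
      refine ⟨g, mem_isom_of_span (S := ⋃ j, D j) (by rw [← Submodule.iSup_eq_span, hD.1.5]) g ?_ fun _ _ => rfl,
        funext fun j => smul_eq_of_le (fun v hv => (k j ⟨v, hv⟩).symm ▸ Subtype.mem _) ((hD.1.3 j).trans (h.1.3 j).symm)⟩
      simp only [Set.mem_iUnion]
      rintro x ⟨i, hx⟩ y ⟨j, hy⟩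
      rw [k i ⟨x, hx⟩, k j ⟨y, hy⟩]
      by_cases ij : i = j
      · subst ij; exact (hf i).1 _ _
      · rw [sympF_B, sympF_B, hD.2.2 i j ij x hx y hy, h.2.2 i j ij _ (Subtype.mem _) _ (Subtype.mem _)]
    · rintro ⟨g, g1, rfl⟩
      refine ⟨mdec_smul g hD.1, ?_, ?_⟩
      · rintro j _ ⟨u, hu, rfl⟩ u0
        obtain ⟨v, hv, k⟩ := hD.2.1 j u hu (by rintro rfl; exact u0 (map_zero _))
        exact ⟨_, ⟨v, hv, rfl⟩, by rw [← sympF_B] at k ⊢; exact g1.1 u v ▸ k⟩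
      · rintro i j ij _ ⟨u, hu, rfl⟩ _ ⟨v, hv, rfl⟩
        exact (sympF_B ..).symm.trans ((g1.1 u v).trans ((sympF_B ..).trans (hD.2.2 i j ij u hu v hv)))
    have r2 := (Fact.out : r.Prime).two_le
    refine (dec_nec b.ne (by omega) c0 (Nat.le_of_dvd (by omega) ?_) e hat (e ▸ b.le_dim n hΩ) fun k k0 hk => ?_).resolve_left (by omega)
    · have := hi ▸ ord_dvd_pred b.ne
      rw [hc]; split_ifs with h
      exacts [this, (Nat.coprime_two_left.2 (Nat.not_even_iff_odd.1 h)).mul_dvd_of_dvd_of_dvd (Nat.Odd.sub_odd o odd_one).two_dvd this]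
    obtain ⟨g, g0, g1, g2⟩ := b.exists_mv n (e.symm ▸ hk)
    obtain ⟨D, hD, σ, m⟩ := H g g0 ⟨1, by simpa⟩ fun c e => by
      obtain h | h := scal_sq n (fun _ => rfl) g0 (z := c) fun v => by simp [e]
      · rw [e, show c = 1 from Units.ext h, map_one, mv_one, finrank_bot] at g2
        exact (Nat.mul_pos c0 k0).ne g2
      · rw [e, show c = -1 from Units.ext h, ← map_pow, o.neg_one_pow] at g1
        rw [e, show c = -1 from Units.ext h, g1, mv_one, finrank_bot] at g2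
        exact (Nat.mul_pos c0 k0).ne g2
    exact ⟨g, D, σ, g1, g2, hD.1.4, hD.1.3, m, fun j h => hD.1.3 j ▸ b.dvd_fix g0 g1 (nd (hD.2.1 j)) fun v hv => h ▸ m j ▸ ⟨v, hv, rfl⟩⟩
  refine Dec.final_sp ?_ hat (by omega) ht
  have k' : ∀ g ∈ (sympF F d).isom, g ^ r = 1 → Dec (sympF F d) g a t ⊤ := fun g g1 g2 =>
    b.dec n (Nat.dvd_of_mod_eq_zero c2) hae.two_dvd g1 g2 (e.trans hat) (e ▸ (div_of_mod c0 hat H.2).le)
  have e' : ∀ v, (g ^ r) v = (z : F) • v := fun v => by simp [k]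
  obtain h | h := scal_sq n (fun _ => rfl) (pow_mem g1 r) e'
  · exact k' g g1 (LinearEquiv.ext (by simpa [h] using e'))
  rw [show g = g * scal _ (-1) * scal _ (-1) by simp [mul_assoc, ← map_mul]]
  refine (k' _ (mul_mem g1 ((Form.scal_mem_iff n).2 (by simp [Kind.symp]))) ?_).scal _
  rw [Commute.mul_pow (scal_comm _ _), ← map_pow, o.neg_one_pow]
  exact LinearEquiv.ext fun v => by simp [e', h]


end Cfsg.Agent.S5961
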