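import Cfsg.Statements.S5963
import Cfsg.Agent.H5.Nd5

set_option autoImplicit false
open scoped MatrixGroups
open Cfsg

namespace Cfsg.Agent.S5963

open H5 H5.Form Module Matrix
theorem card_even_of_invol {X : Type*} [Finite X] (f : X → X) (h : ∀ x, f (f x) = x) (k : ∀ x, f x ≠ x) : Even (Nat.card X) := by
  classical
  have := Fintype.ofFinite X
  have := Equiv.Perm.card_fixedPoints_modEq (f := f) (p := 2) (n := 1) (funext h)
  rw [Fintype.card_eq_zero_iff (α := Function.fixedPoints f) |>.2 ⟨fun x => k _ x.2⟩] at this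
  rw [Nat.card_eq_fintype_card, even_iff_two_dvd]; exact (Nat.modEq_zero_iff_dvd.1 this)

/-- Derangements of odd prime order of PSp_n(q), q odd, on pairs of complementary totally isotropic subspaces. Here `T = PSp_n(q)`, `n = 2d ≥ 4`, `q` odd, realised through the symplectic matrices over the field `F` with `q` elements; Ω is the set of unordered pairs `{U, W}` of complementary totally isotropic `d`-spaces (`F^n = U ⊕ W`), whose stabilizers are the subgroups of type GL_d(q).2 (maximal except in some small cases; maximality is not assumed); an element of `T` of prime order `r` (a symplectic matrix `x` with `x^r` scalar, `x` not scalar) fixes such a pair when it fixes or interchanges `U` and `W`. For every odd prime `r ≠ p` dividing the number of such pairs, some element of `T` of order `r` fixes no such pair (the action is never `r`-elusive for odd `r ≠ p`). -/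
theorem result {F : Type*} [Field F] [Fintype F] {p : ℕ} [Fact p.Prime] [CharP F p] {q : ℕ} (hq : Fintype.card F = q)
    (d : ℕ) (hd : 2 ≤ d) (hT : (d, q) ≠ (2, 2)) (hodd : Odd q)
    (r : ℕ) [Fact r.Prime] (hr2 : r ≠ 2) (hrp : r ≠ p) (hΩ : r ∣ Nat.card {P : Submodule F (Fin d ⊕ Fin d → F) × Submodule F (Fin d ⊕ Fin d → F) // IsCompl P.1 P.2 ∧ (∀ u ∈ P.1, ∀ v ∈ P.1, Cfsg.sympForm d F u v = 0) ∧ (∀ u ∈ P.2, ∀ v ∈ P.2, Cfsg.sympForm d F u v = 0)} / 2) :
    ∃ x : ↥(Matrix.symplecticGroup (Fin d) F),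
      (∃ z : F, ((x ^ r : ↥(Matrix.symplecticGroup (Fin d) F)) : Matrix (Fin d ⊕ Fin d) (Fin d ⊕ Fin d) F) = z • (1 : Matrix (Fin d ⊕ Fin d) (Fin d ⊕ Fin d) F)) ∧
      (∀ z : F, (x : Matrix (Fin d ⊕ Fin d) (Fin d ⊕ Fin d) F) ≠ z • (1 : Matrix (Fin d ⊕ Fin d) (Fin d ⊕ Fin d) F)) ∧
      ¬ (∃ U W : Submodule F (Fin d ⊕ Fin d → F), IsCompl U W ∧ (∀ u ∈ U, ∀ v ∈ U, Cfsg.sympForm d F u v = 0) ∧ (∀ u ∈ W, ∀ v ∈ W, Cfsg.sympForm d F u v = 0) ∧
        ((U.map (Matrix.toLin' (x : Matrix (Fin d ⊕ Fin d) (Fin d ⊕ Fin d) F)) = U ∧ W.map (Matrix.toLin' (x : Matrix (Fin d ⊕ Fin d) (Fin d ⊕ Fin d) F)) = W) ∨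
         (U.map (Matrix.toLin' (x : Matrix (Fin d ⊕ Fin d) (Fin d ⊕ Fin d) F)) = W ∧ W.map (Matrix.toLin' (x : Matrix (Fin d ⊕ Fin d) (Fin d ⊕ Fin d) F)) = U))) := by
  subst hq
  haveI : Nonempty (Fin d) := ⟨⟨0, by omega⟩⟩
  have n := sympF_nondeg (F := F) d
  have pl : ∀ U W, (IsCompl U W ∧ (∀ u ∈ U, ∀ v ∈ U, sympForm d F u v = 0) ∧ ∀ u ∈ W, ∀ v ∈ W, sympForm d F u v = 0) ↔ (sympF F d).Pol U W := by
    simp [Pol, symp_ts]
  simp only [pl] at hΩ
  have o := (Fact.out : r.Prime).odd_of_ne_two hr2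
  obtain ⟨g, g1, g2, g3, g4⟩ := n.pol_der (two_ne_zero_of_odd hodd) (d := d) (by simp [two_mul]) hr2 p hrp (by
    haveI : Finite (Submodule F (Fin d ⊕ Fin d → F)) := .of_injective _ SetLike.coe_injective
    have := card_even_of_invol (fun P : {P : Submodule F _ × Submodule F _ // (sympF F d).Pol P.1 P.2} => ⟨(P.1.2, P.1.1), P.2.1.symm, P.2.2.2, P.2.2.1⟩)
      (fun _ => rfl) fun P h => by
        have e : P.1.2 = P.1.1 := congrArg (·.1.1) h
        have := P.2.dim n
        rw [disjoint_self.1 (e ▸ P.2.1.disjoint :)] at this; simp at this; omega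
    exact hΩ.trans (Nat.div_dvd_of_dvd this.two_dvd))
  obtain ⟨x, hx⟩ := (spEquiv d).surjective ⟨g, g1⟩
  obtain rfl : (spEquiv d x).1 = g := congrArg _ hx
  refine ⟨x, ⟨1, by rw [show x ^ r = 1 from (spEquiv d).injective (by rw [map_pow, map_one]; exact Subtype.ext g2)]; simp⟩, fun z h => g3 ?_,
    fun ⟨U, W, a, b, c, h⟩ => g4 U W ((pl U W).1 ⟨a, b, c⟩) h⟩
  have k : ∀ v, (spEquiv d x).1 v = z • v := fun v => by rw [spEquiv_apply, h]; simp [smul_mulVec]
  rcases scal_sq n (fun _ => rfl) g1 k with rfl | rfl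
  · exact LinearEquiv.ext fun v => (k v).trans (one_smul _ _)
  rw [show (spEquiv d x).1 = scal _ (-1) from LinearEquiv.ext fun v => by simpa using k v] at g2 ⊢
  rwa [← map_pow, o.neg_one_pow] at g2


end Cfsg.Agent.S5963
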