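import Cfsg.Statements.S5972
import Cfsg.Agent.H5.Ts2

set_option autoImplicit false
open scoped MatrixGroups
open Cfsg

namespace Cfsg.Agent.S5972

open H5 H5.Form Module Matrix Pointwise

/-- Elements of prime order of Ω_n(q), n = 2d+1 ≥ 7, q odd, with no fixed totally singular `m`-space. Here `T = Ω_n(q)` is realised as the commutator subgroup of the isometry group of the quadratic form `x₀² + Σ xᵢyᵢ` over the field `F` with `q` elements (it has trivial centre, so its elements of prime order `r` are used directly); let `1 ≤ m ≤ d` and let `r` be a prime dividing the number of totally singular `m`-spaces. For `r ≠ p` let `i` be the multiplicative order of `q` modulo `r`, `c = i` for `i` even and `c = 2i` for `i` odd, and write `k = n mod c`, `ℓ = m mod i`, `n' = ⌊n/i⌋`, `m' = ⌊m/i⌋`, `t = (r−1)/i`. Then every element of `T` of order `r` fixes some totally singular `m`-space if and only if either (i) `r = 2` and (`m < (n−1)/2` or `q ≡ 1 (mod 4)`); or (ii)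 `r ≠ p` is odd, `i ≤ m`, `k > 2ℓ`, and (`i` is odd or `n' − 2m' ≥ t`). -/
theorem result {F : Type*} [Field F] [Fintype F] {p : ℕ} [Fact p.Prime] [CharP F p] {q : ℕ} (hq : Fintype.card F = q) (hqodd : Odd q)
    (d m : ℕ) (hd : 3 ≤ d) (hm : 1 ≤ m) (hmd : m ≤ d)
    (r : ℕ) [Fact r.Prime]
    (hrΩ : r ∣ Nat.card {W : Submodule F (Unit ⊕ (Fin d ⊕ Fin d) → F) // Module.finrank F ↥W = m ∧ (∀ w ∈ W, Cfsg.quadFormOdd d F w = 0)})
    (i c : ℕ) (hi : i = orderOf (q : ZMod r)) (hc : c = if Even i then i else 2 * i) :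
    (∀ x : GL (Unit ⊕ (Fin d ⊕ Fin d)) F, x ∈ Cfsg.Geo.omegaGL (Cfsg.quadFormOdd d F) → orderOf x = r →
      ∃ W : Submodule F (Unit ⊕ (Fin d ⊕ Fin d) → F), Module.finrank F ↥W = m ∧ (∀ w ∈ W, Cfsg.quadFormOdd d F w = 0) ∧
        W.map (Matrix.toLin' (x : Matrix (Unit ⊕ (Fin d ⊕ Fin d)) (Unit ⊕ (Fin d ⊕ Fin d)) F)) ≤ W) ↔
    ((r = 2 ∧ (m < d ∨ q % 4 = 1)) ∨
     (r ≠ p ∧ 2 < r ∧ i ≤ m ∧ 2 * (m % i) < (2 * d + 1) % c ∧ (Odd i ∨ (r - 1) / i + 2 * (m / i) ≤ (2 * d + 1) / i))) := by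
  have h2 : (2 : F) ≠ 0 := fun h => by have := even_of_two h; rw [hq] at this; have := Nat.odd_iff.1 hqodd; omega
  have e : finrank F (Unit ⊕ (Fin d ⊕ Fin d) → F) = 2 * d + 1 := by simp; omega
  have n : (oddF F d).OGood := ⟨oddF_nondeg h2 d, .inr (by omega)⟩
  simp only [← oddF_Q, ← orth_ts, ← and_assoc] at hrΩ ⊢
  have h₀ : (oddF F d).HasTS m := n.nd.orth_hasTS (by omega)
  refine (el_ord n.nd (by simp) (P := fun W => finrank F W = m ∧ (oddF F d).TS W) h₀.choose_spec).trans ?_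
  have t : Even (2 * d + 1) → ((oddF F d).HasTS ((2 * d + 1) / 2) ↔ True) := by simp
  by_cases rp : r = p
  · exact (not_dvd_ts p (card_ts_mod 3 numSing_orth m n.nd (by omega)) (rp ▸ hrΩ)).elim
  by_cases r2 : r = 2
  · subst r2
    have := Nat.odd_iff.1 hqodd
    rw [n.ts_two e (by omega) t h₀ h2 hq]; simp [Nat.add_mod]; omega
  subst hq
  have r3 : 2 < r := by have := (Fact.out : r.Prime).two_le; omega
  rw [n.ts_ss e (by omega) t r2 p rp hi hc hrΩ h₀]
  obtain ⟨c0, c2⟩ := c_pos p rp hi hc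
  have r0 := cast_ne (F := F) p Fact.out rp
  have i0 := hi ▸ ord_pos Fact.out r0
  have t0 := Nat.div_pos (Nat.le_of_dvd (by omega) (hi ▸ ord_dvd_pred r0)) i0
  have l := Nat.mod_lt m i0
  have x := Nat.mod_lt (2 * d + 1) c0
  have x2 : (2 * d + 1) % c % 2 = 1 := by rw [Nat.mod_mod_of_dvd _ (Nat.dvd_of_mod_eq_zero c2)]; omega
  simp only [r2, rp, r3, ← Nat.one_le_div_iff i0, ne_eq, not_false_iff, false_and, false_or, true_and, and_assoc, ← Nat.not_even_iff_odd, am,
    show ¬ (2 * d + 1) % 2 = 0 by omega, show ¬ (2 * d + 1) % c = 0 by omega, if_false]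
  refine and_congr_right fun m0 => ?_
  split_ifs at hc ⊢ with h <;> subst hc <;> simp only [h, not_true, false_or, not_false_iff, true_or, and_true]
  · refine (forall₂_congr fun k _ => ar_sd (by omega) x).trans ?_
    generalize (2 * d + 1) / c = A, (2 * d + 1) % c = y, m / c = B, m % c = z, (r - 1) / c = t at *
    exact ⟨fun H => by have := H A; have := H (A - 1); omega, fun H k hk => by omega⟩
  · have := (ar_hyp (D := m / i) (u := (2 * d + 1) / (2 * i)) l.le x).1 (by rw [Nat.div_add_mod, Nat.div_add_mod]; omega)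
    refine (forall₂_congr fun k _ => ar_hyp (by omega) x).trans ?_
    generalize (2 * d + 1) / (2 * i) = A, (2 * d + 1) % (2 * i) = y, m / i = B, m % i = z at *
    exact ⟨fun H => by have := H A; omega, fun H k hk => by omega⟩


end Cfsg.Agent.S5972
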