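import Cfsg.Statements.S5973
import Cfsg.Agent.H5.Ts2

set_option autoImplicit false
open scoped MatrixGroups
open Cfsg

namespace Cfsg.Agent.S5973

open H5 H5.Form Module Matrix Pointwise

/-- Elements of prime order of PΩ⁺_n(q), n = 2d ≥ 8, with no fixed totally singular `m`-space, `m < n/2`. Here `T = PΩ⁺_n(q)` is realised through `Ω⁺_n(q)`, the commutator subgroup of the isometry group of the quadratic form `Σ xᵢyᵢ` over the field `F` with `q` elements; an element of `T` of prime order `r` is an element `x` of `Ω⁺_n(q)` with `x^r` scalar and `x` not scalar. Let `1 ≤ m < d` and let `r` be a prime dividing the number of totally singular `m`-spaces. For `r ≠ p` let `i` be the multiplicative order of `q` modulo `r`, `c = i` for `i` even and `c = 2i` for `i` odd, and write `k = n mod c`, `ℓ = m mod i`, `n' = ⌊n/i⌋`, `m' = ⌊m/i⌋`, `t = (r−1)/i`. Then every element of `T` of order `r` fixes some totally singular `m`-space if and only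 if one of: (i) `r = 2 ≠ p` and either `q ≡ 1 (mod 4)`, or `q ≡ 3 (mod 4)`, `m ≤ n/2 − 2` and (`m` even or `n ≡ 2 (mod 4)`); (ii) `r ≠ p` odd, `i` odd, `i ≤ m` and `k ≥ 2ℓ`; (iii) `r ≠ p` odd, `i` even, `i ≤ m`, `n' − 2m' ≥ t`, and one of: `i ≥ 2ℓ`, `k = 0`, `n/i` odd and `n' − 2m' > t`; or `k ≥ 2ℓ` and `n'` even; or `k > 2ℓ` and `n'` odd. -/
theorem result {F : Type*} [Field F] [Fintype F] {p : ℕ} [Fact p.Prime] [CharP F p] {q : ℕ} (hq : Fintype.card F = q)
    (d m : ℕ) (hd : 4 ≤ d) (hm : 1 ≤ m) (hmd : m < d)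
    (r : ℕ) [Fact r.Prime]
    (hrΩ : r ∣ Nat.card {W : Submodule F (Fin d ⊕ Fin d → F) // Module.finrank F ↥W = m ∧ (∀ w ∈ W, Cfsg.quadFormPlus d F w = 0)})
    (i c : ℕ) (hi : i = orderOf (q : ZMod r)) (hc : c = if Even i then i else 2 * i) :
    (∀ x : GL (Fin d ⊕ Fin d) F, x ∈ Cfsg.Geo.omegaGL (Cfsg.quadFormPlus d F) →
      (∃ z : F, ((x ^ r : GL (Fin d ⊕ Fin d) F) : Matrix (Fin d ⊕ Fin d) (Fin d ⊕ Fin d) F) = z • (1 : Matrix (Fin d ⊕ Fin d) (Fin d ⊕ Fin d) F)) →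
      (∀ z : F, (x : Matrix (Fin d ⊕ Fin d) (Fin d ⊕ Fin d) F) ≠ z • (1 : Matrix (Fin d ⊕ Fin d) (Fin d ⊕ Fin d) F)) →
      ∃ W : Submodule F (Fin d ⊕ Fin d → F), Module.finrank F ↥W = m ∧ (∀ w ∈ W, Cfsg.quadFormPlus d F w = 0) ∧
        W.map (Matrix.toLin' (x : Matrix (Fin d ⊕ Fin d) (Fin d ⊕ Fin d) F)) ≤ W) ↔
    ((r = 2 ∧ p ≠ 2 ∧ (q % 4 = 1 ∨ (q % 4 = 3 ∧ m + 2 ≤ d ∧ (Even m ∨ (2 * d) % 4 = 2)))) ∨
     (r ≠ p ∧ 2 < r ∧ Odd i ∧ i ≤ m ∧ 2 * (m % i) ≤ (2 * d) % c) ∨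
     (r ≠ p ∧ 2 < r ∧ Even i ∧ i ≤ m ∧ (r - 1) / i + 2 * (m / i) ≤ (2 * d) / i ∧
       ((2 * (m % i) ≤ i ∧ (2 * d) % c = 0 ∧ Odd ((2 * d) / i) ∧ (r - 1) / i + 2 * (m / i) < (2 * d) / i) ∨
        (2 * (m % i) ≤ (2 * d) % c ∧ Even ((2 * d) / i)) ∨
        (2 * (m % i) < (2 * d) % c ∧ Odd ((2 * d) / i))))) := by
  have e : finrank F (Fin d ⊕ Fin d → F) = 2 * d := by simp [two_mul]
  have n : (plusF F d).OGood := ⟨plusF_nondeg d, .inr (by omega)⟩
  simp only [← plusF_Q, ← orth_ts, ← and_assoc] at hrΩ ⊢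
  have h₀ : (plusF F d).HasTS m := n.nd.orth_hasTS (by omega)
  refine (el_om (P := fun W => finrank F W = m ∧ (plusF F d).TS W)).trans ?_
  have t : Even (2 * d) → ((plusF F d).HasTS (2 * d / 2) ↔ True) := by simp [plusF_hasTS]
  by_cases rp : r = p
  · exact (not_dvd_ts p (card_ts_mod 3 numSing_orth m n.nd (by omega)) (rp ▸ hrΩ)).elim
  by_cases r2 : r = 2
  · subst r2
    have h2 := mt (two_iff (F := F) p).1 (Ne.symm rp)
    have := hq ▸ odd_of_two_ne h2
    rw [n.ts_two e (by omega) t h₀ h2 hq]; simp [Ne.symm rp, Nat.even_iff]; omega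
  subst hq
  have r3 : 2 < r := by have := (Fact.out : r.Prime).two_le; omega
  rw [n.ts_ss e (by omega) t r2 p rp hi hc hrΩ h₀]
  obtain ⟨c0, c2⟩ := c_pos p rp hi hc
  have r0 := cast_ne (F := F) p Fact.out rp
  have i0 := hi ▸ ord_pos Fact.out r0
  have t0 := Nat.div_pos (Nat.le_of_dvd (by omega) (hi ▸ ord_dvd_pred r0)) i0
  have l := Nat.mod_lt m i0
  have x := Nat.mod_lt (2 * d) c0
  have x2 : (2 * d) % c % 2 = 0 := by rw [Nat.mod_mod_of_dvd _ (Nat.dvd_of_mod_eq_zero c2)]; omega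
  simp only [r2, rp, r3, ← Nat.one_le_div_iff i0, ne_eq, not_false_iff, false_and, false_or, true_and, and_assoc, ← Nat.not_even_iff_odd, am,
    show (2 * d) % 2 = 0 by omega, true_iff]
  by_cases h : Even i <;> simp only [h, not_true, false_or, not_false_iff, true_or, and_true, if_true, if_false, false_and, true_and, and_false, or_false] at hc ⊢ <;> subst hc <;>
    refine and_congr_right fun m0 => ?_
  · refine (forall₂_congr fun k _ => ar_sd (by split_ifs <;> omega) x).trans ?_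
    simp only [Nat.even_iff]
    generalize (2 * d) / c = A, (2 * d) % c = y, m / c = B, m % c = z, (r - 1) / c = t at *
    clear * - c2 x x2 l t0 m0
    refine ⟨fun H => ?_, fun H k hk => by split_ifs at * <;> omega⟩
    generalize ha : (if y = 0 ∧ ¬ A % 2 = 0 then A - 1 else A) = a at H
    have h1 := H a le_rfl
    have h2 := H (a - 1) (by omega)
    clear H
    have d : B - (a + 1 - t) / 2 = 0 := by clear h2; split_ifs at ha <;> omega
    rw [d] at h1
    have : t + 2 * B ≠ a + 1 := fun e => by rw [show B - (a - 1 + 1 - t) / 2 = 1 by omega] at h2; split_ifs at * <;> omega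
    clear h2
    split_ifs at ha with h
    · exact ⟨by omega, .inl (by split_ifs at h1 <;> omega)⟩
    · exact ⟨by omega, .inr (by split_ifs at h1 <;> omega)⟩
  · have := (ar_hyp (D := m / i) (u := (2 * d) / (2 * i)) l.le x).1 (by rw [Nat.div_add_mod, Nat.div_add_mod]; omega)
    refine (forall₂_congr fun k _ => ar_hyp (by omega) x).trans ?_
    generalize (2 * d) / (2 * i) = A, (2 * d) % (2 * i) = y, m / i = B, m % i = z at *
    exact ⟨fun H => by have := H A; omega, fun H k hk => by omega⟩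


end Cfsg.Agent.S5973
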