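import Cfsg.Statements.S5974
import Cfsg.Agent.H5.Nd3

set_option autoImplicit false
open scoped MatrixGroups
open Cfsg

namespace Cfsg.Agent.S5974

open H5 H5.Form Module Matrix

/-- Elements of prime order of PΩ⁺_n(q), n = 2d ≥ 8, with no fixed nondegenerate hyperbolic `m`-space. Here `T = PΩ⁺_n(q)` is realised through `Ω⁺_n(q)`, the commutator subgroup of the isometry group of `Q = Σ xᵢyᵢ` over the field `F` with `q` elements; an element of `T` of prime order `r` is an element `x` of `Ω⁺_n(q)` with `x^r` scalar and `x` not scalar. A hyperbolic `m`-space is a subspace `W` of even dimension `m` on which the polar form of `Q` is nondegenerate and which contains a totally singular subspace of dimension `m/2`. Let `m` be even with `2 ≤ m < n/2`, and let `r` be a prime dividing the number of hyperbolic `m`-spaces, with `r = 2` or `r ≠ p`. For `r ≠ p` let `i` be the multiplicative order of `q` modulo `r`, `c = i` for `i` even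 and `c = 2i` for `i` odd, and write `k = n mod c`, `ℓ' = m mod c`. Then every element of `T` of order `r` fixes some hyperbolic `m`-space if and only if one of: (i) `r = 2` and (`n ≡ 2 (mod 4)`, or `m ≡ 0 (mod 4)`, or `q ≡ 1 (mod 4)`); (ii) `r ≠ p` odd, `i` odd, `c ≤ m` and `k ≥ ℓ'`; (iii) `r ≠ p` odd, `i` even, and either `k = 0` and (`n/i` odd, or `ℓ' = 0` and `m/i` even), or `i ≤ m` and (`k > ℓ' > 0`, or `k = ℓ' > 0` and `(n + m − 2k)/i` even, or `k > ℓ' = 0` and `m/i` even). -/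
theorem result {F : Type*} [Field F] [Fintype F] {p : ℕ} [Fact p.Prime] [CharP F p] {q : ℕ} (hq : Fintype.card F = q)
    (d m : ℕ) (hd : 4 ≤ d) (hm : 2 ≤ m) (hme : Even m) (hmd : m < d)
    (r : ℕ) [Fact r.Prime] (hr : r = 2 ∨ r ≠ p)
    (hrΩ : r ∣ Nat.card {W : Submodule F (Fin d ⊕ Fin d → F) // (Module.finrank F ↥W = m ∧ (∀ u ∈ W, u ≠ 0 → ∃ v ∈ W, QuadraticMap.polar (Cfsg.quadFormPlus d F) u v ≠ 0) ∧
          ∃ U : Submodule F (Fin d ⊕ Fin d → F), U ≤ W ∧ 2 * Module.finrank F ↥U = m ∧ ∀ u ∈ U, Cfsg.quadFormPlus d F u = 0)})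
    (i c : ℕ) (hi : i = orderOf (q : ZMod r)) (hc : c = if Even i then i else 2 * i) :
    (∀ x : GL (Fin d ⊕ Fin d) F, x ∈ Cfsg.Geo.omegaGL (Cfsg.quadFormPlus d F) →
      (∃ z : F, ((x ^ r : GL (Fin d ⊕ Fin d) F) : Matrix (Fin d ⊕ Fin d) (Fin d ⊕ Fin d) F) = z • (1 : Matrix (Fin d ⊕ Fin d) (Fin d ⊕ Fin d) F)) →
      (∀ z : F, (x : Matrix (Fin d ⊕ Fin d) (Fin d ⊕ Fin d) F) ≠ z • (1 : Matrix (Fin d ⊕ Fin d) (Fin d ⊕ Fin d) F)) →
      ∃ W : Submodule F (Fin d ⊕ Fin d → F), (Module.finrank F ↥W = m ∧ (∀ u ∈ W, u ≠ 0 → ∃ v ∈ W, QuadraticMap.polar (Cfsg.quadFormPlus d F) u v ≠ 0) ∧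
          ∃ U : Submodule F (Fin d ⊕ Fin d → F), U ≤ W ∧ 2 * Module.finrank F ↥U = m ∧ ∀ u ∈ U, Cfsg.quadFormPlus d F u = 0) ∧
        W.map (Matrix.toLin' (x : Matrix (Fin d ⊕ Fin d) (Fin d ⊕ Fin d) F)) ≤ W) ↔
    ((r = 2 ∧ ((2 * d) % 4 = 2 ∨ m % 4 = 0 ∨ q % 4 = 1)) ∨
     (r ≠ p ∧ 2 < r ∧ Odd i ∧ c ≤ m ∧ m % c ≤ (2 * d) % c) ∨
     (r ≠ p ∧ 2 < r ∧ Even i ∧
       (((2 * d) % c = 0 ∧ (Odd ((2 * d) / i) ∨ (m % c = 0 ∧ Even (m / i)))) ∨
        (i ≤ m ∧ ((m % c < (2 * d) % c ∧ 0 < m % c) ∨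
                  ((2 * d) % c = m % c ∧ 0 < m % c ∧ Even ((2 * d + m - 2 * ((2 * d) % c)) / i)) ∨
                  (0 < (2 * d) % c ∧ m % c = 0 ∧ Even (m / i))))))) := by
  subst hq
  obtain ⟨a, rfl⟩ := hme.two_dvd
  have n := good_plus (F := F) (m := d) (.inr (by omega))
  obtain ⟨W₀, n₀, e₀, t₀⟩ := n.nd.exists_type True (a := a) (by omega) (by simp; omega)
  have cl : ∀ W : Submodule F (Fin d ⊕ Fin d → F), (finrank F W = 2 * a ∧ (∀ u ∈ W, u ≠ 0 → ∃ v ∈ W, QuadraticMap.polar (quadFormPlus d F) u v ≠ 0) ∧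
      ∃ U : Submodule F (Fin d ⊕ Fin d → F), U ≤ W ∧ 2 * finrank F U = 2 * a ∧ ∀ u ∈ U, quadFormPlus d F u = 0) ↔ (plusF F d).Cl W₀ W := fun W => by
    rw [cl_even n₀ e₀ t₀, ← nd_iff, iff_true, PlusOn]
    simp only [← plusF_Q, orth_polar, orth_ts]
    exact and_congr_right fun h => and_congr_right fun _ => exists_congr fun U => by rw [h]; tauto
  simp only [cl] at hrΩ ⊢
  refine (el_gl (r := r) (P := (plusF F d).Cl W₀) (M := Geo.omegaGL (quadFormPlus d F)) (G := (plusF F d).Om) fun _ => by rw [← plusF_Q]; exact As.mem_omega).trans ?_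
  have e : finrank F (Fin d ⊕ Fin d → F) = 2 * d := by simp [two_mul]
  have t : Even (2 * d) → ((plusF F d).HasTS (2 * d / 2) ↔ True) := by simp [plusF_hasTS]
  have t₀' : Even (2 * a) → (((plusF F d).res W₀).HasTS (2 * a / 2) ↔ True) := by simp [t₀]
  by_cases r2 : r = 2
  · subst r2
    by_cases h2 : (2 : F) = 0
    · have := even_of_two h2
      rw [n.el_two_even n₀ e e₀ (by omega) (by omega) t t₀' h2]; simp; omega
    · have := odd_of_two_ne h2
      rw [n.el_two_odd n₀ e e₀ (by omega) (by omega) t t₀' h2 rfl]; simp [Nat.even_iff]; omega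
  have rp := hr.resolve_left r2
  have r3 := (Fact.out : r.Prime).two_le
  obtain ⟨c0, c2⟩ := c_pos p rp hi hc
  obtain ⟨h7, h0⟩ := n.el_ss n₀ e e₀ (by omega) (by omega) t t₀' r2 p rp hi hc hrΩ (τ₁ := True) fun _ => by
    rw [← Nat.mul_sub, Nat.mul_div_cancel_left _ two_pos, n.nd.type_perp n₀ e e₀]; simp [t₀, plusF_hasTS]
  rw [h7]; clear h7
  obtain ⟨h1, h2, h3, h4, h5⟩ := div_split c0 (show 2 * a ≤ 2 * d by omega)
  have h6 := div_key c0 (n := 2 * d) (m := 2 * a)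
  replace r3 : 2 < r := by omega
  simp only [am, Nat.even_iff, Nat.odd_iff, true_iff, r2, rp, r3, false_and, false_or, ne_eq, not_false_iff, true_and] at hc h0 ⊢
  clear * - hc h0 h1 h2 h3 h4 h5 h6
  rcases Nat.mod_two_eq_zero_or_one i with o | o <;> simp only [o, zero_ne_one, one_ne_zero, false_or, false_and, true_and, true_or, or_false, ite_true, ite_false, not_true, and_false] at hc h0 ⊢
  all_goals
    try subst i
    rw [h4]; clear h4
    generalize (2 * d + 2 * a - 2 * (2 * d % c)) / c = D at *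
    generalize 2 * d / c = A at *; generalize 2 * a / c = B at *; generalize (2 * d - 2 * a) / c = C at *
    generalize 2 * d % c = x at *; generalize 2 * a % c = y at *; generalize (2 * d - 2 * a) % c = z at *
    rcases h5 with ⟨h, h'⟩ | ⟨h, h'⟩ <;> (try split_ifs at *) <;> omega


end Cfsg.Agent.S5974
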