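import Cfsg.Statements.S5976
import Cfsg.Agent.H5.Se2

set_option autoImplicit false
open scoped MatrixGroups
open Cfsg

namespace Cfsg.Agent.S5976

open H5 H5.Form Module Matrix Pointwise

/-- Elements of prime order of PSp_n(q), q odd, and the subgroups of type GU_{n/2}(q). Here `T = PSp_{2d}(F)` for a field `F` with `q` elements, `q` odd, `d ≥ 2`, realised through the matrices preserving the standard alternating form `f`; `K` is a subalgebra of the `2d × 2d` matrices that is a field of degree 2 over `F`, closed under taking adjoints for `f` but not consisting of self-adjoint elements (so `F^{2d}` becomes a `d`-dimensional space over `K ≅ F_{q²}` on which `f` is the trace of a multiple of a non-degenerate hermitian form); `H` is the subgroup of `T` normalizing `K` — the symplectic maps that are `K`-linear or `K`-semilinear, a subgroup of type GU_d(q) (maximality is not assumed). Ω is the set of cosets of `H` in `T`, so an element of `T` of prime order `r` (`x ∈ T` with `x^r`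 scalar, `x` not scalar) fixes a point of Ω exactly when some `T`-conjugate of `x` normalizes `K`. Let `r` be a prime dividing the index of `H`. Then every element of `T` of order `r` fixes a point of Ω if and only if `r = 2`. -/
theorem result {F : Type*} [Field F] [Fintype F] {p : ℕ} [Fact p.Prime] [CharP F p] {q : ℕ} (hq : Fintype.card F = q)
    (hodd : Odd q) (d : ℕ) (hd : 2 ≤ d)
    (K : Subalgebra F (Matrix (Fin d ⊕ Fin d) (Fin d ⊕ Fin d) F)) (hK : Cfsg.Geo.IsFieldSubalgebra 2 K)
    (hKf : Cfsg.Geo.IsAdjointClosedFor (Cfsg.sympForm d F) K) (hKns : ¬ Cfsg.Geo.IsSelfAdjointFor (Cfsg.sympForm d F) K)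
    (r : ℕ) [Fact r.Prime]
    (hΩ : r ∣ (Cfsg.Geo.subalgebraNormalizer K).relIndex (Cfsg.spGL d F)) :
    (∀ x ∈ Cfsg.spGL d F, (∃ z : F, ((x ^ r : GL (Fin d ⊕ Fin d) F) : Matrix (Fin d ⊕ Fin d) (Fin d ⊕ Fin d) F) = z • (1 : Matrix (Fin d ⊕ Fin d) (Fin d ⊕ Fin d) F)) →
      (∀ z : F, (x : Matrix (Fin d ⊕ Fin d) (Fin d ⊕ Fin d) F) ≠ z • (1 : Matrix (Fin d ⊕ Fin d) (Fin d ⊕ Fin d) F)) →
      ∃ g ∈ Cfsg.spGL d F, g⁻¹ * x * g ∈ Cfsg.Geo.subalgebraNormalizer K) ↔ r = 2 := by
  subst hq
  haveI : Nonempty (Fin d) := ⟨⟨0, by omega⟩⟩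
  obtain ⟨L, _, _, _, _, e, N, h⟩ := exists_nrm' hK
  have hH : ∀ g, g ∈ Cfsg.Geo.subalgebraNormalizer K ↔ glEquiv g ∈ (Cfsg.Geo.subalgebraNormalizer K).comap glEquiv.symm.toMonoidHom := by simp
  rw [relIndex_sub (mem_spGL_iff d) hH] at hΩ
  refine (elg_sub (mem_spGL_iff d) hH).trans (gu_iff (sympF_nondeg d) N (by simp; omega) (two_ne_zero_of_odd hodd) e ?_
    (fun k => hKns ((h fun f => ∀ u v, Cfsg.sympForm d F (f u) v = Cfsg.sympForm d F u (f v)).1 (by simpa using k))) hΩ)
  simp only [sympF_B]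
  refine (h fun f => ∃ b : L, ∀ u v, Cfsg.sympForm d F (f u) v = Cfsg.sympForm d F u (b • v)).2 fun a ha => by_contra fun k => ?_
  obtain ⟨b, hb, l⟩ := hKf a ha
  exact (h fun f => ¬ ∀ u v, Cfsg.sympForm d F (a *ᵥ u) v = Cfsg.sympForm d F u (f v)).1 (not_exists.1 k) b hb l


end Cfsg.Agent.S5976
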