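import Cfsg.Statements.S5980
import Cfsg.Agent.H5.Tm3
import Cfsg.Agent.H5.Pu

set_option autoImplicit false
open scoped MatrixGroups
open Cfsg

namespace Cfsg.Agent.S5980

open H5 H5.As H5.Form Module Matrix Pointwise

/-- Elements of prime order of PSp_n(q), q odd, and the stabilizers of tensor decompositions Sp_a(q) ⊗ O_b(q). Here `T = PSp_{2d}(F)` for a field `F` with `q` elements, `q` odd, `d ≥ 2`, realised through the matrices preserving the standard alternating form `f`; `2d = a·b` with `a` even, `b ≥ 3`, and the bijection `e` and change of basis `P` exhibit `f` as a non-zero scalar multiple of the tensor product of a non-degenerate alternating form `f₁` on `F^a` and a non-degenerate symmetric bilinear form `f₂` on `F^b`; `H` is the subgroup of `T` stabilizing this tensor decomposition (the elements of `T` in the conjugate by `P` of the group of Kronecker products) — a subgroup of type Sp_a(q) ⊗ O^ε_b(q) (maximality is not assumed).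 Ω is the set of cosets of `H` in `T`, so an element of `T` of prime order `r` (`x ∈ T` with `x^r` scalar, `x` not scalar) fixes a point of Ω exactly when some `T`-conjugate of `x` lies in `H`. Let `r` be a prime dividing the index of `H`. Then every element of `T` of order `r` fixes a point of Ω if and only if `r = 2` and `a = 2`. -/
theorem result {F : Type*} [Field F] [Fintype F] {p : ℕ} [Fact p.Prime] [CharP F p] {q : ℕ} (hq : Fintype.card F = q)
    (hodd : Odd q) (d : ℕ) (hd : 2 ≤ d) (a b : ℕ) (hab : 2 * d = a * b) (ha : Even a) (ha2 : 2 ≤ a) (hb : 3 ≤ b)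
    (e : (Fin d ⊕ Fin d) ≃ Fin a × Fin b) (P : GL (Fin d ⊕ Fin d) F)
    (f₁ : (Fin a → F) → (Fin a → F) → F) (f₂ : (Fin b → F) → (Fin b → F) → F)
    (hf₁ : Cfsg.Geo.IsSymplecticForm f₁) (hf₂ : Cfsg.Geo.IsSymmetricForm f₂)
    (hS : Cfsg.Geo.IsTensorFormStructure id (Cfsg.sympForm d F) f₁ f₂ e P)
    (r : ℕ) [Fact r.Prime]
    (hΩ : r ∣ (Cfsg.Geo.tensorProductSubgroup a b e P).relIndex (Cfsg.spGL d F)) :
    (∀ x ∈ Cfsg.spGL d F, (∃ z : F, ((x ^ r : GL (Fin d ⊕ Fin d) F) : Matrix (Fin d ⊕ Fin d) (Fin d ⊕ Fin d) F) = z • (1 : Matrix (Fin d ⊕ Fin d) (Fin d ⊕ Fin d) F)) →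
      (∀ z : F, (x : Matrix (Fin d ⊕ Fin d) (Fin d ⊕ Fin d) F) ≠ z • (1 : Matrix (Fin d ⊕ Fin d) (Fin d ⊕ Fin d) F)) →
      ∃ g ∈ Cfsg.spGL d F, g⁻¹ * x * g ∈ Cfsg.Geo.tensorProductSubgroup a b e P) ↔ (r = 2 ∧ a = 2) := by
  subst hq
  haveI : Nonempty (Fin d) := ⟨⟨0, by omega⟩⟩
  have h2 := two_ne_zero_of_odd hodd
  let Ψ := ofAlt (LinearMap.mk₂ F f₁ hf₁.1.1 hf₁.1.2 hf₁.1.3 hf₁.1.4) hf₁.3
  let Θ := ofQuadFun (fun v => 2⁻¹ * f₂ v v) (LinearMap.mk₂ F f₂ hf₂.1.1 hf₂.1.2 hf₂.1.3 hf₂.1.4) (fun c x => by rw [hf₂.1.2, hf₂.1.4]; ring) fun x y => by simp [hf₂.1.1, hf₂.1.3, hf₂.2 y x]; field_simp; ring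
  obtain ⟨T, hH, -, c, c0, hT⟩ := tens_form (σ := .id F) Ψ.B Θ.B hS
  have hH' : ∀ g, g ∈ Cfsg.Geo.tensorProductSubgroup a b e P ↔ glEquiv g ∈ (Cfsg.Geo.tensorProductSubgroup a b e P).comap glEquiv.symm.toMonoidHom := by simp
  rw [relIndex_sub (mem_spGL_iff d) hH'] at hΩ
  simpa only [finrank_fin_fun] using (elg_sub (mem_spGL_iff d) hH').trans (tsp_iff (Ψ := Ψ) (Θ := Θ) (sympF_nondeg d) (fun y hy => by_contra fun h => (hf₁.4 y h).1.elim fun x k => k (hy x))
    (fun y hy => by_contra fun h => (hf₂.3 y h).1.elim fun x k => k (hy x)) h2 (fun g => (hH _).trans (by simp)) c0 (fun _ _ _ _ => (sympF_B ..).trans (hT ..)) (by simpa) (by simpa) hΩ)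


end Cfsg.Agent.S5980
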