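import Cfsg.Statements.S5983
import Cfsg.Agent.H5.Ev2

set_option autoImplicit false
open scoped MatrixGroups
open Cfsg

namespace Cfsg.Agent.S5983

open H5 H5.Form Module Matrix

/-- Elements of prime order of PSp_n(q), q even, and the subgroups of orthogonal type. Here `T = Sp_{2d}(F)` for a field `F` of characteristic 2 with `q` elements (`d ≥ 2`, `(d, q) ≠ (2, 2)`), realised as the invertible matrices preserving the standard alternating form; `Q` is a non-degenerate quadratic form on `F^{2d}` whose polar form is that alternating form, and `H` is the subgroup of `T` preserving `Q` up to a scalar (equivalently preserving `Q`) — a subgroup of type O^±_{2d}(q) (maximality is not assumed); `Q` is of plus type when `F^{2d}` contains a `d`-dimensional subspace on which `Q` vanishes, of minus type otherwise. Ω is the set of cosets of `H` in `T`, so an element of `T` of prime order `r` (`x ∈ T` with `x^r` scalar, `x` not scalar) fixes a point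 of Ω exactly when some `T`-conjugate of `x` preserves `Q`. Let `r` be a prime dividing the index of `H`. Then every element of `T` of order `r` fixes a point of Ω if and only if `r = 2` and either `Q` is of plus type or `d` is odd. -/
theorem result {F : Type*} [Field F] [Fintype F] {p : ℕ} [Fact p.Prime] [CharP F p] {q : ℕ} (hq : Fintype.card F = q)
    (hp : p = 2) (d : ℕ) (hd : 2 ≤ d) (hT : (d, q) ≠ (2, 2)) (Q : (Fin d ⊕ Fin d → F) → F) (hQ : Cfsg.Geo.IsNondegenerateQuadraticForm Q)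
    (hQf : ∀ u v, QuadraticMap.polar Q u v = Cfsg.sympForm d F u v)
    (r : ℕ) [Fact r.Prime]
    (hΩ : r ∣ (Cfsg.Geo.quadSimilarityGroup Q).relIndex (Cfsg.spGL d F)) :
    (∀ x ∈ Cfsg.spGL d F, (∃ z : F, ((x ^ r : GL (Fin d ⊕ Fin d) F) : Matrix (Fin d ⊕ Fin d) (Fin d ⊕ Fin d) F) = z • (1 : Matrix (Fin d ⊕ Fin d) (Fin d ⊕ Fin d) F)) →
      (∀ z : F, (x : Matrix (Fin d ⊕ Fin d) (Fin d ⊕ Fin d) F) ≠ z • (1 : Matrix (Fin d ⊕ Fin d) (Fin d ⊕ Fin d) F)) →
      ∃ g ∈ Cfsg.spGL d F, g⁻¹ * x * g ∈ Cfsg.Geo.quadSimilarityGroup Q) ↔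
    (r = 2 ∧ (Cfsg.Geo.IsPlusTypeOn Q ⊤ ∨ Odd d)) := by
  classical
  obtain ⟨Φ, G, rfl, hG⟩ := As.exists_OF hQ
  obtain ⟨d, rfl⟩ := Nat.exists_eq_add_one_of_ne_zero (show d ≠ 0 by omega)
  subst hq
  have n := hG.nd
  have s := sympF_nondeg (F := F) (d + 1)
  have h2 : (2 : F) = 0 := two_zero p hp
  have e : finrank F (Fin (d + 1) ⊕ Fin (d + 1) → F) = 2 * (d + 1) := by simp; omega
  have B : ∀ u v, Φ.B u v = (sympF F (d + 1)).B u v := fun u v => by rw [← Φ.orth_polar, hQf, sympF_B]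
  have le : Φ.isom ≤ (sympF F (d + 1)).isom := fun g hg => (mem_isom_symp _).2 fun u v => by rw [← B, ← B, hg.1]
  have mem : ∀ g, g ∈ Geo.quadSimilarityGroup Φ.Q ⊓ spGL (d + 1) F ↔ glEquiv g ∈ Φ.isom := fun g =>
    ⟨fun ⟨⟨c, hc⟩, h⟩ => by
      obtain ⟨y, hy⟩ := exists_ne (0 : Fin (d + 1) ⊕ Fin (d + 1) → F)
      obtain ⟨x, hx⟩ := n.exists_ne hy
      have := B_of_sim (Φ := Φ) (Ψ := Φ) (e := glEquiv g) hc x y
      rw [B, LinearEquiv.coe_coe, ((mem_spGL_iff _ _).1 h).1, ← B, eq_comm, mul_eq_right₀ hx] at this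
      exact (mem_isom_orth _).2 fun v => by simpa [this] using hc v,
    fun h => ⟨⟨1, fun v => by simpa using h.2 v⟩, (mem_spGL_iff _ _).2 (le h)⟩⟩
  have one : ∀ {x} {z : F}, x ∈ spGL (d + 1) F → x.1 = z • 1 → x = 1 := fun h k => Units.ext (by
    rw [k, eq_one_of_two h2 (scal_one s (fun _ => rfl) ((mem_spGL_iff _ _).1 h) k)]; simp)
  have key : (∀ t ∈ (sympF F (d + 1)).isom, t ^ r = 1 → t ≠ 1 → ∃ g ∈ (sympF F (d + 1)).isom, g⁻¹ * t * g ∈ Φ.isom) ↔
      r = 2 ∧ (Φ.HasTS (d + 1) ∨ Odd (d + 1)) := by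
    refine ⟨fun H => ?_, ?_⟩
    · by_cases r2 : r = 2
      · refine ⟨r2, by_contra fun o => ?_⟩
        rw [not_or, Nat.not_odd_iff_even] at o
        obtain ⟨m, h0, U, h1, h3⟩ := s.symp_hasTS
        obtain rfl : m = d + 1 := by omega
        obtain ⟨t, t1, t2, t3, t4⟩ := (c2_symp h2).exists_alt s h3 (by rw [h1]; exact o.2)
        obtain ⟨g, g1, g2⟩ := H t t1 (by rw [r2, sq, t2])
          (by rintro rfl; rw [← t3, show mv (1 : _ ≃ₗ[F] _) = ⊥ from LinearMap.range_eq_bot.2 (sub_self _)] at h1; simp at h1)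
        have k : g⁻¹ * t * g * (g⁻¹ * t * g) = 1 := by simp [mul_assoc, ← mul_assoc t, t2]
        have := ((c2_symp h2).conj_iff s (t := ⟨_, le g2⟩) (s := ⟨t, t1⟩) k t2).1 (isConj_iff.2 ⟨⟨g, g1⟩, Subtype.ext (by simp [mul_assoc])⟩)
        exact o.1 ⟨_, this.1.trans (t3 ▸ h1), ((c2_orth h2).alt_iff_ts n g2 k fun x => (B _ _).trans (this.2.2 t4 x)).1⟩
      have rp : r ≠ p := hp ▸ r2
      have c := (Geo.quadSimilarityGroup Φ.Q).subgroupOf (spGL (d + 1) F) |>.card_mul_index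
      rw [Nat.card_congr (spGLEquiv _).toEquiv, card_isom_symp rfl s e, ← Subgroup.inf_subgroupOf_right,
        Nat.card_congr (Subgroup.subgroupOfEquivOfLe inf_le_right).toEquiv, Nat.card_congr (subEquiv glEquiv _ _ mem).toEquiv, Subgroup.inf_subgroupOf_right,
        spOrd, Finset.prod_range_succ, pow_two_mul_sub_one] at c
      have q1 := Fintype.one_lt_card (α := F)
      have P : ∏ i ∈ Finset.range d, (Fintype.card F ^ (2 * (i + 1)) - 1) ≠ 0 := Finset.prod_ne_zero_iff.2 fun i _ =>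
        (Nat.sub_pos_of_lt (Nat.one_lt_pow (by omega) q1)).ne'
      have q2 := Nat.one_lt_pow (n := d + 1) (by omega) q1
      have k : (Fintype.card F : ZMod r) ^ (d + 1) = if Φ.HasTS (d + 1) then -1 else 1 := by
        obtain ⟨j, hj⟩ := hΩ
        rw [Subgroup.relIndex] at hj
        rw [hj] at c
        have q0 := pow_ne_zero (d + 1) (card_ne_zero (F := F) p rp)
        split_ifs with h
        · rw [card_isom_plus rfl n e h] at c
          have : 2 * (r * j) = Fintype.card F ^ (d + 1) * (Fintype.card F ^ (d + 1) + 1) := mul_left_cancel₀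
            (mul_ne_zero (mul_ne_zero (pow_ne_zero ((d + 1) * d) Fintype.card_ne_zero) (Nat.sub_pos_of_lt q2).ne') P) (by linear_combination c)
          simpa [q0, add_eq_zero_iff_eq_neg] using congrArg (Nat.cast : ℕ → ZMod r) this
        · rw [card_isom_minus rfl n e h] at c
          have : 2 * (r * j) = Fintype.card F ^ (d + 1) * (Fintype.card F ^ (d + 1) - 1) := mul_left_cancel₀
            (mul_ne_zero (mul_ne_zero (pow_ne_zero ((d + 1) * d) Fintype.card_ne_zero) (Nat.add_one_ne_zero (Fintype.card F ^ (d + 1)))) P) (by linear_combination c)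
          simpa [q0, q2.le, sub_eq_zero] using congrArg (Nat.cast : ℕ → ZMod r) this
      obtain ⟨t, t1, t2, t3⟩ := s.fpf_symp r2 p rp e (by rw [pow_mul', k]; split_ifs <;> simp)
      obtain ⟨g, g1, g2⟩ := H t t1 t2 (by rintro rfl; obtain ⟨x, hx⟩ := exists_ne (0 : Fin (d + 1) ⊕ Fin (d + 1) → F); exact hx (t3 x rfl))
      have := type_of_fpf n r2 (card_ne_zero p rp) e g2 (by simpa [t2] using conj_pow (a := g⁻¹) (b := t) (i := r)) fun x hx => g.map_eq_zero_iff.1 (t3 _ (g.symm_apply_eq.1 hx))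
      rw [k] at this
      split_ifs at this with h <;> simp [h, (one_ne_neg r2).symm] at this
    rintro ⟨rfl, H⟩ t t1 t2 t3
    rw [sq] at t2
    have a := (c2_symp h2).two_mul_le s t1 t2
    have h := n.orth_hasTS (m := d) (by omega)
    obtain ⟨u, u1, u2, u3, u4⟩ : ∃ u ∈ Φ.isom, u * u = 1 ∧ finrank F (mv u) = finrank F (mv t) ∧ (Φ.Alt u ↔ (sympF F (d + 1)).Alt t) := by
      by_cases k : (sympF F (d + 1)).Alt t
      · have b := ((c2_symp h2).alt_iff_ts s t1 t2 k).2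
        obtain ⟨U, h1, h3⟩ : Φ.HasTS (finrank F (mv t)) := H.elim (·.mono (by omega)) fun H => h.mono (by rw [Nat.even_iff, Nat.odd_iff] at *; omega)
        obtain ⟨u, u1, u2, u3, u4⟩ := (c2_orth h2).exists_alt n h3 (h1 ▸ b)
        exact ⟨u, u1, u2, u3 ▸ h1, by simp [k, u4]⟩
      have : finrank F (mv t) ≠ 0 := fun h => t3 (LinearEquiv.toLinearMap_injective (sub_eq_zero.1 (LinearMap.range_eq_bot.1 (Submodule.finrank_eq_zero.1 h))))
      obtain ⟨u, u1, u2, u3, u4⟩ := n.orth_nalt h2 e h (finrank F (mv t) - 1) (by omega)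
      exact ⟨u, u1, u2, by omega, by simp [k, u4]⟩
    obtain ⟨g, hg⟩ := isConj_iff.1 (((c2_symp h2).conj_iff s (t := ⟨u, le u1⟩) (s := ⟨t, t1⟩) u2 t2).2 ⟨u3, (forall_congr' fun x => by rw [B]).symm.trans u4⟩)
    exact ⟨g, g.2, by simpa [← show g.1 * u * g.1⁻¹ = t from congrArg Subtype.val hg, mul_assoc] using u1⟩
  rw [As.hasTS_iff (m := d + 1) (by simp; omega), ← key]
  refine ⟨fun H g g1 g2 g3 => ?_, fun H x x1 ⟨z, x2⟩ x3 => ?_⟩
  · obtain ⟨x, rfl⟩ := glEquiv.surjective g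
    rw [← mem_spGL_iff] at g1
    obtain ⟨y, y1, y2⟩ := H x g1 ⟨1, by rw [← map_pow, map_eq_one_iff _ glEquiv.injective] at g2; simp [g2]⟩ fun z k => g3 (by rw [one g1 k, map_one])
    exact ⟨_, (mem_spGL_iff _ _).1 y1, by simpa using (mem _).1 (Subgroup.mem_inf.2 ⟨y2, mul_mem (mul_mem (inv_mem y1) g1) y1⟩)⟩
  · obtain ⟨g, g1, g2⟩ := H _ ((mem_spGL_iff _ _).1 x1) (by rw [← map_pow, one (pow_mem x1 r) x2, map_one]) fun k =>
      x3 1 (by rw [map_eq_one_iff _ glEquiv.injective] at k; simp [k])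
    obtain ⟨y, rfl⟩ := glEquiv.surjective g
    exact ⟨y, (mem_spGL_iff _ _).2 g1, ((mem _).2 (by simpa using g2)).1⟩


end Cfsg.Agent.S5983
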