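import Cfsg.Statements.S5988
import Cfsg.Agent.H5.Nd4

set_option autoImplicit false
open scoped MatrixGroups
open Cfsg

namespace Cfsg.Agent.S5988

open H5 H5.Form Module Matrix

/-- Elements of prime order of PΩ⁺_n(q) with no fixed elliptic `m`-space. Here `T = PΩ⁺_n(F)`, `n = 2d ≥ 8`, realised through `Ω⁺_n(q)`, the commutator subgroup of the isometry group of `Q = Σ xᵢyᵢ` over the field `F` with `q` elements; an element of `T` of prime order `r` is an element `x` of `Ω⁺_n(q)` with `x^r` scalar and `x` not scalar; a nondegenerate `m`-space (even `m`) is a subspace on which the polar form of `Q` is nondegenerate; it is hyperbolic if it contains an `m/2`-dimensional subspace on which `Q` vanishes, elliptic otherwise. Let `m` be even with `2 ≤ m < n/2` and let `r` be a prime dividing the number of elliptic `m`-spaces; for `r ≠ p` let `i` be the multiplicative order of `q` modulo `r`, `c = i` for `i` even and `c = 2i` for `i` odd, and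 write `k = n mod c`, `ℓ = m mod i`, `ℓ' = m mod c`, `n' = ⌊n/i⌋`, `m' = ⌊m/i⌋`, `t = (r−1)/i`. Then every element of `T` of order `r` fixes some elliptic `m`-space if and only if one of: (i) `r = 2 ≠ p` and either `n ≡ 0 (mod 4)`, `q ≡ 3 (mod 4)` and `m ≡ 2 (mod 4)`, or `n ≡ 2 (mod 4)` and `q ≢ 1 (mod 8)`; (ii) `r ≠ p` odd, `i` odd, `c ≤ m` and `k > ℓ' > 0`; (iii) `r ≠ p` odd, `i` even, and either `k = 0` and (`n/i` odd, or `ℓ' = 0` and `m/i` odd), or `i ≤ m` and (`k > ℓ' > 0`, or `k = ℓ' > 0` and `(n + m − 2k)/i` odd, or `k > ℓ' = 0` and `m/i` odd). (For `r = p` there is always an element of order `p` fixing no elliptic `m`-space.) -/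
theorem result {F : Type*} [Field F] [Fintype F] {p : ℕ} [Fact p.Prime] [CharP F p] {q : ℕ} (hq : Fintype.card F = q)
    (d m : ℕ) (hd : 4 ≤ d) (hm : 2 ≤ m) (hme : Even m) (hmd : m < d)
    (r : ℕ) [Fact r.Prime]
    (hrΩ : r ∣ Nat.card {W : Submodule F (Fin d ⊕ Fin d → F) // Module.finrank F ↥W = m ∧ Cfsg.Geo.IsNondegenerateOn (QuadraticMap.polar (Cfsg.quadFormPlus d F)) W ∧ ¬ Cfsg.Geo.IsPlusTypeOn (Cfsg.quadFormPlus d F) W})
    (i c : ℕ) (hi : i = orderOf (q : ZMod r)) (hc : c = if Even i then i else 2 * i) :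
    (∀ x : GL (Fin d ⊕ Fin d) F, x ∈ Cfsg.Geo.omegaGL (Cfsg.quadFormPlus d F) →
      (∃ z : F, ((x ^ r : GL (Fin d ⊕ Fin d) F) : Matrix (Fin d ⊕ Fin d) (Fin d ⊕ Fin d) F) = z • (1 : Matrix (Fin d ⊕ Fin d) (Fin d ⊕ Fin d) F)) →
      (∀ z : F, (x : Matrix (Fin d ⊕ Fin d) (Fin d ⊕ Fin d) F) ≠ z • (1 : Matrix (Fin d ⊕ Fin d) (Fin d ⊕ Fin d) F)) →
      ∃ W : Submodule F (Fin d ⊕ Fin d → F), (Module.finrank F ↥W = m ∧ Cfsg.Geo.IsNondegenerateOn (QuadraticMap.polar (Cfsg.quadFormPlus d F)) W ∧ ¬ Cfsg.Geo.IsPlusTypeOn (Cfsg.quadFormPlus d F) W) ∧ W.map (Matrix.toLin' (x : Matrix (Fin d ⊕ Fin d) (Fin d ⊕ Fin d) F)) ≤ W) ↔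
    ((r = 2 ∧ p ≠ 2 ∧ ((Even d ∧ q % 4 = 3 ∧ m % 4 = 2) ∨ (Odd d ∧ q % 8 ≠ 1))) ∨
     (r ≠ p ∧ 2 < r ∧ Odd i ∧ c ≤ m ∧ 0 < m % c ∧ m % c < (2 * d) % c) ∨
     (r ≠ p ∧ 2 < r ∧ Even i ∧
       (((2 * d) % c = 0 ∧ (Odd ((2 * d) / i) ∨ (m % c = 0 ∧ Odd (m / i)))) ∨
        (i ≤ m ∧ ((0 < m % c ∧ m % c < (2 * d) % c) ∨
                  (0 < m % c ∧ m % c = (2 * d) % c ∧ Odd ((2 * d + m - 2 * ((2 * d) % c)) / i)) ∨
                  (m % c = 0 ∧ 0 < (2 * d) % c ∧ Odd (m / i))))))) := by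
  subst hq
  obtain ⟨a, rfl⟩ := hme.two_dvd
  have n := good_plus (F := F) (m := d) (.inr (by omega))
  obtain ⟨W₀, n₀, e₀, t₀⟩ := n.nd.exists_type False (a := a) (by omega) (by simp; omega)
  simp only [← plusF_Q, cl_minus n₀ e₀ t₀] at hrΩ ⊢
  rw [el_om]
  have e : finrank F (Fin d ⊕ Fin d → F) = 2 * d := by simp [two_mul]
  have t : Even (2 * d) → ((plusF F d).HasTS (2 * d / 2) ↔ True) := by simp [plusF_hasTS]
  have t₀' : Even (2 * a) → (((plusF F d).res W₀).HasTS (2 * a / 2) ↔ False) := by simp [t₀]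
  have t₁ : ((plusF F d).res ((plusF F d).perp W₀)).HasTS ((2 * d - 2 * a) / 2) ↔ False := by
    rw [← Nat.mul_sub, Nat.mul_div_cancel_left _ two_pos, n.nd.type_perp n₀ e e₀]; simp [t₀, plusF_hasTS]
  by_cases r2 : r = 2
  · subst r2
    by_cases h2 : (2 : F) = 0
    · rw [n.el_two_even n₀ e e₀ (by omega) (by omega) t t₀' h2]; simp [(two_iff p).1 h2]; omega
    · have := odd_of_two_ne h2
      rw [n.el_two_odd n₀ e e₀ (by omega) (by omega) t t₀' h2 rfl]; simp [mt (two_iff p).2 h2, Nat.even_iff, Nat.odd_iff]; omega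
  by_cases rp : r = p
  · subst rp
    have h2 := mt (two_iff (F := F) r).1 r2
    haveI : Nonempty (Fin d) := ⟨⟨0, by omega⟩⟩
    refine iff_of_false (fun H => ?_) (by simp [r2])
    obtain ⟨j, x, x1, rfl⟩ : ∃ j x, x ≤ 1 ∧ d = 2 * j + x := ⟨d / 2, d % 2, by omega⟩
    obtain ⟨ν, ν', h, h1, -, h3, h4⟩ := n.el_unip n₀ e₀ h2 r H (μ := .replicate (2 * x) 1 + .replicate (2 * j) 2) (fun a h => by simp [Multiset.mem_replicate] at h; omega)
      (by simp; omega) (exists_split_je (fun _ => rfl) (by simp) n.nd e (plusF_hasTS _) (by simp; omega) fun j => by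
        simp only [Multiset.count_add, Multiset.count_replicate]; split_ifs <;> simp [Nat.even_iff] <;> omega)
    have l : ∀ a ∈ ν + ν', a = 1 ∨ a = 2 := fun a ha => by rw [← h] at ha; simp [Multiset.mem_replicate] at ha; omega
    have := sum_count (μ := ν) fun a ha => by have := l a (by simp [ha]); omega
    have c1 := congrArg (Multiset.count 1) h
    have c3 := congrArg (Multiset.count 3) h
    simp [Multiset.count_replicate] at c1 c3
    by_cases k : ν.count 1 = 0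
    · exact (t₀' (by simp)).1 (h3 fun a ha => (l a (by simp [ha])).resolve_left fun e => Multiset.count_eq_zero.1 k (e ▸ ha))
    · exact t₁.1 (e ▸ h4 fun a ha => (l a (by simp [ha])).resolve_left fun e => Multiset.count_eq_zero.1 (show ν'.count 1 = 0 by omega) (e ▸ ha))
  have r3 : 2 < r := by have := (Fact.out : r.Prime).two_le; omega
  obtain ⟨c0, c2⟩ := c_pos p rp hi hc
  obtain ⟨h7, h0⟩ := n.el_ss n₀ e e₀ (by omega) (by omega) t t₀' r2 p rp hi hc hrΩ (τ₁ := False) fun _ => t₁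
  rw [h7]; clear h7
  obtain ⟨h1, h2, h3, h4, h5⟩ := div_split c0 (show 2 * a ≤ 2 * d by omega)
  have h6 := div_key c0 (n := 2 * d) (m := 2 * a)
  have h8 : (2 * d - 2 * a) % c = 0 → 1 ≤ (2 * d - 2 * a) / c := fun h => Nat.div_pos (Nat.le_of_dvd (by omega) (Nat.dvd_of_mod_eq_zero h)) c0
  simp only [am, Nat.even_iff, Nat.odd_iff, true_iff, false_iff, r2, rp, r3, false_and, false_or, ne_eq, not_false_iff, true_and, not_not] at hc h0 ⊢
  clear * - hc h0 h1 h2 h3 h4 h5 h6 h8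
  rcases Nat.mod_two_eq_zero_or_one i with o | o <;>
    simp only [o, zero_ne_one, one_ne_zero, false_or, false_and, true_and, true_or, or_false, ite_true, ite_false, not_true, and_false, and_true] at hc h0 ⊢
  all_goals
    try subst i
    rw [h4]; clear h4
    generalize (2 * d + 2 * a - 2 * ((2 * d) % c)) / c = D at *
    generalize (2 * d) / c = A at *; generalize 2 * a / c = B at *; generalize (2 * d - 2 * a) / c = C at *
    generalize (2 * d) % c = x at *; generalize 2 * a % c = y at *; generalize (2 * d - 2 * a) % c = z at *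
    rcases h5 with ⟨h, h'⟩ | ⟨h, h'⟩ <;> (try split_ifs at *) <;> omega


end Cfsg.Agent.S5988
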