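import Cfsg.Statements.S5989
import Cfsg.Agent.H5.Nd4

set_option autoImplicit false
open scoped MatrixGroups
open Cfsg

namespace Cfsg.Agent.S5989

open H5 H5.Form Module Matrix

/-- Elements of prime order of PΩ⁺_n(q), q odd, with no fixed nondegenerate `m`-space of odd dimension. Here `T = PΩ⁺_n(F)`, `n = 2d ≥ 8`, realised through `Ω⁺_n(q)`, the commutator subgroup of the isometry group of `Q = Σ xᵢyᵢ` over the field `F` with `q` elements; an element of `T` of prime order `r` is an element `x` of `Ω⁺_n(q)` with `x^r` scalar and `x` not scalar; `q` and `m` are odd, `1 ≤ m < n/2`. The nondegenerate `m`-spaces (subspaces on which the polar form is nondegenerate) fall into two isometry classes, each an orbit of `T`, and the two actions are equivalent; fix one such space `W₀` and let Ω be the set of nondegenerate `m`-spaces isometric to `W₀` (some linear isomorphism preserves `Q`). Let `r` be a prime dividing the size of Ω; for `r ≠ p` let `i` be the multiplicative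 order of `q` modulo `r`, `c = i` for `i` even and `c = 2i` for `i` odd, and write `k = n mod c`, `ℓ = m mod i`, `ℓ' = m mod c`, `n' = ⌊n/i⌋`, `m' = ⌊m/i⌋`, `t = (r−1)/i`. Then every element of `T` of order `r` fixes a member of Ω if and only if one of: (i) `r = 2`, `n ≡ 2 (mod 4)` and `q ≢ 1 (mod 8)`; (ii) `r ≠ p` odd, `i` odd, `c ≤ m` and `k > ℓ' > 0`; (iii) `r ≠ p` odd, `i` even, and either `k = 0` and `n/i` odd, or `i ≤ m` and `k > ℓ' > 0`. (For `r = p` there is always an element of order `p` fixing no member of Ω.) -/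
theorem result {F : Type*} [Field F] [Fintype F] {p : ℕ} [Fact p.Prime] [CharP F p] {q : ℕ} (hq : Fintype.card F = q)
    (hodd : Odd q) (d m : ℕ) (hd : 4 ≤ d) (hm : Odd m) (hmd : m < d)
    (W₀ : Submodule F (Fin d ⊕ Fin d → F)) (hW₀ : Module.finrank F ↥W₀ = m ∧ Cfsg.Geo.IsNondegenerateOn (QuadraticMap.polar (Cfsg.quadFormPlus d F)) W₀)
    (r : ℕ) [Fact r.Prime]
    (hrΩ : r ∣ Nat.card {W : Submodule F (Fin d ⊕ Fin d → F) // Module.finrank F ↥W = m ∧ Cfsg.Geo.IsNondegenerateOn (QuadraticMap.polar (Cfsg.quadFormPlus d F)) W ∧ Cfsg.Geo.AreIsometricFor (Cfsg.quadFormPlus d F) W W₀})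
    (i c : ℕ) (hi : i = orderOf (q : ZMod r)) (hc : c = if Even i then i else 2 * i) :
    (∀ x : GL (Fin d ⊕ Fin d) F, x ∈ Cfsg.Geo.omegaGL (Cfsg.quadFormPlus d F) →
      (∃ z : F, ((x ^ r : GL (Fin d ⊕ Fin d) F) : Matrix (Fin d ⊕ Fin d) (Fin d ⊕ Fin d) F) = z • (1 : Matrix (Fin d ⊕ Fin d) (Fin d ⊕ Fin d) F)) →
      (∀ z : F, (x : Matrix (Fin d ⊕ Fin d) (Fin d ⊕ Fin d) F) ≠ z • (1 : Matrix (Fin d ⊕ Fin d) (Fin d ⊕ Fin d) F)) →
      ∃ W : Submodule F (Fin d ⊕ Fin d → F), (Module.finrank F ↥W = m ∧ Cfsg.Geo.IsNondegenerateOn (QuadraticMap.polar (Cfsg.quadFormPlus d F)) W ∧ Cfsg.Geo.AreIsometricFor (Cfsg.quadFormPlus d F) W W₀) ∧ W.map (Matrix.toLin' (x : Matrix (Fin d ⊕ Fin d) (Fin d ⊕ Fin d) F)) ≤ W) ↔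
    ((r = 2 ∧ Odd d ∧ q % 8 ≠ 1) ∨
     (r ≠ p ∧ 2 < r ∧ Odd i ∧ c ≤ m ∧ 0 < m % c ∧ m % c < (2 * d) % c) ∨
     (r ≠ p ∧ 2 < r ∧ Even i ∧ (((2 * d) % c = 0 ∧ Odd ((2 * d) / i)) ∨ (i ≤ m ∧ 0 < m % c ∧ m % c < (2 * d) % c)))) := by
  subst hq
  have n := good_plus (F := F) (m := d) (.inr (by omega))
  obtain ⟨e₀, n₀⟩ := hW₀
  simp only [← plusF_Q] at n₀ hrΩ ⊢
  rw [As.ndOn] at n₀
  simp only [cl_iso n₀ e₀] at hrΩ ⊢
  rw [el_om]
  have mo := Nat.odd_iff.1 hm
  have h2 := two_ne_zero_of_odd hodd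
  have e : finrank F (Fin d ⊕ Fin d → F) = 2 * d := by simp [two_mul]
  have t : Even (2 * d) → ((plusF F d).HasTS (2 * d / 2) ↔ True) := by simp [plusF_hasTS]
  have t₀ : Even m → (((plusF F d).res W₀).HasTS (m / 2) ↔ True) := fun h => absurd (Nat.even_iff.1 h) (by omega)
  by_cases r2 : r = 2
  · subst r2
    have := odd_of_two_ne h2
    rw [n.el_two_odd n₀ e e₀ (by omega) (by omega) t t₀ h2 rfl]; simp [Nat.even_iff, Nat.odd_iff]; omega
  by_cases rp : r = p
  · subst rp
    haveI : Nonempty (Fin d) := ⟨⟨0, by omega⟩⟩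
    refine iff_of_false (fun H => ?_) (by simp [r2])
    by_cases de : d % 2 = 0
    · obtain ⟨ν, ν', h, h1, -⟩ := n.el_unip n₀ e₀ h2 r H (μ := .replicate d 2) (fun a h => by simp [Multiset.mem_replicate] at h; omega)
        (by simp; omega) (exists_split_je (fun _ => rfl) (by simp) n.nd e (plusF_hasTS _) (by simp; omega) fun j => by
          simp only [Multiset.count_replicate]; split_ifs <;> simp [Nat.even_iff, de])
      have l : ∀ a ∈ ν + ν', a = 2 := fun a ha => by rw [← h] at ha; simp [Multiset.mem_replicate] at ha; omega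
      have := sum_count (μ := ν) fun a ha => by have := l a (by simp [ha]); omega
      have c1 := congrArg (Multiset.count 1) h
      have c3 := congrArg (Multiset.count 3) h
      simp [Multiset.count_replicate] at c1 c3; omega
    obtain ⟨x, x1, x2⟩ : ∃ x, (x = 1 ∨ x = 3) ∧ x % 4 ≠ m % 4 := ⟨if m % 4 = 1 then 3 else 1, by split_ifs <;> omega⟩
    have xo : Odd x := Nat.odd_iff.2 (by omega)
    obtain ⟨j, rfl⟩ : ∃ j, d = 2 * j + x := ⟨(d - x) / 2, by omega⟩
    obtain ⟨ν, ν', h, h1, h3, -⟩ := n.el_unip n₀ e₀ h2 r H (μ := .replicate 2 x + .replicate (2 * j) 2) (fun a h => by simp [Multiset.mem_replicate] at h; omega)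
      (by simp; omega) (exists_split_je (fun _ => rfl) (by simp) n.nd e (plusF_hasTS _) (by simp; omega) fun j => by
        simp only [Multiset.count_add, Multiset.count_replicate]; split_ifs <;> simp [Nat.even_iff] <;> omega)
    have l : ∀ a ∈ ν + ν', a = x ∨ a = 2 := fun a ha => by rw [← h] at ha; simp [Multiset.mem_replicate] at ha; omega
    have := sum_count (μ := ν) fun a ha => by have := l a (by simp [ha]); omega
    have c1 := congrArg (Multiset.count 1) h
    have c3 := congrArg (Multiset.count 3) h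
    rw [Nat.even_iff] at h3
    rcases x1 with rfl | rfl <;> simp [Multiset.count_replicate] at c1 c3 <;> omega
  have r3 : 2 < r := by have := (Fact.out : r.Prime).two_le; omega
  obtain ⟨c0, c2⟩ := c_pos p rp hi hc
  obtain ⟨h7, h0⟩ := n.el_ss n₀ e e₀ (by omega) (by omega) t t₀ r2 p rp hi hc hrΩ (τ₁ := True) fun h => absurd (Nat.even_iff.1 h) (by omega)
  rw [h7]; clear h7
  obtain ⟨h1, h2, h3, h4, h5⟩ := div_split c0 (show m ≤ 2 * d by omega)
  have p1 : 2 * d % c % 2 = 0 := by rw [Nat.mod_mod_of_dvd _ (Nat.dvd_of_mod_eq_zero c2)]; omega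
  have p2 : m % c % 2 = 1 := by rw [Nat.mod_mod_of_dvd _ (Nat.dvd_of_mod_eq_zero c2)]; omega
  simp only [am, Nat.even_iff, Nat.odd_iff, true_iff, false_iff, r2, rp, r3, false_and, false_or, ne_eq, not_false_iff, true_and, not_not] at hc h0 ⊢
  clear * - hc h0 h1 h2 h3 h4 h5 p1 p2 c2
  rcases Nat.mod_two_eq_zero_or_one i with o | o <;>
    simp only [o, zero_ne_one, one_ne_zero, false_or, false_and, true_and, true_or, or_false, ite_true, ite_false, not_true, and_false, and_true] at hc h0 ⊢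
  all_goals
    try subst i
    rw [h4]; clear h4
    generalize (2 * d) / c = A at *; generalize m / c = B at *; generalize (2 * d - m) / c = C at *
    generalize (2 * d) % c = x at *; generalize m % c = y at *; generalize (2 * d - m) % c = z at *
    rcases h5 with ⟨h, h'⟩ | ⟨h, h'⟩ <;> (try split_ifs at *) <;> omega


end Cfsg.Agent.S5989
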