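import Cfsg.Statements.S5990
import Cfsg.Agent.H5.Nd4

set_option autoImplicit false
open scoped MatrixGroups
open Cfsg

namespace Cfsg.Agent.S5990

open H5 H5.Form Module Matrix

/-- Elements of prime order of PΩ⁻_n(q) with no fixed elliptic `m`-space. Here `T = PΩ⁻_n(F)`, `n = 2d ≥ 8`, realised through `Ω⁻_n(q)`, the commutator subgroup of the isometry group of `Q = Σ_{i<d−1} xᵢyᵢ + z₁² + a z₁z₂ + b z₂²` with `z₁² + a z₁z₂ + b z₂²` anisotropic, over the field `F` with `q` elements; an element of `T` of prime order `r` is an element `x` of `Ω⁻_n(q)` with `x^r` scalar and `x` not scalar; a nondegenerate `m`-space (even `m`) is a subspace on which the polar form of `Q` is nondegenerate; it is hyperbolic if it contains an `m/2`-dimensional subspace on which `Q` vanishes, elliptic otherwise. Let `m` be even with `2 ≤ m ≤ n − 2` (no restriction `m < n/2`: fixing an elliptic `m`-space is the same as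 fixing its hyperbolic orthogonal complement) and let `r` be a prime dividing the number of elliptic `m`-spaces, with `r = 2` or `r ≠ p`; for `r ≠ p` let `i` be the multiplicative order of `q` modulo `r`, `c = i` for `i` even and `c = 2i` for `i` odd, and write `k = n mod c`, `ℓ = m mod i`, `ℓ' = m mod c`, `n' = ⌊n/i⌋`, `m' = ⌊m/i⌋`, `t = (r−1)/i`. Then every element of `T` of order `r` fixes some elliptic `m`-space if and only if one of: (i) `r = p = 2` and (`n ≡ 0 (mod 4)` or `m ≡ 2 (mod 4)`); (ii) `r = 2 ≠ p` and (`n ≡ 0 (mod 4)`, or `q ≢ 7 (mod 8)`, or `m ≡ 2 (mod 4)`); (iii) `r ≠ p` odd, `i` odd, and `k = 0` or (`c ≤ m` and `k ≥ ℓ' > 0`); (iv) `r ≠ p` odd, `i` even, and either `k = 0` and (`n/i` even, or `ℓ' = 0` and `m/i` odd), or `k > 0`, `i ≤ m` and (`k > ℓ' > 0`, or `ℓ' = 0` and `m/i` odd, or `k = ℓ'` and `(n + m − 2k)/i` even). (Odd `r = p` is not covered by this statement.) -/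
theorem result {F : Type*} [Field F] [Fintype F] {p : ℕ} [Fact p.Prime] [CharP F p] {q : ℕ} (hq : Fintype.card F = q)
    (d m : ℕ) (hd : 4 ≤ d) (hm : 2 ≤ m) (hme : Even m) (hmn : m + 2 ≤ 2 * d) (a b : F) (hab : ∀ x y : F, x ^ 2 + a * x * y + b * y ^ 2 = 0 → x = 0 ∧ y = 0)
    (r : ℕ) [Fact r.Prime] (hr : r = 2 ∨ r ≠ p)
    (hrΩ : r ∣ Nat.card {W : Submodule F ((Fin (d - 1) ⊕ Fin (d - 1)) ⊕ Fin 2 → F) // Module.finrank F ↥W = m ∧ Cfsg.Geo.IsNondegenerateOn (QuadraticMap.polar (Cfsg.quadFormMinus (d - 1) F a b)) W ∧ ¬ Cfsg.Geo.IsPlusTypeOn (Cfsg.quadFormMinus (d - 1) F a b) W})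
    (i c : ℕ) (hi : i = orderOf (q : ZMod r)) (hc : c = if Even i then i else 2 * i) :
    (∀ x : GL ((Fin (d - 1) ⊕ Fin (d - 1)) ⊕ Fin 2) F, x ∈ Cfsg.Geo.omegaGL (Cfsg.quadFormMinus (d - 1) F a b) →
      (∃ z : F, ((x ^ r : GL ((Fin (d - 1) ⊕ Fin (d - 1)) ⊕ Fin 2) F) : Matrix ((Fin (d - 1) ⊕ Fin (d - 1)) ⊕ Fin 2) ((Fin (d - 1) ⊕ Fin (d - 1)) ⊕ Fin 2) F) = z • (1 : Matrix ((Fin (d - 1) ⊕ Fin (d - 1)) ⊕ Fin 2) ((Fin (d - 1) ⊕ Fin (d - 1)) ⊕ Fin 2) F)) →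
      (∀ z : F, (x : Matrix ((Fin (d - 1) ⊕ Fin (d - 1)) ⊕ Fin 2) ((Fin (d - 1) ⊕ Fin (d - 1)) ⊕ Fin 2) F) ≠ z • (1 : Matrix ((Fin (d - 1) ⊕ Fin (d - 1)) ⊕ Fin 2) ((Fin (d - 1) ⊕ Fin (d - 1)) ⊕ Fin 2) F)) →
      ∃ W : Submodule F ((Fin (d - 1) ⊕ Fin (d - 1)) ⊕ Fin 2 → F), (Module.finrank F ↥W = m ∧ Cfsg.Geo.IsNondegenerateOn (QuadraticMap.polar (Cfsg.quadFormMinus (d - 1) F a b)) W ∧ ¬ Cfsg.Geo.IsPlusTypeOn (Cfsg.quadFormMinus (d - 1) F a b) W) ∧ W.map (Matrix.toLin' (x : Matrix ((Fin (d - 1) ⊕ Fin (d - 1)) ⊕ Fin 2) ((Fin (d - 1) ⊕ Fin (d - 1)) ⊕ Fin 2) F)) ≤ W) ↔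
    ((r = 2 ∧ p = 2 ∧ (Even d ∨ m % 4 = 2)) ∨
     (r = 2 ∧ p ≠ 2 ∧ (Even d ∨ q % 8 ≠ 7 ∨ m % 4 = 2)) ∨
     (r ≠ p ∧ 2 < r ∧ Odd i ∧ ((2 * d) % c = 0 ∨ (c ≤ m ∧ 0 < m % c ∧ m % c ≤ (2 * d) % c))) ∨
     (r ≠ p ∧ 2 < r ∧ Even i ∧
       (((2 * d) % c = 0 ∧ (Even ((2 * d) / i) ∨ (m % c = 0 ∧ Odd (m / i)))) ∨
        (0 < (2 * d) % c ∧ i ≤ m ∧ ((0 < m % c ∧ m % c < (2 * d) % c) ∨ (m % c = 0 ∧ Odd (m / i)) ∨
                                    (m % c = (2 * d) % c ∧ Even ((2 * d + m - 2 * ((2 * d) % c)) / i))))))) := by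
  subst hq
  obtain ⟨k, rfl⟩ := hme.two_dvd
  have e : finrank F ((Fin (d - 1) ⊕ Fin (d - 1)) ⊕ Fin 2 → F) = 2 * d := by simp; omega
  have n : (minusF (d - 1) a b).OGood := ⟨minusF_nondeg _ (disc_ne_zero_of_aniso hab), .inr (by omega)⟩
  obtain ⟨W₀, n₀, e₀, t₀⟩ := n.nd.exists_type False (a := k) (by omega) (by omega)
  simp only [← minusF_Q, cl_minus n₀ e₀ t₀] at hrΩ ⊢
  rw [el_om]
  have t' : ¬ (minusF (d - 1) a b).HasTS d := by simpa [show d - 1 + 1 = d by omega] using minusF_not_hasTS (d - 1) hab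
  have t : Even (2 * d) → ((minusF (d - 1) a b).HasTS (2 * d / 2) ↔ False) := by simp [t']
  have t₀' : Even (2 * k) → (((minusF (d - 1) a b).res W₀).HasTS (2 * k / 2) ↔ False) := by simp [t₀]
  by_cases r2 : r = 2
  · subst r2
    by_cases h2 : (2 : F) = 0
    · have := even_of_two h2
      rw [n.el_two_even n₀ e e₀ (by omega) (by omega) t t₀' h2]; simp [(two_iff p).1 h2, Nat.even_iff]; omega
    · have := odd_of_two_ne h2
      rw [n.el_two_odd n₀ e e₀ (by omega) (by omega) t t₀' h2 rfl]; simp [mt (two_iff p).2 h2, Nat.even_iff]; omega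
  have rp := hr.resolve_left r2
  have r3 : 2 < r := by have := (Fact.out : r.Prime).two_le; omega
  obtain ⟨c0, c2⟩ := c_pos p rp hi hc
  obtain ⟨h7, h0⟩ := n.el_ss n₀ e e₀ (by omega) (by omega) t t₀' r2 p rp hi hc hrΩ (τ₁ := True) fun _ => by
    rw [← Nat.mul_sub, Nat.mul_div_cancel_left _ two_pos, n.nd.type_perp n₀ e e₀]; simp [t₀, t']
  rw [h7]; clear h7
  obtain ⟨h1, h2, h3, h4, h5⟩ := div_split c0 (show 2 * k ≤ 2 * d by omega)
  have h6 := div_key c0 (n := 2 * d) (m := 2 * k)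
  simp only [am, Nat.even_iff, Nat.odd_iff, true_iff, false_iff, r2, rp, r3, false_and, false_or, ne_eq, not_false_iff, true_and, not_not] at hc h0 ⊢
  clear * - hc h0 h1 h2 h3 h4 h5 h6
  rcases Nat.mod_two_eq_zero_or_one i with o | o <;>
    simp only [o, zero_ne_one, one_ne_zero, false_or, false_and, true_and, true_or, or_false, ite_true, ite_false, not_true, and_false, and_true] at hc h0 ⊢
  all_goals
    try subst i
    rw [h4]; clear h4
    generalize (2 * d + 2 * k - 2 * ((2 * d) % c)) / c = D at *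
    generalize (2 * d) / c = A at *; generalize 2 * k / c = B at *; generalize (2 * d - 2 * k) / c = C at *
    generalize (2 * d) % c = x at *; generalize 2 * k % c = y at *; generalize (2 * d - 2 * k) % c = z at *
    rcases h5 with ⟨h, h'⟩ | ⟨h, h'⟩ <;> (try split_ifs at *) <;> omega


end Cfsg.Agent.S5990
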