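import Cfsg.Statements.S5991
import Cfsg.Agent.H5.Nd4

set_option autoImplicit false
open scoped MatrixGroups
open Cfsg

namespace Cfsg.Agent.S5991

open H5 H5.Form Module Matrix

/-- Elements of prime order of PΩ⁻_n(q), q odd, with no fixed nondegenerate `m`-space of odd dimension. Here `T = PΩ⁻_n(F)`, `n = 2d ≥ 8`, realised through `Ω⁻_n(q)`, the commutator subgroup of the isometry group of `Q = Σ_{i<d−1} xᵢyᵢ + z₁² + a z₁z₂ + b z₂²` with `z₁² + a z₁z₂ + b z₂²` anisotropic, over the field `F` with `q` elements; an element of `T` of prime order `r` is an element `x` of `Ω⁻_n(q)` with `x^r` scalar and `x` not scalar; `q` and `m` are odd, `1 ≤ m < n/2`. The nondegenerate `m`-spaces fall into two isometry classes, each an orbit of `T`, with equivalent actions; fix one such space `W₀` and let Ω be the set of nondegenerate `m`-spaces isometric to `W₀`. Let `r` be a prime dividing the size of Ω; for `r ≠ p` let `i`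 be the multiplicative order of `q` modulo `r`, `c = i` for `i` even and `c = 2i` for `i` odd, and write `k = n mod c`, `ℓ = m mod i`, `ℓ' = m mod c`, `n' = ⌊n/i⌋`, `m' = ⌊m/i⌋`, `t = (r−1)/i`. Then every element of `T` of order `r` fixes a member of Ω if and only if one of: (i) `r = 2` and (`n ≡ 0 (mod 4)` or `q ≢ 7 (mod 8)`); (ii) `r ≠ p` odd, `i` odd, and `k = 0` or (`c ≤ m` and `k > ℓ' > 0`); (iii) `r ≠ p` odd, `i` even, and either `k = 0` and `n/i` even, or `k > 0`, `i ≤ m` and `k > ℓ' > 0`. (For `r = p` there is always an element of order `p` fixing no member of Ω.) -/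
theorem result {F : Type*} [Field F] [Fintype F] {p : ℕ} [Fact p.Prime] [CharP F p] {q : ℕ} (hq : Fintype.card F = q)
    (hodd : Odd q) (d m : ℕ) (hd : 4 ≤ d) (hm : Odd m) (hmd : m < d) (a b : F) (hab : ∀ x y : F, x ^ 2 + a * x * y + b * y ^ 2 = 0 → x = 0 ∧ y = 0)
    (W₀ : Submodule F ((Fin (d - 1) ⊕ Fin (d - 1)) ⊕ Fin 2 → F)) (hW₀ : Module.finrank F ↥W₀ = m ∧ Cfsg.Geo.IsNondegenerateOn (QuadraticMap.polar (Cfsg.quadFormMinus (d - 1) F a b)) W₀)
    (r : ℕ) [Fact r.Prime]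
    (hrΩ : r ∣ Nat.card {W : Submodule F ((Fin (d - 1) ⊕ Fin (d - 1)) ⊕ Fin 2 → F) // Module.finrank F ↥W = m ∧ Cfsg.Geo.IsNondegenerateOn (QuadraticMap.polar (Cfsg.quadFormMinus (d - 1) F a b)) W ∧ Cfsg.Geo.AreIsometricFor (Cfsg.quadFormMinus (d - 1) F a b) W W₀})
    (i c : ℕ) (hi : i = orderOf (q : ZMod r)) (hc : c = if Even i then i else 2 * i) :
    (∀ x : GL ((Fin (d - 1) ⊕ Fin (d - 1)) ⊕ Fin 2) F, x ∈ Cfsg.Geo.omegaGL (Cfsg.quadFormMinus (d - 1) F a b) →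
      (∃ z : F, ((x ^ r : GL ((Fin (d - 1) ⊕ Fin (d - 1)) ⊕ Fin 2) F) : Matrix ((Fin (d - 1) ⊕ Fin (d - 1)) ⊕ Fin 2) ((Fin (d - 1) ⊕ Fin (d - 1)) ⊕ Fin 2) F) = z • (1 : Matrix ((Fin (d - 1) ⊕ Fin (d - 1)) ⊕ Fin 2) ((Fin (d - 1) ⊕ Fin (d - 1)) ⊕ Fin 2) F)) →
      (∀ z : F, (x : Matrix ((Fin (d - 1) ⊕ Fin (d - 1)) ⊕ Fin 2) ((Fin (d - 1) ⊕ Fin (d - 1)) ⊕ Fin 2) F) ≠ z • (1 : Matrix ((Fin (d - 1) ⊕ Fin (d - 1)) ⊕ Fin 2) ((Fin (d - 1) ⊕ Fin (d - 1)) ⊕ Fin 2) F)) →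
      ∃ W : Submodule F ((Fin (d - 1) ⊕ Fin (d - 1)) ⊕ Fin 2 → F), (Module.finrank F ↥W = m ∧ Cfsg.Geo.IsNondegenerateOn (QuadraticMap.polar (Cfsg.quadFormMinus (d - 1) F a b)) W ∧ Cfsg.Geo.AreIsometricFor (Cfsg.quadFormMinus (d - 1) F a b) W W₀) ∧ W.map (Matrix.toLin' (x : Matrix ((Fin (d - 1) ⊕ Fin (d - 1)) ⊕ Fin 2) ((Fin (d - 1) ⊕ Fin (d - 1)) ⊕ Fin 2) F)) ≤ W) ↔
    ((r = 2 ∧ (Even d ∨ q % 8 ≠ 7)) ∨
     (r ≠ p ∧ 2 < r ∧ Odd i ∧ ((2 * d) % c = 0 ∨ (c ≤ m ∧ 0 < m % c ∧ m % c < (2 * d) % c))) ∨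
     (r ≠ p ∧ 2 < r ∧ Even i ∧ (((2 * d) % c = 0 ∧ Even ((2 * d) / i)) ∨ (0 < (2 * d) % c ∧ i ≤ m ∧ 0 < m % c ∧ m % c < (2 * d) % c)))) := by
  subst hq
  have e : finrank F ((Fin (d - 1) ⊕ Fin (d - 1)) ⊕ Fin 2 → F) = 2 * d := by simp; omega
  have n : (minusF (d - 1) a b).OGood := ⟨minusF_nondeg _ (disc_ne_zero_of_aniso hab), .inr (by omega)⟩
  obtain ⟨e₀, n₀⟩ := hW₀
  simp only [← minusF_Q] at n₀ hrΩ ⊢
  rw [As.ndOn] at n₀
  simp only [cl_iso n₀ e₀] at hrΩ ⊢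
  rw [el_om]
  have mo := Nat.odd_iff.1 hm
  have h2 := two_ne_zero_of_odd hodd
  have t' : ¬ (minusF (d - 1) a b).HasTS d := by simpa [show d - 1 + 1 = d by omega] using minusF_not_hasTS (d - 1) hab
  have t : Even (2 * d) → ((minusF (d - 1) a b).HasTS (2 * d / 2) ↔ False) := by simp [t']
  have t₀ : Even m → (((minusF (d - 1) a b).res W₀).HasTS (m / 2) ↔ True) := fun h => absurd (Nat.even_iff.1 h) (by omega)
  by_cases r2 : r = 2
  · subst r2
    have := odd_of_two_ne h2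
    rw [n.el_two_odd n₀ e e₀ (by omega) (by omega) t t₀ h2 rfl]; simp [Nat.even_iff, Nat.odd_iff]; omega
  by_cases rp : r = p
  · subst rp
    refine iff_of_false (fun H => ?_) (by simp [r2])
    by_cases de : d % 2 = 0
    · obtain ⟨z, hz⟩ := FiniteField.exists_nonsquare (F := F) fun e => h2 (by simpa [e] using ringChar.Nat.cast_ringChar (R := F))
      have k := fun β b0 => n.el_pb h2 n₀ r H (β := β) b0 (k := d / 2 - 1) (by omega) (e₀ ▸ hm)
      have k1 := k 1 one_ne_zero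
      have k2 := k z (by rintro rfl; simp at hz)
      split_ifs at k1 k2
      exacts [hz (k1.uniq n₀ k2), hz (k1.uniq (n.nd.perp_nondeg n₀) k2)]
    obtain ⟨x, x1, x2⟩ : ∃ x, (x = 1 ∨ x = 3) ∧ x % 4 ≠ m % 4 := ⟨if m % 4 = 1 then 3 else 1, by split_ifs <;> omega⟩
    have xo : Odd x := Nat.odd_iff.2 (by omega)
    obtain ⟨j, rfl⟩ : ∃ j, d = 2 * j + x := ⟨(d - x) / 2, by omega⟩
    obtain ⟨ν, ν', h, h1, h3, -⟩ := n.el_unip n₀ e₀ h2 r H (μ := .replicate 2 x + .replicate (2 * j) 2) (fun a h => by simp [Multiset.mem_replicate] at h; omega)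
      (by simp; omega) (exists_orth_je h2 n.nd (by simp; omega) (a := x) (ha := by simp) (o := xo) fun j _ => by
        simp only [Multiset.count_add, Multiset.count_replicate]; split_ifs <;> simp [Nat.even_iff] <;> omega)
    have l : ∀ a ∈ ν + ν', a = x ∨ a = 2 := fun a ha => by rw [← h] at ha; simp [Multiset.mem_replicate] at ha; omega
    have := sum_count (μ := ν) fun a ha => by have := l a (by simp [ha]); omega
    have c1 := congrArg (Multiset.count 1) h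
    have c3 := congrArg (Multiset.count 3) h
    rw [Nat.even_iff] at h3
    rcases x1 with rfl | rfl <;> simp [Multiset.count_replicate] at c1 c3 <;> omega
  have r3 : 2 < r := by have := (Fact.out : r.Prime).two_le; omega
  obtain ⟨c0, c2⟩ := c_pos p rp hi hc
  obtain ⟨h7, h0⟩ := n.el_ss n₀ e e₀ (by omega) (by omega) t t₀ r2 p rp hi hc hrΩ (τ₁ := True) fun h => absurd (Nat.even_iff.1 h) (by omega)
  rw [h7]; clear h7
  obtain ⟨h1, h2, h3, h4, h5⟩ := div_split c0 (show m ≤ 2 * d by omega)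
  have p1 : 2 * d % c % 2 = 0 := by rw [Nat.mod_mod_of_dvd _ (Nat.dvd_of_mod_eq_zero c2)]; omega
  have p2 : m % c % 2 = 1 := by rw [Nat.mod_mod_of_dvd _ (Nat.dvd_of_mod_eq_zero c2)]; omega
  simp only [am, Nat.even_iff, Nat.odd_iff, true_iff, false_iff, r2, rp, r3, false_and, false_or, ne_eq, not_false_iff, true_and, not_not] at hc h0 ⊢
  clear * - hc h0 h1 h2 h3 h4 h5 p1 p2 c2
  rcases Nat.mod_two_eq_zero_or_one i with o | o <;>
    simp only [o, zero_ne_one, one_ne_zero, false_or, false_and, true_and, true_or, or_false, ite_true, ite_false, not_true, and_false, and_true] at hc h0 ⊢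
  all_goals
    try subst i
    rw [h4]; clear h4
    generalize (2 * d) / c = A at *; generalize m / c = B at *; generalize (2 * d - m) / c = C at *
    generalize (2 * d) % c = x at *; generalize m % c = y at *; generalize (2 * d - m) % c = z at *
    rcases h5 with ⟨h, h'⟩ | ⟨h, h'⟩ <;> (try split_ifs at *) <;> omega


end Cfsg.Agent.S5991
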