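import Cfsg.Statements.S5992
import Cfsg.Agent.H5.Nd4

set_option autoImplicit false
open scoped MatrixGroups
open Cfsg

namespace Cfsg.Agent.S5992

open H5 H5.Form Module Matrix

/-- Elements of prime order r ≠ p of Ω_n(q), nq odd, with no fixed hyperbolic `m`-space. Here `T = Ω_n(F)`, `n = 2d+1 ≥ 7`, `q` odd, realised as the commutator subgroup of the isometry group of `Q = x₀² + Σ xᵢyᵢ` over the field `F` with `q` elements (trivial centre, so its elements of prime order `r` are used directly); a nondegenerate `m`-space (even `m`) is a subspace on which the polar form of `Q` is nondegenerate; it is hyperbolic if it contains an `m/2`-dimensional subspace on which `Q` vanishes, elliptic otherwise. Let `m` be even with `2 ≤ m ≤ n − 1` (no restriction `m < n/2`) and let `r ≠ p` be a prime dividing the number of hyperbolic `m`-spaces; for `r ≠ p` let `i` be the multiplicative order of `q` modulo `r`, `c = i` for `i` even and `c = 2i` for `i` odd,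 and write `k = n mod c`, `ℓ' = m mod c`. Then every element of `T` of order `r` fixes some hyperbolic `m`-space if and only if `r = 2`, or `r` is odd and one of: (i) `i` odd, `c ≤ m` and either `k > ℓ' > 0` or `ℓ' = 0`; (ii) `i` even, `i ≤ m`, `k > ℓ'`, and `m/i` even whenever `ℓ' = 0`. (`r = p` is not covered by this statement.) -/
theorem result {F : Type*} [Field F] [Fintype F] {p : ℕ} [Fact p.Prime] [CharP F p] {q : ℕ} (hq : Fintype.card F = q) (hqodd : Odd q)
    (d m : ℕ) (hd : 3 ≤ d) (hm : 2 ≤ m) (hme : Even m) (hmn : m ≤ 2 * d)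
    (r : ℕ) [Fact r.Prime] (hrp : r ≠ p)
    (hrΩ : r ∣ Nat.card {W : Submodule F (Unit ⊕ (Fin d ⊕ Fin d) → F) // Module.finrank F ↥W = m ∧ Cfsg.Geo.IsNondegenerateOn (QuadraticMap.polar (Cfsg.quadFormOdd d F)) W ∧ Cfsg.Geo.IsPlusTypeOn (Cfsg.quadFormOdd d F) W})
    (i c : ℕ) (hi : i = orderOf (q : ZMod r)) (hc : c = if Even i then i else 2 * i) :
    (∀ x : GL (Unit ⊕ (Fin d ⊕ Fin d)) F, x ∈ Cfsg.Geo.omegaGL (Cfsg.quadFormOdd d F) → orderOf x = r →
      ∃ W : Submodule F (Unit ⊕ (Fin d ⊕ Fin d) → F), (Module.finrank F ↥W = m ∧ Cfsg.Geo.IsNondegenerateOn (QuadraticMap.polar (Cfsg.quadFormOdd d F)) W ∧ Cfsg.Geo.IsPlusTypeOn (Cfsg.quadFormOdd d F) W) ∧ W.map (Matrix.toLin' (x : Matrix (Unit ⊕ (Fin d ⊕ Fin d)) (Unit ⊕ (Fin d ⊕ Fin d)) F)) ≤ W) ↔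
    (r = 2 ∨
     (2 < r ∧ Odd i ∧ c ≤ m ∧ (m % c = 0 ∨ (0 < m % c ∧ m % c < (2 * d + 1) % c))) ∨
     (2 < r ∧ Even i ∧ i ≤ m ∧ m % c < (2 * d + 1) % c ∧ (0 < m % c ∨ Even (m / i)))) := by
  subst hq
  obtain ⟨a, rfl⟩ := hme.two_dvd
  have h2 := two_ne_zero_of_odd hqodd
  have e : finrank F (Unit ⊕ (Fin d ⊕ Fin d) → F) = 2 * d + 1 := by simp; omega
  have n : (oddF F d).OGood := ⟨oddF_nondeg h2 d, .inr (by omega)⟩
  obtain ⟨W₀, n₀, e₀, t₀⟩ := n.nd.exists_type True (a := a) (by omega) (by omega)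
  simp only [← oddF_Q, cl_plus n₀ e₀ t₀] at hrΩ ⊢
  rw [el_ord n.nd (by simp) Cl.refl]
  have t : Even (2 * d + 1) → ((oddF F d).HasTS ((2 * d + 1) / 2) ↔ True) := by simp
  have t₀' : Even (2 * a) → (((oddF F d).res W₀).HasTS (2 * a / 2) ↔ True) := by simp [t₀]
  by_cases r2 : r = 2
  · subst r2
    rw [n.el_two_odd n₀ e e₀ (by omega) (by omega) t t₀' h2 rfl]; simp
  have rp := hrp
  have r3 : 2 < r := by have := (Fact.out : r.Prime).two_le; omega
  obtain ⟨c0, c2⟩ := c_pos p rp hi hc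
  obtain ⟨h7, h0⟩ := n.el_ss n₀ e e₀ (by omega) (by omega) t t₀' r2 p rp hi hc hrΩ (τ₁ := True) fun h => absurd (Nat.even_iff.1 h) (by omega)
  rw [h7]; clear h7
  obtain ⟨h1, h2, h3, h4, h5⟩ := div_split c0 (show 2 * a ≤ 2 * d + 1 by omega)
  have p1 : (2 * d + 1) % c % 2 = 1 := by rw [Nat.mod_mod_of_dvd _ (Nat.dvd_of_mod_eq_zero c2)]; omega
  have p2 : 2 * a % c % 2 = 0 := by rw [Nat.mod_mod_of_dvd _ (Nat.dvd_of_mod_eq_zero c2)]; omega
  simp only [am, Nat.even_iff, Nat.odd_iff, true_iff, false_iff, r2, rp, r3, false_and, false_or, ne_eq, not_false_iff, true_and, not_not] at hc h0 ⊢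
  clear * - hc h0 h1 h2 h3 h4 h5 p1 p2 c2
  rcases Nat.mod_two_eq_zero_or_one i with o | o <;>
    simp only [o, zero_ne_one, one_ne_zero, false_or, false_and, true_and, true_or, or_false, ite_true, ite_false, not_true, and_false, and_true] at hc h0 ⊢
  all_goals
    try subst i
    rw [h4]; clear h4
    generalize (2 * d + 1) / c = A at *; generalize 2 * a / c = B at *; generalize (2 * d + 1 - 2 * a) / c = C at *
    generalize (2 * d + 1) % c = x at *; generalize 2 * a % c = y at *; generalize (2 * d + 1 - 2 * a) % c = z at *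
    rcases h5 with ⟨h, h'⟩ | ⟨h, h'⟩ <;> (try split_ifs at *) <;> omega


end Cfsg.Agent.S5992
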