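import Cfsg.Statements.S5994
import Cfsg.Agent.H5.Elu

set_option autoImplicit false
open scoped MatrixGroups
open Cfsg

namespace Cfsg.Agent.S5994

open H5 H5.Form Module Matrix

/-- A necessary condition for every element of order p of PΩ⁻_n(q), q odd, to fix an elliptic `m`-space. Here `T = PΩ⁻_n(F)`, `n = 2d ≥ 8`, realised through `Ω⁻_n(q)`, the commutator subgroup of the isometry group of `Q = Σ_{i<d−1} xᵢyᵢ + z₁² + a z₁z₂ + b z₂²` with `z₁² + a z₁z₂ + b z₂²` anisotropic, over the field `F` with `q` elements; an element of `T` of prime order `r` is an element `x` of `Ω⁻_n(q)` with `x^r` scalar and `x` not scalar; `q` is odd; a nondegenerate `m`-space (even `m`) is a subspace on which the polar form of `Q` is nondegenerate; it is hyperbolic if it contains an `m/2`-dimensional subspace on which `Q` vanishes, elliptic otherwise. Let `m` be even with `2 ≤ m ≤ n − 2` and suppose `p` divides the number of elliptic `m`-spaces.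 If every element of `T` of order `p` fixes some elliptic `m`-space, then `n ≡ m (mod 4)` and every partition of `n` into parts of size at most `p` in which every even part has even multiplicity contains (as a sub-multiset) a partition of `m` in which every even part has even multiplicity. -/
theorem result {F : Type*} [Field F] [Fintype F] {p : ℕ} [Fact p.Prime] [CharP F p] {q : ℕ} (hq : Fintype.card F = q) (hqodd : Odd q)
    (d m : ℕ) (hd : 4 ≤ d) (hm : 2 ≤ m) (hme : Even m) (hmn : m + 2 ≤ 2 * d) (a b : F) (hab : ∀ x y : F, x ^ 2 + a * x * y + b * y ^ 2 = 0 → x = 0 ∧ y = 0)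
    (hpΩ : p ∣ Nat.card {W : Submodule F ((Fin (d - 1) ⊕ Fin (d - 1)) ⊕ Fin 2 → F) // Module.finrank F ↥W = m ∧ Cfsg.Geo.IsNondegenerateOn (QuadraticMap.polar (Cfsg.quadFormMinus (d - 1) F a b)) W ∧ ¬ Cfsg.Geo.IsPlusTypeOn (Cfsg.quadFormMinus (d - 1) F a b) W}) :
    (∀ x : GL ((Fin (d - 1) ⊕ Fin (d - 1)) ⊕ Fin 2) F, x ∈ Cfsg.Geo.omegaGL (Cfsg.quadFormMinus (d - 1) F a b) →
      (∃ z : F, ((x ^ p : GL ((Fin (d - 1) ⊕ Fin (d - 1)) ⊕ Fin 2) F) : Matrix ((Fin (d - 1) ⊕ Fin (d - 1)) ⊕ Fin 2) ((Fin (d - 1) ⊕ Fin (d - 1)) ⊕ Fin 2) F) = z • (1 : Matrix ((Fin (d - 1) ⊕ Fin (d - 1)) ⊕ Fin 2) ((Fin (d - 1) ⊕ Fin (d - 1)) ⊕ Fin 2) F)) →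
      (∀ z : F, (x : Matrix ((Fin (d - 1) ⊕ Fin (d - 1)) ⊕ Fin 2) ((Fin (d - 1) ⊕ Fin (d - 1)) ⊕ Fin 2) F) ≠ z • (1 : Matrix ((Fin (d - 1) ⊕ Fin (d - 1)) ⊕ Fin 2) ((Fin (d - 1) ⊕ Fin (d - 1)) ⊕ Fin 2) F)) →
      ∃ W : Submodule F ((Fin (d - 1) ⊕ Fin (d - 1)) ⊕ Fin 2 → F), (Module.finrank F ↥W = m ∧ Cfsg.Geo.IsNondegenerateOn (QuadraticMap.polar (Cfsg.quadFormMinus (d - 1) F a b)) W ∧ ¬ Cfsg.Geo.IsPlusTypeOn (Cfsg.quadFormMinus (d - 1) F a b) W) ∧ W.map (Matrix.toLin' (x : Matrix ((Fin (d - 1) ⊕ Fin (d - 1)) ⊕ Fin 2) ((Fin (d - 1) ⊕ Fin (d - 1)) ⊕ Fin 2) F)) ≤ W) →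
    ((2 * d) % 4 = m % 4 ∧ (∀ μ : Multiset ℕ, (∀ e ∈ μ, 0 < e ∧ e ≤ p) → (∀ e : ℕ, Even e → Even (μ.count e)) → μ.sum = 2 * d →
        ∃ ν : Multiset ℕ, ν ≤ μ ∧ ν.sum = m ∧ ∀ e : ℕ, Even e → Even (ν.count e))) := by
  intro H
  have h2 : (2 : F) ≠ 0 := two_ne_zero_of_odd (hq ▸ hqodd)
  have n := minusF_nondeg (d - 1) (disc_ne_zero_of_aniso hab)
  have p3 := three_le p h2
  have key := fun (μ : Multiset ℕ) h1 h3 (e : μ.sum = 2 * d) o a ha k => orth_core (μ := μ) h2 n p (fun x hx k => H x hx ⟨1, by simp [k]⟩) h1 (by simp [e]; omega) o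
    (exists_orth_je h2 n (by simp [e]; omega) h3 (a := a) ha k)
  have md : 2 * d % 4 = m % 4 := by
    obtain ⟨ν, h1, rfl, h3, W, h4, h5⟩ := key (1 ::ₘ (3 - 2 * (d % 2)) ::ₘ .replicate (2 * ((d - 1) / 2)) 2) (by simp [Multiset.mem_replicate]; omega)
      (fun e he => by simp only [Multiset.count_cons, Multiset.count_replicate, Nat.even_iff] at he ⊢; split_ifs <;> omega) (by simp; omega)
      (fun h => by simpa using h 2 (by simp [Multiset.mem_replicate]; omega)) 1 (by simp) odd_one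
    have := h3 2 even_two
    replace h5 := fun h => h4 (As.plus_iff.2 (h5 h))
    rcases le_cons_cases h1 with h | ⟨ν, rfl, h⟩ <;> rcases le_cons_cases h with h' | ⟨ν, rfl, h'⟩ <;> obtain ⟨k, -, rfl⟩ := Multiset.le_replicate_iff.1 h' <;>
      simp [Multiset.count_cons, Nat.even_iff, Multiset.mem_replicate] at this hme h5 ⊢ <;> first | omega | (split_ifs at this <;> omega)
  refine ⟨md, fun μ h1 h3 e => ?_⟩
  by_cases o : ∀ a ∈ μ, a ≤ 1
  · exact ones_ok (fun a ha => (h1 a ha).1) o (by omega)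
  by_cases c : ∃ a ∈ μ, Odd a
  · obtain ⟨a, ha, k⟩ := c
    exact (key μ h1 h3 e o a ha k).imp fun ν h => ⟨h.1, h.2.1, h.2.2.1⟩
  push Not at o c
  obtain ⟨a, ha, a1⟩ := o
  have ea := Nat.not_odd_iff_even.1 (c a ha)
  obtain ⟨μ, rfl⟩ := Multiset.exists_cons_of_mem ha
  obtain ⟨μ, rfl⟩ := Multiset.exists_cons_of_mem (show a ∈ μ from by_contra fun e => by simpa [e] using h3 a ea)
  have ap := (h1 a ha).2.lt_of_ne (by rintro rfl; exact c a ha ((Fact.out : a.Prime).odd_of_ne_two (by omega)))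
  rw [Nat.even_iff] at ea hme
  obtain ⟨ν, k1, rfl, k3, -⟩ := key ((a + 1) ::ₘ (a - 1) ::ₘ μ) (by simp only [Multiset.forall_mem_cons] at h1 ⊢; exact ⟨by omega, by omega, h1.2.2⟩)
    (fun e he => by
      have := h3 e he
      simp only [Multiset.count_cons, Nat.even_iff] at he this ⊢; split_ifs at this ⊢ <;> omega) (by simp at e ⊢; omega)
    (fun h => by have := h (a + 1) (by simp); omega) (a + 1) (by simp) (Nat.odd_iff.2 (by omega))
  have ev : ∀ ν ≤ μ, 2 ∣ ν.sum := fun ν h => Multiset.dvd_sum fun b hb => (Nat.not_odd_iff_even.1 (c b (by simp [Multiset.mem_of_le h hb]))).two_dvd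
  rcases le_cons_cases k1 with h' | ⟨ν, rfl, h'⟩ <;> rcases le_cons_cases h' with h | ⟨ν, rfl, h⟩ <;> have := ev ν h
  · exact ⟨ν, h.trans ((Multiset.le_cons_self _ _).trans (Multiset.le_cons_self _ _)), rfl, k3⟩
  · simp at hme; omega
  · simp at hme; omega
  · refine ⟨a ::ₘ a ::ₘ ν, Multiset.cons_le_cons _ (Multiset.cons_le_cons _ h), by simp; omega, fun e he => ?_⟩
    have := k3 e he
    simp only [Multiset.count_cons, Nat.even_iff] at he this ⊢; split_ifs at this ⊢ <;> omega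


end Cfsg.Agent.S5994
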