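import Cfsg.Statements.S5995
import Cfsg.Agent.H5.Elu

set_option autoImplicit false
open scoped MatrixGroups
open Cfsg

namespace Cfsg.Agent.S5995

open H5 H5.Form Module Matrix

/-- A necessary condition for every element of order p of Ω_n(q), nq odd, to fix a hyperbolic `m`-space. Here `T = Ω_n(F)`, `n = 2d+1 ≥ 7`, `q` odd, realised as the commutator subgroup of the isometry group of `Q = x₀² + Σ xᵢyᵢ` over the field `F` with `q` elements (trivial centre, so its elements of prime order `r` are used directly); a nondegenerate `m`-space (even `m`) is a subspace on which the polar form of `Q` is nondegenerate; it is hyperbolic if it contains an `m/2`-dimensional subspace on which `Q` vanishes, elliptic otherwise. Let `m` be even with `2 ≤ m ≤ n − 1` and suppose `p` divides the number of hyperbolic `m`-spaces. If every element of `T` of order `p` fixes some hyperbolic `m`-space, then `m ≡ 0 (mod 4)` and every partition of `n` into parts of size at most `p`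 in which every even part has even multiplicity contains (as a sub-multiset) a partition of `m` in which every even part has even multiplicity. -/
theorem result {F : Type*} [Field F] [Fintype F] {p : ℕ} [Fact p.Prime] [CharP F p] {q : ℕ} (hq : Fintype.card F = q) (hqodd : Odd q)
    (d m : ℕ) (hd : 3 ≤ d) (hm : 2 ≤ m) (hme : Even m) (hmn : m ≤ 2 * d)
    (hpΩ : p ∣ Nat.card {W : Submodule F (Unit ⊕ (Fin d ⊕ Fin d) → F) // Module.finrank F ↥W = m ∧ Cfsg.Geo.IsNondegenerateOn (QuadraticMap.polar (Cfsg.quadFormOdd d F)) W ∧ Cfsg.Geo.IsPlusTypeOn (Cfsg.quadFormOdd d F) W}) :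
    (∀ x : GL (Unit ⊕ (Fin d ⊕ Fin d)) F, x ∈ Cfsg.Geo.omegaGL (Cfsg.quadFormOdd d F) → orderOf x = p →
      ∃ W : Submodule F (Unit ⊕ (Fin d ⊕ Fin d) → F), (Module.finrank F ↥W = m ∧ Cfsg.Geo.IsNondegenerateOn (QuadraticMap.polar (Cfsg.quadFormOdd d F)) W ∧ Cfsg.Geo.IsPlusTypeOn (Cfsg.quadFormOdd d F) W) ∧ W.map (Matrix.toLin' (x : Matrix (Unit ⊕ (Fin d ⊕ Fin d)) (Unit ⊕ (Fin d ⊕ Fin d)) F)) ≤ W) →
    (m % 4 = 0 ∧ (∀ μ : Multiset ℕ, (∀ e ∈ μ, 0 < e ∧ e ≤ p) → (∀ e : ℕ, Even e → Even (μ.count e)) → μ.sum = 2 * d + 1 →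
        ∃ ν : Multiset ℕ, ν ≤ μ ∧ ν.sum = m ∧ ∀ e : ℕ, Even e → Even (ν.count e))) := by
  intro H
  have h2 : (2 : F) ≠ 0 := two_ne_zero_of_odd (hq ▸ hqodd)
  have key : ∀ μ : Multiset ℕ, (∀ e ∈ μ, 0 < e ∧ e ≤ p) → (∀ e : ℕ, Even e → Even (μ.count e)) → μ.sum = 2 * d + 1 →
      ∃ ν : Multiset ℕ, ν ≤ μ ∧ ν.sum = m ∧ ∀ e : ℕ, Even e → Even (ν.count e) := fun μ h1 h3 e => by
    by_cases o : ∀ a ∈ μ, a ≤ 1
    · exact ones_ok (fun a ha => (h1 a ha).1) o (by omega)
    refine (orth_core (Φ := oddF F d) h2 (oddF_nondeg h2 d) p (fun x hx k l => H x hx (orderOf_eq_prime k fun e => l 1 (by simp [e]))) h1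
      (by simp [e]; omega) o ?_).imp fun ν h => ⟨h.1, h.2.1, h.2.2.1⟩
    obtain ⟨a, ha, k⟩ : ∃ a ∈ μ, Odd a := by
      by_contra! c
      have := Multiset.dvd_sum (a := 2) fun a ha => (Nat.not_odd_iff_even.1 (c a ha)).two_dvd
      omega
    exact exists_orth_je h2 (oddF_nondeg h2 d) (by simp [e]; omega) h3 ha k
  refine ⟨?_, key⟩
  have := three_le p h2
  obtain ⟨ν, h1, rfl, h3⟩ := key ((1 + 2 * (d % 2)) ::ₘ .replicate (2 * (d / 2)) 2) (by simp [Multiset.mem_replicate]; omega)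
    (fun e he => by simp only [Multiset.count_cons, Multiset.count_replicate, Nat.even_iff] at he ⊢; split_ifs <;> omega) (by simp; omega)
  have := h3 2 even_two
  rcases le_cons_cases h1 with h | ⟨ν, rfl, h⟩ <;> obtain ⟨k, -, rfl⟩ := Multiset.le_replicate_iff.1 h <;>
    simp [Multiset.count_cons, Nat.even_iff] at this hme ⊢ <;> omega


end Cfsg.Agent.S5995
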