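import Cfsg.Statements.S5997
import Cfsg.Agent.H5.SL2X

set_option autoImplicit false
open scoped MatrixGroups
open Cfsg

namespace Cfsg.Agent.S5997

open H5

/-- Elements of prime order of PSL_2(p) and the normalizer of a quaternion subgroup. Here `T = PSL_2(F)` for the field `F` with `p` elements, `p ≥ 5` prime; `R` is a subgroup of GL_2(F) isomorphic to the quaternion group of order 8 (an absolutely irreducible 2-group of symplectic type), and `H` is the subgroup of matrices of determinant 1 normalizing `R` — a subgroup of type 2^{1+2}.O₂⁻(2), isomorphic modulo scalars to A₄ or S₄ (maximality is not assumed). Ω is the set of cosets of `H` in `T`, so an element of `T` of prime order `r` (a matrix `x` of determinant 1 with `x^r` scalar, `x` not scalar) fixes a point of Ω exactly when some conjugate of `x` by a matrix of determinant 1 normalizes `R`. Let `r` be a prime dividing the index of `H`. Then every element of `T` of order `r` fixes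 a point of Ω if and only if `r = 2` or `r = 3`. -/
theorem result {F : Type*} [Field F] [Fintype F] {p : ℕ} [Fact p.Prime] [CharP F p] (hF : Fintype.card F = p) (hp : 5 ≤ p)
    (R : Subgroup (GL (Fin 2) F)) (hR : Nonempty (↥R ≃* QuaternionGroup 2))
    (r : ℕ) [Fact r.Prime]
    (hΩ : r ∣ (Cfsg.Geo.subgroupNormalizer R).relIndex (Cfsg.Geo.specialLinear (Fin 2) F)) :
    (∀ x ∈ Cfsg.Geo.specialLinear (Fin 2) F, (∃ z : F, ((x ^ r : GL (Fin 2) F) : Matrix (Fin 2) (Fin 2) F) = z • (1 : Matrix (Fin 2) (Fin 2) F)) →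
      (∀ z : F, (x : Matrix (Fin 2) (Fin 2) F) ≠ z • (1 : Matrix (Fin 2) (Fin 2) F)) →
      ∃ g ∈ Cfsg.Geo.specialLinear (Fin 2) F, g⁻¹ * x * g ∈ Cfsg.Geo.subgroupNormalizer R) ↔ (r = 2 ∨ r = 3) := by
  have hp2 : p ≠ 2 := by omega
  have h2 := (char_ne_two (F := F) p).1 hp2
  have ho : Odd (Fintype.card F) := Nat.not_even_iff_odd.1 (mt even_iff_two_eq_zero.1 h2)
  have hr : r.Prime := Fact.out
  obtain ⟨e⟩ := hR
  let ψ : QuaternionGroup 2 →* GL2 F := R.subtype.comp e.symm.toMonoidHom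
  have hψ : Function.Injective ψ := R.subtype_injective.comp e.symm.injective
  have hRψ : ψ.range = R := by
    rw [MonoidHom.range_comp, MonoidHom.range_eq_top.2 e.symm.surjective, ← MonoidHom.range_eq_map, Subgroup.range_subtype]
  have hSL : ∀ g : GL2 F, g ∈ Cfsg.Geo.specialLinear (Fin 2) F ↔ ∃ s, toG s = g := fun g => by
    rw [Cfsg.Geo.specialLinear, ← range_toGL]; rfl
  have hz : ψ (.a 2) = toG (-1) := by
    obtain ⟨z, hz⟩ := (hSL (ψ (.a 2))).1 (by
      rw [show (.a 2 : QuaternionGroup 2) = .a 1 * .xa 0 * (.a 1)⁻¹ * (.xa 0)⁻¹ by decide]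
      simp only [Cfsg.Geo.specialLinear, MonoidHom.mem_ker, map_mul, map_inv]
      rw [mul_right_comm, mul_right_comm (_ * _)]; simp)
    rw [← hz]
    refine congrArg _ ((sl2_sq_eq_one h2 (toG_inj ?_)).resolve_left ?_)
    · rw [map_mul, hz, ← map_mul, map_one, ← ψ.map_one]; congr 1
    · rintro rfl
      exact absurd (hψ (hz.symm.trans (by simp))) (by decide : QuaternionGroup.a (2 : ZMod (2 * 2)) ≠ 1)
  have hψS : ∀ x, ∃ s, toG s = ψ x := fun x => by
    have : x = 1 ∨ x = .a 2 ∨ (x * x = .a 2 ∧ ∃ y, x * y ≠ y * x) := by revert x; decide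
    rcases this with rfl | rfl | ⟨h, y, hy⟩
    · exact ⟨1, by simp⟩
    · exact ⟨-1, hz.symm⟩
    · have h1 : ψ x * ψ x = toG (-1) := by rw [← map_mul, h, hz]
      have h3 : mkG (ψ x) ≠ 1 := fun e => hy (hψ (by
        rw [map_mul, map_mul]; exact (Subgroup.mem_center_iff.1 ((QuotientGroup.eq_one_iff _).1 e) _).symm))
      have h4 : (ψ x).1 * (ψ x).1 = -1 := congrArg Units.val h1
      have := eq_zero_of_comb h3 (a := 1 - (ψ x).1.det) (b := (ψ x).1.trace) (by
        rw [sq_fin_two] at h4; rw [sub_smul, one_smul, add_comm, add_sub_left_comm, h4]; simp)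
      exact ⟨⟨(ψ x).1, (sub_eq_zero.1 this.1).symm⟩, Units.ext rfl⟩
  have hRS : (R.comap toG).map toG = R := Subgroup.map_comap_eq_self (by rw [← hRψ]; rintro _ ⟨x, rfl⟩; exact hψS x)
  have hm1 : -1 ∈ R.comap toG := by rw [Subgroup.mem_comap, ← hz, ← hRψ]; exact ⟨_, rfl⟩
  generalize R.comap toG = Q at hRS hm1
  subst hRS
  have hN : ∀ s : SL2 F, toG s ∈ Cfsg.Geo.subgroupNormalizer (Q.map toG) ↔ s ∈ Subgroup.normalizer (Q : Set (SL2 F)) := fun s => by
    rw [Cfsg.Geo.subgroupNormalizer, ← cj_eq_self_iff, ← cj_eq_self_iff, ← map_cj, (Subgroup.map_injective toG_inj).eq_iff]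
  have hc : Nat.card Q = 8 := by
    rw [card_equiv (Q.equivMapOfInjective toG toG_inj), card_equiv e, Nat.card_eq_fintype_card, QuaternionGroup.card]
  have hV : IsKleinFour (Q.map mkS) := by
    have h3 := card_eq_map_mkS hm1
    rw [hc, gcd_two_of_odd ho] at h3
    have : Nontrivial (Q.map mkS) := Finite.one_lt_card_iff_nontrivial.1 (by omega)
    refine ⟨by omega, (Monoid.exponent_eq_prime_iff Nat.prime_two).2 ?_⟩
    rintro ⟨_, s, hs, rfl⟩ h1
    refine orderOf_eq_prime (Subtype.ext ?_) h1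
    obtain ⟨x, hx⟩ : toG s ∈ ψ.range := hRψ ▸ ⟨s, hs, rfl⟩
    have : x ^ 2 = 1 ∨ x ^ 2 = .a 2 := (by decide : ∀ x : QuaternionGroup 2, x ^ 2 = 1 ∨ x ^ 2 = .a 2) x
    change mkS s ^ 2 = 1
    rw [← map_pow, mkS_eq_one_iff]
    exact this.imp (fun h => toG_inj (by rw [map_pow, ← hx, ← map_pow, h, map_one, map_one]))
      fun h => toG_inj (by rw [map_pow, ← hx, ← map_pow, h, hz])
  have hS : Q.map mkS ≤ PS F := by rintro _ ⟨g, -, rfl⟩; exact mkS_mem_PS g
  obtain ⟨e2⟩ := normalizer_klein h2 hV hS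
  simp only [hSL]
  rw [normalizer_comap_mkS hm1] at hN
  generalize Subgroup.normalizer (Q.map mkS : Set (PG F)) = X at hN e2
  have hsc : ∀ s : SL2 F, (∃ z : F, (toG s).1 = z • (1 : Matrix (Fin 2) (Fin 2) F)) ↔ mkS s = 1 := fun s => by
    rw [← mkG_toG, mkG_eq_one_iff]
    refine ⟨fun ⟨z, h⟩ => by simp only [h]; simp, fun ⟨a, b, c⟩ => ⟨(toG s).1 0 0, ?_⟩⟩
    ext i j; fin_cases i <;> fin_cases j <;> simp at a b c ⊢ <;> simp [a, b, c]
  constructor
  · intro h
    by_contra! h3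
    have h4 : r ∣ Nat.card (PS F) := by
      have h5 := hΩ.trans (Subgroup.relIndex_dvd_card _ _)
      rw [Cfsg.Geo.specialLinear, ← card_equiv slEquivKerDet, card_SL2, ← card_PS, gcd_two_of_odd ho] at h5
      exact ((Nat.coprime_primes hr Nat.prime_two).2 h3.1).dvd_of_dvd_mul_left h5
    obtain ⟨⟨_, s, rfl⟩, hs⟩ := exists_prime_orderOf_dvd_card' r h4
    rw [← Subgroup.orderOf_coe] at hs
    change orderOf (mkS s) = r at hs
    obtain ⟨_, ⟨g, rfl⟩, hg⟩ := h _ ⟨s, rfl⟩ (by rw [← map_pow, hsc, map_pow, ← hs, pow_orderOf_eq_one]) fun z hz => by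
      rw [(hsc s).1 ⟨z, hz⟩, orderOf_one] at hs; exact hr.one_lt.ne hs
    rw [← map_inv, ← map_mul, ← map_mul, hN] at hg
    have h5 := Subgroup.orderOf_dvd_natCard _ (show mkS _ ∈ X from hg)
    rw [card_equiv e2, KB.card_S4, map_mul, map_mul, map_inv, ← orderOf_conj' (mkS g), show 24 = 2 ^ 3 * 3 from rfl] at h5
    simp only [mul_assoc, mul_inv_cancel_left, mul_inv_cancel, mul_one, hs] at h5
    rcases (Nat.Prime.dvd_mul hr).1 h5 with h5 | h5
    · exact h3.1 ((Nat.prime_dvd_prime_iff_eq hr Nat.prime_two).1 (hr.dvd_of_dvd_pow h5))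
    · exact h3.2 ((Nat.prime_dvd_prime_iff_eq hr Nat.prime_three).1 h5)
  · rintro h _ ⟨s, rfl⟩ h3 h4
    rw [← map_pow, hsc, map_pow] at h3
    have h5 : mkS s ≠ 1 := fun e => by obtain ⟨z, hz⟩ := (hsc s).2 e; exact h4 z hz
    obtain ⟨K, hK, ⟨e3⟩⟩ := S4_sub e2
    obtain ⟨⟨t, ht⟩, h6⟩ := exists_prime_orderOf_dvd_card' (G := K) r (by
      rw [card_equiv e3, KB.card_A4]; rcases h with rfl | rfl <;> norm_num)
    obtain ⟨t, rfl⟩ := A4_le_PS e3 ht
    rw [← Subgroup.orderOf_coe] at h6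
    change orderOf (mkS t) = r at h6
    have h7 : mkS t ≠ 1 := fun e => by rw [e, orderOf_one] at h6; exact hr.one_lt.ne h6
    have h8 := orderOf_dvd_iff_pow_eq_one.1 h6.dvd
    have h9 : s.1.trace ^ 2 = t.1.trace ^ 2 ∧ s.1.trace ^ 2 ≠ 4 := by
      rw [← kap_mkS, ← kap_mkS]
      rcases h with rfl | rfl
      · rw [(pow_two_eq_one_iff.1 h3).resolve_left h5, (pow_two_eq_one_iff.1 h8).resolve_left h7]
        exact ⟨rfl, (four_ne_zero' h2).symm⟩
      · rw [(pow_three_eq_one_iff.1 h3).resolve_left h5, (pow_three_eq_one_iff.1 h8).resolve_left h7]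
        refine ⟨rfl, fun e => ?_⟩
        have := Nat.le_of_dvd (by norm_num) ((CharP.cast_eq_zero_iff F p 3).1 (by push_cast; linear_combination -e))
        omega
    have h10 : ∃ t', mkS t' ∈ X ∧ s.1.trace = t'.1.trace := by
      rcases sq_eq_sq_iff_eq_or_eq_neg.1 h9.1 with h | h
      exacts [⟨t, hK ht, h⟩, ⟨-t, mkS_neg t ▸ hK ht, h.trans (trace_neg_SL t).symm⟩]
    obtain ⟨t, h10, h11⟩ := h10
    obtain ⟨g, rfl⟩ := isConj_iff.1 (isConj_of_trace h11 h9.2)
    exact ⟨_, ⟨g⁻¹, rfl⟩, by rw [← map_inv, ← map_mul, ← map_mul, hN, inv_inv]; exact h10⟩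


end Cfsg.Agent.S5997
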